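import Mathlib
import Cfsg.Statements.S5440
import Cfsg.Agent.H01.XF4

set_option autoImplicit false
open Cfsg

namespace Cfsg.Agent.S5440

/-- Let G be a finite group of large Fischer type at the involution z: the generalized Fitting subgroup Q of H = C_G(z) is extraspecial of order 2^13, H has normal subgroups Q ≤ H₁ ≤ H₂ with H₁/Q of order 3, H₂/H₁ the projective special unitary group of dimension 4 over the field with nine elements and H₂ of index 2 in H, and some conjugate of z other than z lies in Q. Then H has exactly two orbits, under conjugation, on the involutions of Q other than z. -/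
theorem result {G : Type*} [Group G] [Finite G] (z : G) (Q : Subgroup (Subgroup.centralizer ({z} : Set G))) [Q.Normal] (hF : Cfsg.IsOfLargeFischerTypeAt z Q) : ∃ s t : Subgroup.centralizer ({z} : Set G), s ∈ Q ∧ t ∈ Q ∧ orderOf s = 2 ∧ orderOf t = 2 ∧ (s : G) ≠ z ∧ (t : G) ≠ z ∧ (¬ ∃ h : Subgroup.centralizer ({z} : Set G), h * s * h⁻¹ = t) ∧ ∀ x : Subgroup.centralizer ({z} : Set G), x ∈ Q → orderOf x = 2 → (x : G) ≠ z → (∃ h : Subgroup.centralizer ({z} : Set G), h * s * h⁻¹ = x) ∨ ∃ h : Subgroup.centralizer ({z} : Set G), h * t * h⁻¹ = x := by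
    obtain ⟨V, _, _, _, π, ν, T, d, M, β, q, b⟩ := H01.XF.br hF
    obtain ⟨g, ⟨m, i⟩, n⟩ := hF.1.2.2.2.2
    have h := b.pt g ⟨_, i, rfl⟩ n
    obtain ⟨t, t0, qt, t1, t2⟩ := h.tr2
    obtain ⟨_, ⟨t, j, rfl⟩, rfl⟩ := b.md.sur t
    have tQ : t.1 ∈ Q.map (Subgroup.subtype _) := ⟨t, j, rfl⟩
    have k := mt (b.md.ker _ tQ).2 t0
    have o : ∀ x : Subgroup.centralizer ({z} : Set G), x.1 * x.1 = 1 → x.1 ≠ 1 → orderOf x = 2 := fun x e n =>
      orderOf_eq_prime (Subtype.ext ((pow_two x.1).trans e)) fun e => n (congrArg Subtype.val e)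
    refine ⟨⟨_, m⟩, t, i, j, o _ (b.md.lx.cj g).zz (b.md.lx.cj g).z1, o _ ((b.sq _ tQ).1 qt) fun e => k (.inl e), n,
      fun e => k (.inr e), fun ⟨y, e⟩ => t1 ⟨π y, ?_⟩, fun x l o' n' => ?_⟩
    · exact (b.act _ y.2 _ ⟨_, i, rfl⟩).trans (congrArg (fun x : Subgroup.centralizer ({z} : Set G) => ν x) e)
    · have xQ : x.1 ∈ Q.map (Subgroup.subtype _) := ⟨x, l, rfl⟩
      have x2 : x.1 * x.1 = 1 := by
        rw [← pow_two, ← o', ← Subgroup.orderOf_coe, pow_orderOf_eq_one]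
      have x0 : ν x ≠ 0 := fun e => ((b.md.ker _ xQ).1 e).elim (fun e => by
        rw [← Subgroup.orderOf_coe, e] at o'; simp at o') n'
      refine (t2 _ x0 ((b.sq _ xQ).2 x2)).imp ?_ ?_ <;> rintro ⟨y, e⟩ <;> obtain ⟨y, m, rfl⟩ := b.sur y
      · obtain ⟨y, o, e, -⟩ := b.adj m ⟨_, i, rfl⟩ xQ x2 x0 e
        exact ⟨⟨y, o⟩, Subtype.ext e⟩
      · obtain ⟨y, o, e, -⟩ := b.adj m tQ xQ x2 x0 e
        exact ⟨⟨y, o⟩, Subtype.ext e⟩

end Cfsg.Agent.S5440
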