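import Mathlib
import Cfsg.Agent.H10.Bridge
import Cfsg.Agent.H09.SpOrder
import Cfsg.Statements.S0304

set_option autoImplicit false
open Cfsg

namespace Cfsg.Agent.S0304

/-- In characteristic 2, O_{2m+1}(q) is isomorphic to Sp_{2m}(q). -/
theorem result {F : Type*} [Field F] [Fintype F] [CharP F 2] (m : ℕ) : Nonempty (Cfsg.isometryGroup F (Cfsg.quadFormOdd m F) ≃* Matrix.symplecticGroup (Fin m) F) := by
  have h2 : (2 : F) = 0 := CharTwo.two_eq_zero
  have h := H10.Form.isQuad_ofQuad (H10.qOdd m F)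
  set φ := H10.Form.ofQuad (H10.qOdd m F)
  set ψ := H09.spForm (Fin m) F
  let π : (Unit ⊕ (Fin m ⊕ Fin m) → F) →ₗ[F] (Fin m ⊕ Fin m → F) := LinearMap.funLeft F F Sum.inr
  let ι : (Fin m ⊕ Fin m → F) →ₗ[F] (Unit ⊕ (Fin m ⊕ Fin m) → F) :=
    { toFun := fun v => Sum.elim 0 v
      map_add' := fun x y => by funext i; rcases i with i | i <;> simp
      map_smul' := fun c x => by funext i; rcases i with i | i <;> simp }
  let u : Unit ⊕ (Fin m ⊕ Fin m) → F := Pi.single (.inl ()) 1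
  have πι : ∀ v, π (ι v) = v := fun _ => rfl
  have πu : π u = 0 := by funext i; simp [π, u]
  have dec : ∀ x, x = x (.inl ()) • u + ι (π x) := fun x => by
    funext i; rcases i with i | i <;> simp [π, ι, u]
  have hB : ∀ x y, φ.B x y = ψ.B (π x) (π y) := fun x y => by
    change QuadraticMap.polar (Cfsg.quadFormOdd m F) _ _ = _
    simp [H10.polar_quadFormOdd, ψ, H09.spB_apply', h2, π, CharTwo.sub_eq_add, add_comm, mul_comm]
  have hu : φ.Q u = 1 := by
    change Cfsg.quadFormOdd m F _ = _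
    simp [Cfsg.quadFormOdd, u]
  have hQ : ∀ (c : F) x, φ.Q (c • u + x) = c ^ 2 + φ.Q x := fun c x => by
    rw [h.Q_add, h.Q_smul, hu, hB]; simp [πu, sq]
  have sq_inj : ∀ {a b : F}, a ^ 2 = b ^ 2 → a = b := fun H => frobenius_inj F 2 H
  have gu : ∀ g : φ.Isom, g.1 u = u := fun g => by
    have h1 : π (g.1 u) = 0 := ψ.eq_zero_of_B_left fun y => by
      rw [← πι y, ← hB, ← H10.Form.Isom.B_symm_right g, hB, πu]; simp
    have h3 := dec (g.1 u)
    have h4 := H10.Form.Isom.Q_map g u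
    rw [h3, h1, hQ, hu] at h4
    rw [h3, h1, sq_inj (a := g.1 u (.inl ())) (b := 1) (by simpa using h4)]; simp
  have gπ : ∀ (g : φ.Isom) x, π (g.1 (ι (π x))) = π (g.1 x) := fun g x => by
    conv_rhs => rw [dec x]
    simp [gu, πu]
  have hi : ∀ g : φ.Isom, ψ.IsIsom (π ∘ₗ g.1.toLinearMap ∘ₗ ι) := fun g =>
    ⟨fun x y => by simp [← hB]; simp [hB, πι], fun _ => rfl⟩
  let f : φ.Isom →* ψ.Isom := MonoidHom.mk' (fun g => ψ.toIsom (π ∘ₗ g.1.toLinearMap ∘ₗ ι)) fun a b =>
    H10.Form.Isom.ext fun x => by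
      rw [H10.Form.Isom.mul_apply, ψ.toIsom_apply (hi _), ψ.toIsom_apply (hi _), ψ.toIsom_apply (hi _)]
      exact (gπ a _).symm
  have hf : ∀ g x, (f g).1 x = π (g.1 (ι x)) := fun g => ψ.toIsom_apply (hi g)
  refine ⟨(H10.isometryEquiv (H10.qOdd m F)).trans ((MulEquiv.ofBijective f ⟨?_, fun k => ?_⟩).trans
    (H09.spIsomEquiv _ F).symm)⟩
  · refine (injective_iff_map_eq_one f).2 fun g hg => H10.Form.Isom.ext fun x => ?_
    have h1 : π (g.1 x) = π x := by rw [← gπ, ← hf, hg]; rfl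
    have h3 := H10.Form.Isom.Q_map g x
    rw [dec (g.1 x), dec x, hQ, hQ, ← dec x, h1, add_left_inj] at h3
    rw [dec (g.1 x), h1, sq_inj h3]; exact (dec x).symm
  · have hs : ∀ a : F, ∃ b, b ^ 2 = a := fun a => surjective_frobenius F 2 a
    choose s hs using hs
    let l : (Fin m ⊕ Fin m → F) →ₗ[F] F :=
      { toFun := fun v => s (φ.Q (ι v) - φ.Q (ι (k.1 v)))
        map_add' := fun x y => sq_inj (by
          rw [CharTwo.add_sq, hs, hs, hs]
          simp only [map_add, h.Q_add, hB, πι, H10.Form.Isom.B_map]; ring)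
        map_smul' := fun c x => sq_inj (by
          rw [RingHom.id_apply, smul_eq_mul, mul_pow, hs, hs]
          simp only [map_smul, h.Q_smul]; ring) }
    let g : (Unit ⊕ (Fin m ⊕ Fin m) → F) →ₗ[F] (Unit ⊕ (Fin m ⊕ Fin m) → F) :=
      (LinearMap.proj (R := F) (φ := fun _ => F) (Sum.inl ()) + l ∘ₗ π).smulRight u + ι ∘ₗ k.1.toLinearMap ∘ₗ π
    have hg : ∀ x, g x = (x (.inl ()) + l (π x)) • u + ι (k.1 (π x)) := fun _ => rfl
    have hgQ : ∀ x, φ.Q (g x) = φ.Q x := fun x => by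
      rw [hg, hQ, CharTwo.add_sq]
      conv_rhs => rw [dec x, hQ]
      simp [l, hs]; ring
    have hinj : Function.Injective g := (injective_iff_map_eq_zero g).2 fun x hx => by
      have h1 : π x = 0 := by simpa [hg, πu, πι] using congrArg π hx
      have h3 := hgQ x
      rw [hx, dec x, hQ, h1] at h3
      rw [dec x, h1, sq_inj (a := x (.inl ())) (b := 0) (by simpa using h3.symm)]; simp
    refine ⟨⟨LinearEquiv.ofInjectiveEndo g hinj, h.isIsom hgQ⟩, H10.Form.Isom.ext fun x => ?_⟩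
    rw [hf]
    change π (g (ι x)) = _
    simp [hg, πu, πι]

end Cfsg.Agent.S0304
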