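import Mathlib
import Cfsg.Statements.S1554
import Cfsg.Agent.H14.M24St

set_option autoImplicit false
open scoped Pointwise
open Cfsg

namespace Cfsg.Agent.S1554

/-- An octad stabiliser is a split extension: the joint stabiliser of the octad and a point outside it is a complement to the pointwise stabiliser of the octad, and is isomorphic to the alternating group of degree 8. -/
theorem result (o : Finset Cfsg.GolayPt) (ho : o ∈ Cfsg.octads) (p : Cfsg.GolayPt) (hp : p ∉ o) : (Cfsg.M24 ⊓ fixingSubgroup (Equiv.Perm Cfsg.GolayPt) (o : Set Cfsg.GolayPt)) ⊓ (Cfsg.M24 ⊓ MulAction.stabilizer (Equiv.Perm Cfsg.GolayPt) o ⊓ MulAction.stabilizer (Equiv.Perm Cfsg.GolayPt) p) = ⊥ ∧ (Cfsg.M24 ⊓ fixingSubgroup (Equiv.Perm Cfsg.GolayPt) (o : Set Cfsg.GolayPt)) ⊔ (Cfsg.M24 ⊓ MulAction.stabilizer (Equiv.Perm Cfsg.GolayPt) o ⊓ MulAction.stabilizer (Equiv.Perm Cfsg.GolayPt) p) = (Cfsg.M24 ⊓ MulAction.stabilizer (Equiv.Perm Cfsg.GolayPt)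 o) ∧ Nonempty (↥(Cfsg.M24 ⊓ MulAction.stabilizer (Equiv.Perm Cfsg.GolayPt) o ⊓ MulAction.stabilizer (Equiv.Perm Cfsg.GolayPt) p) ≃* alternatingGroup (Fin 8)) := by
  have h0 : Nat.card ↥(Cfsg.M24 ⊓ MulAction.stabilizer (Equiv.Perm Cfsg.GolayPt) o) = 322560 :=
    (Nat.card_congr (H14.eqvM (H := Cfsg.M24 ⊓ MulAction.stabilizer (Equiv.Perm Cfsg.GolayPt) o)
      (K := MulAction.stabilizer Cfsg.M24 o) fun _ =>
      ⟨fun h => ⟨h.1, h.2⟩, fun ⟨a, b⟩ => ⟨a, b⟩⟩).toEquiv).symm.trans (H14.card_stab_octad ho)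
  have h1 := H14.card_eq_mul_stab (Cfsg.M24 ⊓ MulAction.stabilizer (Equiv.Perm Cfsg.GolayPt) o) p {q | q ∉ o}
    (fun g hg => (H14.mem_iff_of_smul_eq hg.2 p).not.2 hp) fun q hq => by
      obtain ⟨g, hg, a, b⟩ := H14.octad_out_trans ho hp hq
      exact ⟨g, ⟨hg, H14.smul_octad_eq_of_fix hg ho a (by rw [Finset.inter_self, ho.2]; norm_num)⟩, b⟩
  rw [h0, H14.ncard_compl_finset, ho.2] at h1
  refine ⟨eq_bot_iff.2 fun g hg => H14.eq_one_of_fix_octad hg.1.1 ho le_rfl (by rw [ho.2]; norm_num) hp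
    (fun x hx => hg.1.2 ⟨x, hx⟩) hg.2.2, le_antisymm (sup_le (fun g hg => ⟨hg.1, H14.smul_octad_eq_of_fix hg.1 ho
      (fun x hx => hg.2 ⟨x, hx⟩) (by rw [Finset.inter_self, ho.2]; norm_num)⟩) inf_le_left) fun g hg => ?_, ?_⟩
  · obtain ⟨k, hk, a, b⟩ := H14.octad_out_trans ho hp ((H14.mem_iff_of_smul_eq hg.2 p).not.2 hp)
    rw [← mul_inv_cancel_left k g]
    refine Subgroup.mul_mem_sup ⟨hk, fun x => a x x.2⟩ ⟨⟨Cfsg.M24.mul_mem (inv_mem hk) hg.1, Subgroup.mul_mem _ (Subgroup.inv_mem _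
      (show k ∈ MulAction.stabilizer _ o from H14.smul_octad_eq_of_fix hk ho a
        (by rw [Finset.inter_self, ho.2]; norm_num))) hg.2⟩, ?_⟩
    change k⁻¹ (g p) = p
    rw [← b]; simp
  · let φ : ↥(Cfsg.M24 ⊓ MulAction.stabilizer (Equiv.Perm Cfsg.GolayPt) o ⊓
        MulAction.stabilizer (Equiv.Perm Cfsg.GolayPt) p) →* Equiv.Perm o :=
      { toFun g := g.1.subtypePerm (H14.mem_iff_of_smul_eq g.2.1.2)
        map_one' := rfl
        map_mul' _ _ := rfl }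
    have h2 : Function.Injective φ := (injective_iff_map_eq_one φ).2 fun g hg => Subtype.ext
      (H14.eq_one_of_fix_octad g.2.1.1 ho le_rfl (by rw [ho.2]; norm_num) hp
        (fun x hx => congrArg Subtype.val (Equiv.congr_fun hg ⟨x, hx⟩)) g.2.2)
    have h3 := φ.range.card_mul_index
    rw [Nat.card_perm, Nat.card_eq_fintype_card (α := o), Fintype.card_coe, ho.2,
      ← Nat.card_congr (MonoidHom.ofInjective h2).toEquiv, show Nat.card _ = 20160 by omega] at h3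
    exact ⟨((MonoidHom.ofInjective h2).trans (MulEquiv.subgroupCongr (Equiv.Perm.eq_alternatingGroup_of_index_eq_two
      (by norm_num [Nat.factorial] at h3; omega)))).trans (o.equivFinOfCardEq ho.2).altCongrHom⟩

end Cfsg.Agent.S1554
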