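import Mathlib
import Cfsg.Statements.S1553
import Cfsg.Agent.H14.M24St

set_option autoImplicit false
open scoped Pointwise
open Cfsg

namespace Cfsg.Agent.S1553

/-- The stabiliser of an octad in the group of the length-24 code induces on the octad exactly its alternating group. -/
theorem result (o : Finset Cfsg.GolayPt) (ho : o ∈ Cfsg.octads) : {e : Equiv.Perm ↥o | ∃ g : Equiv.Perm Cfsg.GolayPt, g ∈ Cfsg.M24 ∧ ∃ h : (∀ x, g x ∈ o ↔ x ∈ o), g.subtypePerm h = e} = (alternatingGroup ↥o : Set (Equiv.Perm ↥o)) := by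
  let φ : MulAction.stabilizer Cfsg.M24 o →* Equiv.Perm o :=
    { toFun g := (g.1 : Equiv.Perm Cfsg.GolayPt).subtypePerm (H14.mem_iff_of_smul_eq g.2)
      map_one' := rfl
      map_mul' _ _ := rfl }
  have h1 : Nat.card φ.ker = 16 := by
    rw [← H14.card_fix_octad ho]
    exact Nat.card_congr
      { toFun x := ⟨x.1.1.1, x.1.1.2, fun p => congrArg Subtype.val (Equiv.congr_fun (MonoidHom.mem_ker.1 x.2) p)⟩
        invFun x := ⟨⟨⟨x.1, x.2.1⟩, H14.smul_octad_eq_of_fix x.2.1 ho (fun p hp => x.2.2 ⟨p, hp⟩)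
          (by rw [Finset.inter_self, ho.2]; norm_num)⟩, MonoidHom.mem_ker.2 (Equiv.ext fun p => Subtype.ext (x.2.2 p))⟩
        left_inv _ := rfl
        right_inv _ := rfl }
  have h2 := φ.ker.card_mul_index
  have h3 := φ.range.card_mul_index
  rw [Subgroup.index_ker, h1, H14.card_stab_octad ho] at h2
  rw [Nat.card_perm, Nat.card_eq_fintype_card (α := o), Fintype.card_coe, ho.2, show Nat.card φ.range = 20160 by omega] at h3
  rw [← Equiv.Perm.eq_alternatingGroup_of_index_eq_two (G := φ.range) (by norm_num [Nat.factorial] at h3; omega)]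
  ext e
  exact ⟨fun ⟨g, hg, h, a⟩ => ⟨⟨⟨g, hg⟩, Finset.ext fun x => Finset.inv_smul_mem_iff.symm.trans
    ((h _).symm.trans (by simp [Subgroup.smul_def]))⟩, a⟩, fun ⟨g, a⟩ => ⟨g.1, g.1.2, H14.mem_iff_of_smul_eq g.2, a⟩⟩

end Cfsg.Agent.S1553
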