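import Mathlib
import Cfsg.Agent.L.SL2Loc
-- Template for statement S2437 (row 2437; see /opt/grader/pristine/manifest.json for weights).
-- Copy to Cfsg/Agent/S2437.lean and replace the sorry. The statement below is byte-identical to the frozen
-- statement Cfsg.CfsgFrozen.S2437 (Cfsg/Statements/S2437.lean; the theorem Cfsg.lie5_special_linear_two_borel_card_conj_classes_odd);
-- the grader kernel-checks Cfsg.Agent.S2437.result against that frozen type. Keep the theorem IN THIS FILE
-- (a `result` declared elsewhere and merely imported here is not credited); helpers may live anywhere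
-- under Cfsg/Agent/.
import Cfsg.Statements.S2437
-- import your own Cfsg.Agent.* helpers here

set_option autoImplicit false
open Cfsg

namespace Cfsg.Agent.S2437

open L in
theorem aux {F : Type*} [Field F] (a : Fˣ) (b : F) : ∃ g : (Cfsg.upperTriangularGL 2 F).comap Matrix.SpecialLinearGroup.toGL,
    (g.1 : M2 F) = !![(a : F), b; 0, (a⁻¹ : Fˣ)] :=
  ⟨⟨mkSL !![(a : F), b; 0, (a⁻¹ : Fˣ)] (by simp [Matrix.det_fin_two]), by
    intro i j h
    fin_cases i <;> fin_cases j <;> first | rfl | simp at h⟩, rfl⟩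

open L in
theorem aux2 {F : Type*} [Field F] (g : (Cfsg.upperTriangularGL 2 F).comap Matrix.SpecialLinearGroup.toGL) :
    ∃ (a : Fˣ) (b : F), (g.1 : M2 F) = !![(a : F), b; 0, (a⁻¹ : Fˣ)] := by
  have h1 : (g.1 : M2 F) 1 0 = 0 := g.2 (i := 1) (j := 0) (by simp)
  have h2 := SL2_det g.1
  rw [h1, mul_zero, sub_zero] at h2
  refine ⟨Units.mkOfMulEqOne _ _ h2, (g.1 : M2 F) 0 1, ?_⟩
  rw [m2_ext_iff]
  exact ⟨rfl, rfl, h1, rfl⟩

open L in
theorem aux3 {F : Type*} [Field F] {g h : (Cfsg.upperTriangularGL 2 F).comap Matrix.SpecialLinearGroup.toGL}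
    {a c : Fˣ} {b d : F} (hg : (g.1 : M2 F) = !![(a : F), b; 0, (a⁻¹ : Fˣ)])
    (hh : (h.1 : M2 F) = !![(c : F), d; 0, (c⁻¹ : Fˣ)]) :
    IsConj g h ↔ a = c ∧ ∃ (x : Fˣ) (y : F), d = x ^ 2 * b + x * y * ((a⁻¹ : Fˣ) - a) := by
  have key : ∀ (k : (Cfsg.upperTriangularGL 2 F).comap Matrix.SpecialLinearGroup.toGL) (x : Fˣ) (y : F),
      (k.1 : M2 F) = !![(x : F), y; 0, (x⁻¹ : Fˣ)] →
      (k * g * k⁻¹ = h ↔ a = c ∧ d = x ^ 2 * b + x * y * ((a⁻¹ : Fˣ) - a)) := by
    intro k x y hk
    rw [mul_inv_eq_iff_eq_mul, Subtype.ext_iff, SL2_ext_iff, Subgroup.coe_mul, Subgroup.coe_mul, SL2_coe_mul,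
      SL2_coe_mul, hk, hg, hh, m2_ext_iff]
    simp only [m2_mul_apply, Matrix.of_apply, Matrix.cons_val', Matrix.cons_val_zero, Matrix.cons_val_one,
      Matrix.cons_val_fin_one, Units.val_inv_eq_inv_val]
    have hx := x.ne_zero
    constructor
    · rintro ⟨h1, h2, -, -⟩
      obtain rfl : a = c := Units.ext (mul_left_cancel₀ hx (by linear_combination h1))
      refine ⟨rfl, ?_⟩
      have : d = d * (x : F)⁻¹ * x := by field_simp
      linear_combination this - (x : F) * h2
    · rintro ⟨rfl, rfl⟩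
      refine ⟨by ring, ?_, by ring, by ring⟩
      field_simp; ring
  rw [isConj_iff]
  constructor
  · rintro ⟨k, hk⟩
    obtain ⟨x, y, h1⟩ := aux2 k
    obtain ⟨h2, h3⟩ := (key k x y h1).1 hk
    exact ⟨h2, x, y, h3⟩
  · rintro ⟨h2, x, y, h3⟩
    obtain ⟨k, hk⟩ := aux x y
    exact ⟨k, (key k x y hk).2 ⟨h2, h3⟩⟩

/-- Over a finite field F with q elements, q odd, the upper triangular subgroup of SL₂ (a Borel subgroup, of order q(q − 1)) has exactly q + 3 conjugacy classes. -/
theorem result {F : Type*} [Field F] [Fintype F] (hodd : Odd (Fintype.card F)) :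
    Nat.card (ConjClasses ((Cfsg.upperTriangularGL 2 F).comap Matrix.SpecialLinearGroup.toGL)) = Fintype.card F + 3 := by
  classical
  have h2 := L.two_ne_zero_of_odd hodd
  obtain ⟨ν, hν⟩ := FiniteField.exists_nonsquare (L.ringChar_ne_two h2)
  have hν0 : ν ≠ 0 := by rintro rfl; exact hν IsSquare.zero
  choose m hm using aux (F := F)
  let A : Fˣ ⊕ Bool × Bool → Fˣ := fun x => match x with
    | .inl a => a
    | .inr (s, _) => if s then 1 else -1
  let B : Fˣ ⊕ Bool × Bool → F := fun x => match x with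
    | .inl _ => 0
    | .inr (_, t) => if t then 1 else ν
  have hs : ∀ s : Bool, (((if s then 1 else -1 : Fˣ)⁻¹ : Fˣ) : F) - (if s then 1 else -1 : Fˣ) = 0 := by
    intro s; cases s <;> simp
  have hB : ∀ t : Bool, (if t then 1 else ν) ≠ 0 := by intro t; cases t <;> simp [hν0]
  rw [L.card_conjClasses_of_reps (fun x => m (A x) (B x))]
  · have := Fintype.one_lt_card (α := F)
    simp only [Nat.card_eq_fintype_card, Fintype.card_sum, Fintype.card_units, Fintype.card_prod, Fintype.card_bool]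
    omega
  · intro g
    obtain ⟨a, b, hg⟩ := aux2 g
    by_cases hb : b = 0
    · exact ⟨.inl a, (aux3 (hm _ _) hg).2 ⟨rfl, 1, 0, by simp [B, hb]⟩⟩
    by_cases ha : ((a⁻¹ : Fˣ) : F) - a = 0
    · obtain ⟨s, rfl⟩ : ∃ s : Bool, a = if s then 1 else -1 := by
        have : (a : F) ^ 2 = 1 := by rw [sq]; nth_rewrite 1 [← sub_eq_zero.1 ha]; simp
        rcases sq_eq_one_iff.1 this with h | h
        · exact ⟨true, Units.ext h⟩
        · exact ⟨false, Units.ext h⟩
      by_cases hq : IsSquare b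
      · obtain ⟨x, rfl⟩ := hq
        exact ⟨.inr (s, true), (aux3 (hm _ _) hg).2 ⟨rfl, Units.mk0 x (left_ne_zero_of_mul hb), 0, by simp [B, sq]⟩⟩
      · obtain ⟨x, hx⟩ := L.isSquare_or_mul hν hq
        have hx0 : x ≠ 0 := by rintro rfl; exact mul_ne_zero hν0 hb (by simpa using hx)
        refine ⟨.inr (s, false), (aux3 (hm _ _) hg).2 ⟨rfl, Units.mk0 (x / ν) (div_ne_zero hx0 hν0), 0, ?_⟩⟩
        simp only [B, Units.val_mk0]
        field_simp
        simp only [Bool.false_eq_true, if_false]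
        linear_combination ν * hx
    · exact ⟨.inl a, (aux3 (hm _ _) hg).2 ⟨rfl, 1, b / ((a⁻¹ : Fˣ) - a), by
        simp only [A, B, Units.val_one]; field_simp; ring⟩⟩
  · intro x y h
    obtain ⟨h1, u, v, h3⟩ := (aux3 (hm _ _) (hm _ _)).1 h
    rcases x with a | ⟨s, t⟩ <;> rcases y with c | ⟨s', t'⟩ <;> simp only [A, B] at h1 h3
    · rw [h1]
    · rw [h1, hs] at h3; exact absurd (by simpa using h3) (hB t')
    · rw [hs, mul_zero, add_zero] at h3
      exact absurd h3.symm (mul_ne_zero (pow_ne_zero _ u.ne_zero) (hB t))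
    · rw [hs, mul_zero, add_zero] at h3
      have h4 : (1 : Fˣ) ≠ -1 := fun e => h2 (by have := congrArg Units.val e; simp at this; linear_combination this)
      have h5 : s = s' := by cases s <;> cases s' <;> simp_all [h4.symm]
      have h6 : t = t' := by
        cases t <;> cases t' <;> simp only [Bool.false_eq_true, if_false, if_true] at h3 <;> try rfl
        · exact absurd ⟨(u : F)⁻¹, by have := u.ne_zero; field_simp; linear_combination -h3⟩ hν
        · exact absurd ⟨u, by linear_combination h3⟩ hν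
      rw [h5, h6]

end Cfsg.Agent.S2437
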