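import Cfsg.Statements.S5568
import Cfsg.Agent.H06.WZ
import Cfsg.Agent.H06.WC
import Cfsg.Agent.H23.KY
import Cfsg.Agent.H26.KX
import Cfsg.Agent.H14.KF
import Cfsg.Agent.H09.KO
import Cfsg.Agent.H04.WS
import Cfsg.Agent.H21.WC2
import Cfsg.Agent.H27.WC3
import Cfsg.Agent.H10.WM
import Cfsg.Agent.H08.WP
import Cfsg.Agent.H19.WW
import Cfsg.Agent.H19.WY

set_option autoImplicit false
open Cfsg

namespace Cfsg.Agent.S5568

/-- Let G be a finite non-abelian simple group of Janko-four type (an involution z whose centralizer H has an extraspecial largest normal 2-subgroup E of order 2^13 containing its centralizer in H, a normal subgroup N ≥ E of H with N/E of order 3 and H/N the automorphism group of M₂₂, and a subgroup P ≤ N of order 3 with C_E(P) = ⟨z⟩, N_H(P) ≠ C_H(P) and P ≤ C_H(P)′). Let V be an elementary abelian subgroup of G of order 2^11. Then under conjugation by the normalizer of V the non-identity elements of V fall into an orbit of length 1771 consisting of conjugates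 of z and an orbit of length 276 consisting of involutions t not conjugate to z, and for such t the centralizer of t in G lies in the normalizer of V. -/
theorem result {G : Type*} [Group G] [Finite G] [IsSimpleGroup G] (hG : ¬ IsMulCommutative G) (z : G) (hJ : Cfsg.IsOfJankoFourTypeAt z) (V : Subgroup G) (hV : Cfsg.IsElementaryAbelian 2 V) (hcard : Nat.card ↥V = 2 ^ 11) :
    ∃ z' t : G, z' ∈ V ∧ t ∈ V ∧ t ≠ 1 ∧ IsConj z z' ∧ ¬ IsConj z t ∧
    Set.ncard {v : G | ∃ n ∈ Subgroup.normalizer (V : Set G), n * z' * n⁻¹ = v} = 1771 ∧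
    Set.ncard {v : G | ∃ n ∈ Subgroup.normalizer (V : Set G), n * t * n⁻¹ = v} = 276 ∧
    Subgroup.centralizer ({t} : Set G) ≤ Subgroup.normalizer (V : Set G) := by
  exact Cfsg.Agent.H06.W.fin _root_.H10.KH.h2 Cfsg.Agent.H02.KL.l2 @_root_.H27.KB.b @_root_.H27.KU.u _root_.H26.KX.x _root_.H21.KG.G
    _root_.H14.KF.f _root_.H22.KE.e @_root_.H09.KO.o @_root_.H28.KC.c _root_.H11.K89.n89 _root_.H07.KN.n
    Cfsg.Agent.H02.FzK.k _root_.H08.FzN.n _root_.H04.FzX.x _root_.H28.FzT.t _root_.H25.Fz.s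
    _root_.H10.WM.mu _root_.H08.WP.pu _root_.H04.WS.sc Cfsg.Agent.H19.WW.w Cfsg.Agent.H06.W.c1 @_root_.H21.WC2.c2
    _root_.H10.WM.c384 Cfsg.Agent.H19.WY.cy @_root_.H27.WC3.c3 hG z hJ V hV hcard

end Cfsg.Agent.S5568
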