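import Mathlib
import Cfsg.Statements.S0007
import Cfsg.Agent.H01.Coprime2

set_option autoImplicit false
open Cfsg

namespace Cfsg.Agent.S0007

/-- Subgroups of coprime index: the intersection has index equal to the product of the indices, and every element is a product of an element of the first subgroup and an element of the second. -/
theorem result {G : Type*} [Group G] [Finite G] (H K : Subgroup G)
    (h : H.index.Coprime K.index) :
    (H ⊓ K).index = H.index * K.index ∧ ∀ g : G, ∃ x ∈ H, ∃ y ∈ K, g = x * y := by
  have h1 : (H ⊓ K).index = H.index * K.index := by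
    apply le_antisymm Subgroup.index_inf_le
    exact Nat.le_of_dvd (Nat.pos_of_ne_zero Subgroup.index_ne_zero_of_finite)
      (h.mul_dvd_of_dvd_of_dvd (Subgroup.index_dvd_of_le inf_le_left)
        (Subgroup.index_dvd_of_le inf_le_right))
  refine ⟨h1, fun g => ?_⟩
  have h2 : K.relIndex H = K.index := by
    have := Subgroup.relIndex_mul_index (inf_le_left : H ⊓ K ≤ H)
    rw [h1, Subgroup.inf_relIndex_left, mul_comm] at this
    exact Nat.eq_of_mul_eq_mul_left (Nat.pos_of_ne_zero Subgroup.index_ne_zero_of_finite) this
  have hf : Function.Bijective (Subgroup.quotientSubgroupOfEmbeddingOfLE K (le_top : H ≤ ⊤)) := by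
    apply Function.Injective.bijective_of_nat_card_le
      (Subgroup.quotientSubgroupOfEmbeddingOfLE K (le_top : H ≤ ⊤)).injective
    exact ((Subgroup.relIndex_top_right K).trans h2.symm).le
  obtain ⟨q, hq⟩ := hf.2 ((⟨g, trivial⟩ : (⊤ : Subgroup G)) : (⊤ : Subgroup G) ⧸ K.subgroupOf ⊤)
  obtain ⟨x, rfl⟩ := QuotientGroup.mk_surjective q
  have := QuotientGroup.eq.mp hq
  exact ⟨x, x.2, (x : G)⁻¹ * g, this, by group⟩

end Cfsg.Agent.S0007
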