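import Mathlib
import Cfsg.Statements.S0018
import Cfsg.Agent.H16.PLen

set_option autoImplicit false
open Cfsg

namespace Cfsg.Agent.S0018

/-- A finite solvable group whose Sylow p-subgroups are abelian has p-length one: a Sylow p-subgroup together with the largest normal subgroup of order prime to p generates a normal subgroup. -/
theorem result {G : Type*} [Group G] [Finite G] [Group.IsSolvable G]
    (p : ℕ) [Fact p.Prime] (P : Sylow p G) (hP : IsMulCommutative P) :
    ((P : Subgroup G) ⊔ Cfsg.pPrimeCore p G).Normal := by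
  have h1 : (P : Subgroup G) ≤ Cfsg.pPrimePCore p G := fun z hz =>
    H16.mem_pPrimePCore_of_comm H24.PS.of_solvable P fun s hs =>
      congrArg Subtype.val (hP.is_comm.comm (⟨s, hs⟩ : (P : Subgroup G)) ⟨z, hz⟩)
  have h2 : (P : Subgroup G) ⊔ Cfsg.pPrimeCore p G = Cfsg.pPrimePCore p G := by
    refine le_antisymm (sup_le h1 (H02.pPrimeCore_le_pPrimePCore p G)) ?_
    have hs := QuotientGroup.mk'_surjective (Cfsg.pPrimeCore p G)
    have := Subgroup.comap_mono (f := QuotientGroup.mk' (Cfsg.pPrimeCore p G))
      (H02.pCore_le_sylow (P.mapSurjective hs))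
    refine this.trans (le_of_eq ?_)
    exact (Subgroup.comap_map_eq _ _).trans (by rw [QuotientGroup.ker_mk'])
  rw [h2]
  infer_instance

end Cfsg.Agent.S0018
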