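import Mathlib
import Cfsg.Statements.S0034
import Cfsg.Agent.H02.Frobenius

set_option autoImplicit false
open Cfsg

namespace Cfsg.Agent.S0034

/-- For a Frobenius complement H, the set of elements lying in no conjugate of H, together with 1, has exactly as many elements as the index of H, and that index is congruent to 1 modulo the order of H. -/
theorem result {G : Type*} [Group G] [Finite G] (H : Subgroup G) (hH : Cfsg.IsFrobeniusComplement H) :
    Nat.card (Cfsg.frobeniusKernel H) = H.index ∧ H.index % Nat.card H = 1 % Nat.card H := by
  refine ⟨H02.IsFrob.card_kernel hH, ?_⟩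
  have h1 : 1 ≤ H.index := Nat.pos_of_ne_zero Subgroup.index_ne_zero_of_finite
  exact ((Nat.modEq_iff_dvd' h1).2 (H02.IsFrob.card_dvd_index_sub_one hH)).symm

end Cfsg.Agent.S0034
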