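import Mathlib
import Cfsg.Statements.S0053
import Cfsg.Agent.H01.Coprime2

set_option autoImplicit false
open Cfsg

namespace Cfsg.Agent.S0053

/-- An abelian minimal normal subgroup N of a finite group is complemented exactly when N is not inside the Frattini subgroup. -/
theorem result {G : Type*} [Group G] [Finite G]
    (N : Subgroup G) [N.Normal] [IsMulCommutative N] (hN : N ≠ ⊥)
    (hmin : ∀ M : Subgroup G, M.Normal → M ≤ N → M = ⊥ ∨ M = N) :
    (∃ H : Subgroup G, Subgroup.IsComplement' N H) ↔ ¬ N ≤ frattini G := by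
  constructor
  · rintro ⟨H, hH⟩ hle
    have h1 : H = ⊤ := frattini_nongenerating (by
      rw [eq_top_iff, ← hH.sup_eq_top, sup_comm]; exact sup_le_sup_left hle H)
    rw [h1, Subgroup.isComplement'_top_right] at hH
    exact hN hH
  · intro h
    have : ∃ M : Subgroup G, IsCoatom M ∧ ¬ N ≤ M := by
      by_contra hcon
      push Not at hcon
      exact h (le_iInf₂ hcon)
    obtain ⟨M, hM, hNM⟩ := this
    have hsup : N ⊔ M = ⊤ := hM.2 _ (lt_of_le_of_ne le_sup_right fun h => hNM (h ▸ le_sup_left))
    refine ⟨M, H01.isComplement'_of_disjoint_of_sup ?_ hsup⟩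
    have hn : (N ⊓ M).Normal := by
      rw [← Subgroup.normalizer_eq_top_iff, eq_top_iff, ← hsup]
      exact sup_le (H01.le_normalizer_of_isMulCommutative inf_le_left)
        (H01.le_normalizer_inf (H01.le_normalizer_of_normal M N) Subgroup.le_normalizer)
    rcases hmin _ hn inf_le_left with h1 | h1
    · exact disjoint_iff.mpr h1
    · exact absurd (inf_eq_left.mp h1) hNM

end Cfsg.Agent.S0053
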