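import Mathlib
import Cfsg.Statements.S0054
import Cfsg.Agent.H02.MinNormal

set_option autoImplicit false
open Cfsg

namespace Cfsg.Agent.S0054

/-- A regular normal subgroup of a finite 2-transitive group is elementary abelian: it is commutative and all its elements have order dividing one prime. -/
theorem result {G : Type*} [Group G] [Finite G]
    {X : Type*} [Nonempty X] [MulAction G X] (h2 : MulAction.IsMultiplyPretransitive G X 2)
    (N : Subgroup G) [N.Normal] (htrans : MulAction.IsPretransitive N X) (hreg : ∀ x : X, MulAction.stabilizer N x = ⊥) :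
    IsMulCommutative N ∧ ∃ p : ℕ, p.Prime ∧ ∀ n ∈ N, n ^ p = 1 := by
  obtain ⟨x⟩ := ‹Nonempty X›
  have hreg' : ∀ n ∈ N, n • x = x → n = 1 := fun n hn h => by
    have : (⟨n, hn⟩ : N) ∈ MulAction.stabilizer N x := h
    rw [hreg x, Subgroup.mem_bot] at this
    exact congrArg Subtype.val this
  have hconj : ∀ n ∈ N, ∀ m ∈ N, n ≠ 1 → m ≠ 1 → ∃ g : G, g * n * g⁻¹ = m := by
    intro n hn m hm hn1 hm1
    have h2' : ∀ {a b c d : X}, a ≠ b → c ≠ d → ∃ g : G, g • a = c ∧ g • b = d :=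
      MulAction.is_two_pretransitive_iff.1 h2
    obtain ⟨g, h1, h2⟩ := @h2' x (n • x) x (m • x) (fun h => hn1 (hreg' n hn h.symm))
      (fun h => hm1 (hreg' m hm h.symm))
    refine ⟨g, ?_⟩
    have h3 : g⁻¹ • x = x := by rw [inv_smul_eq_iff, h1]
    have := hreg' (m⁻¹ * (g * n * g⁻¹)) (N.mul_mem (N.inv_mem hm)
      ((inferInstance : N.Normal).conj_mem n hn g)) (by
        rw [mul_smul, mul_smul, mul_smul, h3, h2, inv_smul_smul])
    rw [inv_mul_eq_one] at this
    exact this.symm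
  by_cases hb : N = ⊥
  · subst hb
    exact ⟨inferInstance, 2, Nat.prime_two, fun n hn => by rw [Subgroup.mem_bot.1 hn, one_pow]⟩
  obtain ⟨p, hp, hd⟩ := Nat.exists_prime_and_dvd (fun h => hb (Subgroup.card_eq_one.1 h) : Nat.card N ≠ 1)
  haveI := Fact.mk hp
  obtain ⟨a, ha⟩ := exists_prime_orderOf_dvd_card' p hd
  have ha1 : (a : G) ≠ 1 := fun h => by
    rw [show a = 1 from Subtype.ext h, orderOf_one] at ha
    exact hp.one_lt.ne ha
  have hpow : ∀ n ∈ N, n ^ p = 1 := fun n hn => by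
    by_cases h1 : n = 1
    · rw [h1, one_pow]
    obtain ⟨g, rfl⟩ := hconj a a.2 n hn ha1 h1
    rw [conj_pow, ← Subgroup.coe_pow, ← ha, pow_orderOf_eq_one]
    simp
  refine ⟨?_, p, hp, hpow⟩
  have hpg : IsPGroup p N := fun n => ⟨1, Subtype.ext (by simpa using hpow n n.2)⟩
  haveI : Nontrivial N := (Subgroup.nontrivial_iff_ne_bot N).2 hb
  haveI := hpg.center_nontrivial
  obtain ⟨z, hz⟩ := exists_ne (1 : Subgroup.center N)
  have hz1 : ((z : N) : G) ≠ 1 := fun h => hz (Subtype.ext (Subtype.ext h))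
  refine ⟨⟨fun u v => Subtype.ext ?_⟩⟩
  by_cases h1 : (u : G) = 1
  · simp [h1]
  obtain ⟨g, hg⟩ := hconj _ (z : N).2 u u.2 hz1 h1
  have hv : g⁻¹ * v * g ∈ N := (inferInstance : N.Normal).conj_mem' _ v.2 g
  have := congrArg Subtype.val (Subgroup.mem_center_iff.1 z.2 ⟨_, hv⟩)
  simp only [Subgroup.coe_mul] at this ⊢
  rw [← hg]
  calc g * ((z : N) : G) * g⁻¹ * v = g * (((z : N) : G) * (g⁻¹ * v * g)) * g⁻¹ := by group
    _ = g * ((g⁻¹ * v * g) * ((z : N) : G)) * g⁻¹ := by rw [this]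
    _ = _ := by group

end Cfsg.Agent.S0054
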