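import Mathlib
import Cfsg.Statements.S0063
import Cfsg.Agent.H04.Rank

set_option autoImplicit false
open Cfsg

namespace Cfsg.Agent.S0063

/-- A finite group of prime-power order p ^ m with m > 1 is nilpotent of class at most m - 1. -/
theorem result {G : Type*} [Group G] [Finite G] (p m : ℕ) [Fact p.Prime]
    (hG : Nat.card G = p ^ m) (hm : 1 < m) : Group.nilpotencyClass G ≤ m - 1 := by
  have hp : IsPGroup p G := IsPGroup.of_card hG
  haveI := hp.isNilpotent
  rw [← Subgroup.lowerCentralSeries_eq_bot_iff_nilpotencyClass_le]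
  obtain ⟨k, rfl⟩ : ∃ k, m = k + 2 := ⟨m - 2, by omega⟩
  exact H04.lcs_eq_bot_of_card_le (hp.to_subgroup ⊤) (m := k) (by simp [hG])

end Cfsg.Agent.S0063
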