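import Mathlib
import Cfsg.Statements.S0064
import Cfsg.Agent.H02.Fitting

set_option autoImplicit false
open Cfsg

namespace Cfsg.Agent.S0064

/-- A finite group is nilpotent exactly when each of its subgroups is subnormal. -/
theorem result {G : Type*} [Group G] [Finite G] :
    Group.IsNilpotent G ↔ ∀ H : Subgroup G, H.IsSubnormal := by
  exact ⟨fun _ H => H02.isSubnormal_of_isNilpotent H, H02.isNilpotent_of_forall_isSubnormal⟩

end Cfsg.Agent.S0064
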