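import Mathlib
import Cfsg.Statements.S0073
import Cfsg.Agent.H03.Frobenius

set_option autoImplicit false
open Cfsg

namespace Cfsg.Agent.S0073

/-- For a finite non-abelian simple group, either the cube of the least prime divisor of the order divides the order, or 12 does. -/
theorem result {G : Type*} [Group G] [Finite G] [IsSimpleGroup G] (hG : ∃ x y : G, x * y ≠ y * x) : (Nat.card G).minFac ^ 3 ∣ Nat.card G ∨ 12 ∣ Nat.card G := by
  have hG1 : Nat.card G ≠ 1 := Finite.one_lt_card.ne'
  set p := (Nat.card G).minFac with hp
  have hpp : p.Prime := Nat.minFac_prime hG1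
  have := Fact.mk hpp
  by_contra hc
  push Not at hc
  have h1 : HasNormalPComplement p G := by
    apply H03.hasNPC_of_coprime_pow_sub_one
    intro q hq h1 j h2 h4 h5
    have h6 : p ≤ q := Nat.minFac_le_of_dvd hq.two_le h1
    have h7 : j ≤ 2 := by
      by_contra h
      exact hc.1 ((pow_dvd_pow p (by omega)).trans h4)
    have h8 := hpp.two_le
    have h9 : ¬ q ∣ p - 1 := fun h => by have := Nat.le_of_dvd (by omega) h; omega
    interval_cases j
    · exact h9 (by simpa using h5)
    · have h10 : p ^ 2 - 1 = (p + 1) * (p - 1) := by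
        simpa using Nat.sq_sub_sq p 1
      rw [h10] at h5
      have h11 := (hq.dvd_mul.mp h5).resolve_right h9
      have h12 := Nat.le_of_dvd (by omega) h11
      rcases h6.eq_or_lt with e | hlt
      · rw [← e, Nat.dvd_add_self_left] at h11
        exact hpp.one_lt.ne' (Nat.dvd_one.mp h11)
      · have h13 : q = p + 1 := by omega
        have h14 : p = 2 := by
          rcases hpp.eq_two_or_odd' with h | h
          · exact h
          · rcases hq.eq_two_or_odd' with h' | h'
            · omega
            · exact absurd (h13 ▸ h') (Nat.not_odd_iff_even.mpr h.add_one)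
        rw [h14] at h4 h13
        rw [h13] at h1
        exact hc.2 (Nat.Coprime.mul_dvd_of_dvd_of_dvd (by norm_num : Nat.Coprime 4 3) h4 h1)
  rcases (inferInstance : (pResidual p G).Normal).eq_bot_or_eq_top with h | h
  · have := (H03.pResidual_eq_bot_iff.mp h).isNilpotent
    obtain ⟨x, y, hxy⟩ := hG
    exact hxy (IsSimpleGroup.comm_iff_isSolvable.mpr inferInstance x y)
  · apply H03.hasNPC_iff_not_dvd_card_pResidual.mp h1
    rw [h, Subgroup.card_top]
    exact Nat.minFac_dvd _

end Cfsg.Agent.S0073
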