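import Mathlib
import Cfsg.Statements.S0076
import Cfsg.Agent.H03.Fusion

set_option autoImplicit false
open Cfsg

namespace Cfsg.Agent.S0076

/-- Two P-invariant subsets of a Sylow p-subgroup P that are conjugate in G are conjugate under the normalizer of P. -/
theorem result {G : Type*} [Group G] [Finite G] {p : ℕ} [Fact p.Prime] (P : Sylow p G) (X Y : Set G) (hXP : X ⊆ P) (hYP : Y ⊆ P) (hX : ∀ x ∈ P, (fun y => x * y * x⁻¹) '' X = X) (hY : ∀ x ∈ P, (fun y => x * y * x⁻¹) '' Y = Y) (g : G) (hg : (fun y => g * y * g⁻¹) '' X = Y) : ∃ n ∈ Subgroup.normalizer (P : Set G), (fun y => n * y * n⁻¹) '' X = Y := by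
  exact H03.burnside_fusion_sets P X Y
    (fun x hx => Subgroup.mem_normalizer_iff_conj_image_eq.mpr (hX x hx))
    (fun x hx => Subgroup.mem_normalizer_iff_conj_image_eq.mpr (hY x hx)) g hg

end Cfsg.Agent.S0076
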