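import Mathlib
import Cfsg.Statements.S0078
import Cfsg.Agent.H03.Tate

set_option autoImplicit false
open Cfsg

namespace Cfsg.Agent.S0078

/-- In a p-normal group, a Sylow p-subgroup P meets O^p(G) exactly where it meets O^p(V), for any subgroup V containing the normalizer of the centre of P. -/
theorem result {G : Type*} [Group G] [Finite G] {p : ℕ} [Fact p.Prime] (P : Sylow p G) (hn : ∀ Q : Sylow p G, (P : Subgroup G) ⊓ Subgroup.centralizer (P : Set G) ≤ (Q : Subgroup G) → (Q : Subgroup G) ⊓ Subgroup.centralizer (Q : Set G) = (P : Subgroup G) ⊓ Subgroup.centralizer (P : Set G)) (V : Subgroup G) (hV : Subgroup.normalizer (((P : Subgroup G) ⊓ Subgroup.centralizer (P : Set G) : Subgroup G) : Set G) ≤ V) : (P : Subgroup G) ⊓ Cfsg.pResidual p G = (P : Subgroup G) ⊓ (Cfsg.pResidual p V).map V.subtype := by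
  have hW : IsWeaklyClosed ((P : Subgroup G) ⊓ Subgroup.centralizer (P : Set G)) P := by
    apply H03.isWeaklyClosed_of_forall_sylow P inf_le_left
    · intro g hg
      apply H03.mem_normalizer_of_conj_le
      intro x hx
      refine Subgroup.mem_inf.mpr
        ⟨H03.conj_mem_of_mem_normalizer (K := (P : Subgroup G)) hg hx.1, fun y hy => ?_⟩
      have := hx.2 _ (H03.conj_mem_of_mem_normalizer' (K := (P : Subgroup G)) hg hy)
      calc y * (g * x * g⁻¹) = g * (g⁻¹ * y * g * x) * g⁻¹ := by group
        _ = g * x * g⁻¹ * y := by rw [this]; group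
    · intro R hR g hg
      rw [← hn R hR]
      apply H03.mem_normalizer_of_conj_le
      intro x hx
      rwa [hx.2 g hg, mul_inv_cancel_right]
  have h1 := H03.gruen_weaklyClosed_central P inf_le_right hW
  have hPV : (P : Subgroup G) ≤ V := (H03.IsWC.le_normalizer hW).trans hV
  rw [← H03.tate_sylow P hPV
    (h1.le.trans (inf_le_left.trans (Subgroup.commutator_mono hV hV))), ← inf_assoc,
    inf_right_comm, inf_of_le_left hPV]

end Cfsg.Agent.S0078
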