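import Mathlib
import Cfsg.Statements.S0079
import Cfsg.Agent.H03.HallNC

set_option autoImplicit false
open Cfsg

namespace Cfsg.Agent.S0079

/-- A nilpotent Hall subgroup has a normal complement exactly when elements of it that are conjugate in the whole group are already conjugate inside it. -/
theorem result {G : Type*} [Group G] [Finite G] (H : Subgroup G) (hH : Group.IsNilpotent H) (hHall : Nat.Coprime (Nat.card H) H.index) : (∃ N : Subgroup G, N.Normal ∧ N.IsComplement' H) ↔ ∀ x ∈ H, ∀ y ∈ H, (∃ g : G, g * x * g⁻¹ = y) → ∃ h ∈ H, h * x * h⁻¹ = y := by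
  constructor
  · rintro ⟨N, hN, h⟩ x hx y hy ⟨g, rfl⟩
    obtain ⟨⟨a, b⟩, rfl⟩ := h.2 g
    refine ⟨b, b.2, ?_⟩
    have h1 : (b : G) * x * (b : G)⁻¹ ∈ H := mul_mem (mul_mem b.2 hx) (inv_mem b.2)
    have h2 : ((a : G) * b * x * ((a : G) * b)⁻¹) * ((b : G) * x * (b : G)⁻¹)⁻¹ ∈ N := by
      have := mul_mem a.2 (hN.conj_mem _ (inv_mem a.2) (b * x * (b : G)⁻¹))
      simpa [mul_assoc] using this
    exact (mul_inv_eq_one.mp (Subgroup.disjoint_def.mp h.disjoint h2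
      (mul_mem hy (inv_mem h1)))).symm
  · intro h
    refine H03.exists_normal_complement_of_hall H hHall fun p hp hd => ?_
    have := Fact.mk hp
    obtain ⟨Q⟩ : Nonempty (Sylow p H) := inferInstance
    apply H03.hasNPC_of_sylow_controls_fusion
      (H03.sylowMapSubtype (H03.not_dvd_index_of_hall hHall hp hd) Q)
    rintro _ ⟨x, hx, rfl⟩ g ⟨y, hy, e⟩
    obtain ⟨k, hk, e2⟩ := h x x.2 y y.2 ⟨g, e.symm⟩
    obtain ⟨v, hv, h3⟩ := H03.HasNPC.exists_conj_sylow (H03.hasNPC_of_isNilpotent (p := p)) Q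
      (⟨k, hk⟩ : H)
    have e3 : (⟨k, hk⟩ : H) * x * (⟨k, hk⟩ : H)⁻¹ = y := Subtype.ext e2
    refine ⟨v, ⟨v, hv, rfl⟩, ?_⟩
    rw [← e]
    exact congrArg Subtype.val ((h3 x hx (e3 ▸ hy)).trans e3)

end Cfsg.Agent.S0079
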