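import Mathlib
import Cfsg.Statements.S0083
import Cfsg.Agent.H03.Focal

set_option autoImplicit false
open Cfsg

namespace Cfsg.Agent.S0083

/-- For an abelian Sylow p-subgroup P, a normal p-complement exists exactly when the normalizer of P is an internal direct product of P with some subgroup. -/
theorem result {G : Type*} [Group G] [Finite G] {p : ℕ} [Fact p.Prime] (P : Sylow p G) (hP : IsMulCommutative P) : Cfsg.HasNormalPComplement p G ↔ ∃ Q : Subgroup G, Q ≤ Subgroup.centralizer (P : Set G) ∧ Q ⊓ (P : Subgroup G) = ⊥ ∧ Q ⊔ (P : Subgroup G) = Subgroup.normalizer (P : Set G) := by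
  constructor
  · intro h
    refine ⟨Cfsg.pResidual p G ⊓ Subgroup.normalizer (P : Set G), ?_, ?_, ?_⟩
    · exact fun g hg => H03.HasNPC.commute_of_normalizes h P.2 hg.2
        ((H03.HasNPC.mem_pResidual_iff h).mp hg.1)
    · exact ((H03.HasNPC.isComplement' h P).disjoint.mono_left inf_le_left).eq_bot
    · refine le_antisymm (sup_le inf_le_right Subgroup.le_normalizer) fun g hg => ?_
      obtain ⟨⟨a, b⟩, rfl⟩ := (H03.HasNPC.isComplement' h P).2 g
      refine mul_mem (Subgroup.mem_sup_left ⟨a.2, ?_⟩) (Subgroup.mem_sup_right b.2)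
      exact (Subgroup.mul_mem_cancel_right _ (Subgroup.le_normalizer b.2)).mp hg
  · rintro ⟨Q, h1, -, h3⟩
    apply H03.hasNPC_of_normalizer_le_centralizer P
    rw [← h3]
    exact sup_le h1 (P : Subgroup G).le_centralizer

end Cfsg.Agent.S0083
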