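import Mathlib
import Cfsg.Statements.S0084
import Cfsg.Agent.H03.Frobenius

set_option autoImplicit false
open Cfsg

namespace Cfsg.Agent.S0084

/-- A group whose Sylow 2-subgroups are Klein four-groups and whose order is prime to 3 has a normal 2-complement. -/
theorem result {G : Type*} [Group G] [Finite G] (T : Sylow 2 G) (hT : IsKleinFour T) (h3 : ¬ 3 ∣ Nat.card G) : Cfsg.HasNormalPComplement 2 G := by
  apply H03.hasNPC_of_coprime_pow_sub_one
  intro q hq h1 j h2 h4 h5
  have h6 := T.pow_dvd_card_of_pow_dvd_card h4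
  rw [hT.card_four] at h6
  have h7 : j ≤ 2 := (Nat.pow_dvd_pow_iff_le_right (by norm_num : 1 < 2)).mp h6
  interval_cases j
  · exact hq.one_lt.ne' (by simpa using h5)
  · exact h3 ((Nat.prime_dvd_prime_iff_eq hq Nat.prime_three).mp h5 ▸ h1)

end Cfsg.Agent.S0084
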