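import Mathlib
import Cfsg.Statements.S0090
import Cfsg.Agent.H03.Focal

set_option autoImplicit false
open Cfsg

namespace Cfsg.Agent.S0090

/-- An abelian normal Hall subgroup A splits as the internal direct product of G' ∩ A and Z(G) ∩ A, and [A, G] = G' ∩ A. -/
theorem result {G : Type*} [Group G] [Finite G] (A : Subgroup G) [A.Normal] (hc : IsMulCommutative A) (hHall : Nat.Coprime (Nat.card A) A.index) : ⁅A, (⊤ : Subgroup G)⁆ = commutator G ⊓ A ∧ (commutator G ⊓ A) ⊓ (Subgroup.center G ⊓ A) = ⊥ ∧ (commutator G ⊓ A) ⊔ (Subgroup.center G ⊓ A) = A := by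
  have h1 : ⁅A, (⊤ : Subgroup G)⁆ = commutator G ⊓ A := by
    rw [← H03.focalSubgroup_of_normal,
      H03.focalSubgroup_eq_of_coprime A (H03.coprime_focal_of_hall A hHall)]
  refine ⟨h1, ?_, h1 ▸ H03.abelian_normal_hall_sup A hc hHall⟩
  rw [eq_bot_iff, ← H03.hall_abelian_inf_commutator_inf_center A hc hHall]
  exact fun x hx => ⟨⟨hx.1.2, hx.1.1⟩, hx.2.1⟩

end Cfsg.Agent.S0090
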