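import Mathlib
import Cfsg.Statements.S0092
import Cfsg.Agent.H03.Focal
import Cfsg.Agent.H03.HallNC
import Cfsg.Agent.H01.Coprime

set_option autoImplicit false
open Cfsg

namespace Cfsg.Agent.S0092

theorem le_of_not_dvd_index {G : Type*} [Group G] [Finite G] {p : ℕ} [Fact p.Prime]
    (N : Subgroup G) [N.Normal] (hN : ¬ p ∣ N.index) {Q : Subgroup G} (hQ : IsPGroup p Q) :
    Q ≤ N := by
  obtain ⟨k, hk⟩ := hQ.index (N.subgroupOf Q)
  exact Subgroup.relIndex_eq_one.mp (Nat.eq_one_of_dvd_coprimes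
    ((H03.coprime_iff_not_dvd.mpr hN).pow_right k) (Subgroup.relIndex_dvd_index_of_normal _ _)
    (hk ▸ dvd_rfl))

/-- If the Sylow p-subgroups of O^p(G) are abelian then G splits over O^p(G). -/
theorem result {G : Type*} [Group G] [Finite G] {p : ℕ} [Fact p.Prime] (h : ∀ Q : Sylow p (Cfsg.pResidual p G), IsMulCommutative Q) : ∃ K : Subgroup G, K.IsComplement' (Cfsg.pResidual p G) := by
  set K := pResidual p G with hK
  obtain ⟨Q⟩ : Nonempty (Sylow p K) := inferInstance
  have hQ := h Q
  -- `A` is the Sylow subgroup of `K`, `N` its normalizer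
  set A : Subgroup G := (Q : Subgroup K).map K.subtype with hA
  have hAK : A ≤ K := Subgroup.map_subtype_le _
  have hAp : IsPGroup p A := Q.2.map _
  have hAc : IsMulCommutative A := inferInstance
  set N := Subgroup.normalizer (A : Set G) with hN
  have hNK : (Subgroup.normalizer (Q : Set K)).map K.subtype = N ⊓ K := by
    have := Subgroup.subgroupOf_normalizer_eq hAK
    rw [← Subgroup.subgroupOf_map_subtype, hN, this, hA, Subgroup.subgroupOf,
      Subgroup.comap_map_eq_self_of_injective K.subtype_injective]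
    rfl
  have hAi : ¬ p ∣ A.relIndex K := by
    rw [hA, Subgroup.relIndex, Subgroup.subgroupOf,
      Subgroup.comap_map_eq_self_of_injective K.subtype_injective]
    exact Q.not_dvd_index
  have hAN : A ≤ N ⊓ K := le_inf Subgroup.le_normalizer hAK
  have hAi' : ¬ p ∣ A.relIndex (N ⊓ K) := fun hd => hAi (hd.trans
    (Dvd.intro _ (Subgroup.relIndex_mul_relIndex _ _ _ hAN inf_le_right)))
  have hcop : (Nat.card A).Coprime (A.relIndex (N ⊓ K)) := by
    obtain ⟨k, hk⟩ := hAp.exists_card_eq
    exact hk ▸ (H03.coprime_iff_not_dvd.mpr hAi').symm.pow_left k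
  have h1 : ⁅A, N ⊓ K⁆ = A := by
    have h2 := H03.abelian_sylow_commutator_inf Q hQ
    rw [inf_of_le_right (le_of_not_dvd_index _
      (H03.pResidual_eq_top_iff.mp H03.pResidual_pResidual) Q.2)] at h2
    rw [← hNK, hA, ← Subgroup.map_commutator, ← h2]
  have h2 := (H03.abelian_hall_decomp hAN inf_le_left hAc hcop).2
  rw [h1] at h2
  -- a complement `L` of `A` in `N ⊓ K`
  have hn : (A.subgroupOf (N ⊓ K)).Normal :=
    (Subgroup.normal_subgroupOf_iff_le_normalizer hAN).mpr inf_le_left
  obtain ⟨L₀, hL₀⟩ := Subgroup.exists_right_complement'_of_coprime (N := A.subgroupOf (N ⊓ K))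
    (by rwa [H01.card_subgroupOf_of_le hAN])
  set L := L₀.map (N ⊓ K).subtype with hL
  have hL1 : L ≤ N ⊓ K := Subgroup.map_subtype_le _
  have hL2 : L ⊔ A = N ⊓ K := by
    have := congrArg (Subgroup.map (N ⊓ K).subtype) hL₀.sup_eq_top
    rwa [Subgroup.map_sup, Subgroup.map_subgroupOf_eq_of_le hAN, ← MonoidHom.range_eq_map,
      Subgroup.range_subtype, sup_comm] at this
  have hL3 : Nat.card L = A.relIndex (N ⊓ K) := by
    rw [hL, Subgroup.card_map_of_injective (Subgroup.subtype_injective _),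
      ← hL₀.symm.index_eq_card, Subgroup.relIndex]
  have hL4 : Disjoint L A :=
    H03.disjoint_of_isPGroup_of_coprime hAp (hL3 ▸ H03.coprime_iff_not_dvd.mpr hAi')
  set M := N ⊓ Subgroup.normalizer (L : Set G) with hM
  have h3 : K ⊔ M = ⊤ := by
    rw [eq_top_iff, ← Q.normalizer_sup_eq_top]
    refine sup_le (fun n hn => ?_) le_sup_left
    open scoped IsMulCommutative in
    obtain ⟨a, ha, e⟩ := H01.conj_of_le_sup (A := L) (N := A)
      (B := L.map (MulAut.conj n).toMonoidHom) (hL1.trans inf_le_left) (hL3 ▸ hcop.symm)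
      (Or.inr inferInstance) (by
        rw [hL2, H03.map_conj_le_iff]
        exact fun x hx => Subgroup.mem_inf.mpr ⟨mul_mem (mul_mem hn (hL1 hx).1) (inv_mem hn),
          (inferInstance : K.Normal).conj_mem _ (hL1 hx).2 n⟩) (H03.card_map_conj _ _)
    have h4 : a⁻¹ * n ∈ Subgroup.normalizer (L : Set G) := by
      rw [← H03.map_conj_eq_iff_mem_normalizer, ← H03.map_conj_map_conj, ← e]
      exact (H03.map_conj_map_conj L a⁻¹ a).trans (by rw [inv_mul_cancel, H03.map_conj_one])
    have h5 : n = a * (a⁻¹ * n) := by group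
    rw [h5]
    exact mul_mem (Subgroup.mem_sup_left (hAK ha))
      (Subgroup.mem_sup_right (Subgroup.mem_inf.mpr
        ⟨mul_mem (inv_mem (Subgroup.le_normalizer ha)) hn, h4⟩))
  obtain ⟨T, -, hT⟩ := H03.exists_sylow_not_dvd_relIndex (p := p) (A := ⊥) (C := M)
    IsPGroup.of_bot bot_le
  refine ⟨(T : Subgroup G) ⊓ M, (H01.isComplement'_of_disjoint_of_sup ?_ ?_).symm⟩
  · rw [Subgroup.disjoint_def]
    intro x hxK hx
    have hxA : x ∈ A := by
      have h6 : ((T : Subgroup G) ⊓ (N ⊓ K)) ⊔ A ≤ A := by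
        refine H03.le_of_not_dvd_relIndex hAi' ?_ (sup_le inf_le_right hAN)
          (inf_le_left.trans le_sup_right)
        exact IsPGroup.to_sup_of_normal_right' T.2.to_inf_left hAp
          (inf_le_right.trans inf_le_left)
      exact h6 (Subgroup.mem_sup_left ⟨hx.1, hx.2.1, hxK⟩)
    have h7 : x ∈ A ⊓ Subgroup.centralizer ((N ⊓ K : Subgroup G) : Set G) := by
      refine ⟨hxA, ?_⟩
      have h8 : L ⊔ A ≤ Subgroup.centralizer (Subgroup.zpowers x : Set G) := by
        refine sup_le ?_ (A.le_centralizer.trans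
          (Subgroup.centralizer_le (Subgroup.zpowers_le.mpr hxA)))
        rw [Subgroup.le_centralizer_iff, Subgroup.zpowers_le]
        intro l hl
        have h9 : l * x * l⁻¹ * x⁻¹ = 1 := by
          refine Subgroup.disjoint_def.mp hL4 ?_
            (mul_mem (H03.conj_mem_of_mem_normalizer (hL1 hl).1 hxA) (inv_mem hxA))
          have := mul_mem hl (H03.conj_mem_of_mem_normalizer hx.2.2 (inv_mem hl))
          simpa [mul_assoc] using this
        rwa [mul_inv_eq_one, mul_inv_eq_iff_eq_mul] at h9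
      rw [hL2, Subgroup.le_centralizer_iff, Subgroup.zpowers_le] at h8
      exact h8
    rwa [h2, Subgroup.mem_bot] at h7
  · rw [eq_top_iff, ← h3]
    refine sup_le le_sup_left ?_
    have h10 := congrArg (Subgroup.map M.subtype) (H03.pResidual_sup_of_not_dvd_index _ hT)
    rw [Subgroup.map_sup, Subgroup.subgroupOf_map_subtype, ← MonoidHom.range_eq_map,
      Subgroup.range_subtype] at h10
    exact h10.ge.trans (sup_le_sup_right (H03.pResidual_map_le _) _)

end Cfsg.Agent.S0092
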