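import Mathlib
import Cfsg.Statements.S0097
import Cfsg.Agent.H04.Extraspecial

set_option autoImplicit false
open Cfsg

namespace Cfsg.Agent.S0097

/-- For odd p and E extraspecial, the subgroup generated by the elements of order dividing p has exponent dividing p and index at most p. -/
theorem result {E : Type*} [Group E] [Finite E] {p : ℕ} [Fact p.Prime] (hp : p ≠ 2) (h : Cfsg.IsExtraspecial p E) : (Subgroup.closure {x : E | x ^ p = 1}).index ≤ p ∧ ∀ g ∈ Subgroup.closure {x : E | x ^ p = 1}, g ^ p = 1 := by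
  obtain ⟨z, h1, h2, -⟩ := H04.exists_aes_of_isExtraspecial h
  have h3 : ∀ x y : E, (x * y) ^ p = x ^ p * y ^ p := fun x y => by
    obtain ⟨k, hk⟩ := H04.prime_dvd_choose_two (Fact.out : p.Prime) hp
    rw [h1.mul_pow (Subgroup.mem_top x) (Subgroup.mem_top y), hk, pow_mul,
      h1.pow_eq_one (h1.comm _ (Subgroup.mem_top y) _ (Subgroup.mem_top x)), one_pow, mul_one]
  let f : E →* E := MonoidHom.mk' (fun x => x ^ p) h3
  have h4 : Subgroup.closure {x : E | x ^ p = 1} = f.ker := Subgroup.closure_eq f.ker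
  rw [h4, Subgroup.index_ker]
  refine ⟨(BG.card_le (B := Subgroup.zpowers z) ?_).trans_eq (by rw [Nat.card_zpowers, h1.ord]),
    fun g hg => hg⟩
  rintro _ ⟨x, rfl⟩
  exact h1.pow x (Subgroup.mem_top x)

end Cfsg.Agent.S0097
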