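import Mathlib
import Cfsg.Statements.S0099
import Cfsg.Agent.H04.Extraspecial

set_option autoImplicit false
open Cfsg

namespace Cfsg.Agent.S0099

/-- Among three extraspecial 2-groups of equal order, some two are isomorphic. -/
theorem result {E₁ : Type*} {E₂ : Type*} {E₃ : Type*} [Group E₁] [Group E₂] [Group E₃] [Finite E₁] [Finite E₂] [Finite E₃] (h₁ : Cfsg.IsExtraspecial 2 E₁) (h₂ : Cfsg.IsExtraspecial 2 E₂) (h₃ : Cfsg.IsExtraspecial 2 E₃) (h12 : Nat.card E₁ = Nat.card E₂) (h23 : Nat.card E₂ = Nat.card E₃) : Nonempty (E₁ ≃* E₂) ∨ Nonempty (E₂ ≃* E₃) ∨ Nonempty (E₁ ≃* E₃) := by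
  obtain ⟨n, -, hn⟩ := H04.exists_card_of_isExtraspecial h₁
  have a₁ := H04.card_sq_eq_one_of_isExtraspecial h₁ hn
  have a₂ := H04.card_sq_eq_one_of_isExtraspecial h₂ (h12 ▸ hn)
  have a₃ := H04.card_sq_eq_one_of_isExtraspecial h₃ (h23 ▸ h12 ▸ hn)
  by_cases b₁ : Nat.card {x : E₁ // x ^ 2 = 1} = Nat.card {x : E₂ // x ^ 2 = 1}
  · exact Or.inl (H04.nonempty_equiv_of_sqCount h₁ h₂ h12 b₁)
  by_cases b₂ : Nat.card {x : E₂ // x ^ 2 = 1} = Nat.card {x : E₃ // x ^ 2 = 1}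
  · exact Or.inr (Or.inl (H04.nonempty_equiv_of_sqCount h₂ h₃ h23 b₂))
  exact Or.inr (Or.inr (H04.nonempty_equiv_of_sqCount h₁ h₃ (h12.trans h23) (by omega)))

end Cfsg.Agent.S0099
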