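import Mathlib
import Cfsg.Statements.S0102
import Cfsg.Agent.H03.Focal

set_option autoImplicit false
open Cfsg

namespace Cfsg.Agent.S0102

/-- A finite perfect group with cyclic Sylow p-subgroups has no perfect central extension whose kernel has order divisible by p. -/
theorem result {G : Type*} {H : Type*} [Group G] [Group H] [Finite G] [Finite H] (hG : commutator G = ⊤) {p : ℕ} [Fact p.Prime] (hcyc : ∀ P : Sylow p G, IsCyclic P) (σ : H →* G) (hσ : Function.Surjective σ) (hz : σ.ker ≤ Subgroup.center H) (hH : commutator H = ⊤) : ¬ p ∣ Nat.card σ.ker := by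
  obtain ⟨P⟩ : Nonempty (Sylow p H) := inferInstance
  have h1 : IsCyclic ((P : Subgroup H).map σ) := hcyc (P.mapSurjective hσ)
  have h2 : IsMulCommutative P := by
    refine MonoidHom.isMulCommutative_of_isCyclic_of_ker_le_center (σ.subgroupMap P) ?_
    intro x hx
    have h3 : (x : H) ∈ σ.ker := congrArg Subtype.val hx
    exact Subgroup.mem_center_iff.mpr fun y => Subtype.ext (Subgroup.mem_center_iff.mp (hz h3) y)
  have h3 := H03.hall_abelian_inf_commutator_inf_center _ h2 P.card_coprime_index
  have h4 : (P : Subgroup H) ⊓ σ.ker = ⊥ := by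
    rw [eq_bot_iff, ← h3, hH, inf_top_eq]
    exact inf_le_inf_left _ hz
  have h5 := H03.not_dvd_relIndex_inf_normal P σ.ker
  rwa [← Subgroup.inf_relIndex_right, h4, Subgroup.relIndex_bot_left] at h5

end Cfsg.Agent.S0102
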