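import Mathlib
import Cfsg.Statements.S0106
import Cfsg.Agent.H03.NPC4

set_option autoImplicit false
open Cfsg

namespace Cfsg.Agent.S0106

/-- A finite group with generalized quaternion Sylow 2-subgroups either has a normal 2-complement or has a section isomorphic to SL(2,3). -/
theorem result {G : Type*} [Group G] [Finite G] (T : Sylow 2 G) (n : ℕ) (hn : 1 ≤ n) (hT : Nonempty ((T : Subgroup G) ≃* QuaternionGroup (2 ^ n))) : Cfsg.HasNormalPComplement 2 G ∨ ∃ (H K : Subgroup G) (hK : (K.subgroupOf H).Normal), Nonempty ((H ⧸ K.subgroupOf H) ≃* Matrix.SpecialLinearGroup (Fin 2) (ZMod 3)) := by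
  by_contra h
  rw [not_or] at h
  obtain ⟨D, hD, -, -, q, hq, hq2, g, hg, ⟨k, hk⟩, hn'⟩ := H03.exists_not_commute_of_not_hasNPC T h.1
  have hc : (orderOf g).Coprime 2 := hk ▸ ((Nat.coprime_primes hq Nat.prime_two).mpr hq2).pow_left k
  obtain ⟨e⟩ := H03.q8_of_odd_acts (T.2.to_le hD) (fun x hx y hy h1 h2 =>
    H26.mem_zpowers_of_cyclic_or_quaternion T.2 (Or.inr ⟨_, hT⟩) (hD hx) (hD hy) h1 h2) hg hc hn'
  exact h.2 (H17.sec_iff_involves.mp (H03.sec_sl23_of_q8 e hg hc hn'))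

end Cfsg.Agent.S0106
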