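import Mathlib
import Cfsg.Statements.S0107
import Cfsg.Agent.H03.Focal

set_option autoImplicit false
open Cfsg

namespace Cfsg.Agent.S0107

/-- A finite group with no nontrivial 2-group quotient and dihedral Sylow 2-subgroups of order at least 8 has a single class of involutions. -/
theorem result {G : Type*} [Group G] [Finite G] (T : Sylow 2 G) (n : ℕ) (hn : 2 ≤ n) (hT : Nonempty ((T : Subgroup G) ≃* DihedralGroup (2 ^ n))) (hO : Cfsg.pResidual 2 G = ⊤) (x y : G) (hx : orderOf x = 2) (hy : orderOf y = 2) : ∃ g : G, g * x * g⁻¹ = y := by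
  obtain ⟨e⟩ := hT
  have : NeZero (2 ^ n) := ⟨by positivity⟩
  let C : Subgroup G := ((Subgroup.zpowers (DihedralGroup.r 1 : DihedralGroup (2 ^ n))).comap
    e.toMonoidHom).map (T : Subgroup G).subtype
  have h1 : C.relIndex T = 2 := by
    rw [Subgroup.relIndex, Subgroup.subgroupOf,
      Subgroup.comap_map_eq_self_of_injective (Subgroup.subtype_injective _),
      Subgroup.index_comap_of_surjective _ e.surjective]
    have := (Subgroup.zpowers (DihedralGroup.r 1 : DihedralGroup (2 ^ n))).card_mul_index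
    rw [Nat.card_zpowers, DihedralGroup.orderOf_r_one, DihedralGroup.nat_card, mul_comm 2] at this
    exact Nat.eq_of_mul_eq_mul_left (by positivity) this
  have hC : IsCyclic C := by
    refine isCyclic_of_injective (G' := Subgroup.zpowers (DihedralGroup.r 1 : DihedralGroup (2 ^ n)))
      ((e.toMonoidHom.subgroupComap _).comp
        (Subgroup.equivMapOfInjective _ _ (Subgroup.subtype_injective _)).symm.toMonoidHom) ?_
    rw [MonoidHom.coe_comp]
    refine Function.Injective.comp (fun a b hab => ?_) (MulEquiv.injective _)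
    exact Subtype.ext (e.injective (congrArg Subtype.val hab))
  have key : ∀ u : G, orderOf u = 2 → ∃ g : G, g * u * g⁻¹ ∈ C := by
    intro u hu
    by_contra hc
    obtain ⟨M, hM, h2, h3⟩ := H03.thompson_transfer T.not_dvd_index h1 u hu fun g hg => hc ⟨g, hg⟩
    exact h3 (H03.pResidual_le_of_index M (p := 2) (k := 1) h2 (hO ▸ Subgroup.mem_top u))
  obtain ⟨g, hg⟩ := key x hx
  obtain ⟨h, hh⟩ := key y hy
  have h2 : g * x * g⁻¹ = h * y * h⁻¹ := by
    have a1 : orderOf (⟨_, hg⟩ : C) = 2 := by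
      rw [← Subgroup.orderOf_coe, ← hx]; exact (MulAut.conj g).orderOf_eq x
    have a2 : orderOf (⟨_, hh⟩ : C) = 2 := by
      rw [← Subgroup.orderOf_coe, ← hy]; exact (MulAut.conj h).orderOf_eq y
    classical
    have := Fintype.ofFinite C
    have a3 := IsCyclic.card_orderOf_eq_totient (α := C) (d := 2) (a1 ▸ orderOf_dvd_card)
    rw [Nat.totient_two, Finset.card_eq_one] at a3
    obtain ⟨z, hz⟩ := a3
    have b1 : (⟨_, hg⟩ : C) ∈ ({z} : Finset C) := hz ▸ Finset.mem_filter.mpr ⟨Finset.mem_univ _, a1⟩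
    have b2 : (⟨_, hh⟩ : C) ∈ ({z} : Finset C) := hz ▸ Finset.mem_filter.mpr ⟨Finset.mem_univ _, a2⟩
    exact congrArg Subtype.val ((Finset.mem_singleton.mp b1).trans (Finset.mem_singleton.mp b2).symm)
  refine ⟨h⁻¹ * g, ?_⟩
  calc h⁻¹ * g * x * (h⁻¹ * g)⁻¹ = h⁻¹ * (g * x * g⁻¹) * h := by group
    _ = y := by rw [h2]; group

end Cfsg.Agent.S0107
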