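import Mathlib
import Cfsg.Statements.S0109
import Cfsg.Agent.H03.ThNPC2

set_option autoImplicit false
open Cfsg

namespace Cfsg.Agent.S0109

/-- The Thompson factorization Theorem for solvable groups states that, with p odd (and abelian Sylow 2-subgroups when p = 3) and no nontrivial normal subgroup of order prime to p, every element of G is a product of an element normalizing J(P) and an element centralizing the elements of order dividing p in the centre of P. -/
theorem result {G : Type*} [Group G] [Finite G] {p : ℕ} [Fact p.Prime] (hp : p ≠ 2) (hs : Group.IsSolvable G) (h3 : p = 3 → ∀ T : Sylow 2 G, IsMulCommutative T) (hF : ∀ N : Subgroup G, N.Normal → Nat.Coprime (Nat.card N) p → N = ⊥) (P : Sylow p G) (g : G) : ∃ a ∈ Subgroup.normalizer (Cfsg.thompsonSubgroupOf p (P : Subgroup G) : Set G), ∃ c ∈ Subgroup.centralizer {x : G | x ∈ (P : Subgroup G) ∧ (∀ y ∈ (P : Subgroup G), x * y = y * x) ∧ x ^ p = 1}, g = a * c := by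
  have hsec : ¬ H17.Sec (Matrix.SpecialLinearGroup (Fin 2) (ZMod p)) G := by
    by_cases h : p = 3
    · obtain ⟨T⟩ : Nonempty (Sylow 2 G) := inferInstance
      exact H17.not_sec_sl2_of_comm_sylow_two hp T (h3 h T)
    · exact H03.not_sec_sl2_of_solvable hp h
  obtain ⟨a, ha, c, hc, h⟩ := H03.thompson_factor hp (Or.inr rfl)
    (H17.centralizer_pCore_le_of_solvable (H02.pPrimeCore_eq_bot_iff.2 hF))
    (H17.weaklyStable_of_not_sec hp hsec) P g
  exact ⟨a, ha, c, fun x hx => hc x ⟨hx.1, fun y hy => (hx.2.1 y hy).symm⟩, h⟩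

end Cfsg.Agent.S0109
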