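import Mathlib
import Cfsg.Statements.S0110
import Cfsg.Agent.H04.Amb

set_option autoImplicit false
open Cfsg

namespace Cfsg.Agent.S0110

/-- In a p-group G, an extraspecial subgroup E with [G, E] ≤ Z(E) satisfies G = E C_G(E). -/
theorem result {G : Type*} [Group G] [Finite G] {p : ℕ} [Fact p.Prime] (hG : IsPGroup p G) (E : Subgroup G) (hE : Cfsg.IsExtraspecial p E) (h : ⁅(⊤ : Subgroup G), E⁆ ≤ E ⊓ Subgroup.centralizer (E : Set G)) : E ⊔ Subgroup.centralizer (E : Set G) = ⊤ := by
  have h1 := H04.sup_inf_centralizer_eq (R := ⊤) (N := E ⊓ Subgroup.centralizer (E : Set G))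
    hE.1.1 le_top (by rw [hE.1.2.1, H04.map_subtype_center])
    (by rw [← H04.map_subtype_center, H04.card_map_subtype, hE.2])
    (Subgroup.commutator_comm ⊤ E ▸ h)
  rwa [top_inf_eq] at h1

end Cfsg.Agent.S0110
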