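import Mathlib
import Cfsg.Statements.S0114
import Cfsg.Agent.H04.MaxClass

set_option autoImplicit false
open Cfsg

namespace Cfsg.Agent.S0114

/-- The central quotient of a 2-group of maximal class is dihedral. -/
theorem result {X : Type*} [Group X] [Finite X] (n : ℕ) (hn : 3 ≤ n) (hX : Nat.card X = 2 ^ n) (hc : Group.nilpotencyClass X = n - 1) : Nonempty (X ⧸ Subgroup.center X ≃* DihedralGroup (2 ^ (n - 2))) := by
  obtain ⟨m, rfl⟩ : ∃ m, n = m + 3 := ⟨n - 3, by omega⟩
  obtain ⟨a, b, h⟩ := H04.dsq_of_maxClass hX ((H04.class_eq_iff (n := m + 1) hX).mp hc)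
  exact h.quotient_center

end Cfsg.Agent.S0114
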