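import Mathlib
import Cfsg.Statements.S0115
import Cfsg.Agent.H04.MaxClass

set_option autoImplicit false
open Cfsg

namespace Cfsg.Agent.S0115

/-- A 2-group of order 2^n, n ≥ 3, is of maximal class exactly when its commutator quotient is a Klein four-group. -/
theorem result {X : Type*} [Group X] [Finite X] (n : ℕ) (hn : 3 ≤ n) (hX : Nat.card X = 2 ^ n) : Group.nilpotencyClass X = n - 1 ↔ IsKleinFour (X ⧸ commutator X) := by
  obtain ⟨m, rfl⟩ : ∃ m, n = m + 3 := ⟨n - 3, by omega⟩
  constructor
  · intro hc
    obtain ⟨a, b, h⟩ := H04.dsq_of_maxClass hX ((H04.class_eq_iff (n := m + 1) hX).mp hc)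
    haveI : Nontrivial (X ⧸ commutator X) := Finite.one_lt_card_iff_nontrivial.mp
      (by rw [← Subgroup.index, h.index_commutator]; norm_num)
    refine ⟨h.index_commutator, (Monoid.exponent_eq_prime_iff Nat.prime_two).mpr fun x hx =>
      orderOf_eq_prime ?_ hx⟩
    obtain ⟨x, rfl⟩ := QuotientGroup.mk_surjective x
    rw [← QuotientGroup.mk_pow, QuotientGroup.eq_one_iff]
    exact h.sq_mem_commutator x
  · intro h
    obtain ⟨a, b, h⟩ := H04.taussky_aux m X hX (fun hc => by
      have := h.card_four
      rw [← Subgroup.index, (commutator_eq_bot_iff X).mpr hc, Subgroup.index_bot, hX,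
        show 2 ^ (m + 3) = 2 ^ m * 8 by ring] at this
      omega) h.card_four
    exact h.nilpotencyClass

end Cfsg.Agent.S0115
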