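import Mathlib
import Cfsg.Statements.S0116
import Cfsg.Agent.H03.Alperin

set_option autoImplicit false
open Cfsg

namespace Cfsg.Agent.S0116

section
variable {G : Type*} [Group G] {p : ℕ} (P : Sylow p G)

/-- tame intersection normalized by `x` -/
def Tame (Q : Sylow p G) (x : G) : Prop :=
  x ∈ Subgroup.normalizer ((((P : Subgroup G) ⊓ (Q : Subgroup G)) : Subgroup G) : Set G) ∧
    ¬ p ∣ ((P : Subgroup G) ⊓ Subgroup.normalizer ((((P : Subgroup G) ⊓ (Q : Subgroup G)) : Subgroup G) : Set G)).relIndex (Subgroup.normalizer ((((P : Subgroup G) ⊓ (Q : Subgroup G)) : Subgroup G) : Set G)) ∧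
    ¬ p ∣ ((Q : Subgroup G) ⊓ Subgroup.normalizer ((((P : Subgroup G) ⊓ (Q : Subgroup G)) : Subgroup G) : Set G)).relIndex (Subgroup.normalizer ((((P : Subgroup G) ⊓ (Q : Subgroup G)) : Subgroup G) : Set G))

/-- chains of tame conjugations -/
inductive Rel : Set G → G → Prop
  | nil (A : Set G) : Rel A 1
  | cons (A : Set G) (Q : Sylow p G) (x g : G) : Tame P Q x →
      A ⊆ (((P : Subgroup G) ⊓ (Q : Subgroup G) : Subgroup G) : Set G) →
      Rel ((fun a => x⁻¹ * a * x) '' A) g → Rel A (x * g)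

variable {P}

theorem Rel.mono {B : Set G} {g : G} (h : Rel P B g) : ∀ A ⊆ B, Rel P A g := by
  induction h with
  | nil B => exact fun A _ => Rel.nil A
  | cons B Q x g h1 h2 _ ih =>
    exact fun A hA => Rel.cons A Q x g h1 (hA.trans h2) (ih _ (Set.image_mono hA))

theorem Rel.mul {A : Set G} {g : G} (h : Rel P A g) :
    ∀ k, Rel P ((fun a => g⁻¹ * a * g) '' A) k → Rel P A (g * k) := by
  induction h with
  | nil B => intro k hk; simpa using hk
  | cons B Q x g h1 h2 _ ih =>
    intro k hk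
    rw [mul_assoc]
    refine Rel.cons B Q x _ h1 h2 (ih k ?_)
    rw [Set.image_image]
    simpa [mul_assoc] using hk

theorem Rel.fin {A : Set G} {g : G} (h : Rel P A g) :
    ∃ (n : ℕ) (Q : Fin n → Sylow p G) (x : Fin n → G), (List.ofFn x).prod = g ∧
      (∀ i, Tame P (Q i) (x i)) ∧ ∀ i : Fin n,
      (fun a => (((List.ofFn x).take i.val).prod)⁻¹ * a * ((List.ofFn x).take i.val).prod) '' A ⊆
        (((P : Subgroup G) ⊓ (Q i : Subgroup G) : Subgroup G) : Set G) := by
  induction h with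
  | nil B => exact ⟨0, Fin.elim0, Fin.elim0, by simp, fun i => i.elim0, fun i => i.elim0⟩
  | cons B Q x g h1 h2 _ ih =>
    obtain ⟨n, Q', x', e, h3, h4⟩ := ih
    refine ⟨n + 1, Fin.cons Q Q', Fin.cons x x', by simp [List.ofFn_succ, e], ?_, ?_⟩
    · intro i
      refine Fin.cases ?_ (fun i => ?_) i
      · simpa using h1
      · simpa using h3 i
    · intro i
      refine Fin.cases ?_ (fun i => ?_) i
      · simpa using h2
      · have := h4 i
        rw [Set.image_image] at this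
        simpa [List.ofFn_succ, mul_assoc] using this

end

/-- The Alperin fusion Theorem states that conjugation between subsets of a Sylow p-subgroup P factors through normalizers of tame intersections P ∩ Q_i with other Sylow p-subgroups, carrying the subset along step by step. -/
theorem result {G : Type*} [Group G] [Finite G] {p : ℕ} [Fact p.Prime] (P : Sylow p G) (A : Set G) (g : G) (hA : A ⊆ (P : Set G)) (hAg : (fun a => g⁻¹ * a * g) '' A ⊆ (P : Set G)) : ∃ (n : ℕ) (Q : Fin n → Sylow p G) (x : Fin n → G), (List.ofFn x).prod = g ∧ (∀ i : Fin n, x i ∈ Subgroup.normalizer ((((P : Subgroup G) ⊓ (Q i : Subgroup G)) : Subgroup G) : Set G) ∧ ¬ p ∣ ((P : Subgroup G) ⊓ Subgroup.normalizer ((((P : Subgroup G) ⊓ (Q i : Subgroup G)) : Subgroup G) : Set G)).relIndex (Subgroup.normalizer ((((P : Subgroup G) ⊓ (Q i : Subgroup G)) : Subgroup G) : Set G)) ∧ ¬ p ∣ ((Q i : Subgroup G) ⊓ Subgroup.normalizer ((((P : Subgroup G) ⊓ (Q i : Subgroup G)) : Subgroup G) : Set G)).relIndex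 (Subgroup.normalizer ((((P : Subgroup G) ⊓ (Q i : Subgroup G)) : Subgroup G) : Set G))) ∧ (∀ h : 0 < n, A ⊆ (((P : Subgroup G) ⊓ (Q ⟨0, h⟩ : Subgroup G) : Subgroup G) : Set G)) ∧ ∀ i : Fin n, ∀ h : i.val + 1 < n, (fun a => (((List.ofFn x).take (i.val + 1)).prod)⁻¹ * a * ((List.ofFn x).take (i.val + 1)).prod) '' A ⊆ (((P : Subgroup G) ⊓ (Q ⟨i.val + 1, h⟩ : Subgroup G) : Subgroup G) : Set G) := by
  have key : Rel P A g := by
    have h1 := H03.alperin_tame' P (fun B h => Rel P (B : Set G) h⁻¹)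
      (fun A B g hAB h => h.mono _ hAB)
      (fun A g h m1 m2 => by
        rw [mul_inv_rev]
        refine m1.mul _ ?_
        simpa [Subgroup.coe_map] using! m2)
      (fun Q h1 h2 _ x hx _ => by
        have := Rel.cons (P := P) (((P : Subgroup G) ⊓ (Q : Subgroup G) : Subgroup G) : Set G)
          Q x⁻¹ 1 ⟨inv_mem hx, by rwa [Subgroup.inf_relIndex_right],
            by rwa [Subgroup.inf_relIndex_right]⟩ le_rfl (Rel.nil _)
        simpa using this)
      ((P : Subgroup G) ⊓ (g • P : Sylow p G)) g⁻¹ inf_le_left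
      (fun a ha => by simpa using H03.mem_smul_sylow.mp ha.2)
    rw [inv_inv] at h1
    exact h1.mono A fun a ha => ⟨hA ha, H03.mem_smul_sylow.mpr (hAg ⟨a, ha, rfl⟩)⟩
  obtain ⟨n, Q, x, e, h1, h2⟩ := key.fin
  exact ⟨n, Q, x, e, h1, fun h => by simpa using h2 ⟨0, h⟩, fun i h => h2 ⟨i.val + 1, h⟩⟩

end Cfsg.Agent.S0116
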