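import Mathlib
import Cfsg.Statements.S0122
import Cfsg.Agent.H04.Symplectic
import Cfsg.Agent.H04.BG5

set_option autoImplicit false
open Cfsg

open scoped commutatorElement

namespace Cfsg.Agent.S0122

open Subgroup BG H04 in
theorem aux {G : Type*} [Group G] [Finite G] {p : ℕ} [hp : Fact p.Prime] (hG : IsPGroup p G)
    {V A : Subgroup G} [V.Normal] (hV : IsElementaryAbelian p V) (hV3 : Nat.card V = p ^ 3)
    (hmax : ∀ x ∈ C_(V), x ^ p = 1 → x ∈ V) (hA : IsElementaryAbelian p A) (hA4 : Nat.card A = p ^ 4) :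
    C_(V) ⊓ A = V ⊓ A ∧ Nat.card ↥(V ⊓ A) = p ^ 2 ∧ C_(V).relIndex A = p ^ 2 := by
  have h0 := hp.out.pos
  have h1 : C_(V) ⊓ A = V ⊓ A := le_antisymm (fun x hx => ⟨hmax x hx.1 (hA.2 x hx.2), hx.2⟩)
    (inf_le_inf_right _ (abelian_iff.mp hV.1))
  have h2 := H04.card_inf_mul_relIndex C_(V) A
  rw [h1, hA4] at h2
  suffices h : Nat.card ↥(V ⊓ A) = p ^ 2 from
    ⟨h1, h, Nat.eq_of_mul_eq_mul_left (pow_pos h0 2) (by rw [← h, h2, h]; ring)⟩
  refine le_antisymm ?_ ?_
  · have h3 := mul_card_le_of_lt (hG.to_subgroup V) (H := V ⊓ A) (inf_lt_left.mpr fun h => by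
      have := card_le (((le_inf (le_cent_of_abelian hA.1 le_rfl h) le_rfl).trans h1.le).trans inf_le_left)
      rw [hA4, hV3, Nat.pow_le_pow_iff_right hp.out.one_lt] at this
      omega)
    exact Nat.le_of_mul_le_mul_left (h3.trans_eq (by rw [hV3]; ring)) h0
  obtain ⟨W, hW, h3, h4⟩ := exists_normal_card_eq hG V 2 (hV3 ▸ Nat.pow_le_pow_right h0 (by omega))
  obtain ⟨v, h5, -, -, -, h6⟩ := exists_sup_zpowers_eq_of_card (hG.to_subgroup V) h3
    (by rw [hV3, h4]; ring)
  obtain ⟨K, -, -, h7, h8, h9⟩ := exists_normal_card_mul hG W V (lt_of_le_of_ne h3 fun h => by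
    rw [h, hV3] at h4; exact absurd (Nat.pow_right_injective hp.out.two_le h4) (by omega))
  obtain rfl : K = V := BG.eq_of_le_of_card_eq h7 (by rw [h8, h4, hV3]; ring)
  have h10 : ∀ g, ⁅v, g⁆ ∈ W := fun g => h9 (commutator_mem_commutator h5 (mem_top g))
  have h11 := relIndex_centralizer_le (x := v) (D := C_(W) ⊓ A) (N := W ⊓ C_(A)) fun t ht =>
    ⟨h10 t, fun a ha => by
      have h11 := ht.1 _ (h10 a)
      have h12 := mul_comm_of_abelian hA.1 ht.2 ha
      have h13 := mul_comm_of_abelian hV.1 (h3 (h10 a)) h5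
      rw [← mul_inv_eq_iff_eq_mul, conjugate_commutatorElement, ← h12, mul_inv_cancel_right,
        show a * v * a⁻¹ = ⁅v, a⁆⁻¹ * v by simp [commutatorElement_def, mul_assoc],
        commutatorElement_mul_left_of_commute (mul_comm_of_abelian hV.1 (inv_mem (h3 (h10 a)))
          (h3 (h10 t))), commutatorElement_eq_one_iff_commute.mpr (Commute.inv_left h11), mul_one]⟩
  have h12 := H04.card_inf_mul_relIndex C_[v] (C_(W) ⊓ A)
  rw [← inf_assoc, ← cent_zpowers, inf_comm _ C_(W), ← cent_sup, h6, h1, cent_zpowers] at h12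
  have h13 := H04.card_inf_mul_relIndex C_(W) A
  by_cases h14 : A ≤ C_(W)
  · rw [inf_eq_right.mpr h14] at h11 h12
    have h15 := card_le (inf_le_left (a := W) (b := C_(A)))
    refine Nat.le_of_mul_le_mul_right (le_trans (le_of_eq ?_) (Nat.mul_le_mul_left _
      (h11.trans (h4 ▸ h15)))) (pow_pos h0 2)
    rw [h12, hA4]; ring
  · have h15 := card_le_of_lt_card_sq h4 (inf_lt_left.mpr fun h => h14 (cent_symm h))
    have h16 : C_(W).relIndex A ≤ p := (relIndex_le_of_le_right le_top (BG.relIndex_ne_zero _ _)).trans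
      (by simpa using index_centralizer_le hG 2 W h4)
    refine Nat.le_of_mul_le_mul_right (le_trans (le_of_eq ?_) (Nat.mul_le_mul
      (Nat.mul_le_mul_left _ (h11.trans h15)) h16 |>.trans_eq (mul_assoc _ _ _))) (Nat.mul_pos h0 h0)
    rw [h12, h13, hA4]; ring


/-- For odd p, a p-group containing an elementary abelian subgroup of order p^4 has a normal elementary abelian subgroup of order p^4. -/
theorem result {G : Type*} [Group G] [Finite G] {p : ℕ} [Fact p.Prime] (hp : p ≠ 2) (hG : IsPGroup p G) (E : Subgroup G) (hE : Cfsg.IsElementaryAbelian p E) (hE4 : Nat.card E = p ^ 4) : ∃ A : Subgroup G, A.Normal ∧ Cfsg.IsElementaryAbelian p A ∧ Nat.card A = p ^ 4 := by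
  open Subgroup BG H04 in
  have hpp : p.Prime := Fact.out
  have h0 := hpp.pos
  obtain ⟨V₀, -, -, h1, h2, h3⟩ := exists_normal_elemAb_cube hp hG ⊤ ⊥ bot_le isElementaryAbelian_bot
    (by simpa using Nat.one_le_pow _ _ h0) fun h => by
      have := pRankLE_iff.mp h E le_top hE
      rw [hE4, Nat.pow_le_pow_iff_right hpp.one_lt] at this; omega
  obtain ⟨V, h4, -, hVn, hV, h5⟩ := exists_maximal_normal_elemAb ⊤ V₀ h1 le_top h2
  by_cases h6 : p ^ 4 ≤ Nat.card V
  · obtain ⟨A, h7, h8, h9⟩ := exists_normal_card_eq hG V 4 h6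
    exact ⟨A, h7, IsElementaryAbelian.of_le hV h8, h9⟩
  have hV3 : Nat.card V = p ^ 3 := le_antisymm (not_lt.mp fun h => h6
    (pow_succ_le_of_lt_card (hG.to_subgroup V) h)) (h3 ▸ card_le h4)
  have hmax : ∀ x ∈ C_(V), x ^ p = 1 → x ∈ V := fun x hx hxp =>
    mem_of_maximal_normal_elemAb hp hG ⊤ V le_top hV h5 (mem_top x) hx hxp
  refine ⟨E, normalizer_eq_top_iff.mp (by_contra fun h7 => ?_), hE, hE4⟩
  haveI := hG.isNilpotent
  obtain ⟨g, hg, hgE⟩ := SetLike.exists_of_lt (lt_normalizer_of_ne_top h7)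
  refine hgE (cj_eq_self_iff.mp (by_contra fun hne => ?_))
  have hB : IsElementaryAbelian p (cj g E) := cj_eq_map g E ▸ IsElementaryAbelian.map hE _
  have hB4 : Nat.card (cj g E) = p ^ 4 := (conjg_cj g E).card_eq.trans hE4
  have h8 : E ≤ N_(cj g E) := by rw [← cj_norm, cj_of_mem_norm hg]; exact le_norm E
  have h9 : cj g E ≤ N_(E) := cj_le_of_mem_norm (le_norm E) hg
  set B := cj g E
  obtain ⟨a1, a2, a3⟩ := aux hG hV hV3 hmax hE hE4
  obtain ⟨b1, b2, b3⟩ := aux hG hV hV3 hmax hB hB4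
  have hC : C_(V) ≤ C_(V ⊓ E) := cent_anti inf_le_left
  have h10 : V ⊓ B = V ⊓ E := by
    by_contra h10
    have h11 : V ⊓ E ⊔ V ⊓ B = V := BG.eq_of_le_of_card_le (sup_le inf_le_left inf_le_left) (by
      rw [hV3, pow_succ', ← a2]
      exact mul_card_le_of_lt (hG.to_subgroup _) (left_lt_sup.mpr fun h =>
        h10 (BG.eq_of_le_of_card_eq h (b2.trans a2.symm))))
    have h12 : C_(V ⊓ E) ⊓ B = C_(V) ⊓ B := le_antisymm (le_inf (by
      conv_rhs => rw [← h11]
      exact le_cent_sup inf_le_left (inf_le_right.trans (le_cent_of_abelian hB.1 le_rfl inf_le_right)))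
      inf_le_right) (inf_le_inf_right _ hC)
    have h13 := index_centralizer_le hG 3 V hV3
    have h14 : p ^ 2 ≤ C_(V).relIndex C_(V ⊓ E) := a3 ▸ relIndex_le_of_le_right
      (le_cent_of_abelian hE.1 le_rfl inf_le_right) (BG.relIndex_ne_zero _ _)
    have h15 : p ^ 2 ≤ C_(V ⊓ E).relIndex ⊤ := by
      rw [← b3, ← inf_relIndex_right, ← h12, inf_relIndex_right]
      exact relIndex_le_of_le_right le_top (BG.relIndex_ne_zero _ _)
    have h16 := Nat.mul_le_mul h14 h15
    rw [relIndex_top_right, relIndex_mul_index hC, ← pow_add] at h16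
    exact absurd ((Nat.pow_le_pow_iff_right hpp.one_lt).mp (h16.trans h13)) (by decide)
  obtain ⟨v, h11, h13, -, h14⟩ := exists_central_step' (hG.to_subgroup C_(V ⊓ E)) (M := V ⊓ E)
    (le_cent_of_abelian hV.1 le_rfl inf_le_left) (centralizer_le_normalizer _)
    le_normalizer_of_normal fun h => by
      rw [inf_eq_left.mpr (h.trans inf_le_right), hV3] at a2
      exact absurd (Nat.pow_right_injective hpp.two_le a2) (by decide)
  have h15 : V ⊓ E ⊔ zpowers v = V := BG.eq_of_le_of_card_le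
    (sup_le inf_le_left (zpowers_le.mpr h11)) (by
      rw [hV3, pow_succ', ← a2]
      exact mul_card_le_of_lt (hG.to_subgroup _) (left_lt_sup.mpr fun h => h13 (zpowers_le.mp h)))
  have h16 : C_(V ⊓ E) = C_(V) ⊔ E := by
    refine (BG.eq_of_le_of_card_le (sup_le hC (le_cent_of_abelian hE.1 le_rfl inf_le_right)) ?_).symm
    rw [← H04.card_mul_relIndex hC, ← H04.card_mul_relIndex (le_sup_left (a := C_(V)) (b := E)),
      relIndex_sup_left, a3, ← a2]
    refine Nat.mul_le_mul_left _ (le_trans (le_of_eq ?_) (relIndex_centralizer_le (x := v) h14))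
    rw [← inf_relIndex_right C_[v], ← cent_zpowers, inf_comm C_(zpowers v), ← cent_sup, h15]
  have h17 : B ≤ V ⊔ E := fun b hb => by
    obtain ⟨c, hc, a, ha, rfl⟩ := mem_sup_of_normal_left.mp (h16 ▸ h10 ▸
      le_cent_of_abelian hB.1 le_rfl inf_le_right hb)
    refine mul_mem (mem_sup_left (hmax c hc ?_)) (mem_sup_right ha)
    have h17 := comm_le_inf h8 h9 (commutator_mem_commutator (inv_mem ha) hb)
    simpa using mul_pow_eq_one_of_class_two hpp hp (mul_comm_of_abelian hB.1 h17.2 hb)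
      (mul_comm_of_abelian hE.1 h17.1 (inv_mem ha)) (hB.2 _ hb) (hE.2 _ (inv_mem ha))
  have h18 := card_sup_mul (K := V) (H := E) le_normalizer_of_normal
  rw [a2, hV3, hE4, show p ^ 3 * p ^ 4 = p ^ 5 * p ^ 2 by ring] at h18
  have h19 := Nat.eq_of_mul_eq_mul_right (pow_pos h0 2) h18
  have h20 : E ⊔ B = V ⊔ E := BG.eq_of_le_of_card_le (sup_le le_sup_right h17) (by
    rw [h19, pow_succ', ← hE4]
    exact mul_card_le_of_lt (hG.to_subgroup _) (left_lt_sup.mpr fun h =>
      hne (BG.eq_of_le_of_card_eq h (hB4.trans hE4.symm))))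
  have h21 := card_le ((le_inf ((le_cent_sup (inf_le_left.trans (abelian_iff.mp hE.1))
    (inf_le_right.trans (abelian_iff.mp hB.1))).trans (cent_anti (le_sup_left.trans h20.ge)))
    inf_le_left).trans a1.le)
  have h22 := card_sup_mul h9
  rw [h20, h19, hE4, hB4] at h22
  have h23 := h22.ge.trans (Nat.mul_le_mul_left _ (a2 ▸ h21))
  rw [← pow_add, ← pow_add, Nat.pow_le_pow_iff_right hpp.one_lt] at h23
  omega

end Cfsg.Agent.S0122
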