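import Mathlib
import Cfsg.Statements.S0123
import Cfsg.Agent.H04.Regular

set_option autoImplicit false
open Cfsg

namespace Cfsg.Agent.S0123

/-- For a p-group of small class relative to p (class ≤ 2 with p odd, or class ≤ 3 with p > 3) whose derived subgroup is generated by elements of order dividing p, the p-th power map is multiplicative. -/
theorem result {R : Type*} [Group R] [Finite R] {p : ℕ} [Fact p.Prime] (hR : IsPGroup p R) (hcl : (p ≠ 2 ∧ ⁅commutator R, (⊤ : Subgroup R)⁆ = ⊥) ∨ (3 < p ∧ ⁅⁅commutator R, (⊤ : Subgroup R)⁆, (⊤ : Subgroup R)⁆ = ⊥)) (hder : commutator R ≤ Subgroup.closure {x : R | x ^ p = 1}) (x y : R) : (x * y) ^ p = x ^ p * y ^ p := by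
  have hp : p.Prime := Fact.out
  have hreg : H04.RegOn p (⊤ : Subgroup R) := by
    rcases hcl with ⟨h1, h2⟩ | ⟨h1, h2⟩
    · exact H04.regOn_of_class_two hp h1 h2
    · exact H04.regOn_of_lcs_eq_bot hp (le_bot_iff.mp
        (((⊤ : Subgroup R).lowerCentralSeries_antitone (show 3 ≤ p - 1 by omega)).trans h2.le))
  refine hreg.mul_pow_of_commutator_pow (hR.to_subgroup ⊤) (Subgroup.mem_top x)
    (Subgroup.mem_top y) ?_
  have := hder (Subgroup.commutator_mem_commutator (Subgroup.mem_top x) (Subgroup.mem_top y))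
  rw [← H04.omegaOne_top] at this
  exact ((hreg.mem_omegaOne_iff (hR.to_subgroup ⊤)).mp this).2

end Cfsg.Agent.S0123
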