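import Mathlib
import Cfsg.Statements.S0125
import Cfsg.Agent.H03.Focal

set_option autoImplicit false
open Cfsg

namespace Cfsg.Agent.S0125

/-- The centralizer of a self-centralizing normal subgroup A of a Sylow p-subgroup is the direct product of A with a normal p'-subgroup. -/
theorem result {G : Type*} [Group G] [Finite G] {p : ℕ} [Fact p.Prime] (R : Sylow p G) (A : Subgroup G) (hAR : A ≤ (R : Subgroup G)) (hAn : (R : Subgroup G) ≤ Subgroup.normalizer (A : Set G)) (hC : (R : Subgroup G) ⊓ Subgroup.centralizer (A : Set G) = A) : ∃ H : Subgroup G, H ≤ Subgroup.centralizer (A : Set G) ∧ Nat.Coprime (Nat.card H) p ∧ Subgroup.centralizer (A : Set G) ≤ Subgroup.normalizer (H : Set G) ∧ H ⊓ A = ⊥ ∧ H ⊔ A = Subgroup.centralizer (A : Set G) := by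
  have hA : A ≤ Subgroup.centralizer (A : Set G) := hC.ge.trans inf_le_right
  have h1 : ¬ p ∣ A.relIndex (Subgroup.centralizer (A : Set G)) := by
    have h2 := H03.not_dvd_relIndex_normal (H03.not_dvd_relIndex_of_le R hAn)
      ((Subgroup.centralizer (A : Set G)).subgroupOf (Subgroup.normalizer (A : Set G)))
    rwa [Subgroup.relIndex_subgroupOf (Subgroup.centralizer_le_normalizer _),
      ← Subgroup.inf_relIndex_right, hC] at h2
  let S := H03.sylowInf A (R.2.to_le hAR) _ h1
  have h3 : HasNormalPComplement p (Subgroup.centralizer (A : Set G)) :=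
    H03.hasNPC_of_sylow_le_center S fun x hx =>
      Subgroup.mem_center_iff.mpr fun g => Subtype.ext (g.2 x hx).symm
  have h4 := H03.HasNPC.isComplement' h3 S
  refine ⟨(pResidual p _).map (Subgroup.centralizer (A : Set G)).subtype,
    Subgroup.map_subtype_le _, ?_, ?_, ?_, ?_⟩
  · rw [Subgroup.card_map_of_injective (Subgroup.subtype_injective _)]
    exact H03.hasNPC_iff_coprime.mp h3
  · rw [← Subgroup.normal_subgroupOf_iff_le_normalizer (Subgroup.map_subtype_le _),
      Subgroup.subgroupOf, Subgroup.comap_map_eq_self_of_injective (Subgroup.subtype_injective _)]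
    infer_instance
  · rw [eq_bot_iff]
    rintro _ ⟨⟨y, hy, rfl⟩, hyA⟩
    have : y = 1 := Subgroup.disjoint_def.mp h4.disjoint hy hyA
    simp [this]
  · have h5 := congrArg (Subgroup.map (Subgroup.centralizer (A : Set G)).subtype) h4.sup_eq_top
    rwa [Subgroup.map_sup, H03.coe_sylowInf, Subgroup.map_subgroupOf_eq_of_le hA,
      ← MonoidHom.range_eq_map, Subgroup.range_subtype] at h5

end Cfsg.Agent.S0125
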