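import Mathlib
import Cfsg.Statements.S0131
import Cfsg.Agent.H03.Focal

set_option autoImplicit false
open Cfsg

namespace Cfsg.Agent.S0131

/-- P/P' has a normal complement in G exactly when the focal subgroup G' ∩ P is as small as possible, namely P'. -/
theorem result {G : Type*} [Group G] [Finite G] {p : ℕ} [Fact p.Prime] (P : Sylow p G) : (∃ N : Subgroup G, N.Normal ∧ N ⊓ (P : Subgroup G) = ⁅(P : Subgroup G), (P : Subgroup G)⁆ ∧ N ⊔ (P : Subgroup G) = ⊤) ↔ commutator G ⊓ (P : Subgroup G) = ⁅(P : Subgroup G), (P : Subgroup G)⁆ := by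
  constructor
  · rintro ⟨N, hN, h1, h2⟩
    refine le_antisymm ?_ (le_inf (H03.commutator_le_commutator' _ _) (Subgroup.commutator_le_self _))
    rw [← h1]
    refine inf_le_inf_right _ ?_
    have h3 := congrArg (Subgroup.map (QuotientGroup.mk' N)) h2
    rw [Subgroup.map_sup, QuotientGroup.map_mk'_self, bot_sup_eq] at h3
    rw [← QuotientGroup.ker_mk' N, ← Subgroup.map_eq_bot_iff, commutator_def,
      Subgroup.map_commutator, ← h3, ← Subgroup.map_commutator, Subgroup.map_eq_bot_iff,
      QuotientGroup.ker_mk', ← h1]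
    exact inf_le_left
  · intro h
    have h' := H03.coprime_focal_of_hall _ P.card_coprime_index
    refine ⟨_, inferInstance, ?_, H03.ker_transferFocal_sup _ h'⟩
    rw [H03.ker_transferFocal_inf _ h', H03.focalSubgroup_eq_of_coprime _ h', h]

end Cfsg.Agent.S0131
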