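import Mathlib
import Cfsg.Statements.S0132
import Cfsg.Agent.H03.HallNC

set_option autoImplicit false
open Cfsg

namespace Cfsg.Agent.S0132

/-- A minimal non-p-nilpotent finite group is a minimal non-nilpotent group with a normal Sylow p-subgroup. -/
theorem result {G : Type*} [Group G] [Finite G] {p : ℕ} [Fact p.Prime] (h1 : ¬ Cfsg.HasNormalPComplement p G) (h2 : ∀ H : Subgroup G, H ≠ ⊤ → Cfsg.HasNormalPComplement p H) : (∀ H : Subgroup G, H ≠ ⊤ → Group.IsNilpotent H) ∧ ¬ Group.IsNilpotent G ∧ ∀ P : Sylow p G, (P : Subgroup G).Normal := by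
  obtain ⟨D, hN, q, g, hD, hq, -, -, -, -, h5, h6⟩ := H03.exists_eq_top_of_minimal_not_hasNPC h1 h2
  refine ⟨fun H hH => ?_, fun h => h1 H03.hasNPC_of_isNilpotent, fun P => (h6 P).symm ▸ hN⟩
  have := Fact.mk hq
  have h7 : IsPGroup q (H ⧸ D.subgroupOf H) :=
    h5.of_injective (QuotientGroup.map _ _ H.subtype le_rfl) (by
      rw [injective_iff_map_eq_one]
      intro x hx
      obtain ⟨y, rfl⟩ := QuotientGroup.mk_surjective x
      exact (QuotientGroup.eq_one_iff y).mpr ((QuotientGroup.eq_one_iff (y : G)).mp hx))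
  have := h7.isNilpotent
  exact H03.isNilpotent_of_hasNPC_of_quotient (h2 H hH) (D.subgroupOf H) hD.comap_subtype

end Cfsg.Agent.S0132
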