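import Mathlib
import Cfsg.Statements.S0154
import Cfsg.Agent.H05.RepEquiv

set_option autoImplicit false
open Cfsg

open H05

namespace Cfsg.Agent.S0154

/-- A finite group has exactly as many irreducible complex characters of degree 1 as the index of its commutator subgroup. -/
theorem result {G : Type*} [Group G] [Finite G] : Nat.card {χ : Cfsg.IrrCharacter G // (χ : G → ℂ) 1 = 1} = (commutator G).index := by
  exact card_linear_irr

end Cfsg.Agent.S0154
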