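import Mathlib
import Cfsg.Statements.S0166
import Cfsg.Agent.H05.Brauer
import Cfsg.Agent.H05.RepEquiv

set_option autoImplicit false
open Cfsg

namespace Cfsg.Agent.S0166

open H05 Module

set_option linter.unusedSectionVars false

variable {K : Type} [Field K] [Algebra K ℂ] {G : Type*} [Group G]

/-- `χ` is the character of a representation over `K`. -/
def Real (K : Type) [Field K] [Algebra K ℂ] (χ : G → ℂ) (n : ℕ) : Prop :=
  ∃ (V : Type) (_ : AddCommGroup V) (_ : Module K V) (_ : FiniteDimensional K V) (ρ : Representation K G V),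
    finrank K V = n ∧ χ = fun g => algebraMap K ℂ (ρ.character g)

theorem Real.matrix {χ : G → ℂ} {n : ℕ} (h : Real K χ n) :
    ∃ ρ : G →* Matrix (Fin n) (Fin n) ℂ, (∀ g i j, ρ g i j ∈ Set.range (algebraMap K ℂ)) ∧ χ = fun g => (ρ g).trace := by
  obtain ⟨V, _, _, _, ρ, hn, rfl⟩ := h
  let b := finBasisOfFinrankEq K V hn
  refine ⟨(algebraMap K ℂ).mapMatrix.toMonoidHom.comp ((LinearMap.toMatrixAlgEquiv b).toMonoidHom.comp ρ),
    fun g i j => ⟨_, rfl⟩, funext fun g => ?_⟩
  rw [Representation.character, LinearMap.trace_eq_matrix_trace K b, AddMonoidHom.map_trace]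
  rfl

theorem Real.isCh {χ : G → ℂ} {n : ℕ} (h : Real K χ n) : IsCharacter G χ := by
  obtain ⟨ρ, -, rfl⟩ := h.matrix
  exact H06.isCharacter_of_matrixHom ρ

theorem real_of_matrix {ι : Type} [Fintype ι] [DecidableEq ι] (ρ : G →* Matrix ι ι K) :
    Real K (fun g => algebraMap K ℂ (ρ g).trace) (Fintype.card ι) :=
  ⟨ι → K, _, _, inferInstance, (Matrix.toLinAlgEquiv' (R := K) (n := ι)).toMonoidHom.comp ρ, by simp,
    funext fun g => congrArg _ (Matrix.trace_toLin'_eq (ρ g)).symm⟩

variable {V W : Type} [AddCommGroup V] [Module K V] [FiniteDimensional K V] [AddCommGroup W] [Module K W]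
  [FiniteDimensional K W]

theorem real_char (ρ : Representation K G V) : Real K (fun g => algebraMap K ℂ (ρ.character g)) (finrank K V) :=
  ⟨V, _, _, inferInstance, ρ, rfl, rfl⟩

theorem char_prod (ρ : Representation K G V) (σ : Representation K G W) (g : G) :
    (ρ.prod σ).character g = ρ.character g + σ.character g := LinearMap.trace_prodMap' _ _

theorem Real.add {χ ψ : G → ℂ} {m n : ℕ} (h : Real K χ m) (h' : Real K ψ n) : Real K (χ + ψ) (m + n) := by
  obtain ⟨V, _, _, _, ρ, rfl, rfl⟩ := h
  obtain ⟨W, _, _, _, σ, rfl, rfl⟩ := h'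
  exact ⟨V × W, _, _, inferInstance, ρ.prod σ, by simp, funext fun g => by simp [char_prod]⟩

theorem compl_sub {ρ : Representation K G V} {U U' : Subrepresentation ρ} (h : IsCompl U U') :
    IsCompl U.toSubmodule U'.toSubmodule :=
  ⟨disjoint_iff.2 (congrArg Subrepresentation.toSubmodule h.inf_eq_bot),
    codisjoint_iff.2 (congrArg Subrepresentation.toSubmodule h.sup_eq_top)⟩

theorem char_compl {ρ : Representation K G V} {U U' : Subrepresentation ρ} (h : IsCompl U U') (g : G) :
    ρ.character g = U.toRepresentation.character g + U'.toRepresentation.character g := by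
  rw [← char_prod]
  refine congrFun (Representation.char_iso (Representation.Equiv.mk
    (Submodule.prodEquivOfIsCompl _ _ (compl_sub h)) fun g => ?_)).symm g
  ext x <;> simp [Subrepresentation.toRepresentation, Representation.prod]

theorem Real.cancel [Finite G] (n : ℕ) : ∀ {χ φ : G → ℂ} {m : ℕ}, IsCharacter G χ → Real K φ n → Real K (χ + φ) m →
    ∃ k, Real K χ k := by
  have := Fintype.ofFinite G
  have : CharZero K := (algebraMap K ℂ).charZero
  have : NeZero (Nat.card G : K) := ⟨Nat.cast_ne_zero.2 Nat.card_pos.ne'⟩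
  have : Invertible (Nat.card G : K) := invertibleOfNonzero (NeZero.ne _)
  induction n using Nat.strong_induction_on with
  | _ n ih =>
  intro χ φ m hχ hφ h
  have hφc := hφ.isCh
  by_cases h0 : φ = 0
  · exact ⟨m, by simpa [h0] using h⟩
  obtain ⟨V, _, _, _, ρ, rfl, hφ⟩ := hφ
  obtain ⟨W, _, _, _, σ, rfl, h⟩ := h
  have h1 : finrank K (ρ.IntertwiningMap σ) ≠ 0 := fun e => by
    have e1 := congrArg (algebraMap K ℂ) (Representation.card_inv_mul_sum_char_mul_char_eq_finrank ρ σ)
    have e2 : classInner (χ + φ) φ = 0 := by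
      rw [hφc.classInner_eq_inv, h, hφ]; simpa [e] using e1
    obtain ⟨a, ha⟩ := hχ.exists_classInner_eq_nat hφc
    obtain ⟨b, hb⟩ := hφc.exists_classInner_eq_nat hφc
    rw [classInner_add_left, ha, hb] at e2
    have : b = 0 := by have : a + b = 0 := by exact_mod_cast e2
                       omega
    exact h0 ((classInner_self_eq_zero _).1 (by rw [hb, this, Nat.cast_zero]))
  have := Module.finrank_pos_iff.1 (Nat.pos_of_ne_zero h1)
  obtain ⟨f, hf⟩ := exists_ne (0 : ρ.IntertwiningMap σ)
  obtain ⟨C, hC⟩ := exists_isCompl f.ker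
  obtain ⟨T, hT⟩ := exists_isCompl f.range
  have e : C.toRepresentation.character = f.range.toRepresentation.character :=
    Representation.char_iso (Representation.Equiv.mk (LinearMap.kerComplementEquivRange _ (compl_sub hC).symm)
      fun g => LinearMap.ext fun x => Subtype.ext (f.isIntertwining _ _ g x))
  refine @ih _ ?_ _ _ (finrank K T.toSubmodule) hχ (real_char f.ker.toRepresentation) ?_
  · refine Submodule.finrank_lt fun r => hf (Representation.IntertwiningMap.ext (LinearMap.ker_eq_top.1 r))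
  · convert real_char T.toRepresentation using 1
    funext g
    have := congrFun h g
    simp only [Pi.add_apply, hφ, char_compl hC, char_compl hT, e, map_add] at this ⊢
    linear_combination this

/-- Brauer's splitting field Theorem: a complex representation of a finite group of exponent m is equivalent to a representation by matrices with entries in ℚ adjoined exp(2πi/m). -/
theorem result {G : Type*} [Group G] [Finite G] (n : ℕ) (ρ : Representation ℂ G (Fin n → ℂ)) : ∃ σ : Representation ℂ G (Fin n → ℂ), Nonempty (ρ.Equiv σ) ∧ ∀ g : G, ∀ i j : Fin n, LinearMap.toMatrix' (σ g) i j ∈ Algebra.adjoin ℚ ({Complex.exp (2 * Real.pi * Complex.I / (Monoid.exponent G : ℂ))} : Set ℂ) := by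
  classical
  have := Fintype.ofFinite G
  set ζ := Complex.exp (2 * Real.pi * Complex.I / (Monoid.exponent G : ℂ))
  have hm : Monoid.exponent G ≠ 0 := Monoid.exponent_ne_zero_of_finite
  have : NeZero (Monoid.exponent G) := ⟨hm⟩
  have hζ : IsPrimitiveRoot ζ (Monoid.exponent G) := Complex.isPrimitiveRoot_exp _ hm
  let K := IntermediateField.adjoin ℚ {ζ}
  have hK : K.toSubalgebra = Algebra.adjoin ℚ {ζ} := IntermediateField.adjoin_simple_toSubalgebra_of_isAlgebraic
    ((hζ.isIntegral (Nat.pos_of_ne_zero hm)).tower_top.isAlgebraic)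
  have hχ := isCharacter_character ρ
  have key : ∀ θ ∈ AddSubgroup.closure {f : G → ℂ | ∃ t : (E : Subgroup G) × (E →* ℂˣ),
      (∃ p : ℕ, p.Prime ∧ IsElementary p t.1) ∧ f = indFun t.1 (fun e => (t.2 e : ℂ))},
      ∃ φ ψ a b, Real K φ a ∧ Real K ψ b ∧ θ + φ = ψ := fun θ hθ => by
    have r0 : Real K (0 : G → ℂ) 0 := by
      have := real_of_matrix (K := K) (1 : G →* Matrix Empty Empty K)
      simp only [Matrix.trace, Finset.univ_eq_empty, Finset.sum_empty, map_zero, Fintype.card_eq_zero] at this
      exact this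
    induction hθ using AddSubgroup.closure_induction with
    | mem x hx =>
      obtain ⟨⟨E, lam⟩, -, rfl⟩ := hx
      have hl : ∀ e, (lam e : ℂ) ∈ K := fun e => by
        obtain ⟨i, -, hi⟩ := hζ.eq_pow_of_pow_eq_one (ξ := (lam e : ℂ)) (by
          rw [← Units.val_pow_eq_pow_val, ← map_pow, show e ^ Monoid.exponent G = 1 from
            Subtype.ext (Monoid.pow_exponent_eq_one (e : G)), map_one, Units.val_one])
        exact hi ▸ pow_mem (IntermediateField.mem_adjoin_simple_self ℚ ζ) i
      let μ : E →* Matrix Unit Unit K := (Matrix.scalar Unit).toMonoidHom.comp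
        { toFun := fun e => ⟨_, hl e⟩, map_one' := Subtype.ext (by simp), map_mul' := fun a b => Subtype.ext (by simp) }
      let q := Fintype.equivFin (G ⧸ E)
      have := real_of_matrix ((Matrix.reindexAlgEquiv K K (q.prodCongr (Equiv.refl Unit))).toMonoidHom.comp
        (H06.indMatrix E μ))
      refine ⟨0, _, 0, _, r0, this, funext fun g => ?_⟩
      have e1 : ∀ A : Matrix ((G ⧸ E) × Unit) ((G ⧸ E) × Unit) K,
          (Matrix.reindexAlgEquiv K K (q.prodCongr (Equiv.refl Unit)) A).trace = A.trace := fun A =>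
        (Fintype.sum_equiv (q.prodCongr (Equiv.refl Unit)) _ _ (fun i => by cases i; simp)).symm
      refine Eq.trans ?_ (congrArg _ (e1 (H06.indMatrix E μ g)).symm)
      rw [add_zero, H06.trace_indMatrix, H06.indFun_eq_sum_quotient _ _ (isCharacter_monoidHom lam).isClassFunction, map_sum]
      refine Finset.sum_congr rfl fun c _ => ?_
      by_cases hc : c.out⁻¹ * g * c.out ∈ E
      · rw [H06.extendByZero_of_mem _ _ hc, H06.extMatrix_of_mem _ _ hc]; simp [μ]
      · rw [H06.extendByZero_of_notMem _ _ hc, H06.extMatrix_of_notMem _ _ hc]; simp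
    | zero => exact ⟨0, 0, 0, 0, r0, r0, by simp⟩
    | add x y _ _ hx hy =>
      obtain ⟨φ, ψ, a, b, h1, h2, e⟩ := hx
      obtain ⟨φ', ψ', a', b', h1', h2', e'⟩ := hy
      exact ⟨_, _, _, _, h1.add h1', h2.add h2', by rw [← e, ← e']; abel⟩
    | neg x _ hx =>
      obtain ⟨φ, ψ, a, b, h1, h2, e⟩ := hx
      exact ⟨_, _, _, _, h2, h1, by rw [← e]; abel⟩
  obtain ⟨φ, ψ, a, b, h1, h2, e⟩ := key _ (brauer_induction_mem hχ.isGeneralizedCharacter)
  obtain ⟨k, hk⟩ := Real.cancel a hχ h1 (e ▸ h2)
  obtain ⟨σ, hσ, e⟩ := hk.matrix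
  obtain rfl : k = n := by simpa using (congrFun e 1).symm
  refine ⟨(Matrix.toLinAlgEquiv' (R := ℂ) (n := Fin k)).toMonoidHom.comp σ, equiv_of_character_eq _ _
    (e.trans (funext fun g => (Matrix.trace_toLin'_eq (σ g)).symm)), fun g i j => ?_⟩
  obtain ⟨x, hx⟩ := hσ g i j
  rw [← hK]
  exact (congrFun (congrFun (LinearMap.toMatrix'_toLin' (σ g)) i) j).trans hx.symm ▸ x.2

end Cfsg.Agent.S0166
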