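import Mathlib
import Cfsg.Statements.S0167
import Cfsg.Agent.H05.Orth
import Cfsg.Agent.H06.Induction

set_option autoImplicit false
open Cfsg

namespace Cfsg.Agent.S0167

/-- An element g of a finite group is a commutator if and only if the sum over the irreducible characters χ of χ g / χ 1 is nonzero. -/
theorem result {G : Type*} [Group G] [Finite G] (g : G) : (∃ a b : G, g = a * b * a⁻¹ * b⁻¹) ↔ ∑ᶠ χ : Cfsg.IrrCharacter G, (χ : G → ℂ) g / (χ : G → ℂ) 1 ≠ 0 := by
  classical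
  have := Fintype.ofFinite G
  let N : G → ℂ := fun x => ∑ a : G, ∑ b : G, if a * b * a⁻¹ * b⁻¹ = x then 1 else 0
  have hN : Cfsg.IsClassFunction G N := by
    intro x y
    symm
    refine Fintype.sum_equiv (MulAut.conj y).toEquiv _ _ (fun a => ?_)
    refine Fintype.sum_equiv (MulAut.conj y).toEquiv _ _ (fun b => ?_)
    have : (a * b * a⁻¹ * b⁻¹ = x) ↔ (y * a * y⁻¹) * (y * b * y⁻¹) * (y * a * y⁻¹)⁻¹ *
        (y * b * y⁻¹)⁻¹ = y * x * y⁻¹ := by
      have : (y * a * y⁻¹) * (y * b * y⁻¹) * (y * a * y⁻¹)⁻¹ * (y * b * y⁻¹)⁻¹ =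
        y * (a * b * a⁻¹ * b⁻¹) * y⁻¹ := by group
      rw [this, mul_left_inj, mul_right_inj]
    simp only [this]
    rfl
  have hc := H06.natCard_ne_zero G
  have hsum : ∀ χ : G → ℂ, Cfsg.IsIrrCharacter G χ →
      ∑ a : G, ∑ b : G, χ (a * b * a⁻¹ * b⁻¹) = (Nat.card G : ℂ) ^ 2 / χ 1 := by
    intro χ hχ
    have hcl := H05.Cfsg.IsIrrCharacter.isClassFunction hχ
    have h1 : ∀ b : G, ∑ a : G, χ (a * b * a⁻¹ * b⁻¹) = Nat.card G * χ b * χ b⁻¹ / χ 1 := by
      intro b
      let f : G → ℂ := fun x => ∑ a : G, if a * b * a⁻¹ = x then 1 else 0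
      have hf : Cfsg.IsClassFunction G f := by
        intro x y
        symm
        refine Fintype.sum_equiv (Equiv.mulLeft y) _ _ (fun a => ?_)
        have : (a * b * a⁻¹ = x) ↔ (y * a) * b * (y * a)⁻¹ = y * x * y⁻¹ := by
          have : (y * a) * b * (y * a)⁻¹ = y * (a * b * a⁻¹) * y⁻¹ := by group
          rw [this, mul_left_inj, mul_right_inj]
        simp only [this]
        rfl
      have h2 : ∀ F : G → ℂ, ∑ x, f x * F x = ∑ a : G, F (a * b * a⁻¹) := by
        intro F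
        simp only [f, Finset.sum_mul]
        rw [Finset.sum_comm]
        simp
      have h3 := H05.Cfsg.IsIrrCharacter.sum_mul_apply_mul hχ hf b⁻¹
      rw [h2 (fun x => χ (x * b⁻¹)), h2 χ] at h3
      rw [h3]
      simp [hcl b]
    rw [Finset.sum_comm]
    simp only [h1]
    simp only [mul_assoc, mul_div_assoc, ← Finset.mul_sum]
    have h4 := H05.card_mul_classInner χ χ
    rw [H05.Cfsg.IsIrrCharacter.classInner_self hχ] at h4
    simp only [← mul_div_assoc, ← Finset.sum_div, H05.Cfsg.IsIrrCharacter.apply_inv hχ, ← h4]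
    ring
  have hin : ∀ χ : Cfsg.IrrCharacter G, Cfsg.classInner N χ = Nat.card G / (χ : G → ℂ) 1 := by
    intro χ
    have h1 := hsum _ (H05.Cfsg.IsIrrCharacter.conj χ.2)
    simp only [H05.Cfsg.IsIrrCharacter.conj_apply_one χ.2] at h1
    have h2 : ∑ x, N x * (starRingEnd ℂ) ((χ : G → ℂ) x) =
        ∑ a : G, ∑ b : G, (starRingEnd ℂ) ((χ : G → ℂ) (a * b * a⁻¹ * b⁻¹)) := by
      simp only [N, Finset.sum_mul]
      rw [Finset.sum_comm]
      refine Finset.sum_congr rfl fun a _ => ?_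
      rw [Finset.sum_comm]
      simp
    rw [Cfsg.classInner, h2, h1]
    field_simp
  have hval := H05.Cfsg.IsClassFunction.apply_eq_sum hN g
  simp only [hin] at hval
  have hval' : N g = Nat.card G * ∑ᶠ χ : Cfsg.IrrCharacter G, (χ : G → ℂ) g / (χ : G → ℂ) 1 := by
    rw [hval, finsum_eq_sum_of_fintype, Finset.mul_sum]
    exact Finset.sum_congr rfl fun χ _ => by ring
  have hNg : N g = ((∑ a : G, ∑ b : G, if a * b * a⁻¹ * b⁻¹ = g then 1 else 0 : ℕ) : ℂ) := by
    simp [N]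
  rw [← mul_ne_zero_iff_left hc, ← hval', hNg, Nat.cast_ne_zero]
  simp only [ne_eq, Finset.sum_eq_zero_iff, Finset.mem_univ, true_imp_iff, ite_eq_right_iff,
    one_ne_zero, imp_false, not_forall, not_not]
  simp only [eq_comm]

end Cfsg.Agent.S0167
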