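import Mathlib
import Cfsg.Statements.S0177
import Cfsg.Agent.H05.Brauer

set_option autoImplicit false
open Cfsg

namespace Cfsg.Agent.S0177

open H05

/-- The Artin induction Theorem: for a character χ of a finite group, |G| • χ is a ℤ-linear combination of functions induced from homomorphisms of cyclic subgroups into ℂˣ. -/
theorem result {G : Type*} [Group G] [Fintype G] (χ : G → ℂ) (hχ : Cfsg.IsCharacter G χ) : ∃ l : List ((A : Subgroup G) × ((A →* ℂˣ) × ℤ)), (∀ t ∈ l, IsCyclic t.1) ∧ (Nat.card G : ℂ) • χ = (l.map fun t => (t.2.2 : ℂ) • Cfsg.indFun t.1 (fun a => (t.2.1 a : ℂ))).sum := by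
  classical
  have := Fintype.ofFinite (Subgroup G)
  let θ : (A : Subgroup G) → A → ℂ := fun A a => if Subgroup.zpowers (a : G) = A then Nat.card A * χ a else 0
  have key : (Nat.card G : ℂ) • χ = ∑ A : Subgroup G, indFun A (θ A) := by
    funext g
    have e : ∀ (A : Subgroup G) (y : G), (Nat.card A : ℂ)⁻¹ * extendByZero A (θ A) y =
        if Subgroup.zpowers y = A then χ y else 0 := fun A y => by
      by_cases hy : y ∈ A
      · rw [H06.extendByZero_of_mem _ _ hy]
        simp only [θ]
        split_ifs
        · rw [inv_mul_cancel_left₀ (H06.natCard_ne_zero A)]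
        · simp
      · rw [H06.extendByZero_of_notMem _ _ hy, if_neg fun r => hy (r.le (Subgroup.mem_zpowers y)), mul_zero]
    simp only [Finset.sum_apply, H06.indFun_apply, Finset.mul_sum, e]
    rw [Finset.sum_comm]
    simp [hχ.isClassFunction.conj_inv]
  obtain ⟨l, h1, h2⟩ := H07.exists_list_of_mem_closure (ι := (A : Subgroup G) × (A →* ℂˣ)) (fun t => IsCyclic t.1)
    (fun t => indFun t.1 (fun a => (t.2 a : ℂ))) (f := (Nat.card G : ℂ) • χ) (by
    rw [key]
    refine AddSubgroup.sum_mem _ fun A _ => ?_
    by_cases hA : IsCyclic A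
    · have := Fintype.ofFinite A
      have hc : IsMulCommutative A := ⟨⟨fun a b => by let _ := IsCyclic.commGroup (α := A); exact mul_comm a b⟩⟩
      have hg : IsGeneralizedCharacter A (θ A) := isGeneralizedCharacter_of_classInner
        (fun a b => by rw [hc.1.1 b a, mul_inv_cancel_right]) fun ψ hψ => by
        have hφ := (hχ.restrict A).mul hψ.isCharacter.conj
        have e : classInner (θ A) ψ = ∑ a : A, if Subgroup.zpowers (a : G) = A then χ a * (starRingEnd ℂ) (ψ a) else 0 := by
          rw [classInner_def, Finset.mul_sum]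
          refine Finset.sum_congr rfl fun a _ => ?_
          simp only [θ]
          split_ifs
          · rw [mul_assoc, inv_mul_cancel_left₀ (H06.natCard_ne_zero A)]
          · simp
        rw [e]
        refine exists_int_of_fixed (IsIntegral.sum _ fun a _ => ?_) fun σ => ?_
        · split_ifs
          exacts [hφ.isIntegral a, isIntegral_zero]
        · obtain ⟨k, hk, hσ⟩ := exists_pow_of_galois A σ.toRingHom
          rw [map_sum]
          refine Fintype.sum_equiv (powCoprime hk.symm) _ _ fun a => ?_
          have hz : Subgroup.zpowers ((a : G) ^ k) = Subgroup.zpowers (a : G) := by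
            refine Subgroup.eq_of_le_of_card_ge (Subgroup.zpowers_le.2 (Subgroup.npow_mem_zpowers _ _)) ?_
            rw [Nat.card_zpowers, Nat.card_zpowers, Nat.Coprime.orderOf_pow
              (hk.symm.coprime_dvd_left (by rw [Subgroup.orderOf_coe]; exact orderOf_dvd_natCard a))]
          simp only [powCoprime_apply, Subgroup.coe_pow, hz]
          split_ifs
          exacts [hσ _ hφ.isGeneralizedCharacter a, map_zero _]
      refine hg.induction_on (P := fun φ => indFun A φ ∈ _) (by rw [H06.indFun_zero]; exact zero_mem _) (fun ψ hψ => ?_)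
        (fun φ ψ a b => by rw [H06.indFun_add]; exact add_mem a b) fun φ a => by rw [H06.indFun_neg]; exact neg_mem a
      obtain ⟨φ, rfl⟩ := hψ.exists_monoidHom_of_comm
      exact AddSubgroup.subset_closure ⟨⟨A, φ⟩, hA, rfl⟩
    · rw [show θ A = 0 from funext fun a => if_neg fun r => hA (by rw [← r]; infer_instance), H06.indFun_zero]
      exact zero_mem _)
  refine ⟨l.map fun t => ⟨t.1.1, t.1.2, t.2⟩, fun t ht => ?_, ?_⟩
  · obtain ⟨s, hs, rfl⟩ := List.mem_map.1 ht
    exact h1 s hs
  · rw [h2, List.map_map]
    congr 1
    refine List.map_congr_left fun t _ => ?_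
    simp only [Function.comp_apply, Int.cast_smul_eq_zsmul]

end Cfsg.Agent.S0177
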