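import Mathlib
import Cfsg.Statements.S0178
import Cfsg.Agent.H06.Clifford

set_option autoImplicit false
open Cfsg

namespace Cfsg.Agent.S0178

/-- The degree of an irreducible complex representation of a finite group is at most the index of any abelian subgroup. -/
theorem result {G : Type*} [Group G] [Finite G] {V : Type*} [AddCommGroup V] [Module ℂ V] [FiniteDimensional ℂ V] (ρ : Representation ℂ G V) [ρ.IsIrreducible] (A : Subgroup G) (hA : ∀ a ∈ A, ∀ b ∈ A, a * b = b * a) : Module.finrank ℂ V ≤ A.index := by
  classical
  have := Fintype.ofFinite G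
  have hχ := H05.isIrrCharacter_character ρ
  obtain ⟨θ, hθ, h⟩ := H06.exists_irr_under A hχ
  have : IsMulCommutative A := ⟨⟨fun a b => Subtype.ext (hA a a.2 b b.2)⟩⟩
  have h1 := H05.Cfsg.IsIrrCharacter.apply_one_of_comm hθ
  have hind := H06.isCharacter_indFun A (H05.Cfsg.IsIrrCharacter.isCharacter hθ)
  rw [H06.classInner_ne_zero_comm, ← H06.frobenius_reciprocity A θ _
    (H05.Cfsg.IsIrrCharacter.isClassFunction hχ)] at h
  have h2 := H06.degree_le_of_constituent hind hχ h
  rwa [H05.charDegree_character, H05.charDegree_eq_of_apply_one (n := A.index)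
    (by rw [H06.indFun_one, h1, mul_one])] at h2

end Cfsg.Agent.S0178
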