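import Mathlib
import Cfsg.Statements.S0180
import Cfsg.Agent.H05.Integral

set_option autoImplicit false
open Cfsg

namespace Cfsg.Agent.S0180

/-- Every irreducible complex character of a finite group takes only rational values if and only if g is conjugate to g ^ m for every element g and every m coprime to the group order. -/
theorem result {G : Type*} [Group G] [Finite G] : (∀ χ : Cfsg.IrrCharacter G, ∀ g : G, ∃ q : ℚ, (χ : G → ℂ) g = (q : ℂ)) ↔ ∀ m : ℕ, m.Coprime (Nat.card G) → ∀ g : G, IsConj g (g ^ m) := by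
  constructor
  · intro h m hm g
    rw [H05.isConj_iff_irr]
    intro χ
    obtain ⟨σ, hσ⟩ := H05.exists_galois_pow G hm
    obtain ⟨q, hq⟩ := h χ g
    rw [← hσ χ (H05.Cfsg.IsIrrCharacter.isGeneralizedCharacter χ.2) g, hq, map_ratCast]
  · intro h χ g
    have hχ := H05.Cfsg.IsIrrCharacter.isGeneralizedCharacter χ.2
    obtain ⟨m, hm⟩ := H05.exists_int_of_fixed
      (H05.Cfsg.IsGeneralizedCharacter.isIntegral hχ g) (fun σ => by
        obtain ⟨k, hk, hσ⟩ := H05.exists_pow_of_galois G σ.toRingHom
        exact (hσ χ hχ g).trans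
          (H05.Cfsg.IsClassFunction.isConj (H05.Cfsg.IsIrrCharacter.isClassFunction χ.2)
            (h k hk g)).symm)
    exact ⟨m, by rw [hm]; simp⟩

end Cfsg.Agent.S0180
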