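import Mathlib
import Cfsg.Statements.S0181
import Cfsg.Agent.H05.Values
import Cfsg.Agent.H06.FrobGroup

set_option autoImplicit false
open Cfsg

namespace Cfsg.Agent.S0181

/-- Let H be a normal subgroup of a finite group G and ρ an irreducible complex representation whose kernel does not contain H. If g commutes with no non-identity element of H, then the character of ρ vanishes at g. -/
theorem result {G : Type*} [Group G] [Finite G] {V : Type*} [AddCommGroup V] [Module ℂ V] [FiniteDimensional ℂ V] (ρ : Representation ℂ G V) [ρ.IsIrreducible] (H : Subgroup G) [H.Normal] (hker : ∃ h ∈ H, ρ h ≠ LinearMap.id) (g : G) (hg : ∀ h ∈ H, h * g = g * h → h = 1) : ρ.character g = 0 := by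
  classical
  have := Fintype.ofFinite H
  have h1 : ∀ h : H, ρ.character (h * g) = ρ.character g := by
    intro h
    obtain ⟨y, -, e⟩ := H06.exists_conj_eq_of_fpf H g (fun k hk e => hg k hk e.symm) h.2
    rw [← e, ρ.char_conj]
  let U : Submodule ℂ V := Representation.invariants (ρ.comp H.subtype)
  have hU : U = ⊥ := by
    rcases ((H05.isIrreducible_iff ρ).1 inferInstance).2 U (by
      intro x v hv h
      have hN : H.Normal := inferInstance
      have := hv ⟨x⁻¹ * h * x, by simpa using hN.conj_mem _ h.2 x⁻¹⟩
      change ρ (x⁻¹ * h * x) v = v at this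
      change ρ h (ρ x v) = ρ x v
      conv_rhs => rw [← this]
      rw [← Module.End.mul_apply, ← Module.End.mul_apply, ← map_mul, ← map_mul]
      simp [mul_assoc]) with h | h
    · exact h
    · exfalso
      obtain ⟨x, hx, hne⟩ := hker
      apply hne
      ext v
      have hv : v ∈ U := h ▸ Submodule.mem_top
      exact hv ⟨x, hx⟩
  have h2 : ∑ h : H, ρ h = 0 := by
    ext v
    have : (∑ h : H, ρ h) v ∈ U := by
      intro k
      change ρ k ((∑ h : H, ρ h) v) = _
      rw [← Module.End.mul_apply, Finset.mul_sum]
      congr 1
      exact Fintype.sum_equiv (Equiv.mulLeft k) _ _ (fun h => by simp)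
    rw [hU] at this
    simpa using this
  have h3 : ∑ h : H, ρ.character (h * g) = 0 := by
    simp only [Representation.character, map_mul, ← map_sum, ← Finset.sum_mul, h2, zero_mul,
      map_zero]
  simp only [h1, Finset.sum_const, Finset.card_univ, nsmul_eq_mul, mul_eq_zero,
    Nat.cast_eq_zero] at h3
  exact h3.resolve_left Fintype.card_ne_zero

end Cfsg.Agent.S0181
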