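import Mathlib
import Cfsg.Statements.S0186
import Cfsg.Agent.H06.Degree

set_option autoImplicit false
open Cfsg

namespace Cfsg.Agent.S0186

/-- Let G be a finite simple group of order n and p a prime dividing n. If G has more than n / p^2 conjugacy classes, then every Sylow p-subgroup of G is abelian. -/
theorem result {G : Type*} [Group G] [Finite G] [IsSimpleGroup G] (p : ℕ) [Fact p.Prime] (hp : p ∣ Nat.card G) (hmany : Nat.card G < p ^ 2 * Nat.card (ConjClasses G)) (P : Sylow p G) (a b : G) (ha : a ∈ P) (hb : b ∈ P) : a * b = b * a := by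
  classical
  by_cases hp2 : p ^ 2 ∣ Nat.card G
  · have hex : ∃ χ : IrrCharacter G, (χ : G → ℂ) ≠ 1 ∧ charDegree (χ : G → ℂ) < p := by
      by_contra hc
      push Not at hc
      have h1 := H05.sum_charDegree_sq (G := G)
      let χ₀ : IrrCharacter G := ⟨1, H05.isIrrCharacter_one⟩
      rw [← Finset.add_sum_erase _ _ (Finset.mem_univ χ₀)] at h1
      have h2 : (Finset.univ.erase χ₀).card • p ^ 2 ≤
          ∑ χ ∈ Finset.univ.erase χ₀, charDegree (χ : G → ℂ) ^ 2 :=
        Finset.card_nsmul_le_sum _ _ _ fun χ hχ => Nat.pow_le_pow_left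
          (hc χ fun e => (Finset.mem_erase.1 hχ).1 (Subtype.ext e)) 2
      rw [Finset.card_erase_of_mem (Finset.mem_univ _), Finset.card_univ,
        ← Nat.card_eq_fintype_card, H05.card_irr_eq_card_conjClasses, smul_eq_mul] at h2
      have h3 := H05.Cfsg.IsIrrCharacter.charDegree_pos χ₀.2
      obtain ⟨m, hm⟩ := hp2
      rw [hm] at hmany h1
      have h4 := Nat.lt_of_mul_lt_mul_left hmany
      have h5 : m * p ^ 2 ≤ (Nat.card (ConjClasses G) - 1) * p ^ 2 :=
        Nat.mul_le_mul_right _ (by omega)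
      have h6 : 0 < charDegree (χ₀ : G → ℂ) ^ 2 := by positivity
      nlinarith
    obtain ⟨χ, hχ1, hχ⟩ := hex
    have hk := H05.Cfsg.IsIrrCharacter.charKer_eq_bot_of_simple χ.2 hχ1
    have hres := H05.Cfsg.IsCharacter.restrict (H05.Cfsg.IsIrrCharacter.isCharacter χ.2)
      (P : Subgroup G)
    have h := H06.comm_mod_ker_of_degree_lt hres (fun q hq hd => by
      obtain ⟨k, hk⟩ := IsPGroup.iff_card.1 P.isPGroup'
      rw [hk] at hd
      rw [(Nat.prime_dvd_prime_iff_eq hq Fact.out).1 (hq.dvd_of_dvd_pow hd)]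
      exact hχ)
    have h2 := h (Subgroup.commutator_mem_commutator (Subgroup.mem_top (⟨a, ha⟩ : (P : Subgroup G)))
      (Subgroup.mem_top (⟨b, hb⟩ : (P : Subgroup G))))
    rw [H05.Cfsg.IsCharacter.mem_charKer hres] at h2
    have h3 := (H05.Cfsg.IsCharacter.mem_charKer (H05.Cfsg.IsIrrCharacter.isCharacter χ.2)).2 h2
    rw [hk, Subgroup.mem_bot] at h3
    have h4 : a * b * a⁻¹ * b⁻¹ = 1 := h3
    rw [mul_inv_eq_one, mul_inv_eq_iff_eq_mul] at h4
    exact h4
  · have hc : Nat.card (P : Subgroup G) = p := by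
      have hpp : p.Prime := Fact.out
      have h1 := (hpp.dvd_iff_one_le_factorization Nat.card_pos.ne').1 hp
      have h2 := mt (hpp.pow_dvd_iff_le_factorization Nat.card_pos.ne').2 hp2
      rw [P.card_eq_multiplicity, show (Nat.card G).factorization p = 1 by omega, pow_one]
    have : IsCyclic (P : Subgroup G) := isCyclic_of_prime_card hc
    exact congrArg Subtype.val (IsCyclic.isMulCommutative.is_comm.comm (⟨a, ha⟩ : (P : Subgroup G)) ⟨b, hb⟩)

end Cfsg.Agent.S0186
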