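import Mathlib
import Cfsg.Statements.S0187
import Cfsg.Agent.H05.Orth

set_option autoImplicit false
open Cfsg

namespace Cfsg.Agent.S0187

/-- A finite group is commutative if and only if every irreducible complex character has degree 1. -/
theorem result {G : Type*} [Group G] [Finite G] : (∀ a b : G, a * b = b * a) ↔ ∀ χ : Cfsg.IrrCharacter G, (χ : G → ℂ) 1 = 1 := by
  constructor
  · intro h χ
    have : IsMulCommutative G := ⟨⟨h⟩⟩
    exact H05.Cfsg.IsIrrCharacter.apply_one_of_comm χ.2
  · intro h a b
    have : a * b * (b * a)⁻¹ = 1 := by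
      apply H05.eq_one_of_forall_irr
      intro χ
      obtain ⟨φ, hφ⟩ := H05.Cfsg.IsCharacter.exists_monoidHom
        (H05.Cfsg.IsIrrCharacter.isCharacter χ.2) (h χ)
      rw [hφ]
      simp only [map_mul, map_inv, map_one, mul_comm (φ b), mul_inv_cancel]
    exact mul_inv_eq_one.1 this

end Cfsg.Agent.S0187
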