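import Mathlib
import Cfsg.Statements.S0191
import Cfsg.Agent.H25.PF13_a

set_option autoImplicit false
open Cfsg

namespace Cfsg.Agent.S0191

/-- An irreducible complex representation of a finite group of degree greater than 1 has a character that vanishes somewhere. -/
theorem result {G : Type*} [Group G] [Finite G] {V : Type*} [AddCommGroup V] [Module ℂ V] [FiniteDimensional ℂ V] (ρ : Representation ℂ G V) [ρ.IsIrreducible] (hdeg : 1 < Module.finrank ℂ V) : ∃ g : G, ρ.character g = 0 := by
  classical
  have := Fintype.ofFinite G
  by_contra hc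
  push Not at hc
  have hi := H05.isIrrCharacter_character ρ
  have h := H25.pf13_galois_sum (H05.Cfsg.IsIrrCharacter.isGeneralizedCharacter hi) H05.isGeneralizedCharacter_zero
    (Finset.univ.erase 1) (fun x hx k hk => by
      simp only [Finset.mem_erase, Finset.mem_univ, and_true] at hx ⊢
      exact fun e => hx (orderOf_eq_one_iff.1 (Nat.eq_one_of_dvd_coprimes hk (orderOf_dvd_of_pow_eq_one e)
        (orderOf_dvd_natCard x)))) (fun x _ => Or.inl (hc x))
  have h1 := H25.irr_nsq hi
  rw [H25.nsq_eq, ← Finset.add_sum_erase _ _ (Finset.mem_univ 1), Representation.char_one,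
    inv_mul_eq_one₀ (by exact_mod_cast Nat.card_pos.ne')] at h1
  rw [Finset.card_erase_of_mem (Finset.mem_univ _), Finset.card_univ, Nat.cast_pred Fintype.card_pos,
    ← Nat.card_eq_fintype_card] at h
  simp only [Pi.zero_apply, norm_zero, Complex.norm_natCast] at h h1
  have : (2 : ℝ) ≤ Module.finrank ℂ V := by exact_mod_cast hdeg
  rw [zero_pow two_ne_zero, Finset.sum_const_zero] at h
  nlinarith

end Cfsg.Agent.S0191
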