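import Mathlib
import Cfsg.Statements.S0192
import Cfsg.Agent.H05.Basic

set_option autoImplicit false
open Cfsg

namespace Cfsg.Agent.S0192

/-- Brauer's generation criterion. Let G be a finite simple group, H₁ and H₂ subgroups, and χ a non-principal irreducible character. If the multiplicity of the principal character in χ restricted to H₁ ⊓ H₂ is less than the sum of the corresponding multiplicities for H₁ and H₂, then H₁ and H₂ do not generate G. -/
theorem result {G : Type*} [Group G] [Fintype G] [IsSimpleGroup G] (H₁ H₂ : Subgroup G) [Fintype H₁] [Fintype H₂] [Fintype ↥(H₁ ⊓ H₂)] (χ : G → ℂ) (hχ : Cfsg.IsIrrCharacter G χ) (hχ1 : χ ≠ fun _ => 1) (hlt : (Cfsg.classInner (fun x : ↥(H₁ ⊓ H₂) => χ x) (fun _ => 1)).re < (Cfsg.classInner (fun x : H₁ => χ x) (fun _ => 1)).re + (Cfsg.classInner (fun x : H₂ => χ x) (fun _ => 1)).re) : H₁ ⊔ H₂ ≠ ⊤ := by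
  classical
  obtain ⟨n, ρ, hρ, rfl⟩ := hχ
  have key : ∀ (H : Subgroup G) [Fintype H],
      Cfsg.classInner (fun x : H => ρ.character x) (fun _ => 1) =
        (Module.finrank ℂ (Representation.invariants (ρ.comp H.subtype)) : ℂ) := by
    intro H _
    have hne : (Nat.card H : ℂ) ≠ 0 := by exact_mod_cast Nat.card_pos.ne'
    have := invertibleOfNonzero hne
    rw [← Representation.card_inv_mul_sum_char_eq_finrank (ρ.comp H.subtype)]
    simp [Cfsg.classInner]
    rfl
  rw [key, key, key] at hlt
  simp only [Complex.natCast_re] at hlt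
  have hlt' : Module.finrank ℂ (Representation.invariants (ρ.comp (H₁ ⊓ H₂).subtype)) <
      Module.finrank ℂ (Representation.invariants (ρ.comp H₁.subtype)) +
      Module.finrank ℂ (Representation.invariants (ρ.comp H₂.subtype)) := by exact_mod_cast hlt
  rw [← Submodule.finrank_sup_add_finrank_inf_eq] at hlt'
  have hle : Representation.invariants (ρ.comp H₁.subtype) ⊔
      Representation.invariants (ρ.comp H₂.subtype) ≤
      Representation.invariants (ρ.comp (H₁ ⊓ H₂).subtype) := by
    apply sup_le
    · intro v hv x; exact hv ⟨x, x.2.1⟩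
    · intro v hv x; exact hv ⟨x, x.2.2⟩
  have h1 := Submodule.finrank_mono hle
  have h2 : Representation.invariants (ρ.comp H₁.subtype) ⊓
      Representation.invariants (ρ.comp H₂.subtype) ≠ ⊥ := by
    intro h; rw [h, finrank_bot] at hlt'; omega
  obtain ⟨v, hv, hv0⟩ := Submodule.exists_mem_ne_zero_of_ne_bot h2
  intro htop
  have hfix : ∀ g, ρ g v = v := by
    intro g
    have hg : g ∈ H₁ ⊔ H₂ := htop ▸ Subgroup.mem_top g
    rw [Subgroup.sup_eq_closure] at hg
    induction hg using Subgroup.closure_induction with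
    | mem x hx =>
      rcases hx with hx | hx
      · exact hv.1 ⟨x, hx⟩
      · exact hv.2 ⟨x, hx⟩
    | one => simp
    | mul x y _ _ hx hy => rw [map_mul, Module.End.mul_apply, hy, hx]
    | inv x _ hx =>
      conv_lhs => rw [← hx]
      rw [← Module.End.mul_apply, ← map_mul, inv_mul_cancel, map_one, Module.End.one_apply]
  have h3 := ((H05.isIrreducible_iff ρ).1 hρ).2 (Submodule.span ℂ {v}) (by
    intro g w hw
    obtain ⟨c, rfl⟩ := Submodule.mem_span_singleton.1 hw
    rw [map_smul, hfix]
    exact hw)
  rcases h3 with h3 | h3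
  · exact hv0 (by simpa using h3)
  · apply hχ1
    funext g
    have hid : ρ g = LinearMap.id := by
      refine LinearMap.ext fun w => ?_
      have hw : w ∈ Submodule.span ℂ {v} := h3 ▸ Submodule.mem_top
      obtain ⟨c, rfl⟩ := Submodule.mem_span_singleton.1 hw
      rw [map_smul, hfix]; rfl
    have hfr : Module.finrank ℂ (Fin n → ℂ) = 1 := by
      rw [← finrank_top, ← h3, finrank_span_singleton hv0]
    rw [Representation.character, hid, LinearMap.trace_id, hfr, Nat.cast_one]

end Cfsg.Agent.S0192
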