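import Mathlib
import Cfsg.Statements.S0210
import Cfsg.Agent.H08.Dihedral

set_option autoImplicit false
open Cfsg

namespace Cfsg.Agent.S0210

/-- If x, y are involutions whose product has even order, no element of the subgroup generated by x and y conjugates x to y. -/
theorem result {G : Type*} [Group G] [Finite G] (x y : G) (hx : orderOf x = 2) (hy : orderOf y = 2) (heven : Even (orderOf (x * y))) (d : G) (hd : d ∈ Subgroup.closure ({x, y} : Set G)) : d * x * d⁻¹ ≠ y := by
  have hx1 := H08.mul_self_of_orderOf hx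
  have hy1 := H08.mul_self_of_orderOf hy
  obtain ⟨k, hk⟩ := H08.conj_left_of_mem_closure hx1 hy1 hd
  intro h
  rw [hk] at h
  have h2 : (x * y) ^ (2 * k) = (x * y) ^ (-1 : ℤ) := by
    apply mul_right_cancel (b := x)
    rw [h, ← H08.right_eq_zpow_mul_left hx1 hy1]
  rw [zpow_eq_zpow_iff_modEq] at h2
  obtain ⟨m, hm⟩ := heven
  obtain ⟨c, hc⟩ := h2.dvd
  rw [hm] at hc
  push_cast at hc
  have : (-1 - 2 * k) = 2 * (m * c) := by rw [hc]; ring
  omega

end Cfsg.Agent.S0210
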