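import Mathlib
import Cfsg.Statements.S0211
import Cfsg.Agent.H08.Dihedral

set_option autoImplicit false
open Cfsg

namespace Cfsg.Agent.S0211

/-- Let x, y be involutions with xy of even order n and z = (xy)^(n/2). Then xz is conjugate to x by an element of the subgroup generated by x, y if and only if 4 divides n. -/
theorem result {G : Type*} [Group G] [Finite G] (x y : G) (hx : orderOf x = 2) (hy : orderOf y = 2) (heven : Even (orderOf (x * y))) : (∃ d ∈ Subgroup.closure ({x, y} : Set G), d * x * d⁻¹ = x * (x * y) ^ (orderOf (x * y) / 2)) ↔ 4 ∣ orderOf (x * y) := by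
  have hx1 := H08.mul_self_of_orderOf hx
  have hy1 := H08.mul_self_of_orderOf hy
  rw [← (H08.commute_half_pow_left hx1 hy1 heven).eq]
  constructor
  · rintro ⟨d, hd, h⟩
    obtain ⟨k, hk⟩ := H08.conj_left_of_mem_closure hx1 hy1 hd
    rw [hk] at h
    have h2 := mul_right_cancel h
    rw [← zpow_natCast, zpow_eq_zpow_iff_modEq] at h2
    obtain ⟨m, hm⟩ := heven
    obtain ⟨c, hc⟩ := h2.dvd
    have h3 : orderOf (x * y) / 2 = m := by omega
    rw [h3, hm] at hc
    push_cast at hc
    have : ((m : ℤ) - 2 * k) = 2 * (m * c) := by rw [hc]; ring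
    omega
  · intro h4
    rcases H08.conj_mul_half_pow hx1 hy1 heven with ⟨-, k, hk, -⟩ | ⟨h, -⟩
    · exact ⟨_, H08.zpow_mul_mem_closure k, hk⟩
    · exact absurd h4 h

end Cfsg.Agent.S0211
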