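import Mathlib
import Cfsg.Statements.S0212
import Cfsg.Agent.H08.Counting

set_option autoImplicit false
open Cfsg

namespace Cfsg.Agent.S0212

/-- The Brauer–Fowler bound: if G is a finite simple group and t an involution of G whose centralizer has order n, then |G| ≤ (2n^2)!. -/
theorem result {G : Type*} [Group G] [Finite G] [IsSimpleGroup G] (t : G) (ht : orderOf t = 2) : Nat.card G ≤ Nat.factorial (2 * (Nat.card (Subgroup.centralizer ({t} : Set G))) ^ 2) := by
  set m := Nat.card (Subgroup.centralizer ({t} : Set G)) with hm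
  have hm2 : 2 ≤ m := by
    have := (Subgroup.centralizer ({t} : Set G)).orderOf_dvd_natCard
      (H08.mem_centralizer_singleton_commute.2 (Commute.refl t))
    rw [ht] at this
    exact Nat.le_of_dvd Nat.card_pos this
  by_cases hZ : ∃ u : G, orderOf u = 2 ∧ u ∈ Subgroup.center G
  · obtain ⟨u, hu, huZ⟩ := hZ
    have hc : Subgroup.center G = ⊤ :=
      (IsSimpleGroup.eq_bot_or_eq_top_of_normal _ inferInstance).resolve_left fun h =>
        H08.ne_one_of_orderOf hu (by rwa [h] at huZ)
    have : Subgroup.centralizer ({t} : Set G) = ⊤ := by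
      rw [Subgroup.centralizer_eq_top_iff_subset, hc]; simp
    rw [this, Subgroup.card_top] at hm
    rw [← hm]
    exact (Nat.self_le_factorial m).trans (Nat.factorial_le (by nlinarith))
  push Not at hZ
  obtain ⟨H, hH, h⟩ := H08.brauer_fowler (H08.even_card_iff'.2 ⟨t, ht⟩) hZ
  refine (Nat.le_of_dvd (Nat.factorial_pos _) (H08.card_dvd_factorial_index hH)).trans
    (Nat.factorial_le ?_)
  rcases h with h | h
  · nlinarith
  · set n := Nat.card {t : G // orderOf t = 2}
    have h1 := H08.card_isConj_mul_card_centralizer t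
    have h2 : Nat.card {y : G // IsConj t y} ≤ n :=
      Nat.card_le_card_of_injective (fun y => ⟨y.1, by rw [← H08.orderOf_eq_of_isConj y.2, ht]⟩)
        (fun a b hab => Subtype.ext (Subtype.mk.inj hab))
    have h3 : Nat.card G ≤ n * m := by rw [← h1]; exact Nat.mul_le_mul_right _ h2
    have h4 : Nat.card G * (Nat.card G + n) ≤ (n * m) * (n * m + n) :=
      Nat.mul_le_mul h3 (Nat.add_le_add_right h3 _)
    have h5 : (2 * H.index) * n ^ 2 < (m * (m + 1)) * n ^ 2 := by nlinarith
    have h6 := lt_of_mul_lt_mul_right h5 (Nat.zero_le _)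
    nlinarith

end Cfsg.Agent.S0212
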