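import Mathlib
import Cfsg.Statements.S0218

set_option autoImplicit false
open Cfsg

namespace Cfsg.Agent.S0218

/-- The generalized quaternion group of order 2^(n+3) contains exactly one element of order 2. -/
theorem result (n : ℕ) : Nat.card {x : QuaternionGroup (2 ^ (n + 1)) // orderOf x = 2} = 1 := by
  haveI : NeZero (2 ^ (n + 1)) := ⟨by positivity⟩
  rw [Nat.card_eq_one_iff_exists]
  have h2 : ((2 ^ (n + 1) : ℕ) : ZMod (2 * 2 ^ (n + 1))) ≠ 0 := by
    rw [Ne, ZMod.natCast_eq_zero_iff]
    intro h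
    have := Nat.le_of_dvd (by positivity) h
    have h3 : 0 < 2 ^ (n + 1) := by positivity
    omega
  have h3 : ((2 ^ (n + 1) : ℕ) : ZMod (2 * 2 ^ (n + 1))) + ((2 ^ (n + 1) : ℕ) : ZMod (2 * 2 ^ (n + 1))) = 0 := by
    rw [← Nat.cast_add, ZMod.natCast_eq_zero_iff, two_mul]
  refine ⟨⟨QuaternionGroup.a ((2 ^ (n + 1) : ℕ) : ZMod (2 * 2 ^ (n + 1))), ?_⟩, ?_⟩
  · apply orderOf_eq_prime
    · rw [pow_two, QuaternionGroup.a_mul_a, h3]; rfl
    · intro h
      exact h2 (QuaternionGroup.a.inj h)
  · rintro ⟨x, hx⟩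
    apply Subtype.ext
    rcases x with i | i
    · have h4 : QuaternionGroup.a i ^ 2 = 1 := orderOf_dvd_iff_pow_eq_one.mp hx.dvd
      rw [pow_two, QuaternionGroup.a_mul_a] at h4
      have h5 : i + i = 0 := QuaternionGroup.a.inj h4
      have h6 : i ≠ 0 := by
        rintro rfl
        have : orderOf (1 : QuaternionGroup (2 ^ (n + 1))) = 2 := hx
        simp at this
      show QuaternionGroup.a i = QuaternionGroup.a _
      congr 1
      have h7 : (2 * 2 ^ (n + 1)) ∣ i.val + i.val := by
        rw [← ZMod.natCast_eq_zero_iff, Nat.cast_add, ZMod.natCast_zmod_val, h5]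
      have h8 : i.val < 2 * 2 ^ (n + 1) := ZMod.val_lt i
      have h9 : i.val ≠ 0 := fun h => h6 ((ZMod.val_eq_zero i).mp h)
      obtain ⟨c, hc⟩ := h7
      have : c = 1 := by
        rcases c with _ | _ | c
        · omega
        · rfl
        · nlinarith
      subst this
      rw [← ZMod.natCast_zmod_val i]
      congr 1
      omega
    · rw [QuaternionGroup.orderOf_xa] at hx
      omega

end Cfsg.Agent.S0218
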