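import Mathlib
import Cfsg.Statements.S0220
import Cfsg.Agent.H08.Isolated
import Cfsg.Agent.H08.Counting
import Cfsg.Agent.S0213

set_option autoImplicit false
open Cfsg

namespace Cfsg.Agent.S0220

/-- If x is an involution of a finite group G and a Sylow 2-subgroup of the centralizer of x is cyclic, then G has a subgroup of index 2; in particular G is not simple unless it has order 2. -/
theorem result {G : Type*} [Group G] [Finite G] (x : G) (hx : orderOf x = 2) (S : Sylow 2 ↥(Subgroup.centralizer ({x} : Set G))) (hS : IsCyclic (S : Subgroup ↥(Subgroup.centralizer ({x} : Set G)))) : ∃ H : Subgroup G, H.index = 2 := by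
  obtain ⟨T, hT⟩ := S.exists_comap_subtype_eq
  have hxC : x ∈ Subgroup.centralizer ({x} : Set G) :=
    H08.mem_centralizer_singleton_commute.2 (Commute.refl x)
  have hxS : (⟨x, hxC⟩ : Subgroup.centralizer ({x} : Set G)) ∈ S := by
    obtain ⟨g, hg⟩ := H08.exists_conj_mem_sylow S (x := ⟨x, hxC⟩)
      (H08.isPGroup_zpowers_of_orderOf (by rw [Subgroup.orderOf_mk, hx]))
    rwa [show g * ⟨x, hxC⟩ * g⁻¹ = ⟨x, hxC⟩ from
      Subtype.ext (H08.mem_centralizer_singleton'.1 g.2)] at hg
  have hxT : x ∈ T := by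
    have : (⟨x, hxC⟩ : Subgroup.centralizer ({x} : Set G)) ∈ (S : Subgroup _) := hxS
    rw [← hT] at this; exact this
  obtain ⟨z, -, hz1, hz2, hzc⟩ := H04.exists_mem_center_pow_eq_one_of_normal T.2 ⊤ (by
    intro h
    have : (⟨x, hxT⟩ : (T : Subgroup G)) ∈ (⊥ : Subgroup (T : Subgroup G)) := h ▸ Subgroup.mem_top _
    exact H08.ne_one_of_orderOf hx (congrArg Subtype.val (Subgroup.mem_bot.1 this)))
  have hzC : (z : G) ∈ Subgroup.centralizer ({x} : Set G) :=
    Subgroup.mem_centralizer_singleton_iff.2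
      (congrArg Subtype.val (Subgroup.mem_center_iff.1 hzc ⟨x, hxT⟩)).symm
  have hzS : (⟨z, hzC⟩ : Subgroup.centralizer ({x} : Set G)) ∈ (S : Subgroup _) := by
    rw [← hT]; exact z.2
  obtain ⟨r, hr⟩ := hS.exists_generator
  have hzx : (z : G) = x := by
    have := S0213.eq_of_invols_zpowers (hr ⟨_, hzS⟩) (hr ⟨_, hxS⟩)
      (by rw [Subgroup.orderOf_mk, Subgroup.orderOf_mk, Subgroup.orderOf_coe]; exact orderOf_eq_prime hz2 hz1)
      (by rw [Subgroup.orderOf_mk, Subgroup.orderOf_mk, hx])
    exact congrArg (fun y => ((y.1 : Subgroup.centralizer ({x} : Set G)) : G)) this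
  have hTC : (T : Subgroup G) ≤ Subgroup.centralizer ({x} : Set G) := fun t ht => by
    rw [Subgroup.mem_centralizer_singleton_iff, ← hzx]
    exact congrArg Subtype.val (Subgroup.mem_center_iff.1 hzc ⟨t, ht⟩)
  refine H08.exists_index_two_of_cyclic_sylow (H08.even_card_iff'.2 ⟨x, hx⟩) T ?_
  have e : (S : Subgroup (Subgroup.centralizer ({x} : Set G))) ≃* (T : Subgroup G) :=
    (MulEquiv.subgroupCongr hT.symm).trans (Subgroup.subgroupOfEquivOfLe hTC)
  exact isCyclic_of_surjective e e.surjective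

end Cfsg.Agent.S0220
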