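import Mathlib
import Cfsg.Statements.S0229
import Cfsg.Agent.H08.Isolated

set_option autoImplicit false
open Cfsg

namespace Cfsg.Agent.S0229

/-- Let t be an involution of a Sylow 2-subgroup S of a finite group G, conjugate in G to no other element of S, and let s be an involution of G not conjugate to t. Then the order of st is twice an odd number. -/
theorem result {G : Type*} [Group G] [Finite G] (S : Sylow 2 G) (t : G) (ht : orderOf t = 2) (htS : t ∈ S) (hiso : ∀ g : G, g * t * g⁻¹ ∈ S → g * t * g⁻¹ = t) (s : G) (hs : orderOf s = 2) (hns : ¬ IsConj s t) : orderOf (s * t) % 4 = 2 := by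
  have hz := H08.isIsolated_of_sylow S ht hiso
  have hs1 := H08.mul_self_of_orderOf hs
  have ht1 := H08.mul_self_of_orderOf ht
  have hev := H08.even_orderOf_mul_of_not_isConj hs1 ht1 hns
  rcases H08.conj_mul_half_pow hs1 ht1 hev with ⟨-, k, -, hk⟩ | ⟨h, -⟩
  · have h1 := hz.2 ((s * t) ^ k) (by
      rw [hk]; exact (H08.commute_half_pow_right hs1 ht1 hev).symm.mul_right (Commute.refl t))
    rw [hk, mul_eq_right] at h1
    exact absurd h1 (H08.ne_one_of_orderOf (H08.half_pow_invol hev))
  · rw [Nat.even_iff] at hev; omega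

end Cfsg.Agent.S0229
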