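import Mathlib
import Cfsg.Statements.S0230
import Cfsg.Agent.H08.Counting

set_option autoImplicit false
open Cfsg

namespace Cfsg.Agent.S0230

/-- Let G be a finite group with two non-conjugate involutions, and let t be an involution whose centralizer has maximal order among centralizers of involutions. Then |G| < |C_G(t)|^3. -/
theorem result {G : Type*} [Group G] [Finite G] (s t : G) (hs : orderOf s = 2) (ht : orderOf t = 2) (hnc : ¬ IsConj s t) (hmax : ∀ u : G, orderOf u = 2 → Nat.card (Subgroup.centralizer ({u} : Set G)) ≤ Nat.card (Subgroup.centralizer ({t} : Set G))) : Nat.card G < Nat.card (Subgroup.centralizer ({t} : Set G)) ^ 3 := by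
  classical
  have := Fintype.ofFinite G
  set m := Nat.card (Subgroup.centralizer ({t} : Set G)) with hm
  have hz : ∀ y : {y : G // IsConj t y}, ∃ z : {z : G // orderOf z = 2 ∧ z ∈ Subgroup.centralizer ({s} : Set G)},
      y.1 ∈ Subgroup.centralizer ({z.1} : Set G) := by
    intro y
    have hy : orderOf y.1 = 2 := by rw [← H08.orderOf_eq_of_isConj y.2, ht]
    have hs1 := H08.mul_self_of_orderOf hs
    have hy1 := H08.mul_self_of_orderOf hy
    have hev := H08.even_orderOf_mul_of_not_isConj hs1 hy1 fun h => hnc (h.trans y.2.symm)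
    exact ⟨⟨_, H08.half_pow_invol hev, H08.mem_centralizer_singleton_commute.2
      (H08.commute_half_pow_left hs1 hy1 hev)⟩, H08.mem_centralizer_singleton_commute.2
      (H08.commute_half_pow_right hs1 hy1 hev).symm⟩
  choose f hf using hz
  have h1 : Nat.card {y : G // IsConj t y} ≤ Nat.card (Σ z : {z : G // orderOf z = 2 ∧
      z ∈ Subgroup.centralizer ({s} : Set G)}, Subgroup.centralizer ({z.1} : Set G)) :=
    Nat.card_le_card_of_injective (fun y => ⟨f y, y.1, hf y⟩) fun a b hab =>
      Subtype.ext (congrArg (fun x : (Σ z : {z : G // orderOf z = 2 ∧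
      z ∈ Subgroup.centralizer ({s} : Set G)}, Subgroup.centralizer ({z.1} : Set G)) => (x.2 : G)) hab)
  rw [Nat.card_sigma] at h1
  have h2 := Finset.sum_le_card_nsmul Finset.univ (fun z : {z : G // orderOf z = 2 ∧
      z ∈ Subgroup.centralizer ({s} : Set G)} => Nat.card (Subgroup.centralizer ({z.1} : Set G))) m
      fun z _ => hmax z.1 z.2.1
  rw [Finset.card_univ, ← Nat.card_eq_fintype_card, smul_eq_mul] at h2
  have h3 := H08.card_invols_mem_lt (Subgroup.centralizer ({s} : Set G))
  have h4 := hmax s hs
  have h5 := H08.card_isConj_mul_card_centralizer t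
  have hpos : 0 < m := Nat.card_pos
  rw [← hm] at h5
  have h6 : Nat.card {y : G // IsConj t y} < m * m := by nlinarith
  rw [← h5]
  calc _ < m * m * m := Nat.mul_lt_mul_of_pos_right h6 hpos
    _ = m ^ 3 := by ring

end Cfsg.Agent.S0230
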