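import Mathlib
import Cfsg.Statements.S0231
import Cfsg.Agent.H08.StronglyEmbedded

set_option autoImplicit false
open scoped Pointwise
open Cfsg

namespace Cfsg.Agent.S0231

/-- Let T be a Sylow 2-subgroup of the finite group G which is not normal and which intersects every other Sylow 2-subgroup trivially. Then G has a single conjugacy class of involutions. -/
theorem result {G : Type*} [Group G] [Finite G] (T : Sylow 2 G) (hnn : ¬ (T : Subgroup G).Normal) (hTI : ∀ g : G, MulAut.conj g • (T : Subgroup G) ≠ T → MulAut.conj g • (T : Subgroup G) ⊓ T = ⊥) (s t : G) (hs : orderOf s = 2) (ht : orderOf t = 2) : IsConj s t := by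
  refine H08.SE.isConj (H08.isStronglyEmbedded_normalizer_of_TI T
    (T.ne_bot_of_dvd_card (ht ▸ orderOf_dvd_natCard t)) hnn fun u hu h2 g hg => ?_) hs ht
  rw [H02.mem_normalizer_iff_smul_eq]
  by_contra hne
  have : g * u * g⁻¹ ∈ MulAut.conj g • (T : Subgroup G) ⊓ T := ⟨H02.conj_mem_conj_smul g hu, hg⟩
  rw [hTI g hne, Subgroup.mem_bot] at this
  exact H08.ne_one_of_orderOf (by rw [H08.orderOf_conj', h2]) this

end Cfsg.Agent.S0231
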