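import Mathlib
import Cfsg.Statements.S0232
import Cfsg.Agent.H08.Counting
import Cfsg.Agent.S0230

set_option autoImplicit false
open Cfsg

namespace Cfsg.Agent.S0232

theorem aux (n : ℕ) : ∀ {G : Type*} [Group G] [Finite G], Nat.card G = n → Even (Nat.card G) →
    2 < Nat.card G → ∃ H : Subgroup G, H ≠ ⊤ ∧ Nat.card G < (Nat.card H) ^ 3 := by
  induction n using Nat.strong_induction_on with
  | _ n ih =>
  intro G _ _ hn heven hgt
  have idx2 : ∀ H : Subgroup G, H.index = 2 → ∃ H : Subgroup G, H ≠ ⊤ ∧ Nat.card G < (Nat.card H) ^ 3 := by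
    intro H hH
    refine ⟨H, by rintro rfl; simp at hH, ?_⟩
    have := H.index_mul_card
    rw [hH] at this
    have h2 : 2 ≤ Nat.card H := by omega
    rw [← this]
    nlinarith [Nat.mul_le_mul h2 h2]
  by_cases hZ : ∃ z : G, orderOf z = 2 ∧ z ∈ Subgroup.center G
  · obtain ⟨z, hz, hzc⟩ := hZ
    have hN : (Subgroup.zpowers z).Normal := ⟨fun a ha g => by
      obtain ⟨k, rfl⟩ := Subgroup.mem_zpowers_iff.1 ha
      rw [Subgroup.mem_center_iff.1 (Subgroup.zpow_mem _ hzc k) g]; simpa using ha⟩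
    have hc : Nat.card (Subgroup.zpowers z) = 2 := by rw [Nat.card_zpowers, hz]
    have hq := (Subgroup.zpowers z).index_mul_card
    rw [hc] at hq
    by_cases h2 : (Subgroup.zpowers z).index = 2
    · exact idx2 _ h2
    by_cases he : Even (Subgroup.zpowers z).index
    · rw [Subgroup.index_eq_card] at h2 he hq
      obtain ⟨K, hK, hK2⟩ := ih _ (by omega) (G := G ⧸ Subgroup.zpowers z) rfl he (by
        rw [Nat.even_iff] at he; omega)
      refine ⟨K.comap (QuotientGroup.mk' _), fun h => hK ?_, ?_⟩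
      · rw [← Subgroup.map_comap_eq_self_of_surjective (QuotientGroup.mk'_surjective _) K, h,
          Subgroup.map_top_of_surjective _ (QuotientGroup.mk'_surjective _)]
      · rw [H02.card_comap_mk', hc, mul_pow]; omega
    · have hi : ¬ 2 ∣ (Subgroup.zpowers z).index := fun h => he (even_iff_two_dvd.2 h)
      obtain ⟨H, hH⟩ := H08.exists_index_two_of_cyclic_sylow heven
        ((H08.isPGroup_zpowers_of_orderOf hz).toSylow hi) (inferInstanceAs (IsCyclic (Subgroup.zpowers z)))
      exact idx2 H hH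
  push Not at hZ
  have hC : ∀ t : G, orderOf t = 2 → Subgroup.centralizer ({t} : Set G) ≠ ⊤ := fun t ht h => by
    rw [Subgroup.centralizer_eq_top_iff_subset] at h; exact hZ t ht (h rfl)
  obtain ⟨t, ht, hmax⟩ := Set.exists_max_image {t : G | orderOf t = 2}
    (fun t => Nat.card (Subgroup.centralizer ({t} : Set G))) (Set.toFinite _) (H08.even_card_iff'.1 heven)
  by_cases h2 : ∃ s : G, orderOf s = 2 ∧ ¬ IsConj s t
  · obtain ⟨s, hs, hst⟩ := h2
    exact ⟨_, hC t ht, S0230.result s t hs ht hst hmax⟩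
  push Not at h2
  obtain ⟨H, hH, h⟩ := H08.brauer_fowler heven hZ
  rcases h with h | h
  · exact idx2 H h
  by_cases h3 : Nat.card G < Nat.card (Subgroup.centralizer ({t} : Set G)) ^ 3
  · exact ⟨_, hC t ht, h3⟩
  push Not at h3
  refine ⟨H, hH, ?_⟩
  have h4 := H08.card_isConj_mul_card_centralizer t
  have h5 : Nat.card {y : G // IsConj t y} = Nat.card {t : G // orderOf t = 2} :=
    Nat.card_congr (Equiv.subtypeEquivRight fun y => ⟨fun h => by
      rw [← H08.orderOf_eq_of_isConj h]; exact ht, fun h => (h2 y h).symm⟩)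
  rw [h5] at h4
  have h6 := H.index_mul_card
  have hpos : 0 < Nat.card (Subgroup.centralizer ({t} : Set G)) := Nat.card_pos
  generalize Nat.card (Subgroup.centralizer ({t} : Set G)) = a at *
  generalize Nat.card {t : G // orderOf t = 2} = m at *
  generalize H.index = j at *
  generalize Nat.card H = k at *
  generalize Nat.card G = g at *
  have h7 : (2 * j) * m ^ 2 < (a * (a + 1)) * m ^ 2 := by rw [← h4] at h; nlinarith
  have h8 := lt_of_mul_lt_mul_right h7 (Nat.zero_le _)
  have h9 : j < a ^ 2 := by nlinarith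
  by_contra hcon
  push Not at hcon
  have h10 : j ^ 3 < (a ^ 2) ^ 3 := Nat.pow_lt_pow_left h9 (by norm_num)
  have h11 : (a ^ 3) ^ 2 ≤ g ^ 2 := Nat.pow_le_pow_left h3 2
  have h12 : g ^ 3 = j ^ 3 * k ^ 3 := by rw [← h6]; ring
  have h13 : j ^ 3 < g ^ 2 := by nlinarith
  have h14 : j ^ 3 * k ^ 3 ≤ j ^ 3 * g := Nat.mul_le_mul_left _ hcon
  have h15 : j ^ 3 * g < g ^ 2 * g := Nat.mul_lt_mul_of_pos_right h13 (by omega)
  nlinarith

/-- A finite group G of even order greater than 2 has a proper subgroup H with |G| < |H|^3. -/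
theorem result {G : Type*} [Group G] [Finite G] (heven : Even (Nat.card G)) (hgt : 2 < Nat.card G) : ∃ H : Subgroup G, H ≠ ⊤ ∧ Nat.card G < (Nat.card H) ^ 3 := by
  exact aux _ rfl heven hgt

end Cfsg.Agent.S0232
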