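import Mathlib
import Cfsg.Statements.S0234
import Cfsg.Agent.H08.Counting
import Cfsg.Agent.H19.Basic

set_option autoImplicit false
open Cfsg

namespace Cfsg.Agent.S0234

theorem card15 : Fintype.card {σ : Equiv.Perm (Fin 5) // σ * σ = 1 ∧ σ ≠ 1 ∧ Equiv.Perm.sign σ = 1} = 15 := by
  decide +kernel

/-- In a finite simple group G of even order greater than 2, the number n of involutions satisfies 3n < |G|. -/
theorem result {G : Type*} [Group G] [Finite G] [IsSimpleGroup G] (heven : Even (Nat.card G)) (hgt : 2 < Nat.card G) : 3 * Nat.card {t : G // orderOf t = 2} < Nat.card G := by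
  have hG : ¬ IsMulCommutative G := H19.not_comm_of_simple_card fun h => by
    have := h.even_iff.1 heven
    omega
  have hZ : ∀ t : G, orderOf t = 2 → t ∉ Subgroup.center G := fun t ht h => by
    rw [H19.center_eq_bot_of_simple hG] at h
    exact H08.ne_one_of_orderOf ht h
  have key : ∀ H : Subgroup G, H ≠ ⊤ → 2 * Nat.card G ∣ H.index.factorial := fun H hH =>
    H19.two_mul_card_dvd_factorial_index hG hH
  have h2 : ∀ H : Subgroup G, H.index ≠ 2 := fun H hH => by
    have := Nat.le_of_dvd (Nat.factorial_pos _) (key H (by rintro rfl; simp at hH))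
    rw [hH] at this
    simp at this; omega
  obtain ⟨H, hH, h⟩ := H08.brauer_fowler heven hZ
  replace h := h.resolve_left (h2 H)
  by_contra hcon
  push Not at hcon
  set n := Nat.card {t : G // orderOf t = 2} with hn
  have hj : H.index ≤ 5 := by
    by_contra hj
    push Not at hj
    have h4 : Nat.card G * (Nat.card G + n) ≤ (3 * n) * (3 * n + n) :=
      Nat.mul_le_mul hcon (Nat.add_le_add_right hcon _)
    nlinarith
  have hd : 2 * Nat.card G ∣ 120 := (key H hH).trans (Nat.factorial_dvd_factorial hj)
  have hd' : Nat.card G ∣ 60 := Nat.dvd_of_mul_dvd_mul_left two_pos hd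
  obtain ⟨T⟩ : Nonempty (Sylow 2 G) := inferInstance
  have hT := T.card_eq_multiplicity
  have hTi := (T : Subgroup G).index_mul_card
  have hT2 : Nat.card T ≠ 2 := fun h => by
    obtain ⟨K, hK⟩ := H08.exists_index_two_of_cyclic_sylow heven T (isCyclic_of_prime_card h)
    exact h2 K hK
  have hT3 := key T (H19.sylow_ne_top_of_simple hG T)
  have : Fact (Nat.Prime 5) := ⟨by norm_num⟩
  obtain ⟨F⟩ : Nonempty (Sylow 5 G) := inferInstance
  have hF := F.card_eq_multiplicity
  have hFi := (F : Subgroup G).index_mul_card
  have hF3 := key F (H19.sylow_ne_top_of_simple hG F)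
  have hg : Nat.card G = 60 := by
    have hle := Nat.le_of_dvd (by norm_num) hd'
    have hc : Nat.card G = 4 ∨ Nat.card G = 6 ∨ Nat.card G = 10 ∨ Nat.card G = 12 ∨ Nat.card G = 20 ∨
        Nat.card G = 30 ∨ Nat.card G = 60 := by
      generalize Nat.card G = g at *
      rw [Nat.even_iff] at heven
      interval_cases g <;> omega
    rcases hc with hc | hc | hc | hc | hc | hc | hc
    · rw [hc, show (Nat.factorization 4) 2 = 2 by decide +kernel] at hT
      rw [hT, hc] at hTi
      rw [show (T : Subgroup G).index = 1 by omega, hc] at hT3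
      norm_num at hT3
    · rw [hc, show (Nat.factorization 6) 2 = 1 by decide +kernel] at hT
      exact absurd hT hT2
    · rw [hc, show (Nat.factorization 10) 2 = 1 by decide +kernel] at hT
      exact absurd hT hT2
    · rw [hc, show (Nat.factorization 12) 2 = 2 by decide +kernel] at hT
      rw [hT, hc] at hTi
      rw [show (T : Subgroup G).index = 3 by omega, hc] at hT3
      norm_num [Nat.factorial] at hT3
    · rw [hc, show (Nat.factorization 20) 5 = 1 by decide +kernel] at hF
      rw [hF, hc] at hFi
      rw [show (F : Subgroup G).index = 4 by omega, hc] at hF3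
      norm_num [Nat.factorial] at hF3
    · rw [hc, show (Nat.factorization 30) 2 = 1 by decide +kernel] at hT
      exact absurd hT hT2
    · exact hc
  have hj5 : H.index = 5 := by
    by_contra hne
    have := (key H hH).trans (Nat.factorial_dvd_factorial (show H.index ≤ 4 by omega))
    rw [hg] at this
    norm_num [Nat.factorial] at this
  have e : (G ⧸ H) ≃ Fin 5 := Finite.equivFinOfCardEq hj5
  let φ : G →* Equiv.Perm (Fin 5) := e.permCongrHom.toMonoidHom.comp (MulAction.toPermHom G (G ⧸ H))
  have hφ : Function.Injective φ := e.permCongrHom.injective.comp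
    (H19.toPermHom_injective_of_simple (H19.exists_smul_ne_quotient hH))
  have hle : n ≤ Nat.card {σ : Equiv.Perm (Fin 5) // σ * σ = 1 ∧ σ ≠ 1 ∧ Equiv.Perm.sign σ = 1} :=
    Nat.card_le_card_of_injective (fun t => ⟨φ t.1, by rw [← map_mul, H08.mul_self_of_orderOf t.2, map_one],
      fun h => H08.ne_one_of_orderOf t.2 (hφ (by rw [h, map_one])), H19.sign_eq_one_of_simple hG φ _⟩)
      (fun a b hab => Subtype.ext (hφ (Subtype.mk.inj hab)))
  rw [Nat.card_eq_fintype_card, card15] at hle
  omega

end Cfsg.Agent.S0234
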