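import Mathlib
import Cfsg.Statements.S0239

set_option autoImplicit false
open Cfsg

namespace Cfsg.Agent.S0239

/-- If some nontrivial element x of a finite group G is conjugate to x⁻¹, then |G| is even. -/
theorem result {G : Type*} [Group G] [Finite G] (x : G) (hx : x ≠ 1) (hreal : IsConj x x⁻¹) : Even (Nat.card G) := by
  by_contra hodd
  rw [Nat.not_even_iff_odd] at hodd
  obtain ⟨g, hg⟩ := isConj_iff.mp hreal
  have h2 : Commute (g ^ 2) x := by
    have h1 : g * x⁻¹ * g⁻¹ = x := by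
      have := congrArg (·⁻¹) hg
      simpa [mul_assoc] using this
    have : g * (g * x * g⁻¹) * g⁻¹ = x := by rw [hg, h1]
    show g ^ 2 * x = x * g ^ 2
    calc g ^ 2 * x = (g * (g * x * g⁻¹) * g⁻¹) * g ^ 2 := by simp [pow_two, mul_assoc]
      _ = x * g ^ 2 := by rw [this]
  obtain ⟨k, hk⟩ := hodd
  have hgk : g = ((g ^ 2) ^ (k + 1)) := by
    rw [← pow_mul, show 2 * (k + 1) = (2 * k + 1) + 1 by ring, ← hk, pow_succ, pow_card_eq_one', one_mul]
  have hc : Commute g x := by rw [hgk]; exact h2.pow_left _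
  have hxx : x = x⁻¹ := by rw [← hg, hc.eq]; simp
  have hx2 : x ^ 2 = 1 := by rw [pow_two]; nth_rewrite 2 [hxx]; simp
  apply hx
  have : x = (x ^ 2) ^ (k + 1) := by
    rw [← pow_mul, show 2 * (k + 1) = (2 * k + 1) + 1 by ring, ← hk, pow_succ, pow_card_eq_one', one_mul]
  rw [this, hx2, one_pow]

end Cfsg.Agent.S0239
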