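import Mathlib
import Cfsg.Statements.S0240
import Cfsg.Agent.H08.Counting

set_option autoImplicit false
open Cfsg

namespace Cfsg.Agent.S0240

/-- Let G be a finite group with n involutions and H a subgroup with |H|·(n+1) > |G|. Then some nontrivial h ∈ H is strongly real in G: an involution t of G satisfies t h t⁻¹ = h⁻¹. -/
theorem result {G : Type*} [Group G] [Finite G] (H : Subgroup G) (hH : Nat.card G < Nat.card H * (Nat.card {t : G // orderOf t = 2} + 1)) : ∃ h : G, h ∈ H ∧ h ≠ 1 ∧ ∃ t : G, orderOf t = 2 ∧ t * h * t⁻¹ = h⁻¹ := by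
  rw [← H08.card_sq_eq_one] at hH
  have hlt : Nat.card (G ⧸ H) < Nat.card {x : G // x⁻¹ = x} := by
    have h1 := H.index_mul_card
    rw [Subgroup.index_eq_card] at h1
    by_contra h
    push Not at h
    have := Nat.mul_le_mul_left (Nat.card H) h
    rw [mul_comm] at h1
    omega
  have hni : ¬ Function.Injective (fun x : {x : G // x⁻¹ = x} => (x.1 : G ⧸ H)) := fun h =>
    (Nat.card_le_card_of_injective _ h).not_gt hlt
  rw [Function.not_injective_iff] at hni
  obtain ⟨⟨a, ha⟩, ⟨b, hb⟩, hab, hne⟩ := hni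
  have hne' : a ≠ b := fun h => hne (Subtype.ext h)
  have hm : a⁻¹ * b ∈ H := QuotientGroup.eq.1 hab
  have ha2 : a * a = 1 := by nth_rewrite 1 [← ha]; simp
  have hb2 : b * b = 1 := by nth_rewrite 1 [← hb]; simp
  refine ⟨a⁻¹ * b, hm, fun h => hne' (inv_mul_eq_one.1 h), ?_⟩
  rw [ha]
  by_cases ha1 : a = 1
  · exact ⟨b, H08.orderOf_eq_two_iff'.2 ⟨hb2, fun h => hne' (ha1.trans h.symm)⟩,
      H08.conj_mul_right ha2 hb2⟩
  · exact ⟨a, H08.orderOf_eq_two_iff'.2 ⟨ha2, ha1⟩, H08.conj_mul_left ha2 hb2⟩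

end Cfsg.Agent.S0240
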