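import Mathlib
import Cfsg.Statements.S0241
import Cfsg.Agent.H08.Counting

set_option autoImplicit false
open Cfsg

namespace Cfsg.Agent.S0241

/-- If x ≠ 1 is conjugate to x⁻¹ in a finite group G and |C_G(x)| is odd, then some involution t satisfies t x t⁻¹ = x⁻¹. -/
theorem result {G : Type*} [Group G] [Finite G] (x : G) (hx : x ≠ 1) (hreal : IsConj x x⁻¹) (hodd : Odd (Nat.card (Subgroup.centralizer ({x} : Set G)))) : ∃ t : G, orderOf t = 2 ∧ t * x * t⁻¹ = x⁻¹ := by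
  obtain ⟨g, hg⟩ := isConj_iff.1 hreal
  have hg2 : g * g ∈ Subgroup.centralizer ({x} : Set G) := by
    rw [H08.mem_centralizer_singleton']
    calc _ = g * (g * x * g⁻¹) * g⁻¹ := by group
      _ = (g * x * g⁻¹)⁻¹ := by rw [hg]; rw [← hg]; nth_rewrite 1 [hg]; group
      _ = x := by rw [hg, inv_inv]
  obtain ⟨m, hm⟩ := H08.odd_orderOf_of_mem hodd hg2
  have hc : Commute (g * g) x := H08.mem_centralizer_singleton_commute.1 hg2
  have hinv : g ^ (2 * m + 1) * x * (g ^ (2 * m + 1))⁻¹ = x⁻¹ := by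
    rw [pow_succ', pow_mul, sq, mul_inv_rev, ← hg, mul_assoc g, (hc.pow_left m).eq]; group
  refine ⟨g ^ (2 * m + 1), H08.orderOf_eq_two_iff'.2 ⟨?_, fun h => ?_⟩, hinv⟩
  · rw [← (Commute.refl g).mul_pow, ← hm, pow_orderOf_eq_one]
  · rw [h, one_mul, inv_one, mul_one] at hinv
    have hx2 : orderOf x = 2 := H08.orderOf_eq_two_iff'.2 ⟨by nth_rewrite 2 [hinv]; simp, hx⟩
    exact H08.odd_card_iff.1 hodd x (H08.mem_centralizer_singleton_commute.2 (Commute.refl x)) hx2

end Cfsg.Agent.S0241
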