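import Mathlib
import Cfsg.Statements.S0244

set_option autoImplicit false
open Cfsg

namespace Cfsg.Agent.S0244

/-- Sp_2 = SL_2: a matrix on Fin 1 ⊕ Fin 1 lies in Mathlib's symplectic group iff its determinant is 1. -/
theorem result {R : Type*} [CommRing R] (A : Matrix (Fin 1 ⊕ Fin 1) (Fin 1 ⊕ Fin 1) R) : A ∈ Matrix.symplecticGroup (Fin 1) R ↔ A.det = 1 := by
  refine ⟨SymplecticGroup.det_eq_one, fun h => ?_⟩
  rw [← A.fromBlocks_toBlocks] at h ⊢
  rw [SymplecticGroup.fromBlocks_mem_iff]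
  have e : (Matrix.fromBlocks A.toBlocks₁₁ A.toBlocks₁₂ A.toBlocks₂₁ A.toBlocks₂₂).det
      = A.toBlocks₁₁ 0 0 * A.toBlocks₂₂ 0 0 - A.toBlocks₁₂ 0 0 * A.toBlocks₂₁ 0 0 := by
    rw [← Matrix.det_reindex_self (finSumFinEquiv (m := 1) (n := 1)), Matrix.det_fin_two]
    rfl
  rw [e] at h
  refine ⟨?_, ?_, ?_⟩ <;> ext i j <;> fin_cases i <;> fin_cases j <;>
    simp [Matrix.mul_apply, mul_comm]
  linear_combination h

end Cfsg.Agent.S0244
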