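import Mathlib
import Cfsg.Statements.S0250
import Cfsg.Agent.H09.SL2Syl

set_option autoImplicit false
open Cfsg

namespace Cfsg.Agent.S0250

/-- SL_2(2) is isomorphic to S_3. -/
theorem result {F : Type*} [Field F] [Fintype F] (hF : Fintype.card F = 2) : Nonempty (Matrix.SpecialLinearGroup (Fin 2) F ≃* Equiv.Perm (Fin 3)) := by
  classical
  have hc : Nat.card (H09.P1 F) = 3 := by rw [H09.card_P1, hF]
  have : Finite (H09.P1 F) := Nat.finite_of_card_ne_zero (by omega)
  let e := (Finite.equivFinOfCardEq hc).permCongrHom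
  refine ⟨(MulEquiv.ofBijective (MulAction.toPermHom _ (H09.P1 F)) ?_).trans e⟩
  rw [Nat.bijective_iff_injective_and_card, Nat.card_congr e.toEquiv, H09.card_SL_two, hF, Nat.card_perm,
    Nat.card_fin]
  refine ⟨(injective_iff_map_eq_one _).2 fun g hg => ?_, rfl⟩
  have h : ∀ y : H09.P1 F, (QuotientGroup.mk g : Matrix.ProjectiveSpecialLinearGroup (Fin 2) F) • y = y :=
    fun y => (Matrix.ProjectiveSpecialLinearGroup.smul_proj_mk _ _).trans (congrArg (fun t : Equiv.Perm _ => t y) hg)
  have h2 : (2 : F) = 0 := H09.two_eq_zero_of_even_card (by rw [hF]; decide)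
  rcases H09.PSL2.mk_eq_one_iff.1 (H09.psl_eq_one_of_fix_three (g := QuotientGroup.mk g) (H09.pInf_ne_pt 0)
    (H09.pInf_ne_pt 1) (by simp) (h _) (h _) (h _)) with e | e
  · exact e
  · rw [e, H09.SL2.neg_eq_self h2]

end Cfsg.Agent.S0250
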