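import Mathlib
import Cfsg.Statements.S0257
import Cfsg.Agent.H09.SL2Syl
import Cfsg.Agent.S0251

set_option autoImplicit false
open Cfsg

namespace Cfsg.Agent.S0257

/-- SL_2(3) has a normal subgroup of index 3 isomorphic to the quaternion group of order 8, and its centre has order 2. -/
theorem result {F : Type*} [Field F] [Fintype F] (hF : Fintype.card F = 3) : (∃ Q : Subgroup (Matrix.SpecialLinearGroup (Fin 2) F), Q.Normal ∧ Q.index = 3 ∧ Nonempty (Q ≃* QuaternionGroup 2)) ∧ Nat.card (Subgroup.center (Matrix.SpecialLinearGroup (Fin 2) F)) = 2 := by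
  obtain ⟨e⟩ := Cfsg.Agent.S0251.result hF
  have h4 : Nat.card (Fin 4) = 4 := by simp
  have := alternatingGroup.normal_kleinFour h4
  let f := e.toMonoidHom.comp (QuotientGroup.mk' (Subgroup.center (Matrix.SpecialLinearGroup (Fin 2) F)))
  have hf : Function.Surjective f := e.surjective.comp (QuotientGroup.mk'_surjective _)
  have hi : ((alternatingGroup.kleinFour (Fin 4)).comap f).index = 3 := by
    have h := (alternatingGroup.kleinFour (Fin 4)).card_mul_index
    rw [alternatingGroup.kleinFour_card_of_card_eq_four h4, alternatingGroup.card_of_card_eq_four h4] at h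
    rw [Subgroup.index_comap_of_surjective _ hf]; omega
  have hc := ((alternatingGroup.kleinFour (Fin 4)).comap f).card_mul_index
  rw [hi, H09.card_SL_two, hF] at hc
  have h8 : Nat.card ((alternatingGroup.kleinFour (Fin 4)).comap f) = 2 ^ 3 := by omega
  refine ⟨⟨_, inferInstance, hi, ?_⟩, by rw [H09.card_center_SL, hF]; rfl⟩
  obtain ⟨k, ⟨e'⟩⟩ := H09.SL2_sylow_two (by rw [hF]; decide) ((IsPGroup.of_card h8).toSylow (by rw [hi]; decide))
  have h := h8.symm.trans (Nat.card_congr e'.toEquiv)
  rw [Nat.card_eq_fintype_card, QuaternionGroup.card] at h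
  obtain rfl : k = 0 := by
    rcases k with _ | k
    · rfl
    · have := Nat.one_le_two_pow (n := k); rw [pow_succ, pow_succ, pow_succ] at h; omega
  exact ⟨e'⟩

end Cfsg.Agent.S0257
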