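import Mathlib
import Cfsg.Statements.S0263
import Cfsg.Agent.H09.SLBasic

set_option autoImplicit false
open Cfsg

namespace Cfsg.Agent.S0263

/-- A Sylow p-subgroup of GL_n(q), p the characteristic, has order q^(n(n-1)/2). -/
theorem result {F : Type*} [Field F] [Fintype F] {q : ℕ} (hF : Fintype.card F = q) (p : ℕ) [Fact p.Prime] [CharP F p] (n : ℕ) (P : Sylow p (Matrix.GeneralLinearGroup (Fin n) F)) : Nat.card P = q ^ (n * (n - 1) / 2) := by
  subst hF
  obtain ⟨f, -, hq⟩ := FiniteField.card F p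
  have hp := (Fact.out : p.Prime)
  rw [Sylow.card_eq_multiplicity, Matrix.card_GL_field]
  have h1 : ∏ i : Fin n, (Fintype.card F ^ n - Fintype.card F ^ (i : ℕ)) =
      Fintype.card F ^ (n * (n - 1) / 2) * ∏ i : Fin n, (Fintype.card F ^ (n - i) - 1) := by
    rw [← Finset.sum_range_id, ← Finset.prod_pow_eq_pow_sum, Finset.prod_range,
      ← Finset.prod_mul_distrib]
    refine Finset.prod_congr rfl fun i _ => ?_
    rw [Nat.mul_sub, mul_one, ← pow_add, Nat.add_sub_cancel' i.2.le]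
  have h2 : ¬ p ∣ ∏ i : Fin n, (Fintype.card F ^ (n - i) - 1) := by
    intro h
    obtain ⟨i, -, hi⟩ := (Prime.dvd_finset_prod_iff hp.prime _).1 h
    have h3 : p ∣ Fintype.card F ^ (n - i) := by
      rw [hq, ← pow_mul]
      exact dvd_pow_self _ (Nat.mul_ne_zero f.ne_zero (by have := i.2; omega))
    have h4 : 1 ≤ Fintype.card F ^ (n - i) := Nat.one_le_pow _ _ Fintype.card_pos
    have := (Nat.dvd_sub_iff_right h4 h3).1 hi
    exact hp.one_lt.ne' (Nat.dvd_one.1 this)
  have h5 : ∏ i : Fin n, (Fintype.card F ^ (n - i) - 1) ≠ 0 := fun h => h2 (h ▸ dvd_zero p)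
  rw [h1, Nat.factorization_mul (pow_ne_zero _ Fintype.card_ne_zero) h5, Finsupp.add_apply,
    Nat.factorization_eq_zero_of_not_dvd h2, add_zero, hq, ← pow_mul, hp.factorization_pow]
  simp

end Cfsg.Agent.S0263
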