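import Mathlib
import Cfsg.Statements.S0264
import Cfsg.Agent.H09.SL2Basic

set_option autoImplicit false
open Cfsg

namespace Cfsg.Agent.S0264

open Matrix Matrix.SpecialLinearGroup in
open scoped MatrixGroups commutatorElement in
theorem aux {F : Type*} [Field F] {ι : Type*} [Fintype ι] [DecidableEq ι] {i j : ι} (hij : i ≠ j)
    (a : F) (ha : a ≠ 0) (ha1 : a ≠ 1) (c : F) :
    toGL (SpecialLinearGroup.transvection hij c) ∈ commutator (GL ι F) := by
  let d : GL ι F := GeneralLinearGroup.mkOfDetNeZero (diagonal fun k => if k = i then a else 1)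
    (by simp [Finset.prod_ite_eq', ha])
  have h1 : ∀ b : F, d * toGL (SpecialLinearGroup.transvection hij b) =
      toGL (SpecialLinearGroup.transvection hij (b * a)) * d := by
    intro b
    apply Units.ext
    simp only [Units.val_mul, coe_GL_coe_matrix, transvection_coe, mul_add, add_mul, one_mul,
      mul_one]
    congr 1
    change diagonal _ * _ = _ * diagonal _
    ext k l
    simp only [diagonal_mul, mul_diagonal, single_apply]
    by_cases h : i = k ∧ j = l
    · obtain ⟨rfl, rfl⟩ := h
      simp [hij.symm, mul_comm]
    · simp [h]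
  have h2 : ⁅d, toGL (SpecialLinearGroup.transvection hij (c / (a - 1)))⁆
      = toGL (SpecialLinearGroup.transvection hij c) := by
    rw [commutatorElement_def, h1, mul_inv_cancel_right, ← map_inv, transvection_inv, ← map_mul,
      ← transvection_add]
    congr 2
    have := sub_ne_zero.2 ha1
    field_simp; ring
  rw [← h2]
  exact Subgroup.commutator_mem_commutator (Subgroup.mem_top _) (Subgroup.mem_top _)

/-- GL_n(F)' = SL_n(F) (as the kernel of det), for every field F and every n, except n = 2 over the field of two elements. -/
theorem result {F : Type*} [Field F] (n : ℕ) (h : n = 2 → ∃ a : F, a ≠ 0 ∧ a ≠ 1) : commutator (Matrix.GeneralLinearGroup (Fin n) F) = (Matrix.GeneralLinearGroup.det : Matrix.GeneralLinearGroup (Fin n) F →* Fˣ).ker := by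
  apply le_antisymm
  · exact Abelianization.commutator_subset_ker _
  · rw [← H09.range_toGL_eq_ker_det]
    rintro _ ⟨g, rfl⟩
    refine H09.SL_transvection_induction
      (fun g => Matrix.SpecialLinearGroup.toGL g ∈ commutator (Matrix.GeneralLinearGroup (Fin n) F))
      (by simp) ?_ (fun A B hA hB => by rw [map_mul]; exact mul_mem hA hB) g
    intro i j hij c
    by_cases hn : n = 2
    · obtain ⟨a, ha, ha1⟩ := h hn
      exact aux hij a ha ha1 c
    · have : 3 ≤ n := by
        have := i.2; have := j.2; have : (i : ℕ) ≠ j := fun h => hij (Fin.ext h); omega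
      obtain ⟨x, y, hxy⟩ := H09.transvection_mem_commutatorSet (F := F) (by simpa using this) hij c
      rw [← hxy, map_commutatorElement]
      exact Subgroup.commutator_mem_commutator (Subgroup.mem_top _) (Subgroup.mem_top _)

end Cfsg.Agent.S0264
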