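import Mathlib
import Cfsg.Statements.S0267
import Cfsg.Agent.H09.ProjLine

set_option autoImplicit false
open Cfsg

namespace Cfsg.Agent.S0267

/-- SL_2(q) is 3-transitive on the q+1 points of the projective line if and only if q is even. -/
theorem result {F : Type*} [Field F] [Fintype F] : MulAction.IsMultiplyPretransitive (Matrix.SpecialLinearGroup (Fin 2) F) (Projectivization F (Fin 2 → F)) 3 ↔ ringChar F = 2 := by
  constructor
  · intro h
    by_contra hc
    obtain ⟨a, ha⟩ := FiniteField.exists_nonsquare hc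
    have ha0 : a ≠ 0 := by rintro rfl; exact ha ⟨0, by simp⟩
    rw [MulAction.isMultiplyPretransitive_iff] at h
    have inj : ∀ t : F, t ≠ 0 → Function.Injective ![(H09.pInf : H09.P1 F), H09.pt 0, H09.pt t] := by
      intro t ht i j hij
      fin_cases i <;> fin_cases j <;> simp_all [eq_comm]
    obtain ⟨g, hg⟩ := h ⟨_, inj 1 one_ne_zero⟩ ⟨_, inj a ha0⟩
    have h0 : g • (H09.pInf : H09.P1 F) = H09.pInf := congrArg (fun f : Fin 3 ↪ H09.P1 F => f 0) hg
    have h1 : g • (H09.pt 0 : H09.P1 F) = H09.pt 0 := congrArg (fun f : Fin 3 ↪ H09.P1 F => f 1) hg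
    have h2 : g • (H09.pt 1 : H09.P1 F) = H09.pt a := congrArg (fun f : Fin 3 ↪ H09.P1 F => f 2) hg
    rw [H09.sl_smul_pInf_eq_pInf] at h0
    rw [H09.sl_smul_pt_eq_pt] at h1 h2
    have hd := H09.SL2.det_eq g
    refine ha ⟨g 0 0, ?_⟩
    have h01 : g 0 1 = 0 := by linear_combination h1
    rw [h0, h01] at h2 hd
    linear_combination (- g 0 0) * h2 - a * hd
  · intro h
    have hsurj : Function.Surjective (Matrix.ProjectiveSpecialLinearGroup.toPGL (n := Fin 2) (R := F)) := by
      apply Matrix.ProjectiveSpecialLinearGroup.toPGL_surj_of_roots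
      intro r
      obtain ⟨s, hs⟩ := FiniteField.isSquare_of_char_two h (r : F)
      have hs0 : s ≠ 0 := by rintro rfl; simp at hs
      exact ⟨Units.mk0 s hs0, Units.ext (by simp [hs, sq])⟩
    have h3 := H09.pgl_three_transitive (F := F)
    rw [MulAction.isMultiplyPretransitive_iff] at h3 ⊢
    intro x y
    obtain ⟨g, hg⟩ := h3 x y
    obtain ⟨g, rfl⟩ := hsurj g
    obtain ⟨g, rfl⟩ := QuotientGroup.mk_surjective g
    refine ⟨g, ?_⟩
    ext i
    rw [← hg]
    exact (H09.toPGL_smul (QuotientGroup.mk g) (x i)).symm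

end Cfsg.Agent.S0267
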