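import Mathlib
import Cfsg.Statements.S0268
import Cfsg.Agent.H09.SL2Basic

set_option autoImplicit false
open Cfsg

namespace Cfsg.Agent.S0268

/-- For q odd, -1 is the unique involution of SL_2(q). -/
theorem result {F : Type*} [Field F] [Fintype F] (hF : Odd (Fintype.card F)) (g : Matrix.SpecialLinearGroup (Fin 2) F) (h1 : g ≠ 1) (h2 : g * g = 1) : (g : Matrix (Fin 2) (Fin 2) F) = -1 := by
  rw [H09.SL2.eq_neg_one_of_mul_self (H09.two_ne_zero_of_odd_card hF) h1 h2]
  simp

end Cfsg.Agent.S0268
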