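import Mathlib
import Cfsg.Statements.S0272
import Cfsg.Agent.H09.SL2Syl

set_option autoImplicit false
open Cfsg

namespace Cfsg.Agent.S0272

/-- The normaliser in GL_2(q) of a Sylow p-subgroup, p the characteristic, has order q (q-1)^2. -/
theorem result {F : Type*} [Field F] [Fintype F] {q : ℕ} (hF : Fintype.card F = q) (p : ℕ) [Fact p.Prime] [CharP F p] (P : Sylow p (Matrix.GeneralLinearGroup (Fin 2) F)) : Nat.card (Subgroup.normalizer ((P : Subgroup (Matrix.GeneralLinearGroup (Fin 2) F)) : Set (Matrix.GeneralLinearGroup (Fin 2) F))) = q * (q - 1) ^ 2 := by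
  have h := (Subgroup.normalizer ((P : Subgroup (Matrix.GeneralLinearGroup (Fin 2) F)) : Set (Matrix.GeneralLinearGroup (Fin 2) F))).index_mul_card
  erw [← P.card_eq_index_normalizer] at h
  rw [H09.card_sylow_GL2, H09.card_GL_two, hF] at h
  refine Nat.eq_of_mul_eq_mul_left q.succ_pos (h.trans ?_)
  have : 1 ≤ q := hF ▸ Fintype.card_pos
  obtain ⟨k, rfl⟩ := Nat.exists_eq_add_of_le' this
  rw [show (k + 1) ^ 2 - 1 = k * (k + 2) from Nat.sub_eq_of_eq_add (by ring),
    show (k + 1) ^ 2 - (k + 1) = k * (k + 1) from Nat.sub_eq_of_eq_add (by ring)]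
  simp only [Nat.add_sub_cancel, Nat.succ_eq_add_one]
  ring

end Cfsg.Agent.S0272
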