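import Mathlib
import Cfsg.Statements.S0273
import Cfsg.Agent.H09.SL2Syl

set_option autoImplicit false
open Cfsg

namespace Cfsg.Agent.S0273

/-- In GL_2(q) the centraliser of a non-trivial element of a Sylow p-subgroup (p the characteristic) has order q (q-1): the Sylow subgroup times the scalars. -/
theorem result {F : Type*} [Field F] [Fintype F] {q : ℕ} (hF : Fintype.card F = q) (p : ℕ) [Fact p.Prime] [CharP F p] (P : Sylow p (Matrix.GeneralLinearGroup (Fin 2) F)) (a : Matrix.GeneralLinearGroup (Fin 2) F) (ha : a ∈ P) (ha1 : a ≠ 1) : Nat.card (Subgroup.centralizer ({a} : Set (Matrix.GeneralLinearGroup (Fin 2) F))) = q * (q - 1) := by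
  obtain ⟨g, hg⟩ := H09.exists_sylG p P
  have h := H09.card_cent_uG ((hg a).1 ha) (by simpa [mul_assoc, inv_mul_eq_one] using ha1)
  rw [H09.card_units_field, Nat.card_eq_fintype_card (α := F), hF] at h
  rw [← h]
  refine Nat.card_congr (Equiv.subtypeEquiv (MulAut.conj g⁻¹).toEquiv fun x => ?_)
  simp only [Subgroup.mem_centralizer_singleton_iff]
  simp [mul_assoc]
  rw [← mul_assoc, ← mul_assoc, mul_left_inj]

end Cfsg.Agent.S0273
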