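import Mathlib
import Cfsg.Statements.S0275
import Cfsg.Agent.H17.Dickson2
import Cfsg.Agent.S0016

set_option autoImplicit false
open Cfsg

namespace Cfsg.Agent.S0275

/-- If p is odd and H is a subgroup of SL_2(q), q a power of p, with more than one Sylow p-subgroup, then the Sylow 2-subgroups of H are generalised quaternion. -/
theorem result {F : Type*} [Field F] [Fintype F] (p : ℕ) [Fact p.Prime] [CharP F p] (hp : p ≠ 2) (H : Subgroup (Matrix.SpecialLinearGroup (Fin 2) F)) (hH : 1 < Nat.card (Sylow p H)) (S : Sylow 2 H) : ∃ k : ℕ, 1 ≤ k ∧ Nonempty ((S : Subgroup H) ≃* QuaternionGroup (2 ^ k)) := by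
  obtain ⟨ψ, hψ, hle⟩ := H17.exists_sl2_of_sylow p hp H hH
  have hnc : ¬ IsMulCommutative S := H17.not_comm_sylow_two_of_surj p hp
    (ψ.codRestrict H (fun x => hle ⟨x, rfl⟩)) (fun a b h => hψ (congrArg Subtype.val h)) (MonoidHom.id _)
    Function.surjective_id S
  have h2 : (2 : F) ≠ 0 := H17.two_ne_zero_of_charP' F p hp
  have key : ∀ A : Subgroup (S : Subgroup H), Nat.card A = 2 →
      ∀ x : (S : Subgroup H), x ∈ A ↔ (((x : H) : Matrix.SpecialLinearGroup (Fin 2) F) = 1 ∨
        ((x : H) : Matrix.SpecialLinearGroup (Fin 2) F) = -1) := by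
    intro A hA
    have h1 : ∀ x ∈ A, x ≠ 1 → ((x : H) : Matrix.SpecialLinearGroup (Fin 2) F) = -1 := by
      intro x hx hx1
      apply H09.SL2.eq_neg_one_of_mul_self h2 (fun h => hx1 (Subtype.ext (Subtype.ext h)))
      have := pow_card_eq_one' (x := (⟨x, hx⟩ : A))
      rw [hA, sq] at this
      exact congrArg (fun z : A => (((z : (S : Subgroup H)) : H) : Matrix.SpecialLinearGroup (Fin 2) F)) this
    intro x
    constructor
    · intro hx
      by_cases hx1 : x = 1
      · left; rw [hx1]; rfl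
      · exact Or.inr (h1 x hx hx1)
    · rintro (h | h)
      · rw [show x = 1 from Subtype.ext (Subtype.ext h)]; exact A.one_mem
      · have : A ≠ ⊥ := by rintro rfl; simp at hA
        obtain ⟨⟨y, hy⟩, hy1⟩ := Subgroup.ne_bot_iff_exists_ne_one.1 this
        have h3 := h1 y hy (fun h' => hy1 (Subtype.ext h'))
        rw [show x = y from Subtype.ext (Subtype.ext (h.trans h3.symm))]
        exact hy
  rcases Cfsg.Agent.S0016.result 2 S.isPGroup' (fun A B hA hB => by
    ext x; rw [key A hA, key B hB]) with h | ⟨-, n, ⟨e⟩⟩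
  · exact absurd ⟨⟨fun a b => (IsCyclic.commGroup (α := (S : Subgroup H))).mul_comm a b⟩⟩ hnc
  · refine ⟨n, ?_, ⟨e⟩⟩
    by_contra hn
    have hn0 : n = 0 := by omega
    subst hn0
    have : IsCyclic (QuaternionGroup (2 ^ 0)) := QuaternionGroup.quaternionGroup_one_isCyclic
    have h := isCyclic_of_injective e.toMonoidHom e.injective
    exact hnc ⟨⟨fun a b => (IsCyclic.commGroup (α := (S : Subgroup H))).mul_comm a b⟩⟩

end Cfsg.Agent.S0275
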