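import Mathlib
import Cfsg.Agent.H10.Bridge
import Cfsg.Statements.S0285

set_option autoImplicit false
open Cfsg

namespace Cfsg.Agent.S0285

/-- The standard Hermitian form on F^n, |F| = q^2, has exactly (q^n - (-1)^n)(q^(n-1) + (-1)^n) non-zero isotropic vectors; counting the zero vector too: -/
theorem result {F : Type*} [Field F] [Fintype F] {q : ℕ} (hF : Fintype.card F = q ^ 2) (n : ℕ) : Nat.card {v : Fin n → F // Cfsg.hermForm n F q v v = 0} = (if Even n then (q ^ n - 1) * (q ^ (n - 1) + 1) else (q ^ n + 1) * (q ^ (n - 1) - 1)) + 1 := by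
  have hF' := Nat.card_eq_fintype_card.trans hF
  have h1 := (H10.stdU_isUnitary hF' n).cnt_zero
  have h2 := H10.two_le_q hF'
  rw [Module.finrank_fin_fun] at h1
  change (H10.stdU hF' n).cnt 0 = _
  cases n with
  | zero => classical simp [H10.Form.cnt_of_subsingleton]
  | succ n =>
    have h3 : 1 ≤ q ^ (n + 1) := Nat.one_le_pow _ _ (by omega)
    have h4 : 1 ≤ q ^ n := Nat.one_le_pow _ _ (by omega)
    zify
    apply mul_left_cancel₀ (a := (q : ℤ)) (by simp; omega)
    rw [h1, Nat.add_sub_cancel]
    split_ifs with he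
    · rw [he.neg_one_pow]; push_cast [h3]; ring
    · rw [(Nat.not_even_iff_odd.1 he).neg_one_pow]; push_cast [h4]; ring

end Cfsg.Agent.S0285
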