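import Mathlib
import Cfsg.Agent.H10.Quad2
import Cfsg.Statements.S0286

set_option autoImplicit false
open Cfsg

namespace Cfsg.Agent.S0286

/-- |GO_{2m+1}(q)| = 2 q^(m^2) prod_{i=1}^{m} (q^(2i) - 1) for q odd. -/
theorem result {F : Type*} [Field F] [Fintype F] {q : ℕ} (hF : Fintype.card F = q) (hodd : Odd q) (m : ℕ) : Nat.card (Cfsg.isometryGroup F (Cfsg.quadFormOdd m F)) = 2 * q ^ (m ^ 2) * ∏ i ∈ Finset.range m, (q ^ (2 * (i + 1)) - 1) := by
  have := H10.qOdd_nondeg (m := m) (H10.two_ne_zero_of_odd_card (hF ▸ hodd))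
  rw [← hF, ← Nat.card_eq_fintype_card]
  exact (Nat.card_congr (H10.isometryEquiv (H10.qOdd m F)).toEquiv).trans
    ((H10.Form.isQuad_ofQuad _).card_Isom_odd (by simp; omega))

end Cfsg.Agent.S0286
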