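import Mathlib
import Cfsg.Agent.H10.Quad2
import Cfsg.Statements.S0289

set_option autoImplicit false
open Cfsg

namespace Cfsg.Agent.S0289

/-- The hyperbolic quadratic form on F^(2m), m at least 1, has q^(2m-1) + q^m - q^(m-1) zeros (that is, (q^m - 1)(q^(m-1) + 1) non-zero isotropic vectors). -/
theorem result {F : Type*} [Field F] [Fintype F] {q : ℕ} (hF : Fintype.card F = q) (m : ℕ) (hm : 1 ≤ m) : Nat.card {v : Fin m ⊕ Fin m → F // Cfsg.quadFormPlus m F v = 0} = q ^ (2 * m - 1) + q ^ m - q ^ (m - 1) := by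
  obtain ⟨m, rfl⟩ : ∃ k, m = k + 1 := ⟨m - 1, by omega⟩
  have h := (H10.Form.isQuad_ofQuad (H10.qPlus (m + 1) F)).cnt_plus (m := m) (by simp; omega)
    H10.qPlus_hasTS
  rw [Nat.card_eq_fintype_card, hF] at h
  refine h.trans ?_
  have hq : 1 ≤ q := hF ▸ Fintype.card_pos
  have h1 : 1 ≤ q ^ (m + 1) := Nat.one_le_pow _ _ hq
  rw [show 2 * (m + 1) - 1 = 2 * m + 1 by omega, Nat.add_sub_cancel]
  symm
  apply Nat.sub_eq_of_eq_add
  zify [h1]; ring

end Cfsg.Agent.S0289
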