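import Mathlib
import Cfsg.Agent.H10.Omega
import Cfsg.Statements.S0292

set_option autoImplicit false
open Cfsg

namespace Cfsg.Agent.S0292

/-- 2 |PΩ_{2m+1}(q)| = q^(m^2) prod_{i=1}^{m} (q^(2i) - 1), for q odd and m at least 3 (type B_m). -/
theorem result {F : Type*} [Field F] [Fintype F] {q : ℕ} (hF : Fintype.card F = q) (hodd : Odd q) (m : ℕ) (hm : 3 ≤ m) : 2 * Nat.card (Cfsg.POmega F (Cfsg.quadFormOdd m F)) = q ^ (m ^ 2) * ∏ i ∈ Finset.range m, (q ^ (2 * (i + 1)) - 1) := by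
  have := H10.qOdd_nondeg (m := m) (H10.two_ne_zero_of_odd_card (hF ▸ hodd))
  have h := (H10.Form.isQuad_ofQuad (H10.qOdd m F)).card_POmega_odd (m := m) (by omega)
    (by simp; omega)
  rw [← Nat.card_congr (H10.pOmegaEquiv (H10.isometryEquiv (H10.qOdd m F))).toEquiv, H10.oOdd,
    Nat.card_eq_fintype_card (α := F), hF, mul_assoc] at h
  apply Nat.eq_of_mul_eq_mul_left two_pos
  rw [← h, ← mul_assoc]; rfl

end Cfsg.Agent.S0292
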