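import Mathlib
import Cfsg.Agent.H10.Omega
import Cfsg.Statements.S0294

set_option autoImplicit false
open Cfsg

namespace Cfsg.Agent.S0294

/-- gcd(4, q^m + 1) |PΩ^-_{2m}(q)| = q^(m(m-1)) (q^m + 1) prod_{i=1}^{m-1} (q^(2i) - 1), m at least 4 (type ²D_m). -/
theorem result {F : Type*} [Field F] [Fintype F] {q : ℕ} (hF : Fintype.card F = q) (m : ℕ) (hm : 4 ≤ m) (a b : F) (hab : ∀ z₁ z₂ : F, z₁ ^ 2 + a * z₁ * z₂ + b * z₂ ^ 2 = 0 → z₁ = 0 ∧ z₂ = 0) : Nat.gcd 4 (q ^ m + 1) * Nat.card (Cfsg.POmega F (Cfsg.quadFormMinus (m - 1) F a b)) = q ^ (m * (m - 1)) * (q ^ m + 1) * ∏ i ∈ Finset.range (m - 1), (q ^ (2 * (i + 1)) - 1) := by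
  obtain ⟨m, rfl⟩ : ∃ k, m = k + 1 := ⟨m - 1, by omega⟩
  have hd := H10.disc_ne_zero_of_aniso hab
  have := H10.qMinus_nondeg (m := m) hd
  have h := (H10.Form.isQuad_ofQuad (H10.qMinus m F a b)).card_POmega_minus (m := m) (by omega)
    (by simp; omega) (H10.qMinus_not_hasTS hd hab)
  rw [← Nat.card_congr (H10.pOmegaEquiv (H10.isometryEquiv (H10.qMinus m F a b))).toEquiv, H10.oMinus,
    Nat.card_eq_fintype_card (α := F), hF, mul_assoc, mul_assoc] at h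
  rw [mul_assoc]
  exact Nat.eq_of_mul_eq_mul_left two_pos h

end Cfsg.Agent.S0294
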