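import Mathlib
import Cfsg.Agent.H10.Small
import Cfsg.Statements.S0305

set_option autoImplicit false
open Cfsg

namespace Cfsg.Agent.S0305

/-- GO^+_2(q) is dihedral of order 2(q-1). -/
theorem result {F : Type*} [Field F] [Fintype F] {q : ℕ} (hF : Fintype.card F = q) : Nonempty (Cfsg.isometryGroup F (Cfsg.quadFormPlus 1 F) ≃* DihedralGroup (q - 1)) := by
  rw [← hF, ← Nat.card_eq_fintype_card]
  obtain ⟨e, he0, he⟩ := H10.Form.hasTS_one_iff.1 (H10.qPlus_hasTS (F := F) (m := 1))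
  obtain ⟨f, hyp⟩ := H10.Form.exists_hyp _ he he0
  obtain ⟨i⟩ := (H10.Form.isQuad_ofQuad (H10.qPlus 1 F)).dihedral_of_hyp (by simp) hyp
  exact ⟨(H10.isometryEquiv (H10.qPlus 1 F)).trans i⟩

end Cfsg.Agent.S0305
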