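import Mathlib
import Cfsg.Statements.S0307
import Cfsg.Agent.H09.SLBasic

set_option autoImplicit false
open Cfsg

namespace Cfsg.Agent.S0307

/-- PSL_n(q) is normal in PGL_n(q) with cyclic quotient of order gcd(n, q-1): the image of the natural map PSL_n → PGL_n is the kernel of a surjective homomorphism onto the cyclic group of that order. -/
theorem result {F : Type*} [Field F] [Fintype F] {q : ℕ} (hF : Fintype.card F = q) (n : ℕ) (hn : 1 ≤ n) : ∃ g : Matrix.ProjGenLinGroup (Fin n) F →* Multiplicative (ZMod (Nat.gcd n (q - 1))), Function.Surjective g ∧ g.ker = (Matrix.ProjectiveSpecialLinearGroup.toPGL : Matrix.ProjectiveSpecialLinearGroup (Fin n) F →* Matrix.ProjGenLinGroup (Fin n) F).range := by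
  subst hF
  have : Nonempty (Fin n) := ⟨⟨0, hn⟩⟩
  set R : Subgroup Fˣ := (powMonoidHom n : Fˣ →* Fˣ).range with hR
  have hcard : Nat.card (Fˣ ⧸ R) = Nat.gcd n (Fintype.card F - 1) := by
    rw [← Subgroup.index_eq_card, IsCyclic.index_powMonoidHom_range, H09.card_units_field,
      Nat.gcd_comm]
  have hcyc : IsCyclic (Fˣ ⧸ R) := isCyclic_of_surjective _ (QuotientGroup.mk'_surjective R)
  have hne : NeZero (Nat.gcd n (Fintype.card F - 1)) := ⟨by rw [← hcard]; exact Nat.card_pos.ne'⟩
  let e : (Fˣ ⧸ R) ≃* Multiplicative (ZMod (Nat.gcd n (Fintype.card F - 1))) :=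
    mulEquivOfCyclicCardEq (by simp [hcard])
  let f : Matrix.ProjGenLinGroup (Fin n) F →* Fˣ ⧸ R :=
    Matrix.ProjGenLinGroup.lift ((QuotientGroup.mk' R).comp Matrix.GeneralLinearGroup.det) (by
      ext u
      simp only [MonoidHom.comp_apply, Matrix.GeneralLinearGroup.det_scalar, QuotientGroup.mk'_apply,
        MonoidHom.one_apply, QuotientGroup.eq_one_iff]
      exact ⟨u, by simp⟩)
  refine ⟨e.toMonoidHom.comp f, ?_, ?_⟩
  · refine e.surjective.comp fun x => ?_
    obtain ⟨x, rfl⟩ := QuotientGroup.mk_surjective x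
    obtain ⟨g, rfl⟩ := Matrix.GeneralLinearGroup.det_surjective (n := Fin n) x
    exact ⟨Matrix.ProjGenLinGroup.mk g, rfl⟩
  · ext g
    induction g using Matrix.ProjGenLinGroup.induction_on with | mk g =>
    simp only [MonoidHom.mem_ker, MonoidHom.comp_apply, MulEquiv.coe_toMonoidHom,
      EmbeddingLike.map_eq_one_iff, MonoidHom.mem_range, f, Matrix.ProjGenLinGroup.lift_mk,
      QuotientGroup.mk'_apply, QuotientGroup.eq_one_iff, hR, powMonoidHom_apply]
    constructor
    · rintro ⟨u, hu⟩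
      have : g * Matrix.GeneralLinearGroup.scalar (Fin n) u⁻¹ ∈
          (Matrix.GeneralLinearGroup.det : GL (Fin n) F →* Fˣ).ker := by
        simp [MonoidHom.mem_ker, ← hu]
      rw [← H09.range_toGL_eq_ker_det] at this
      obtain ⟨s, hs⟩ := this
      refine ⟨QuotientGroup.mk s, ?_⟩
      rw [Matrix.ProjectiveSpecialLinearGroup.toPGL_mk, hs, map_mul,
        Matrix.ProjGenLinGroup.mk_scalar, mul_one]
    · rintro ⟨s, hs⟩
      obtain ⟨s, rfl⟩ := QuotientGroup.mk_surjective s
      rw [Matrix.ProjectiveSpecialLinearGroup.toPGL_mk, Matrix.ProjGenLinGroup.mk_eq_mk_iff] at hs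
      obtain ⟨u, rfl⟩ := hs
      exact ⟨u, by simp⟩

end Cfsg.Agent.S0307
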