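import Cfsg.Statements.S0314
import Cfsg.Agent.H11.BN
-- import your own Cfsg.Agent.* helpers here

set_option autoImplicit false
open Cfsg

namespace Cfsg.Agent.S0314
open H11

/-- Distinct sets of distinguished generators give distinct standard parabolic subgroups. -/
theorem result {G : Type*} [Group G] (P : Cfsg.BNPair G) {J K : Set G}
    (hJ : J ⊆ P.S) (hK : K ⊆ P.S) (h : P.parabolic J = P.parabolic K) : J = K := by
  ext a
  constructor
  · intro ha; rw [← BN.S_mem_parabolic hK (hJ ha), ← h, BN.S_mem_parabolic hJ (hJ ha)]; exact ha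
  · intro ha; rw [← BN.S_mem_parabolic hJ (hK ha), h, BN.S_mem_parabolic hK (hK ha)]; exact ha

end Cfsg.Agent.S0314
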