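import Cfsg.Statements.S0316
import Cfsg.Agent.H11.BN
-- import your own Cfsg.Agent.* helpers here

set_option autoImplicit false
open Cfsg

namespace Cfsg.Agent.S0316
open H11

/-- The map `J ↦ P_J` is a lattice isomorphism from the power set of the set of distinguished generators onto the
subgroups containing `B`. -/
theorem result {G : Type*} [Group G] (P : Cfsg.BNPair G) :
    ∃ e : Set P.S ≃o {M : Subgroup G // P.B ≤ M},
      ∀ J : Set P.S, ((e J : {M : Subgroup G // P.B ≤ M}) : Subgroup G) = P.parabolic (Subtype.val '' J) := by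
  refine ⟨{ toFun := fun J => ⟨BN.cellSub P J, BN.B_le_cellSub J⟩
            invFun := fun M => {a | (a : G) ∈ M.1}
            left_inv := fun J => Set.ext fun a => BN.S_mem_cellSub
            right_inv := fun M => Subtype.ext (BN.eq_cellSub M.2).symm
            map_rel_iff' := fun {J K} => ⟨fun h a ha => BN.S_mem_cellSub.1 (h (BN.S_mem_cellSub.2 ha)), ?_⟩ },
    fun J => BN.cellSub_eq J⟩
  rintro h g ⟨w, h1, h2⟩
  exact ⟨w, par_mono h h1, h2⟩

end Cfsg.Agent.S0316
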