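import Cfsg.Statements.S0321
import Cfsg.Agent.H11.BN
-- import your own Cfsg.Agent.* helpers here

set_option autoImplicit false
open Cfsg

namespace Cfsg.Agent.S0321
open H11

/-- For `n ∈ N` not in `B`, the union `B ∪ B n B` is (the underlying set of) a subgroup exactly when `n` agrees
modulo `B ⊓ N` with one of the distinguished representatives; thus the distinguished involutions are
determined by `B` and `N`. -/
theorem result {G : Type*} [Group G] (P : Cfsg.BNPair G) {n : G}
    (hn : n ∈ P.N) (hnB : n ∉ P.B) :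
    (∃ H : Subgroup G, (H : Set G) = (P.B : Set G) ∪ DoubleCoset.doubleCoset n (P.B : Set G) P.B) ↔ ∃ s ∈ P.S, s⁻¹ * n ∈ P.B := by
  rw [← BN.cell_eq_doubleCoset hn]
  constructor
  · rintro ⟨H, hH⟩
    have hB : P.B ≤ H := fun b hb => by rw [← SetLike.mem_coe, hH]; exact Or.inl hb
    have hnH : n ∈ H := by rw [← SetLike.mem_coe, hH]; exact Or.inr (BN.mem_cell_self hn)
    obtain ⟨l, hl, e⟩ := (BN.invGen P).exists_red (BN.toW P n hn)
    cases l with
    | nil => exact absurd ((BN.toW_eq_one hn).1 e.symm) hnB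
    | cons a l =>
      have h1 := BN.letters_mem hB hl (e ▸ BN.mem_cell_self hn) hnH a List.mem_cons_self
      rw [← SetLike.mem_coe, hH] at h1
      exact ⟨a, a.2, (BN.toW_eq_iff _ _).1
        (BN.cell_unique (BN.S_mem_cell a) (h1.resolve_left (BN.S_not_mem a)))⟩
  · rintro ⟨s, hs, h⟩
    have e : BN.sW P ⟨s, hs⟩ = BN.toW P n hn := (BN.toW_eq_iff _ _).2 h
    refine ⟨BN.cellSub P {⟨s, hs⟩}, ?_⟩
    rw [← e]
    ext g
    constructor
    · rintro ⟨w, h1, h2⟩
      obtain ⟨l, h3, h4, rfl⟩ := (BN.preCox P).exists_red_par h1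
      rcases l with _ | ⟨a, _ | ⟨b, l⟩⟩
      · exact Or.inl (BN.mem_cell_one.1 h2)
      · have : a = ⟨s, hs⟩ := h3 a (by simp)
        right; simpa [this] using h2
      · exfalso
        have ha : a = ⟨s, hs⟩ := h3 a (by simp)
        have hb : b = ⟨s, hs⟩ := h3 b (by simp)
        have := h4.append_left (l := [a, b])
        rw [Red, ha, hb] at this
        simp [BN.sW_sq] at this
    · rintro (h | h)
      · exact BN.B_le_cellSub _ h
      · exact ⟨_, mem_par_self rfl, h⟩

end Cfsg.Agent.S0321
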