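import Cfsg.Statements.S0322
import Cfsg.Agent.H11.BN
-- import your own Cfsg.Agent.* helpers here

set_option autoImplicit false
open Cfsg

namespace Cfsg.Agent.S0322
open H11

/-- A group with a (B,N)-pair of rank one acts doubly transitively on the left cosets of `B`. -/
theorem result {G : Type*} [Group G] (P : Cfsg.BNPair G) (h : P.rank = 1) : MulAction.IsMultiplyPretransitive G (G ⧸ P.B) 2 := by
  obtain ⟨a, ha⟩ : ∃ a : P.S, ∀ c, c = a := by
    obtain ⟨h1, ⟨a⟩⟩ := Nat.card_eq_one_iff_unique.1 h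
    exact ⟨a, fun c => Subsingleton.elim _ _⟩
  have key : ∀ g : G, g ∉ P.B → ∃ b ∈ P.B, ∃ b' ∈ P.B, g = b * a * b' := by
    intro g hg
    obtain ⟨w, hw⟩ := BN.exists_cell (P := P) g
    obtain ⟨l, h4, rfl⟩ := (BN.invGen P).exists_red w
    rcases l with _ | ⟨c, _ | ⟨b, l⟩⟩
    · exact absurd (BN.mem_cell_one.1 hw) hg
    · rw [ha c, wp_singleton] at hw
      exact (BN.mem_cell_iff _).1 hw
    · exfalso
      have := h4.append_left (l := [c, b])
      rw [Red, ha c, ha b] at this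
      simp [BN.sW_sq] at this
  have key2 : ∀ x y : G ⧸ P.B, x ≠ y → ∃ g : G, g • ((1 : G) : G ⧸ P.B) = x ∧ g • (((a : G) : G ⧸ P.B)) = y := by
    intro x y hxy
    obtain ⟨x, rfl⟩ := QuotientGroup.mk_surjective x
    obtain ⟨y, rfl⟩ := QuotientGroup.mk_surjective y
    rw [Ne, QuotientGroup.eq] at hxy
    obtain ⟨b, hb, b', hb', e⟩ := key _ hxy
    refine ⟨x * b, ?_, ?_⟩
    · rw [MulAction.Quotient.smul_coe, QuotientGroup.eq]; simpa using hb
    · rw [MulAction.Quotient.smul_coe, QuotientGroup.eq]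
      have : y = x * (b * a * b') := by rw [← e]; group
      rw [this]; simpa [mul_assoc] using hb'
  rw [MulAction.is_two_pretransitive_iff]
  intro x y z w h1 h2
  obtain ⟨g, e1, e2⟩ := key2 x y h1
  obtain ⟨g', e3, e4⟩ := key2 z w h2
  exact ⟨g' * g⁻¹, by rw [← e1, ← e3, smul_smul]; simp, by rw [← e2, ← e4, smul_smul]; simp⟩

end Cfsg.Agent.S0322
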