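import Cfsg.Statements.S0323
import Cfsg.Agent.H11.BN
-- import your own Cfsg.Agent.* helpers here

set_option autoImplicit false
open scoped Pointwise
open Cfsg

namespace Cfsg.Agent.S0323
open H11

/-- A doubly transitive action on a set with at least three points yields a (B,N)-pair of rank one:
`B` is the stabiliser of a point `x`, `N` the setwise stabiliser of a pair `{x, y}`. -/
theorem result {G Ω : Type*} [Group G] [MulAction G Ω]
    (h2 : MulAction.IsMultiplyPretransitive G Ω 2) {x y z : Ω} (hxy : x ≠ y) (hyz : y ≠ z) (hxz : x ≠ z) :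
    ∃ P : Cfsg.BNPair G, P.B = MulAction.stabilizer G x ∧
      P.N = MulAction.stabilizer G ({x, y} : Set Ω) ∧ P.rank = 1 := by
  rw [MulAction.is_two_pretransitive_iff] at h2
  obtain ⟨s, hs1, hs2⟩ := h2 hxy hxy.symm
  have hN : ∀ n : G, n ∈ MulAction.stabilizer G ({x, y} : Set Ω) ↔ (n • x = x ∧ n • y = y) ∨ (n • x = y ∧ n • y = x) := by
    intro n
    rw [MulAction.mem_stabilizer_iff, Set.smul_set_insert, Set.smul_set_singleton, Set.pair_eq_pair_iff]
  have hsN : s ∈ MulAction.stabilizer G ({x, y} : Set Ω) := (hN s).2 (Or.inr ⟨hs1, hs2⟩)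
  have hi1 : s⁻¹ • x = y := by rw [inv_smul_eq_iff, hs2]
  have hi2 : s⁻¹ • y = x := by rw [inv_smul_eq_iff, hs1]
  have key : ∀ g : G, g • x ≠ x → ∃ b ∈ MulAction.stabilizer G x, ∃ b' ∈ MulAction.stabilizer G x, g = b * s * b' := by
    intro g hg
    obtain ⟨b, h1, h3⟩ := h2 hxy hg.symm
    refine ⟨b, h1, s⁻¹ * b⁻¹ * g, ?_, by group⟩
    rw [MulAction.mem_stabilizer_iff, mul_smul, mul_smul, ← h3, inv_smul_smul, hi2]
  have key2 : ∀ g g' : G, (g • x = x ↔ g' • x = x) →
      g ∈ DoubleCoset.doubleCoset g' (MulAction.stabilizer G x : Set G) (MulAction.stabilizer G x) := by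
    intro g g' h
    rw [DoubleCoset.mem_doubleCoset]
    by_cases h1 : g • x = x
    · refine ⟨g * g'⁻¹, mul_mem (show g ∈ MulAction.stabilizer G x from h1)
        (inv_mem (show g' ∈ MulAction.stabilizer G x from h.1 h1)), 1, one_mem _, by group⟩
    · obtain ⟨b1, h3, b2, h4, rfl⟩ := key g h1
      obtain ⟨b3, h5, b4, h6, rfl⟩ := key g' (fun e => h1 (h.2 e))
      exact ⟨b1 * b3⁻¹, mul_mem h3 (inv_mem h5), b4⁻¹ * b2, mul_mem (inv_mem h6) h4, by group⟩
  refine ⟨⟨MulAction.stabilizer G x, MulAction.stabilizer G ({x, y} : Set Ω), {s}, ?_, ?_, ?_, ?_, ?_, ?_, ?_, ?_⟩,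
    rfl, rfl, by simp [BNPair.rank]⟩
  · rw [eq_top_iff]
    rintro g -
    by_cases hg : g • x = x
    · exact Subgroup.mem_sup_left hg
    · obtain ⟨b, h1, b', h3, rfl⟩ := key g hg
      exact mul_mem (mul_mem (Subgroup.mem_sup_left h1) (Subgroup.mem_sup_right hsN)) (Subgroup.mem_sup_left h3)
  · intro n hn t ht
    have h1 : t • x = x := ht.1
    have h3 : t • y = y := by
      rcases (hN t).1 ht.2 with h | h
      · exact h.2
      · exact absurd (h1.symm.trans h.1) hxy
    rw [MulAction.mem_stabilizer_iff, mul_smul, mul_smul]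
    rcases (hN _).1 (inv_mem hn) with h | h
    · rw [h.1, h1, ← h.1, smul_inv_smul, h.1]
    · rw [h.1, h3, ← h.1, smul_inv_smul]
  · rintro _ rfl; exact hsN
  · rintro _ rfl; rw [MulAction.mem_stabilizer_iff, mul_smul, hs1, hs2]
  · rintro _ rfl _ rfl _; rfl
  · apply le_antisymm
    · exact sup_le ((Subgroup.closure_le _).2 (by rintro _ rfl; exact hsN)) inf_le_right
    · intro n hn
      rcases (hN n).1 hn with h | h
      · exact Subgroup.mem_sup_right ⟨h.1, hn⟩
      · have : n = s * (s⁻¹ * n) := by group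
        rw [this]
        refine mul_mem (Subgroup.mem_sup_left (Subgroup.subset_closure rfl))
          (Subgroup.mem_sup_right ⟨?_, Subgroup.mul_mem _ (Subgroup.inv_mem _ hsN) hn⟩)
        change (s⁻¹ * n) • x = x
        rw [mul_smul, h.1, hi2]
  · rintro s' hs' n hn b hb
    obtain rfl : s = s' := hs'.symm
    have hb' : b • x = x := hb
    rcases (hN n).1 hn with h | h
    · left; apply key2
      simp only [mul_smul, h.1, hb']
    · by_cases h1 : (s * b * n) • x = x
      · left; apply key2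
        simp only [h1, mul_smul, h.1, hs2, true_iff]
      · right; apply key2
        simp only [h1, h.1, false_iff]; exact hxy.symm
  · rintro s' hs' e
    obtain rfl : s = s' := hs'.symm
    obtain ⟨b, h1, h3⟩ := h2 hxy hxz
    have : s * b * s ∈ (MulAction.stabilizer G x : Set G) := e ▸ ⟨b, h1, rfl⟩
    have h4 : (s * b * s) • x = x := this
    rw [mul_smul, mul_smul, hs1, h3, ← hs2] at h4
    exact hyz (MulAction.injective s h4).symm

end Cfsg.Agent.S0323
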