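import Mathlib
import Cfsg.Statements.S0326

set_option autoImplicit false
open Cfsg

namespace Cfsg.Agent.S0326

/-- The Suzuki–Tits ovoid over a finite field with `q` elements has `q² + 1` points. -/
theorem result {F : Type*} [Field F] [Fintype F] (m : ℕ) :
    Nat.card (Cfsg.suzukiOvoid F m) = Fintype.card F ^ 2 + 1 := by
  have hne : ∀ x y : F, (![x * y + x ^ (2 ^ (m + 1) + 2) + y ^ (2 ^ (m + 1)), y, x, 1] : Fin 4 → F) ≠ 0 :=
    fun x y h => by simpa using congrFun h 3
  have h0 : (![1, 0, 0, 0] : Fin 4 → F) ≠ 0 := by simp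
  have : Nat.card (Option (F × F)) = Nat.card (Cfsg.suzukiOvoid F m) := by
    refine Nat.card_congr (Equiv.ofBijective (fun o => o.elim ⟨Projectivization.mk F _ h0, _, h0, rfl, Or.inl rfl⟩
      fun p => ⟨Projectivization.mk F _ (hne p.1 p.2), _, hne p.1 p.2, rfl, Or.inr ⟨p.1, p.2, rfl⟩⟩) ⟨?_, ?_⟩)
    · rintro (_ | ⟨x, y⟩) (_ | ⟨x', y'⟩) h
      · rfl
      · obtain ⟨a, ha⟩ := (Projectivization.mk_eq_mk_iff' F _ _ _ _).1 (congrArg Subtype.val h).symm
        simpa using congrFun ha 3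
      · obtain ⟨a, ha⟩ := (Projectivization.mk_eq_mk_iff' F _ _ _ _).1 (congrArg Subtype.val h)
        simpa using congrFun ha 3
      · obtain ⟨a, ha⟩ := (Projectivization.mk_eq_mk_iff' F _ _ _ _).1 (congrArg Subtype.val h)
        have h3 : a = 1 := by simpa using congrFun ha 3
        subst h3
        have h1 : x = x' := by simpa using (congrFun ha 2).symm
        have h2 : y = y' := by simpa using (congrFun ha 1).symm
        rw [h1, h2]
    · rintro ⟨_, v, hv, rfl, rfl | ⟨x, y, rfl⟩⟩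
      · exact ⟨none, rfl⟩
      · exact ⟨some (x, y), rfl⟩
  rw [← this]
  simp [sq]

end Cfsg.Agent.S0326
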