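import Mathlib
import Cfsg.Statements.S0330
import Cfsg.Agent.H12.Sz4

set_option autoImplicit false
open Cfsg

namespace Cfsg.Agent.S0330

open H12.Sz H12.CC

/-- A Sylow 2-subgroup `P` of the Suzuki group (field with `q = 2^(2m+1)` elements, `m ≥ 1`) has order `q²` and
exponent `4`; its centre coincides with its commutator subgroup and has order `q`. -/
theorem result {F : Type*} [Field F] [Fintype F] {m : ℕ} (hm : 1 ≤ m)
    (hF : Fintype.card F = 2 ^ (2 * m + 1)) (P : Sylow 2 (Cfsg.Sz F m)) :
    Nat.card P = (2 ^ (2 * m + 1)) ^ 2 ∧ Monoid.exponent P = 4 ∧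
      Subgroup.center P = commutator P ∧ Nat.card (Subgroup.center P) = 2 ^ (2 * m + 1) := by
  haveI : SzF F m := ⟨hm, hF⟩
  obtain ⟨g, hg⟩ := sylow_eq_cj P
  let e : U F m ≃* P := (cjEquiv g (U F m)).trans (MulEquiv.subgroupCongr hg.symm)
  have hZ : Subgroup.center (U F m) = (Z F m).subgroupOf (U F m) := by
    ext ⟨_, a, b, rfl⟩
    rw [Subgroup.mem_center_iff, Subgroup.mem_subgroupOf]
    constructor
    · intro h
      by_contra hc
      have ha : a ≠ 0 := by rintro rfl; exact hc (uu_mem_Z b)
      obtain ⟨t, t0, t1⟩ := exists_ne (F := F)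
      rcases th_add_eq_zero ha (uu_commute.1 (congrArg Subtype.val (h ⟨uu (t * a) 0, uu_mem_U _ _⟩)).symm) with h | h
      · simp [t0, ha] at h
      · simp [t1, ha] at h
    · rintro ⟨c, hc⟩ ⟨_, x, y, rfl⟩
      apply Subtype.ext
      change uu x y * uu a b = uu a b * uu x y
      rw [show uu a b = uu 0 c from hc, uu_comm_Z]
  have hC : commutator (U F m) = (Z F m).subgroupOf (U F m) := by
    apply Subgroup.map_injective (U F m).subtype_injective
    rw [Subgroup.map_subtype_commutator, Subgroup.subgroupOf_map_subtype, inf_eq_left.2 Z_le_U]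
    refine le_antisymm comm_UU ?_
    rintro _ ⟨b, rfl⟩
    obtain ⟨t, t0, t1⟩ := exists_ne (F := F)
    have h1 : t + th t ≠ 0 := fun h => by
      rcases th_add_eq_zero (a := 1) (c := t) one_ne_zero (by simpa using h) with h | h
      exacts [t0 h, t1 h]
    obtain ⟨k, hk⟩ := Finite.surjective_of_injective (f := fun x : F => x * th x) (fun _ _ => mul_th_inj)
      (b / (t + th t))
    have := Subgroup.commutator_mem_commutator (uu_mem_U (m := m) k 0) (uu_mem_U (m := m) (k * t) 0)
    rw [uu_comm] at this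
    convert this using 2
    have hk' : k * th k = b / (t + th t) := hk
    rw [eq_div_iff h1] at hk'
    rw [← hk', map_mul]
    ring
  have hcen : Subgroup.center P = (Subgroup.center (U F m)).map e.toMonoidHom := by
    ext x
    obtain ⟨x, rfl⟩ := e.surjective x
    rw [show e x = e.toMonoidHom x from rfl, Subgroup.mem_map_iff_mem e.injective, Subgroup.mem_center_iff,
      Subgroup.mem_center_iff, e.surjective.forall]
    simp [← map_mul]
  refine ⟨by rw [hg, card_cj, card_U, hF], ?_, ?_, ?_⟩
  · rw [← Monoid.exponent_eq_of_mulEquiv e]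
    have h4 : Monoid.exponent (U F m) ∣ 2 ^ 2 := Monoid.exponent_dvd_of_forall_pow_eq_one (by
      rintro ⟨_, a, b, rfl⟩
      exact Subtype.ext (uu_pow_four a b))
    have h2 : ¬ Monoid.exponent (U F m) ∣ 2 ^ 1 := fun h => by
      have := Monoid.exponent_dvd_iff_forall_pow_eq_one.1 h ⟨uu 1 0, uu_mem_U _ _⟩
      simpa using uu_sq_eq_one.1 (congrArg Subtype.val this)
    obtain ⟨k, hk, h⟩ := (Nat.dvd_prime_pow Nat.prime_two).1 h4
    rw [h] at h2 ⊢
    interval_cases k <;> simp_all
  · rw [hcen, hZ, ← hC, commutator_def, commutator_def, Subgroup.map_commutator,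
      Subgroup.map_top_of_surjective _ e.surjective]
  · rw [hcen, Subgroup.card_map_of_injective e.injective, hZ,
      Nat.card_congr (Subgroup.subgroupOfEquivOfLe Z_le_U).toEquiv, card_Z, hF]

end Cfsg.Agent.S0330
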