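import Mathlib
import Cfsg.Statements.S0332
import Cfsg.Agent.H12.Sz5

set_option autoImplicit false
open Cfsg

namespace Cfsg.Agent.S0332

open H12.Sz H12.CC

/-- The Suzuki group is a CN-group: every non-identity element has nilpotent centraliser. -/
theorem result {F : Type*} [Field F] [Fintype F] {m : ℕ} (hm : 1 ≤ m)
    (hF : Fintype.card F = 2 ^ (2 * m + 1)) : Cfsg.IsCNGroup (Cfsg.Sz F m) := by
  haveI : SzF F m := ⟨hm, hF⟩
  intro x x1
  by_cases h : ∃ g, g * x * g⁻¹ ∈ U F m
  · obtain ⟨g, hg⟩ := h
    have h1 := centralizer_le_U hg (by simpa using x1)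
    rw [centralizer_conj, cj_le_iff] at h1
    exact ((isPGroup_U.map _).to_le h1).isNilpotent
  push Not at h
  have : IsCyclic (Subgroup.centralizer {x}) := by
    rcases odd_cases h with ⟨g, hg⟩ | h
    · rw [hg]
      exact isCyclic_of_surjective _ (cjEquiv g (H F m)).surjective
    · exact h.cyclic
  exact @CommGroup.isNilpotent _ this.commGroup

end Cfsg.Agent.S0332
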