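import Mathlib
import Cfsg.Statements.S0334
import Cfsg.Agent.H12.Sz2

set_option autoImplicit false
open Cfsg

namespace Cfsg.Agent.S0334

/-- Every element of the Suzuki group preserves the alternating form with antidiagonal matrix:
`gᵀ J g = J`. Hence the Suzuki group is a subgroup of a 4-dimensional symplectic group. -/
theorem result {F : Type*} [Field F] [Fintype F] {m : ℕ} (hm : 1 ≤ m)
    (hF : Fintype.card F = 2 ^ (2 * m + 1)) {g : Matrix.SpecialLinearGroup (Fin 4) F}
    (hg : g ∈ Cfsg.Sz F m) :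
    (g : Matrix (Fin 4) (Fin 4) F).transpose * Cfsg.suzukiForm F * (g : Matrix (Fin 4) (Fin 4) F) =
      Cfsg.suzukiForm F := by
  haveI : H12.Sz.SzF F m := ⟨hm, hF⟩
  have key : ∀ g : H12.Sz.G F m, (H12.Sz.mat g).transpose * Cfsg.suzukiForm F * H12.Sz.mat g = Cfsg.suzukiForm F := by
    intro g
    induction g using H12.Sz.induction_on with
    | hu a b =>
      ext i j
      fin_cases i <;> fin_cases j <;>
        simp [H12.Sz.uM, Cfsg.suzukiForm, Matrix.mul_apply, Fin.sum_univ_four, H12.Sz.ff] <;> grind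
    | hh' k =>
      have hk : (k : F) ≠ 0 := k.ne_zero
      have hk' : H12.Sz.th (k : F) ≠ 0 := by simpa using hk
      ext i j
      fin_cases i <;> fin_cases j <;>
        simp [H12.Sz.hM, Cfsg.suzukiForm, Matrix.mul_apply, Fin.sum_univ_four] <;> field_simp
    | hw =>
      ext i j
      fin_cases i <;> fin_cases j <;>
        simp [H12.Sz.wM, Cfsg.suzukiForm, Matrix.mul_apply, Fin.sum_univ_four]
    | hmul x y hx hy =>
      rw [H12.Sz.mat_mul, Matrix.transpose_mul]
      calc _ = (H12.Sz.mat y).transpose * ((H12.Sz.mat x).transpose * Cfsg.suzukiForm F * H12.Sz.mat x) *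
            H12.Sz.mat y := by simp only [Matrix.mul_assoc]
        _ = _ := by rw [hx, hy]
  exact key ⟨g, hg⟩

end Cfsg.Agent.S0334
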