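import Mathlib
import Cfsg.Statements.S0335
import Cfsg.Agent.H12.Sz2

set_option autoImplicit false
open Cfsg

namespace Cfsg.Agent.S0335

/-- The Suzuki–Tits point set is an ovoid: any three distinct points of it are projectively independent
(no line of projective 3-space meets it in more than two points). -/
theorem result {F : Type*} [Field F] [Fintype F] {m : ℕ} (hm : 1 ≤ m)
    (hF : Fintype.card F = 2 ^ (2 * m + 1)) (p : Fin 3 ↪ Cfsg.suzukiOvoid F m) :
    Projectivization.Independent (fun i => (p i : Projectivization F (Fin 4 → F))) := by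
  haveI : H12.Sz.SzF F m := ⟨hm, hF⟩
  obtain ⟨g, g0, g1⟩ := H12.Sz.exists_two (p.injective.ne (show (0 : Fin 3) ≠ 1 by decide))
  rcases H12.Sz.ov_cases (g⁻¹ • p 2) with e | ⟨x, y, e⟩
  · rw [inv_smul_eq_iff, g0] at e
    exact absurd (p.injective e) (by decide)
  rw [inv_smul_eq_iff] at e
  have hxy : ¬ (x = 0 ∧ y = 0) := by
    rintro ⟨rfl, rfl⟩
    rw [g1] at e
    exact absurd (p.injective e) (by decide)
  let v : Fin 3 → Fin 4 → F := ![![1, 0, 0, 0], H12.Sz.vec 0 0, H12.Sz.vec x y]
  have hv : LinearIndependent F v := by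
    rw [Fintype.linearIndependent_iff]
    intro c hc
    have h0 := congrFun hc 0
    have h1 := congrFun hc 1
    have h2 := congrFun hc 2
    have h3 := congrFun hc 3
    simp [v, Fin.sum_univ_three, H12.Sz.vec] at h0 h1 h2 h3
    have c2 : c 2 = 0 := by tauto
    intro i
    fin_cases i <;> simp_all
  have hinj : LinearMap.ker (Matrix.mulVecLin (H12.Sz.mat g)) = ⊥ := by
    rw [LinearMap.ker_eq_bot']
    intro u hu
    by_contra h
    exact H12.Sz.mulVec_ne g h hu
  have hv' := hv.map' _ hinj
  have := Projectivization.Independent.mk _ (fun i => hv'.ne_zero i) hv'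
  convert this using 2 with i
  fin_cases i
  · exact (congrArg Subtype.val g0).symm
  · exact (congrArg Subtype.val g1).symm
  · exact congrArg Subtype.val e

end Cfsg.Agent.S0335
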