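import Mathlib
import Cfsg.Statements.S0740
import Cfsg.Agent.H18.Sharp2

set_option autoImplicit false
open scoped Pointwise
open Cfsg

namespace Cfsg.Agent.S0740

theorem fixed_mod {G Ω : Type*} [Group G] [MulAction G Ω] [Fintype Ω] (s : G) (hs : orderOf s = 2) :
    Fintype.card Ω ≡ Nat.card (MulAction.fixedBy Ω s) [MOD 2] := by
  have : Fact (Nat.Prime 2) := ⟨Nat.prime_two⟩
  have h := (H18.isPGroup_zpowers_of_orderOf hs).card_modEq_card_fixedPoints Ω
  rw [Nat.card_eq_fintype_card] at h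
  convert h using 3
  ext x
  rw [MulAction.mem_fixedBy, MulAction.mem_fixedPoints]
  constructor
  · intro hx k
    have : Subgroup.zpowers s ≤ MulAction.stabilizer G x := by simpa using hx
    exact this k.2
  · intro h; exact h ⟨s, Subgroup.mem_zpowers s⟩

theorem fixed_le {G Ω : Type*} [Group G] [MulAction G Ω] [Fintype Ω] (hZ : Cfsg.IsZassenhausGroup G Ω)
    (s : G) (hs : s ≠ 1) : Nat.card (MulAction.fixedBy Ω s) ≤ 2 := by
  by_contra! h
  rw [Nat.card_coe_set_eq, Set.two_lt_ncard_iff] at h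
  obtain ⟨a, b, c, ha, hb, hc, hab, hac, hbc⟩ := h
  exact hs (hZ.2.2.1 s a b c hab hbc hac ha hb hc)

theorem conj_swap {G Ω : Type*} [Group G] [MulAction G Ω] (hZ : Cfsg.IsZassenhausGroup G Ω)
    {a b : Ω} (hab : a ≠ b) (t : G) (ht : orderOf t = 2) :
    ∃ g : G, (g * t * g⁻¹) • a = b ∧ (g * t * g⁻¹) • b = a := by
  have := hZ.1
  have ht1 : t ≠ 1 := by rintro rfl; simp at ht
  have ht2 : t * t = 1 := by rw [← pow_two, ← ht, pow_orderOf_eq_one]
  obtain ⟨u, hu⟩ : ∃ u : Ω, t • u ≠ u := by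
    by_contra! h
    exact ht1 (FaithfulSMul.eq_of_smul_eq_smul (α := Ω) fun a => by rw [h a, one_smul])
  obtain ⟨g, rfl, rfl⟩ := H18.mt_two_iff.1 hZ.2.1 u (t • u) a b hu.symm hab
  refine ⟨g, by simp [mul_smul], ?_⟩
  rw [mul_smul, mul_smul, inv_smul_smul, ← mul_smul t, ht2, one_smul]

/-- In a finite Zassenhaus group any two points `a ≠ b` are swapped by an involution; every such involution has exactly one fixed point when the degree is odd and 0 or 2 fixed points when the degree is even; and if the two-point stabiliser has even order, some such involution has exactly 2 fixed points. -/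
theorem result {G Ω : Type*} [Group G] [Finite G] [MulAction G Ω] [Fintype Ω] (hZ : Cfsg.IsZassenhausGroup G Ω) {a b : Ω} (hab : a ≠ b) : (∃ s : G, orderOf s = 2 ∧ s • a = b ∧ s • b = a) ∧ (∀ s : G, orderOf s = 2 → s • a = b → s • b = a → (Odd (Fintype.card Ω) → Nat.card (MulAction.fixedBy Ω s) = 1) ∧ (Even (Fintype.card Ω) → Nat.card (MulAction.fixedBy Ω s) = 0 ∨ Nat.card (MulAction.fixedBy Ω s) = 2)) ∧ (Even (Fintype.card Ω) → Even (Nat.card ↥(MulAction.stabilizer G a ⊓ MulAction.stabilizer G b)) → ∃ s : G, orderOf s = 2 ∧ s • a = b ∧ s • b = a ∧ Nat.card (MulAction.fixedBy Ω s) = 2) := by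
  have : Fact (Nat.Prime 2) := ⟨Nat.prime_two⟩
  refine ⟨?_, fun s hs _ _ => ?_, fun hev hH => ?_⟩
  · obtain ⟨n, hn1, hn2⟩ := H18.mt_two_iff.1 hZ.2.1 a b b a hab hab.symm
    have h2 : 2 ∣ Nat.card G := by
      refine Dvd.dvd.trans ?_ (orderOf_dvd_natCard n)
      by_contra h
      obtain ⟨i, hi⟩ : Odd (orderOf n) := Nat.odd_iff.2 (by omega)
      have hsw : ∀ i : ℕ, (n ^ (2 * i + 1)) • a = b := by
        intro i
        induction i with
        | zero => simpa using hn1
        | succ i ih =>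
          rw [show 2 * (i + 1) + 1 = (2 * i + 1) + 1 + 1 by ring, pow_succ, pow_succ, mul_smul, mul_smul,
            hn1, hn2, ih]
      have := hsw i
      rw [← hi, pow_orderOf_eq_one, one_smul] at this
      exact hab this
    obtain ⟨t, ht⟩ := exists_prime_orderOf_dvd_card' 2 h2
    obtain ⟨g, hg⟩ := conj_swap hZ hab t ht
    exact ⟨_, ((MulAut.conj g).orderOf_eq t).trans ht, hg⟩
  · have h1 := fixed_mod (Ω := Ω) s hs
    have h2 := fixed_le hZ s (by rintro rfl; simp at hs)
    unfold Nat.ModEq at h1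
    constructor
    · intro h; rw [Nat.odd_iff] at h; omega
    · intro h; rw [Nat.even_iff] at h; omega
  · obtain ⟨⟨t, hta, htb⟩, ht⟩ := exists_prime_orderOf_dvd_card' 2 hH.two_dvd
    have ht' : orderOf t = 2 := by rw [← ht]; exact (Subgroup.orderOf_mk _ _).symm
    obtain ⟨g, hg⟩ := conj_swap hZ hab t ht'
    have ho : orderOf (g * t * g⁻¹) = 2 := ((MulAut.conj g).orderOf_eq t).trans ht'
    refine ⟨_, ho, hg.1, hg.2, le_antisymm (fixed_le hZ _ (by intro h; simp [h] at ho)) ?_⟩
    rw [Nat.card_coe_set_eq]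
    refine (Set.one_lt_ncard_iff).2 ⟨g • a, g • b, ?_, ?_, fun h => hab (smul_left_cancel g h)⟩
    · rw [MulAction.mem_fixedBy, mul_smul, mul_smul, inv_smul_smul, MulAction.mem_stabilizer_iff.1 hta]
    · rw [MulAction.mem_fixedBy, mul_smul, mul_smul, inv_smul_smul, MulAction.mem_stabilizer_iff.1 htb]

end Cfsg.Agent.S0740
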