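import Mathlib
import Cfsg.Statements.S0338
import Cfsg.Agent.H18.Zass
import Cfsg.Agent.S0740

set_option autoImplicit false
open scoped Pointwise
open Cfsg

namespace Cfsg.Agent.S0338

/-- A Zassenhaus group of odd degree is a simple group. -/
theorem result {G Ω : Type*} [Group G] [MulAction G Ω] [Fintype Ω]
    (hZ : Cfsg.IsZassenhausGroup G Ω) (hodd : Odd (Fintype.card Ω)) : IsSimpleGroup G := by
    classical
    have := H18.zass_finite hZ
    have h := H18.Z3.of_zass hZ
    obtain ⟨g, hg1, a, b, hab, -⟩ := hZ.2.2.2.1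
    have : Nontrivial G := ⟨⟨g, 1, hg1⟩⟩
    refine ⟨fun N hN => ?_⟩
    rw [or_iff_not_imp_left]
    intro hN1
    obtain ⟨F, hF⟩ := H18.zass_exists_ker hZ a
    obtain ⟨c, hca, hcb⟩ := H07.Zass.exists_third hZ hab
    refine hF.hom_eq_one h hab hca.symm hcb.symm N (H18.zass_ker_le_normal hZ N hN1 hF) ?_
    obtain ⟨⟨s, hs, s1, s2⟩, h2, -⟩ := Cfsg.Agent.S0740.result (H18.zass_normal hZ N hN1) hab
    have h3 := (h2 s hs s1 s2).1 hodd
    obtain ⟨⟨o, ho⟩, hu⟩ := Nat.card_eq_one_iff_exists.1 h3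
    have ho : (s : G) • o = o := ho
    have s1 : (s : G) • a = b := s1
    have s2 : (s : G) • b = a := s2
    have hs2 : (s : G) * s = 1 := h.swap_sq hab s1 s2 ho
    have hfp : H18.st2 G a b ⊓ Subgroup.centralizer {(s : G)} = ⊥ := by
      rw [H02.fpf_iff]
      intro x hx e
      refine h.three x a b o hab (fun e => hab (by rw [← s1, e, ho])) (fun e => hab (by rw [← s2, e, ho]))
        hx.1 hx.2 ?_
      exact congrArg Subtype.val (hu ⟨x • o, show (s : G) • x • o = x • o by
        rw [← mul_smul, e, mul_smul, ho]⟩)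
    have hsn : (s : G) ∈ Subgroup.normalizer (H18.st2 G a b : Set G) :=
      (H07.Zass.mem_normalizer_two_iff hZ hab s).2 (Or.inr ⟨s1, s2⟩)
    intro x hx
    obtain ⟨y, -, e⟩ := H02.fpf_exists_conj_eq hsn hfp hx
    have := hN.conj_mem _ s.2 y
    rw [e] at this
    simpa using N.mul_mem this (N.inv_mem s.2)

end Cfsg.Agent.S0338
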