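import Mathlib
import Cfsg.Statements.S0341
import Cfsg.Agent.H18.Sharp2
import Cfsg.Agent.H24.Wielandt
import Cfsg.Agent.H02.Basic
import Cfsg.Agent.S0035

set_option autoImplicit false
open Cfsg

namespace Cfsg.Agent.S0341

/-- If a finite group acts faithfully and doubly transitively, no non-identity element fixes three points, some
non-identity element fixes two points, and some normal subgroup acts regularly, then the number of points
is `2^p` with `p` prime. -/
theorem result {G Ω : Type*} [Group G]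
    [MulAction G Ω] [Fintype Ω] [FaithfulSMul G Ω] (h2 : MulAction.IsMultiplyPretransitive G Ω 2)
    (h3 : ∀ g : G, ∀ a b c : Ω, a ≠ b → b ≠ c → a ≠ c → g • a = a → g • b = b → g • c = c → g = 1)
    (hfix : ∃ g : G, g ≠ 1 ∧ ∃ a b : Ω, a ≠ b ∧ g • a = a ∧ g • b = b)
    (N : Subgroup G) [N.Normal] (hNt : MulAction.IsPretransitive N Ω)
    (hNr : ∀ a : Ω, MulAction.stabilizer N a = ⊥) :
    ∃ p : ℕ, p.Prime ∧ Fintype.card Ω = 2 ^ p := by
  classical
  haveI : Finite G := Finite.of_injective (MulAction.toPermHom G Ω) MulAction.toPerm_injective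
  obtain ⟨g, hg1, a, b, hab, hga, hgb⟩ := hfix
  have hN1 : ∀ n ∈ N, ∀ x : Ω, n • x = x → n = 1 := by
    intro n hn x hx
    have : (⟨n, hn⟩ : N) ∈ MulAction.stabilizer N x := hx
    rw [hNr x, Subgroup.mem_bot] at this
    exact congrArg Subtype.val this
  have hfaith : ∀ x : G, x ≠ 1 → ∃ c : Ω, x • c ≠ c := by
    intro x hx
    by_contra! h
    exact hx (FaithfulSMul.eq_of_smul_eq_smul (α := Ω) fun c => by rw [h c, one_smul])
  have hn3 : 2 < Fintype.card Ω := by
    obtain ⟨c, hc⟩ := hfaith g hg1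
    refine Fintype.two_lt_card_iff.2 ⟨a, b, c, hab, ?_, ?_⟩
    · rintro rfl; exact hc hga
    · rintro rfl; exact hc hgb
  obtain ⟨p, j, hp, hj, hcard, V, hVn, hVN, hVc, hVp, hVt, -, hVr, hVP, -⟩ :=
    H18.frob_normal_struct h2 (by omega) N hNt (fun n hn x y _ hx _ => hN1 n hn x hx)
  have hV1 : ∀ n ∈ V, ∀ x : Ω, n • x = x → n = 1 := fun n hn => hN1 n (hVN hn)
  have hVcard : Nat.card V = Fintype.card Ω := by
    have := (MulAction.stabilizer V a).card_mul_index
    rw [MulAction.index_stabilizer_of_transitive V a, hVr a, Subgroup.card_bot, one_mul,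
      Nat.card_eq_fintype_card] at this
    exact this.symm
  have hcomm : ∀ x : G, x • a = a → ∀ v ∈ V, (v * x = x * v ↔ x • v • a = v • a) := by
    intro x hx v hv
    constructor
    · intro h
      rw [← mul_smul, ← h, mul_smul, hx]
    · intro h
      have := hV1 (v⁻¹ * (x * v * x⁻¹)) (V.mul_mem (V.inv_mem hv) (hVn.conj_mem v hv x)) a (by
        rw [mul_smul, mul_smul, mul_smul, inv_smul_eq_iff.2 hx.symm, h, inv_smul_smul])
      rw [inv_mul_eq_one] at this
      exact (eq_mul_inv_iff_mul_eq.1 this)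
  obtain ⟨r, hr, hrd⟩ := Nat.exists_prime_and_dvd (n := orderOf g) (by rwa [Ne, orderOf_eq_one_iff])
  set h : G := g ^ (orderOf g / r) with hh
  have hho : orderOf h = r := orderOf_pow_orderOf_div (orderOf_pos g).ne' hrd
  have hh1 : h ≠ 1 := by
    intro e
    rw [e, orderOf_one] at hho
    exact hr.one_lt.ne hho
  have hha : h • a = a := (MulAction.stabilizer G a).pow_mem hga _
  have hhb : h • b = b := (MulAction.stabilizer G b).pow_mem hgb _
  have hfixab : ∀ x : G, x ≠ 1 → x • a = a → x • b = b → ∀ c : Ω, x • c = c → c = a ∨ c = b := by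
    intro x hx hxa hxb c hc
    by_contra! hc'
    exact hx (h3 x a b c hab hc'.2.symm hc'.1.symm hxa hxb hc)
  obtain ⟨⟨w, hw⟩, hwa⟩ := MulAction.exists_smul_eq V a b
  have hwa : w • a = b := hwa
  have hw1 : w ≠ 1 := by
    rintro rfl
    exact hab (by rw [← hwa, one_smul])
  have hC : Nat.card (V ⊓ Subgroup.centralizer ((Subgroup.zpowers h : Subgroup G) : Set G) : Subgroup G) = 2 := by
    rw [H24.centralizer_zpowers, Nat.card_eq_two_iff]
    have hwC : w ∈ V ⊓ Subgroup.centralizer ({h} : Set G) :=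
      ⟨hw, Subgroup.mem_centralizer_singleton_iff.2 ((hcomm h hha w hw).2 (by rw [hwa, hhb]))⟩
    refine ⟨1, ⟨w, hwC⟩, fun e => hw1 (congrArg Subtype.val e).symm, ?_⟩
    rw [Set.eq_univ_iff_forall]
    rintro ⟨v, hv, hv'⟩
    have := (hcomm h hha v hv).1 (Subgroup.mem_centralizer_singleton_iff.1 hv')
    rcases hfixab h hh1 hha hhb _ this with e | e
    · exact Or.inl (Subtype.ext (hV1 v hv a e))
    · refine Or.inr (Subtype.ext ?_)
      have := hV1 (w⁻¹ * v) (V.mul_mem (V.inv_mem hw) hv) a (by rw [mul_smul, e, ← hwa, inv_smul_smul])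
      exact (inv_mul_eq_one.1 this).symm
  have hp2 : p = 2 := by
    have h1 : 2 ∣ p ^ j := by
      rw [← hcard, ← hVcard, ← hC]
      exact Subgroup.card_dvd_of_le inf_le_left
    exact ((Nat.prime_dvd_prime_iff_eq Nat.prime_two hp).1 (Nat.prime_two.dvd_of_dvd_pow h1)).symm
  subst hp2
  by_cases hr2 : r = 2
  · subst hr2
    refine ⟨2, Nat.prime_two, ?_⟩
    have hh2 : h * h = 1 := by rw [← pow_two, ← hho, pow_orderOf_eq_one]
    let φ : V →* V :=
      { toFun := fun v => v * ⟨h * v * h⁻¹, hVn.conj_mem v v.2 h⟩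
        map_one' := by ext; simp
        map_mul' := fun x y => by
          have := hVc.is_comm.comm y ⟨h * x * h⁻¹, hVn.conj_mem x x.2 h⟩
          have e : (y : G) * (h * x * h⁻¹) = (h * x * h⁻¹) * y := congrArg Subtype.val this
          ext
          change (x : G) * y * (h * (x * y) * h⁻¹) = x * (h * x * h⁻¹) * (y * (h * y * h⁻¹))
          calc (x : G) * y * (h * (x * y) * h⁻¹) = x * (y * (h * x * h⁻¹)) * (h * y * h⁻¹) := by group
            _ = _ := by rw [e]; group }
    let C : Subgroup G := V ⊓ Subgroup.centralizer ((Subgroup.zpowers h : Subgroup G) : Set G)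
    have hCc : Nat.card (C.subgroupOf V) = 2 := by
      rw [← hC]
      exact Nat.card_congr (Subgroup.subgroupOfEquivOfLe inf_le_left).toEquiv
    have hmem : ∀ v : V, h * v * h⁻¹ = v → v ∈ C.subgroupOf V := by
      intro v hv
      refine ⟨v.2, ?_⟩
      rw [H24.centralizer_zpowers]
      exact Subgroup.mem_centralizer_singleton_iff.2 (mul_inv_eq_iff_eq_mul.1 hv).symm
    have h1 : φ.ker ≤ C.subgroupOf V := by
      intro v hv
      apply hmem
      have e1 : (v : G) * (h * v * h⁻¹) = 1 := congrArg Subtype.val hv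
      have e2 : (v : G) * v = 1 := by rw [← pow_two]; exact hVp v v.2
      exact mul_left_cancel (e1.trans e2.symm)
    have h2' : φ.range ≤ C.subgroupOf V := by
      rintro _ ⟨v, rfl⟩
      apply hmem
      have := congrArg Subtype.val (hVc.is_comm.comm v ⟨h * v * h⁻¹, hVn.conj_mem v v.2 h⟩)
      change h * (v * (h * v * h⁻¹)) * h⁻¹ = v * (h * v * h⁻¹)
      have hi : h⁻¹ = h := inv_eq_of_mul_eq_one_right hh2
      change (v : G) * (h * v * h⁻¹) = (h * v * h⁻¹) * v at this
      rw [this]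
      calc h * (h * v * h⁻¹ * v) * h⁻¹ = (h * h) * v * (h⁻¹ * v * h⁻¹) := by group
        _ = v * (h * v * h⁻¹) := by rw [hh2, one_mul, hi]
        _ = h * v * h⁻¹ * v := this
    have e1 := φ.ker.card_mul_index
    rw [Subgroup.index_ker, hVcard] at e1
    have e2 := Subgroup.card_le_of_le h1
    have e3 := Subgroup.card_le_of_le h2'
    rw [hCc] at e2 e3
    have e4 : Fintype.card Ω ≤ 4 := by
      rw [← e1]
      exact Nat.mul_le_mul e2 e3
    have e5 : 2 ∣ Fintype.card Ω := by
      rw [hcard]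
      exact dvd_pow_self 2 (by omega)
    omega
  refine ⟨r, hr, ?_⟩
  let X : Subgroup G := MulAction.stabilizer G a
  let H : Subgroup X := MulAction.stabilizer X b
  have h2' := H18.mt_two_iff.1 h2
  have hF : Cfsg.IsFrobeniusComplement H := by
    refine ⟨fun e => ?_, fun e => ?_, fun x hx => ?_⟩
    · have : (⟨g, hga⟩ : X) ∈ H := hgb
      rw [e, Subgroup.mem_bot] at this
      exact hg1 (congrArg Subtype.val this)
    · obtain ⟨c, hc⟩ := hfaith g hg1
      have hac : a ≠ c := by rintro rfl; exact hc hga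
      obtain ⟨x, hx1, hx2⟩ := h2' a b a c hab hac
      have : (⟨x, hx1⟩ : X) ∈ H := e ▸ Subgroup.mem_top _
      have e' : x • b = b := this
      rw [← hx2, e'] at hc
      exact hc hgb
    · rw [eq_bot_iff]
      rintro y ⟨hy, z, hz, rfl⟩
      have hy' : ((x : G) * z * (x : G)⁻¹) • b = b := hy
      have hz' : (z : G) • b = b := hz
      have hxa : (x : G) • a = a := x.2
      refine Subgroup.mem_bot.2 (Subtype.ext (h3 _ a b ((x : G) • b) hab (fun e => hx e.symm)
        (fun e => hab (smul_left_cancel (x : G) (hxa.trans e))) (x * z * x⁻¹).2 hy' ?_))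
      change ((x : G) * z * (x : G)⁻¹) • (x : G) • b = (x : G) • b
      rw [mul_smul, mul_smul, inv_smul_smul, hz']
  obtain ⟨K, hK, hKn, hKc⟩ := Cfsg.Agent.S0035.result H hF
  let K' : Subgroup G := K.map X.subtype
  have hKa : ∀ k ∈ K', k • a = a := by
    rintro _ ⟨k, -, rfl⟩
    exact k.2
  have hKfix : ∀ k ∈ K', ∀ c : Ω, c ≠ a → k • c = c → k = 1 := by
    rintro _ ⟨k, hk, rfl⟩ c hc hkc
    have hk' : k ∈ Cfsg.frobeniusKernel H := hK ▸ hk
    rcases hk' with e | e
    · rw [e]; rfl
    · exfalso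
      obtain ⟨x, hx1, hx2⟩ := h2' a b a c hab hc.symm
      apply e ⟨x, hx1⟩
      refine ⟨(⟨x, hx1⟩ : X)⁻¹ * k * ⟨x, hx1⟩, ?_, by simp [mul_assoc]⟩
      change (x⁻¹ * k * x) • b = b
      have hkc' : (k : G) • c = c := hkc
      rw [mul_smul, mul_smul, hx2, hkc', ← hx2, inv_smul_smul]
  have hKcard : Nat.card K' + 1 = Fintype.card Ω := by
    rw [Subgroup.card_map_of_injective X.subtype_injective, ← hKc.index_eq_card,
      MulAction.index_stabilizer]
    have : MulAction.orbit X b = {a}ᶜ := by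
      ext c
      constructor
      · rintro ⟨x, rfl⟩ e
        have hxa : (x : G) • a = a := x.2
        exact hab (smul_left_cancel (x : G) (hxa.trans (e : (x : G) • b = a).symm))
      · intro hc
        obtain ⟨x, hx1, hx2⟩ := h2' a b a c hab (Ne.symm hc)
        exact ⟨⟨x, hx1⟩, hx2⟩
    rw [this, ← Set.ncard_singleton a, add_comm, Set.ncard_add_ncard_compl, Nat.card_eq_fintype_card]
  have hRN : Subgroup.zpowers h ≤ Subgroup.normalizer (K' : Set G) := by
    rw [Subgroup.zpowers_le]
    have : X ≤ Subgroup.normalizer (K' : Set G) := by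
      have := Subgroup.le_normalizer_map (H := K) X.subtype
      rwa [Subgroup.normalizer_eq_top, ← MonoidHom.range_eq_map, Subgroup.range_subtype] at this
    exact this hha
  have hfpf : ∀ ρ ∈ Subgroup.zpowers h, ρ ≠ 1 → K' ⊓ Subgroup.centralizer {ρ} = ⊥ := by
    intro ρ hρ hρ1
    have hρa : ρ • a = a := (Subgroup.zpowers_le.2 (show h ∈ MulAction.stabilizer G a from hha)) hρ
    have hρb : ρ • b = b := (Subgroup.zpowers_le.2 (show h ∈ MulAction.stabilizer G b from hhb)) hρ
    rw [eq_bot_iff]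
    rintro k ⟨hk, hk'⟩
    have e := Subgroup.mem_centralizer_singleton_iff.1 hk'
    have : ρ • k • b = k • b := by rw [← mul_smul, ← e, mul_smul, hρb]
    rcases hfixab ρ hρ1 hρa hρb _ this with e' | e'
    · exact absurd (smul_left_cancel k ((hKa k hk).trans e'.symm)) hab
    · exact hKfix k hk b hab.symm e'
  have heven : 2 ∣ Fintype.card Ω := by
    rw [hcard]
    exact dvd_pow_self 2 (by omega)
  have hcop : (Nat.card (K' ⊔ Subgroup.zpowers h : Subgroup G)).Coprime (Nat.card V) := by
    rw [hVcard, hcard, sup_comm]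
    refine Nat.Coprime.pow_right _ (Nat.Coprime.coprime_dvd_left (H02.card_sup_dvd_mul hRN) ?_)
    rw [Nat.card_zpowers, hho]
    refine Nat.Coprime.mul_left ((Nat.coprime_primes hr Nat.prime_two).2 hr2) ?_
    rw [Nat.coprime_two_right, Nat.odd_iff]
    omega
  haveI : Group.IsSolvable V := Group.isSolvable_of_comm fun x y => hVc.is_comm.comm x y
  have hW := H24.wielandt_card (K := K') (R := Subgroup.zpowers h) (H := V) hRN hfpf
    Subgroup.le_normalizer_of_normal hcop
  have hCK : V ⊓ Subgroup.centralizer (K' : Set G) = ⊥ := by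
    obtain ⟨k, hk, hk1⟩ : ∃ k ∈ K', k ≠ 1 := by
      by_contra! e
      rw [(Subgroup.eq_bot_iff_forall K').2 e, Subgroup.card_bot] at hKcard
      omega
    rw [eq_bot_iff]
    rintro v ⟨hv, hv'⟩
    have := (hcomm k (hKa k hk) v hv).1 (hv' k hk).symm
    by_cases e : v • a = a
    · exact hV1 v hv a e
    · exact absurd (hKfix k hk _ e this) hk1
  have hCK' : V ⊓ Subgroup.centralizer ((K' ⊔ Subgroup.zpowers h : Subgroup G) : Set G) = ⊥ :=
    le_bot_iff.1 (hCK ▸ inf_le_inf_left _ (Subgroup.centralizer_le (SetLike.coe_subset_coe.2 le_sup_left)))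
  rw [hCK, hCK', hC, Subgroup.card_bot, one_pow, one_mul, mul_one, Nat.card_zpowers, hho, hVcard] at hW
  exact hW

end Cfsg.Agent.S0341
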