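import Mathlib
import Cfsg.Statements.S0345
import Cfsg.Agent.H18.Sharp3Even
import Cfsg.Agent.S0740

set_option autoImplicit false
open scoped Pointwise
open Cfsg

namespace Cfsg.Agent.S0345

/-- In a finite simple Zassenhaus group the stabiliser `H` of two points `a ≠ b` is cyclic, and some involution
interchanging `a` and `b` inverts every element of `H`. -/
theorem result {G Ω : Type*} [Group G] [Finite G] [MulAction G Ω] [Finite Ω]
    (hZ : Cfsg.IsZassenhausGroup G Ω) [IsSimpleGroup G]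
    {a b : Ω} (hab : a ≠ b) :
    IsCyclic ↥(MulAction.stabilizer G a ⊓ MulAction.stabilizer G b) ∧
      ∃ v : G, orderOf v = 2 ∧ v • a = b ∧ v • b = a ∧ ∀ h ∈ MulAction.stabilizer G a ⊓ MulAction.stabilizer G b, v * h * v⁻¹ = h⁻¹ := by
  have := Fintype.ofFinite Ω
  obtain ⟨F, hF⟩ := H18.zass_exists_ker hZ a
  have h := H18.Z3.of_zass hZ
  have hp := H18.zass_simple_perfect hZ
  obtain ⟨h1, h2⟩ : (∀ x ∈ H18.st2 G a b, ∀ y ∈ H18.st2 G a b, x * y = y * x) ∧
      ∀ t : G, t • a = b → t • b = a → t * t = 1 ∧ ∀ x ∈ H18.st2 G a b, t * x * t⁻¹ = x⁻¹ := by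
    rcases Nat.even_or_odd (Nat.card (H18.st2 G a b)) with heven | hodd
    · obtain ⟨-, h1, h2, -⟩ := hF.inverts_of_even_half h hab heven.two_dvd
        (H18.zass_perfect_even hZ hp hab heven.two_dvd)
      exact ⟨h2, h1⟩
    · exact H18.zass_inverts_of_odd hZ hp hab hodd
  obtain ⟨⟨s, hs, s1, s2⟩, -⟩ := Cfsg.Agent.S0740.result hZ hab
  exact ⟨hF.isCyclic_st2 h hab (H18.zass_ker_ne_bot hZ hF) h1, s, hs, s1, s2, (h2 s s1 s2).2⟩

end Cfsg.Agent.S0345
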