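import Mathlib
import Cfsg.Statements.S0346
import Cfsg.Agent.H18.Feit3
import Cfsg.Agent.H02.Thompson

set_option autoImplicit false
open scoped Pointwise
open Cfsg

namespace Cfsg.Agent.S0346

/-- The number of points of a finite simple Zassenhaus group is `p^k + 1` for some prime power `p^k` (the regular normal
subgroup of a point stabiliser is a `p`-group). -/
theorem result {G Ω : Type*} [Group G] [Finite G] [MulAction G Ω] [Fintype Ω]
    (hZ : Cfsg.IsZassenhausGroup G Ω) [IsSimpleGroup G] :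
    IsPrimePow (Fintype.card Ω - 1) := by
  have h3 := H07.Zass.three_le_card hZ
  obtain ⟨a⟩ : Nonempty Ω := Fintype.card_pos_iff.1 (by omega)
  obtain ⟨b, hab⟩ := H07.Zass.exists_ne hZ a
  obtain ⟨F, hF⟩ := H18.zass_exists_ker hZ a
  have h := H18.Z3.of_zass hZ
  have h4 := hF.card hab.symm
  rw [Nat.card_eq_fintype_card (α := Ω)] at h4
  rw [show Fintype.card Ω - 1 = Nat.card F by omega]
  have key : Fintype.card Ω - 2 ≤ 2 * Nat.card (H18.st2 G a b) → IsPrimePow (Nat.card F) := fun hd => by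
    obtain ⟨-, p, f, hp, h1, -, h2⟩ := hF.elemAb_of_large h hab (H18.zass_ker_ne_bot hZ hF) hd
    exact ⟨p, f, hp.prime, h1, h2.symm⟩
  rcases Nat.even_or_odd (Nat.card (H18.st2 G a b)) with he | he
  · exact key (hF.card_le_two_mul h hab he.two_dvd)
  rcases H18.zass_feit_simple hZ hab he hF (H02.isNilpotent_of_fpf_subgroup (hF.st2_le_normalizer b)
    (H18.zass_st2_ne_bot hZ hab) (hF.fpf h hab)) with h1 | ⟨h1, -, -⟩
  · exact key (by omega)
  · obtain ⟨m, hm⟩ := h1.exists_card_eq
    refine ⟨2, m, Nat.prime_two.prime, Nat.pos_of_ne_zero ?_, hm.symm⟩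
    rintro rfl
    omega

end Cfsg.Agent.S0346
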