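import Mathlib
import Cfsg.Statements.S0358
import Cfsg.Agent.H14.Golay

set_option autoImplicit false
open Cfsg

namespace Cfsg.Agent.S0358

/-- The length-24 code built from the squares modulo 23 has dimension 12 over the field with two elements. -/
theorem result : Module.finrank (ZMod 2) Cfsg.golayCode = 12 := by
  have h1 : Nat.card golayCode = 4096 := by
    rw [← H14.ncard_Code_univ]
    have : H14.Code.ncard = (golayCode : Set (GolayPt → ZMod 2)).ncard := by
      apply Set.ncard_image_of_injective
      intro a b h
      rw [← H14.ind_support a, h, H14.ind_support]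
    rw [this]; rfl
  have h2 := Module.natCard_eq_pow_finrank (K := ZMod 2) (V := golayCode)
  rw [h1, Nat.card_zmod] at h2
  have : 2 ^ 12 = 2 ^ Module.finrank (ZMod 2) golayCode := h2
  exact (Nat.pow_right_injective le_rfl this).symm

end Cfsg.Agent.S0358
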