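import Mathlib
import Cfsg.Statements.S0362
import Cfsg.Agent.H14.Golay

set_option autoImplicit false
open Cfsg

namespace Cfsg.Agent.S0362

/-- The length-24 code is self-orthogonal: the dot product over ZMod 2 of any two of its words vanishes (with dimension 12 this makes it self-dual). -/
theorem result (v w : Cfsg.GolayPt → ZMod 2) (hv : v ∈ Cfsg.golayCode) (hw : w ∈ Cfsg.golayCode) : ∑ i, v i * w i = 0 := by
  rw [← H14.ind_support v, ← H14.ind_support w, H14.dot_ind, ZMod.natCast_eq_zero_iff]
  exact H14.Code_even_inter (H14.support_mem_Code.2 hv) (H14.support_mem_Code.2 hw)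

end Cfsg.Agent.S0362
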