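import Mathlib
import Cfsg.Statements.S0371
import Cfsg.Agent.H14.M24Bound

set_option autoImplicit false
open Cfsg

namespace Cfsg.Agent.S0371

noncomputable def mulTab (c : ℕ) : ℕ :=
  H14.sumLt 23 (fun i => Nat.shiftLeft (Nat.mod (Nat.mul c i) 23) (Nat.mul 5 i)) + Nat.shiftLeft 23 115

theorem tab (u : (ZMod 23)ˣ) :
    H14.Tab (Equiv.optionCongr (Units.mulLeft u)) (mulTab (u : ZMod 23).val) := by
  have : ∀ x : ZMod 23, ∀ i < 24, H14.idx (Option.map (fun y => x * y) (H14.pt i)) =
      H14.ap (mulTab x.val) i := by decide +kernel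
  exact this u

/-- Multiplication by a nonzero square residue modulo 23, fixing the extra point, lies in the group of the length-24 code. -/
theorem result (u : (ZMod 23)ˣ) (hu : IsSquare u) : Equiv.optionCongr (Units.mulLeft u) ∈ Cfsg.M24 := by
  obtain ⟨v, rfl⟩ := hu
  apply (tab _).mem_M24
  have : ∀ x : ZMod 23, x ≠ 0 → H14.inM24 (mulTab (x * x).val) = true := by decide +kernel
  have hf : Fact (1 < 23) := ⟨by norm_num⟩
  exact this v v.ne_zero

end Cfsg.Agent.S0371
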