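import Mathlib
import Cfsg.Statements.S0385
import Cfsg.Agent.H14.Sextet

set_option autoImplicit false
open Cfsg

namespace Cfsg.Agent.S0385

/-- The 6-point intersections of octads with a fixed dodecad form a Steiner system S(5, 6, 12) on the dodecad. -/
theorem result (d : Finset Cfsg.GolayPt) (hd : d ∈ Cfsg.dodecads) : Cfsg.IsSteinerSystem 5 6 {h : Finset {p : Cfsg.GolayPt // p ∈ d} | ∃ o ∈ Cfsg.octads, (o ∩ d).card = 6 ∧ h = Finset.subtype (fun p => p ∈ d) o} := by
  have hc : ∀ o : Finset GolayPt, (Finset.subtype (fun p => p ∈ d) o).card = (o ∩ d).card := by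
    intro o; rw [Finset.card_subtype, Finset.filter_mem_eq_inter]
  have key : ∀ o ∈ octads, ∀ o' ∈ octads, 5 ≤ (Finset.subtype (fun p => p ∈ d) o ∩
      Finset.subtype (fun p => p ∈ d) o').card → o = o' := by
    intro o ho o' ho' h
    apply H14.octad_eq_of_five ho ho'
    have : Finset.subtype (fun p => p ∈ d) o ∩ Finset.subtype (fun p => p ∈ d) o' =
        Finset.subtype (fun p => p ∈ d) (o ∩ o') := by ext x; simp
    rw [this, hc] at h
    exact h.trans (Finset.card_le_card Finset.inter_subset_left)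
  apply H14.steiner_of_count
  · rintro _ ⟨o, -, h, rfl⟩; rw [hc, h]
  · rintro _ ⟨o, ho, -, rfl⟩ _ ⟨o', ho', -, rfl⟩ h
    rw [key o ho o' ho' h]
  · have e : {h : Finset {p : GolayPt // p ∈ d} | ∃ o ∈ octads, (o ∩ d).card = 6 ∧
        h = Finset.subtype (fun p => p ∈ d) o} = (Finset.subtype (fun p => p ∈ d)) ''
          {s | s ∈ H14.Code ∧ s.card = 8 ∧ (d ∩ s).card = 6} := by
      ext h
      simp only [Set.mem_ofPred_eq, Set.mem_image, H14.mem_octads, Finset.inter_comm d, and_assoc,
        eq_comm (a := h)]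
    rw [e, Set.ncard_image_of_injOn]
    · change H14.cntI 8 6 d * _ = _
      rw [H14.cntI_dodecad hd, H14.cntI_toSet, Fintype.card_coe, hd.2]
      decide +kernel
    · intro o ho o' ho' h
      apply key o ⟨ho.1, ho.2.1⟩ o' ⟨ho'.1, ho'.2.1⟩
      rw [← h, Finset.inter_self, hc, Finset.inter_comm, ho.2.2]; norm_num

end Cfsg.Agent.S0385
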