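import Mathlib
import Cfsg.Statements.S0403
import Cfsg.Agent.H14.Co3b

set_option autoImplicit false
open Cfsg

namespace Cfsg.Agent.S0403

/-- Stabiliser of a vector of sum of squares 48 is simple of order 495766656000. -/
theorem result (v : Cfsg.leechLattice) (hv : Cfsg.sqNorm (v : Cfsg.GolayPt → ℤ) = 48) : Cfsg.IsCo3 (MulAction.stabilizer Cfsg.Co0 v) := by
  obtain ⟨g, e⟩ := H14.t3_to_V v hv
  obtain ⟨f⟩ := H14.stab_equiv g v
  rw [e] at f
  have := H14.simple_G3
  exact ⟨f.symm.isSimpleGroup, (Nat.card_congr f.toEquiv).symm.trans H14.card_stab_V⟩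

end Cfsg.Agent.S0403
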