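import Mathlib
import Cfsg.Statements.S0405
import Cfsg.Agent.H14.Conf

set_option autoImplicit false
open Cfsg

namespace Cfsg.Agent.S0405

/-- Joint stabiliser of two vectors of sum of squares 48 with coordinate dot product −32 is simple of order 44352000. -/
theorem result (v w : Cfsg.leechLattice) (hv : Cfsg.sqNorm (v : Cfsg.GolayPt → ℤ) = 48) (hw : Cfsg.sqNorm (w : Cfsg.GolayPt → ℤ) = 48) (hvw : Cfsg.dotInt (v : Cfsg.GolayPt → ℤ) (w : Cfsg.GolayPt → ℤ) = -32) : Cfsg.IsHS ↥(MulAction.stabilizer Cfsg.Co0 v ⊓ MulAction.stabilizer Cfsg.Co0 w) := by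
  obtain ⟨f⟩ := H14.equiv_GH hv hw hvw
  have := H14.simple_GH
  exact ⟨f.isSimpleGroup, (Nat.card_congr f.toEquiv).trans H14.card_GH⟩

end Cfsg.Agent.S0405
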