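import Mathlib
import Cfsg.Statements.S0414
import Cfsg.Agent.H14.Witt

set_option autoImplicit false
open Cfsg

namespace Cfsg.Agent.S0414

open scoped Pointwise

/-- Aut of an S(3, 6, 22) has order 887040, is 3-transitive, and contains a simple subgroup of index 2. -/
theorem result {α : Type*} [Fintype α] [DecidableEq α] (hα : Fintype.card α = 22) {B : Set (Finset α)} (hB : Cfsg.IsSteinerSystem 3 6 B) : Nat.card (Cfsg.setSystemAut B) = 887040 ∧ MulAction.IsMultiplyPretransitive (Cfsg.setSystemAut B) α 3 ∧ ∃ H : Subgroup (Cfsg.setSystemAut B), H.index = 2 ∧ Cfsg.IsM22 H := by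
  obtain ⟨⟨f⟩, h⟩ := H14.Sr.aut22 hα hB
  have hle : Spor.M22 ≤ M24 ⊓ MulAction.stabilizer _ (H14.toSet 0x800001) := fun g hg => ⟨hg.1.1, H14.Sr.smul_eq_of_fix fun p hp => by
    rw [H14.Sr.set22, Finset.mem_insert, Finset.mem_singleton] at hp
    rcases hp with rfl | rfl
    exacts [hg.1.2, hg.2]⟩
  have e := (Subgroup.subgroupOfEquivOfLe hle).symm.trans (f.subgroupMap _)
  have c := (Nat.card_congr e.toEquiv).symm.trans H14.card_M22
  have := H14.simple_M22
  refine ⟨H14.Sr.card_aut22 hα hB, h, _, ?_, e.symm.isSimpleGroup, c⟩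
  exact Nat.eq_of_mul_eq_mul_right (by norm_num : 0 < 443520) (((congrArg _ c).symm.trans (Subgroup.index_mul_card _)).trans
    (H14.Sr.card_aut22 hα hB))

end Cfsg.Agent.S0414
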