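import Mathlib
import Cfsg.Statements.S0420
import Cfsg.Agent.H19.M11c
import Cfsg.Agent.H14.MSimple

set_option autoImplicit false
open scoped Pointwise
open Cfsg

namespace Cfsg.Agent.S0420

/-- Simple groups of order 7920 are all isomorphic to the concrete smallest Mathieu group. -/
theorem result {G : Type*} [Group G] [Finite G] (hG : Cfsg.IsM11 G) (d : Finset Cfsg.GolayPt) (hd : d ∈ Cfsg.dodecads) (p : Cfsg.GolayPt) (hp : p ∈ d) : Nonempty (G ≃* ↥(MulAction.stabilizer Cfsg.M24 d ⊓ MulAction.stabilizer Cfsg.M24 p)) := by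
  classical
  have := hG.1
  obtain ⟨M, _, h1, h2⟩ := H19.exists_sharp11 hG.2
  have h := (H14.card_dodAct d).trans hd.2
  have := H14.Sharp.card_ofStab (G := MulAction.stabilizer M24 d) (⟨p, hp⟩ : H14.dodAct d)
  obtain ⟨e⟩ := H19.sharp11_equiv h2 h1 ((H14.sharp_dod hd).stab (by omega) (⟨p, hp⟩ : H14.dodAct d)) (by omega)
  exact ⟨e.trans (H14.stabStab (b := (⟨p, hp⟩ : H14.dodAct d)) fun _ => Subtype.ext_iff)⟩

end Cfsg.Agent.S0420
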