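import Mathlib
import Cfsg.Statements.S0423
import Cfsg.Agent.H15.J2

set_option autoImplicit false
open Cfsg

namespace Cfsg.Agent.S0423

/-- Existence of a simple group of order 604800. -/
theorem result : ∃ G : Subgroup (Equiv.Perm (Fin 100)), Cfsg.IsJ2 G := by
  have key : ∀ (G : Type) [Group G] (H : Subgroup G), H.index = 100 → H.normalCore = ⊥ → IsSimpleGroup G → Nat.card G = 604800 →
      ∃ G : Subgroup (Equiv.Perm (Fin 100)), Cfsg.IsJ2 G := fun G _ H h1 h2 h3 h4 => by
    have : Finite (G ⧸ H) := Nat.finite_of_card_ne_zero (by rw [← Subgroup.index, h1]; norm_num)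
    let f := (Finite.equivFinOfCardEq h1).permCongrHom.toMonoidHom.comp (MulAction.toPermHom G (G ⧸ H))
    have i : Function.Injective f := (Finite.equivFinOfCardEq h1).permCongrHom.injective.comp
      ((MonoidHom.ker_eq_bot_iff _).1 ((Subgroup.normalCore_eq_ker H).symm.trans h2))
    exact ⟨f.range, (MonoidHom.ofInjective i).symm.isSimpleGroup, (Nat.card_congr (MonoidHom.ofInjective i).toEquiv).symm.trans h4⟩
  exact key _ _ H15.J2.cov.idx H15.J2.cov.core H15.J2.cov.simple H15.J2.cov.card

end Cfsg.Agent.S0423
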