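import Mathlib
import Cfsg.Statements.S0429
import Cfsg.Agent.H05.Sr3
import Cfsg.Agent.S0410

set_option autoImplicit false
open Cfsg

namespace Cfsg.Agent.S0429

/-- Uniqueness of the strongly regular graph with parameters (77, 16, 0, 4). -/
theorem result {V W : Type*} [Fintype V] [Fintype W] {G : SimpleGraph V} {H : SimpleGraph W} [DecidableRel G.Adj] [DecidableRel H.Adj] (hG : G.IsSRGWith 77 16 0 4) (hH : H.IsSRGWith 77 16 0 4) : Nonempty (G ≃g H) := by
  classical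
  obtain ⟨P, _, B, h1, h2, ⟨f⟩⟩ := H05.Sr.srg77_block hG
  obtain ⟨P', _, B', h1', h2', ⟨f'⟩⟩ := H05.Sr.srg77_block hH
  obtain ⟨g⟩ := H05.Sr.block_iso h2 h2' (Cfsg.Agent.S0410.result h1 h1' h2 h2')
  exact ⟨(f.trans g).trans f'.symm⟩

end Cfsg.Agent.S0429
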