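import Mathlib
import Cfsg.Statements.S0431
import Cfsg.Agent.H14.HSG
import Cfsg.Agent.H14.HS

set_option autoImplicit false
open Cfsg

namespace Cfsg.Agent.S0431

open H14 MulAction
open scoped Pointwise

/-- the graph on the 100 vectors -/
def Γ : SimpleGraph O100 where
  Adj x y := dotInt ((x : leechLattice) : V) (y : leechLattice) = 8
  symm := ⟨fun _ _ h => (dotInt_comm _ _).trans h⟩
  loopless := ⟨fun x h => by have := x.2.1; rw [← dotInt_self, h] at this; cases this⟩

/-- the action on the graph -/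
noncomputable def act : GH →* (Γ ≃g Γ) where
  toFun g := ⟨⟨fun x => ⟨g.1 • x.1, inv100 _ g.2 _ x.2⟩, fun x => ⟨g.1⁻¹ • x.1, inv100 _ g⁻¹.2 _ x.2⟩,
    fun x => Subtype.ext (inv_smul_smul _ _), fun x => Subtype.ext (smul_inv_smul _ _)⟩, fun {x y} => (co_dot g.1 x.1 y.1).congr_left⟩
  map_one' := RelIso.ext fun _ => Subtype.ext (one_smul _ _)
  map_mul' _ _ := RelIso.ext fun _ => Subtype.ext (mul_smul _ _ _)

theorem cn {x y : leechLattice} (hx : x ∈ O100) (hy : y ∈ O100) {i u c : ℕ} (hi : i < 100) (hu : vec 16 X100 i = vN u)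
    (h : dotInt (x : V) y = dotInt (vN (nat_lit 0x221084210842108421084210842104)) (vN u))
    (hc : H13.cnt 16 (condF 16 100 X100 [(nat_lit 0x221084210842108421084210842104, 1032), (u, 1032)]) = c) :
    {z : leechLattice | z ∈ O100 ∧ dotInt (x : V) z = 8 ∧ dotInt (y : V) z = 8}.ncard = c := by
  obtain ⟨g, hg, rfl⟩ := trans100 _ x100_mem _ hx
  obtain ⟨y, rfl⟩ := (MulAction.toPerm g).surjective y
  change g • y ∈ _ at hy
  change dotInt _ ((g • y : leechLattice) : V) = _ at h
  have hy' : y ∈ O100 := inv_smul_smul g y ▸ inv100 _ (inv_mem hg) _ hy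
  have a := (mkPts_coe ok100 hi).trans hu
  obtain ⟨k, hk, rfl⟩ := orb100.2.2 _ (set100 ▸ (mkPts ok100).pt_mem hi) _ hy' (by rw [a, ← co_dot g, h, vN_x100])
  rw [← hc, ← ncard_cond ok100 (by simp), set100, ← Set.ncard_smul_set (g * k) {x | x ∈ O100 ∧ Cond _ (x : V)}]
  congr 1; ext z
  obtain ⟨z, rfl⟩ := (MulAction.toPerm (g * k)).surjective z
  change _ ∧ dotInt _ (((g * k) • z : leechLattice) : V) = _ ∧ dotInt ((g • k • _ : leechLattice) : V) (((g * k) • z : leechLattice) : V) = _ ↔
    (g * k) • z ∈ (g * k) • (_ : Set leechLattice)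
  rw [Set.smul_mem_smul_set_iff, Set.mem_ofPred_eq, cond2, ← a, ← vN_x100, ← mul_smul, co_dot,
    show g • x100 = (g * k) • x100 by rw [mul_smul, mem_stabilizer_iff.1 hk.2], co_dot]
  exact and_congr_left' ⟨fun h => inv_smul_smul (g * k) z ▸ inv100 _ (inv_mem (mul_mem hg hk.1)) _ h, inv100 _ (mul_mem hg hk.1) _⟩

theorem dot_cases {x y : leechLattice} (hx : x ∈ O100) (hy : y ∈ O100) : x = y ∨ dotInt (x : V) y = 16 ∨ dotInt (x : V) y = 8 := by
  obtain ⟨g, hg, rfl⟩ := trans100 _ x100_mem _ hx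
  have hy' := inv100 _ (inv_mem hg) _ hy
  have h := orb100.2.1 _ hy'
  rw [← smul_inv_smul g y, co_dot]
  simp only [List.mem_cons, List.not_mem_nil, or_false] at h
  refine h.imp_left fun h => ?_
  obtain ⟨k, hk, e⟩ := orb100.2.2 _ x100_mem _ hy' (by rw [h, dotInt_self]; exact x100_mem.1)
  rw [← e, mem_stabilizer_iff.1 hk.2]

theorem srg [Fintype O100] [DecidableRel Γ.Adj] : Γ.IsSRGWith 100 22 0 6 := by
  have c : ∀ x y : O100, Fintype.card (Γ.commonNeighbors x y) =
      {z : leechLattice | z ∈ O100 ∧ dotInt (x.1 : V) z = 8 ∧ dotInt (y.1 : V) z = 8}.ncard := fun x y => by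
    rw [← Nat.card_eq_fintype_card, Nat.card_coe_set_eq, ← Set.ncard_image_of_injective _ Subtype.val_injective]
    congr 1; ext z
    exact ⟨fun ⟨w, h, e⟩ => e ▸ ⟨w.2, h⟩, fun h => ⟨⟨z, h.1⟩, h.2, rfl⟩⟩
  refine ⟨by rw [← Nat.card_eq_fintype_card, Nat.card_coe_set_eq, ncard100], fun x => ?_, fun x y h => ?_, fun x y h h' => ?_⟩
  · rw [← SimpleGraph.card_neighborSet_eq_degree, ← cn x.2 x.2 (i := 0) (u := nat_lit 0x221084210842108421084210842104) (c := 22)
      (by norm_num) (by decide +kernel) ((dotInt_self _).trans (x.2.1.trans (by decide +kernel))) (by decide +kernel), ← c]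
    exact Fintype.card_congr (Equiv.setCongr (Set.inter_self _).symm)
  · exact (c x y).trans (cn x.2 y.2 (i := 99) (u := nat_lit 0x39ce739ce739ce739ce739ce739d67) (by norm_num) (by decide +kernel)
      (h.trans (by decide +kernel)) (by decide +kernel))
  · exact (c x y).trans (cn x.2 y.2 (i := 1) (u := nat_lit 0x32108420c84190842108420c8318c6) (by norm_num) (by decide +kernel)
      ((((dot_cases x.2 y.2).resolve_left fun e => h (Subtype.ext e)).resolve_right h').trans (by decide +kernel)) (by decide +kernel))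

theorem act_inj : Function.Injective act := (injective_iff_map_eq_one _).2 fun g h => Subtype.ext (faith100 _ g.2 fun i hi =>
  congrArg Subtype.val (DFunLike.congr_fun h (⟨(mkPts ok100).pt i, set100 ▸ (mkPts ok100).pt_mem hi⟩ : O100)))

/-- Aut of the point-block graph of an S(3, 6, 22) contains a simple subgroup of order 44352000. -/
theorem result {α : Type*} [Fintype α] (hα : Fintype.card α = 22) {B : Set (Finset α)} (hB : Cfsg.IsSteinerSystem 3 6 B) : ∃ H : Subgroup (Cfsg.pointBlockGraph B ≃g Cfsg.pointBlockGraph B), Cfsg.IsHS H := by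
  classical
  have : Fintype O100 := (Set.finite_of_ncard_ne_zero (by rw [ncard100]; norm_num)).fintype
  obtain ⟨f, -⟩ := srg100_iso srg (pointBlockGraph_srg hα hB) ⟨_, x100_mem⟩ none
  let F : (Γ ≃g Γ) →* (pointBlockGraph B ≃g pointBlockGraph B) :=
    MonoidHom.mk' (fun g => (f.symm.trans g).trans f) fun g h => RelIso.ext fun x => by simp
  have hF : Function.Injective F := (injective_iff_map_eq_one _).2 fun g h => RelIso.ext fun x => f.injective (by
    simpa [F] using DFunLike.congr_fun h (f x))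
  have e := MonoidHom.ofInjective (f := F.comp act) (hF.comp act_inj)
  have := simple_GH
  exact ⟨_, e.symm.isSimpleGroup, (Nat.card_congr e.toEquiv).symm.trans card_GH⟩

end Cfsg.Agent.S0431
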