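import Mathlib
import Cfsg.Statements.S0435
import Cfsg.Agent.H19.SharpF
import Cfsg.Agent.H19.M11c

set_option autoImplicit false
open Cfsg

namespace Cfsg.Agent.S0435

/-- Involution centralisers in a simple group of order 7920 have order 48. -/
theorem result {G : Type*} [Group G] [Finite G] (hG : Cfsg.IsM11 G) (x : G) (hx : orderOf x = 2) : Nat.card (Subgroup.centralizer ({x} : Set G)) = 48 := by
  open H19 MulAction Finset in
  classical
  obtain ⟨_, hn⟩ := hG
  obtain ⟨T⟩ := exists_m11T hn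
  obtain ⟨M, _, hα, S⟩ := exists_sharp11 hn
  have h0 : x ≠ 1 := by rintro rfl; simp at hx
  have h1 : ∀ a : G ⧸ M, x • x • a = a := fun a => by rw [← mul_smul, ← pow_two, ← hx, pow_orderOf_eq_one, one_smul]
  set F := univ.filter fun a : G ⧸ M => x • a ≠ a
  have h2 : Nat.card (fixedBy (G ⧸ M) x) + #F = 11 := by
    rw [← hα, ← card_univ, ← card_filter_add_card_filter_not (s := univ) (fun a : G ⧸ M => x • a = a), Nat.card_eq_fintype_card,
      Fintype.card_subtype]
    rfl
  have h3 : Nat.card (fixedBy (G ⧸ M) x) < 4 := not_le.1 fun h => by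
    obtain ⟨y⟩ : Nonempty (Fin 4 ↪ fixedBy (G ⧸ M) x) :=
      Function.Embedding.nonempty_of_card_le (by rwa [Fintype.card_fin, ← Nat.card_eq_fintype_card])
    exact h0 (H18.sharp_iff.1 S.2 x _ (Subtype.val_injective.comp y.injective) fun i => (y i).2)
  have h4 := dvd_card_sub_fixedBy (α := G ⧸ M) (k := 1) Nat.prime_two (g := x) (by rw [pow_one, ← hx, pow_orderOf_eq_one])
  set X := F.sigma fun a => (F.erase a).erase (x • a)
  have h5 : ∀ z, z ∈ X ↔ x • z.1 ≠ z.1 ∧ z.2 ≠ x • z.1 ∧ z.2 ≠ z.1 ∧ x • z.2 ≠ z.2 := fun z => by simp [X, F]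
  have h6 : #X = #F * (#F - 1 - 1) := by
    rw [card_sigma, sum_congr rfl (g := fun _ => #F - 1 - 1) fun a ha => by
      rw [card_erase_of_mem (by simpa [F, h1, eq_comm] using ha), card_erase_of_mem ha], sum_const, smul_eq_mul]
  have h7 : ∀ z ∈ X, Function.Injective ![z.1, x • z.1, z.2, x • z.2] := fun z hz => by
    obtain ⟨e1, e2, e3, e4⟩ := (h5 z).1 hz
    have e5 : x • z.2 ≠ z.1 := fun e => e2 (by rw [← e, h1])
    have e6 : x • z.2 ≠ x • z.1 := fun e => e3 (smul_left_cancel x e)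
    intro i j
    fin_cases i <;> fin_cases j <;> simp <;> grind
  obtain ⟨z, hz⟩ := card_pos.1 (show 0 < #X by rw [h6]; exact Nat.mul_pos (by omega) (by omega))
  have h8 : ∀ (g : Subgroup.centralizer ({x} : Set G)) (a : G ⧸ M), x • g.1 • a = g.1 • x • a := fun g a => by
    rw [← mul_smul, ← mul_smul, Subgroup.mem_centralizer_singleton_iff.1 g.2]
  have h9 := Nat.card_eq_of_bijective (fun g : Subgroup.centralizer ({x} : Set G) => (⟨⟨g.1 • z.1, g.1 • z.2⟩, by
    simpa [h5, h8] using hz⟩ : X)) ⟨fun g g' e => by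
      simp only [Subtype.mk.injEq, Sigma.mk.injEq, heq_eq_eq] at e
      refine Subtype.ext (inv_mul_eq_one.1 (H18.sharp_iff.1 S.2 _ _ (h7 z hz) fun i => ?_)).symm
      fin_cases i <;> simp [mul_smul, inv_smul_eq_iff, ← h8, e], fun w => by
      obtain ⟨g, hg⟩ := H18.mt_iff.1 S.1 _ _ (h7 z hz) (h7 w w.2)
      have e0 := hg 0; have e1 := hg 1; have e2 := hg 2; have e3 := hg 3
      simp at e0 e1 e2 e3
      refine ⟨⟨g, Subgroup.mem_centralizer_singleton_iff.2 (inv_mul_eq_one.1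
        (H18.sharp_iff.1 S.2 _ _ (h7 z hz) fun i => ?_))⟩, Subtype.ext (by simp [e0, e2])⟩
      fin_cases i <;> simp [mul_smul, inv_smul_eq_iff, e0, e1, e2, e3, h1]⟩
  have h10 := T.dvd_144 hn h0 (by omega) (by omega)
  rw [h9, Nat.card_eq_fintype_card, Fintype.card_coe, h6] at h10 ⊢
  rw [hα] at h4
  obtain e | e : #F = 8 ∨ #F = 10 := by omega
  · rw [e]
  · rw [e] at h10; omega

end Cfsg.Agent.S0435
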