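import Mathlib
import Cfsg.Statements.S0442

set_option autoImplicit false
open Cfsg

namespace Cfsg.Agent.S0442

/-- A standard trick for producing elements of an involution centraliser: for an involution a and an element g, let b be the conjugate g⁻¹ * a * g. If a * b has odd order 2m + 1 then g * (a * b) ^ m commutes with a; if a * b has even order 2m then (a * b) ^ m and (a * (g * a * g⁻¹)) ^ m commute with a. -/
theorem result {G : Type*} [Group G] (a g : G) (ha : orderOf a = 2) : (∀ m : ℕ, orderOf (a * (g⁻¹ * a * g)) = 2 * m + 1 → Commute (g * (a * (g⁻¹ * a * g)) ^ m) a) ∧ (∀ m : ℕ, orderOf (a * (g⁻¹ * a * g)) = 2 * m → Commute ((a * (g⁻¹ * a * g)) ^ m) a ∧ Commute ((a * (g * a * g⁻¹)) ^ m) a) := by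
  have h2 : a * a = 1 := by
    have := pow_orderOf_eq_one a
    rwa [ha, pow_two] at this
  have hinv : a⁻¹ = a := inv_eq_of_mul_eq_one_right h2
  have key : ∀ c : G, c * c = 1 → ∀ k : ℕ, a * (a * c) ^ k = ((a * c) ^ k)⁻¹ * a := by
    intro c hc k
    have hci : c⁻¹ = c := inv_eq_of_mul_eq_one_right hc
    have h1 : a * (a * c) * a⁻¹ = (a * c)⁻¹ := by
      rw [mul_inv_rev, hci, hinv, ← mul_assoc a a c, h2, one_mul]
    have h3 : a * (a * c) ^ k * a⁻¹ = ((a * c) ^ k)⁻¹ := by
      rw [← conj_pow, h1, inv_pow]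
    rw [← h3]; group
  have hb : (g⁻¹ * a * g) * (g⁻¹ * a * g) = 1 := by
    calc (g⁻¹ * a * g) * (g⁻¹ * a * g) = g⁻¹ * (a * a) * g := by group
      _ = 1 := by rw [h2]; group
  have hb' : (g * a * g⁻¹) * (g * a * g⁻¹) = 1 := by
    calc (g * a * g⁻¹) * (g * a * g⁻¹) = g * (a * a) * g⁻¹ := by group
      _ = 1 := by rw [h2]; group
  refine ⟨fun m hm => ?_, fun m hm => ?_⟩
  · set c := a * (g⁻¹ * a * g) with hc
    have h1 : c ^ (2 * m + 1) = 1 := by rw [← hm]; exact pow_orderOf_eq_one c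
    have h3 := key _ hb m
    rw [← hc] at h3
    have h4 : (c ^ m)⁻¹ = c * c ^ m := by
      apply inv_eq_of_mul_eq_one_right
      rw [← h1]; group
    -- g c^m a = a g c^m
    show g * c ^ m * a = a * (g * c ^ m)
    have h5 : a * g = g * (g⁻¹ * a * g) := by group
    have h6 : g⁻¹ * a * g = a * c := by rw [hc, ← mul_assoc, h2, one_mul]
    have h7 : c ^ m * a = a * (c ^ m)⁻¹ := by
      have : a * (c ^ m * a) = a * (a * (c ^ m)⁻¹) := by
        rw [← mul_assoc, h3, ← mul_assoc a a, h2, mul_assoc, h2]; simp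
      exact mul_left_cancel this
    rw [← mul_assoc a g, h5, h6, mul_assoc g, h7, h4]; group
  · have aux : ∀ c : G, c * c = 1 → (a * c) ^ (2 * m) = 1 → Commute ((a * c) ^ m) a := by
      intro c hc h1
      have h3 := key c hc m
      have h4 : ((a * c) ^ m)⁻¹ = (a * c) ^ m := by
        apply inv_eq_of_mul_eq_one_right
        rw [← h1]; group
      rw [h4] at h3
      exact h3.symm
    have h1 : (a * (g⁻¹ * a * g)) ^ (2 * m) = 1 := by rw [← hm]; exact pow_orderOf_eq_one _
    refine ⟨aux _ hb h1, aux _ hb' ?_⟩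
    have h8 : a * (g * a * g⁻¹) = g * (a * (g⁻¹ * a * g))⁻¹ * g⁻¹ := by
      rw [mul_inv_rev, mul_inv_rev, mul_inv_rev, hinv]; group
    rw [h8, conj_pow, inv_pow, h1]; group

end Cfsg.Agent.S0442
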