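import Mathlib
import Cfsg.Statements.S0444
import Cfsg.Agent.H29.Basic

set_option autoImplicit false
open Cfsg

namespace Cfsg.Agent.S0444

/-- Two members of a set of 3-transpositions which do not commute generate a subgroup isomorphic to the symmetric group on three letters. -/
theorem result {G : Type*} [Group G] {E : Set G} (hE : Cfsg.IsThreeTranspositionSet E) {d e : G} (hd : d ∈ E) (he : e ∈ E) (h : ¬ Commute d e) : Nonempty (Subgroup.closure ({d, e} : Set G) ≃* Equiv.Perm (Fin 3)) := by
  obtain ⟨φ, hφ, h0, h1⟩ := H29.exists_perm3_hom hE hd he h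
  have hr : φ.range = Subgroup.closure ({d, e} : Set G) := by
    have : Subgroup.closure ({Equiv.swap 0 1, Equiv.swap 1 2} : Set (Equiv.Perm (Fin 3))) = ⊤ := by
      rw [eq_top_iff, ← Equiv.Perm.closure_isSwap, Subgroup.closure_le]
      have k : ∀ x y : Fin 3, Equiv.swap x y = 1 ∨ Equiv.swap x y = Equiv.swap 0 1 ∨ Equiv.swap x y = Equiv.swap 1 2 ∨
        Equiv.swap x y = Equiv.swap 0 1 * Equiv.swap 1 2 * Equiv.swap 0 1 := by decide
      have m0 : Equiv.swap (0 : Fin 3) 1 ∈ Subgroup.closure ({Equiv.swap 0 1, Equiv.swap 1 2} : Set (Equiv.Perm (Fin 3))) :=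
        Subgroup.subset_closure (by simp)
      have m1 : Equiv.swap (1 : Fin 3) 2 ∈ Subgroup.closure ({Equiv.swap 0 1, Equiv.swap 1 2} : Set (Equiv.Perm (Fin 3))) :=
        Subgroup.subset_closure (by simp)
      rintro _ ⟨x, y, -, rfl⟩
      rcases k x y with h | h | h | h <;> rw [SetLike.mem_coe, h]
      exacts [one_mem _, m0, m1, mul_mem (mul_mem m0 m1) m0]
    rw [MonoidHom.range_eq_map, ← this, MonoidHom.map_closure, Set.image_pair, h0, h1]
  exact ⟨(MulEquiv.subgroupCongr hr).symm.trans (MonoidHom.ofInjective hφ).symm⟩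

end Cfsg.Agent.S0444
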