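import Mathlib
import Cfsg.Statements.S0446

set_option autoImplicit false
open Cfsg

namespace Cfsg.Agent.S0446

/-- Every finite group of even order contains a 2-central involution, i.e. an element of order 2 in the centre of some Sylow 2-subgroup. -/
theorem result {G : Type*} [Group G] [Finite G] (h : Even (Nat.card G)) : ∃ t : G, Cfsg.IsTwoCentralInvolution t := by
  have : Fact (Nat.Prime 2) := ⟨Nat.prime_two⟩
  obtain ⟨P⟩ : Nonempty (Sylow 2 G) := inferInstance
  have hP : 2 ∣ Nat.card P := P.dvd_card_of_dvd_card h.two_dvd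
  have hnt : Nontrivial P := by
    rw [← Finite.one_lt_card_iff_nontrivial]
    have : 0 < Nat.card P := Nat.card_pos
    omega
  have hc : Nontrivial (Subgroup.center P) := IsPGroup.center_nontrivial P.2
  have hc2 : IsPGroup 2 (Subgroup.center P) := P.2.to_subgroup _
  have hd : 2 ∣ Nat.card (Subgroup.center P) := by
    obtain ⟨n, hn, h⟩ := hc2.nontrivial_iff_card.mp hc
    rw [h]; exact dvd_pow_self 2 hn.ne'
  obtain ⟨x, hx⟩ := exists_prime_orderOf_dvd_card' 2 hd
  refine ⟨((x : P) : G), ?_, P, (x : P).2, fun y hy => ?_⟩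
  · rw [Subgroup.orderOf_coe, Subgroup.orderOf_coe, hx]
  · have := Subgroup.mem_center_iff.mp x.2 ⟨y, hy⟩
    exact congrArg Subtype.val this

end Cfsg.Agent.S0446
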