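import Cfsg.Statements.S0458
import Cfsg.Agent.H15.J3
-- import your own Cfsg.Agent.* helpers here

set_option autoImplicit false
open Cfsg

namespace Cfsg.Agent.S0458

/-- Janko's third group exists as a transitive permutation group of degree 6156 with point stabiliser of order 8160: a simple group of order 50232960. -/
theorem result : ∃ H : Subgroup (Equiv.Perm (Fin 6156)), Cfsg.IsJ3 H ∧ MulAction.IsPretransitive H (Fin 6156) ∧ Nat.card (MulAction.stabilizer H (0 : Fin 6156)) = 8160 := by
  open H15 H15.J3 in
  have := Fintype.ofFinite (GaloisField 2 2)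
  have hF : Fintype.card (GaloisField 2 2) = 4 := by rw [← Nat.card_eq_fintype_card, GaloisField.card 2 2 (by decide)]; rfl
  obtain ⟨ω, hω⟩ := exists_omega hF
  have C := cov _ (hh e9 (two_eq hF) hω)
  obtain ⟨H, e, h1, h2⟩ := exists_perm_model _ C.core C.idx
  have := C.simple
  have c : Nat.card H = 50232960 := (Nat.card_congr e.toEquiv).symm.trans C.card
  refine ⟨H, ⟨e.symm.isSimpleGroup, c⟩, h1, ?_⟩
  have := (MulAction.stabilizer H (0 : Fin 6156)).index_mul_card
  rw [MulAction.index_stabilizer_of_transitive, c, Nat.card_fin] at this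
  omega

end Cfsg.Agent.S0458
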