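import Mathlib
import Cfsg.Statements.S0460
import Cfsg.Agent.H13.ONS

set_option autoImplicit false
open Cfsg

namespace Cfsg.Agent.S0460

/-- The O'Nan group exists as a transitive permutation group of degree 122760: simple of order 460815505920, point stabiliser of order 3753792, and containing simple subgroups of orders 175560 and 7920. -/
theorem result : ∃ H : Subgroup (Equiv.Perm (Fin 122760)), Cfsg.IsON H ∧ MulAction.IsPretransitive H (Fin 122760) ∧ Nat.card (MulAction.stabilizer H (0 : Fin 122760)) = 3753792 ∧ (∃ K : Subgroup H, Cfsg.IsJ1 K) ∧ (∃ K : Subgroup H, Cfsg.IsM11 K) := by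
  open H13 H13.ON MulAction in
  have e := MonoidHom.ofInjective (show Function.Injective φ from (injective_iff_map_eq_one φ).2 fun g h =>
    faith g trivial fun i _ => by change φ g _ = _; rw [h]; rfl)
  have := simple
  have hc : Nat.card φ.range = 460815505920 := (Nat.card_congr e.toEquiv).symm.trans card_eq
  have ho : orbit φ.range (0 : Fin 122760) = Set.univ := Set.eq_univ_of_forall fun x => by
    obtain ⟨g, hg⟩ : x ∈ orbit Spor.ON ((finPts 122760).pt 0) := by rw [orbit_eq, finPts_set]; trivial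
    exact ⟨⟨φ g, g, rfl⟩, hg⟩
  have sub : ∀ K : Subgroup Spor.ON, Nonempty (K ≃* K.map e.toMonoidHom) := fun K => ⟨K.equivMapOfInjective _ e.injective⟩
  refine ⟨φ.range, ⟨e.symm.isSimpleGroup, hc⟩, (isPretransitive_iff_orbit_eq_univ _).2 ho,
    card_stabilizer_of_orbit (n := 122760) (by rw [ho]; simp) (by decide) hc, ?_, ?_⟩
  · obtain ⟨K, h1, h2⟩ := sub_J1
    obtain ⟨f⟩ := sub K
    exact ⟨_, f.symm.isSimpleGroup, (Nat.card_congr f.toEquiv).symm.trans h2⟩
  · obtain ⟨K, h1, h2⟩ := sub_M11
    obtain ⟨f⟩ := sub K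
    exact ⟨_, f.symm.isSimpleGroup, (Nat.card_congr f.toEquiv).symm.trans h2⟩

end Cfsg.Agent.S0460
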