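import Cfsg.Statements.S0462
import Mathlib
import Cfsg.Agent.H27.HeS
-- import your own Cfsg.Agent.* helpers here

set_option autoImplicit false
open Cfsg

namespace Cfsg.Agent.S0462

open scoped Pointwise commutatorElement

/-- The Held group exists as a transitive permutation group of degree 2058: simple of order 4030387200, with point stabiliser containing, with index 2, a copy of the 4-dimensional symplectic group over the field with four elements. -/
theorem result : ∃ H : Subgroup (Equiv.Perm (Fin 2058)), Cfsg.IsHe H ∧ MulAction.IsPretransitive H (Fin 2058) ∧ ∃ (F : Type) (_ : Field F) (_ : Fintype F), Fintype.card F = 4 ∧ ∃ N : Subgroup (MulAction.stabilizer H (0 : Fin 2058)), N.index = 2 ∧ Nonempty (N ≃* Matrix.symplecticGroup (Fin 2) F) := by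
  obtain ⟨N, K, _, _, a, b, ⟨c⟩⟩ := H27.He.sub_sp
  have hi : Function.Injective H13.He.φ := (injective_iff_map_eq_one _).2 fun g h =>
    H13.He.faith g trivial fun _ _ => congrArg (fun x : Equiv.Perm (Fin 2058) => x _) h
  let e := MonoidHom.ofInjective hi
  have := H13.He.simple
  have k : (H13.clW H13.He.gen H13.He.c2.hs).map e.toMonoidHom = MulAction.stabilizer H13.He.φ.range (0 : Fin 2058) := by
    rw [H13.He.stab.1]
    ext x
    obtain ⟨g, rfl⟩ := e.surjective x
    exact Subgroup.mem_map_iff_mem e.injective
  let f := (Subgroup.equivMapOfInjective _ e.toMonoidHom e.injective).trans (MulEquiv.subgroupCongr k)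
  refine ⟨H13.He.φ.range, ⟨e.symm.isSimpleGroup, (Nat.card_congr e.toEquiv).symm.trans H13.He.card_eq⟩,
    (MulAction.isPretransitive_iff_base (0 : Fin 2058)).2 fun x => ?_, K, _, _, b, N.map f.toMonoidHom,
    (Subgroup.index_map_equiv N f).trans a, ⟨(Subgroup.equivMapOfInjective N f.toMonoidHom f.injective).symm.trans c⟩⟩
  obtain ⟨g, hg⟩ : x ∈ MulAction.orbit Spor.He ((H13.finPts 2058).pt 0) := H13.He.orbit_eq ▸ H13.finPts_set 2058 ▸ trivial
  exact ⟨e g, hg⟩

end Cfsg.Agent.S0462
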