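import Cfsg.Statements.S0463
import Cfsg.Agent.H15.Hn
-- import your own Cfsg.Agent.* helpers here

set_option autoImplicit false
open Cfsg

namespace Cfsg.Agent.S0463

/-- The Harada–Norton group exists as a transitive permutation group of degree 1140000: simple of order 273030912000000 with point stabiliser isomorphic to the alternating group of degree 12. -/
theorem result : ∃ H : Subgroup (Equiv.Perm (Fin 1140000)), Cfsg.IsHN H ∧ MulAction.IsPretransitive H (Fin 1140000) ∧ Nonempty (MulAction.stabilizer H (0 : Fin 1140000) ≃* alternatingGroup (Fin 12)) := by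
  obtain ⟨φ, hφ⟩ := H15.Hn.ex_alt
  have := H15.Hn.simple_M
  have i : φ.range.index = 1140000 := by
    have := φ.range.index_mul_card
    rw [H15.card_range hφ, H15.Hn.card_M, nat_card_alternatingGroup, Nat.card_fin] at this
    norm_num [Nat.factorial] at this
    omega
  obtain ⟨K, f, a, b⟩ := H15.exists_perm_model φ.range ((Subgroup.Normal.eq_bot_or_eq_top inferInstance).resolve_right
    fun c => by rw [top_unique (c.ge.trans φ.range.normalCore_le), Subgroup.index_top] at i; omega) i
  exact ⟨K, ⟨f.symm.isSimpleGroup, (Nat.card_congr f.toEquiv).symm.trans H15.Hn.card_M⟩, a,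
    ⟨(((MonoidHom.ofInjective hφ).trans (f.subgroupMap φ.range)).trans (MulEquiv.subgroupCongr b)).symm⟩⟩

end Cfsg.Agent.S0463
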