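import Cfsg.Statements.S0477
import Cfsg.Agent.H15.LyC
-- import your own Cfsg.Agent.* helpers here

set_option autoImplicit false
open Cfsg

namespace Cfsg.Agent.S0477

/-- In some simple group of the Lyons group's order there is an element of order 3 whose centraliser has centre of order 3 with quotient by the centre simple of order 898128000 (a triple cover of a group of McLaughlin's order). -/
theorem result : ∃ (G : Type) (_ : Group G) (_ : Finite G), Cfsg.IsLy G ∧ ∃ x : G, orderOf x = 3 ∧ Nat.card (Subgroup.center (Subgroup.centralizer ({x} : Set G))) = 3 ∧ Cfsg.IsMcL ((Subgroup.centralizer ({x} : Set G)) ⧸ Subgroup.center (Subgroup.centralizer ({x} : Set G))) := by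
  open H15 H15.Ly in
  obtain ⟨π, E⟩ := ce_x
  open H15 H15.Ly in
  obtain ⟨a, ⟨f⟩⟩ := E.center center_GM
  have := H14.simple_GM
  open H15 H15.Ly in
  exact ⟨M, inferInstance, inferInstance, ⟨simple_M, card_M⟩, z 11, ord_x, a.trans ord_x, f.isSimpleGroup,
    (Nat.card_congr f.toEquiv).trans H14.card_GM⟩

end Cfsg.Agent.S0477
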