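import Cfsg.Statements.S0478
import Cfsg.Agent.H15.J3
import Cfsg.Agent.H10.Bridge
-- import your own Cfsg.Agent.* helpers here

set_option autoImplicit false
open Cfsg

namespace Cfsg.Agent.S0478

/-- A triple cover of Janko's third group inside a unitary group: for a field F with four elements, the special unitary group of dimension 9 (with respect to the form with q = 2) has a subgroup whose centre has order 3 and whose quotient by its centre is simple of order 50232960. -/
theorem result : ∃ (F : Type) (_ : Field F) (_ : Fintype F), Fintype.card F = 4 ∧ ∃ H : Subgroup (Cfsg.SU 9 F 2), Nat.card (Subgroup.center H) = 3 ∧ Cfsg.IsJ3 (H ⧸ Subgroup.center H) := by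
  open H15 H15.J3 in
  have := Fintype.ofFinite (GaloisField 2 2)
  have hF : Fintype.card (GaloisField 2 2) = 4 := by rw [← Nat.card_eq_fintype_card, GaloisField.card 2 2 (by decide)]; rfl
  obtain ⟨ω, hω⟩ := exists_omega hF
  have t := two_eq hF
  have C := cov _ (hh (Equiv.refl _) t hω)
  have d : ∀ x : mdl (g _ (hh (Equiv.refl _) t hω)) dom5, x.1.1.det = 1 := fun x => by
    have := Abelianization.commutator_subset_ker (Matrix.GeneralLinearGroup.det.comp (Subgroup.subtype _))
      (C.perf.ge (Subgroup.mem_top x))
    rw [MonoidHom.mem_ker, MonoidHom.comp_apply, Units.ext_iff, Matrix.GeneralLinearGroup.val_det_apply] at this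
    exact this
  let φ : mdl (g _ (hh (Equiv.refl _) t hω)) dom5 →* SU 9 (GaloisField 2 2) 2 :=
    MonoidHom.mk' (fun x => ⟨⟨x.1.1, d x⟩, fun u v => unitary (Equiv.refl _) t hω x.2 u v⟩) fun _ _ => rfl
  have e := MonoidHom.ofInjective (f := φ) fun x y h =>
    Subtype.ext (Units.ext (congrArg (fun z : SU 9 (GaloisField 2 2) 2 => z.1.1) h))
  have := C.simple
  exact ⟨_, _, _, hF, φ.range, (Nat.card_congr (H10.centerEquiv e).toEquiv).symm.trans C.card_center,
    (H10.quotCenterEquiv e).symm.isSimpleGroup, (Nat.card_congr (H10.quotCenterEquiv e).toEquiv).symm.trans C.card⟩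

end Cfsg.Agent.S0478
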