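import Cfsg.Statements.S0479
import Cfsg.Agent.H14.ON45
import Cfsg.Agent.H13.ON
-- import your own Cfsg.Agent.* helpers here

set_option autoImplicit false
open Cfsg

namespace Cfsg.Agent.S0479

/-- A triple cover of the O'Nan group as 45 × 45 matrices over the field with seven elements: SL(45, 7) has a subgroup whose centre has order 3 and whose quotient by its centre is simple of order 460815505920. -/
theorem result : ∃ H : Subgroup (Matrix.SpecialLinearGroup (Fin 45) (ZMod 7)), Nat.card (Subgroup.center H) = 3 ∧ Cfsg.IsON (H ⧸ Subgroup.center H) := by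
  have := H13.ON.simple
  obtain ⟨φ, h⟩ := H14.ON45.exists_hom H13.ON.card_eq
  obtain ⟨H, a, ⟨e⟩⟩ := H14.ON45.pre φ h ((Subgroup.normal_of_characteristic _).eq_bot_or_eq_top.resolve_right fun f => by
    let _ : CommGroup Cfsg.Spor.ON := { (inferInstance : Group Cfsg.Spor.ON) with
      mul_comm := fun x y => Subgroup.mem_center_iff.1 (f.ge (Subgroup.mem_top y)) x }
    have := IsSimpleGroup.prime_card (α := Cfsg.Spor.ON)
    rw [H13.ON.card_eq] at this
    exact absurd this (by norm_num))
  exact ⟨H, a.trans H14.ON45.card_center, e.isSimpleGroup, (Nat.card_congr e.toEquiv).trans H13.ON.card_eq⟩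

end Cfsg.Agent.S0479
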