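import Mathlib
import Cfsg.Statements.S0480
import Cfsg.Agent.H29.Fis

set_option autoImplicit false
open Cfsg

namespace Cfsg.Agent.S0480

/-- The simple 3-transposition groups: if a finite non-abelian simple group G is generated by a conjugacy class of 3-transpositions, then G is isomorphic to a symplectic group Sp(2n, 2), or to a projective special unitary group PSU(n, 2) (defined over the field with four elements), or to the projective commutator subgroup of an orthogonal group in odd dimension over the field with three elements, or G has order 64561751654400, or G has order 4089470473293004800. -/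
theorem result {G : Type*} [Group G] [Finite G] [IsSimpleGroup G] (hna : ∃ x y : G, x * y ≠ y * x) {D : Set G} (hD : Cfsg.IsThreeTranspositionClass D) : (∃ n : ℕ, Nonempty (G ≃* Matrix.symplecticGroup (Fin n) (ZMod 2))) ∨ (∃ (F : Type) (_ : Field F) (_ : Fintype F) (n : ℕ), Fintype.card F = 4 ∧ Nonempty (G ≃* Cfsg.PSU n F 2)) ∨ (∃ m : ℕ, Nonempty (G ≃* Cfsg.POmega (ZMod 3) (Cfsg.quadFormOdd m (ZMod 3)))) ∨ Cfsg.IsFi22 G ∨ Cfsg.IsFi23 G := by
  have h1 := (H29.group_of_class hD).2.2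
  have hsol : ∀ N : Subgroup G, N.Normal → Group.IsSolvable N → N = ⊥ := fun N hN h =>
    (hN.eq_bot_or_eq_top).resolve_right fun e => by
      subst e
      obtain ⟨x, y, q⟩ := hna
      exact q ((IsSimpleGroup.comm_iff_isSolvable.2 (Group.isSolvable_of_surjective (f := (Subgroup.topEquiv (G := G)).toMonoidHom)
        Subgroup.topEquiv.surjective)) x y)
  have hZ := H29.center_of_sol hsol
  have hp : commutator G = ⊤ := (Subgroup.Normal.eq_bot_or_eq_top inferInstance).resolve_left fun e =>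
    bot_ne_top (hZ.symm.trans ((commutator_eq_bot_iff_center_eq_top G).1 e))
  have hR := (H29.prim_of_fischer hsol (by rw [hp]; exact hp) hD).r3
  obtain ⟨d, hd, -⟩ := hR.two
  rcases hR.list with ⟨⟨m, h⟩ | ⟨n, h⟩, -⟩ | ⟨n, h⟩ | ⟨m, h⟩ | ⟨m, h⟩ | ⟨n, h⟩ | h | h | h
  · exact .inl ⟨m, let ⟨e, _⟩ := h.model h1 hZ; ⟨e⟩⟩
  · exact .inr (.inl ⟨H29.F4, _, _, _, rfl, let ⟨e, _⟩ := h.model H29.F4 rfl (by omega) h1 hZ; ⟨e⟩⟩)
  · obtain ⟨e, he⟩ := h.model (by omega) h1 hZ
    exact absurd hp (H29.not_perfect_of_sign (Equiv.Perm.sign.comp e.toMonoidHom) (d := d)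
      (Equiv.Perm.IsSwap.sign_eq (he.le ⟨d, hd, rfl⟩)))
  · obtain ⟨e, he⟩ := h.model hR h1 hZ
    exact absurd hp (H29.o2_not_perfect _ (H29.good_plus (by omega)) e (he.le ⟨d, hd, rfl⟩))
  · obtain ⟨e, he⟩ := h.model hR h1 hZ
    exact absurd hp (H29.o2_not_perfect _ (H29.good_minus m) e (he.le ⟨d, hd, rfl⟩))
  · exact .inr (.inr (.inl (h.perfect h1 hZ hp)))
  · exact .inr (.inr (.inr (.inl ⟨‹_›, (H29.ord_eq_card h1 hZ).symm.trans (h.ord h.ci')⟩)))
  · exact .inr (.inr (.inr (.inr ⟨‹_›, (H29.ord_eq_card h1 hZ).symm.trans h.ord⟩)))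
  · obtain ⟨_, M⟩ := H13.F24.of_t24 h h1 hZ
    exact (H13.F24.not_mem_commutator M d hd (hp ▸ Subgroup.mem_top d)).elim

end Cfsg.Agent.S0480
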