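import Mathlib
import Cfsg.Agent.H15.TwoCentral
import Cfsg.Statements.S0481

set_option autoImplicit false
open Cfsg

namespace Cfsg.Agent.S0481

/-- Large extraspecial subgroups: let z be an involution of a finite group G whose centraliser C contains a normal 2-subgroup Q with centre of order 2 and all squares central, such that every element of G centralising Q lies in Q. Then C contains a Sylow 2-subgroup of G, and any involution of G whose centraliser contains a Sylow 2-subgroup of G is conjugate to z. -/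
theorem result {G : Type*} [Group G] [Finite G] (z : G) (hz : orderOf z = 2) (Q : Subgroup G) (hQC : Q ≤ Subgroup.centralizer ({z} : Set G)) (hQn : ∀ g ∈ Subgroup.centralizer ({z} : Set G), ∀ q ∈ Q, g * q * g⁻¹ ∈ Q) (hQ2 : IsPGroup 2 Q) (hZ : Nat.card (Subgroup.center Q) = 2) (hsq : ∀ x : Q, x ^ 2 ∈ Subgroup.center Q) (hlarge : Subgroup.centralizer (Q : Set G) ≤ Q) : (∃ P : Sylow 2 G, (P : Subgroup G) ≤ Subgroup.centralizer ({z} : Set G)) ∧ ∀ u : G, orderOf u = 2 → (∃ P : Sylow 2 G, (P : Subgroup G) ≤ Subgroup.centralizer ({u} : Set G)) → IsConj z u := by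
  have hz1 : z ≠ 1 := by rintro rfl; simp at hz
  have : Fact (Nat.Prime 2) := ⟨Nat.prime_two⟩
  let C := Subgroup.centralizer ({z} : Set G)
  have hzQ : z ∈ Q := hlarge (fun q hq => Subgroup.mem_centralizer_singleton_iff.mp (hQC hq))
  have key : ∀ x : G, (∀ q ∈ Q, q * x = x * q) → x = 1 ∨ x = z := by
    intro x hx
    have hxQ : x ∈ Q := hlarge hx
    have h1 : (⟨x, hxQ⟩ : Q) ∈ Subgroup.center Q :=
      Subgroup.mem_center_iff.mpr fun q => Subtype.ext (hx q q.2)
    have h2 : (⟨z, hzQ⟩ : Q) ∈ Subgroup.center Q :=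
      Subgroup.mem_center_iff.mpr fun q =>
        Subtype.ext (Subgroup.mem_centralizer_singleton_iff.mp (hQC q.2))
    obtain ⟨y, hy, hu⟩ := (Nat.card_eq_two_iff' (1 : Subgroup.center Q)).mp hZ
    by_cases hx1 : x = 1
    · exact Or.inl hx1
    · right
      have e1 := hu ⟨_, h1⟩ (fun h => hx1 (congrArg (fun t : Subgroup.center Q => (t.1 : G)) h))
      have e2 := hu ⟨_, h2⟩ (fun h => hz1 (congrArg (fun t : Subgroup.center Q => (t.1 : G)) h))
      exact congrArg (fun t : Subgroup.center Q => (t.1 : G)) (e1.trans e2.symm)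
  obtain ⟨T⟩ : Nonempty (Sylow 2 C) := inferInstance
  have hn : (Q.subgroupOf C).Normal := ⟨fun n hn g => hQn g g.2 n hn⟩
  have hq : IsPGroup 2 (Q.subgroupOf C) := hQ2.comap_subtype
  have hle : Q.subgroupOf C ≤ T := hq.le_sylow_of_normal T
  obtain ⟨S, hS⟩ := H15.exists_sylow_eq_map z hz1 T (hle hzQ) (fun x _ hx => key x (fun q hq => by
    have := hx ⟨q, hQC hq⟩ (hle hq)
    exact (congrArg Subtype.val this).symm))
  have hQS : Q ≤ S := fun q hq => by
    rw [hS]; exact ⟨⟨q, hQC hq⟩, hle hq, rfl⟩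
  refine ⟨⟨S, ?_⟩, ?_⟩
  · rw [hS]; exact Subgroup.map_subtype_le _
  · rintro u hu ⟨P, hP⟩
    obtain ⟨g, hg⟩ := MulAction.exists_smul_eq G S P
    have h1 : ∀ q ∈ Q, q * (g⁻¹ * u * g) = (g⁻¹ * u * g) * q := by
      intro q hq
      have h2 : g * q * g⁻¹ ∈ (P : Subgroup G) := by
        rw [← hg]
        exact ⟨q, hQS hq, rfl⟩
      have h3 := Subgroup.mem_centralizer_singleton_iff.mp (hP h2)
      calc q * (g⁻¹ * u * g) = g⁻¹ * (g * q * g⁻¹ * u) * g := by group
        _ = g⁻¹ * (u * (g * q * g⁻¹)) * g := by rw [h3]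
        _ = _ := by group
    rcases key _ h1 with h | h
    · exfalso
      have : u = 1 := by
        calc u = g * (g⁻¹ * u * g) * g⁻¹ := by group
          _ = 1 := by rw [h]; group
      rw [this] at hu; simp at hu
    · rw [isConj_iff]
      exact ⟨g, by rw [← h]; group⟩

end Cfsg.Agent.S0481
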