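import Mathlib
import Cfsg.Statements.S0502
import Cfsg.Agent.BG.Api

set_option autoImplicit false
open Cfsg

namespace Cfsg.Agent.S0502
open BG
theorem rt_symm {α : Type*} {r : α → α → Prop} (hr : ∀ a b, r a b → r b a) {a b : α}
    (h : Relation.ReflTransGen r a b) : Relation.ReflTransGen r b a := by
  induction h with
  | refl => exact .refl
  | tail _ h1 ih => exact .head (hr _ _ h1) ih

theorem klein_iff {G : Type*} [Group G] [Finite G] {V : Subgroup G} : IsKleinFour V ↔ IsElem 2 2 V V :=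
  ⟨fun h => ⟨le_rfl, ⟨⟨⟨fun a b => (IsKleinFour.isMulCommutative (G := V)).is_comm.comm a b⟩⟩, fun a ha =>
      congrArg Subtype.val (h.exponent_two ▸ Monoid.pow_exponent_eq_one (⟨a, ha⟩ : V))⟩, h.card_four⟩,
    fun h => ⟨h.card, by
      have : Nontrivial V := (Subgroup.nontrivial_iff_ne_bot V).2 (h.ne_bot Nat.prime_two)
      exact (Monoid.exponent_eq_prime_iff Nat.prime_two).2 fun g hg => by
        rw [← Subgroup.orderOf_coe]
        exact h.elemAb.orderOf Nat.prime_two g.2 (by simpa using hg)⟩⟩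


/-- If a finite 2-group has a normal elementary abelian subgroup of order at least 8, then any two of its Klein
four-subgroups are joined by a chain of Klein four-subgroups with consecutive members commuting elementwise. -/
theorem result {P : Type*} [Group P] [Finite P] (hP : IsPGroup 2 P)
    (E : Subgroup P) [E.Normal] (hE : IsMulCommutative E) (hE2 : ∀ e ∈ E, e ^ 2 = 1) (hE8 : 8 ≤ Nat.card E) :
    Cfsg.IsFourConnected P := by
  classical
  have p2 := Nat.prime_two
  have hEa : IsElementaryAbelian 2 E := ⟨hE, hE2⟩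
  have hEn : ∀ g : P, g ∈ N_(E) := fun g => by rw [Subgroup.normalizer_eq_top]; trivial
  have hfix : ∀ t : P, t ^ 2 = 1 → ∃ W, IsElem 2 2 W E ∧ W ≤ C_[t] := by
    intro t ht
    have ht' : t * t = 1 := by rw [← sq, ht]
    have hi : t⁻¹ = t := inv_eq_of_mul_eq_one_right ht'
    have hm := fun {a b : P} (ha : a ∈ E) (hb : b ∈ E) => mul_comm_of_abelian hE ha hb
    let f : E →* E := MonoidHom.mk' (fun e => ⟨e * (t * e * t⁻¹), mul_mem e.2 (conj_mem_of_norm (hEn t) e.2)⟩)
      (fun a b => Subtype.ext (by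
        have := hm (conj_mem_of_norm (hEn t) a.2) b.2
        calc (a * b : P) * (t * (a * b) * t⁻¹) = a * (b * (t * a * t⁻¹)) * (t * b * t⁻¹) := by group
          _ = a * (t * a * t⁻¹) * (b * (t * b * t⁻¹)) := by rw [← this]; group))
    have h1 : f.ker ≤ (E ⊓ C_[t]).subgroupOf E := fun e he => by
      have h2 : (e : P) * (t * e * t⁻¹) = 1 := congrArg Subtype.val he
      have h3 : (e : P) * e = 1 := by rw [← sq, hE2 _ e.2]
      refine ⟨e.2, mem_cent1.2 ?_⟩
      have h4 : t * e * t⁻¹ = e := mul_left_cancel (h2.trans h3.symm)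
      exact (mul_inv_eq_iff_eq_mul.1 h4).symm
    have h2 : f.range ≤ (E ⊓ C_[t]).subgroupOf E := by
      rintro _ ⟨e, rfl⟩
      refine ⟨(f e).2, mem_cent1.2 ?_⟩
      have := hm (conj_mem_of_norm (hEn t) e.2) e.2
      show (e : P) * (t * e * t⁻¹) * t = t * (e * (t * e * t⁻¹))
      calc (e : P) * (t * e * t⁻¹) * t = (t * t) * e * t * e * (t * t) := by
            rw [ht', one_mul, mul_one]; group
        _ = t * (t * e * t⁻¹ * e) * (t * t) := by rw [hi]; simp only [mul_assoc]
        _ = _ := by rw [this, ht', mul_one]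
    have h3 := Subgroup.card_eq_card_quotient_mul_card_subgroup f.ker
    rw [Nat.card_congr (QuotientGroup.quotientKerEquivRange f).toEquiv] at h3
    have h4 := Nat.mul_le_mul (card_le h2) (card_le h1)
    rw [← h3, Nat.card_congr (Subgroup.subgroupOfEquivOfLe (inf_le_left : E ⊓ C_[t] ≤ E)).toEquiv] at h4
    obtain ⟨k, hk⟩ := pg_card p2 (hEa.of_le (inf_le_left : E ⊓ C_[t] ≤ E)).pg
    obtain ⟨W, hW⟩ := exists_isElem_le (n := 2) p2 (hEa.of_le (inf_le_left : E ⊓ C_[t] ≤ E)) (by
      rw [hk] at h4 ⊢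
      refine Nat.pow_le_pow_right (by norm_num) ?_
      by_contra hc
      have : k = 0 ∨ k = 1 := by omega
      rcases this with rfl | rfl <;> omega)
    exact ⟨W, hW.mono inf_le_left, hW.le.trans inf_le_right⟩
  obtain ⟨z, hz, hz1⟩ := exists_mem_ne_one (pg_fix_ne_bot p2 (A := ⊤) (hP.to_subgroup _) hEa.pg
    (fun g _ => hEn g) (fun e => by rw [e, Subgroup.card_bot] at hE8; omega))
  have hzc : ∀ A : Subgroup P, Subgroup.zpowers z ≤ C_(A) := fun A =>
    (Subgroup.zpowers_le.2 hz.2).trans (cent_anti le_top)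
  have hz2 := hEa.card_zpowers p2 hz.1 hz1
  let R := fun A B : Subgroup P => IsKleinFour A ∧ IsKleinFour B ∧ ∀ a ∈ A, ∀ b ∈ B, a * b = b * a
  have hR : ∀ {A B H K : Subgroup P}, IsElem 2 2 A H → IsElem 2 2 B K → A ≤ C_(B) → R A B := fun h1 h2 h3 =>
    ⟨klein_iff.2 h1.self, klein_iff.2 h2.self, le_cent_iff.1 h3⟩
  have k1 : ∀ t : P, orderOf t = 2 → t ≠ z → IsElem 2 2 (Subgroup.zpowers z ⊔ Subgroup.zpowers t) ⊤ ∧
      ∃ W, IsElem 2 2 W E ∧ R (Subgroup.zpowers z ⊔ Subgroup.zpowers t) W := by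
    intro t ht htz
    have h1 := (isElem_two_of p2 hz2 ((card_zpowers t).trans ht) (fun e => by
      have h2 : t ∈ Subgroup.zpowers z := e ▸ Subgroup.mem_zpowers t
      rw [mem_zpowers_iff_mem_range_orderOf, ← card_zpowers, hz2] at h2
      simp only [Finset.mem_image, Finset.mem_range] at h2
      obtain ⟨i, hi, rfl⟩ := h2
      interval_cases i <;> simp at ht htz) (cent_symm (hzc _))).top
    obtain ⟨W, hW, hWt⟩ := hfix t (ht ▸ pow_orderOf_eq_one t)
    exact ⟨h1, W, hW, hR h1 hW (sup_le (hzc _) (cent_symm (by rwa [cent_zpowers])))⟩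
  have key : ∀ V : Subgroup P, IsKleinFour V → ∃ W, IsElem 2 2 W E ∧ Relation.ReflTransGen R V W := by
    intro V hV
    have hV' := klein_iff.1 hV
    obtain ⟨t, ht, htz⟩ := SetLike.not_le_iff_exists.1 (hV'.not_le_of_card p2 hz2)
    have ht2 := hV'.elemAb.orderOf p2 ht (by rintro rfl; exact htz (one_mem _))
    obtain ⟨h1, W, hW, h2⟩ := k1 t ht2 (by rintro rfl; exact htz (Subgroup.mem_zpowers _))
    exact ⟨W, hW, (Relation.ReflTransGen.single (hR hV' h1 (cent_symm (sup_le (hzc _)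
      (le_cent_of_abelian hV'.abelian (Subgroup.zpowers_le.2 ht) le_rfl))))).tail h2⟩
  intro U V hU hV
  obtain ⟨W, hW, h1⟩ := key U hU
  obtain ⟨W', hW', h2⟩ := key V hV
  exact (h1.tail (hR hW hW' (le_cent_of_abelian hE hW.le hW'.le))).trans
    (rt_symm (fun A B h => ⟨h.2.1, h.1, fun a ha b hb => (h.2.2 b hb a ha).symm⟩) h2)

end Cfsg.Agent.S0502
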