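import Mathlib
import Cfsg.Statements.S0519
import Cfsg.Agent.H04.Aut
import Cfsg.Agent.BG.Api

set_option autoImplicit false
open Cfsg

namespace Cfsg.Agent.S0519

open BG

open DihedralGroup in
/-- a normal Klein four subgroup of `D₈` -/
def kl : Subgroup (DihedralGroup 4) where
  carrier := {x | x = r 0 ∨ x = r 2 ∨ x = sr 0 ∨ x = sr 2}
  mul_mem' := by simp only [Set.mem_ofPred_eq]; decide
  one_mem' := by simp only [Set.mem_ofPred_eq]; decide
  inv_mem' := by simp only [Set.mem_ofPred_eq]; decide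

open DihedralGroup in
theorem mem_kl {x : DihedralGroup 4} : x ∈ kl ↔ x = r 0 ∨ x = r 2 ∨ x = sr 0 ∨ x = sr 2 := Iff.rfl

instance : DecidablePred (· ∈ kl) := fun _ => decidable_of_iff _ mem_kl.symm

theorem kl_normal : kl.Normal := ⟨by decide⟩

theorem kl_elem : Cfsg.IsElementaryAbelian 2 kl :=
  ⟨abelian_iff.2 (le_cent_iff.2 (by decide)), by decide⟩

theorem kl_card : Nat.card kl = 4 := by rw [Nat.card_eq_fintype_card]; decide

/-- Let P be a finite p-group in which every abelian normal subgroup is cyclic, but which has a non-cyclic abelian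
subgroup. Then p = 2 and P is generalized quaternion, dihedral of order at least 16, or quasi-dihedral. -/
theorem result {P : Type*} [Group P] [Finite P] (p : ℕ) [Fact p.Prime]
    (hP : IsPGroup p P) (hn : ∀ A : Subgroup P, A.Normal → IsMulCommutative A → IsCyclic A)
    (hm : ∃ B : Subgroup P, IsMulCommutative B ∧ ¬ IsCyclic B) :
    p = 2 ∧ ((∃ n : ℕ, Nonempty (P ≃* QuaternionGroup n)) ∨ (∃ n : ℕ, 8 ≤ n ∧ Nonempty (P ≃* DihedralGroup n)) ∨
      Cfsg.IsQuasiDihedral P) := by
  obtain ⟨B, -, hB⟩ := hm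
  rcases H04.isCyclic_or_isDSQ_of_normal hP hn with h | ⟨h2, m, a, b, h⟩
  · exact absurd (Subgroup.isCyclic B) hB
  refine ⟨h2, ?_⟩
  rcases h.iso with ⟨⟨e⟩⟩ | h1 | ⟨h0, h1, h2⟩
  · rcases m with _ | m
    · exfalso
      have e' : P ≃* DihedralGroup 4 := e
      have hs : Function.Surjective e'.symm.toMonoidHom := e'.symm.surjective
      have := kl_elem.abelian
      have h1 := hn (kl.map e'.symm.toMonoidHom) (kl_normal.map _ hs) inferInstance
      have h2 := kl_elem.card_le_of_cyclic Nat.prime_two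
        (isCyclic_of_surjective _ (kl.equivMapOfInjective e'.symm.toMonoidHom e'.symm.injective).symm.surjective)
      rw [kl_card] at h2
      omega
    · refine Or.inr (Or.inl ⟨_, ?_, ⟨e⟩⟩)
      have := Nat.one_le_two_pow (n := m)
      rw [pow_succ, pow_succ, pow_succ]; omega
  · exact Or.inl ⟨_, h1⟩
  · exact Or.inr (Or.inr ⟨m + 2, by omega, h.card, a, b, h.ord, h1, h2⟩)

end Cfsg.Agent.S0519
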