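import Mathlib
import Cfsg.Statements.S0520
import Cfsg.Agent.S0502
import Cfsg.Agent.H02.Fitting

set_option autoImplicit false
open Cfsg

namespace Cfsg.Agent.S0520
open BG S0502
theorem rt_lift {α β : Type*} {r : α → α → Prop} {s : β → β → Prop} (f : α → β) (hr : ∀ a b, r a b → s (f a) (f b))
    {a b : α} (h : Relation.ReflTransGen r a b) : Relation.ReflTransGen s (f a) (f b) := by
  induction h with
  | refl => exact .refl
  | tail _ h1 ih => exact ih.tail (hr _ _ h1)


/-- Let G be a finite group of 2-rank at least 2 and S a Sylow 2-subgroup whose commuting graph of Klein four-subgroups is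
connected. Then the commuting graph of Klein four-subgroups of G is disconnected if and only if the 2-generated core — the
subgroup generated by the normalizers N_G(Q) of the subgroups Q of S that contain a Klein four-group — is a proper
subgroup of G. -/
theorem result {G : Type*} [Group G] [Finite G] (h2 : ¬ Cfsg.PRankLE 2 1 G)
    (S : Sylow 2 G) (hS : Cfsg.IsFourConnected (S : Subgroup G)) :
    ¬ Cfsg.IsFourConnected G ↔
      (⨆ Q : {Q : Subgroup G // Q ≤ (S : Subgroup G) ∧ ¬ Cfsg.PRankLE 2 1 Q},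
          Subgroup.normalizer ((Q : Subgroup G) : Set G)) ≠ ⊤ := by
  have p2 := Nat.prime_two
  set M := (⨆ Q : {Q : Subgroup G // Q ≤ (S : Subgroup G) ∧ ¬ Cfsg.PRankLE 2 1 Q},
          Subgroup.normalizer ((Q : Subgroup G) : Set G)) with hM
  have hS' := isSylowIn_top p2 S
  have hNM : ∀ {Q W : Subgroup G}, Q ≤ S → IsElem 2 2 W Q → N_(Q) ≤ M := fun {Q W} h1 h2 =>
    le_iSup (fun Q : {Q : Subgroup G // Q ≤ (S : Subgroup G) ∧ ¬ Cfsg.PRankLE 2 1 Q} =>
      Subgroup.normalizer ((Q : Subgroup G) : Set G)) ⟨Q, h1, h2.not_pRankLE p2⟩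
  obtain ⟨V, hV⟩ : ∃ V, IsElem 2 2 V (S : Subgroup G) := by
    obtain ⟨A, hA⟩ := (not_pRankLE_iff p2).1 (pRankLE_top.not.2 h2)
    obtain ⟨g, -, hg⟩ := sylow_Jsub p2 hS' hA.pg le_top
    exact ⟨_, (hA.cj g).sub hg⟩
  let R := fun A B : Subgroup G => IsKleinFour A ∧ IsKleinFour B ∧ ∀ a ∈ A, ∀ b ∈ B, a * b = b * a
  have hsym : ∀ {A B : Subgroup G}, Relation.ReflTransGen R A B → Relation.ReflTransGen R B A := fun h =>
    rt_symm (fun A B h => ⟨h.2.1, h.1, fun a ha b hb => (h.2.2 b hb a ha).symm⟩) h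
  have hcj : ∀ (g : G) {A B : Subgroup G}, Relation.ReflTransGen R A B → Relation.ReflTransGen R (cj g A) (cj g B) :=
    fun g A B h => rt_lift (cj g) (fun A B (h : R A B) => ⟨klein_iff.2 ((klein_iff.1 h.1).cj g),
      klein_iff.2 ((klein_iff.1 h.2.1).cj g), le_cent_iff.1 (by rw [← cj_cent]; exact cj_mono g (le_cent_iff.2 h.2.2))⟩) h
  have hin : ∀ {A B : Subgroup G}, IsElem 2 2 A S → IsElem 2 2 B S → Relation.ReflTransGen R A B := by
    intro A B hA hB
    have e : ∀ {A : Subgroup G}, IsElem 2 2 A S → IsKleinFour (A.subgroupOf S) := fun {A} hA =>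
      haveI := klein_iff.2 hA.self
      ⟨(Nat.card_congr (Subgroup.subgroupOfEquivOfLe hA.le).toEquiv).trans this.card_four,
        (Monoid.exponent_eq_of_mulEquiv (Subgroup.subgroupOfEquivOfLe hA.le)).trans this.exponent_two⟩
    have e' : ∀ {A : Subgroup (S : Subgroup G)}, IsKleinFour A → IsKleinFour (A.map (S : Subgroup G).subtype) :=
      fun {A} hA => ⟨(Nat.card_congr (A.equivMapOfInjective _ (S : Subgroup G).subtype_injective).toEquiv).symm.trans
        hA.card_four, (Monoid.exponent_eq_of_mulEquiv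
          (A.equivMapOfInjective _ (S : Subgroup G).subtype_injective)).symm.trans hA.exponent_two⟩
    have := rt_lift (s := R) (fun A : Subgroup (S : Subgroup G) => A.map (S : Subgroup G).subtype) (fun A B h => ⟨e' h.1, e' h.2.1, by
      rintro _ ⟨a, ha, rfl⟩ _ ⟨b, hb, rfl⟩
      exact congrArg Subtype.val (h.2.2 a ha b hb)⟩) (hS _ _ (e hA) (e hB))
    rwa [Subgroup.map_subgroupOf_eq_of_le hA.le, Subgroup.map_subgroupOf_eq_of_le hB.le] at this
  have core : ∀ (n : ℕ) (g : G) (W : Subgroup G), IsElem 2 2 W ((S : Subgroup G) ⊓ cj g S) →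
      Nat.card S - Nat.card ↥((S : Subgroup G) ⊓ cj g S) = n → g ∈ M := by
    intro n
    induction n using Nat.strong_induction_on with
    | _ n ih =>
    intro g W hW hn
    set D := (S : Subgroup G) ⊓ cj g S with hD
    by_cases e : D = S
    · exact hNM le_rfl hV (mem_norm_of_le_cj (inf_eq_left.1 e))
    have e' : D ≠ cj g S := fun e' => e (eq_of_le_of_card_eq inf_le_left (by rw [e', card_cj]))
    have l1 := nil_lt_norm (pg_nil p2 S.2) (lt_of_le_of_ne (inf_le_left : D ≤ S) e)
    have l2 := nil_lt_norm (pg_nil p2 (isPGroup_cj.2 S.2)) (lt_of_le_of_ne (inf_le_right : D ≤ cj g S) e')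
    obtain ⟨T, hT, hT1⟩ := sylow_superset p2 (pg_le S.2 (inf_le_left : (S : Subgroup G) ⊓ N_(D) ≤ S)) inf_le_right
    obtain ⟨h, -, hh⟩ := sylow_subJ p2 hS' (hT.pg p2) le_top
    obtain ⟨m, hm, hm1⟩ := sylow_Jsub p2 hT (pg_le (isPGroup_cj.2 S.2) (inf_le_left : cj g S ⊓ N_(D) ≤ _)) inf_le_right
    rw [← hD] at l1 l2
    have c1 := card_lt l1
    have c2 := card_lt l2
    have c0 := card_le (inf_le_left : (S : Subgroup G) ⊓ N_(D) ≤ S)
    have a1 : (S : Subgroup G) ⊓ N_(D) ≤ (S : Subgroup G) ⊓ cj h S := le_inf inf_le_left (hT1.trans hh)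
    have h1 : h ∈ M := ih _ (by have := card_le a1; omega) h W (hW.mono (l1.le.trans a1)) rfl
    have a2 : cj (h⁻¹ * m) (cj g S ⊓ N_(D)) ≤ (S : Subgroup G) ⊓ cj (h⁻¹ * m * g) S :=
      le_inf (by rw [← cj_cj]; exact le_cj_iff.1 (hm1.trans hh)) (by rw [← cj_cj _ g]; exact cj_mono _ inf_le_left)
    have h3 : h⁻¹ * m * g ∈ M := ih _ (by have := card_le a2; rw [card_cj] at this; omega) _ _
      (((hW.mono l2.le).cj _).mono a2) rfl
    have := M.mul_mem (M.inv_mem (M.mul_mem (M.inv_mem h1) (hNM inf_le_left hW hm))) h3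
    rwa [inv_mul_cancel_left] at this
  rw [not_iff_not]
  constructor
  · intro h
    rw [eq_top_iff]
    intro g _
    have key : ∀ W, Relation.ReflTransGen R V W → ∃ m ∈ M, W ≤ cj m S := by
      intro W hW
      induction hW with
      | refl => exact ⟨1, M.one_mem, by simpa using hV.le⟩
      | @tail A B _ h1 ih =>
        obtain ⟨m, hm, hA⟩ := ih
        have hA' := klein_iff.1 h1.1
        obtain ⟨k, -, hk⟩ := sylow_subJ p2 hS' (hA'.elemAb.sup (klein_iff.1 h1.2.1).elemAb (le_cent_iff.2 h1.2.2)).pg le_top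
        have := core _ (m⁻¹ * k) _ ((hA'.cj m⁻¹).sub (le_inf (le_cj_iff.1 hA)
          (by rw [← cj_cj]; exact cj_mono _ (le_sup_left.trans hk)))) rfl
        exact ⟨k, by simpa using M.mul_mem hm this, le_sup_right.trans hk⟩
    obtain ⟨m, hm, h1⟩ := key _ (h V (cj g V) (klein_iff.2 hV.self) (klein_iff.2 (hV.cj g).self))
    have := core _ (m⁻¹ * g) _ (((hV.cj g).cj m⁻¹).sub (le_inf (le_cj_iff.1 h1)
      (by rw [← cj_cj]; exact cj_mono _ (cj_mono _ hV.le)))) rfl
    simpa using M.mul_mem hm this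
  · intro h
    let H : Subgroup G :=
      { carrier := {g | Relation.ReflTransGen R V (cj g V)}
        one_mem' := by simp [Relation.ReflTransGen.refl]
        mul_mem' := fun {a b} ha hb => by
          show Relation.ReflTransGen R V (cj (a * b) V)
          rw [← cj_cj]; exact Relation.ReflTransGen.trans ha (hcj a hb)
        inv_mem' := fun {a} ha => by
          have := hcj a⁻¹ (hsym ha)
          rwa [cj_inv_cj] at this }
    have hH : M ≤ H := iSup_le fun Q g hg => by
      obtain ⟨W, hW⟩ := (not_pRankLE_iff p2).1 Q.2.2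
      exact (hin hV ((hW.cj_of_norm hg).mono Q.2.1)).trans (hcj g (hin (hW.mono Q.2.1) hV))
    have key : ∀ W : Subgroup G, IsKleinFour W → Relation.ReflTransGen R V W := fun W hW => by
      obtain ⟨g, -, hg⟩ := sylow_subJ p2 hS' (klein_iff.1 hW).pg le_top
      have := hcj g (hin hV (((klein_iff.1 hW).cj g⁻¹).sub (le_cj_iff.1 hg)))
      rw [cj_cj_inv] at this
      exact Relation.ReflTransGen.trans (hH (h ▸ Subgroup.mem_top g)) this
    exact fun U W hU hW => (hsym (key U hU)).trans (key W hW)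

end Cfsg.Agent.S0520
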