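import Mathlib
import Cfsg.Statements.S0521
import Cfsg.Agent.H17.OddSolv
import Cfsg.Agent.BG.Api

set_option autoImplicit false
open Cfsg

namespace Cfsg.Agent.S0521

open BG

open Subgroup H17 Cfsg commutatorElement in
theorem core {G : Type*} [Group G] [Finite G] [Group.IsSolvable G] {p : ℕ} [hp : Fact p.Prime] (hodd : Odd (Nat.card G))
    (hO : pPrimeCore p G = ⊥) {S : Subgroup G} (hS : IsPGroup p S) (hPS : pCore p G ≤ S) (hc : IsCyclic ↥⁅S, S⁆) :
    S ≤ pCore p G := by
  by_cases h2 : p = 2
  · rw [eq_bot_of_odd_of_two hodd h2 hS]; exact bot_le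
  intro a ha
  set P := pCore p G with hPd
  have hP : IsPGroup p P := H02.pCore_isPGroup p G
  have hΦ : ((frattini P).map P.subtype).Normal := H02.normal_map_subtype_of_characteristic _
  set f := QuotientGroup.mk' ((frattini P).map P.subtype) with hf
  have hfs : Function.Surjective f := QuotientGroup.mk'_surjective _
  have : (P.map f).Normal := Normal.map inferInstance f hfs
  have hV := elemAb_map_frattini hP f (by rw [hf, QuotientGroup.ker_mk'])
  have hc' : IsCyclic ↥⁅S.map f, S.map f⁆ := by
    rw [← map_commutator]; exact isCyclic_of_surjective _ (f.subgroupMap_surjective _)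
  have hn : S.map f ≤ N_(P.map f) := by rw [normalizer_eq_top]; exact le_top
  have hW : S.map f ≤ C_(⁅P.map f, S.map f⁆) := by
    by_cases h0 : ⁅P.map f, S.map f⁆ = ⊥
    · rw [h0]; exact le_cent_bot
    have e := hV.of_le (comm_le_left hn)
    have h1 := e.card_le_of_cyclic hp.out (cyclic_of_le hc' (comm_mono (map_mono hPS) le_rfl))
    exact pg_le_cent_of_card hp.out (hS.map f)
      (le_antisymm h1 (Nat.le_of_dvd (card_pos _) (pg_dvd hp.out e.pg h0))) (right_le_norm_comm _ _)
  have hz : zpowers (f a) ≤ S.map f := by rw [zpowers_le]; exact mem_map_of_mem f ha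
  have hq : ⁅⁅P.map f, zpowers (f a)⁆, zpowers (f a)⁆ = ⊥ :=
    comm_eq_bot.2 (le_cent_mono (cent_symm hW) (comm_mono le_rfl hz) hz)
  have h1 := isPStableOn_iff.1 (isPStableOn_of_not_sec h2 (not_sec_sl2_of_odd h2 (odd_card_quotient hodd _)) (P.map f)
    (hP.map f)) _ hq
  have h3 : (opMod p (centralizer (P.map f : Set _))).comap f ≤ opMod p (centralizer (P : Set G)) := by
    apply le_opMod_of_coprime
    intro x hx hc
    have h3 := mem_of_coprime_of_mem_opMod hx (hc.coprime_dvd_left (orderOf_map_dvd f x))
    refine mem_centralizer_of_frattini hP (by rw [normalizer_eq_top]; trivial) hc (fun y hy => ?_)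
    rw [← QuotientGroup.eq_one_iff]
    show f ⁅x, y⁆ = 1
    rw [map_commutatorElement, commutatorElement_eq_one_iff_mul_comm]
    exact (h3 _ ⟨y, hy, rfl⟩).symm
  have h4 := h3 h1
  rwa [opMod_eq_pCore (pg_le hP (centralizer_pCore_le_of_solvable hO))] at h4

/-- Let X be a finite solvable group of odd order, p a prime and S a Sylow p-subgroup of X whose commutator subgroup is
cyclic. Then the product of the largest normal subgroup of X of order prime to p with S is a normal subgroup of X. -/
theorem result {X : Type*} [Group X] [Finite X] [Group.IsSolvable X]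
    (hX : Odd (Nat.card X)) (p : ℕ) [Fact p.Prime] (S : Sylow p X) (hS : IsCyclic (commutator (S : Subgroup X))) :
    (Cfsg.pPrimeCore p X ⊔ (S : Subgroup X)).Normal := by
  have hp : p.Prime := Fact.out
  set f := QuotientGroup.mk' (Cfsg.pPrimeCore p X) with hf
  have hfs : Function.Surjective f := QuotientGroup.mk'_surjective _
  have hc : IsCyclic ↥⁅(S : Subgroup X).map f, (S : Subgroup X).map f⁆ := by
    rw [← Subgroup.map_commutator, ← Subgroup.map_subtype_commutator]
    have := isCyclic_of_surjective _ ((S : Subgroup X).subtype.subgroupMap_surjective (commutator _))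
    exact isCyclic_of_surjective _ (f.subgroupMap_surjective _)
  have hle : Cfsg.pCore p _ ≤ (S : Subgroup X).map f := H02.pCore_le_sylow (S.mapSurjective hfs)
  have h := core (H17.odd_card_quotient hX _) (H02.pPrimeCore_quotient_pPrimeCore p X) (S.2.map f) hle hc
  rw [sup_comm]
  exact H17.sup_normal_of_map_normal (by rw [← hf, le_antisymm h hle]; infer_instance)

end Cfsg.Agent.S0521
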