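import Mathlib
import Cfsg.Statements.S0522
import Cfsg.Agent.S0205
import Cfsg.Agent.H02.BG7b
import Cfsg.Agent.BG.C6_1
import Cfsg.Agent.BG.C4_5
import Cfsg.Agent.BG.C1_15

set_option autoImplicit false
open Cfsg

namespace Cfsg.Agent.S0522

open BG

/-- Transitivity Theorem (odd-order setting). Let X be a finite group of odd order in which the normalizer of every
nontrivial p-subgroup is solvable, P a Sylow p-subgroup, and B an abelian subgroup of P, normalized by P, with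
C_P(B) = B and containing an elementary abelian subgroup of order p^3. Then for every prime q ≠ p, any two q-subgroups
that are maximal among the q-subgroups normalized by B are conjugate by an element of the centralizer of B. -/
theorem result {X : Type*} [Group X] [Finite X] (hX : Odd (Nat.card X)) (p : ℕ)
    [Fact p.Prime] (hloc : ∀ T : Subgroup X, IsPGroup p T → T ≠ ⊥ → Group.IsSolvable (Subgroup.normalizer (T : Set X)))
    (P : Sylow p X) (B : Subgroup X) (hBP : B ≤ (P : Subgroup X))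
    (hBn : ∀ x ∈ (P : Subgroup X), ∀ b ∈ B, x * b * x⁻¹ ∈ B) (hBa : IsMulCommutative B)
    (hBc : (P : Subgroup X) ⊓ Subgroup.centralizer (B : Set X) = B)
    (hB3 : ∃ E : Subgroup X, E ≤ B ∧ (∀ e ∈ E, e ^ p = 1) ∧ p ^ 3 ≤ Nat.card E)
    (q : ℕ) [Fact q.Prime] (hqp : q ≠ p) (Q₁ Q₂ : Subgroup X)
    (h₁ : IsPGroup q Q₁ ∧ B ≤ Subgroup.normalizer (Q₁ : Set X) ∧
      ∀ R : Subgroup X, IsPGroup q R → B ≤ Subgroup.normalizer (R : Set X) → Q₁ ≤ R → R = Q₁)
    (h₂ : IsPGroup q Q₂ ∧ B ≤ Subgroup.normalizer (Q₂ : Set X) ∧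
      ∀ R : Subgroup X, IsPGroup q R → B ≤ Subgroup.normalizer (R : Set X) → Q₂ ≤ R → R = Q₂) :
    ∃ c ∈ Subgroup.centralizer (B : Set X), Q₂ = Q₁.map (MulAut.conj c).toMonoidHom := by
  have hp : p.Prime := Fact.out
  have hq : q.Prime := Fact.out
  have hs : Group.IsSolvable (⊤ : Subgroup X) := by have := Cfsg.Agent.S0205.result hX; infer_instance
  have ho : Odd (Nat.card (⊤ : Subgroup X)) := by rwa [Subgroup.card_top]
  have hP := isSylowIn_top hp P
  have hn : (P : Subgroup X) ≤ N_(B) := le_norm_iff.2 hBn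
  have hA : IsSCN (P : Subgroup X) B := ⟨hBP, hn, hBc⟩
  have hAp : IsPGroup p B := pg_le (hP.pg hp) hBP
  have key : ∀ Y : Subgroup X, IsPGroup q Y → B ≤ N_(Y) → Y ≤ piCoreOf {p}ᶜ ⊤ := fun Y hY hn' => by
    have hd := pg_not_dvd hp hq hY hqp.symm
    rw [← coprime_comm_sup_cent hn' (pg_coprime hp hAp hd) (Or.inl (sol_of_abelian hBa))]
    refine sup_le (H02.comm_le_p'core hp (T6_1.abelian_le hs ho hP hBP hn hBa) le_top hd hn') ?_
    have h1 := T4_5.scn_cent hP hA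
    refine le_trans ?_ (T1_15.b hs le_top hAp)
    exact (h1.sdprod.hall_right (by rw [compl_compl]; exact (isPi_singleton hp).2 hAp)
      (pcore_isPi _ _)).le_of_normal (le_norm_pcore _ _)
      ((isPi_compl hp).2 (not_dvd_of_le hd inf_le_left)) (inf_le_inf_right _ le_top)
  have hc := pg_coprime hp hAp (pcore_not_dvd hp ⊤)
  have hBK : B ≤ N_(piCoreOf {p}ᶜ (⊤ : Subgroup X)) := le_top.trans (le_norm_pcore _ _)
  have syl : ∀ Y : Subgroup X, IsPGroup q Y → B ≤ N_(Y) →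
      (∀ R : Subgroup X, IsPGroup q R → B ≤ N_(R) → Y ≤ R → R = Y) → IsSylowIn q Y (piCoreOf {p}ᶜ ⊤) :=
    fun Y h1 h2 h3 => by
      obtain ⟨R, r1, r2, r3⟩ := coprime_sylow_superset hq (Or.inl (sol_of_abelian hBa)) hBK hc h1 (key Y h1 h2) h2
      exact h3 R (r1.pg hq) r2 r3 ▸ r1
  obtain ⟨c, hc', e⟩ := coprime_sylow_trans hq (Or.inl (sol_of_abelian hBa)) hBK hc (syl _ h₁.1 h₁.2.1 h₁.2.2)
    (syl _ h₂.1 h₂.2.1 h₂.2.2) h₁.2.1 h₂.2.1
  exact ⟨c, hc'.2, e⟩

end Cfsg.Agent.S0522
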