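import Mathlib
import Cfsg.Statements.S0529
import Cfsg.Agent.H16.Super

set_option autoImplicit false
open Cfsg

namespace Cfsg.Agent.S0529

universe u

theorem aux (m : ℕ) : ∀ (G : Type u) [Group G] [Finite G], Nat.card G = m → Cfsg.IsSupersolvable G →
    ∃ (n : ℕ) (H : ℕ → Subgroup G), H 0 = ⊥ ∧ H n = ⊤ ∧ (∀ i, (H i).Normal) ∧
      (∀ i < n, H i ≤ H (i + 1) ∧ ((H i).relIndex (H (i + 1))).Prime) ∧
      ∀ i j, i ≤ j → j < n → (H j).relIndex (H (j + 1)) ≤ (H i).relIndex (H (i + 1)) := by
  induction m using Nat.strong_induction_on with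
  | _ m ih =>
  intro G _ _ hm hG
  rcases subsingleton_or_nontrivial G with h | h
  · exact ⟨0, fun _ => ⊥, rfl, Subsingleton.elim _ _, fun _ => inferInstance, by simp, by simp⟩
  have h1 : 1 < Nat.card G := Finite.one_lt_card
  have hne : (Nat.card G).primeFactors.Nonempty := Nat.nonempty_primeFactors.mpr h1
  set p := (Nat.card G).primeFactors.max' hne
  have hpm : p ∈ (Nat.card G).primeFactors := Finset.max'_mem _ _
  have hp : p.Prime := Nat.prime_of_mem_primeFactors hpm
  have hmax : ∀ q : ℕ, q.Prime → q ∣ Nat.card G → q ≤ p := fun q hq hd =>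
    Finset.le_max' _ q (Nat.mem_primeFactors.mpr ⟨hq, hd, by omega⟩)
  obtain ⟨N, hN, hNp⟩ := H16.ss_exists_normal_card_maxPrime hG hp (Nat.dvd_of_mem_primeFactors hpm) hmax
  have hN0 : N ≠ ⊥ := by
    rintro rfl
    rw [Subgroup.card_bot] at hNp
    exact hp.one_lt.ne hNp
  obtain ⟨n, H, h0, hn, hnorm, hs, hmono⟩ :=
    ih _ (hm ▸ H02.card_quotient_lt hN0) (G ⧸ N) rfl (H16.ss_quotient hG N)
  have hrel : ∀ A B : Subgroup (G ⧸ N), (A.comap (QuotientGroup.mk' N)).relIndex
      (B.comap (QuotientGroup.mk' N)) = A.relIndex B := by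
    intro A B
    rw [Subgroup.relIndex_comap,
      Subgroup.map_comap_eq_self_of_surjective (QuotientGroup.mk'_surjective N)]
  have hfirst : (⊥ : Subgroup G).relIndex ((H 0).comap (QuotientGroup.mk' N)) = p := by
    rw [h0, MonoidHom.comap_bot, QuotientGroup.ker_mk', Subgroup.relIndex_bot_left, hNp]
  refine ⟨n + 1, fun i => Nat.casesOn i ⊥ fun i => (H i).comap (QuotientGroup.mk' N), rfl, ?_, ?_,
    ?_, ?_⟩
  · simp [hn]
  · intro i
    cases i with
    | zero => exact (inferInstance : (⊥ : Subgroup G).Normal)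
    | succ i => exact (hnorm i).comap _
  · intro i hi
    cases i with
    | zero => exact ⟨bot_le, hfirst ▸ hp⟩
    | succ i =>
      obtain ⟨a, b⟩ := hs i (by omega)
      exact ⟨Subgroup.comap_mono a, (hrel _ _).symm ▸ b⟩
  · intro i j hij hj
    cases j with
    | zero => obtain rfl : i = 0 := by omega
              exact le_rfl
    | succ j =>
      cases i with
      | zero =>
        change _ ≤ (⊥ : Subgroup G).relIndex ((H 0).comap (QuotientGroup.mk' N))
        rw [hfirst]
        change ((H j).comap (QuotientGroup.mk' N)).relIndex ((H (j + 1)).comap (QuotientGroup.mk' N)) ≤ p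
        apply hmax
        · rw [hrel]; exact (hs j (by omega)).2
        · exact (Subgroup.relIndex_dvd_card _ _).trans (Subgroup.card_subgroup_dvd_card _)
      | succ i =>
        change ((H j).comap (QuotientGroup.mk' N)).relIndex ((H (j + 1)).comap (QuotientGroup.mk' N)) ≤
          ((H i).comap (QuotientGroup.mk' N)).relIndex ((H (i + 1)).comap (QuotientGroup.mk' N))
        rw [hrel, hrel]
        exact hmono i j (by omega) (by omega)

/-- A finite supersolvable group has a chain of normal subgroups, from the trivial subgroup to the whole group, in which every step has prime index and the primes occurring are non-increasing as one goes up the chain. -/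
theorem result {G : Type*} [Group G] [Finite G] (hG : Cfsg.IsSupersolvable G) : ∃ (n : ℕ) (H : Fin (n + 1) → Subgroup G), H 0 = ⊥ ∧ H (Fin.last n) = ⊤ ∧ (∀ i, (H i).Normal) ∧ (∀ i : Fin n, H i.castSucc ≤ H i.succ ∧ ((H i.castSucc).relIndex (H i.succ)).Prime) ∧ ∀ i j : Fin n, i ≤ j → (H j.castSucc).relIndex (H j.succ) ≤ (H i.castSucc).relIndex (H i.succ) := by
  obtain ⟨n, H, h0, hn, hnorm, hs, hmono⟩ := aux _ G rfl hG
  exact ⟨n, fun i => H i, h0, hn, fun i => hnorm i, fun i => hs i i.2,
    fun i j hij => hmono i j hij j.2⟩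

end Cfsg.Agent.S0529
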