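import Mathlib
import Cfsg.Statements.S0530
import Cfsg.Agent.H16.Super

set_option autoImplicit false
open Cfsg

namespace Cfsg.Agent.S0530

theorem aux {G : Type*} [Group G] [Finite G] [Nontrivial G] (P : Subgroup G) [Group.IsNilpotent P]
    (hP : P.index ∣ 2) : ∃ q : G, q ≠ 1 ∧ (Subgroup.zpowers q).Normal := by
  have hn : P.Normal := by
    rcases (Nat.dvd_prime Nat.prime_two).mp hP with h | h
    · exact Subgroup.normal_of_index_eq_one h
    · exact Subgroup.normal_of_index_eq_two h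
  by_cases hb : P = ⊥
  · subst hb
    rw [Subgroup.index_bot] at hP
    have := Fact.mk Nat.prime_two
    have : IsCyclic G := isCyclic_of_card_dvd_prime hP
    obtain ⟨q, hq⟩ := exists_ne (1 : G)
    have : IsCyclic (⊤ : Subgroup G) := inferInstance
    exact ⟨q, hq, H16.normal_of_le_isCyclic ⊤ le_top⟩
  have : Nontrivial P := (Subgroup.nontrivial_iff_ne_bot P).mpr hb
  obtain ⟨z, hz, hz1⟩ := (Subgroup.bot_or_exists_ne_one _).resolve_left
    (Group.IsNilpotent.center_ne_bot (G := P))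
  have hzc : ∀ y ∈ P, y * (z : G) * y⁻¹ = z := by
    intro y hy
    have := congrArg Subtype.val (Subgroup.mem_center_iff.mp hz ⟨y, hy⟩)
    simp only [Subgroup.coe_mul] at this
    rw [this]; group
  have hz1' : (z : G) ≠ 1 := fun h => hz1 (Subtype.ext h)
  have normal_of : ∀ w : G, (∀ g : G, g * w * g⁻¹ = w ∨ g * w * g⁻¹ = w⁻¹) →
      (Subgroup.zpowers w).Normal := by
    intro w hw
    refine ⟨?_⟩
    rintro _ ⟨k, rfl⟩ g
    change g * w ^ k * g⁻¹ ∈ _
    rw [← conj_zpow]
    rcases hw g with h | h <;> rw [h]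
    · exact Subgroup.zpow_mem_zpowers w k
    · exact Subgroup.zpow_mem _ (Subgroup.inv_mem _ (Subgroup.mem_zpowers w)) k
  by_cases ht : P = ⊤
  · exact ⟨z, hz1', normal_of _ fun g => Or.inl (hzc g (ht ▸ Subgroup.mem_top g))⟩
  have h2 : P.index = 2 := by
    rcases (Nat.dvd_prime Nat.prime_two).mp hP with h | h
    · exact absurd (Subgroup.index_eq_one.mp h) ht
    · exact h
  obtain ⟨t, ht⟩ : ∃ t, t ∉ P := by
    by_contra hc
    push Not at hc
    exact ht (eq_top_iff.mpr fun x _ => hc x)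
  have hmul : ∀ g, g ∉ P → t⁻¹ * g ∈ P := fun g hg =>
    (Subgroup.mul_mem_iff_of_index_two h2).mpr (by simp [ht, hg])
  have htt : t * t ∈ P := (Subgroup.mul_mem_iff_of_index_two h2).mpr Iff.rfl
  have hconj : ∀ g, g ∉ P → g * (z : G) * g⁻¹ = t * z * t⁻¹ := by
    intro g hg
    have := hzc _ (hmul g hg)
    calc g * (z : G) * g⁻¹ = t * (t⁻¹ * g * z * (t⁻¹ * g)⁻¹) * t⁻¹ := by group
      _ = _ := by rw [this]
  by_cases hinv : t * (z : G) * t⁻¹ = (z : G)⁻¹
  · refine ⟨z, hz1', normal_of _ fun g => ?_⟩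
    by_cases hg : g ∈ P
    · exact Or.inl (hzc g hg)
    · exact Or.inr (by rw [hconj g hg, hinv])
  · refine ⟨z * (t * z * t⁻¹), fun h => hinv (eq_inv_of_mul_eq_one_right h),
      normal_of _ fun g => Or.inl ?_⟩
    have hz' : t * z * t⁻¹ ∈ P := hn.conj_mem _ z.2 t
    have hcomm : (t * z * t⁻¹) * z = z * (t * z * t⁻¹) := by
      have := hzc _ hz'
      calc (t * z * t⁻¹) * z = ((t * z * t⁻¹) * z * (t * z * t⁻¹)⁻¹) * (t * z * t⁻¹) := by group
        _ = _ := by rw [this]
    have e : g * (z * (t * z * t⁻¹)) * g⁻¹ = (g * z * g⁻¹) * ((g * t) * z * (g * t)⁻¹) := by group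
    rw [e]
    by_cases hg : g ∈ P
    · rw [hzc g hg, hconj (g * t) (by rwa [P.mul_mem_cancel_left hg])]
    · rw [hconj g hg, hzc (g * t) ((Subgroup.mul_mem_iff_of_index_two h2).mpr (by simp [ht, hg])),
        hcomm]

/-- A finite group whose order is twice a prime power is supersolvable. -/
theorem result {G : Type*} [Group G] [Finite G] (p n : ℕ) (hp : p.Prime) (hG : Nat.card G = 2 * p ^ n) : Cfsg.IsSupersolvable G := by
  have := Fact.mk hp
  obtain ⟨P, hP⟩ := Sylow.exists_subgroup_card_pow_prime (G := G) p (n := n)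
    (hG ▸ Dvd.intro_left 2 rfl)
  have hPi : P.index = 2 := by
    have := P.card_mul_index
    rw [hP, hG, mul_comm] at this
    exact Nat.eq_of_mul_eq_mul_right (pow_pos hp.pos n) this
  have hPp : IsPGroup p P := IsPGroup.of_card hP
  apply H16.ss_of_forall_quotient
  intro N _ hN
  have : Nontrivial (G ⧸ N) := QuotientGroup.nontrivial_iff.mpr hN
  have := (hPp.map (QuotientGroup.mk' N)).isNilpotent
  exact aux (P.map (QuotientGroup.mk' N))
    (hPi ▸ Subgroup.index_map_dvd P (QuotientGroup.mk'_surjective N))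

end Cfsg.Agent.S0530
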