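import Mathlib
import Cfsg.Statements.S0537
import Cfsg.Agent.H16.Schmidt

set_option autoImplicit false
open Cfsg

namespace Cfsg.Agent.S0537

/-- A finite non-abelian group in which every proper subgroup is abelian is either of prime-power order, or is generated by a cyclic Sylow p-subgroup and a normal Sylow q-subgroup that is elementary abelian, for distinct primes p and q. -/
theorem result {G : Type*} [Group G] [Finite G] (hna : ¬ IsMulCommutative G) (h : ∀ H : Subgroup G, H ≠ ⊤ → IsMulCommutative H) : (∃ p : ℕ, p.Prime ∧ IsPGroup p G) ∨ ∃ p q : ℕ, p.Prime ∧ q.Prime ∧ p ≠ q ∧ ∃ (P : Sylow p G) (Q : Sylow q G), IsCyclic P ∧ (Q : Subgroup G).Normal ∧ Cfsg.IsElementaryAbelian q (Q : Subgroup G) ∧ (P : Subgroup G) ⊔ Q = ⊤ := by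
  by_cases hn : Group.IsNilpotent G
  · left
    by_contra hc
    push Not at hc
    apply hna
    apply H16.isMulCommutative_of_nilpotent_of_pgroups
    intro p hp P
    apply h
    intro ht
    exact hc p hp.out ((ht ▸ P.isPGroup').of_equiv Subgroup.topEquiv)
  right
  obtain ⟨p, q, hp, hq, hne, P, Q, hP, hQ, ht⟩ := H16.schmidt_structure ⟨hn, fun H hH => by
    haveI := h H hH
    exact H02.isNilpotent_of_isMulCommutative H⟩
  haveI := Fact.mk hp
  haveI := Fact.mk hq
  refine ⟨p, q, hp, hq, hne, P, Q, hP, hQ, ?_, ht⟩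
  have hQt : (Q : Subgroup G) ≠ ⊤ := fun ht =>
    hn ((ht ▸ Q.isPGroup').of_equiv Subgroup.topEquiv).isNilpotent
  haveI hQc := h _ hQt
  haveI := H04.omegaOne_normal (p := q) (Q : Subgroup G)
  have hcop := H16.coprime_card_of_isPGroup_ne hne P.isPGroup' Q.isPGroup'
  have h1 : (P : Subgroup G) ⊔ omegaOne q (Q : Subgroup G) = ⊤ := by
    by_contra hc
    haveI := h _ hc
    apply hna
    refine H16.comm_of_sup_of_le_centralizer (H01.le_centralizer_of_prime_order
      (H01.le_normalizer_of_normal _ _) hcop ?_) ht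
    intro v hv hvp a ha
    obtain ⟨k, hk⟩ := Q.isPGroup' ⟨v, hv⟩
    have h2 : orderOf v ∣ q ^ k := orderOf_dvd_of_pow_eq_one (congrArg Subtype.val hk)
    have h3 : orderOf v = q := (Nat.prime_dvd_prime_iff_eq hvp hq).1 (hvp.dvd_of_dvd_pow h2)
    exact H16.comm_of_isMulCommutative (A := (P : Subgroup G) ⊔ omegaOne q (Q : Subgroup G))
      (Subgroup.mem_sup_left ha)
      (Subgroup.mem_sup_right (H04.mem_omegaOne hv (h3 ▸ pow_orderOf_eq_one v)))
  have h2 := H16.eq_of_le_of_sup_of_disjoint' (H04.omegaOne_le (p := q) (Q : Subgroup G))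
    (H01.le_normalizer_of_normal (P : Subgroup G) _)
    (Subgroup.disjoint_of_coprime_natCard hcop).symm (h1 ▸ le_top)
  rw [← h2]
  exact H04.isElementaryAbelian_omegaOne_of_comm hQc

end Cfsg.Agent.S0537
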