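import Mathlib
import Cfsg.Statements.S0540
import Cfsg.Agent.H16.Subnormal

set_option autoImplicit false
open Pointwise
open Cfsg

namespace Cfsg.Agent.S0540

/-- A uniqueness lemma of zipper type. Let A be a subgroup of a finite group G and U a nonempty family of subgroups. For V in U write S(V) for the set of conjugates of A that lie in V and are subnormal in V. Assume: A belongs to S(V) for every V in U; a member of some S(W) that lies in V belongs to S(V); and for all V, W in U the normalizer of the join of S(V) ∩ S(W) lies in some member of U. Then U has a greatest element. -/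
theorem result {G : Type*} [Group G] [Finite G] (A : Subgroup G) (U : Set (Subgroup G)) (hU : U.Nonempty) (S : Subgroup G → Set (Subgroup G)) (hS : ∀ V B : Subgroup G, B ∈ S V ↔ (∃ g : G, B = MulAut.conj g • A) ∧ B ≤ V ∧ (B.subgroupOf V).IsSubnormal) (h1 : ∀ V ∈ U, A ∈ S V) (h2 : ∀ V ∈ U, ∀ W ∈ U, ∀ B ∈ S W, B ≤ V → B ∈ S V) (h3 : ∀ V ∈ U, ∀ W ∈ U, ∃ X ∈ U, Subgroup.normalizer ((sSup (S V ∩ S W) : Subgroup G) : Set G) ≤ X) : ∃ M ∈ U, ∀ V ∈ U, V ≤ M := by
  classical
  have hconj : ∀ V : Subgroup G, ∀ B ∈ S V, ∀ g ∈ V, MulAut.conj g • B ∈ S V := by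
    intro V B hB g hg
    obtain ⟨⟨x, rfl⟩, hle, hsn⟩ := (hS V B).mp hB
    refine (hS V _).mpr ⟨⟨g * x, H02.conj_smul_conj_smul _ _ _⟩, ?_, ?_⟩
    · rw [← H02.conj_smul_eq_of_mem hg]
      exact Subgroup.pointwise_smul_le_pointwise_smul_iff.mpr hle
    · have := hsn.smul (MulAut.conj (⟨g, hg⟩ : V))
      convert this using 1
      ext y
      simp only [Subgroup.mem_subgroupOf, H02.mem_conj_smul_iff]
      rfl
  have hnorm : ∀ V : Subgroup G, V ≤ Subgroup.normalizer ((sSup (S V) : Subgroup G) : Set G) := by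
    intro V
    rw [Subgroup.le_normalizer_iff]
    intro x hx
    suffices h : sSup (S V) ≤ (sSup (S V)).comap (MulAut.conj x).toMonoidHom from fun y hy => h hy
    refine sSup_le fun B hB => ?_
    rw [← Subgroup.map_le_iff_le_comap]
    exact le_sSup (hconj V B hB x hx)
  have hmax : ∀ V ∈ U, ∃ M, V ≤ M ∧ Maximal (· ∈ U) M := fun V hV => Finite.exists_le_maximal hV
  have key : ∀ n : ℕ, ∀ V W : Subgroup G, Maximal (· ∈ U) V → Maximal (· ∈ U) W →
      Nat.card (Subgroup G) - (S V ∩ S W).ncard = n → V = W := by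
    intro n
    induction n using Nat.strong_induction_on with
    | _ n ih =>
    intro V W hV hW hn
    obtain ⟨X', hX', hX'n⟩ := h3 V hV.1 W hW.1
    obtain ⟨X, hX'X, hX⟩ := hmax X' hX'
    have hXn := hX'n.trans hX'X
    have aux : ∀ V W : Subgroup G, Maximal (· ∈ U) V → Maximal (· ∈ U) W →
        Nat.card (Subgroup G) - (S V ∩ S W).ncard = n →
        Subgroup.normalizer ((sSup (S V ∩ S W) : Subgroup G) : Set G) ≤ X → V = X := by
      intro V W hV hW hn hXn
      by_cases hc : S V ∩ S W = S V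
      · rw [hc] at hXn
        exact hV.eq_of_le hX.1 ((hnorm V).trans hXn)
      have hss : S V ∩ S W ⊂ S V := Set.ssubset_iff_subset_ne.mpr ⟨Set.inter_subset_left, hc⟩
      obtain ⟨B, hB, hB0, hBn⟩ := H16.exists_le_normalizer_sSup_in V (S V) (S V ∩ S W)
        (fun B hB => ((hS V B).mp hB).2.1) (fun B hB => ((hS V B).mp hB).2.2) (hconj V) hss
      have hBX : B ∈ S X := h2 X hX.1 V hV.1 B hB (hBn.trans hXn)
      have hss2 : S V ∩ S W ⊂ S V ∩ S X := by
        refine ⟨fun C hC => ⟨hC.1, h2 X hX.1 V hV.1 C hC.1 ?_⟩, fun h => hB0 (h ⟨hB, hBX⟩)⟩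
        exact ((le_sSup hC).trans Subgroup.le_normalizer).trans hXn
      have hlt := Set.ncard_lt_ncard hss2
      have hle : (S V ∩ S X).ncard ≤ Nat.card (Subgroup G) := Set.ncard_le_card _
      exact ih _ (by omega) V X hV hX rfl
    have e1 := aux V W hV hW hn hXn
    have e2 := aux W V hW hV (by rwa [Set.inter_comm]) (by rwa [Set.inter_comm])
    rw [e1, e2]
  obtain ⟨V₀, hV₀⟩ := hU
  obtain ⟨M, -, hM⟩ := hmax V₀ hV₀
  refine ⟨M, hM.1, fun V hV => ?_⟩
  obtain ⟨W, hVW, hW⟩ := hmax V hV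
  rwa [key _ W M hW hM rfl] at hVW

end Cfsg.Agent.S0540
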