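import Mathlib
import Cfsg.Statements.S0541
import Cfsg.Agent.H16.Subnormal
import Cfsg.Agent.H01.Basic

set_option autoImplicit false
open Pointwise
open Cfsg

namespace Cfsg.Agent.S0541

/-- Let Z and Y be subgroups of a finite group G and p a prime. Suppose that for every g in G the subgroup generated by the conjugates of g Z g⁻¹ under Y is a p-group. Then there is a Sylow p-subgroup P of G such that Y normalizes the subgroup generated by all conjugates of Z contained in P. -/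
theorem result {G : Type*} [Group G] [Finite G] (p : ℕ) [Fact p.Prime] (Z Y : Subgroup G) (h : ∀ g : G, IsPGroup p ↥(⨆ y ∈ Y, MulAut.conj (y * g) • Z)) : ∃ P : Sylow p G, Y ≤ Subgroup.normalizer ((⨆ g ∈ {g : G | MulAut.conj g • Z ≤ (P : Subgroup G)}, MulAut.conj g • Z : Subgroup G) : Set G) := by
  classical
  -- conjugation invariant sets
  let T : Set (Subgroup G) := {W | IsPGroup p W ∧ Y ≤ Subgroup.normalizer (W : Set G) ∧
    W = sSup {U | (∃ g : G, U = MulAut.conj g • Z) ∧ U ≤ W}}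
  have hT : (⊥ : Subgroup G) ∈ T := by
    refine ⟨IsPGroup.of_bot, by rw [Subgroup.normalizer_eq_top]; exact le_top, ?_⟩
    exact le_antisymm bot_le (sSup_le fun U hU => hU.2)
  obtain ⟨W, -, hW⟩ := Finite.exists_le_maximal (p := (· ∈ T)) hT
  obtain ⟨⟨hW1, hW2, hW3⟩, hWmax⟩ := hW
  obtain ⟨P, hP⟩ := hW1.exists_le_sylow
  refine ⟨P, ?_⟩
  have hEq : (⨆ g ∈ {g : G | MulAut.conj g • Z ≤ (P : Subgroup G)}, MulAut.conj g • Z : Subgroup G)
      = sSup {U | (∃ g : G, U = MulAut.conj g • Z) ∧ U ≤ (P : Subgroup G)} := by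
    apply le_antisymm
    · exact iSup₂_le fun g hg => le_sSup ⟨⟨g, rfl⟩, hg⟩
    · refine sSup_le ?_
      rintro U ⟨⟨g, rfl⟩, hg⟩
      exact le_iSup₂_of_le (f := fun g (_ : g ∈ {g : G | MulAut.conj g • Z ≤ (P : Subgroup G)}) =>
        MulAut.conj g • Z) g hg le_rfl
  rw [hEq]
  by_cases hc : {U | (∃ g : G, U = MulAut.conj g • Z) ∧ U ≤ W} =
      {U | (∃ g : G, U = MulAut.conj g • Z) ∧ U ≤ (P : Subgroup G)}
  · rw [← hc, ← hW3]; exact hW2
  exfalso
  have hss : {U | (∃ g : G, U = MulAut.conj g • Z) ∧ U ≤ W} ⊂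
      {U | (∃ g : G, U = MulAut.conj g • Z) ∧ U ≤ (P : Subgroup G)} :=
    Set.ssubset_iff_subset_ne.mpr ⟨fun U hU => ⟨hU.1, hU.2.trans hP⟩, hc⟩
  have := P.isPGroup'.isNilpotent
  obtain ⟨X, ⟨⟨g, rfl⟩, hXP⟩, hX0, hXn⟩ := H16.exists_le_normalizer_sSup_in (P : Subgroup G) _ _
    (fun U hU => hU.2) (fun U _ => H16.isSubnormal_of_isNilpotent _) (by
      rintro U ⟨⟨g, rfl⟩, hU⟩ x hx
      refine ⟨⟨x * g, H02.conj_smul_conj_smul _ _ _⟩, ?_⟩
      rw [← H02.conj_smul_eq_of_mem hx]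
      exact Subgroup.pointwise_smul_le_pointwise_smul_iff.mpr hU) hss
  rw [← hW3] at hXn
  set R : Subgroup G := ⨆ y ∈ Y, MulAut.conj (y * g) • Z with hR
  have hRn : R ≤ Subgroup.normalizer (W : Set G) := by
    refine iSup₂_le fun y hy => ?_
    rw [← H02.conj_smul_conj_smul]
    intro a ha
    rw [H02.mem_conj_smul_iff] at ha
    have := mul_mem (mul_mem (hW2 hy) (hXn ha)) (inv_mem (hW2 hy))
    simpa [mul_assoc] using this
  have hYR : Y ≤ Subgroup.normalizer (R : Set G) := by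
    rw [Subgroup.le_normalizer_iff]
    intro x hx
    suffices h : R ≤ R.comap (MulAut.conj x).toMonoidHom from fun y hy => h hy
    refine iSup₂_le fun y hy => ?_
    rw [← Subgroup.map_le_iff_le_comap, H02.map_conj_eq_smul, H02.conj_smul_conj_smul, ← mul_assoc]
    exact le_iSup₂_of_le (f := fun y (_ : y ∈ Y) => MulAut.conj (y * g) • Z) (x * y)
      (mul_mem hx hy) le_rfl
  have hgR : MulAut.conj g • Z ≤ R := by
    have := le_iSup₂ (f := fun y (_ : y ∈ Y) => MulAut.conj (y * g) • Z) 1 (one_mem Y)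
    rwa [one_mul] at this
  have hmem : R ⊔ W ∈ T := by
    refine ⟨(h g).to_sup_of_normal_right' hW1 hRn, H16.le_normalizer_sup hYR hW2, ?_⟩
    refine le_antisymm (sup_le ?_ ?_) (sSup_le fun U hU => hU.2)
    · refine iSup₂_le fun y hy => le_sSup ⟨⟨_, rfl⟩, le_trans ?_ le_sup_left⟩
      exact le_iSup₂ (f := fun y (_ : y ∈ Y) => MulAut.conj (y * g) • Z) y hy
    · conv_lhs => rw [hW3]
      exact sSup_le_sSup fun U hU => ⟨hU.1, hU.2.trans le_sup_right⟩
  have := hWmax hmem le_sup_right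
  exact hX0 ⟨⟨g, rfl⟩, (hgR.trans le_sup_left).trans this⟩

end Cfsg.Agent.S0541
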