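import Mathlib
import Cfsg.Statements.S0546
import Cfsg.Agent.H16.SysNorm

set_option autoImplicit false
open Cfsg

namespace Cfsg.Agent.S0546

/-- The normal closure of a system normalizer of a finite solvable group is the whole group. -/
theorem result {G : Type*} [Group G] [Finite G] [Group.IsSolvable G] (K : Nat.Primes → Subgroup G) (hK : Cfsg.IsComplementSystem K) : Subgroup.normalClosure ((Cfsg.systemNormalizer K : Subgroup G) : Set G) = ⊤ := by
  set N := Subgroup.normalClosure ((Cfsg.systemNormalizer K : Subgroup G) : Set G) with hN
  by_contra hne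
  haveI : Nontrivial (G ⧸ N) := QuotientGroup.nontrivial_iff.2 hne
  have hs := QuotientGroup.mk'_surjective N
  set M := (commutator (G ⧸ N)).comap (QuotientGroup.mk' N) with hM
  have hMt : M ≠ ⊤ := fun h => (Group.IsSolvable.commutator_lt_top_of_nontrivial (G ⧸ N)).ne (by
    rw [← Subgroup.map_comap_eq_self_of_surjective hs (commutator _), ← hM, h,
      Subgroup.map_top_of_surjective _ hs])
  have h1 : commutator G ≤ M := by
    rw [hM, ← Subgroup.map_le_iff_le_comap, commutator_def, commutator_def, Subgroup.map_commutator]
    exact Subgroup.commutator_mono le_top le_top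
  haveI : IsMulCommutative (G ⧸ M) := Subgroup.Normal.quotient_commutative_iff_commutator_le.2 h1
  have h2 := H16.sysnorm_map hK M
  have h3 : Cfsg.systemNormalizer (fun p => (K p).map (QuotientGroup.mk' M)) = ⊤ := by
    rw [eq_top_iff]
    intro x _
    refine H16.mem_systemNormalizer.2 fun p => ?_
    haveI : ((K p).map (QuotientGroup.mk' M)).Normal := Subgroup.normal_of_isMulCommutative _
    rw [Subgroup.normalizer_eq_top]; trivial
  have h4 := congrArg (Subgroup.comap (QuotientGroup.mk' M)) (h3.symm.trans h2)
  rw [Subgroup.comap_top, Subgroup.comap_map_eq, QuotientGroup.ker_mk', sup_eq_right.2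
    (Subgroup.le_normalClosure.trans (QuotientGroup.le_comap_mk' N _))] at h4
  exact hMt h4.symm

end Cfsg.Agent.S0546
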