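import Mathlib
import Cfsg.Statements.S0547
import Cfsg.Agent.H16.Primitive

set_option autoImplicit false
open Cfsg

namespace Cfsg.Agent.S0547

/-- Let a finite solvable group G act faithfully and primitively on a set, and let M be a minimal normal subgroup of G. Then M is transitive with trivial point stabilizers, and the number of points equals the order of M, which is a prime power p ^ d with d ≥ 1. -/
theorem result {G : Type*} [Group G] [Finite G] [Group.IsSolvable G] {Ω : Type*} [Nonempty Ω] [MulAction G Ω] [FaithfulSMul G Ω] (hprim : MulAction.IsPreprimitive G Ω) (M : Subgroup G) [M.Normal] (hM : M ≠ ⊥) (hmin : ∀ K : Subgroup G, K.Normal → K ≤ M → K = ⊥ ∨ K = M) : MulAction.IsPretransitive M Ω ∧ (∀ ω : Ω, MulAction.stabilizer M ω = ⊥) ∧ ∃ p d : ℕ, p.Prime ∧ 0 < d ∧ Nat.card Ω = p ^ d ∧ Nat.card M = p ^ d := by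
  have := H16.nontrivial_of_faithful (Ω := Ω) hM
  obtain ⟨hc, p, hp, hMp⟩ := H02.minimal_normal_elementary_of_isSolvable hM hmin
  have key := fun ω : Ω => H16.corefree_abelian
    (MulAction.IsPreprimitive.isCoatom_stabilizer_of_isPreprimitive G ω)
    (H16.stabilizer_corefree ω) hM hc
  refine ⟨⟨fun x y => ?_⟩, fun ω => ?_, ?_⟩
  · obtain ⟨g, rfl⟩ := MulAction.exists_smul_eq G x y
    obtain ⟨⟨m, u⟩, h, -⟩ := (key x).2.2.existsUnique g
    refine ⟨m, ?_⟩
    have hu : (u : G) • x = x := u.2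
    rw [← h, mul_smul, hu]; rfl
  · rw [eq_bot_iff]
    intro m hm
    have : (m : G) ∈ M ⊓ MulAction.stabilizer G ω := ⟨m.2, hm⟩
    rw [(key ω).2.1] at this
    exact Subtype.ext this
  · have := Fact.mk hp
    obtain ⟨d, hd⟩ := IsPGroup.iff_card.mp (H02.isPGroup_of_pow_eq_one hMp)
    obtain ⟨ω⟩ := ‹Nonempty Ω›
    refine ⟨p, d, hp, ?_, ?_, hd⟩
    · rcases Nat.eq_zero_or_pos d with rfl | h
      · exact absurd (Subgroup.card_eq_one.mp hd) hM
      · exact h
    · rw [← MulAction.index_stabilizer_of_transitive G ω, (key ω).2.2.index_eq_card, hd]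

end Cfsg.Agent.S0547
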