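import Mathlib
import Cfsg.Statements.S0548
import Cfsg.Agent.H16.Primitive

set_option autoImplicit false
open Cfsg

namespace Cfsg.Agent.S0548

/-- Let a finite solvable group G act faithfully and primitively on a set, let M be a minimal normal subgroup and H the stabilizer of a point. Then H is a complement to M, no non-identity element of H centralizes M, and the only subgroups of M normalized by H are the trivial subgroup and M. -/
theorem result {G : Type*} [Group G] [Finite G] [Group.IsSolvable G] {Ω : Type*} [MulAction G Ω] [FaithfulSMul G Ω] (hprim : MulAction.IsPreprimitive G Ω) (M : Subgroup G) [M.Normal] (hM : M ≠ ⊥) (hmin : ∀ K : Subgroup G, K.Normal → K ≤ M → K = ⊥ ∨ K = M) (ω : Ω) : Subgroup.IsComplement' M (MulAction.stabilizer G ω) ∧ MulAction.stabilizer G ω ⊓ Subgroup.centralizer (M : Set G) = ⊥ ∧ ∀ K : Subgroup G, K ≤ M → MulAction.stabilizer G ω ≤ Subgroup.normalizer (K : Set G) → K = ⊥ ∨ K = M := by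
  have := H16.nontrivial_of_faithful (Ω := Ω) hM
  obtain ⟨hc, p, hp, hMp⟩ := H02.minimal_normal_elementary_of_isSolvable hM hmin
  obtain ⟨h1, h2, h3⟩ := H16.corefree_abelian
    (MulAction.IsPreprimitive.isCoatom_stabilizer_of_isPreprimitive G ω)
    (H16.stabilizer_corefree ω) hM hc
  refine ⟨h3, by rw [h1, inf_comm, h2], fun K hK hn => hmin K ?_ hK⟩
  refine H02.normal_of_normalizer_of_sup (A := M) ?_ hn h3.sup_eq_top
  refine le_trans ?_ (Subgroup.centralizer_le_normalizer _)
  exact h1.ge.trans (Subgroup.centralizer_le hK)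

end Cfsg.Agent.S0548
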