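import Mathlib
import Cfsg.Statements.S0550
import Cfsg.Agent.H16.Primitive

set_option autoImplicit false
open Cfsg

namespace Cfsg.Agent.S0550

/-- Let U be a maximal subgroup with trivial normal core in a finite group G, and A ≠ B two minimal normal subgroups. Then A is the centralizer of B and B that of A, U complements each of them, A and B are non-abelian, and A, B and (A ⊔ B) ∩ U are pairwise isomorphic. -/
theorem result {G : Type*} [Group G] [Finite G] (U : Subgroup G) (hU : IsCoatom U) (hcore : U.normalCore = ⊥) (A B : Subgroup G) [A.Normal] [B.Normal] (hA : A ≠ ⊥) (hB : B ≠ ⊥) (hAmin : ∀ K : Subgroup G, K.Normal → K ≤ A → K = ⊥ ∨ K = A) (hBmin : ∀ K : Subgroup G, K.Normal → K ≤ B → K = ⊥ ∨ K = B) (hAB : A ≠ B) : Subgroup.centralizer (B : Set G) = A ∧ Subgroup.centralizer (A : Set G) = B ∧ Subgroup.IsComplement' A U ∧ Subgroup.IsComplement' B U ∧ ¬ IsMulCommutative A ∧ Nonempty (A ≃* B) ∧ Nonempty (A ≃* ↥((A ⊔ B) ⊓ U)) := by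
  have hinf : A ⊓ B = ⊥ := by
    rcases hAmin (A ⊓ B) inferInstance inf_le_left with h | h
    · exact h
    · rcases hBmin A inferInstance (inf_eq_left.mp h) with h' | h'
      · exact absurd h' hA
      · exact absurd h' hAB
  have hcomm := H02.commutator_eq_bot_of_normal_of_inf hinf
  have h1 : A ≤ Subgroup.centralizer (B : Set G) :=
    Subgroup.commutator_eq_bot_iff_le_centralizer.mp hcomm
  have h2 : B ≤ Subgroup.centralizer (A : Set G) := Subgroup.le_centralizer_iff.mp h1
  have e1 := H16.corefree_eq_centralizer hU hcore hB hA h1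
  have e2 := H16.corefree_eq_centralizer hU hcore hA hB h2
  have i1 := H16.corefree_centralizer_inf hU hcore hB
  have i2 := H16.corefree_centralizer_inf hU hcore hA
  rw [← e1] at i1
  rw [← e2] at i2
  have s1 := H16.corefree_sup_eq_top hU hcore hA
  have s2 := H16.corefree_sup_eq_top hU hcore hB
  have d1 : ((A ⊔ B) ⊓ U) ⊔ A = A ⊔ B := by
    rw [← H02.inf_sup_normal_of_le le_sup_left, s1, inf_top_eq]
  have d2 : ((A ⊔ B) ⊓ U) ⊔ B = A ⊔ B := by
    rw [← H02.inf_sup_normal_of_le le_sup_right, s2, inf_top_eq]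
  obtain ⟨f1⟩ := H16.nonempty_equiv_of_sup_eq (H := A) (K := (A ⊔ B) ⊓ U) (N := B) hinf
    (by rw [inf_assoc, inf_comm U, i2, inf_bot_eq]) d2.symm
  obtain ⟨f2⟩ := H16.nonempty_equiv_of_sup_eq (H := B) (K := (A ⊔ B) ⊓ U) (N := A)
    (by rwa [inf_comm]) (by rw [inf_assoc, inf_comm U, i1, inf_bot_eq]) (by rw [d1, sup_comm])
  refine ⟨e1.symm, e2.symm,
    H01.isComplement'_of_disjoint_of_sup (disjoint_iff.mpr i1) (by rwa [sup_comm]),
    H01.isComplement'_of_disjoint_of_sup (disjoint_iff.mpr i2) (by rwa [sup_comm]), ?_,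
    ⟨f1.trans f2.symm⟩, ⟨f1⟩⟩
  intro hc
  have := Subgroup.le_centralizer_iff_isMulCommutative.mpr hc
  rw [← e2] at this
  exact hA (by rwa [inf_eq_left.mpr this] at hinf)

end Cfsg.Agent.S0550
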