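import Mathlib
import Cfsg.Statements.S0553
import Cfsg.Agent.H02.Frattini
import Cfsg.Agent.H02.MinNormal
import Cfsg.Agent.H01.Coprime

set_option autoImplicit false
open Cfsg

namespace Cfsg.Agent.S0553

universe u

theorem aux (n : ℕ) : ∀ (G : Type u) [Group G] [Finite G] [Group.IsSolvable G] [Nontrivial G],
    Nat.card G = n → (∀ M : Subgroup G, IsCoatom M → (Nat.card M).Coprime M.index) →
    ∃ p : ℕ, p.Prime ∧ p ∣ Nat.card G ∧ ∀ P : Sylow p G, (P : Subgroup G).Normal := by
  induction n using Nat.strong_induction_on with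
  | _ n ih =>
  intro G _ _ _ _ hn h
  obtain ⟨N, hN, hN0, hmin, hc, p, hp, hNp⟩ := H02.exists_minimal_normal_elementary (G := G)
  have := Fact.mk hp
  have hNP := H02.isPGroup_of_pow_eq_one hNp
  by_cases hΦ : N ≤ frattini G
  · have hNt : N ≠ ⊤ := fun h => (H02.frattini_lt_top G).ne (top_le_iff.mp (h ▸ hΦ))
    have : Nontrivial (G ⧸ N) := QuotientGroup.nontrivial_iff.mpr hNt
    obtain ⟨q, hq, hqd, hQ⟩ := ih _ (hn ▸ H02.card_quotient_lt hN0) (G ⧸ N) rfl (by
      intro M hM
      have h1 := h _ (Subgroup.isCoatom_comap_of_surjective (QuotientGroup.mk'_surjective N) hM)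
      rw [H02.card_comap_mk', Subgroup.index_comap_of_surjective _ (QuotientGroup.mk'_surjective N)]
        at h1
      exact Nat.Coprime.coprime_mul_right h1)
    have := Fact.mk hq
    refine ⟨q, hq, hqd.trans (Subgroup.card_quotient_dvd_card N), fun Q => ?_⟩
    have h1 := (hQ (Q.mapSurjective (QuotientGroup.mk'_surjective N))).comap (QuotientGroup.mk' N)
    rw [Sylow.coe_mapSurjective, Subgroup.comap_map_eq, QuotientGroup.ker_mk'] at h1
    have h2 := Q.normalizer_sup_eq_top' (N := (Q : Subgroup G) ⊔ N)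
      (le_sup_left : (Q : Subgroup G) ≤ (Q : Subgroup G) ⊔ N)
    have h3 : (Q : Subgroup G) ≤ Subgroup.normalizer (Q : Set G) := Subgroup.le_normalizer
    rw [← sup_assoc, sup_eq_left.mpr h3] at h2
    exact Subgroup.normalizer_eq_top_iff.mp (H02.eq_top_of_sup_le_frattini hΦ h2)
  · obtain ⟨M, hM, hNM, hs⟩ := H02.exists_coatom_sup_eq_top hΦ
    have hn : (N ⊓ M).Normal := by
      refine H02.normal_of_normalizer_of_sup (A := M) (B := N) ?_ ?_ hs
      · exact H01.le_normalizer_inf (H01.le_normalizer_of_normal _ _) Subgroup.le_normalizer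
      · refine le_trans ?_ (Subgroup.centralizer_le_normalizer _)
        exact (Subgroup.le_centralizer_iff_isMulCommutative.mpr hc).trans
          (Subgroup.centralizer_le (inf_le_left : N ⊓ M ≤ N))
    have hb : N ⊓ M = ⊥ := (hmin _ hn inf_le_left).resolve_right fun h => hNM (inf_eq_left.mp h)
    have hcomp := H01.isComplement'_of_disjoint_of_sup (disjoint_iff.mpr hb) (by rwa [sup_comm])
    have hcop := h M hM
    rw [hcomp.index_eq_card, ← hcomp.symm.index_eq_card] at hcop
    obtain ⟨k, hk⟩ := IsPGroup.iff_card.mp hNP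
    have hk0 : k ≠ 0 := by
      rintro rfl
      exact hN0 (Subgroup.card_eq_one.mp hk)
    have hpN : p ∣ Nat.card N := hk ▸ dvd_pow_self p hk0
    have hi : ¬ p ∣ N.index := fun h =>
      hp.one_lt.ne' (Nat.eq_one_of_dvd_coprimes hcop h hpN)
    refine ⟨p, hp, hpN.trans N.card_subgroup_dvd_card, fun P => ?_⟩
    have := (hNP.toSylow hi).unique_of_normal hN
    rw [Subsingleton.elim P (hNP.toSylow hi)]
    exact hN

/-- Let G be a nontrivial finite solvable group in which every maximal subgroup has order coprime to its index. Then for some prime p dividing the order of G the Sylow p-subgroups of G are normal. -/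
theorem result {G : Type*} [Group G] [Finite G] [Group.IsSolvable G] [Nontrivial G] (h : ∀ M : Subgroup G, IsCoatom M → (Nat.card M).Coprime M.index) : ∃ p : ℕ, p.Prime ∧ p ∣ Nat.card G ∧ ∀ P : Sylow p G, (P : Subgroup G).Normal := by
  exact aux _ G rfl h

end Cfsg.Agent.S0553
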