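import Mathlib
import Cfsg.Statements.S0554
import Cfsg.Agent.H02.MinNormal
import Cfsg.Agent.H01.Coprime

set_option autoImplicit false
open Cfsg

namespace Cfsg.Agent.S0554

universe u

theorem prod_conj {G : Type*} [Group G] (N : Subgroup G) [hN : N.Normal] :
    ∀ (t : ℕ) (S : Fin t → Subgroup G) (j : Fin t), N ≤ S j → ∀ (s : Fin t → G),
      (∀ i, s i ∈ S i) → ∀ n ∈ N, ∃ s' : Fin t → G, (∀ i, s' i ∈ S i) ∧
        n * (List.ofFn s).prod = (List.ofFn s').prod := by
  intro t
  induction t with
  | zero => intro S j; exact j.elim0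
  | succ t ih =>
    intro S j hj s hs n hn
    induction j using Fin.cases with
    | zero =>
      refine ⟨Fin.cons (n * s 0) (fun i => s i.succ), ?_, ?_⟩
      · intro i
        induction i using Fin.cases with
        | zero => exact mul_mem (hj hn) (hs 0)
        | succ i => exact hs _
      · simp [List.ofFn_succ, mul_assoc]
    | succ j =>
      obtain ⟨s', h1, h2⟩ := ih (fun i => S i.succ) j hj (fun i => s i.succ) (fun i => hs _)
        ((s 0)⁻¹ * n * s 0) (by simpa using hN.conj_mem n hn (s 0)⁻¹)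
      refine ⟨Fin.cons (s 0) s', ?_, ?_⟩
      · intro i
        induction i using Fin.cases with
        | zero => exact hs 0
        | succ i => exact h1 i
      · simp only [List.ofFn_succ, List.prod_cons, Fin.cons_zero, Fin.cons_succ]
        rw [← h2]; group

theorem aux (n : ℕ) : ∀ (G : Type u) [Group G] [Finite G] [Group.IsSolvable G], Nat.card G = n →
    ∀ (t : ℕ) (p : Fin t → ℕ), (∀ i, (p i).Prime) →
    (∀ q : ℕ, q.Prime → q ∣ Nat.card G → ∃ i, p i = q) → ∀ (S : (i : Fin t) → Sylow (p i) G),
    ∀ g : G, ∃ s : (i : Fin t) → G, (∀ i, s i ∈ (S i : Subgroup G)) ∧ g = (List.ofFn s).prod := by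
  induction n using Nat.strong_induction_on with
  | _ n ih =>
  intro G _ _ _ hn t p hp hall S g
  rcases subsingleton_or_nontrivial G with h | h
  · exact ⟨fun _ => 1, fun _ => one_mem _, Subsingleton.elim _ _⟩
  obtain ⟨N, hN, hN0, hmin, hc, q, hq, hNq⟩ := H02.exists_minimal_normal_elementary (G := G)
  have := Fact.mk hq
  have hNP := H02.isPGroup_of_pow_eq_one hNq
  obtain ⟨k, hk⟩ := IsPGroup.iff_card.mp hNP
  have hk0 : k ≠ 0 := by
    rintro rfl
    exact hN0 (Subgroup.card_eq_one.mp hk)
  have hqN : q ∣ Nat.card N := hk ▸ dvd_pow_self q hk0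
  obtain ⟨j, rfl⟩ := hall q hq (hqN.trans N.card_subgroup_dvd_card)
  obtain ⟨s, hs, hg⟩ := ih _ (hn ▸ H02.card_quotient_lt hN0) (G ⧸ N) rfl t p hp
    (fun r hr hd => hall r hr (hd.trans (Subgroup.card_quotient_dvd_card N)))
    (fun i => haveI := Fact.mk (hp i); (S i).mapSurjective (QuotientGroup.mk'_surjective N))
    (QuotientGroup.mk' N g)
  have hs' : ∀ i, ∃ x ∈ (S i : Subgroup G), QuotientGroup.mk' N x = s i := fun i => hs i
  choose x hx hxs using hs'
  have h1 : QuotientGroup.mk' N (List.ofFn x).prod = QuotientGroup.mk' N g := by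
    rw [hg, map_list_prod, List.map_ofFn]
    congr 2
    exact funext hxs
  have h2 : g * ((List.ofFn x).prod)⁻¹ ∈ N := by
    rw [← QuotientGroup.eq_one_iff]
    change QuotientGroup.mk' N _ = 1
    rw [map_mul, map_inv, h1, mul_inv_cancel]
  obtain ⟨s', h3, h4⟩ := prod_conj N t (fun i => S i) j (hNP.le_sylow_of_normal (S j)) x hx _ h2
  exact ⟨s', h3, by rw [← h4]; group⟩

/-- Let G be a finite solvable group and let S assign to each of t distinct primes, including every prime divisor of the order of G, a Sylow subgroup of G. Then every element of G is a product s_0 s_1 ⋯ s_(t-1) with s_i in S i, the factors taken in the given order. -/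
theorem result {G : Type*} [Group G] [Finite G] [Group.IsSolvable G] (t : ℕ) (p : Fin t → ℕ) (hp : ∀ i, (p i).Prime) (hinj : Function.Injective p) (hall : ∀ q : ℕ, q.Prime → q ∣ Nat.card G → ∃ i, p i = q) (S : (i : Fin t) → Sylow (p i) G) : ∀ g : G, ∃ s : (i : Fin t) → G, (∀ i, s i ∈ (S i : Subgroup G)) ∧ g = (List.ofFn s).prod := by
  exact aux _ G rfl t p hp hall S

end Cfsg.Agent.S0554
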