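import Mathlib
import Cfsg.Statements.S0555
import Cfsg.Agent.H16.Super
import Cfsg.Agent.Eqns.E_derivedSeries

set_option autoImplicit false
open Cfsg

namespace Cfsg.Agent.S0555

theorem aux {H : Type*} [Group H] (A : Subgroup H) [A.Normal] [IsCyclic A]
    (hc : IsCyclic (commutator H ⧸ A.subgroupOf (commutator H))) :
    ⁅commutator H, commutator H⁆ = ⊥ := by
  have h1 := H16.commutator_le_centralizer_of_isCyclic A
  rw [Subgroup.commutator_self_eq_bot_iff]
  refine MonoidHom.isMulCommutative_of_isCyclic_of_ker_le_center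
    (QuotientGroup.mk' (A.subgroupOf (commutator H))) ?_
  rw [QuotientGroup.ker_mk']
  intro x hx
  rw [Subgroup.mem_center_iff]
  intro y
  exact Subtype.ext (h1 y.2 x hx).symm

/-- Let i ≥ 1. If in the derived series of a group the quotient of the i-th term by the (i+1)-st and the quotient of the (i+1)-st by the (i+2)-nd are both cyclic, then the (i+1)-st and (i+2)-nd terms coincide. -/
theorem result {G : Type*} [Group G] (i : ℕ) (hi : 1 ≤ i) (h₁ : IsCyclic (↥(derivedSeries G i) ⧸ (derivedSeries G (i + 1)).subgroupOf (derivedSeries G i))) (h₂ : IsCyclic (↥(derivedSeries G (i + 1)) ⧸ (derivedSeries G (i + 2)).subgroupOf (derivedSeries G (i + 1)))) : derivedSeries G (i + 1) = derivedSeries G (i + 2) := by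
  obtain ⟨j, rfl⟩ : ∃ j, i = j + 1 := ⟨i - 1, by omega⟩
  set N := derivedSeries G (j + 1 + 2)
  let φ : derivedSeries G j →* G ⧸ N := (QuotientGroup.mk' N).comp (derivedSeries G j).subtype
  have hφ : φ.range = (derivedSeries G j).map (QuotientGroup.mk' N) := by
    rw [MonoidHom.range_comp, Subgroup.range_subtype]
  set H := φ.range
  have hle : ∀ k, (derivedSeries G (j + k)).map (QuotientGroup.mk' N) ≤ H := fun k =>
    hφ ▸ Subgroup.map_mono (derivedSeries_antitone G (Nat.le_add_right j k))
  have hcomm : commutator H = ((derivedSeries G (j + 1)).map (QuotientGroup.mk' N)).subgroupOf H := by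
    apply Subgroup.map_injective H.subtype_injective
    rw [Subgroup.map_subtype_commutator, Subgroup.map_subgroupOf_eq_of_le (hle 1), hφ,
      ← Subgroup.map_commutator]
    rfl
  let A : Subgroup H := ((derivedSeries G (j + 2)).map (QuotientGroup.mk' N)).subgroupOf H
  have hAn : A.Normal :=
    ((derivedSeries_normal G (j + 2)).map _ (QuotientGroup.mk'_surjective N)).subgroupOf H
  have hAc : IsCyclic A := by
    have : IsCyclic ((derivedSeries G (j + 2)).map (QuotientGroup.mk' N)) := by
      refine isCyclic_of_surjective (hH := h₂) (QuotientGroup.lift _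
        ((QuotientGroup.mk' N).subgroupMap (derivedSeries G (j + 2))) ?_) ?_
      · intro x hx
        exact Subtype.ext ((QuotientGroup.eq_one_iff _).mpr hx)
      · exact QuotientGroup.lift_surjective_of_surjective _ _ (MonoidHom.subgroupMap_surjective _ _) _
    exact isCyclic_of_surjective _ (Subgroup.subgroupOfEquivOfLe (hle 2)).symm.surjective
  have hc : IsCyclic (commutator H ⧸ A.subgroupOf (commutator H)) := by
    let ψ : derivedSeries G (j + 1) →* commutator H :=
      { toFun := fun x => ⟨⟨QuotientGroup.mk' N x, hle 1 (Subgroup.mem_map_of_mem _ x.2)⟩,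
          hcomm ▸ Subgroup.mem_map_of_mem _ x.2⟩
        map_one' := rfl
        map_mul' := fun _ _ => rfl }
    have hψ : Function.Surjective ψ := by
      rintro ⟨⟨y, hy⟩, hy'⟩
      rw [hcomm] at hy'
      obtain ⟨x, hx, rfl⟩ := hy'
      exact ⟨⟨x, hx⟩, rfl⟩
    refine isCyclic_of_surjective (hH := h₁) (QuotientGroup.lift _
      ((QuotientGroup.mk' (A.subgroupOf (commutator H))).comp ψ) ?_) ?_
    · intro x hx
      exact (QuotientGroup.eq_one_iff _).mpr (Subgroup.mem_map_of_mem (QuotientGroup.mk' N) hx)
    · refine QuotientGroup.lift_surjective_of_surjective _ _ ?_ _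
      exact (QuotientGroup.mk'_surjective (A.subgroupOf (commutator H))).comp hψ
  have h3 := congrArg (Subgroup.map H.subtype) (aux A hc)
  rw [Subgroup.map_commutator, hcomm, Subgroup.map_subgroupOf_eq_of_le (hle 1),
    ← Subgroup.map_commutator, Subgroup.map_bot, Subgroup.map_eq_bot_iff, QuotientGroup.ker_mk'] at h3
  exact le_antisymm h3 (derivedSeries_antitone G (by omega))

end Cfsg.Agent.S0555
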