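import Mathlib
import Cfsg.Statements.S0557
import Cfsg.Agent.H03.Focal
import Cfsg.Agent.H01.Hall
import Cfsg.Agent.H16.Huppert

set_option autoImplicit false
open Cfsg

namespace Cfsg.Agent.S0557

universe u
theorem foc_mono {G : Type*} [Group G] (K : Subgroup G) (n : ℕ) : ∀ (X : Subgroup K) (Y : Subgroup G),
    X ≤ Y.subgroupOf K → (fun L : Subgroup K => Subgroup.focalSubgroup L)^[n] X ≤
      ((fun L : Subgroup G => Subgroup.focalSubgroup L)^[n] Y).subgroupOf K := by
  induction n with
  | zero => exact fun X Y h => h
  | succ n ih =>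
    intro X Y h
    rw [Function.iterate_succ_apply, Function.iterate_succ_apply]
    apply ih
    rw [H03.focalSubgroup_le_iff]
    intro x hx g hg
    exact H03.mem_focalSubgroup (H := Y) (h hx) (h hg)

theorem aux (n : ℕ) : ∀ (G : Type u) [Group G] [Finite G] (H : Subgroup G),
    (Nat.card H).Coprime H.index → (fun K : Subgroup G => Subgroup.focalSubgroup K)^[n] H = ⊥ →
    ∃ N : Subgroup G, N.Normal ∧ Subgroup.IsComplement' N H := by
  induction n with
  | zero =>
    intro G _ _ H _ h
    simp only [Function.iterate_zero, id_eq] at h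
    exact ⟨⊤, inferInstance, h ▸ Subgroup.isComplement'_top_bot⟩
  | succ n ih =>
    intro G _ _ H hH h
    rw [Function.iterate_succ_apply] at h
    have hc := H03.coprime_focal_of_hall H hH
    set K := H.transferFocal.ker with hK
    have h1 : K ⊓ H = H.focalSubgroup := H03.ker_transferFocal_inf H hc
    have h2 : K ⊔ H = ⊤ := H03.ker_transferFocal_sup H hc
    have h3 : (H.subgroupOf K).index = H.index :=
      H16.relIndex_eq_index_of_sup_eq_top (by rw [sup_comm, h2])
    obtain ⟨N, hNn, hN⟩ := ih K (H.subgroupOf K) (by
      rw [h3]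
      exact hH.coprime_dvd_left (by
        rw [H02.card_subgroupOf]; exact Subgroup.card_dvd_of_le inf_le_left)) (by
      have := foc_mono K n (H.subgroupOf K) H.focalSubgroup (by
        rw [← h1]; exact fun x hx => ⟨x.2, hx⟩)
      rw [h] at this
      simpa using this)
    have hNc : Nat.card N = H.index := by rw [← h3, hN.index_eq_card]
    have hNi : N.index ∣ Nat.card H := by
      rw [hN.symm.index_eq_card, H02.card_subgroupOf]; exact Subgroup.card_dvd_of_le inf_le_left
    have hNhall := H01.isPiHall_of_coprime (H := N) (hNc ▸ (hH.symm.coprime_dvd_right hNi))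
    refine ⟨N.map K.subtype, ⟨?_⟩, ?_⟩
    · rintro _ ⟨x, hx, rfl⟩ g
      have := H01.le_of_isPiHall_of_normal (K := N.map (MulAut.conjNormal g : MulAut K).toMonoidHom)
        hNhall (by
          intro p hp hd
          exact hd.trans (Subgroup.card_map_dvd _ _))
      exact ⟨_, this ⟨x, hx, rfl⟩, rfl⟩
    · exact (H01.isComplement'_of_card_eq_index hH (by rw [H02.card_map_subtype, hNc])).symm

/-- Let H be a subgroup of a finite group G with order coprime to its index. If iterating the focal-subgroup construction starting from H reaches the trivial subgroup after finitely many steps, then H has a normal complement in G. -/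
theorem result {G : Type*} [Group G] [Finite G] (H : Subgroup G) (hHall : (Nat.card H).Coprime H.index) (n : ℕ) (hfoc : (fun K : Subgroup G => Subgroup.focalSubgroup K)^[n] H = ⊥) : ∃ N : Subgroup G, N.Normal ∧ Subgroup.IsComplement' N H := by
  exact aux n G H hHall hfoc

end Cfsg.Agent.S0557
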