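import Mathlib
import Cfsg.Statements.S0558
import Cfsg.Agent.H03.Tate
import Cfsg.Agent.H03.Frobenius
import Cfsg.Agent.H16.Schmidt

set_option autoImplicit false
open Cfsg

namespace Cfsg.Agent.S0558

/-- Let H be a subgroup of a finite group G that is not a Sylow subgroup of G for any prime, and suppose that for every prime p dividing the order of H and every Sylow p-subgroup P of H the normalizer of P in G is exactly H. Then some normal subgroup of G is a complement to H. -/
theorem result {G : Type*} [Group G] [Finite G] (H : Subgroup G) (hnot : ∀ p : ℕ, p.Prime → ∀ P : Sylow p G, (P : Subgroup G) ≠ H) (hnorm : ∀ p : ℕ, p.Prime → p ∣ Nat.card H → ∀ P : Sylow p H, Subgroup.normalizer (((P : Subgroup H).map H.subtype : Subgroup G) : Set G) = H) : ∃ N : Subgroup G, N.Normal ∧ Subgroup.IsComplement' N H := by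
  haveI hnil : Group.IsNilpotent H := by
    apply H02.isNilpotent_of_sylow_normal
    intro p hp P
    by_cases hd : p ∣ Nat.card H
    · refine ⟨fun x hx g => ?_⟩
      have hg : (g : G) ∈ Subgroup.normalizer
          (((P : Subgroup H).map H.subtype : Subgroup G) : Set G) := by
        rw [hnorm p hp.out hd P]; exact g.2
      obtain ⟨y, hy, e⟩ := (Subgroup.mem_normalizer_iff.1 hg x).1 ⟨x, hx, rfl⟩
      have : y = g * x * g⁻¹ := Subtype.ext e
      exact this ▸ hy
    · have : (P : Subgroup H) = ⊥ := by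
        obtain ⟨k, hk⟩ := P.isPGroup'.exists_card_eq
        rcases Nat.eq_zero_or_pos k with rfl | hk0
        · rw [pow_zero] at hk; exact Subgroup.card_eq_one.1 hk
        · exact absurd ((dvd_pow_self p hk0.ne').trans
            (hk ▸ Subgroup.card_subgroup_dvd_card _)) hd
      rw [this]; infer_instance
  have hsyl : ∀ (p : ℕ) [Fact p.Prime], p ∣ Nat.card H → ∃ P : Sylow p G, (P : Subgroup G) ≤ H ∧
      Subgroup.normalizer ((P : Subgroup G) : Set G) = H := by
    intro p hp hd
    obtain ⟨P0⟩ : Nonempty (Sylow p H) := inferInstance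
    obtain ⟨h1, h2, h3⟩ := H01.sylow_map_subtype_spec P0
    have h4 := H01.not_dvd_relIndex_of_normalizer (K := ⊤) le_top h2 (by
      rwa [top_inf_eq, hnorm p hp.out hd P0])
    rw [Subgroup.relIndex_top_right] at h4
    exact ⟨h2.toSylow h4, h1, hnorm p hp.out hd P0⟩
  have hHall : (Nat.card H).Coprime H.index := by
    apply Nat.Coprime.symm
    apply Nat.coprime_of_dvd
    intro p hp h1 h2
    haveI := Fact.mk hp
    obtain ⟨P, hP, -⟩ := hsyl p h2
    exact H03.not_dvd_index_of_le P hP h1
  apply H03.exists_normal_complement_of_hall H hHall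
  intro p hp hd
  haveI := Fact.mk hp
  obtain ⟨P, hP, -⟩ := hsyl p hd
  obtain ⟨q, hq, hqd, hqp⟩ : ∃ q : ℕ, q.Prime ∧ q ∣ Nat.card H ∧ q ≠ p := by
    by_contra hc
    push Not at hc
    exact hnot p hp P (P.is_maximal' (H16.isPGroup_of_forall_prime hc) hP).symm
  haveI := Fact.mk hq
  obtain ⟨Q, hQ, hQN⟩ := hsyl q hqd
  have hQP := H16.le_centralizer_of_nilpotent_coprime hQ hP
    (H16.coprime_card_of_isPGroup_ne hqp Q.isPGroup' P.isPGroup')
  refine H03.hasNPC_of_controls_fusion P hP ?_ H03.hasNPC_of_isNilpotent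
  intro x hx g hg
  obtain ⟨c, hc, hgc⟩ := H03.exists_mul_mem_normalizer_sylow Q (C := Subgroup.centralizer {x})
    (fun y hy => Subgroup.mem_centralizer_singleton_iff.2 (hQP hy x hx).symm) (g := g) (fun y hy => by
      rw [Subgroup.mem_centralizer_singleton_iff]
      have := hQP hy _ hg
      calc g⁻¹ * y * g * x = g⁻¹ * (y * (g * x * g⁻¹)) * g := by group
        _ = _ := by rw [← this]; group)
  refine ⟨g * c, hQN ▸ hgc, ?_⟩
  rw [Subgroup.mem_centralizer_singleton_iff] at hc
  calc g * c * x * (g * c)⁻¹ = g * (c * x) * c⁻¹ * g⁻¹ := by group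
    _ = _ := by rw [hc]; group

end Cfsg.Agent.S0558
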