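import Cfsg.Statements.S0563
import Mathlib
import Cfsg.Agent.H27.Kegel
-- import your own Cfsg.Agent.* helpers here

set_option autoImplicit false
open Pointwise
open Cfsg

namespace Cfsg.Agent.S0563

open scoped Pointwise commutatorElement

/-- If a finite group G is the product AB of two nilpotent subgroups of coprime orders, then G is solvable, and for every Sylow p-subgroup P of A and Sylow q-subgroup Q of B the product set PQ is a subgroup. -/
theorem result {G : Type*} [Group G] [Finite G] (A B : Subgroup G) (hA : Group.IsNilpotent A) (hB : Group.IsNilpotent B) (hcop : (Nat.card A).Coprime (Nat.card B)) (hAB : ∀ g : G, ∃ a ∈ A, ∃ b ∈ B, g = a * b) : Group.IsSolvable G ∧ ∀ (p q : ℕ) [Fact p.Prime] [Fact q.Prime] (P : Sylow p A) (Q : Sylow q B), ∃ S : Subgroup G, (S : Set G) = (((P : Subgroup A).map A.subtype : Subgroup G) : Set G) * (((Q : Subgroup B).map B.subtype : Subgroup G) : Set G) := by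
  have h : H27.Fac A B := hAB
  haveI := H27.wielandt_coprime h hA hB hcop
  refine ⟨this, fun p q hp hq P Q => ⟨_, H27.PermSub.coe_eq (H27.permSub_of_card ?_)⟩⟩
  set X := (P : Subgroup A).map A.subtype with hX
  set Y := (Q : Subgroup B).map B.subtype with hY
  have hXp : IsPGroup p X := P.isPGroup'.map _
  have hYp : IsPGroup q Y := Q.isPGroup'.map _
  have hXA : X ≤ A := Subgroup.map_subtype_le _
  have hYB : Y ≤ B := Subgroup.map_subtype_le _
  have h0 : Nat.card ↥(X ⊓ Y) = 1 := Nat.eq_one_of_dvd_coprimes hcop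
    (Subgroup.card_dvd_of_le (inf_le_left.trans hXA)) (Subgroup.card_dvd_of_le (inf_le_right.trans hYB))
  rw [h0, mul_one]
  by_cases hX0 : X = ⊥
  · rw [hX0]; simp
  by_cases hY0 : Y = ⊥
  · rw [hY0]; simp
  have key : ∀ (r : ℕ) [Fact r.Prime] (U : Subgroup G), IsPGroup r U → U ≠ ⊥ → r ∣ Nat.card U := by
    intro r _ U hU h1
    haveI := (Subgroup.nontrivial_iff_ne_bot _).2 h1
    obtain ⟨k, hk, hk'⟩ := hU.nontrivial_iff_card.1 inferInstance
    rw [hk']; exact dvd_pow_self _ hk.ne'
  have hpA := (key p X hXp hX0).trans (Subgroup.card_dvd_of_le hXA)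
  have hqB := (key q Y hYp hY0).trans (Subgroup.card_dvd_of_le hYB)
  have hpB : ¬ p ∣ Nat.card B := fun e => hp.out.one_lt.ne' (Nat.eq_one_of_dvd_coprimes hcop hpA e)
  have hqA : ¬ q ∣ Nat.card A := fun e => hq.out.one_lt.ne' (Nat.eq_one_of_dvd_coprimes hcop e hqB)
  have hpi := h.piNum_sup hXA hYB hXp hYp
  have hG : Nat.card (X ⊔ Y : Subgroup G) ∣ Nat.card A * Nat.card B :=
    (Subgroup.card_subgroup_dvd_card _).trans (Dvd.intro _ h.card)
  apply Nat.le_of_dvd (Nat.mul_pos Nat.card_pos Nat.card_pos)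
  rw [hX, hY, H02.card_map_subtype, H02.card_map_subtype, P.card_eq_multiplicity, Q.card_eq_multiplicity,
    ← hX, ← hY]
  have hpos := fun (U : Subgroup G) => (Nat.card_pos (α := U)).ne'
  rw [← Nat.factorization_le_iff_dvd (hpos _) (mul_ne_zero (pow_ne_zero _ hp.out.ne_zero) (pow_ne_zero _ hq.out.ne_zero)),
    Nat.factorization_mul (pow_ne_zero _ hp.out.ne_zero) (pow_ne_zero _ hq.out.ne_zero), hp.out.factorization_pow,
    hq.out.factorization_pow]
  rw [← Nat.factorization_le_iff_dvd (hpos _) (mul_ne_zero (hpos _) (hpos _)),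
    Nat.factorization_mul (hpos _) (hpos _)] at hG
  intro r
  have h1 := hG r
  simp only [Finsupp.add_apply] at h1 ⊢
  by_cases hr : r.Prime ∧ r ∣ Nat.card (X ⊔ Y : Subgroup G)
  · rcases hpi r hr.1 hr.2 with rfl | rfl
    · rw [Nat.factorization_eq_zero_of_not_dvd hpB] at h1
      rw [Finsupp.single_eq_same]; omega
    · rw [Nat.factorization_eq_zero_of_not_dvd hqA] at h1
      rw [Finsupp.single_eq_same]; omega
  · rw [not_and_or] at hr
    rcases hr with hr | hr
    · rw [Nat.factorization_eq_zero_of_not_prime _ hr]; exact Nat.zero_le _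
    · rw [Nat.factorization_eq_zero_of_not_dvd hr]; exact Nat.zero_le _

end Cfsg.Agent.S0563
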