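import Cfsg.Statements.S0565
import Mathlib
import Cfsg.Agent.H27.Kegel
-- import your own Cfsg.Agent.* helpers here

set_option autoImplicit false
open Cfsg

namespace Cfsg.Agent.S0565

open scoped Pointwise commutatorElement

open Subgroup H27 in
open scoped H26 in
universe u in
theorem aux (n : ℕ) : ∀ (G : Type u) [Group G] [Finite G], Nat.card G = n → ∀ A B : Subgroup G,
    Group.IsNilpotent A → Group.IsNilpotent B → Fac A B → (A ≠ ⊤ ∨ B ≠ ⊤) →
    ∃ N : Subgroup G, N.Normal ∧ N ≠ ⊤ ∧ (A ≤ N ∨ B ≤ N) := by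
  induction n using Nat.strong_induction_on with
  | _ n ih =>
  intro G _ _ hn A B hA hB h hne
  by_contra hcon
  haveI := kegel_wielandt h hA hB
  have hnil : ¬ Group.IsNilpotent G := by
    intro _
    apply hcon
    rcases hne with h1 | h1 <;> obtain ⟨M, hM, hle⟩ := (eq_top_or_exists_le_coatom _).resolve_left h1
    · exact ⟨M, H02.coatom_normal_of_isNilpotent hM, hM.1, Or.inl hle⟩
    · exact ⟨M, H02.coatom_normal_of_isNilpotent hM, hM.1, Or.inr hle⟩
  have hq : ∀ (N : Subgroup G) [N.Normal], N ≠ ⊥ →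
      A.map (QuotientGroup.mk' N) = ⊤ ∧ B.map (QuotientGroup.mk' N) = ⊤ := by
    intro N _ h0
    by_contra h1
    obtain ⟨M, hM, hM1, hM2⟩ := ih _ (hn ▸ H02.card_quotient_lt h0) (G ⧸ N) rfl _ _ (H02.isNilpotent_map _ A)
      (H02.isNilpotent_map _ B) (h.map (QuotientGroup.mk'_surjective N)) (not_and_or.1 h1)
    refine hcon ⟨M.comap (QuotientGroup.mk' N), inferInstance, fun e => hM1 ?_,
      hM2.imp map_le_iff_le_comap.1 map_le_iff_le_comap.1⟩
    rw [← map_comap_eq_self_of_surjective (QuotientGroup.mk'_surjective N) M, e,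
      map_top_of_surjective _ (QuotientGroup.mk'_surjective N)]
  have hqn : ∀ (N : Subgroup G) [N.Normal], N ≠ ⊥ → Group.IsNilpotent (G ⧸ N) := fun N _ h0 => by
    haveI := H02.isNilpotent_map (QuotientGroup.mk' N) A
    exact Group.nilpotent_of_mulEquiv ((MulEquiv.subgroupCongr (hq N h0).1).trans topEquiv)
  haveI : Nontrivial G := by
    by_contra h1
    rw [not_nontrivial_iff_subsingleton] at h1
    exact hnil inferInstance
  obtain ⟨N, hN, hN0, hmin, hNc, p, hp, hNp⟩ := H02.exists_minimal_normal_elementary (G := G)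
  haveI : Fact p.Prime := ⟨hp⟩
  have hNP : IsPGroup p N := fun x => ⟨1, Subtype.ext (by simpa using hNp x x.2)⟩
  have hO : pPrimeCore p G = ⊥ := by
    by_contra h1
    haveI := hqn _ hN0
    haveI := hqn _ h1
    apply hnil
    refine H02.isNilpotent_of_injective ((QuotientGroup.mk' N).prod (QuotientGroup.mk' (pPrimeCore p G))) ?_
    rw [← MonoidHom.ker_eq_bot_iff, MonoidHom.ker_prod, QuotientGroup.ker_mk', QuotientGroup.ker_mk']
    exact H02.isPGroup_inf_pPrimeCore hNP
  have key : ∀ (C : Subgroup G) [Group.IsNilpotent C], C.map (QuotientGroup.mk' N) = ⊤ →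
      ∃ D : Subgroup G, IsPiHall {p}ᶜ D ∧ normalizer (D : Set G) = C := by
    intro C _ hC
    have hf : Fac C N := fun g => by
      obtain ⟨c, hc, e⟩ := (hC ▸ mem_top _ : QuotientGroup.mk' N g ∈ C.map (QuotientGroup.mk' N))
      exact ⟨c, hc, c⁻¹ * g, QuotientGroup.eq.1 e, by group⟩
    obtain ⟨i, hi⟩ := hNP.exists_card_eq
    obtain ⟨j, -, hj⟩ := (Nat.dvd_prime_pow hp).1 (hi ▸ hf.index_dvd)
    obtain ⟨k, hk⟩ := H03.exists_index_pResidual (p := p) (G := C)
    rw [H03.HasNPC.pResidual_eq_pPrimeCore H03.hasNPC_of_isNilpotent] at hk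
    have hidx : (H02.pPrimeCoreOf p C).index = p ^ (k + j) := by
      rw [index_map_subtype, hk, hj, pow_add]
    have hCD := H02.le_normalizer_pPrimeCoreOf (p := p) C
    refine ⟨H02.pPrimeCoreOf p C, ?_, le_antisymm ?_ hCD⟩
    · rw [H01.isPiHall_iff, H01.piNum_compl_singleton_iff hp, compl_compl,
        H01.piNum_singleton_iff hp index_ne_zero_of_finite]
      exact ⟨H02.pPrimeCoreOf_coprime C, _, hidx⟩
    set D := H02.pPrimeCoreOf p C
    have htop : ∀ K : Subgroup G, C ≤ K → N ≤ K → K = ⊤ := fun K h1 h2 => eq_top_iff.2 fun g _ => by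
      obtain ⟨c, hc, x, hx, rfl⟩ := hf g
      exact mul_mem (h1 hc) (h2 hx)
    have hM : (normalizer (D : Set G) ⊓ N).Normal := by
      rw [← normalizer_eq_top_iff]
      refine htop _ (hCD.trans ((le_inf le_normalizer le_normalizer_of_normal).trans
        inf_normalizer_le_normalizer_inf)) (le_trans ?_ (centralizer_le_normalizer _))
      exact (le_centralizer_iff_isMulCommutative.2 hNc).trans (centralizer_le fun x hx => hx.2)
    rcases hmin _ hM inf_le_right with h1 | h1
    · intro g hg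
      obtain ⟨c, hc, x, hx, rfl⟩ := hf g
      have : x ∈ normalizer (D : Set G) ⊓ N := ⟨by simpa using mul_mem (inv_mem (hCD hc)) hg, hx⟩
      rw [h1, mem_bot] at this
      rwa [this, mul_one]
    · exfalso
      haveI := normalizer_eq_top_iff.1 (htop _ hCD (h1 ▸ inf_le_left))
      have h2 : D = ⊥ := le_bot_iff.1 (hO ▸ H02.le_pPrimeCore (H02.pPrimeCoreOf_coprime C))
      rw [h2, index_bot] at hidx
      exact hnil (IsPGroup.of_card hidx).isNilpotent
  obtain ⟨D, hD, hDA⟩ := key A (hq N hN0).1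
  obtain ⟨E, hE, hEB⟩ := key B (hq N hN0).2
  obtain ⟨g, hg⟩ := H01.isPiHall_conj hE hD
  change cj(g, E) = D at hg
  have h1 := h.conj g
  rw [← hEB, H26.cj_normalizer, hg, hDA] at h1
  have h2 : A = ⊤ := eq_top_iff.2 fun x _ => by
    obtain ⟨a, ha, b, hb, rfl⟩ := h1 x
    exact mul_mem ha hb
  exact hnil (Group.nilpotent_of_mulEquiv ((MulEquiv.subgroupCongr h2).trans topEquiv))

/-- Let the finite group G be the product AB of nilpotent subgroups A and B, not both equal to G. Then there is a proper normal subgroup of G containing A or containing B. -/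
theorem result {G : Type*} [Group G] [Finite G] (A B : Subgroup G) (hA : Group.IsNilpotent A) (hB : Group.IsNilpotent B) (hAB : ∀ g : G, ∃ a ∈ A, ∃ b ∈ B, g = a * b) (hproper : A ≠ ⊤ ∨ B ≠ ⊤) : ∃ N : Subgroup G, N.Normal ∧ N ≠ ⊤ ∧ (A ≤ N ∨ B ≤ N) := by
  exact aux _ G rfl A B hA hB hAB hproper

end Cfsg.Agent.S0565
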