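import Mathlib
import Cfsg.Statements.S0568
import Cfsg.Agent.H16.SysNorm

set_option autoImplicit false
open Cfsg

namespace Cfsg.Agent.S0568

/-- Let D be the system normalizer of a Hall complement system of a finite solvable group G, and let A < B be normal subgroups with no normal subgroup of G strictly between them (a chief factor). If G centralizes B modulo A then B ≤ A ⊔ D (D covers the factor); otherwise B ∩ D ≤ A (D avoids it). -/
theorem result {G : Type*} [Group G] [Finite G] [Group.IsSolvable G] (K : Nat.Primes → Subgroup G) (hK : Cfsg.IsComplementSystem K) (A B : Subgroup G) [A.Normal] [B.Normal] (hAB : A < B) (hchief : ∀ N : Subgroup G, N.Normal → A ≤ N → N ≤ B → N = A ∨ N = B) : (⁅B, (⊤ : Subgroup G)⁆ ≤ A → B ≤ A ⊔ Cfsg.systemNormalizer K) ∧ (¬ ⁅B, (⊤ : Subgroup G)⁆ ≤ A → B ⊓ Cfsg.systemNormalizer K ≤ A) := by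
  have hs := QuotientGroup.mk'_surjective A
  have hc : ⁅B, (⊤ : Subgroup G)⁆ ≤ A ↔ B.map (QuotientGroup.mk' A) ≤ Subgroup.center (G ⧸ A) := by
    rw [← Subgroup.centralizer_univ, ← Subgroup.coe_top, ← Subgroup.commutator_eq_bot_iff_le_centralizer,
      ← Subgroup.map_top_of_surjective _ hs, ← Subgroup.map_commutator, Subgroup.map_eq_bot_iff,
      QuotientGroup.ker_mk']
  have hD := H16.sysnorm_map hK A
  constructor
  · intro h
    have h1 : B.map (QuotientGroup.mk' A) ≤ (Cfsg.systemNormalizer K).map (QuotientGroup.mk' A) := by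
      rw [← hD]
      exact (hc.1 h).trans (le_iInf fun p => Subgroup.center_le_normalizer _)
    rwa [Subgroup.map_le_iff_le_comap, Subgroup.comap_map_eq, QuotientGroup.ker_mk', sup_comm] at h1
  · intro h
    rw [hc] at h
    haveI : (B.map (QuotientGroup.mk' A)).Normal := (inferInstance : B.Normal).map _ hs
    have hmin := H02.minimal_normal_map_of_chief_factor hAB.le hchief
    have hB0 : B.map (QuotientGroup.mk' A) ≠ ⊥ := fun h0 => h (h0 ▸ bot_le)
    obtain ⟨p, hp, hBp⟩ := H02.minimal_normal_isPGroup hB0 hmin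
    have hK' := H16.isComplementSystem_iff.1 (H16.system_map hK A) ⟨p, hp⟩
    have h1 := H16.inf_centralizer_hall_eq_bot hp hBp hmin h hK'
    intro x hx
    rw [← QuotientGroup.eq_one_iff, ← Subgroup.mem_bot, ← h1]
    have hxB := Subgroup.mem_map_of_mem (QuotientGroup.mk' A) hx.1
    have hxD := H16.mem_systemNormalizer.1 (hD.ge (Subgroup.mem_map_of_mem (QuotientGroup.mk' A) hx.2))
      ⟨p, hp⟩
    refine ⟨hxB, fun k hk => ?_⟩
    haveI := Fact.mk hp
    have hd := H03.disjoint_of_isPGroup_of_coprime hBp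
      ((H01.piNum_compl_singleton_iff hp).1 (H01.isPiHall_iff.1 hK').1)
    have h2 := Subgroup.disjoint_def.1 hd
      (mul_mem ((Subgroup.mem_normalizer_iff.1 hxD k).1 hk) (inv_mem hk)) (by
        have := mul_mem hxB ((inferInstance : (B.map (QuotientGroup.mk' A)).Normal).conj_mem _
          (inv_mem hxB) k)
        simpa [mul_assoc] using this)
    rw [mul_inv_eq_one, mul_inv_eq_iff_eq_mul] at h2
    exact h2.symm

end Cfsg.Agent.S0568
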