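import Mathlib
import Cfsg.Statements.S0570
import Cfsg.Agent.H16.SysNorm

set_option autoImplicit false
open Cfsg

namespace Cfsg.Agent.S0570

/-- Let G be a finite group with a nilpotent normal subgroup F such that G modulo F is nilpotent (nilpotent length at most two). Then a subgroup of G is a Carter subgroup if and only if it is the system normalizer of some Hall complement system. -/
theorem result {G : Type*} [Group G] [Finite G] (F : Subgroup G) [F.Normal] (hF : Group.IsNilpotent F) (hGF : Group.IsNilpotent (G ⧸ F)) (C : Subgroup G) : Cfsg.IsCarterSubgroup C ↔ ∃ K : Nat.Primes → Subgroup G, Cfsg.IsComplementSystem K ∧ C = Cfsg.systemNormalizer K := by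
  haveI := H02.isSolvable_of_normal_of_quotient F
  have h1 : ∀ C : Subgroup G, Cfsg.IsCarterSubgroup C → ∃ K : Nat.Primes → Subgroup G,
      Cfsg.IsComplementSystem K ∧ C = Cfsg.systemNormalizer K := by
    intro C hC
    haveI := hC.1
    have hK : Cfsg.IsComplementSystem
        (fun p : Nat.Primes => H02.pPrimeCoreOf p C ⊔ H02.pPrimeCoreOf p F) := by
      refine H16.isComplementSystem_iff.2 fun p => ?_
      have := H16.isPiHallOf_sup (H16.isPiHallOf_pPrimeCoreOf C p.2) (H16.isPiHallOf_pPrimeCoreOf F p.2)
        (H01.le_normalizer_of_normal _ _) (H01.le_normalizer_of_normal _ _)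
      rwa [H16.carter_sup_eq_top hC F, H01.isPiHallOf_top] at this
    haveI := H16.sysnorm_nilpotent hK
    exact ⟨_, hK, H16.carter_eq_of_le_nilpotent hC.2 (le_iInf fun p =>
      H01.le_normalizer_sup (H02.le_normalizer_pPrimeCoreOf C) (H01.le_normalizer_of_normal _ _))⟩
  refine ⟨h1 C, ?_⟩
  rintro ⟨K, hK, rfl⟩
  obtain ⟨C, hC⟩ := H16.exists_carter G
  obtain ⟨L, hL, rfl⟩ := h1 C hC
  obtain ⟨g, hg⟩ := H16.system_conj hL hK
  rw [← funext hg, H16.systemNormalizer_smul]
  exact H16.carter_smul hC g

end Cfsg.Agent.S0570
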