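import Mathlib
import Cfsg.Statements.S0574
import Cfsg.Agent.H02.MinNormal
import Cfsg.Agent.S0564
import Cfsg.Agent.S0572

set_option autoImplicit false
open Cfsg

namespace Cfsg.Agent.S0574
open Subgroup

universe u

theorem stuck (n : ℕ) : ∀ (G : Type u) [Group G] [Finite G] [Group.IsSolvable G] (A B : Subgroup G),
    Nat.card G ≤ n → (∀ x ∈ A, ∀ y ∈ A, x * y = y * x) → ⁅B, B⁆ ≤ centralizer (B : Set G) →
    (∀ g : G, ∃ a ∈ A, ∃ b ∈ B, g = a * b) → A ⊔ ⁅B, B⁆ = ⊤ → ⁅B, B⁆ = ⊥ := by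
  induction n with
  | zero => intro G _ _ _ A B h; have := Nat.card_pos (α := G); omega
  | succ n ih =>
  intro G _ _ _ A B hn hA hB hAB hs
  by_contra hne
  obtain ⟨⟨v, hv⟩, hv1⟩ := (ne_bot_iff_exists_ne_one).1 hne
  have hv1 : v ≠ 1 := fun e => hv1 (Subtype.ext e)
  haveI : Nontrivial G := ⟨⟨v, 1, hv1⟩⟩
  obtain ⟨V, hV, hV1, hmin, hc, -⟩ := H02.exists_minimal_normal_elementary (G := G)
  have hcV : ∀ x ∈ V, ∀ y ∈ V, x * y = y * x := fun x hx y hy =>
    congrArg Subtype.val (hc.is_comm.comm ⟨x, hx⟩ ⟨y, hy⟩)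
  have h1 := ih (G ⧸ V) (A.map (QuotientGroup.mk' V)) (B.map (QuotientGroup.mk' V)) (by
      have := card_eq_card_quotient_mul_card_subgroup V
      have h2 := (one_lt_card_iff_ne_bot V).2 hV1
      have := Nat.card_pos (α := G ⧸ V)
      nlinarith)
    (by rintro _ ⟨x, hx, rfl⟩ _ ⟨y, hy, rfl⟩; rw [← map_mul, ← map_mul, hA x hx y hy])
    (by
      rw [← map_commutator]
      rintro _ ⟨x, hx, rfl⟩ _ ⟨y, hy, rfl⟩
      rw [← map_mul, ← map_mul, hB hx y hy])
    (fun g => by
      obtain ⟨g, rfl⟩ := QuotientGroup.mk'_surjective V g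
      obtain ⟨a, ha, b, hb, rfl⟩ := hAB g
      exact ⟨_, mem_map_of_mem _ ha, _, mem_map_of_mem _ hb, map_mul _ _ _⟩)
    (by rw [← map_commutator, ← Subgroup.map_sup, hs, map_top_of_surjective _ (QuotientGroup.mk'_surjective V)])
  rw [← map_commutator, Subgroup.map_eq_bot_iff, QuotientGroup.ker_mk'] at h1
  have h2 : ∀ g : G, ∃ a ∈ A, ∃ w ∈ V, a * w = g := fun g => by
    have : g ∈ A ⊔ V := top_le_iff.2 hs |>.trans (sup_le_sup_left h1 A) (mem_top g)
    exact mem_sup_of_normal_right.1 this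
  have h3 : ∀ a ∈ A, a * v = v * a → ∀ g : G, g * a = a * g := by
    intro a ha hav g
    have h4 : normalClosure {v} ≤ centralizer {a} := by
      refine (closure_le _).2 fun x hx => ?_
      obtain ⟨u, hu, hx'⟩ := Group.mem_conjugatesOfSet_iff.1 hx
      rw [Set.mem_singleton_iff.1 hu] at hx'
      obtain ⟨g, rfl⟩ := isConj_iff.1 hx'
      obtain ⟨c, hc, w, hw, rfl⟩ := h2 g
      have : c * w * v * (c * w)⁻¹ = c * v * c⁻¹ := by rw [mul_assoc c, hcV w hw v (h1 hv)]; group
      rw [this]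
      have e1 : c ∈ centralizer {a} := mem_centralizer_singleton_iff.2 (hA c hc a ha)
      exact mul_mem (mul_mem e1 (mem_centralizer_singleton_iff.2 hav.symm)) (inv_mem e1)
    have h5 : normalClosure {v} = V := (hmin _ inferInstance (normalClosure_le_normal (by simpa using h1 hv))).resolve_left
      fun e => hv1 (mem_bot.1 (e ▸ subset_normalClosure rfl))
    obtain ⟨c, hc, w, hw, rfl⟩ := h2 g
    rw [mul_assoc, mem_centralizer_singleton_iff.1 (h4 (h5 ▸ hw)), ← mul_assoc, hA c hc a ha, mul_assoc]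
  have h6 : ∀ b ∈ B, ∃ a w, w ∈ V ∧ a * w = b ∧ ∀ g : G, g * a = a * g := fun b hb => by
    obtain ⟨a, ha, w, hw, rfl⟩ := h2 b
    refine ⟨a, w, hw, rfl, h3 a ha ?_⟩
    have := hB hv _ hb
    rw [mul_assoc, hcV w hw v (h1 hv), ← mul_assoc, ← mul_assoc] at this
    exact mul_right_cancel this
  refine hne (commutator_eq_bot_iff_le_centralizer.2 fun x hx y hy => ?_)
  obtain ⟨a, w, hw, rfl, e1⟩ := h6 x hx
  obtain ⟨a', w', hw', rfl, e2⟩ := h6 y hy
  calc a' * w' * (a * w) = a * (a' * (w' * w)) := by rw [← mul_assoc, e1]; group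
    _ = a * w * (a' * w') := by rw [hcV w' hw' w hw, ← mul_assoc a', ← e2]; group

theorem ds_le {G : Type*} [Group G] (H : Subgroup G) (h : derivedSeries G 2 ≤ H) (k : ℕ) :
    derivedSeries G (k + 2) ≤ (derivedSeries H k).map H.subtype := by
  induction k with
  | zero => simpa [← MonoidHom.range_eq_map] using h
  | succ k ih =>
    rw [show k + 1 + 2 = (k + 2) + 1 by ring, derivedSeries_succ, derivedSeries_succ H, map_commutator]
    exact commutator_mono ih ih

theorem om_lt {a b : ℕ} (h : a ∣ b) (h1 : a < b) : a.primeFactorsList.length < b.primeFactorsList.length := by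
  obtain ⟨c, rfl⟩ := h
  have ha : a ≠ 0 := by rintro rfl; simp at h1
  have hc : c ≠ 0 := by rintro rfl; simp at h1
  have hc1 : c ≠ 1 := by rintro rfl; simp at h1
  rw [(Nat.perm_primeFactorsList_mul ha hc).length_eq, List.length_append]
  have : c.primeFactorsList ≠ [] := (Nat.primeFactorsList_ne_nil c).2 (by omega)
  have := List.length_pos_iff.2 this
  omega

theorem main (n : ℕ) : ∀ (G : Type u) [Group G] [Finite G] (A B : Subgroup G),
    (Nat.card (⁅B, B⁆ : Subgroup G)).primeFactorsList.length ≤ n → (∀ x ∈ A, ∀ y ∈ A, x * y = y * x) →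
    ⁅B, B⁆ ≤ centralizer (B : Set G) → (∀ g : G, ∃ a ∈ A, ∃ b ∈ B, g = a * b) →
    derivedSeries G (2 * (1 + n)) = ⊥ := by
  induction n using Nat.strong_induction_on with
  | _ n ih =>
  intro G _ _ A B hn hA hB hAB
  let N := normalClosure ((⁅B, B⁆ : Subgroup G) : Set G)
  let H := A ⊔ ⁅B, B⁆
  have hN : derivedSeries G 2 ≤ N := by
    haveI : IsMulCommutative (A.map (QuotientGroup.mk' N)) := ⟨⟨by
      rintro ⟨_, x, hx, rfl⟩ ⟨_, y, hy, rfl⟩
      exact Subtype.ext (by simp only [coe_mul]; rw [← map_mul, ← map_mul, hA x hx y hy])⟩⟩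
    haveI : IsMulCommutative (B.map (QuotientGroup.mk' N)) := H02.isMulCommutative_of_commutator_eq_bot (by
      rw [← map_commutator, Subgroup.map_eq_bot_iff, QuotientGroup.ker_mk']; exact le_normalClosure)
    have := S0572.result (A.map (QuotientGroup.mk' N)) (B.map (QuotientGroup.mk' N)) fun g => by
      obtain ⟨g, rfl⟩ := QuotientGroup.mk'_surjective N g
      obtain ⟨a, ha, b, hb, rfl⟩ := hAB g
      exact ⟨_, mem_map_of_mem _ ha, _, mem_map_of_mem _ hb, map_mul _ _ _⟩
    rwa [← map_derivedSeries_eq (QuotientGroup.mk'_surjective N), Subgroup.map_eq_bot_iff, QuotientGroup.ker_mk'] at this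
  have hNH : N ≤ H := by
    refine (closure_le _).2 fun x hx => ?_
    obtain ⟨v, hv, hx⟩ := Group.mem_conjugatesOfSet_iff.1 hx
    obtain ⟨g, rfl⟩ := isConj_iff.1 hx
    obtain ⟨c, hc, w, hw, rfl⟩ := hAB g
    have : c * w * v * (c * w)⁻¹ = c * v * c⁻¹ := by rw [mul_assoc c, hB hv w hw]; group
    rw [this]
    exact mul_mem (mul_mem (mem_sup_left hc) (mem_sup_right hv)) (inv_mem (mem_sup_left hc))
  by_cases h0 : ⁅B, B⁆ = ⊥
  · have : N = ⊥ := by simp [N, h0]
    exact le_bot_iff.1 ((derivedSeries_antitone G (by omega)).trans (this ▸ hN))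
  have hm : (⁅B.subgroupOf H, B.subgroupOf H⁆ : Subgroup H).map H.subtype ≤ ⁅B, B⁆ := by
    rw [map_commutator]; exact commutator_mono (map_comap_le _ _) (map_comap_le _ _)
  have hA1 : ∀ x ∈ A.subgroupOf H, ∀ y ∈ A.subgroupOf H, x * y = y * x := fun x hx y hy => Subtype.ext (hA _ hx _ hy)
  have hB1 : ⁅B.subgroupOf H, B.subgroupOf H⁆ ≤ centralizer (B.subgroupOf H : Set H) := fun x hx y hy =>
    Subtype.ext (hB (hm (mem_map_of_mem _ hx)) _ hy)
  have hAB1 : ∀ g : H, ∃ a ∈ A.subgroupOf H, ∃ b ∈ B.subgroupOf H, g = a * b := fun g => by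
    obtain ⟨a, ha, b, hb, e⟩ := hAB g
    have h1 : a ∈ H := mem_sup_left ha
    exact ⟨⟨a, h1⟩, ha, ⟨b, (mul_mem_cancel_left h1).1 (e ▸ g.2)⟩, hb, Subtype.ext e⟩
  have hlt : (⁅B.subgroupOf H, B.subgroupOf H⁆ : Subgroup H).map H.subtype < ⁅B, B⁆ := by
    refine lt_of_le_of_ne hm fun e => h0 ?_
    haveI : IsMulCommutative (A.subgroupOf H) := ⟨⟨fun x y => Subtype.ext (hA1 _ x.2 _ y.2)⟩⟩
    haveI := S0564.result (A.subgroupOf H) (B.subgroupOf H)
      (H02.isNilpotent_of_commutator_le_centralizer (by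
        rw [commutator_eq_bot_iff_le_centralizer.2 fun x hx y hy => hA1 y hy x hx]; exact bot_le))
      (H02.isNilpotent_of_commutator_le_centralizer hB1) hAB1
    rw [← e, stuck _ H (A.subgroupOf H) (B.subgroupOf H) le_rfl hA1 hB1 hAB1, Subgroup.map_bot]
    apply map_injective H.subtype_injective
    rw [Subgroup.map_sup, e, subgroupOf_map_subtype, inf_eq_left.2 le_sup_left, ← MonoidHom.range_eq_map, range_subtype]
  have h5 := om_lt (card_dvd_of_le hm) (lt_of_le_of_ne (card_le_of_le hm) fun e => hlt.ne (eq_of_le_of_card_ge hm e.ge))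
  rw [card_map_of_injective H.subtype_injective] at h5
  obtain ⟨m, rfl⟩ : ∃ m, n = m + 1 := ⟨n - 1, by omega⟩
  have := ds_le H (hN.trans hNH) (2 * (1 + m))
  rw [ih m (by omega) H _ _ (by omega) hA1 hB1 hAB1, Subgroup.map_bot] at this
  exact le_bot_iff.1 this


/-- Let the finite group G be the product AB of an abelian subgroup A and a subgroup B of nilpotency class at most two, and let Ω be the number of prime factors, with multiplicity, of the order of the commutator subgroup of B. Then the term of index 2(1 + Ω) of the derived series of G is trivial. -/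
theorem result {G : Type*} [Group G] [Finite G] (A B : Subgroup G) [IsMulCommutative A] (hB : commutator ↥B ≤ Subgroup.center ↥B) (hAB : ∀ g : G, ∃ a ∈ A, ∃ b ∈ B, g = a * b) : derivedSeries G (2 * (1 + (Nat.card ↥(commutator ↥B)).primeFactorsList.length)) = ⊥ := by
  have e : (commutator B).map B.subtype = ⁅B, B⁆ := by
    rw [commutator_def, map_commutator, ← MonoidHom.range_eq_map, range_subtype]
  refine main _ G A B (by rw [← e, card_map_of_injective B.subtype_injective]) (fun x hx y hy => ?_) ?_ hAB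
  · exact congrArg Subtype.val ((inferInstance : IsMulCommutative A).is_comm.comm ⟨x, hx⟩ ⟨y, hy⟩)
  · rw [← e]
    rintro _ ⟨x, hx, rfl⟩ y hy
    exact congrArg Subtype.val (mem_center_iff.1 (hB hx) ⟨y, hy⟩)

end Cfsg.Agent.S0574
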