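import Mathlib
import Cfsg.Statements.S0577
import Cfsg.Agent.H16.Schmidt

set_option autoImplicit false
open Cfsg

namespace Cfsg.Agent.S0577

/-- Let G be a finite minimal non-nilpotent group and Q a normal Sylow q-subgroup of G, and let D be the commutator subgroup of Q regarded in G (a normal subgroup). Then G modulo D is non-abelian and all its proper subgroups are abelian. -/
theorem result {G : Type*} [Group G] [Finite G] (hG : Cfsg.IsMinimalNonNilpotent G) (q : ℕ) [Fact q.Prime] (hq : q ∣ Nat.card G) (Q : Sylow q G) (hQ : (Q : Subgroup G).Normal) (D : Subgroup G) [D.Normal] (hD : D = (commutator ↥(Q : Subgroup G)).map (Q : Subgroup G).subtype) : ¬ IsMulCommutative (G ⧸ D) ∧ ∀ K : Subgroup (G ⧸ D), K ≠ ⊤ → IsMulCommutative K := by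
  obtain ⟨p, r, hp, hr, hne, P, R, hP, hR, ht⟩ := H16.schmidt_structure hG
  haveI := Fact.mk hp
  haveI := Fact.mk hr
  haveI := Q.isPGroup'.isNilpotent
  have hqr : q = r := by
    by_contra hqr
    have h1 : q ∣ Nat.card (P : Subgroup G) * Nat.card (R : Subgroup G) := by
      have := H02.card_sup_dvd_mul (H01.le_normalizer_of_normal (P : Subgroup G) (R : Subgroup G))
      rw [ht, Subgroup.card_top] at this
      exact hq.trans this
    obtain ⟨a, ha⟩ := P.isPGroup'.exists_card_eq
    obtain ⟨b, hb⟩ := R.isPGroup'.exists_card_eq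
    have hq' : q.Prime := Fact.out
    rw [ha, hb] at h1
    rcases (Nat.Prime.dvd_mul hq').1 h1 with h | h
    · have := (Nat.prime_dvd_prime_iff_eq hq' hp).1 (hq'.dvd_of_dvd_pow h)
      subst this
      haveI := Sylow.unique_of_normal Q hQ
      rw [Subsingleton.elim P Q] at ht
      haveI := R.isPGroup'.isNilpotent
      have := H02.isNilpotent_sup_of_normal (Q : Subgroup G) (R : Subgroup G)
      rw [ht] at this
      exact hG.1 (Group.nilpotent_of_mulEquiv Subgroup.topEquiv)
    · exact hqr ((Nat.prime_dvd_prime_iff_eq hq' hr).1 (hq'.dvd_of_dvd_pow h))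
  subst hqr
  haveI := Sylow.unique_of_normal Q hQ
  rw [Subsingleton.elim R Q] at ht
  have hD' : D = ⁅(Q : Subgroup G), (Q : Subgroup G)⁆ := by
    rw [hD, Subgroup.map_subtype_commutator]
  have hDF : D ≤ frattini G := hD' ▸ H02.commutator_le_frattini_of_normal_nilpotent _
  refine ⟨fun hc => hG.1 (H02.isNilpotent_of_quotient_le_frattini hDF
    (H02.isNilpotent_of_isMulCommutative _)), fun K hK => ?_⟩
  have hs := QuotientGroup.mk'_surjective D
  haveI : Group.IsNilpotent K := by
    haveI := hG.2 (K.comap (QuotientGroup.mk' D)) (fun h => hK (by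
      rw [← Subgroup.map_comap_eq_self_of_surjective hs K, h, Subgroup.map_top_of_surjective _ hs]))
    rw [← Subgroup.map_comap_eq_self_of_surjective hs K]
    exact H02.isNilpotent_map _ _
  apply H16.isMulCommutative_of_nilpotent_of_pgroups
  intro s hs' S
  set Q' := (Q : Subgroup G).map (QuotientGroup.mk' D) with hQ'
  have hS : IsPGroup s ((S : Subgroup K).map K.subtype) := S.isPGroup'.map _
  suffices h : ⁅(S : Subgroup K).map K.subtype, (S : Subgroup K).map K.subtype⁆ = ⊥ by
    rw [← Subgroup.map_commutator, Subgroup.map_eq_bot_iff_of_injective _ K.subtype_injective] at h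
    exact H02.isMulCommutative_of_commutator_eq_bot h
  by_cases hsq : s = q
  · subst hsq
    haveI : Q'.Normal := hQ.map _ hs
    have h1 : (S : Subgroup K).map K.subtype ≤ Q' := by
      obtain ⟨T, hT⟩ := hS.exists_le_sylow
      haveI := Sylow.unique_of_normal (Q.mapSurjective hs) (by simpa using ‹Q'.Normal›)
      rw [Subsingleton.elim T (Q.mapSurjective hs)] at hT
      exact hT
    rw [eq_bot_iff]
    refine (Subgroup.commutator_mono h1 h1).trans ?_
    rw [hQ', ← Subgroup.map_commutator, ← hD', le_bot_iff, Subgroup.map_eq_bot_iff,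
      QuotientGroup.ker_mk']
  · have h1 : commutator G ≤ Q :=
      Subgroup.Normal.commutator_le_of_self_sup_commutative_eq_top (by rw [sup_comm]; exact ht)
        inferInstance
    have h2 := IsPGroup.disjoint_of_ne s q hsq _ _ hS (Q.isPGroup'.map (QuotientGroup.mk' D))
    rw [eq_bot_iff, ← h2.eq_bot]
    refine le_inf (Subgroup.commutator_le_self _) ?_
    refine le_trans ?_ (Subgroup.map_mono h1)
    rw [commutator_def, Subgroup.map_commutator, Subgroup.map_top_of_surjective _ hs]
    exact Subgroup.commutator_mono le_top le_top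

end Cfsg.Agent.S0577
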