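import Mathlib
import Cfsg.Statements.S0578
import Cfsg.Agent.H16.Schmidt

set_option autoImplicit false
open Cfsg

namespace Cfsg.Agent.S0578

universe u
theorem aux (n : ℕ) : ∀ (G : Type u) [Group G] [Finite G], Nat.card G = n →
    (∀ A : Subgroup G, IsMulCommutative A →
      Subgroup.normalizer (A : Set G) ≤ Subgroup.centralizer (A : Set G)) → IsMulCommutative G := by
  induction n using Nat.strong_induction_on with
  | _ n ih =>
  intro G _ _ hn h
  have h1 : ∀ H : Subgroup G, H ≠ ⊤ → IsMulCommutative H := by
    intro H hH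
    refine ih _ (hn ▸ H02.card_subgroup_lt hH) H rfl fun A hA x hx a ha => ?_
    have h2 : (x : G) ∈ Subgroup.normalizer ((A.map H.subtype : Subgroup G) : Set G) := by
      rw [Subgroup.mem_normalizer_iff]
      intro y
      constructor
      · rintro ⟨y, hy, rfl⟩
        exact ⟨_, (Subgroup.mem_normalizer_iff.1 hx y).1 hy, rfl⟩
      · rintro ⟨z, hz, hzy⟩
        refine ⟨x⁻¹ * z * x, (Subgroup.mem_normalizer_iff.1 hx _).2 (by simpa [mul_assoc] using hz), ?_⟩
        simp only [Subgroup.coe_subtype] at hzy
        simp [hzy, mul_assoc]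
    exact Subtype.ext (h _ inferInstance h2 a ⟨a, ha, rfl⟩)
  rcases subsingleton_or_nontrivial G with hG | hG
  · exact ⟨⟨fun a b => Subsingleton.elim _ _⟩⟩
  haveI := H02.isSolvable_of_proper_nilpotent (G := G) fun M hM => by
    haveI := h1 M hM
    exact H02.isNilpotent_of_isMulCommutative M
  obtain ⟨M, hMn, hM, hp⟩ := H16.exists_normal_prime_index G
  haveI := Fact.mk hp
  haveI : IsCyclic (G ⧸ M) := isCyclic_of_prime_card (p := M.index) rfl
  refine (QuotientGroup.mk' M).isMulCommutative_of_isCyclic_of_ker_le_center ?_
  rw [QuotientGroup.ker_mk']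
  have := h M (h1 M hM.1)
  rw [Subgroup.normalizer_eq_top, top_le_iff] at this
  exact Subgroup.centralizer_eq_top_iff_subset.1 this

/-- If in a finite group the normalizer of each abelian subgroup coincides with its centralizer, then the group is abelian. -/
theorem result {G : Type*} [Group G] [Finite G] (h : ∀ A : Subgroup G, IsMulCommutative A → Subgroup.normalizer (A : Set G) = Subgroup.centralizer (A : Set G)) : IsMulCommutative G := by
  exact aux _ G rfl fun A hA => (h A hA).le

end Cfsg.Agent.S0578
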