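import Mathlib
import Cfsg.Statements.S0582
import Cfsg.Agent.H16.CLT
import Cfsg.Agent.H16.Primitive
import Cfsg.Agent.H01.Hall

set_option autoImplicit false
open Pointwise
open Cfsg

namespace Cfsg.Agent.S0582

universe u
open Subgroup H16 in
theorem aux (n : ℕ) : ∀ (G : Type u) [Group G] [Finite G], Nat.card G = n → ∀ (H K : Subgroup G),
    Cfsg.IsSupersolvable H → Cfsg.IsSupersolvable K → Nat.card H = Nat.card K →
    (Nat.card H).Coprime H.index → ∃ x : G, MulAut.conj x • H = K := by
  induction n using Nat.strong_induction_on with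
  | _ n ih =>
  intro G _ _ hn H K hH hK hcard hHall
  by_cases h1 : Nat.card H = 1
  · rw [h1, eq_comm] at hcard
    rw [Subgroup.card_eq_one.1 h1, Subgroup.card_eq_one.1 hcard]
    exact ⟨1, by simp⟩
  obtain ⟨p, hp, hd, hmax⟩ := exists_maxPrime (n := Nat.card H)
    (by have := Nat.card_pos (α := H); omega)
  haveI := Fact.mk hp
  obtain ⟨P0⟩ : Nonempty (Sylow p H) := inferInstance
  obtain ⟨Q0⟩ : Nonempty (Sylow p K) := inferInstance
  haveI hP0 := allCLT_sylow_normal (fun L => ss_hasSubgroupOfEveryOrder (ss_subgroup hH L)) p hmax P0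
  haveI hQ0 := allCLT_sylow_normal (fun L => ss_hasSubgroupOfEveryOrder (ss_subgroup hK L)) p
    (hcard ▸ hmax) Q0
  set P := (P0 : Subgroup H).map H.subtype with hP
  set Q := (Q0 : Subgroup K).map K.subtype with hQ
  have hPi : ¬ p ∣ P.relIndex ⊤ := by
    rw [relIndex_top_right, hP, index_map_subtype]
    intro h
    rcases (Nat.Prime.dvd_mul hp).1 h with h | h
    · exact P0.not_dvd_index h
    · exact hp.one_lt.ne' (Nat.eq_one_of_dvd_coprimes hHall hd h)
  obtain ⟨g, -, hg⟩ := H01.sylow_conj_of_card (M := ⊤) (P := P) (Q := Q) le_top le_top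
    (P0.isPGroup'.map _) hPi (by
      rw [hP, hQ, H02.card_map_subtype, H02.card_map_subtype, P0.card_eq_multiplicity,
        Q0.card_eq_multiplicity, hcard])
  have hP0' : P ≠ ⊥ := by
    rw [hP, Ne, Subgroup.map_eq_bot_iff_of_injective _ H.subtype_injective]
    exact P0.ne_bot_of_dvd_card hd
  suffices key : ∀ K : Subgroup G, Cfsg.IsSupersolvable K → Nat.card H = Nat.card K → P ≤ K →
      K ≤ normalizer (P : Set G) → ∃ x : G, MulAut.conj x • H = K by
    obtain ⟨x, hx⟩ := key (MulAut.conj g • K)
      (ss_equiv hK (K.equivSMul (MulAut.conj g))) (by rw [H01.card_conj_smul, hcard])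
      (by rw [← hg]; exact pointwise_smul_le_pointwise_smul_iff.2 (map_subtype_le _))
      (by rw [← hg, normalizer_conj_smul]
          exact pointwise_smul_le_pointwise_smul_iff.2 (H01.le_normalizer_map_subtype _))
    refine ⟨g⁻¹ * x, ?_⟩
    rw [← H01.conj_smul_conj_smul, hx, H01.conj_smul_conj_smul]
    simp
  intro K hK hcard hPK hKP
  have hPH : P ≤ H := map_subtype_le _
  have hHP : H ≤ normalizer (P : Set G) := H01.le_normalizer_map_subtype _
  by_cases hN : normalizer (P : Set G) = ⊤
  · haveI : P.Normal := normalizer_eq_top_iff.1 hN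
    have hs := QuotientGroup.mk'_surjective P
    have e1 : (H.map (QuotientGroup.mk' P)).index = H.index :=
      index_map_eq _ hs (by rw [QuotientGroup.ker_mk']; exact hPH)
    have e2 : (K.map (QuotientGroup.mk' P)).index = K.index :=
      index_map_eq _ hs (by rw [QuotientGroup.ker_mk']; exact hPK)
    obtain ⟨x, hx⟩ := H01.exists_conj_sup_of_quotient (ih _ (hn ▸ H02.card_quotient_lt hP0') _ rfl
      (H.map (QuotientGroup.mk' P)) (K.map (QuotientGroup.mk' P))
      (ss_of_surjective hH ((QuotientGroup.mk' P).subgroupMap_surjective H))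
      (ss_of_surjective hK ((QuotientGroup.mk' P).subgroupMap_surjective K))
      (by
        have a1 := (H.map (QuotientGroup.mk' P)).card_mul_index
        have a2 := (K.map (QuotientGroup.mk' P)).card_mul_index
        rw [e1] at a1
        rw [e2, ← H01.index_eq_of_card_eq hcard, ← a1] at a2
        exact (Nat.eq_of_mul_eq_mul_right (Nat.pos_of_ne_zero H.index_ne_zero_of_finite) a2).symm)
      (by rw [e1]; exact hHall.coprime_dvd_left (card_map_dvd _ _)))
    refine ⟨x, ?_⟩
    rwa [sup_eq_left.2 hPK, sup_eq_left.2 (by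
      rw [← H01.conj_smul_eq_of_normal x P]
      exact pointwise_smul_le_pointwise_smul_iff.2 hPH)] at hx
  · obtain ⟨x, -, hx⟩ := H01.exists_conj_of_subgroupOf hHP hKP
      (ih _ (hn ▸ H02.card_subgroup_lt hN) _ rfl _ _
        (ss_equiv hH (subgroupOfEquivOfLe hHP).symm) (ss_equiv hK (subgroupOfEquivOfLe hKP).symm)
        (by rw [H01.card_subgroupOf_of_le hHP, H01.card_subgroupOf_of_le hKP, hcard])
        (by rw [H01.card_subgroupOf_of_le hHP]
            exact hHall.coprime_dvd_right (relIndex_dvd_index_of_le hHP)))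
    exact ⟨x, hx⟩

/-- Let H and K be supersolvable subgroups of a finite group G of the same order, that order being coprime to their index. Then H and K are conjugate in G. -/
theorem result {G : Type*} [Group G] [Finite G] (H K : Subgroup G) (hH : Cfsg.IsSupersolvable H) (hK : Cfsg.IsSupersolvable K) (hcard : Nat.card H = Nat.card K) (hHall : (Nat.card H).Coprime H.index) : ∃ x : G, MulAut.conj x • H = K := by
  exact aux _ G rfl H K hH hK hcard hHall

end Cfsg.Agent.S0582
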