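import Mathlib
import Cfsg.Statements.S0585
import Cfsg.Agent.H02.Frattini
import Cfsg.Agent.H01.Coprime

set_option autoImplicit false
open Cfsg

namespace Cfsg.Agent.S0585

/-- If the Frattini subgroup of a finite group G is trivial, then every abelian normal subgroup of G has a complement in G. -/
theorem result {G : Type*} [Group G] [Finite G] (hΦ : frattini G = ⊥) (A : Subgroup G) [A.Normal] [IsMulCommutative A] : ∃ H : Subgroup G, Subgroup.IsComplement' A H := by
  obtain ⟨H, -, hH⟩ := Finite.exists_le_minimal (p := fun H : Subgroup G => H ⊔ A = ⊤)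
    (a := ⊤) (top_sup_eq A)
  refine ⟨H, H01.isComplement'_of_disjoint_of_sup (disjoint_iff.mpr ?_) (by rw [sup_comm, hH.1])⟩
  have hn : (A ⊓ H).Normal := by
    refine H02.normal_of_normalizer_of_sup (A := H) (B := A) ?_ ?_ hH.1
    · exact H01.le_normalizer_inf (H01.le_normalizer_of_normal _ _) Subgroup.le_normalizer
    · refine le_trans ?_ (Subgroup.centralizer_le_normalizer _)
      exact (Subgroup.le_centralizer_iff_isMulCommutative.mpr inferInstance).trans
        (Subgroup.centralizer_le (inf_le_left : A ⊓ H ≤ A))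
  rw [eq_bot_iff, ← hΦ]
  apply H02.le_frattini_of_le_frattiniOf (H := H)
  have h1 : (A ⊓ H).subgroupOf H ≤ frattini H := by
    rw [H02.le_frattini_iff]
    intro M hM
    by_contra hc
    have h2 : M ⊔ (A ⊓ H).subgroupOf H = ⊤ :=
      hM.2 _ (lt_of_le_of_ne le_sup_left fun h => hc (h ▸ le_sup_right))
    have h3 := congrArg (Subgroup.map H.subtype) h2
    rw [Subgroup.map_sup, Subgroup.map_subgroupOf_eq_of_le inf_le_right, ← MonoidHom.range_eq_map,
      Subgroup.range_subtype] at h3
    have h4 : M.map H.subtype ⊔ A = ⊤ := by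
      rw [eq_top_iff, ← hH.1]
      refine sup_le ?_ le_sup_right
      exact h3.ge.trans (sup_le_sup_left inf_le_left _)
    have h5 := hH.2 h4 (Subgroup.map_subtype_le M)
    apply hM.1
    rw [eq_top_iff]
    intro x _
    obtain ⟨y, hy, hxy⟩ := h5 x.2
    rwa [← (Subtype.ext hxy : y = x)]
  have := Subgroup.map_mono (f := H.subtype) h1
  rwa [Subgroup.map_subgroupOf_eq_of_le inf_le_right] at this

end Cfsg.Agent.S0585
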