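import Mathlib
import Cfsg.Statements.S0586
import Cfsg.Agent.H02.Frattini
import Cfsg.Agent.H02.MinNormal
import Cfsg.Agent.H01.Coprime
import Cfsg.Agent.S0585

set_option autoImplicit false
open Cfsg

namespace Cfsg.Agent.S0586

/-- If the Frattini subgroup of a finite group G is trivial, then the Fitting subgroup of G equals the join of all abelian minimal normal subgroups of G. -/
theorem result {G : Type*} [Group G] [Finite G] (hΦ : frattini G = ⊥) : Cfsg.fittingSubgroup G = sSup {N : Subgroup G | N.Normal ∧ N ≠ ⊥ ∧ IsMulCommutative N ∧ ∀ K : Subgroup G, K.Normal → K ≤ N → K = ⊥ ∨ K = N} := by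
  set S := sSup {N : Subgroup G | N.Normal ∧ N ≠ ⊥ ∧ IsMulCommutative N ∧
    ∀ K : Subgroup G, K.Normal → K ≤ N → K = ⊥ ∨ K = N} with hS
  have hSF : S ≤ fittingSubgroup G := sSup_le fun N hN => by
    have := hN.1
    have := hN.2.2.1
    exact H02.le_fitting_of_isMulCommutative N
  have hF : IsMulCommutative (fittingSubgroup G) := H02.isMulCommutative_of_commutator_eq_bot
    (le_bot_iff.mp (hΦ ▸ H02.commutator_fitting_le_frattini G))
  have hFc := Subgroup.le_centralizer_iff_isMulCommutative.mpr hF
  have comm : ∀ K : Subgroup G, K ≤ fittingSubgroup G → IsMulCommutative K := fun K hK =>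
    Subgroup.le_centralizer_iff_isMulCommutative.mp
      ((hK.trans hFc).trans (Subgroup.centralizer_le hK))
  have hSn : S.Normal := Subgroup.sSup_normal _ (fun _ h => h.1)
  have := comm S hSF
  obtain ⟨H, hH⟩ := Cfsg.Agent.S0585.result hΦ S
  have hn : (fittingSubgroup G ⊓ H).Normal := by
    refine H02.normal_of_normalizer_of_sup (A := S) (B := H) ?_ ?_ hH.sup_eq_top
    · refine le_trans ?_ (Subgroup.centralizer_le_normalizer _)
      exact (hSF.trans hFc).trans (Subgroup.centralizer_le (inf_le_left : _ ⊓ H ≤ _))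
    · exact H01.le_normalizer_inf (H01.le_normalizer_of_normal _ _) Subgroup.le_normalizer
  have hb : fittingSubgroup G ⊓ H = ⊥ := by
    by_contra hc
    obtain ⟨N, h1, h2, h3, h4⟩ := H02.exists_minimal_normal_le _ hc
    have h5 : N ≤ S := le_sSup ⟨h1, h2, comm N (h3.trans inf_le_left), h4⟩
    exact h2 (le_bot_iff.mp (hH.disjoint.eq_bot ▸ le_inf h5 (h3.trans inf_le_right)))
  have := H02.inf_sup_normal_of_le (M := H) hSF
  rwa [sup_comm, hH.sup_eq_top, inf_top_eq, hb, bot_sup_eq] at this

end Cfsg.Agent.S0586
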