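import Mathlib
import Cfsg.Statements.S0587
import Cfsg.Agent.H16.Primitive

set_option autoImplicit false
open Cfsg

namespace Cfsg.Agent.S0587

/-- Let G be a finite group whose largest normal p-subgroup L is nontrivial, and M a maximal subgroup of G with trivial normal core. Then L is elementary abelian, M is a complement to L, L is a minimal normal subgroup of G, the centralizer of L is L, and for every prime q such that the largest normal q-subgroup of M is nontrivial, the order of L is congruent to 1 modulo q and q ≠ p. -/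
theorem result {G : Type*} [Group G] [Finite G] (p : ℕ) [Fact p.Prime] (hL : Cfsg.pCore p G ≠ ⊥) (M : Subgroup G) (hM : IsCoatom M) (hcore : M.normalCore = ⊥) : Cfsg.IsElementaryAbelian p (Cfsg.pCore p G) ∧ Subgroup.IsComplement' (Cfsg.pCore p G) M ∧ (∀ K : Subgroup G, K.Normal → K ≤ Cfsg.pCore p G → K = ⊥ ∨ K = Cfsg.pCore p G) ∧ Subgroup.centralizer ((Cfsg.pCore p G : Subgroup G) : Set G) = Cfsg.pCore p G ∧ ∀ (q : ℕ) [Fact q.Prime], Cfsg.pCore q ↥M ≠ ⊥ → Nat.card (Cfsg.pCore p G) % q = 1 % q ∧ q ≠ p := by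
  have hp : p.Prime := Fact.out
  obtain ⟨K, hK, hK0, hKL, hmin⟩ := H02.exists_minimal_normal_le (pCore p G) hL
  have hLp := H02.pCore_isPGroup p G
  have := hLp.isNilpotent
  have h1 := H02.minimal_normal_le_centralizer_of_isNilpotent (F := pCore p G) hmin
  have h2 : pCore p G ≤ Subgroup.centralizer (K : Set G) := Subgroup.le_centralizer_iff.mp h1
  have e1 := H16.corefree_eq_centralizer hM hcore hK0 hL h2
  have e2 := H16.corefree_eq_centralizer hM hcore hK0 hK0 (hKL.trans h2)
  have e : K = pCore p G := e2.trans e1.symm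
  subst e
  have hc : IsMulCommutative (pCore p G) := Subgroup.le_centralizer_iff_isMulCommutative.mp h2
  obtain ⟨c1, c2, c3⟩ := H16.corefree_abelian hM hcore hL hc
  obtain ⟨r, hr, hrp⟩ := H02.exists_prime_pow_eq_one_of_minimal_normal hL hmin
  obtain ⟨n, hn⟩ := IsPGroup.iff_card.mp hLp
  have hn0 : n ≠ 0 := by
    rintro rfl
    exact hL (Subgroup.card_eq_one.mp hn)
  have hrp' : r = p := by
    have := Fact.mk hr
    obtain ⟨m, hm⟩ := IsPGroup.iff_card.mp (H02.isPGroup_of_pow_eq_one hrp)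
    have : p ∣ r ^ m := by rw [← hm, hn]; exact dvd_pow_self p hn0
    exact ((Nat.prime_dvd_prime_iff_eq hp hr).mp (hp.dvd_of_dvd_pow this)).symm
  refine ⟨⟨hc, hrp' ▸ hrp⟩, c3, hmin, c1, fun q _ hq => ?_⟩
  have hR0 : pCoreOf q M ≠ ⊥ := by rwa [Ne, H02.pCoreOf_eq_bot_iff]
  have hN := H16.corefree_normalizer_eq hM hcore hR0 (H02.pCoreOf_le M) (H02.le_normalizer_pCoreOf M)
  have hmod := H16.card_modEq_card_inf_centralizer (L := pCore p G) (H02.pCoreOf_isPGroup (p := q) M)
    (H01.le_normalizer_of_normal _ _)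
  have hb : pCore p G ⊓ Subgroup.centralizer (pCoreOf q M : Set G) = ⊥ := by
    rw [eq_bot_iff, ← c2]
    exact inf_le_inf_left _ ((Subgroup.centralizer_le_normalizer _).trans hN.le)
  rw [hb, Subgroup.card_bot] at hmod
  refine ⟨hmod, ?_⟩
  rintro rfl
  have h3 : q ∣ Nat.card (pCore q G) := by rw [hn]; exact dvd_pow_self q hn0
  have := (Nat.ModEq.dvd_iff hmod dvd_rfl).mp h3
  exact hp.one_lt.ne' (Nat.dvd_one.mp this)

end Cfsg.Agent.S0587
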