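import Mathlib
import Cfsg.Statements.S0588
import Cfsg.Agent.H04.Basic

set_option autoImplicit false
open Cfsg

namespace Cfsg.Agent.S0588

/-- If a subgroup H of a finite group G contains the centralizer of every non-identity element of H, then the order of H is coprime to its index. -/
theorem result {G : Type*} [Group G] [Finite G] (H : Subgroup G) (h : ∀ x ∈ H, x ≠ 1 → Subgroup.centralizer ({x} : Set G) ≤ H) : (Nat.card H).Coprime H.index := by
  by_contra hc
  obtain ⟨p, hp, h1, h2⟩ := Nat.Prime.not_coprime_iff_dvd.mp hc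
  have := Fact.mk hp
  obtain ⟨x, hx⟩ := exists_prime_orderOf_dvd_card' (G := H) p h1
  have hx1 : (x : G) ≠ 1 := by
    intro h
    rw [(Subtype.ext h : x = 1), orderOf_one] at hx
    exact hp.one_lt.ne hx
  have hxp : IsPGroup p (Subgroup.zpowers (x : G)) :=
    IsPGroup.of_card (n := 1) (by rw [Nat.card_zpowers, Subgroup.orderOf_coe, hx, pow_one])
  obtain ⟨S, hS⟩ := hxp.exists_le_sylow
  have hxS : (x : G) ∈ (S : Subgroup G) := hS (Subgroup.mem_zpowers _)
  obtain ⟨z, hz, hz1, hzc⟩ := H04.exists_fixed_of_normalizes S.isPGroup' S.isPGroup'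
    Subgroup.le_normalizer (fun hb => hx1 (by rwa [hb] at hxS))
  have hzH : z ∈ H := h x x.2 hx1 (Subgroup.mem_centralizer_singleton_iff.mpr (hzc x hxS).symm)
  have hSH : (S : Subgroup G) ≤ H := fun s hs =>
    h z hzH hz1 (Subgroup.mem_centralizer_singleton_iff.mpr (hzc s hs))
  exact S.not_dvd_index (h2.trans (Subgroup.index_dvd_of_le hSH))

end Cfsg.Agent.S0588
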