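import Mathlib
import Cfsg.Statements.S0592
import Cfsg.Agent.H17.Quad

set_option autoImplicit false
open Cfsg

namespace Cfsg.Agent.S0592

/-- Two quadratically acting generators of a linear group that is not a p-group, with the p'-part of the order of their product dividing q - 1, give a homomorphism onto a subgroup of SL(2, q) that is not a p-group. -/
theorem result {K : Type*} [Field K] [Fintype K] {p : ℕ} [Fact p.Prime] [CharP K p] {W : Type*} [AddCommGroup W] [Module K W] [FiniteDimensional K W] [Finite W] [Nontrivial W] (H : Subgroup (W ≃ₗ[K] W)) (a b : W ≃ₗ[K] W) (hH : H = Subgroup.closure {a, b}) (ha : ∀ w : W, a (a w - w) = a w - w) (hb : ∀ w : W, b (b w - w) = b w - w) (hnp : ¬ IsPGroup p H) (hk : ∃ e k : ℕ, orderOf (a * b) = p ^ e * k ∧ k ∣ Fintype.card K - 1) : ∃ φ : H →* Matrix.SpecialLinearGroup (Fin 2) K, ¬ IsPGroup p φ.range := by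
  obtain ⟨e, k, hk1, hk2⟩ := hk
  have hpp : p.Prime := Fact.out
  have haH : a ∈ H := hH ▸ Subgroup.subset_closure (Or.inl rfl)
  have hbH : b ∈ H := hH ▸ Subgroup.subset_closure (Or.inr rfl)
  let ρ : H →* Module.End K W := LinearEquiv.automorphismGroup.toLinearMapMonoidHom.comp H.subtype
  have hρ : ∀ (g : H) (w : W), ρ g w = (g : W ≃ₗ[K] W) w := fun _ _ => rfl
  have hgen : Subgroup.closure ({⟨a, haH⟩, ⟨b, hbH⟩} : Set H) = ⊤ := by
    apply Subgroup.map_injective H.subtype_injective
    rw [MonoidHom.map_closure, ← MonoidHom.range_eq_map, Subgroup.range_subtype, Set.image_pair]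
    exact hH.symm
  have hq : ∀ g : H, (∀ w : W, (g : W ≃ₗ[K] W) ((g : W ≃ₗ[K] W) w - w) = (g : W ≃ₗ[K] W) w - w) →
      (ρ g - 1) * (ρ g - 1) = 0 := by
    intro g hg
    ext w
    simp only [Module.End.mul_apply, LinearMap.sub_apply, hρ, Module.End.one_apply, hg, sub_self, LinearMap.zero_apply]
  have hcard : 0 < Fintype.card K - 1 := Nat.sub_pos_of_lt Fintype.one_lt_card
  have hsplit : ((Polynomial.X ^ (Fintype.card K - 1) - Polynomial.C 1 : Polynomial K) ^ p ^ e).Splits := by
    apply Polynomial.Splits.pow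
    have h2 : (Polynomial.X ^ Fintype.card K - Polynomial.X : Polynomial K).Splits := by
      classical
      rw [Polynomial.splits_iff_card_roots, FiniteField.roots_X_pow_card_sub_X,
        FiniteField.X_pow_card_sub_X_natDegree_eq K Fintype.one_lt_card]
      rfl
    refine h2.of_dvd (FiniteField.X_pow_card_sub_X_ne_zero K Fintype.one_lt_card) ⟨Polynomial.X, ?_⟩
    rw [sub_mul, ← pow_succ, Nat.sub_add_cancel Fintype.card_pos, map_one, one_mul]
  rcases H17.quad_core ρ hgen (hq _ ha) (hq _ hb) hsplit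
    (pow_ne_zero _ (Polynomial.X_pow_sub_C_ne_zero hcard 1)) (by
      have hch : CharP (Module.End K W) p := charP_of_injective_algebraMap (algebraMap K (Module.End K W)).injective p
      rw [map_pow, map_sub, map_pow, Polynomial.aeval_X, map_one, map_one,
        sub_pow_char_pow_of_commute p e (Commute.one_right _), one_pow, ← pow_mul, ← map_pow, sub_eq_zero,
        ← map_one ρ]
      congr 1
      apply Subtype.ext
      show (a * b) ^ _ = 1
      rw [← orderOf_dvd_iff_pow_eq_one, hk1, mul_comm]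
      exact Nat.mul_dvd_mul_right hk2 _) with h | ⟨l, hl, ι, φ, hι, hφa, hφb, hφ⟩
  · exfalso
    apply hnp
    intro g
    obtain ⟨n, hn⟩ := H17.pow_eq_one_of_nilpotent_sub_one hpp
      (by rw [← map_natCast (algebraMap K _), CharP.cast_eq_zero, map_zero]) (h g)
    refine ⟨n, Subtype.ext (LinearEquiv.ext fun w => ?_)⟩
    rw [← map_pow] at hn
    exact LinearMap.congr_fun hn w
  · exact ⟨φ, H17.not_isPGroup_up_lo p hl one_ne_zero ⟨_, hφa⟩ ⟨_, hφb⟩⟩

end Cfsg.Agent.S0592
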