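import Mathlib
import Cfsg.Statements.S0594
import Cfsg.Agent.H17.Stable
import Cfsg.Agent.H26.Core
import Cfsg.Agent.H01.Coprime

set_option autoImplicit false
open Cfsg

namespace Cfsg.Agent.S0594

/-- For odd p, two quadratic generators of a faithful group that is not a p-group, one of which acts nontrivially on a normal subgroup of order prime to p, force p = 3 and a section isomorphic to SL(2,3). -/
theorem result {G : Type*} [Group G] [Finite G] {p : ℕ} [Fact p.Prime] (hp : p ≠ 2) (V H : Subgroup G) (hV : Cfsg.IsElementaryAbelian p V) (hHV : H ≤ Subgroup.normalizer (V : Set G)) (hf : H ⊓ Subgroup.centralizer (V : Set G) = ⊥) (a b : G) (hab : H = Subgroup.closure {a, b}) (ha : ⁅⁅V, Subgroup.zpowers a⁆, Subgroup.zpowers a⁆ = ⊥) (hb : ⁅⁅V, Subgroup.zpowers b⁆, Subgroup.zpowers b⁆ = ⊥) (hnp : ¬ IsPGroup p H) (Q : Subgroup G) (hQH : Q ≤ H) (hQn : H ≤ Subgroup.normalizer (Q : Set G)) (hQ : (Nat.card Q).Coprime p) (hQa : ⁅Q, Subgroup.zpowers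 a⁆ ≠ ⊥) : p = 3 ∧ ∃ (K L : Subgroup G) (hL : (L.subgroupOf K).Normal), K ≤ H ∧ Nonempty ((K ⧸ L.subgroupOf K) ≃* Matrix.SpecialLinearGroup (Fin 2) (ZMod 3)) := by
  have haH : a ∈ H := hab ▸ Subgroup.subset_closure (Or.inl rfl)
  have hpp : p.Prime := Fact.out
  obtain ⟨x, hx, hxa⟩ : ∃ x ∈ Q, ¬ Commute x a := by
    by_contra h
    push Not at h
    apply hQa
    apply H17.commutator_eq_bot_of_commute
    rintro x hx _ ⟨n, rfl⟩
    exact (h x hx).zpow_right n
  have hb' : x * a * x⁻¹ ∈ H := H.mul_mem (H.mul_mem (hQH hx) haH) (H.inv_mem (hQH hx))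
  have hle : Subgroup.closure ({a, x * a * x⁻¹} : Set G) ≤ H := by
    rw [Subgroup.closure_le]; rintro _ (rfl | rfl); exacts [haH, hb']
  have hcop : ∀ y ∈ Q, (orderOf y).Coprime p := fun y hy =>
    hQ.coprime_dvd_left (Subgroup.orderOf_dvd_natCard Q hy)
  have hxa' : x * a * x⁻¹ * a⁻¹ ∈ Q := by
    have := Q.mul_mem hx ((Subgroup.mem_normalizer_iff.1 (hQn haH) _).1 (Q.inv_mem hx))
    simpa [mul_assoc] using this
  rcases H17.quad_group hp hV (hHV haH) (hHV hb') ha (H17.quad_conj (hHV (hQH hx)) ha) with h | h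
  · exfalso
    have h1 : x * a * x⁻¹ * a⁻¹ ∈ Subgroup.closure ({a, x * a * x⁻¹} : Set G) :=
      Subgroup.mul_mem _ (Subgroup.subset_closure (Or.inr rfl)) (Subgroup.inv_mem _ (Subgroup.subset_closure (Or.inl rfl)))
    obtain ⟨n, hn⟩ := h _ h1
    have h2 : (x * a * x⁻¹ * a⁻¹) ^ p ^ n = 1 :=
      Subgroup.mem_bot.1 (hf ▸ (⟨H.pow_mem (hle h1) _, hn⟩ : _ ∈ H ⊓ Subgroup.centralizer (V : Set G)))
    exact hxa (commutatorElement_eq_one_iff_commute.1 (H26.eq_one_of_coprime h2 ((hcop _ hxa').pow_right n)))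
  · have h3 : p = 3 := by
      obtain ⟨H₀, ψ, ι, h1, h2, -⟩ := h
      have h4 : H₀ ≤ Q ⊔ Subgroup.zpowers a := h1.trans (by
        rw [Subgroup.closure_le]
        rintro _ (rfl | rfl)
        · exact Subgroup.mem_sup_right (Subgroup.mem_zpowers _)
        · have := Subgroup.mul_mem_sup hxa' (Subgroup.mem_zpowers a)
          simpa using this)
      have hn : Subgroup.zpowers a ≤ Subgroup.normalizer (Q : Set G) := Subgroup.zpowers_le.2 (hQn haH)
      have h2' : (2 : ZMod p) ≠ 0 := H17.two_ne_zero_of_charP' _ p hp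
      have h5 := H17.up_eq_commutator h2' (1 : ZMod p)
      obtain ⟨s, hs⟩ := h2 (H09.sl2 2 0 0 (2 : ZMod p)⁻¹ (by field_simp; ring))
      obtain ⟨t, ht⟩ := h2 (H17.up 1)
      rw [← hs, ← ht, ← map_commutatorElement] at h5
      obtain ⟨q₁, hq₁, _, ⟨i, rfl⟩, e₁⟩ := (H01.mem_sup_of_le_normalizer' hn).1 (h4 s.2)
      obtain ⟨q₂, hq₂, _, ⟨j, rfl⟩, e₂⟩ := (H01.mem_sup_of_le_normalizer' hn).1 (h4 t.2)
      have hc : ∀ (k : ℤ), ∀ y ∈ Q, a ^ k * y * (a ^ k)⁻¹ ∈ Q := fun k y hy =>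
        (Subgroup.mem_normalizer_iff.1 (hn ⟨k, rfl⟩) y).1 hy
      have h6 : ((s * t * s⁻¹ * t⁻¹ : H₀) : G) ∈ Q := by
        have := Q.mul_mem (Q.mul_mem (Q.mul_mem hq₁ (hc i _ hq₂)) (hc j _ (Q.inv_mem hq₁))) (Q.inv_mem hq₂)
        convert this using 1
        simp only [Subgroup.coe_mul, Subgroup.coe_inv, ← e₁, ← e₂]
        group
      have h7 : (orderOf (H17.up ((2 ^ 2 - 1) * 1 : ZMod p))).Coprime p := by
        rw [← h5]
        refine Nat.Coprime.coprime_dvd_left (orderOf_map_dvd ψ _) ?_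
        rw [← Subgroup.orderOf_coe]
        exact hcop _ h6
      have h8 := H26.eq_one_of_coprime (H17.pow_char_of_tr p (by simp [H17.tr]; norm_num)) h7
      rw [← H17.up_zero] at h8
      have h9 := H17.up_injective h8
      have h10 : ((3 : ℕ) : ZMod p) = 0 := by push_cast; linear_combination h9
      exact (Nat.prime_dvd_prime_iff_eq hpp Nat.prime_three).1 ((ZMod.natCast_eq_zero_iff 3 p).1 h10)
    subst h3
    exact ⟨rfl, (h.mono le_rfl hle).sec.exists_section_le⟩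

end Cfsg.Agent.S0594
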