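import Mathlib
import Cfsg.Statements.S0602
import Cfsg.Agent.H17.Thompson

set_option autoImplicit false
open Cfsg

namespace Cfsg.Agent.S0602

/-- The Thompson subgroup is characteristic, and nontrivial as soon as p divides the group order. -/
theorem result {G : Type*} [Group G] [Finite G] {p : ℕ} [Fact p.Prime] : (Cfsg.thompsonSubgroup p G).Characteristic ∧ (p ∣ Nat.card G → Cfsg.thompsonSubgroup p G ≠ ⊥) := by
  constructor
  · rw [Subgroup.characteristic_iff_map_eq]
    intro φ
    rw [H17.thompsonSubgroup_eq_top, ← H17.thompsonOf_map _ φ.injective.injOn,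
      Subgroup.map_top_of_surjective _ φ.surjective]
  · intro hp h
    obtain ⟨x, hx⟩ := exists_prime_orderOf_dvd_card' p hp
    obtain ⟨A, hA⟩ := H17.maxAb_nonempty p (⊤ : Subgroup G)
    have hA1 : A = ⊥ := by
      rw [eq_bot_iff, ← h, H17.thompsonSubgroup_eq_top]
      exact H17.le_thompsonOf hA
    have := hA.2.2 (Subgroup.zpowers x) le_top
      (H17.elemAb_zpowers (by rw [← hx]; exact pow_orderOf_eq_one x))
    rw [hA1, Subgroup.card_bot, Nat.card_zpowers, hx] at this
    exact absurd this (not_le.2 (Fact.out : p.Prime).one_lt)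

end Cfsg.Agent.S0602
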