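import Mathlib
import Cfsg.Statements.S0604
import Cfsg.Agent.H17.Thompson

set_option autoImplicit false
open Cfsg

namespace Cfsg.Agent.S0604

/-- The Thompson subgroup of G is the join of the Thompson subgroups of its Sylow p-subgroups. -/
theorem result {G : Type*} [Group G] [Finite G] {p : ℕ} [Fact p.Prime] : Cfsg.thompsonSubgroup p G = ⨆ S : Sylow p G, Cfsg.thompsonSubgroupOf p (S : Subgroup G) := by
  rw [H17.thompsonSubgroup_eq_top]
  apply le_antisymm
  · refine H17.thompsonOf_le_iff.2 fun A hA => ?_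
    obtain ⟨S, hS⟩ := (H17.elemAb_isPGroup hA.2.1).exists_le_sylow
    exact (H17.le_thompsonOf (H17.maxAb_of_le hA hS le_top)).trans
      (le_iSup (fun S : Sylow p G => Cfsg.thompsonSubgroupOf p (S : Subgroup G)) S)
  · refine iSup_le fun S => ?_
    obtain ⟨A, hA⟩ := H17.maxAb_nonempty p (⊤ : Subgroup G)
    obtain ⟨T, hT⟩ := (H17.elemAb_isPGroup hA.2.1).exists_le_sylow
    obtain ⟨g, rfl⟩ := MulAction.exists_smul_eq G T S
    have h1 := H17.maxAb_map (MulAut.conj g).toMonoidHom (H17.conj_injOn g _) hA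
    rw [Subgroup.map_top_of_surjective _ (MulAut.conj g).surjective] at h1
    exact H17.thompsonOf_mono h1 (Subgroup.map_mono hT) le_top

end Cfsg.Agent.S0604
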