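import Mathlib
import Cfsg.Statements.S0605
import Cfsg.Agent.H17.Thompson

set_option autoImplicit false
open Cfsg

namespace Cfsg.Agent.S0605

/-- Elements of order p in the centralizer of the Thompson subgroup belong to the Thompson subgroup (so to its centre). -/
theorem result {G : Type*} [Group G] [Finite G] {p : ℕ} [Fact p.Prime] (x : G) (hx : x ∈ Subgroup.centralizer (Cfsg.thompsonSubgroup p G : Set G)) (ho : orderOf x = p) : x ∈ Cfsg.thompsonSubgroup p G := by
  rw [H17.thompsonSubgroup_eq_top] at hx ⊢
  obtain ⟨A, hA⟩ := H17.maxAb_nonempty p (⊤ : Subgroup G)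
  exact H17.le_thompsonOf hA (H17.mem_of_commute_maxAb hA trivial
    (by rw [← ho]; exact pow_orderOf_eq_one x) fun a ha => hx a (H17.le_thompsonOf hA ha))

end Cfsg.Agent.S0605
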