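import Mathlib
import Cfsg.Statements.S0609
import Cfsg.Agent.H01.KS92

set_option autoImplicit false
open Cfsg

namespace Cfsg.Agent.S0609

/-- Thompson factorizability passes to and from the quotient by the largest normal subgroup of order prime to p. -/
theorem result {G : Type*} [Group G] [Finite G] {p : ℕ} [Fact p.Prime] : Cfsg.IsThompsonFactorizable p G ↔ Cfsg.IsThompsonFactorizable p (G ⧸ Cfsg.pPrimeCore p G) := by
  have hf := QuotientGroup.mk'_surjective (Cfsg.pPrimeCore p G)
  have hk := H17.coprime_ker_mk' (p := p) (G := G)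
  set f := QuotientGroup.mk' (Cfsg.pPrimeCore p G)
  have hZ : ∀ S : Subgroup G, IsPGroup p S →
      (Subgroup.centralizer (Cfsg.omegaOne p (S ⊓ Subgroup.centralizer (S : Set G)) : Set G)).map f =
        Subgroup.centralizer (Cfsg.omegaOne p (S.map f ⊓ Subgroup.centralizer (S.map f : Set _)) : Set _) := by
    intro S hS
    have hi := H17.injOn_of_coprime_ker f hk hS
    rw [H17.centralizer_map_of_coprime_ker hf hk (H26.isPGroup_omegaZ S),
      H17.centralizer_map_of_injOn f hi le_rfl le_rfl,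
      H17.omegaOne_map f (hi.mono (inf_le_left : S ⊓ _ ≤ S))]
  have hJ : ∀ S : Subgroup G, IsPGroup p S →
      (Subgroup.normalizer (Cfsg.thompsonSubgroupOf p S : Set G)).map f =
        Subgroup.normalizer (Cfsg.thompsonSubgroupOf p (S.map f) : Set _) := by
    intro S hS
    rw [H17.normalizer_map_of_coprime_ker hf hk (hS.to_le (H17.thompsonOf_le p S)),
      H17.thompsonOf_map f (H17.injOn_of_coprime_ker f hk hS)]
  constructor
  · intro h T g
    obtain ⟨S, rfl⟩ := Sylow.mapSurjective_surjective hf p T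
    obtain ⟨g, rfl⟩ := hf g
    obtain ⟨x, hx, c, hc, n, hn, rfl⟩ := h S g
    refine ⟨1, one_mem _, f c, ?_, f n, ?_, ?_⟩
    · rw [Sylow.coe_mapSurjective, ← hZ _ S.isPGroup']; exact ⟨c, hc, rfl⟩
    · rw [Sylow.coe_mapSurjective, ← hJ _ S.isPGroup']; exact ⟨n, hn, rfl⟩
    · rw [map_mul, map_mul, show f x = 1 from (QuotientGroup.eq_one_iff x).mpr hx]
  · intro h S g
    obtain ⟨x, hx, c, hc, n, hn, e⟩ := h (S.mapSurjective hf) (f g)
    rw [H02.pPrimeCore_quotient_pPrimeCore, Subgroup.mem_bot] at hx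
    rw [Sylow.coe_mapSurjective, ← hZ _ S.isPGroup'] at hc
    rw [Sylow.coe_mapSurjective, ← hJ _ S.isPGroup'] at hn
    obtain ⟨c, hc, rfl⟩ := hc
    obtain ⟨n, hn, rfl⟩ := hn
    refine ⟨g * n⁻¹ * c⁻¹, (QuotientGroup.eq_one_iff _).mp ?_, c, hc, n, hn, by group⟩
    change f _ = 1
    rw [map_mul, map_mul, e, hx, map_inv, map_inv]
    group

end Cfsg.Agent.S0609
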