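import Mathlib
import Cfsg.Statements.S0614
import Cfsg.Agent.H01.KS93a

set_option autoImplicit false
open Cfsg

namespace Cfsg.Agent.S0614

/-- The commutator of the p'-core with a minimal nontrivially-acting best offender is a 3-group (when p = 2) or a non-abelian 2-group (when p = 3). -/
theorem result {G : Type*} [Group G] [Finite G] {p : ℕ} [Fact p.Prime] (V H : Subgroup G) (hV : Cfsg.IsElementaryAbelian p V) (hHV : H ≤ Subgroup.normalizer (V : Set G)) (hf : H ⊓ Subgroup.centralizer (V : Set G) = ⊥) (hS1 : Subgroup.centralizer (Cfsg.pPrimeCore p ↥H : Set ↥H) ≤ Cfsg.pPrimeCore p ↥H) (hS3 : H = ⨆ A : {A : Subgroup G // A ≤ H ∧ Cfsg.IsBestOffenderOn p V A}, (A : Subgroup G)) (hH1 : H ≠ ⊥) (A : Subgroup G) (hAH : A ≤ H) (hA : Cfsg.IsBestOffenderOn p V A) (hAV : ⁅V, A⁆ ≠ ⊥) (hmin : ∀ B : Subgroup G, B ≤ A → Cfsg.IsBestOffenderOn p V B → ⁅V, B⁆ ≠ ⊥ → B = A) : (p = 2 ∧ IsPGroup 3 ↥(⁅((Cfsg.pPrimeCore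 p ↥H).map H.subtype), A⁆)) ∨ (p = 3 ∧ IsPGroup 2 ↥(⁅((Cfsg.pPrimeCore p ↥H).map H.subtype), A⁆) ∧ ¬ IsMulCommutative ↥(⁅((Cfsg.pPrimeCore p ↥H).map H.subtype), A⁆)) := by
    have h := H01.FF.ofS hV hHV hf hS1
    have hT := h.tv_iff.mpr ⟨hAH, hA, hAV, hmin⟩
    have e : (Cfsg.pPrimeCore p ↥H).map H.subtype = Cfsg.piCoreOf {p}ᶜ H :=
      (H02.piCoreOf_compl_singleton (Fact.out : p.Prime) H).symm
    rw [e]
    have h1 := h.comm_pg hT
    obtain ⟨x, hx, hx'⟩ := h.exists_not_cent hT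
    have h2 := h.pair hT hx hx'
    rcases h2.p23 with rfl | rfl
    · exact Or.inl ⟨rfl, h1⟩
    · refine Or.inr ⟨rfl, h1, fun h3 => h2.nonab (by norm_num) (BG.abelian_of_le h3 ?_)⟩
      have nF : A ≤ Subgroup.normalizer (Cfsg.piCoreOf {3}ᶜ H : Set G) := hAH.trans (BG.le_norm_pcore _ _)
      refine (le_inf inf_le_left (inf_le_right.trans (sup_le le_sup_right (H01.cj_le_comm_sup hx)))).trans ?_
      rw [BG.dedekind (BG.comm_le_left nF) (Or.inl (BG.right_le_norm_comm _ _)), H01.p'core_inf hT.pg, sup_bot_eq]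

end Cfsg.Agent.S0614
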