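import Mathlib
import Cfsg.Statements.S0615
import Cfsg.Agent.H01.KS93a

set_option autoImplicit false
open Cfsg

namespace Cfsg.Agent.S0615

/-- Two subnormal subgroups acting irreducibly on their incomparable commutator modules, in a faithful group with trivial largest normal p-subgroup, generate their direct product, and the commutator module splits accordingly. -/
theorem result {G : Type*} [Group G] [Finite G] {p : ℕ} [Fact p.Prime] (V E E₁ E₂ : Subgroup G) (hV : Cfsg.IsElementaryAbelian p V) (hEV : E ≤ Subgroup.normalizer (V : Set G)) (hf : E ⊓ Subgroup.centralizer (V : Set G) = ⊥) (hgen : E = E₁ ⊔ E₂) (hs₁ : (E₁.subgroupOf E).IsSubnormal) (hs₂ : (E₂.subgroupOf E).IsSubnormal) (hOp : Cfsg.pCore p ↥E = ⊥) (hirr₁ : (∀ U : Subgroup G, U ≤ ⁅V, E₁⁆ → E₁ ≤ Subgroup.normalizer (U : Set G) → U = ⊥ ∨ U = ⁅V, E₁⁆)) (hirr₂ : (∀ U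 : Subgroup G, U ≤ ⁅V, E₂⁆ → E₂ ≤ Subgroup.normalizer (U : Set G) → U = ⊥ ∨ U = ⁅V, E₂⁆)) (h12 : ¬ ⁅V, E₁⁆ ≤ ⁅V, E₂⁆) (h21 : ¬ ⁅V, E₂⁆ ≤ ⁅V, E₁⁆) (hc₁ : 2 < Nat.card E₁) (hc₂ : 2 < Nat.card E₂) : ⁅E₁, E₂⁆ = ⊥ ∧ E₁ ⊓ E₂ = ⊥ ∧ ⁅V, E₁⁆ ⊓ ⁅V, E₂⁆ = ⊥ ∧ ⁅V, E⁆ = ⁅V, E₁⁆ ⊔ ⁅V, E₂⁆ := by
    have l1 : E₁ ≤ E := hgen ▸ le_sup_left
    have l2 : E₂ ≤ E := hgen ▸ le_sup_right
    have s1 := H26.subN_of_isSubnormal l1 hs₁
    have s2 := H26.subN_of_isSubnormal l2 hs₂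
    have hO : Cfsg.pCoreOf p E = ⊥ := by rw [Cfsg.pCoreOf, hOp, Subgroup.map_bot]
    have h := H01.two_irr hV hEV hf hO s1 s2 hirr₁ hirr₂ h12 h21 hc₁ hc₂
    obtain ⟨h1, h2, h3⟩ := H01.two_irr' hV hEV hf hO s1 s2 h
    refine ⟨h1, h2, (hirr₁ _ inf_le_left (BG.norm_inf (BG.right_le_norm_comm _ _)
      (BG.le_norm_of_cent h3))).resolve_right fun e => h12 (e.ge.trans inf_le_right), ?_⟩
    rw [hgen, H01.comm_sup_right' (l1.trans hEV) (l2.trans hEV)]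

end Cfsg.Agent.S0615
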