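import Mathlib
import Cfsg.Statements.S0617
import Cfsg.Agent.H01.KS93b

set_option autoImplicit false
open Cfsg

namespace Cfsg.Agent.S0617

/-- Structure Theorem for failure of factorization: a faithful group generated by best offenders, with self-centralizing p'-core, is a direct product of copies of SL(2, p) (p = 2 or 3), each acting on its own plane in V, which is the direct product of these planes and C_V(H). -/
theorem result {G : Type*} [Group G] [Finite G] {p : ℕ} [Fact p.Prime] (V H : Subgroup G) (hV : Cfsg.IsElementaryAbelian p V) (hHV : H ≤ Subgroup.normalizer (V : Set G)) (hf : H ⊓ Subgroup.centralizer (V : Set G) = ⊥) (hS1 : Subgroup.centralizer (Cfsg.pPrimeCore p ↥H : Set ↥H) ≤ Cfsg.pPrimeCore p ↥H) (hS3 : H = ⨆ A : {A : Subgroup G // A ≤ H ∧ Cfsg.IsBestOffenderOn p V A}, (A : Subgroup G)) (hH1 : H ≠ ⊥) : (p = 2 ∨ p = 3) ∧ (∀ E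 : {E : Subgroup G // ∃ A : Subgroup G, A ≤ H ∧ Cfsg.IsBestOffenderOn p V A ∧ ⁅V, A⁆ ≠ ⊥ ∧ (∀ B : Subgroup G, B ≤ A → Cfsg.IsBestOffenderOn p V B → ⁅V, B⁆ ≠ ⊥ → B = A) ∧ E = ⁅((Cfsg.pPrimeCore p ↥H).map H.subtype), A⁆ ⊔ A}, H ≤ Subgroup.normalizer ((E : Subgroup G) : Set G) ∧ Nonempty (↥(E : Subgroup G) ≃* Matrix.SpecialLinearGroup (Fin 2) (ZMod p)) ∧ Nat.card ↥(⁅V, (E : Subgroup G)⁆) = p ^ 2) ∧ iSupIndep (fun E : {E : Subgroup G // ∃ A : Subgroup G, A ≤ H ∧ Cfsg.IsBestOffenderOn p V A ∧ ⁅V, A⁆ ≠ ⊥ ∧ (∀ B : Subgroup G, B ≤ A → Cfsg.IsBestOffenderOn p V B → ⁅V, B⁆ ≠ ⊥ → B = A) ∧ E = ⁅((Cfsg.pPrimeCore p ↥H).map H.subtype), A⁆ ⊔ A} => (E : Subgroup G)) ∧ (⨆ E : {E : Subgroup G // ∃ A : Subgroup G, A ≤ H ∧ Cfsg.IsBestOffenderOn p V A ∧ ⁅V, A⁆ ≠ ⊥ ∧ (∀ B : Subgroup G, B ≤ A → Cfsg.IsBestOffenderOn p V B → ⁅V, B⁆ ≠ ⊥ → B = A) ∧ E = ⁅((Cfsg.pPrimeCore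 p ↥H).map H.subtype), A⁆ ⊔ A}, (E : Subgroup G)) = H ∧ iSupIndep (fun o : Option {E : Subgroup G // ∃ A : Subgroup G, A ≤ H ∧ Cfsg.IsBestOffenderOn p V A ∧ ⁅V, A⁆ ≠ ⊥ ∧ (∀ B : Subgroup G, B ≤ A → Cfsg.IsBestOffenderOn p V B → ⁅V, B⁆ ≠ ⊥ → B = A) ∧ E = ⁅((Cfsg.pPrimeCore p ↥H).map H.subtype), A⁆ ⊔ A} => o.elim (V ⊓ Subgroup.centralizer (H : Set G)) (fun E => ⁅V, (E : Subgroup G)⁆)) ∧ (V ⊓ Subgroup.centralizer (H : Set G)) ⊔ (⨆ E : {E : Subgroup G // ∃ A : Subgroup G, A ≤ H ∧ Cfsg.IsBestOffenderOn p V A ∧ ⁅V, A⁆ ≠ ⊥ ∧ (∀ B : Subgroup G, B ≤ A → Cfsg.IsBestOffenderOn p V B → ⁅V, B⁆ ≠ ⊥ → B = A) ∧ E = ⁅((Cfsg.pPrimeCore p ↥H).map H.subtype), A⁆ ⊔ A}, ⁅V, (E : Subgroup G)⁆) = V := by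
    have h := (H01.FF.ofS hV hHV hf hS1).toFG hS3.le
    have e : (Cfsg.pPrimeCore p ↥H).map H.subtype = Cfsg.piCoreOf {p}ᶜ H :=
      (H02.piCoreOf_compl_singleton (Fact.out : p.Prime) H).symm
    rw [e]
    generalize hP : (fun E : Subgroup G => ∃ A : Subgroup G, A ≤ H ∧ Cfsg.IsBestOffenderOn p V A ∧ ⁅V, A⁆ ≠ ⊥ ∧ (∀ B : Subgroup G, B ≤ A → Cfsg.IsBestOffenderOn p V B → ⁅V, B⁆ ≠ ⊥ → B = A) ∧ E = ⁅Cfsg.piCoreOf {p}ᶜ H, A⁆ ⊔ A) = P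
    have hP1 : ∀ E : {E // P E}, ∃ A, H01.TV p V H A ∧ E.1 = H01.eA p H A := by
      subst hP
      rintro ⟨E, A, h1, h2, h3, h4, h5⟩
      exact ⟨A, h.tv_iff.mpr ⟨h1, h2, h3, h4⟩, h5⟩
    have hP2 : ∀ A, H01.TV p V H A → P (H01.eA p H A) := by
      subst hP
      intro A hA
      obtain ⟨h1, h2, h3, h4⟩ := h.tv_iff.mp hA
      exact ⟨A, h1, h2, h3, h4, rfl⟩
    have hne : ∀ E E' : {E // P E}, E' ≠ E → E'.1 ≤ Subgroup.centralizer ((⁅V, E.1⁆ : Subgroup G) : Set G) := by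
      intro E E' hne
      obtain ⟨A, hA, h1⟩ := hP1 E
      obtain ⟨B, hB, h2⟩ := hP1 E'
      rw [h1, h2]
      exact (h.eA_cases hA hB).resolve_left fun h3 => hne (Subtype.ext (by rw [h1, h2, h3]))
    have hle : ∀ E : {E // P E}, E.1 ≤ H := fun E => by
      obtain ⟨A, hA, h1⟩ := hP1 E
      exact h1 ▸ H01.eA_le hA.le
    have hlV : ∀ E : {E // P E}, ⁅V, E.1⁆ ≤ V := fun E => BG.comm_le_left ((hle E).trans hHV)
    obtain ⟨A, hA⟩ := h.exists_tv hH1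
    refine ⟨(h.fac0 hA).p23, fun E => ?_, fun E => ?_, le_antisymm (iSup_le hle)
      (h.gen _ fun B hB => le_sup_right.trans (le_iSup (fun E : {E // P E} => E.1) ⟨_, hP2 B hB⟩)), ?_, ?_⟩
    · obtain ⟨B, hB, h1⟩ := hP1 E
      rw [h1]
      exact ⟨h.norm_eA hB, (h.fac0 hB).iso, (h.fac0 hB).card⟩
    · obtain ⟨B, hB, h1⟩ := hP1 E
      refine disjoint_iff.mpr (BG.eq_bot_mono (h1 ▸ (h.fac0 hB).faith :
        E.1 ⊓ Subgroup.centralizer ((⁅V, E.1⁆ : Subgroup G) : Set G) = ⊥) (inf_le_inf_left _ ?_))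
      exact iSup₂_le fun E' hE' => hne E E' hE'
    · rintro (_ | E)
      · refine disjoint_iff.mpr (BG.eq_bot_mono h.dprod_top.disj (inf_le_inf_left _ (iSup₂_le ?_)))
        rintro (_ | E) hE
        · exact absurd rfl hE
        · obtain ⟨B, hB, h1⟩ := hP1 E
          show ⁅V, E.1⁆ ≤ _
          rw [h1, ← (h.fac0 hB).commR]
          exact BG.comm_mono le_rfl (BG.comm_le_left (hB.le.trans (BG.le_norm_pcore _ _)))
      · obtain ⟨B, hB, h1⟩ := hP1 E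
        refine disjoint_iff.mpr (BG.eq_bot_mono (h1 ▸ (h.dprod hB).symm.disj :
          ⁅V, E.1⁆ ⊓ (V ⊓ Subgroup.centralizer (E.1 : Set G)) = ⊥) (inf_le_inf_left _ (iSup₂_le ?_)))
        rintro (_ | E') hE
        · exact inf_le_inf_left _ (BG.cent_anti (hle E))
        · exact le_inf (hlV E') (BG.cent_symm (hne E' E fun e => hE (by rw [e])))
    · refine le_antisymm (sup_le inf_le_left (iSup_le hlV)) (h.dprod_top.sup.ge.trans (sup_le_sup_left ?_ _))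
      exact (BG.comm_mono le_rfl (BG.pcore_le _ _)).trans (h.comm_le_of (iSup_le hlV) fun B hB =>
        le_iSup (fun E : {E // P E} => ⁅V, E.1⁆) ⟨_, hP2 B hB⟩)

end Cfsg.Agent.S0617
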