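import Mathlib
import Cfsg.Statements.S0618
import Cfsg.Agent.H01.KS93d

set_option autoImplicit false
open Cfsg

namespace Cfsg.Agent.S0618

/-- A p-separable group with trivial p'-core in which the Thompson factorization fails has p = 2 or 3, and J(G) induces on the normal closure of Ω₁(Z(S)) a group containing a normal SL(2, p). -/
theorem result {G : Type*} [Group G] [Finite G] {p : ℕ} [Fact p.Prime] (hsep : Cfsg.IsPSolvable p G) (hO : Cfsg.pPrimeCore p G = ⊥) (hnf : ¬ Cfsg.IsThompsonFactorizable p G) : (p = 2 ∨ p = 3) ∧ ∃ E : Subgroup G, Subgroup.centralizer ((⨆ S : Sylow p G, Cfsg.omegaOne p ((S : Subgroup G) ⊓ Subgroup.centralizer ((S : Subgroup G) : Set G))) : Set G) ≤ E ∧ E ≤ Cfsg.thompsonSubgroup p G ⊔ Subgroup.centralizer ((⨆ S : Sylow p G, Cfsg.omegaOne p ((S : Subgroup G) ⊓ Subgroup.centralizer ((S : Subgroup G) : Set G))) : Set G) ∧ Cfsg.thompsonSubgroup p G ⊔ Subgroup.centralizer ((⨆ S : Sylow p G, Cfsg.omegaOne p ((S : Subgroup G) ⊓ Subgroup.centralizer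 ((S : Subgroup G) : Set G))) : Set G) ≤ Subgroup.normalizer (E : Set G) ∧ ∃ hn : ((Subgroup.centralizer ((⨆ S : Sylow p G, Cfsg.omegaOne p ((S : Subgroup G) ⊓ Subgroup.centralizer ((S : Subgroup G) : Set G))) : Set G)).subgroupOf E).Normal, Nonempty ((↥E ⧸ (Subgroup.centralizer ((⨆ S : Sylow p G, Cfsg.omegaOne p ((S : Subgroup G) ⊓ Subgroup.centralizer ((S : Subgroup G) : Set G))) : Set G)).subgroupOf E) ≃* Matrix.SpecialLinearGroup (Fin 2) (ZMod p)) := by
    rw [H01.tf_iff hO] at hnf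
    have e : Subgroup.centralizer ((⨆ S : Sylow p G, Cfsg.omegaOne p ((S : Subgroup G) ⊓ Subgroup.centralizer ((S : Subgroup G) : Set G))) : Set G) = Subgroup.centralizer (Cfsg.sylowCenterClosure p (⊤ : Subgroup G) : Set G) := by
      rw [H01.zc_top, Subgroup.iSup_eq_closure, Subgroup.centralizer_closure]
      rfl
    rw [e, H17.thompsonSubgroup_eq_top]
    have h := H01.ps_zc (H01.psol_top.mpr hsep) (by
      rw [H02.piCoreOf_compl_singleton (Fact.out : p.Prime), H02.pPrimeCoreOf_top, hO])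
    obtain ⟨E, hE⟩ := h.exists_fac hnf
    have hn := BG.normal_subgroupOf (hE.le.trans (BG.norm_cent h.normJ))
    have h1 := hE.cent_le'
    have h2 := hE.le
    have h3 := hE.norm
    rw [H01.jc, top_inf_eq] at h2 h3
    rw [top_inf_eq] at h1
    exact ⟨hE.p23, E, h1, h2, h3, hn, hE.quot_iso h.elem⟩

end Cfsg.Agent.S0618
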