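import Mathlib
import Cfsg.Statements.S0619
import Cfsg.Agent.H01.KS93d

set_option autoImplicit false
open Cfsg

namespace Cfsg.Agent.S0619

/-- For a p-separable group and a normal elementary abelian p-subgroup V with no nontrivial normal p-subgroup modulo its centralizer C, the Thompson subgroup J(G) moves Ω₁(Z(J(C))) only inside V. -/
theorem result {G : Type*} [Group G] [Finite G] {p : ℕ} [Fact p.Prime] (hsep : Cfsg.IsPSolvable p G) (V : Subgroup G) [V.Normal] (hV : Cfsg.IsElementaryAbelian p V) (hO : Cfsg.pCore p (G ⧸ Subgroup.centralizer (V : Set G)) = ⊥) : ⁅Cfsg.omegaOne p (Cfsg.centerThompsonOf p (Subgroup.centralizer (V : Set G))), Cfsg.thompsonSubgroup p G⁆ ≤ V := by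
    have h : H01.PS p V ⊤ := ⟨⟨le_top, Subgroup.le_normalizer_of_normal, hV, fun D _ hD =>
      H26.pCore_quotient_eq_bot_iff.mp hO D (H26.normal_of_top_le hD)⟩, H01.psol_top.mpr hsep⟩
    rw [H17.thompsonSubgroup_eq_top, H17.thompsonSubgroupOf_eq_sSup, sSup_eq_iSup']
    refine H26.commutator_iSup_le' (fun _ => Subgroup.le_normalizer_of_normal) fun A => ?_
    have h1 := H17.maxAb_of_le (h.maxAb_cent A.2) (sup_le (BG.abelian_iff.mp hV.1) inf_le_right) le_top
    have h2 : Cfsg.omegaOne p (Cfsg.centerThompsonOf p (Subgroup.centralizer (V : Set G))) ≤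
        V ⊔ (A.1 ⊓ Subgroup.centralizer (V : Set G)) := H17.omegaOne_le_iff.mpr fun x hx e =>
      H17.mem_of_commute_maxAb h1 (H17.centerThompsonOf_le _ _ hx) e fun a ha =>
        hx.2 a (H17.le_thompsonOf h1 ha)
    refine (BG.comm_mono h2 le_rfl).trans (BG.comm_sup_le (BG.le_norm V) Subgroup.le_normalizer_of_normal
      (BG.comm_le_left Subgroup.le_normalizer_of_normal) ?_)
    exact (BG.comm_mono inf_le_left le_rfl).trans ((BG.abelian_iff_der.mp A.2.2.1.1).le.trans bot_le)

end Cfsg.Agent.S0619
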