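import Mathlib
import Cfsg.Statements.S0620
import Cfsg.Agent.H01.KS93d

set_option autoImplicit false
open Cfsg

namespace Cfsg.Agent.S0620

/-- Under coprime action of an elementary abelian q-group X on a p-separable group K with trivial p'-core, K is generated by the normalizer of J(S), the centralizer of Ω₁(Z(S)) and the fixed points of X. -/
theorem result {G : Type*} [Group G] [Finite G] {p : ℕ} [Fact p.Prime] {q : ℕ} [Fact q.Prime] (K X : Subgroup G) (hXK : X ≤ Subgroup.normalizer (K : Set G)) (hX : Cfsg.IsElementaryAbelian q X) (hq : ¬ q ∣ Nat.card K) (hsep : Cfsg.IsPSolvable p ↥K) (hO : Cfsg.pPrimeCore p ↥K = ⊥) (S : Sylow p ↥K) : (Subgroup.normalizer (Cfsg.thompsonSubgroupOf p (S : Subgroup ↥K) : Set ↥K) ⊔ Subgroup.centralizer (Cfsg.omegaOne p ((S : Subgroup ↥K) ⊓ Subgroup.centralizer ((S : Subgroup ↥K) : Set ↥K)) : Set ↥K) ⊔ (Subgroup.centralizer (X : Set G)).subgroupOf K) = ⊤ := by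
    have h := H01.gen_coprime hXK (BG.pg_coprime Fact.out (H17.elemAb_isPGroup hX) hq)
      (BG.sol_of_abelian hX.1) hsep (by
        rw [H02.piCoreOf_compl_singleton (Fact.out : p.Prime), H02.pPrimeCoreOf, hO, Subgroup.map_bot])
      (H26.isSyl_map_subtype S)
    apply Subgroup.map_injective K.subtype_injective
    rw [Subgroup.map_sup, Subgroup.map_sup, H26.map_subtype_normalizer, H26.map_subtype_centralizer,
      H01.omegaZ_map_subtype, H01.thompson_map_subtype, Subgroup.subgroupOf_map_subtype,
      inf_comm _ K, h, ← MonoidHom.range_eq_map, Subgroup.range_subtype]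

end Cfsg.Agent.S0620
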