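import Mathlib
import Cfsg.Statements.S0627
import Cfsg.Agent.H01.KS94
import Cfsg.Agent.H01.PSep

set_option autoImplicit false
open Cfsg

namespace Cfsg.Agent.S0627

/-- In a p-separable group with p at least 5, the normalizer of W(S) supplements the largest normal subgroup of order prime to p. -/
theorem result {G : Type*} [Group G] [Finite G] {p : ℕ} [Fact p.Prime] (hp : 5 ≤ p) (hsep : Cfsg.IsPSolvable p G) (S : Sylow p G) : Cfsg.pPrimeCore p G ⊔ Subgroup.normalizer (((Cfsg.stableNormalClosure p ↥(S : Subgroup G)).map (S : Subgroup G).subtype) : Set G) = ⊤ := by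
    have hf := QuotientGroup.mk'_surjective (Cfsg.pPrimeCore p G)
    have hk : (Nat.card (QuotientGroup.mk' (Cfsg.pPrimeCore p G)).ker).Coprime p := by
      rw [QuotientGroup.ker_mk']; exact H02.pPrimeCore_coprime _ _
    have hs := H01.psol_quot hsep (Cfsg.pPrimeCore p G)
    have h1 := H01.snc_main (H01.isActionPStable_of_psol hp hs)
      (H01.psol_cent_pCore hs (H02.pPrimeCore_quotient_pPrimeCore _ _)) (S.mapSurjective hf)
    rw [Sylow.coe_mapSurjective, (H01.sncF p).map_coprime _ hk S.isPGroup'] at h1
    have h2 := H17.normalizer_map_of_coprime_ker hf hk ((H01.sncF p).isPGroup S.isPGroup')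
    rw [Subgroup.normalizer_eq_top (Subgroup.map _ _)] at h2
    have h3 := Subgroup.comap_map_eq (QuotientGroup.mk' (Cfsg.pPrimeCore p G))
      (Subgroup.normalizer ((H01.sncF p).W G S : Set G))
    rw [QuotientGroup.ker_mk', sup_comm] at h3
    rw [← H01.sncF_W, ← h3, h2, Subgroup.comap_top]

end Cfsg.Agent.S0627
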