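import Mathlib
import Cfsg.Statements.S0629
import Cfsg.Agent.H01.PSep
import Cfsg.Agent.H02.PPrimeCore

set_option autoImplicit false
open Cfsg

namespace Cfsg.Agent.S0629

/-- A group in which the centralizer of a Sylow p-subgroup of O_{p',p}(G) is p-solvable is p-constrained. -/
theorem result {G : Type*} [Group G] [Finite G] {p : ℕ} [Fact p.Prime] (P : Sylow p ↥(Cfsg.pPrimePCore p G)) (hsol : Cfsg.IsPSolvable p ↥(Subgroup.centralizer (((P : Subgroup ↥(Cfsg.pPrimePCore p G)).map (Cfsg.pPrimePCore p G).subtype : Subgroup G) : Set G))) : Cfsg.IsPConstrained p G := by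
  have hp : p.Prime := Fact.out
  set P' := (P : Subgroup ↥(Cfsg.pPrimePCore p G)).map (Cfsg.pPrimePCore p G).subtype with hP'
  have hP : H26.IsSyl p P' (Cfsg.pPrimePCore p G) := H26.isSyl_map_subtype P
  have h1 : P'.map (QuotientGroup.mk' (Cfsg.pPrimeCore p G)) = Cfsg.pCore p (G ⧸ Cfsg.pPrimeCore p G) :=
    H17.map_eq_of_isSyl_comap (QuotientGroup.mk'_surjective _) (H02.pCore_isPGroup _ _) hP
  have h2 := H17.centralizer_map_of_coprime_ker (QuotientGroup.mk'_surjective _)
    H17.coprime_ker_mk' hP.pg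
  rw [h1] at h2
  have h3 := H01.psol_map hsol (QuotientGroup.mk' (Cfsg.pPrimeCore p G))
  rw [h2] at h3
  rw [H17.isPConstrained_iff_quot]
  have h0 := H02.pPrimeCore_quotient_pPrimeCore p G
  have h4 := H01.psol_isCharP h3 (by
    rw [H02.piCoreOf_compl_singleton hp]
    exact le_bot_iff.mp (h0 ▸ H02.pPrimeCoreOf_le_pPrimeCore _))
  have h5 := H02.pCoreOf_le_pCore (p := p)
    (Subgroup.centralizer (Cfsg.pCore p (G ⧸ Cfsg.pPrimeCore p G) : Set (G ⧸ Cfsg.pPrimeCore p G)))
  exact ((le_inf le_rfl (BG.cent_anti h5)).trans h4).trans h5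

end Cfsg.Agent.S0629
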