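import Mathlib
import Cfsg.Statements.S0632
import Cfsg.Agent.H17.Stab3

set_option autoImplicit false
open Cfsg

namespace Cfsg.Agent.S0632

/-- For a group with a nontrivial normal p-subgroup, p-stability passes to and from the quotient by the largest normal subgroup of order prime to p. -/
theorem result {G : Type*} [Group G] [Finite G] {p : ℕ} [Fact p.Prime] (hO : Cfsg.pCore p G ≠ ⊥) : Cfsg.IsPStable p G ↔ Cfsg.IsPStable p (G ⧸ Cfsg.pPrimeCore p G) := by
  rw [H17.isPStable_iff (QuotientGroup.mk'_surjective _) (QuotientGroup.ker_mk' _),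
    H17.isPStable_iff (f := MonoidHom.id _) Function.surjective_id
      (by rw [MonoidHom.ker_id, H02.pPrimeCore_quotient_pPrimeCore])]
  refine and_congr_right fun _ => and_congr_left fun _ => iff_of_true hO fun h => hO (eq_bot_iff.2 fun x hx => ?_)
  have h1 := H26.map_pCore_le (p := p) (QuotientGroup.mk'_surjective (pPrimeCore p G)) ⟨x, hx, rfl⟩
  rw [h, Subgroup.mem_bot, ← map_one (QuotientGroup.mk' (pPrimeCore p G))] at h1
  exact H17.injOn_of_coprime_ker _ H17.coprime_ker_mk' H26.isPGroup_pCore hx (one_mem _) h1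

end Cfsg.Agent.S0632
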