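import Cfsg.Statements.S0633
import Cfsg.Agent.H24.HH3
-- import your own Cfsg.Agent.* helpers here

set_option autoImplicit false
open Cfsg

namespace Cfsg.Agent.S0633

/-- Theorem B of Hall and Higman on the minimal polynomial of a p-element of order p^n in a p-solvable linear group on a nonzero vector space in characteristic p with no nontrivial normal p-subgroup: its degree is p^n, except when some p^n₀ - 1 (n₀ ≤ n) is a power of a prime q for which the Sylow q-subgroups are non-abelian, in which case the degree is at least p^(n-n₀)(p^n₀ - 1). -/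
theorem result {F : Type*} [Field F] {p : ℕ} [Fact p.Prime] [CharP F p] {V : Type*} [AddCommGroup V] [Module F V] [FiniteDimensional F V] [Nontrivial V] (H : Subgroup (V ≃ₗ[F] V)) [Finite H] (hsol : Cfsg.IsPSolvable p H) (hOp : Cfsg.pCore p H = ⊥) (x : V ≃ₗ[F] V) (hx : x ∈ H) (n : ℕ) (hn : orderOf x = p ^ n) (r : ℕ) (hr : minpoly F (x : Module.End F V) = (Polynomial.X - 1) ^ r) : r = p ^ n ∨ ∃ n₀ q m : ℕ, 1 ≤ n₀ ∧ n₀ ≤ n ∧ q.Prime ∧ 1 ≤ m ∧ p ^ n₀ - 1 = q ^ m ∧ (∀ Q : Sylow q H, ¬ IsMulCommutative Q) ∧ p ^ (n - n₀) * (p ^ n₀ - 1) ≤ r := by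
  let ρ : Representation F H V := (LinearEquiv.automorphismGroup.toLinearMapMonoidHom).comp H.subtype
  have hρ : Function.Injective ρ := fun a b h => Subtype.ext (LinearEquiv.toLinearMap_injective h)
  have h0 : ∀ k, (ρ ⟨x, hx⟩ - 1) ^ k = 0 ↔ r ≤ k := fun k => by
    have : (ρ ⟨x, hx⟩ - 1) ^ k = Polynomial.aeval (x : Module.End F V) ((Polynomial.X - 1 : Polynomial F) ^ k) := by
      simp [ρ]
    rw [this, ← minpoly.dvd_iff, hr, pow_dvd_pow_iff H24.Sim.monic_X_sub_one.ne_zero H24.Sim.irred_X_sub_one.not_isUnit]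
  have hn' : orderOf (⟨x, hx⟩ : H) = p ^ n := by rw [← Subgroup.orderOf_coe, hn]
  have h1 : r ≤ p ^ n := (h0 _).1 (by
    rw [H24.HH.sub_one_pow (F := F), ← map_pow, ← hn', pow_orderOf_eq_one, map_one, sub_self])
  rcases H24.HH.thmB hρ hsol hOp hn' ((h0 r).2 le_rfl) with h | ⟨n₀, q, m, h2, h3, h4, -, h5⟩
  · exact Or.inl (h1.antisymm h)
  · exact Or.inr ⟨n₀, q, m, h2, h3, h4, h5⟩

end Cfsg.Agent.S0633
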