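import Mathlib
import Cfsg.Statements.S0634
import Cfsg.Agent.H01.PSep
import Cfsg.Agent.H02.PPrimeCore

set_option autoImplicit false
open Cfsg

namespace Cfsg.Agent.S0634

/-- In a p-soluble group each p-factor of the upper p-series contains its own centralizer in the corresponding quotient. -/
theorem result {G : Type*} [Group G] [Finite G] {p : ℕ} [Fact p.Prime] (hsol : Cfsg.IsPSolvable p G) (k : ℕ) : Subgroup.centralizer ((((Cfsg.upperPSeries p G (2 * k + 2)).1.map (QuotientGroup.mk' (Cfsg.upperPSeries p G (2 * k + 1)).1)) : Subgroup (G ⧸ (Cfsg.upperPSeries p G (2 * k + 1)).1)) : Set (G ⧸ (Cfsg.upperPSeries p G (2 * k + 1)).1)) ≤ (Cfsg.upperPSeries p G (2 * k + 2)).1.map (QuotientGroup.mk' (Cfsg.upperPSeries p G (2 * k + 1)).1) := by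
  have h1 : (Cfsg.upperPSeries p G (2 * k + 2)).1 = (Cfsg.pCore p
      (G ⧸ (Cfsg.upperPSeries p G (2 * k + 1)).1)).comap (QuotientGroup.mk' _) :=
    congrArg Subtype.val (if_neg (by simp) : (if Even (2 * k + 1) then _ else _) = _)
  have h2 : (Cfsg.upperPSeries p G (2 * k + 1)).1 = (Cfsg.pPrimeCore p
      (G ⧸ (Cfsg.upperPSeries p G (2 * k)).1)).comap (QuotientGroup.mk' _) :=
    congrArg Subtype.val (if_pos (by simp) : (if Even (2 * k) then _ else _) = _)
  rw [h1, Subgroup.map_comap_eq_self_of_surjective (QuotientGroup.mk'_surjective _)]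
  refine H01.psol_cent_pCore (H01.psol_quot hsol _) ?_
  have key : ∀ (U W : Subgroup G) [U.Normal] [W.Normal],
      W = (Cfsg.pPrimeCore p (G ⧸ U)).comap (QuotientGroup.mk' U) →
        Cfsg.pPrimeCore p (G ⧸ W) = ⊥ := by
    intro U W _ _ h
    subst h
    have e := (QuotientGroup.quotientQuotientEquivQuotient U
      ((Cfsg.pPrimeCore p (G ⧸ U)).comap (QuotientGroup.mk' U))
      (fun x hx => by simp [(QuotientGroup.eq_one_iff x).mpr hx]))
    have e2 := QuotientGroup.quotientMulEquivOfEq (Subgroup.map_comap_eq_self_of_surjective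
      (QuotientGroup.mk'_surjective U) (Cfsg.pPrimeCore p (G ⧸ U)))
    rw [← H02.pPrimeCore_map_equiv (e2.symm.trans e), H02.pPrimeCore_quotient_pPrimeCore,
      Subgroup.map_bot]
  exact key _ _ h2

end Cfsg.Agent.S0634
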