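import Mathlib
import Cfsg.Statements.S0642
import Cfsg.Agent.H04.Regular

set_option autoImplicit false
open Cfsg

namespace Cfsg.Agent.S0642

/-- Among finite 2-groups the regular ones are exactly the abelian ones. -/
theorem result {G : Type*} [Group G] [Finite G] (hG : IsPGroup 2 G) : Cfsg.IsRegularPGroup 2 G ↔ ∀ a b : G, a * b = b * a := by
  constructor
  · intro h a b
    have hr := H04.regOn_of_isRegularPGroup h ⊤
    set L := Subgroup.closure ({a, b} : Set G) with hL
    have hn : L ≤ Subgroup.normalizer (Cfsg.powerClosure 2 1 ⁅L, L⁆ : Set G) :=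
      (Subgroup.normalizer_commutator_ge_left L L).trans
        (H04.normalizer_le_normalizer_powerClosure _ 1)
    have h1 := hr a (Subgroup.mem_top a) b (Subgroup.mem_top b)
    have h2 : a * b * a⁻¹ * b⁻¹ ∈ Cfsg.powerClosure 2 1 ⁅L, L⁆ := by
      have hab : a * b * b ∈ L := L.mul_mem (L.mul_mem (H04.left_mem_closure_pair a b)
        (H04.right_mem_closure_pair a b)) (H04.right_mem_closure_pair a b)
      have := (Subgroup.mem_normalizer_iff.mp (hn hab) _).mp (inv_mem h1)
      simpa [pow_two, mul_assoc] using this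
    have h3 : ⁅L, L⁆ ≤ Cfsg.powerClosure 2 1 ⁅L, L⁆ := H04.commutator_closure_pair_le hn h2
    have h4 : ⁅L, L⁆ = ⊥ := by
      by_contra hne
      have := H04.map_subtype_frattini_lt hne
      rw [H04.map_subtype_frattini_eq (hG.to_subgroup _)] at this
      exact not_le_of_gt this (h3.trans le_sup_right)
    exact Subgroup.commutator_eq_bot_iff_le_centralizer.mp h4 (H04.right_mem_closure_pair a b) a
      (H04.left_mem_closure_pair a b)
  · intro h
    exact H04.isRegularPGroup_iff_regOn.mpr ⟨hG, H04.regOn_of_comm
      (H04.isMulCommutative_iff'.mpr fun a _ b _ => h a b)⟩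

end Cfsg.Agent.S0642
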