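import Mathlib
import Cfsg.Statements.S0657
import Cfsg.Agent.H17.Stable

set_option autoImplicit false
open Cfsg

namespace Cfsg.Agent.S0657

/-- For odd p, a group that fails to be p-stable modulo its largest normal subgroup of order prime to p, and whose upper p-series does not stop there, has a section isomorphic to SL(2, p). -/
theorem result {G : Type*} [Group G] [Finite G] {p : ℕ} [Fact p.Prime] (hp : p ≠ 2) (hO : Cfsg.pPrimeCore p G < Cfsg.pPrimePCore p G) (hns : ¬ Cfsg.IsPStable p (G ⧸ Cfsg.pPrimeCore p G)) : ∃ (K L : Subgroup G) (hL : (L.subgroupOf K).Normal), K ≤ ⊤ ∧ Nonempty ((K ⧸ L.subgroupOf K) ≃* Matrix.SpecialLinearGroup (Fin 2) (ZMod p)) := by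
  by_contra h
  apply hns
  have h1 : ¬ H17.Sec (Matrix.SpecialLinearGroup (Fin 2) (ZMod p)) G := by
    intro h'
    obtain ⟨K, L, hL, e⟩ := H17.sec_iff_involves.1 h'
    exact h ⟨K, L, hL, le_top, e⟩
  refine H17.isPStable_of_isNormalizerPStable hp ?_
    (H17.isNormalizerPStable_of_not_sec_qd hp (H17.not_sec_qd_of_not_sec (fun h' => h1 h'.of_quotient)))
  intro h2
  apply hO.ne'
  rw [Cfsg.pPrimePCore, h2, MonoidHom.comap_bot, QuotientGroup.ker_mk']

end Cfsg.Agent.S0657
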