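import Mathlib
import Cfsg.Statements.S0658
import Cfsg.Agent.H17.Stab3

set_option autoImplicit false
open Cfsg

namespace Cfsg.Agent.S0658

/-- In a group of characteristic p type all of whose p-locals are p-stable (p odd), the normalizer of Z(J(P)) contains the normalizer of every nontrivial subgroup of the Sylow p-subgroup P. -/
theorem result {G : Type*} [Group G] [Finite G] {p : ℕ} [Fact p.Prime] (hp : p ≠ 2) (hloc : ∀ Q : Subgroup G, IsPGroup p Q → Q ≠ ⊥ → Cfsg.pPrimeCore p ↥(Subgroup.normalizer (Q : Set G)) = ⊥ ∧ Cfsg.IsPConstrained p ↥(Subgroup.normalizer (Q : Set G)) ∧ Cfsg.IsPStable p ↥(Subgroup.normalizer (Q : Set G))) (P : Sylow p G) (Q : Subgroup G) (hQP : Q ≤ (P : Subgroup G)) (hQ1 : Q ≠ ⊥) : Subgroup.normalizer (Q : Set G) ≤ Subgroup.normalizer (Cfsg.centerThompsonAOf ((P : Subgroup G)) : Set G) := by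
  open Subgroup H26 H17 in
  rw [centerThompsonAOf_eq]
  set M := 𝐍(centerThompsonOf 0 (P : Subgroup G)) with hM
  have hPM : (P : Subgroup G) ≤ M := le_normalizer.trans (normalizer_le_normalizer_centerThompsonOf 0 _)
  have hzj : ∀ Q R : Subgroup G, IsPGroup p Q → Q ≠ ⊥ → IsSyl p R 𝐍(Q) →
      𝐍(Q) ≤ 𝐍(centerThompsonOf 0 R) := fun Q R h1 h2 h3 => by
    obtain ⟨S, -, hS⟩ := h3.exists_sylow
    obtain ⟨k1, k2, k3⟩ := hloc Q h1 h2
    have h := zj_factor hp (Or.inl rfl) k2 (IsPStable.weaklyStable k3) S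
    rw [k1, bot_sup_eq] at h
    haveI := normal_of_top_le h.ge
    rw [← hS, centerThompsonOf_map _ (subtype_injective _).injOn]
    exact le_normalizer_map_subtype _
  have key : ∀ n, ∀ Q R : Subgroup G, Nat.card G - Nat.card R = n → IsPGroup p Q → Q ≠ ⊥ → IsPGroup p R →
      R ≠ ⊥ → R ≤ 𝐍(Q) ⊓ M → 𝐍(Q) ≤ M := by
    intro n
    induction n using Nat.strong_induction_on with
    | _ n ih =>
    intro Q R hn h1 h2 h3 h4 h5
    have ih' : ∀ Q T : Subgroup G, R < T → IsPGroup p Q → Q ≠ ⊥ → IsPGroup p T → T ≤ 𝐍(Q) ⊓ M → 𝐍(Q) ≤ M :=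
      fun Q T k1 k2 k3 k4 k5 => ih _ (by
        have := card_lt_of_lt k1; have := card_le_card_top T; omega) Q T rfl k2 k3 k4
        (fun e => h4 (le_bot_iff.1 (e ▸ k1.le))) k5
    obtain ⟨T, hT, hRT⟩ := exists_isSyl_ge h3 h5
    rcases hRT.lt_or_eq with h | rfl
    · exact ih' Q T h h1 h2 hT.pg hT.le
    obtain ⟨m, hm, h6⟩ := (isSyl_of_le P hPM).exists_le_cj h3 (h5.trans inf_le_right)
    have hP' := (isSyl_top P).cj_of_mem (mem_top m)
    rcases h6.lt_or_eq with h | h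
    · have h7 := lt_inf_normalizer hP'.pg h
      have h8 : ∀ X : Subgroup G, X ≤ R → X ≠ ⊥ → 𝐍(R) ≤ 𝐍(X) → 𝐍(X) ≤ M := fun X k1 k2 k3 =>
        ih' X _ h7 (h3.to_le k1) k2 (hP'.pg.to_le inf_le_left) (le_inf (inf_le_right.trans k3)
          (inf_le_left.trans (cj_le_of_le_of_mem hPM hm)))
      have h9 : IsSyl p R 𝐍(Q) := isSyl_of_normalizer (hT.mono (le_inf (h5.trans inf_le_left) le_normalizer)
        (inf_le_inf_left _ (h8 R le_rfl h4 le_rfl)))
      exact (hzj Q R h1 h2 h9).trans (h8 _ (centerThompsonOf_le _ _) ((H03.AmbF.zj 0 (Or.inl rfl)).ne _ _ h3 h4)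
        (normalizer_le_normalizer_centerThompsonOf 0 _))
    · have := hzj Q R h1 h2 ((h ▸ hP').mono (h5.trans inf_le_left) le_top)
      rwa [h, centerThompsonOf_map _ (conj_injOn _ _), cj_eq_of_mem_normalizer hm] at this
  exact key _ Q Q rfl (P.2.to_le hQP) hQ1 (P.2.to_le hQP) hQ1 (le_inf le_normalizer (hQP.trans hPM))

end Cfsg.Agent.S0658
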