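import Mathlib
import Cfsg.Statements.S0662
import Cfsg.Agent.H04.Count
import Cfsg.Agent.H04.MaxClass

set_option autoImplicit false
open Cfsg

namespace Cfsg.Agent.S0662

/-- In a p-group of maximal class of order at least p³ the normal subgroups of index at least p² are exactly the terms of the lower central series, and there are exactly p + 1 normal subgroups of index p. -/
theorem result {G : Type*} [Group G] [Finite G] {p : ℕ} [Fact p.Prime] (n : ℕ) (hG : Nat.card G = p ^ n) (hcl : Group.nilpotencyClass G = n - 1) (hn : 3 ≤ n) : (∀ (N : Subgroup G) [N.Normal] (r : ℕ), 2 ≤ r → N.index = p ^ r → N = (⊤ : Subgroup G).lowerCentralSeries (r - 1)) ∧ Nat.card {N : Subgroup G // N.Normal ∧ N.index = p} = p + 1 := by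
  obtain ⟨m, rfl⟩ : ∃ m, n = m + 3 := ⟨n - 3, by omega⟩
  have h := (H04.class_eq_iff (n := m + 1) hG).mp hcl
  have hP : IsPGroup p G := .of_card hG
  refine ⟨fun N _ r hr hN => ?_, ?_⟩
  · obtain ⟨r, rfl⟩ : ∃ k, r = k + 2 := ⟨r - 2, by omega⟩
    exact H04.eq_lcs_of_maxClass (n := m + 1) hG h N hN
  · have h1 := H04.ncard_maximal hP
    rw [H04.frattini_eq_of_maxClass hG h, H04.index_commutator_of_maxClass (n := m + 1) hG h] at h1
    rw [← H04.eq_of_mul_pred_sq (Fact.out : p.Prime).one_lt h1]
    exact Nat.card_congr (Equiv.subtypeEquivRight fun N =>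
      ⟨fun h => h.2, fun h => ⟨H04.normal_of_index_eq hP h, h⟩⟩)

end Cfsg.Agent.S0662
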