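import Mathlib
import Cfsg.Statements.S0663
import Cfsg.Agent.H04.MaxClass

set_option autoImplicit false
open Cfsg

namespace Cfsg.Agent.S0663

/-- A p-group acts uniserially on a p-group N of order p^n exactly when the iterated commutator chain from N has length n; in that case the chain terms are all the invariant subgroups of N and they are normal in N. -/
theorem result {L : Type*} [Group L] [Finite L] {p : ℕ} [Fact p.Prime] (N G : Subgroup L) (hN : IsPGroup p N) (hG : IsPGroup p G) (hGN : G ≤ Subgroup.normalizer (N : Set L)) (n : ℕ) (hn : Nat.card N = p ^ n) : ((∀ H : Subgroup L, H ≤ N → G ≤ Subgroup.normalizer (H : Set L) → H ≠ ⊥ → (⁅H, G⁆).relIndex H = p) ↔ Cfsg.iterCommutator N G (n - 1) ≠ ⊥ ∨ n = 0) ∧ ((∀ H : Subgroup L, H ≤ N → G ≤ Subgroup.normalizer (H : Set L) → H ≠ ⊥ → (⁅H, G⁆).relIndex H = p) → ∀ H : Subgroup L, H ≤ N → G ≤ Subgroup.normalizer (H : Set L) → (∃ i ≤ n, H = Cfsg.iterCommutator N G i) ∧ N ≤ Subgroup.normalizer (H : Set L)) := by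
  have key : (∀ H : Subgroup L, H ≤ N → G ≤ Subgroup.normalizer (H : Set L) → H ≠ ⊥ →
      (⁅H, G⁆).relIndex H = p) → ∀ i ≤ n, Nat.card (Cfsg.iterCommutator N G i) = p ^ (n - i) := by
    intro h i
    induction i with
    | zero => exact fun _ => hn
    | succ i ih =>
      intro hi
      have h1 := ih (by omega)
      have h2 := H04.card_mul_relIndex (H04.iterComm_succ_le hGN i)
      rw [H04.iterComm_succ, h _ (H04.iterComm_le hGN i) (H04.le_norm_iterComm hGN (BG.le_norm G) i)
        (BG.ne_bot_of_card Fact.out (by omega) h1), h1, show n - i = n - (i + 1) + 1 by omega,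
        pow_succ] at h2
      exact Nat.eq_of_mul_eq_mul_right (Fact.out : p.Prime).pos h2
  rcases n with _ | n
  · obtain rfl : N = ⊥ := Subgroup.card_eq_one.mp hn
    refine ⟨iff_of_true (fun H h _ h1 => absurd (le_bot_iff.mp h) h1) (Or.inr rfl),
      fun _ H h _ => ⟨⟨0, le_rfl, le_bot_iff.mp h⟩, bot_le⟩⟩
  have key2 := fun h => BG.ne_bot_of_card (n := n + 1 - n) Fact.out (by omega) (key h n (by omega))
  refine ⟨⟨fun h => Or.inl (key2 h), fun h H h1 h2 h3 => ?_⟩, fun h H h1 h2 => ?_⟩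
  · have h := h.resolve_right (by omega)
    obtain ⟨i, hi, rfl⟩ := H04.eq_iterComm_of_uniserial hN hG hGN hn.le h h1 h2
    have h4 : i ≠ n + 1 := fun h4 => h3 (h4 ▸ H04.iterComm_eq_bot hN hG hGN hn.le)
    refine H04.relIndex_eq_of_card_eq_mul (H04.iterComm_succ_le hGN i) ?_
    rw [H04.card_iterComm hN hG hGN hn.le h hi,
      H04.card_iterComm hN hG hGN hn.le h (by omega), ← pow_succ']
    congr 1; omega
  · obtain ⟨i, hi, rfl⟩ := H04.eq_iterComm_of_uniserial hN hG hGN hn.le (key2 h) h1 h2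
    exact ⟨⟨i, hi, rfl⟩, H04.le_norm_iterComm_of_uniserial hN hG hGN hn.le (key2 h) hi⟩

end Cfsg.Agent.S0663
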