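import Cfsg.Statements.S0666
import Cfsg.Agent.H24.FrobBridge
-- import your own Cfsg.Agent.* helpers here

set_option autoImplicit false
open Cfsg

namespace Cfsg.Agent.S0666

/-- A Frobenius group acting on a nontrivial abelian group of order prime to that of its kernel, with the kernel acting without nontrivial fixed points, has a complement with a nontrivial fixed point. -/
theorem result {G : Type*} [Group G] [Finite G] (V F : Subgroup G) (hVab : IsMulCommutative V) (hV1 : V ≠ ⊥) (hFV : F ≤ Subgroup.normalizer (V : Set G)) (H : Subgroup ↥F) (hH : Cfsg.IsFrobeniusComplement H) (hcop : (Nat.card V).Coprime (Nat.card (Cfsg.frobeniusKernel H))) (hCK : V ⊓ Subgroup.centralizer (Subtype.val '' Cfsg.frobeniusKernel H : Set G) = ⊥) : V ⊓ Subgroup.centralizer ((H.map F.subtype : Subgroup G) : Set G) ≠ ⊥ := by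
  obtain ⟨K, hK, hc, hs, hn, -, hf⟩ := H24.exists_kernel_of_frobenius hH
  intro hC
  have hR : H.map F.subtype ≤ F := Subgroup.map_subtype_le H
  have h1 := H24.le_centralizer_of_frobenius (hR.trans hn) hf ((le_sup_left.trans hs.le).trans hFV)
    (hR.trans hFV) (hc ▸ hcop.symm) hC
  rw [← hK, inf_eq_left.mpr (Subgroup.le_centralizer_iff.mp h1)] at hCK
  exact hV1 hCK

end Cfsg.Agent.S0666
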