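import Mathlib
import Cfsg.Statements.S0668
import Cfsg.Agent.H18.PermMod

set_option autoImplicit false
open scoped Pointwise
open Cfsg

namespace Cfsg.Agent.S0668

/-- The equivariant linear maps between the permutation modules of two finite `G`-sets form a space whose dimension is the number of `G`-orbits on the product of the two sets. -/
theorem result {G : Type*} [Group G] {K : Type*} [Field K] {Ω₁ Ω₂ : Type*} [Fintype Ω₁] [Fintype Ω₂] [MulAction G Ω₁] [MulAction G Ω₂] : Module.finrank K ((Cfsg.permRep K G Ω₁).linHom (Cfsg.permRep K G Ω₂)).invariants = Nat.card (MulAction.orbitRel.Quotient G (Ω₁ × Ω₂)) := by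
  classical
  let O := MulAction.orbitRel.Quotient G (Ω₁ × Ω₂)
  have : Fintype O := Fintype.ofFinite _
  let q : Ω₁ × Ω₂ → O := Quotient.mk''
  have hq : ∀ (g : G) x, q (g • x) = q x := fun g x => MulAction.orbitRel.Quotient.quotient_smul_eq
  let L : (O → K) →ₗ[K] ((Ω₁ → K) →ₗ[K] (Ω₂ → K)) :=
    Matrix.toLin'.toLinearMap ∘ₗ
      { toFun := fun φ => Matrix.of fun y x => φ (q (x, y))
        map_add' := fun _ _ => rfl
        map_smul' := fun _ _ => rfl }
  have hL : ∀ φ u y, L φ u y = ∑ x, φ (q (x, y)) * u x := fun φ u y => by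
    simp [L, Matrix.mulVec, dotProduct]; rfl
  have hinj : Function.Injective L := by
    rw [injective_iff_map_eq_zero]
    intro φ h
    ext o
    obtain ⟨⟨x, y⟩, rfl⟩ := Quotient.mk''_surjective o
    have := hL φ (Pi.single x 1) y
    rw [h] at this
    simpa [Pi.single_apply] using this.symm
  have hrange : ((permRep K G Ω₁).linHom (permRep K G Ω₂)).invariants = LinearMap.range L := by
    ext T
    rw [Representation.mem_invariants]
    constructor
    · intro h
      have h1 : ∀ (g : G) x y, T (Pi.single (g • x) 1) (g • y) = T (Pi.single x 1) y := by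
        intro g x y
        conv_lhs => rw [← h g]
        rw [Representation.linHom_apply, LinearMap.comp_apply, LinearMap.comp_apply, H18.permRep_single,
          H18.permRep_apply, inv_smul_smul, inv_smul_smul]
      refine ⟨Quotient.lift (fun z : Ω₁ × Ω₂ => T (Pi.single z.1 1) z.2) ?_, ?_⟩
      · rintro ⟨x, y⟩ ⟨x', y'⟩ ⟨g, hg⟩
        simp only [Prod.smul_mk, Prod.mk.injEq] at hg
        simp only [← hg.1, ← hg.2, h1]
      · refine LinearMap.ext fun u => funext fun y => ?_
        rw [hL]
        conv_rhs => rw [pi_eq_sum_univ' u, map_sum]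
        simp only [map_smul, Finset.sum_apply, Pi.smul_apply, smul_eq_mul]
        exact Finset.sum_congr rfl fun x _ => mul_comm _ _
    · rintro ⟨φ, rfl⟩ g
      refine LinearMap.ext fun u => funext fun y => ?_
      rw [Representation.linHom_apply, LinearMap.comp_apply, LinearMap.comp_apply, H18.permRep_apply,
        hL, hL, ← H18.sum_smul_eq g (fun x => φ (q (x, y)) * u x)]
      refine Finset.sum_congr rfl fun x _ => ?_
      rw [H18.permRep_apply, inv_inv, ← hq g]
      simp
  rw [hrange, LinearMap.finrank_range_of_inj hinj, Module.finrank_fintype_fun_eq_card,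
    Nat.card_eq_fintype_card]

end Cfsg.Agent.S0668
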