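import Mathlib
import Cfsg.Statements.S0672
import Cfsg.Agent.H18.PermMod

set_option autoImplicit false
open scoped Pointwise
open Cfsg

namespace Cfsg.Agent.S0672

/-- Let a finite group act faithfully and doubly transitively with point stabilisers of even order, and let `K` have characteristic `p` dividing the degree. If the heart of the permutation module admits no non-zero equivariant map to the permutation module on unordered pairs (phrased: every intertwining map from the sum-zero functions vanishing on the constants is zero), the action is triply transitive. -/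
theorem result {G : Type*} [Group G] [Finite G] {K : Type*} [Field K] {p : ℕ} [Fact p.Prime] [CharP K p] {Ω : Type*} [Fintype Ω] [DecidableEq Ω] [MulAction G Ω] [FaithfulSMul G Ω] (h2 : MulAction.IsMultiplyPretransitive G Ω 2) (hp : p ∣ Fintype.card Ω) (heven : ∀ a : Ω, Even (Nat.card (MulAction.stabilizer G a))) (h : ∀ f : Representation.IntertwiningMap (Cfsg.permSumZero K G Ω).toRepresentation (Cfsg.permRep K G (Set.powersetCard Ω 2)), (∀ v : (Cfsg.permSumZero K G Ω).toSubmodule, (v : Ω → K) ∈ (Cfsg.permConstants K G Ω).toSubmodule → f v = 0) → f = 0) : MulAction.IsMultiplyPretransitive G Ω 3 := by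
  classical
  have : Fact (Nat.Prime 2) := ⟨Nat.prime_two⟩
  refine H18.mt_three_iff.2 fun a b c a' b' c' hab hac hbc hab' hac' hbc' => ?_
  -- general tool: build the intertwining map from a matrix
  have tool : ∀ e : Set.powersetCard Ω 2 → Ω → K, (∀ (g : G) s x, e (g • s) (g • x) = e s x) →
      (∀ s, ∑ x, e s x = 0) → ∀ s x y, e s x = e s y := by
    intro e he h0 s x y
    let F : (permSumZero K G Ω).toSubmodule →ₗ[K] (Set.powersetCard Ω 2 → K) :=
      { toFun := fun u s => ∑ x, e s x * (u : Ω → K) x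
        map_add' := fun u v => by ext s; simp [mul_add, Finset.sum_add_distrib]
        map_smul' := fun c u => by ext s; simp [Finset.mul_sum, mul_left_comm] }
    have hF := h (F.intertwiningMap_of_isIntertwiningMap _ _ (fun g u => by
      ext s
      change ∑ x, e s x * (u : Ω → K) (g⁻¹ • x) = ∑ x, e (g⁻¹ • s) x * (u : Ω → K) x
      rw [← H18.sum_smul_eq g]
      refine Finset.sum_congr rfl fun y _ => ?_
      rw [inv_smul_smul, ← he g (g⁻¹ • s) y, smul_inv_smul])) (fun v hv => by
      obtain ⟨z, hz⟩ := H18.mem_permConstants.1 hv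
      ext s
      change ∑ x, e s x * (v : Ω → K) x = 0
      simp only [hz, ← Finset.sum_mul, h0, zero_mul])
    have h1 : F ⟨Pi.single x 1 - Pi.single y 1, by
        rw [H18.mem_permSumZero]; simp [Finset.sum_sub_distrib]⟩ s = 0 := by
      have := congrArg (fun φ => φ.toLinearMap) hF
      change F = 0 at this
      rw [this]; rfl
    change ∑ z, e s z * (Pi.single x 1 - Pi.single y 1 : Ω → K) z = 0 at h1
    simpa [mul_sub, Finset.sum_sub_distrib, Pi.single_apply, sub_eq_zero] using h1
  have hmem : ∀ (g : G) (s : Set.powersetCard Ω 2) (x : Ω), g • x ∈ ((g • s : Set.powersetCard Ω 2) : Finset Ω) ↔ x ∈ (s : Finset Ω) := by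
    intro g s x
    rw [Set.powersetCard.coe_smul, Finset.smul_mem_smul_finset_iff]
  have hcard : ∀ s : Set.powersetCard Ω 2, ∑ x, (if x ∈ (s : Finset Ω) then (1 : K) else 0) = 2 := by
    intro s
    have : (s : Finset Ω).card = 2 := s.2
    simp [this]
  by_cases h2K : (2 : K) = 0
  · exfalso
    have := tool (fun s x => if x ∈ (s : Finset Ω) then 1 else 0) (fun g s x => by simp only [hmem])
      (fun s => by rw [hcard, h2K]) ⟨{a, b}, Finset.card_pair hab⟩ a c
    simp [hac.symm, hbc.symm] at this
  obtain ⟨⟨t, hta⟩, ht⟩ := exists_prime_orderOf_dvd_card' 2 (heven a).two_dvd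
  have ht' : orderOf t = 2 := by rw [← ht]; exact (Subgroup.orderOf_mk _ _).symm
  have ht1 : t ≠ 1 := by rintro rfl; simp at ht'
  have ht2 : t * t = 1 := by rw [← pow_two, ← ht', pow_orderOf_eq_one]
  obtain ⟨u, hu⟩ : ∃ u : Ω, t • u ≠ u := by
    by_contra! h
    exact ht1 (FaithfulSMul.eq_of_smul_eq_smul (α := Ω) fun a => by rw [h a, one_smul])
  have httu : t • t • u = u := by rw [← mul_smul, ht2, one_smul]
  have hta' : t • a = a := hta
  let s0 : Set.powersetCard Ω 2 := ⟨{u, t • u}, Finset.card_pair hu.symm⟩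
  let Λ : Set.powersetCard Ω 2 → Ω → Prop := fun s x => ∃ g : G, g • a = x ∧ g • s0 = s
  have hΛ : ∀ (g : G) s x, Λ (g • s) (g • x) ↔ Λ s x := by
    intro g s x
    constructor
    · rintro ⟨k, h1, h2⟩
      exact ⟨g⁻¹ * k, by rw [mul_smul, h1, inv_smul_smul], by rw [mul_smul, h2, inv_smul_smul]⟩
    · rintro ⟨k, rfl, rfl⟩
      exact ⟨g * k, mul_smul _ _ _, mul_smul _ _ _⟩
  let m : Set.powersetCard Ω 2 → K := fun s => ∑ x, if Λ s x then 1 else 0
  have hm : ∀ (g : G) s, m (g • s) = m s := by
    intro g s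
    simp only [m]
    rw [← H18.sum_smul_eq g]
    simp only [hΛ]
  have key := tool (fun s x => (if Λ s x then 1 else 0) - m s / 2 * if x ∈ (s : Finset Ω) then 1 else 0)
    (fun g s x => by simp only [hmem, hΛ, hm]) (fun s => by
      rw [Finset.sum_sub_distrib, ← Finset.mul_sum, hcard, div_mul_cancel₀ _ h2K, sub_self])
  have has0 : a ∉ (s0 : Finset Ω) := by
    simp only [s0, Finset.mem_insert, Finset.mem_singleton, not_or]
    constructor
    · rintro rfl; exact hu hta'
    · intro h; apply hu; rw [← h, ← hta', h, httu]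
  have all : ∀ x y z : Ω, x ≠ y → x ≠ z → y ≠ z → ∃ g : G, g • a = x ∧ g • u = y ∧ g • t • u = z := by
    intro x y z hxy hxz hyz
    obtain ⟨k, hk1, hk2⟩ := H18.mt_two_iff.1 h2 u (t • u) y z hu.symm hyz
    have hs : ((k • s0 : Set.powersetCard Ω 2) : Finset Ω) = {y, z} := by
      rw [Set.powersetCard.coe_smul]
      simp only [s0, Finset.smul_finset_insert, Finset.smul_finset_singleton, hk1, hk2]
    have h1 := key (k • s0) (k • a) x
    have h3 : Λ (k • s0) (k • a) := ⟨k, rfl, rfl⟩
    have h4 : x ∉ ((k • s0 : Set.powersetCard Ω 2) : Finset Ω) := by simp [hs, hxy, hxz]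
    simp only [hmem, has0, h3, h4, if_true, if_false, mul_zero, sub_zero] at h1
    have h5 : Λ (k • s0) x := by
      by_contra h5
      simp [h5] at h1
    obtain ⟨g, hg1, hg2⟩ := h5
    have h6 : g • ({u, t • u} : Finset Ω) = {y, z} := hs ▸ congrArg Subtype.val hg2
    simp only [Finset.smul_finset_insert, Finset.smul_finset_singleton] at h6
    have h7 := congrArg (fun s : Finset Ω => (s : Set Ω)) h6
    simp only [Finset.coe_insert, Finset.coe_singleton] at h7
    rcases Set.pair_eq_pair_iff.1 h7 with ⟨h8, h9⟩ | ⟨h8, h9⟩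
    · exact ⟨g, hg1, h8, h9⟩
    · exact ⟨g * t, by rw [mul_smul, hta', hg1], by rw [mul_smul, h9], by rw [mul_smul, httu, h8]⟩
  obtain ⟨g, g1, g2, g3⟩ := all a b c hab hac hbc
  obtain ⟨k, k1, k2, k3⟩ := all a' b' c' hab' hac' hbc'
  refine ⟨k * g⁻¹, ?_, ?_, ?_⟩
  · rw [mul_smul, inv_smul_eq_iff.2 g1.symm, k1]
  · rw [mul_smul, inv_smul_eq_iff.2 g2.symm, k2]
  · rw [mul_smul, inv_smul_eq_iff.2 g3.symm, k3]

end Cfsg.Agent.S0672
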