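import Mathlib
import Cfsg.Statements.S0676
import Cfsg.Agent.H18.PrimeDegree
import Cfsg.Agent.S0672

set_option autoImplicit false
open scoped Pointwise
open Cfsg

namespace Cfsg.Agent.S0676

open MulAction in
theorem aux {G α : Type*} [Group G] [Finite G] [MulAction G α] [FaithfulSMul G α] [Fintype α]
    {p : ℕ} [hp : Fact p.Prime] (hα : Fintype.card α = p) (hp2 : p ≠ 2) [IsPretransitive G α]
    (P : Sylow p G) (heven : Even (Nat.card (Subgroup.normalizer ((P : Subgroup G) : Set G)))) :
    ∃ (e : α ≃ ZMod p) (x t : G) (b : ZMod p), (P : Subgroup G) = Subgroup.zpowers x ∧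
      (∀ a, e (x • a) = e a + 1) ∧ ∀ a, e (t • a) = b - e a := by
  have : Fact (Nat.Prime 2) := ⟨Nat.prime_two⟩
  obtain ⟨x, hx, hP⟩ := H18.sylow_eq_zpowers (H18.exists_orderOf_eq_prime_degree (G := G) hα)
    (H18.not_sq_dvd_card_of_faithful (α := α) hp.out (by have := hp.out.pos; omega)) P
  obtain ⟨e, he⟩ := H18.exists_coords hα hx
  obtain ⟨⟨t, htN⟩, ht⟩ := exists_prime_orderOf_dvd_card' 2 heven.two_dvd
  have ht' : orderOf t = 2 := by rw [← ht]; exact (Subgroup.orderOf_mk _ _).symm
  have ht1 : t ≠ 1 := by rintro rfl; simp at ht'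
  have ht2 : t * t = 1 := by rw [← pow_two, ← ht', pow_orderOf_eq_one]
  obtain ⟨u, v, huv⟩ := H18.affine_of_normalizes he (t := t) (by
    rw [hP, Subgroup.mem_normalizer_iff] at htN
    exact (htN x).1 (Subgroup.mem_zpowers x))
  have h1 : ∀ a, e a = u * (u * e a + v) + v := fun a => by
    rw [← huv, ← huv, ← mul_smul, ht2, one_smul]
  have h2 := h1 (e.symm 0)
  have h3 := h1 (e.symm 1)
  simp only [Equiv.apply_symm_apply] at h2 h3
  have h4 : (u - 1) * (u + 1) = 0 := by linear_combination h2 - h3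
  rcases mul_eq_zero.1 h4 with h5 | h5
  · exfalso
    have hu : u = 1 := sub_eq_zero.1 h5
    subst hu
    have h6 : (2 : ZMod p) * v = 0 := by linear_combination -h2
    have h7 : (2 : ZMod p) ≠ 0 := by
      intro h
      have := (ZMod.natCast_eq_zero_iff 2 p).1 (by exact_mod_cast h)
      exact hp2 ((Nat.prime_dvd_prime_iff_eq hp.out Nat.prime_two).1 this)
    have hv : v = 0 := (mul_eq_zero.1 h6).resolve_left h7
    apply ht1
    refine FaithfulSMul.eq_of_smul_eq_smul (α := α) fun a => e.injective ?_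
    rw [huv, hv]; simp
  · have hu : u = -1 := eq_neg_of_add_eq_zero_left h5
    exact ⟨e, x, t, v, hP, he, fun a => by rw [huv, hu]; ring⟩

/-- A non-solvable transitive permutation group of prime degree `p` whose Sylow `p`-normaliser has even order is triply transitive. -/
theorem result {α : Type*} [Fintype α] [DecidableEq α] {p : ℕ} [Fact p.Prime] (hα : Fintype.card α = p) (G : Subgroup (Equiv.Perm α)) [MulAction.IsPretransitive G α] (hG : ¬ Group.IsSolvable G) (P : Sylow p G) (heven : Even (Nat.card (Subgroup.normalizer ((P : Subgroup G) : Set G)))) : MulAction.IsMultiplyPretransitive G α 3 := by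
  have hp : p.Prime := Fact.out
  have h2 : MulAction.IsMultiplyPretransitive G α 2 :=
    (H18.burnside_prime_degree (hα ▸ hp)).resolve_left hG
  by_cases hp2 : p = 2
  · refine H18.mt_iff.2 fun x y hx _ => ?_
    have := Fintype.card_le_of_injective x hx
    simp at this; omega
  obtain ⟨e, x, t, b, -, he, ht⟩ := aux hα hp2 P heven
  have h2ne : (2 : ZMod p) ≠ 0 := by
    intro h
    have := (ZMod.natCast_eq_zero_iff 2 p).1 (by exact_mod_cast h)
    exact hp2 ((Nat.prime_dvd_prime_iff_eq hp Nat.prime_two).1 this)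
  refine Cfsg.Agent.S0672.result (K := ZMod p) (p := p) h2 (hα ▸ dvd_rfl) (fun a => ?_) fun f hf => ?_
  · have h1 := H18.card_eq_card_mul_stabilizer (G := G) a
    have h3 : Even (Nat.card G) := even_iff_two_dvd.2 (heven.two_dvd.trans (Subgroup.card_subgroup_dvd_card _))
    rw [h1, Nat.card_eq_fintype_card, hα, Nat.even_mul] at h3
    exact h3.resolve_left (Nat.not_even_iff_odd.2 (hp.odd_of_ne_two hp2))
  let V := (permSumZero (ZMod p) G α).toSubmodule
  let W : Subrepresentation (permRep (ZMod p) G α) :=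
    ⟨(LinearMap.ker f.toLinearMap).map V.subtype, by
      rintro g _ ⟨v, hv, rfl⟩
      refine ⟨(permSumZero (ZMod p) G α).toRepresentation g v, ?_, rfl⟩
      change f _ = 0
      rw [f.isIntertwining]
      change permRep _ _ _ g (f.toLinearMap v) = 0
      rw [LinearMap.mem_ker.1 hv, map_zero]⟩
  have hcs : (permConstants (ZMod p) G α).toSubmodule ≤ V := H18.constants_le_sumZero (p := p) (hα ▸ dvd_rfl)
  let φ : V := ⟨_, H18.coords_mem_sumZero hp2 e⟩
  have hsh : ∀ (g : G) (s c : ZMod p), (∀ a, e (g • a) = s * e a + c) → ∀ y, f φ (g • y) = s * f φ y := by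
    intro g s c hg y
    have h1 : (permSumZero (ZMod p) G α).toRepresentation g⁻¹ φ =
        s • φ + ⟨fun _ => c, hcs (H18.mem_permConstants.2 ⟨c, fun _ => rfl⟩)⟩ := by
      apply Subtype.ext
      ext a
      change e (g⁻¹⁻¹ • a) = s * e a + c
      rw [inv_inv, hg]
    have h3 := f.isIntertwining _ _ g⁻¹ φ
    rw [h1, map_add, hf ⟨fun _ => c, _⟩ (H18.mem_permConstants.2 ⟨c, fun _ => rfl⟩), add_zero, map_smul] at h3
    have := congrFun h3 y
    rw [H18.permRep_apply, inv_inv] at this
    exact this.symm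
  have hφ : f φ = 0 := by
    ext ⟨s, hs⟩
    obtain ⟨y, z, hyz, rfl⟩ := Finset.card_eq_two.1 hs
    obtain ⟨τ, -, hτ⟩ := H18.exists_translation he (b - e y - e z)
    have h1 := hsh τ 1 _ (fun a => by rw [hτ, one_mul]) ⟨{y, z}, hs⟩
    have h3 := hsh t (-1) b (fun a => by rw [ht]; ring) ⟨{y, z}, hs⟩
    have h4 : τ • (⟨{y, z}, hs⟩ : Set.powersetCard α 2) = t • (⟨{y, z}, hs⟩ : Set.powersetCard α 2) := by
      apply Subtype.ext
      change τ • ({y, z} : Finset α) = t • ({y, z} : Finset α)
      have h5 : τ • y = t • z := e.injective (by rw [hτ, ht]; ring)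
      have h6 : τ • z = t • y := e.injective (by rw [hτ, ht]; ring)
      simp only [Finset.smul_finset_insert, Finset.smul_finset_singleton, h5, h6, Finset.pair_comm]
    rw [h4, h3] at h1
    have : 2 * f φ ⟨{y, z}, hs⟩ = 0 := by linear_combination -h1
    exact (mul_eq_zero.1 this).resolve_left h2ne
  rcases H18.heart_irreducible hα hG W (fun u hu => ⟨⟨u, hcs hu⟩, hf _ hu, rfl⟩)
    (Submodule.map_subtype_le _ _) with h | h
  · exfalso
    have : (φ : α → ZMod p) ∈ W.toSubmodule := ⟨φ, hφ, rfl⟩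
    rw [h] at this
    obtain ⟨c, hc⟩ := H18.mem_permConstants.1 this
    have h1 := (hc (e.symm 0)).trans (hc (e.symm 1)).symm
    simp [φ] at h1
  · ext1
    ext1 v
    have : (v : α → ZMod p) ∈ W.toSubmodule := by rw [h]; exact v.2
    obtain ⟨w, hw, hw'⟩ := this
    rw [← Subtype.ext hw']
    exact hw

end Cfsg.Agent.S0676
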