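import Mathlib
import Cfsg.Statements.S0677
import Cfsg.Agent.H18.PrimeDegree
import Cfsg.Agent.S0676

set_option autoImplicit false
open scoped Pointwise
open Cfsg

namespace Cfsg.Agent.S0677

/-- In a transitive permutation group of prime degree `p` whose Sylow `p`-normaliser has even order, the point stabilisers are the only subgroups of index `p`. -/
theorem result {α : Type*} [Fintype α] [DecidableEq α] {p : ℕ} [Fact p.Prime] (hα : Fintype.card α = p) (G : Subgroup (Equiv.Perm α)) [MulAction.IsPretransitive G α] (P : Sylow p G) (heven : Even (Nat.card (Subgroup.normalizer ((P : Subgroup G) : Set G)))) (H : Subgroup G) (hH : H.index = p) : ∃ a : α, H = MulAction.stabilizer G a := by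
  classical
  have hp : p.Prime := Fact.out
  have hidx : ∀ a : α, (MulAction.stabilizer G a).index = p := fun a => by
    rw [MulAction.index_stabilizer_of_transitive, Nat.card_eq_fintype_card, hα]
  have hfin : ∀ a : α, H ≤ MulAction.stabilizer G a → H = MulAction.stabilizer G a := fun a h =>
    Subgroup.eq_of_le_of_card_ge h (le_of_eq (Nat.eq_of_mul_eq_mul_right hp.pos (by
      conv_lhs => rw [← hidx a]
      conv_rhs => rw [← hH]
      rw [Subgroup.card_mul_index, Subgroup.card_mul_index])))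
  suffices h : ∃ a : α, ∀ h ∈ H, h • a = a by
    obtain ⟨a, ha⟩ := h
    exact ⟨a, hfin a ha⟩
  have hpH : ¬ p ∣ Nat.card H := fun h => H18.not_sq_dvd_card_of_faithful (G := G) (α := α) hp
    (by have := hp.pos; omega) (by
      rw [← H.card_mul_index, hH, pow_two]; exact Nat.mul_dvd_mul_right h p)
  obtain ⟨a0⟩ : Nonempty α := Fintype.card_pos_iff.1 (hα ▸ hp.pos)
  by_cases hp2 : p = 2
  · have h1 := H18.card_dvd_factorial (G := G) (α := α)
    rw [← H.card_mul_index, hH, hα, hp2] at h1
    have h2 : Nat.card H = 1 := by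
      have := Nat.le_of_dvd (by norm_num) h1
      have := Nat.card_pos (α := H)
      simp only [Nat.factorial] at *; omega
    rw [Subgroup.card_eq_one] at h2
    exact ⟨a0, fun h hh => by rw [h2, Subgroup.mem_bot] at hh; rw [hh, one_smul]⟩
  obtain ⟨e, x, t, b, hP, he, ht⟩ := Cfsg.Agent.S0676.aux hα hp2 P heven
  have h2ne : (2 : ZMod p) ≠ 0 := by
    intro h
    have := (ZMod.natCast_eq_zero_iff 2 p).1 (by exact_mod_cast h)
    exact hp2 ((Nat.prime_dvd_prime_iff_eq hp Nat.prime_two).1 this)
  obtain ⟨hcP, -, -⟩ := H18.card_normalizer_sylow_prime_degree hα P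
  have hdisj : Disjoint (P : Subgroup G) H :=
    Subgroup.disjoint_of_coprime_natCard (by rw [hcP]; exact (Nat.Prime.coprime_iff_not_dvd hp).2 hpH)
  have hcompl : (P : Subgroup G).IsComplement' H :=
    Subgroup.isComplement'_of_card_mul_and_disjoint (by
      rw [hcP, ← hH, mul_comm, Subgroup.card_mul_index]) hdisj
  have htr : ∀ τ ∈ (P : Subgroup G), ∃ c : ZMod p, ∀ a, e (τ • a) = e a + c := by
    rw [hP]
    rintro _ ⟨k, rfl⟩
    exact ⟨k, H18.coords_zpow he k⟩
  rcases H18.affine_or_two_trans he with haff | h2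
  · by_cases hb : H = ⊥
    · exact ⟨a0, fun h hh => by rw [hb, Subgroup.mem_bot] at hh; rw [hh, one_smul]⟩
    have hnt : ∀ h ∈ H, ∀ c : ZMod p, (∀ a, e (h • a) = e a + c) → h = 1 := by
      intro h hh c hc
      obtain ⟨τ, hτ, hτ'⟩ := H18.exists_translation he c
      have : h = τ := FaithfulSMul.eq_of_smul_eq_smul (α := α) fun a => e.injective (by rw [hc, hτ'])
      exact (Subgroup.disjoint_def.1 hdisj) (hP ▸ this ▸ hτ) hh
    obtain ⟨⟨h, hh⟩, hh1⟩ := Subgroup.ne_bot_iff_exists_ne_one.1 hb
    obtain ⟨u, v, huv⟩ := haff h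
    have hu : 1 - u ≠ 0 := fun h' => hh1 (Subtype.ext (hnt h hh v fun a => by
      rw [huv, ← sub_eq_zero.1 h', one_mul]))
    refine ⟨e.symm (v / (1 - u)), fun k hk => ?_⟩
    obtain ⟨u', v', huv'⟩ := haff k
    have hc := hnt (h * k * h⁻¹ * k⁻¹) (H.mul_mem (H.mul_mem (H.mul_mem hh hk) (H.inv_mem hh)) (H.inv_mem hk))
      (u * v' + v - (u' * v + v')) (fun a => by
        obtain ⟨b, rfl⟩ : ∃ b, a = k • h • b := ⟨h⁻¹ • k⁻¹ • a, by simp⟩
        rw [mul_smul, mul_smul, mul_smul, inv_smul_smul, inv_smul_smul, huv, huv', huv', huv]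
        ring)
    have hc' : h * k = k * h := by rw [← mul_inv_eq_one, mul_inv_rev, ← mul_assoc, hc]
    have h3 := congrArg (fun g : G => e (g • e.symm 0)) hc'
    simp only [mul_smul, huv, huv', Equiv.apply_symm_apply] at h3
    apply e.injective
    rw [huv', Equiv.apply_symm_apply]
    field_simp
    linear_combination -h3
  -- the 2-transitive case
  let D : Finset (ZMod p) := Finset.univ.filter fun z => e.symm z ∈ MulAction.orbit H a0
  have hD : ∀ a, e a ∈ D ↔ a ∈ MulAction.orbit H a0 := fun a => by simp [D]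
  have hDH : ∀ h ∈ H, ∀ a, e (h • a) ∈ D ↔ e a ∈ D := by
    intro h hh a
    rw [hD, hD]
    refine ⟨fun h1 => ?_, fun h1 => MulAction.mem_orbit_of_mem_orbit (⟨h, hh⟩ : H) h1⟩
    have := MulAction.mem_orbit_of_mem_orbit (⟨h, hh⟩ : H)⁻¹ h1
    change h⁻¹ • h • a ∈ _ at this
    rwa [inv_smul_smul] at this
  have htrans : ∀ g : G, ∃ c : ZMod p, ∀ a, e (g • a) + c ∈ D ↔ e a ∈ D := by
    intro g
    obtain ⟨⟨⟨τ, hτ⟩, ⟨h, hh⟩⟩, hg⟩ := (hcompl.existsUnique g).exists
    obtain ⟨c, hc⟩ := htr τ hτ
    refine ⟨-c, fun a => ?_⟩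
    simp only at hg
    rw [← hg, mul_smul, hc, add_neg_cancel_right, hDH h hh]
  let N : ZMod p → ZMod p → ℕ := fun i j => (Finset.univ.filter fun c => i + c ∈ D ∧ j + c ∈ D).card
  have hN : ∀ (g : G) a b, N (e (g • a)) (e (g • b)) = N (e a) (e b) := by
    intro g a b
    have h1 : ∀ c : ZMod p, ∃ c' : ZMod p, ∀ a, e (g • a) + c' ∈ D ↔ e a + c ∈ D := by
      intro c
      obtain ⟨τ, -, hτ⟩ := H18.exists_translation he c
      obtain ⟨c', hc'⟩ := htrans (g * τ⁻¹)
      exact ⟨c', fun a => by rw [← hτ, ← hc', mul_smul, inv_smul_smul]⟩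
    have hfree : ∀ d : ZMod p, (∀ z, z + d ∈ D ↔ z ∈ D) → d = 0 := by
      intro d hd
      by_contra hd0
      have h3 : ∀ n : ℕ, e a0 + n * d ∈ D := by
        intro n
        induction n with
        | zero => simpa using (hD a0).2 (MulAction.mem_orbit_self _)
        | succ n ih => rw [Nat.cast_add_one, add_mul, one_mul, ← add_assoc, hd]; exact ih
      have h4 : ∀ a, a ∈ MulAction.orbit H a0 := by
        intro a
        have := h3 ((e a - e a0) / d).val
        rwa [ZMod.natCast_zmod_val, div_mul_cancel₀ _ hd0, add_sub_cancel, hD] at this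
      have h5 := H18.card_orbit_mul_card_stabilizer (G := H) a0
      rw [Set.eq_univ_of_forall h4, Nat.card_congr (Equiv.Set.univ α), Nat.card_eq_fintype_card, hα] at h5
      exact hpH (Dvd.intro _ h5)
    choose π hπ using h1
    have hπi : Function.Injective π := by
      intro c c' h
      have := hfree (c - c') fun z => by
        have h1 := hπ c (e.symm (z - c'))
        rw [h, hπ, Equiv.apply_symm_apply, sub_add_cancel] at h1
        rw [h1]; congr! 1; ring
      exact sub_eq_zero.1 this
    symm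
    refine Finset.card_bijective π (Finite.injective_iff_bijective.1 hπi) fun c => ?_
    simp [hπ]
  obtain ⟨s, hs⟩ : ∃ s : ZMod p, ∀ z, s - z ∈ D ↔ z ∈ D := by
    obtain ⟨c, hc⟩ := htrans t
    refine ⟨b + c, fun z => ?_⟩
    have := hc (e.symm z)
    rw [ht, Equiv.apply_symm_apply] at this
    rw [← this]; congr! 1; ring
  have hpar : ∀ d : ZMod p, N 0 d % 2 = if (s - d) / 2 ∈ D then 1 else 0 := by
    intro d
    let S := Finset.univ.filter fun c => 0 + c ∈ D ∧ d + c ∈ D
    have hS : ∀ c, c ∈ S ↔ c ∈ D ∧ d + c ∈ D := fun c => by simp [S]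
    have hev : Even (S.erase ((s - d) / 2)).card := by
      have := Finset.sum_involution (s := S.erase ((s - d) / 2)) (f := fun _ => (1 : ZMod 2))
        (fun c _ => s - d - c) (fun _ _ => by decide) (fun c hc _ h => by
          apply (Finset.mem_erase.1 hc).1
          field_simp
          linear_combination -h) (fun c hc => by
          rw [Finset.mem_erase, hS] at hc ⊢
          refine ⟨fun h => hc.1 ?_, ?_, ?_⟩
          · field_simp at h ⊢
            linear_combination -h
          · rw [← hs]; convert hc.2.2 using 1; ring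
          · rw [← hs]; convert hc.2.1 using 1; ring) (fun c _ => by ring)
      rw [Finset.sum_const, nsmul_eq_mul, mul_one] at this
      exact (ZMod.natCast_eq_zero_iff_even).1 this
    have hmid : (s - d) / 2 ∈ S ↔ (s - d) / 2 ∈ D := by
      rw [hS]
      refine ⟨fun h => h.1, fun h => ⟨h, ?_⟩⟩
      rw [← hs]; convert h using 1; field_simp; ring
    change S.card % 2 = _
    rw [Nat.even_iff] at hev
    split_ifs with h
    · rw [← Finset.card_erase_add_one (hmid.2 h)]; omega
    · rwa [Finset.erase_eq_of_notMem (fun h' => h (hmid.1 h'))] at hev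
  have hconst : ∀ z z' : ZMod p, z ≠ s / 2 → z' ≠ s / 2 → (z ∈ D ↔ z' ∈ D) := by
    intro z z' hz hz'
    have hne : ∀ z : ZMod p, z ≠ s / 2 → e.symm 0 ≠ e.symm (s - 2 * z) := by
      intro z hz h
      apply hz
      have := e.symm.injective h
      field_simp
      linear_combination this
    obtain ⟨g, h3, h4⟩ := H18.mt_two_iff.1 h2 _ _ _ _ (hne z hz) (hne z' hz')
    have h5 := hN g (e.symm 0) (e.symm (s - 2 * z))
    rw [h3, h4] at h5
    simp only [Equiv.apply_symm_apply] at h5
    have h6 := hpar (s - 2 * z)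
    have h7 := hpar (s - 2 * z')
    rw [show (s - (s - 2 * z)) / 2 = z by field_simp; ring] at h6
    rw [show (s - (s - 2 * z')) / 2 = z' by field_simp; ring, h5, h6] at h7
    by_cases h8 : z ∈ D <;> by_cases h9 : z' ∈ D <;> simp_all
  refine ⟨e.symm (s / 2), fun h hh => ?_⟩
  by_contra hne
  have h3 : e (h • e.symm (s / 2)) ≠ s / 2 := fun h' => hne (e.injective (by rw [h', Equiv.apply_symm_apply]))
  have h4 := hDH h hh (e.symm (s / 2))
  rw [Equiv.apply_symm_apply] at h4
  have h5 : ∀ z, z ∈ D ↔ s / 2 ∈ D := fun z => by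
    by_cases hz : z = s / 2
    · rw [hz]
    · rw [← h4]; exact hconst _ _ hz h3
  have h6 : ∀ a, a ∈ MulAction.orbit H a0 := fun a => by
    rw [← hD, h5, ← h5 (e a0), hD]; exact MulAction.mem_orbit_self _
  have h7 := H18.card_orbit_mul_card_stabilizer (G := H) a0
  rw [Set.eq_univ_of_forall h6, Nat.card_congr (Equiv.Set.univ α), Nat.card_eq_fintype_card, hα] at h7
  exact hpH (Dvd.intro _ h7)

end Cfsg.Agent.S0677
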