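import Mathlib
import Cfsg.Statements.S0678
import Cfsg.Agent.H19.PrimeDeg
import Cfsg.Agent.S0496

set_option autoImplicit false
open Cfsg

namespace Cfsg.Agent.S0678

/-- A non-solvable transitive permutation group on 7 points that does not contain the alternating group is a simple group of order 168. -/
theorem result {α : Type*} [Fintype α] [DecidableEq α] (hα : Fintype.card α = 7) (G : Subgroup (Equiv.Perm α)) [MulAction.IsPretransitive G α] (hG : ¬ Group.IsSolvable G) (hA : ¬ alternatingGroup α ≤ G) : Nat.card G = 168 ∧ IsSimpleGroup G := by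
  open H19 Subgroup in
  obtain ⟨h1, h2, h3⟩ := simple_commutator_of_prime_degree (G := G) (α := α) (by rw [hα]; norm_num) hG
  have : Fact (Nat.Prime 7) := ⟨by norm_num⟩
  have h4 := H18.exists_orderOf_eq_prime_degree (G := commutator G) hα
  obtain ⟨h5, h6⟩ := card_inf_alt G
  have : Nontrivial α := Fintype.one_lt_card_iff_nontrivial.1 (by omega)
  have h7 : Nat.card (alternatingGroup α) = 2520 := by rw [nat_card_alternatingGroup, Nat.card_eq_fintype_card, hα]; rfl
  have : IsSimpleGroup (alternatingGroup α) := alternatingGroup.isSimpleGroup (by rw [Nat.card_eq_fintype_card]; omega)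
  have h8 := two_mul_card_dvd_factorial_index (not_comm_of_simple_card (by rw [h7]; norm_num))
    (H := G.subgroupOf (alternatingGroup α)) fun e => hA (subgroupOf_eq_top.1 e)
  have h9 := (G.subgroupOf (alternatingGroup α)).index_mul_card
  rw [card_inf_eq, h7] at h9
  have h10 : 7 ≤ (G.subgroupOf (alternatingGroup α)).index := not_lt.1 fun e => by
    have := h7 ▸ h8.trans (Nat.factorial_dvd_factorial (Nat.le_of_lt_succ e))
    norm_num [Nat.factorial] at this
  have h11 := Nat.le_of_dvd Nat.card_pos h6
  have h12 : Nat.card (G ⊓ alternatingGroup α :) ≤ 360 := by nlinarith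
  have h13 : Nat.card (commutator G) = 168 := by
    have := Cfsg.Agent.S0496.result h2 (by omega)
    omega
  have h14 : Nat.card (G ⊓ alternatingGroup α :) = 168 := by
    obtain ⟨k, hk⟩ := h13 ▸ h6
    obtain rfl | rfl | rfl : k = 0 ∨ k = 1 ∨ k = 2 := by omega
    all_goals rw [hk] at h9; omega
  have h15 : Nat.card G = 168 := by
    refine (h5.resolve_right fun e => hA ?_).trans h14
    obtain ⟨a, b, hab⟩ := exists_pair_ne α
    obtain ⟨u, hu, e1⟩ := exists_isConj_mem_of_dvd (k := 4) (j := 1) Nat.prime_two (H := G) (by omega)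
      (by rw [Nat.card_perm, Nat.card_eq_fintype_card, hα]; decide) (g := Equiv.swap a b) (by simp [pow_two])
    obtain ⟨c, rfl⟩ := isConj_iff.1 e1
    rw [Equiv.Perm.subgroup_eq_top_of_isPreprimitive_of_isSwap_mem
      (MulAction.IsPreprimitive.of_prime_card (by rw [Nat.card_eq_fintype_card, hα]; norm_num)) _
      ⟨c a, c b, c.injective.ne hab, (Equiv.swap_apply_apply c a b).symm⟩ hu]
    exact le_top
  rw [eq_top_of_card_eq _ (h13.trans h15.symm)] at h1
  exact ⟨h15, topEquiv.symm.isSimpleGroup⟩

end Cfsg.Agent.S0678
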