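import Mathlib
import Cfsg.Statements.S0680
import Cfsg.Agent.H18.Sharp2

set_option autoImplicit false
open scoped Pointwise
open Cfsg

namespace Cfsg.Agent.S0680

/-- A finite sharply doubly transitive permutation group has degree a prime power `p ^ j`; a Sylow `p`-subgroup is normal, elementary abelian and regular, and consists of the identity together with the elements without fixed points. (Frobenius' Theorem is not needed.) -/
theorem result {α : Type*} [Fintype α] [DecidableEq α] (G : Subgroup (Equiv.Perm α)) [MulAction.IsMultiplyPretransitive G α 2] (hsharp : ∀ x : Fin 2 ↪ α, MulAction.stabilizer G x = ⊥) (h2 : 2 ≤ Fintype.card α) : ∃ p j : ℕ, p.Prime ∧ 1 ≤ j ∧ Fintype.card α = p ^ j ∧ ∀ (hp : Fact p.Prime) (P : Sylow p G), (P : Subgroup G).Normal ∧ IsMulCommutative (P : Subgroup G) ∧ (∀ x ∈ (P : Subgroup G), x ^ p = 1) ∧ MulAction.IsPretransitive (P : Subgroup G) α ∧ (∀ a : α, MulAction.stabilizer (P : Subgroup G) a = ⊥) ∧ ∀ g : G, g ∈ (P : Subgroup G) ↔ g = 1 ∨ ∀ a : α, g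 • a ≠ a := by
  have h2t : MulAction.IsMultiplyPretransitive G α 2 := inferInstance
  have ht : MulAction.IsPretransitive (⊤ : Subgroup G) α := ⟨fun a b => by
    have := MulAction.isPretransitive_of_is_two_pretransitive (G := G) (α := α)
    obtain ⟨g, hg⟩ := MulAction.exists_smul_eq G a b
    exact ⟨⟨g, trivial⟩, hg⟩⟩
  obtain ⟨p, j, hp, hj, hc, K, hKn, -, hKc, hKp, hKt, hK, hKr, hKP, hQ⟩ :=
    H18.frob_normal_struct h2t h2 ⊤ ht (fun g _ => H18.sharp_two_iff.1 hsharp g)
  refine ⟨p, j, hp, hj, hc, fun _ P => ?_⟩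
  have : K = P := (P.is_maximal' hKP (hQ P le_top P.isPGroup'))
  subst this
  exact ⟨hKn, hKc, hKp, hKt, hKr, fun g => by simpa using hK g⟩

end Cfsg.Agent.S0680
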