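import Mathlib
import Cfsg.Statements.S0681
import Cfsg.Agent.H18.Prim

set_option autoImplicit false
open Cfsg

namespace Cfsg.Agent.S0681

theorem zero_mul' {F : Type*} [Cfsg.NearField F] (c : F) : 0 * c = 0 := by
  have := NearField.right_distrib (0 : F) 0 c
  rw [add_zero] at this
  exact (left_eq_add.1 this)

theorem neg_mul' {F : Type*} [Cfsg.NearField F] (a c : F) : (-a) * c = -(a * c) := by
  have := NearField.right_distrib (-a) a c
  rw [neg_add_cancel, zero_mul'] at this
  exact eq_neg_of_add_eq_zero_left this.symm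

theorem mul_ne_zero' {F : Type*} [Cfsg.NearField F] {a c : F} (ha : a ≠ 0) (hc : c ≠ 0) :
    a * c ≠ 0 := by
  intro h
  obtain ⟨d, hd, -⟩ := NearField.exists_inv c hc
  apply ha
  rw [← mul_one a, ← hd, ← mul_assoc, h, zero_mul']

theorem mul_left_cancel' {F : Type*} [Cfsg.NearField F] {x a c : F} (hx : x ≠ 0)
    (h : x * a = x * c) : a = c := by
  obtain ⟨d, -, hd⟩ := NearField.exists_inv x hx
  rw [← one_mul a, ← hd, mul_assoc, h, ← mul_assoc, hd, one_mul]

theorem exists_aff {F : Type*} [Cfsg.NearField F] (a b : F) (ha : a ≠ 0) :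
    ∃ σ : Equiv.Perm F, ∀ x, σ x = x * a + b := by
  obtain ⟨d, hd, hd'⟩ := NearField.exists_inv a ha
  exact ⟨⟨fun x => x * a + b, fun y => (y - b) * d, fun x => by
    simp [mul_assoc, hd], fun y => by simp [mul_assoc, hd']⟩, fun _ => rfl⟩

/-- The affine maps `x ↦ x * a + b`, `a ≠ 0`, of a near-field form a sharply doubly transitive permutation group. -/
theorem result {F : Type*} [Cfsg.NearField F] : ∃ H : Subgroup (Equiv.Perm F), (∀ σ : Equiv.Perm F, σ ∈ H ↔ ∃ a b : F, a ≠ 0 ∧ ∀ x : F, σ x = x * a + b) ∧ MulAction.IsMultiplyPretransitive H F 2 ∧ ∀ x : Fin 2 ↪ F, MulAction.stabilizer H x = ⊥ := by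
  let H : Subgroup (Equiv.Perm F) :=
    { carrier := {σ | ∃ a b : F, a ≠ 0 ∧ ∀ x : F, σ x = x * a + b}
      one_mem' := ⟨1, 0, NearField.zero_ne_one.symm, fun x => by simp⟩
      mul_mem' := by
        rintro σ τ ⟨a, b, ha, hσ⟩ ⟨c, d, hc, hτ⟩
        refine ⟨c * a, d * a + b, mul_ne_zero' hc ha, fun x => ?_⟩
        rw [Equiv.Perm.mul_apply, hτ, hσ, NearField.right_distrib, mul_assoc, add_assoc]
      inv_mem' := by
        rintro σ ⟨a, b, ha, hσ⟩
        obtain ⟨d, hd, hd'⟩ := NearField.exists_inv a ha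
        refine ⟨d, (-b) * d, ?_, fun x => ?_⟩
        · rintro rfl
          rw [NearField.mul_zero] at hd
          exact NearField.zero_ne_one hd
        · rw [Equiv.Perm.inv_eq_iff_eq, hσ, ← NearField.right_distrib, mul_assoc, hd']
          simp }
  refine ⟨H, fun _ => Iff.rfl, ?_, ?_⟩
  · have key : ∀ c d : F, c ≠ d → ∃ g : H, g • (0 : F) = c ∧ g • (1 : F) = d := by
      intro c d hcd
      have h0 : d - c ≠ 0 := sub_ne_zero.2 hcd.symm
      obtain ⟨σ, hσ⟩ := exists_aff (d - c) c h0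
      refine ⟨⟨σ, _, _, h0, hσ⟩, ?_, ?_⟩
      · change σ 0 = c
        rw [hσ, zero_mul', zero_add]
      · change σ 1 = d
        rw [hσ, one_mul, sub_add_cancel]
    refine H18.mt_two_iff.2 fun a b c d hab hcd => ?_
    obtain ⟨g, h1, h2⟩ := key a b hab
    obtain ⟨k, h3, h4⟩ := key c d hcd
    exact ⟨k * g⁻¹, by rw [mul_smul, ← h1, inv_smul_smul, h3], by rw [mul_smul, ← h2, inv_smul_smul, h4]⟩
  · refine H18.sharp_two_iff.2 ?_
    rintro ⟨σ, a, b, ha, hσ⟩ x y hxy hx hy
    change σ x = x at hx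
    change σ y = y at hy
    rw [hσ] at hx hy
    have h1 : (x - y) * a = (x - y) * 1 := by
      rw [mul_one, sub_eq_add_neg, NearField.right_distrib, neg_mul']
      conv_rhs => rw [← hx, ← hy]
      simp [add_assoc]
    have h2 := mul_left_cancel' (sub_ne_zero.2 hxy) h1
    subst h2
    rw [mul_one, add_eq_left] at hx
    subst hx
    ext z
    simp [hσ]

end Cfsg.Agent.S0681
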