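import Mathlib
import Cfsg.Statements.S0682
import Cfsg.Agent.H18.Sharp2
import Cfsg.Agent.S0681

set_option autoImplicit false
open scoped Pointwise
open Cfsg

namespace Cfsg.Agent.S0682

/-- A finite near-field has prime-power order; its additive group is commutative of prime exponent. -/
theorem result {F : Type*} [Cfsg.NearField F] [Finite F] : ∃ p j : ℕ, p.Prime ∧ 1 ≤ j ∧ Nat.card F = p ^ j ∧ (∀ x y : F, x + y = y + x) ∧ ∀ x : F, p • x = 0 := by
  classical
  have := Fintype.ofFinite F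
  obtain ⟨H, hH, h2t, hsharp⟩ := Cfsg.Agent.S0681.result (F := F)
  have hnt : Nontrivial F := ⟨0, 1, NearField.zero_ne_one⟩
  have ht : MulAction.IsPretransitive (⊤ : Subgroup H) F := ⟨fun a b => by
    have := MulAction.isPretransitive_of_is_two_pretransitive (G := H) (α := F)
    obtain ⟨g, hg⟩ := MulAction.exists_smul_eq H a b
    exact ⟨⟨g, trivial⟩, hg⟩⟩
  obtain ⟨p, j, hp, hj, hc, K, hKn, -, hKc, hKp, hKt, hK, hKr, hKP, hQ⟩ :=
    H18.frob_normal_struct h2t Fintype.one_lt_card ⊤ ht (fun g _ => H18.sharp_two_iff.1 hsharp g)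
  let τ : F → H := fun b => ⟨Equiv.addRight b, (hH _).2 ⟨1, b, NearField.zero_ne_one.symm, fun x => by simp⟩⟩
  have hτ : ∀ b, τ b ∈ K := by
    intro b
    rw [hK]
    refine ⟨trivial, ?_⟩
    by_cases hb : b = 0
    · left; subst hb; ext x; simp [τ]
    · right
      intro a ha
      exact hb (by simpa [τ, Subgroup.smul_def] using ha)
  refine ⟨p, j, hp, hj, by rw [Nat.card_eq_fintype_card, hc], fun x y => ?_, fun x => ?_⟩
  · have := congrArg (fun g : K => ((g : H) : Equiv.Perm F) 0) (hKc.is_comm.comm ⟨_, hτ y⟩ ⟨_, hτ x⟩)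
    simpa [τ] using this
  · have h1 : ∀ n : ℕ, ((τ x ^ n : H) : Equiv.Perm F) 0 = n • x := by
      intro n
      induction n with
      | zero => simp
      | succ n ih =>
        rw [pow_succ', Subgroup.coe_mul, Equiv.Perm.mul_apply, ih, succ_nsmul]; rfl
    rw [← h1, hKp _ (hτ x)]; rfl

end Cfsg.Agent.S0682
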