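import Mathlib
import Cfsg.Statements.S0683
import Cfsg.Agent.H18.Sharp2

set_option autoImplicit false
open scoped Pointwise
open Cfsg

namespace Cfsg.Agent.S0683

/-- A finite sharply doubly transitive permutation group is the affine group of a near-field: the permuted set carries a near-field structure for which the group consists exactly of the maps `x ↦ x * a + b` with `a ≠ 0`. -/
theorem result {α : Type*} [Fintype α] [DecidableEq α] (H : Subgroup (Equiv.Perm α)) [MulAction.IsMultiplyPretransitive H α 2] (hsharp : ∀ x : Fin 2 ↪ α, MulAction.stabilizer H x = ⊥) (h2 : 2 ≤ Fintype.card α) : ∃ _ : Cfsg.NearField α, ∀ σ : Equiv.Perm α, σ ∈ H ↔ ∃ a b : α, a ≠ 0 ∧ ∀ x : α, σ x = x * a + b := by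
  have h2t : MulAction.IsMultiplyPretransitive H α 2 := inferInstance
  have ht : MulAction.IsPretransitive (⊤ : Subgroup H) α := ⟨fun a b => by
    have := MulAction.isPretransitive_of_is_two_pretransitive (G := H) (α := α)
    obtain ⟨g, hg⟩ := MulAction.exists_smul_eq H a b
    exact ⟨⟨g, trivial⟩, hg⟩⟩
  have hs := H18.sharp_two_iff.1 hsharp
  obtain ⟨p, j, hp, hj, hc, K, hKn, -, hKc, hKp, hKt, hK, hKr, hKP, hQ⟩ :=
    H18.frob_normal_struct h2t h2 ⊤ ht (fun g _ => hs g)
  obtain ⟨o, e, hoe⟩ := Fintype.exists_pair_of_one_lt_card h2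
  have h1 : ∀ y : α, ∃ t ∈ K, t • o = y := fun y => by
    obtain ⟨t, ht⟩ := MulAction.exists_smul_eq K o y
    exact ⟨t, t.2, ht⟩
  choose t htK ht using h1
  have htu : ∀ u ∈ K, t (u • o) = u := fun u hu => H18.regular_unique (hKr o) (htK _) hu (ht _)
  have h2' : ∀ y : α, ∃ h : H, y ≠ o → (h • o = o ∧ h • e = y) := fun y => by
    by_cases hy : y = o
    · exact ⟨1, fun h => absurd hy h⟩
    · obtain ⟨h, hh⟩ := H18.mt_two_iff.1 h2t o e o y hoe (Ne.symm hy)
      exact ⟨h, fun _ => hh⟩
  choose m hm using h2'
  have hne : ∀ u : H, u • o = o → u • e ≠ o := fun u hu h =>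
    hoe (smul_left_cancel u (hu.trans h.symm))
  have hmu : ∀ u : H, u • o = o → m (u • e) = u := by
    intro u hu
    obtain ⟨h1, h2⟩ := hm _ (hne u hu)
    have := hs (u⁻¹ * m (u • e)) o e hoe (by rw [mul_smul, h1, inv_smul_eq_iff, hu])
      (by rw [mul_smul, h2, inv_smul_smul])
    exact (inv_mul_eq_one.1 this).symm
  have hto : t o = 1 := by simpa using htu 1 K.one_mem
  have hme : m e = 1 := by simpa using hmu 1 (one_smul _ _)
  letI iA : Add α := ⟨fun x y => t y • x⟩
  letI iN : Neg α := ⟨fun x => (t x)⁻¹ • o⟩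
  letI iZ : Zero α := ⟨o⟩
  letI iG : AddGroup α := AddGroup.ofLeftAxioms (fun x y z => by
      change t z • t y • x = t (t z • y) • x
      conv_rhs => rw [← ht y, ← mul_smul (t z), htu _ (K.mul_mem (htK _) (htK _)), mul_smul])
    (fun x => ht x) (fun x => smul_inv_smul _ _)
  letI iM : Monoid α :=
    { mul := fun x y => if y = o then o else m y • x
      one := e
      mul_assoc := fun x y z => by
        change (if z = o then o else m z • (if y = o then o else m y • x)) =
          if (if z = o then o else m z • y) = o then o else m (if z = o then o else m z • y) • x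
        by_cases hz : z = o
        · simp [hz]
        by_cases hy : y = o
        · simp [hz, hy, (hm z hz).1]
        have h3 : m z • y = (m z * m y) • e := by rw [mul_smul, (hm y hy).2]
        have h4 : (m z * m y) • o = o := by rw [mul_smul, (hm y hy).1, (hm z hz).1]
        rw [if_neg hz, if_neg hy, if_neg hz, h3, if_neg (hne _ h4), hmu _ h4, mul_smul]
      one_mul := fun y => by
        change (if y = o then o else m y • e) = y
        split_ifs with hy
        · exact hy.symm
        · exact (hm y hy).2
      mul_one := fun x => by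
        change (if e = o then o else m e • x) = x
        rw [if_neg hoe.symm, hme, one_smul] }
  have hadd : ∀ x y : α, x + y = t y • x := fun _ _ => rfl
  have hmul : ∀ x y : α, x * y = if y = o then o else m y • x := fun _ _ => rfl
  refine ⟨{ iG, iM with
    right_distrib := fun a b c => ?_
    mul_zero := fun a => if_pos rfl
    zero_ne_one := hoe
    exists_inv := fun a ha => ?_ }, fun σ => ?_⟩
  · rw [hadd, hadd, hmul, hmul, hmul]
    split_ifs with hc
    · rw [hto, one_smul]
    · have : m c • b = (m c * t b * (m c)⁻¹) • o := by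
        rw [mul_smul, mul_smul, inv_smul_eq_iff.2 (hm c hc).1.symm, ht]
      rw [this, htu _ (hKn.conj_mem _ (htK b) _)]
      simp [mul_smul]
  · have h5 : (m a)⁻¹ • o = o := inv_smul_eq_iff.2 (hm a ha).1.symm
    refine ⟨(m a)⁻¹ • e, ?_, ?_⟩
    · rw [hmul, if_neg (hne _ h5), hmu _ h5, inv_smul_eq_iff]
      exact (hm a ha).2.symm
    · rw [hmul, if_neg (show ¬ a = o from ha), smul_inv_smul]; rfl
  · constructor
    · intro hσ
      let g : H := ⟨σ, hσ⟩
      have h6 : ((t (g • o))⁻¹ * g) • o = o := by rw [mul_smul, inv_smul_eq_iff, ht]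
      refine ⟨((t (g • o))⁻¹ * g) • e, g • o, hne _ h6, fun x => ?_⟩
      change σ x = t (g • o) • (if _ = o then o else m _ • x)
      rw [if_neg (hne _ h6), hmu _ h6, mul_smul, smul_inv_smul]; rfl
    · rintro ⟨a, b, ha, hσ⟩
      have : σ = ((t b * m a : H) : Equiv.Perm α) := by
        ext x
        rw [hσ]
        change t b • (if a = o then o else m a • x) = (t b * m a) • x
        rw [if_neg (show ¬ a = o from ha), mul_smul]
      rw [this]; exact (t b * m a).2

end Cfsg.Agent.S0683
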