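import Mathlib
import Cfsg.Statements.S0685
import Cfsg.Agent.H18.FC9

set_option autoImplicit false
open scoped Pointwise
open Cfsg

namespace Cfsg.Agent.S0685

/-- In a linear group over the prime field that is regular on non-zero vectors and has no irreducible cyclic normal subgroup, a maximal normal abelian subgroup is properly contained in its centraliser, which is non-abelian. -/
theorem result {p : ℕ} [Fact p.Prime] {V : Type*} [AddCommGroup V] [Module (ZMod p) V] [Finite V] (H : Subgroup (V ≃ₗ[ZMod p] V)) (hreg : ∀ v w : V, v ≠ 0 → w ≠ 0 → ∃! h : H, (h : V ≃ₗ[ZMod p] V) v = w) (hI : ∀ A : Subgroup H, A.Normal → IsCyclic A → ∃ W : Submodule (ZMod p) V, W ≠ ⊥ ∧ W ≠ ⊤ ∧ ∀ a ∈ A, ∀ v ∈ W, ((a : H) : V ≃ₗ[ZMod p] V) v ∈ W) (A : Subgroup H) (hAn : A.Normal) (hAc : IsMulCommutative A) (hAmax : ∀ B : Subgroup H, B.Normal → IsMulCommutative B → A ≤ B → B = A) : A < Subgroup.centralizer (A : Set H) ∧ ¬ IsMulCommutative (Subgroup.centralizer (A : Set H)) :=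 by
  obtain ⟨_, h, -, h1⟩ := H18.reg_setup H hreg
  obtain ⟨_, h2⟩ := h1 hI
  obtain ⟨W, -, -, -, -, -, e⟩ := h.red H.subtype_injective (H18.comm_of hAc) (h2 A hAn hAc).2
  exact ⟨e, fun hc => e.ne' (hAmax _ inferInstance hc e.le)⟩

end Cfsg.Agent.S0685
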