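import Mathlib
import Cfsg.Statements.S0691
import Cfsg.Agent.H14.Reg2

set_option autoImplicit false
open Cfsg

namespace Cfsg.Agent.S0691

/-- first coordinates -/
def T1 : ℕ := nat_lit 0x36d99246492924a0000

/-- second coordinates -/
def T2 : ℕ := nat_lit 0x231846308c6118c44c8

/-- distances -/
def T3 : ℕ := nat_lit 0x42994e349c6a369a2c0

/-- primality -/
instance fp : Fact (Nat.Prime 5) := ⟨by norm_num⟩

/-- An exceptional sharply doubly transitive group of degree 5^2: the listed matrices generate a subgroup of GL(2,5) of order 24 acting regularly on the non-zero vectors. -/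
theorem result (A : Matrix.GeneralLinearGroup (Fin 2) (ZMod 5)) (B : Matrix.GeneralLinearGroup (Fin 2) (ZMod 5)) (C : Matrix.GeneralLinearGroup (Fin 2) (ZMod 5)) (hA : (A : Matrix (Fin 2) (Fin 2) (ZMod 5)) = !![2, 0; 0, -2]) (hB : (B : Matrix (Fin 2) (Fin 2) (ZMod 5)) = !![0, -1; 1, 0]) (hC : (C : Matrix (Fin 2) (Fin 2) (ZMod 5)) = !![1, 2; 1, -2]) : Nat.card (Subgroup.closure ({A, B, C} : Set (Matrix.GeneralLinearGroup (Fin 2) (ZMod 5)))) = 24 ∧ ∀ v w : Fin 2 → ZMod 5, v ≠ 0 → w ≠ 0 → ∃! h : Subgroup.closure ({A, B, C} : Set (Matrix.GeneralLinearGroup (Fin 2) (ZMod 5))), Matrix.mulVec ((h : Matrix.GeneralLinearGroup (Fin 2) (ZMod 5)) : Matrix (Fin 2) (Fin 2) (ZMod 5)) v = w := by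
  exact H14.reg2 _ [(2, 0, 0, -2), (0, -1, 1, 0), (1, 2, 1, -2)] (by simp [H14.ent4, hA, hB, hC]) (by simp [H14.ent4, hA, hB, hC]) (fun a b => H14.tb2 5 3 T1 a b)
    (fun a b => H14.tb2 5 3 T2 a b) (H14.tb2 5 3 T3) (by decide +kernel) (by decide +kernel) (by decide +kernel)

end Cfsg.Agent.S0691
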