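import Mathlib
import Cfsg.Statements.S0692
import Cfsg.Agent.H14.Reg2

set_option autoImplicit false
open Cfsg

namespace Cfsg.Agent.S0692

/-- first coordinates -/
def T1 : ℕ := nat_lit 0xa7709960a211996aa85886488858979947aa77078033552963a6559665185296628034044114822423633377336311522a59105220441a041a471a700

/-- second coordinates -/
def T2 : ℕ := nat_lit 0x932865741a0132065a8974064352a89715324197860a21308675a9421645308a9705342a798614231968750a423165098a71a746539820a5782934610

/-- distances -/
def T3 : ℕ := nat_lit 0x7418a9b75616ac4782b9388ba88a59b47b36ca5cb378a9b65497696785b678c784959c7cb45aa29b3c6acaa95b94696a886479c7863253258975aa700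

/-- primality -/
instance fp : Fact (Nat.Prime 11) := ⟨by norm_num⟩

/-- An exceptional sharply doubly transitive group of degree 11^2: the listed matrices generate a subgroup of GL(2,11) of order 120 acting regularly on the non-zero vectors. -/
theorem result (A : Matrix.GeneralLinearGroup (Fin 2) (ZMod 11)) (B : Matrix.GeneralLinearGroup (Fin 2) (ZMod 11)) (hA : (A : Matrix (Fin 2) (Fin 2) (ZMod 11)) = !![0, -1; 1, 0]) (hB : (B : Matrix (Fin 2) (Fin 2) (ZMod 11)) = !![2, 4; 1, -3]) : Nat.card (Subgroup.closure ({A, B} : Set (Matrix.GeneralLinearGroup (Fin 2) (ZMod 11)))) = 120 ∧ ∀ v w : Fin 2 → ZMod 11, v ≠ 0 → w ≠ 0 → ∃! h : Subgroup.closure ({A, B} : Set (Matrix.GeneralLinearGroup (Fin 2) (ZMod 11))), Matrix.mulVec ((h : Matrix.GeneralLinearGroup (Fin 2) (ZMod 11)) : Matrix (Fin 2) (Fin 2) (ZMod 11)) v = w := by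
  exact H14.reg2 _ [(0, -1, 1, 0), (2, 4, 1, -3)] (by simp [H14.ent4, hA, hB]) (by simp [H14.ent4, hA, hB]) (fun a b => H14.tb2 11 4 T1 a b)
    (fun a b => H14.tb2 11 4 T2 a b) (H14.tb2 11 4 T3) (by decide +kernel)
    (by
      simp only [List.forall_mem_cons, List.not_mem_nil, false_imp_iff, implies_true, and_true, forall_and]
      refine ⟨⟨?_, ?_⟩, ?_, ?_⟩ <;> decide +kernel)
    (by decide +kernel)

end Cfsg.Agent.S0692
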