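import Mathlib
import Cfsg.Statements.S0694

set_option autoImplicit false
open scoped Pointwise
open Cfsg

namespace Cfsg.Agent.S0694

def S (q i : ℕ) : ℕ := ∑ k ∈ Finset.range i, q ^ k

lemma S_succ (q i : ℕ) : S q (i + 1) = S q i + q ^ i := by simp [S, Finset.sum_range_succ]

lemma S_add (q i j : ℕ) : S q (i + j) = S q i + q ^ i * S q j := by
  induction j with
  | zero => simp [S]
  | succ j ih => rw [← add_assoc, S_succ, ih, S_succ, pow_add]; ring

lemma S_mul (q i : ℕ) (hq : 1 ≤ q) : (q - 1) * S q i + 1 = q ^ i := by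
  obtain ⟨t, rfl⟩ : ∃ t, q = t + 1 := ⟨q - 1, by omega⟩
  induction i with
  | zero => simp [S]
  | succ j ih =>
    rw [S_succ, pow_succ]
    simp only [Nat.add_sub_cancel] at ih ⊢
    rw [← ih]; ring

lemma modEq_iff (q n i : ℕ) (hq : 2 ≤ q) : q ^ i ≡ 1 [MOD n * (q - 1)] ↔ n ∣ S q i := by
  rw [← S_mul q i (by omega), Nat.ModEq.comm, Nat.modEq_iff_dvd' (by omega), Nat.add_sub_cancel,
    mul_comm n, Nat.mul_dvd_mul_iff_left (by omega)]

lemma S_mod (q i r : ℕ) (hq : 1 ≤ q) (h : r ∣ q - 1) : S q i ≡ i [MOD r] := by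
  have h1 : q ≡ 1 [MOD r] := ((Nat.modEq_iff_dvd' hq).2 h).symm
  induction i with
  | zero => simp [S, Nat.ModEq.refl]
  | succ j ih =>
    rw [S_succ]
    exact ih.add (by simpa using h1.pow j)

lemma val (q i r : ℕ) (hq : 2 ≤ q) (hr : r.Prime) (hd : r ∣ q - 1)
    (h4 : r = 2 → 4 ∣ q - 1) : emultiplicity r (S q i) = emultiplicity r i := by
  have hnd : ¬ r ∣ q := fun h => by
    have : r ∣ q - (q - 1) := Nat.dvd_sub h hd
    rw [show q - (q - 1) = 1 by omega] at this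
    exact hr.one_lt.ne' (Nat.dvd_one.1 this)
  have e : q ^ i - 1 ^ i = (q - 1) * S q i := by rw [← S_mul q i (by omega)]; simp
  have key : emultiplicity r (q ^ i - 1 ^ i) = emultiplicity r (q - 1) + emultiplicity r i := by
    rcases hr.eq_two_or_odd' with rfl | ho
    · have h := Int.two_pow_sub_pow' (x := q) (y := 1) i
        (by obtain ⟨c, hc⟩ := h4 rfl; exact ⟨c, by omega⟩) (by omega)
      have e1 : ((q : ℤ) ^ i - 1 ^ i) = ((q ^ i - 1 ^ i : ℕ) : ℤ) := by
        rw [Nat.cast_sub (Nat.pow_le_pow_left (by omega) _)]; simp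
      have e2 : ((q : ℤ) - 1) = ((q - 1 : ℕ) : ℤ) := by omega
      rw [e1, e2] at h
      have := @Int.natCast_emultiplicity
      rw [show (2 : ℤ) = ((2 : ℕ) : ℤ) from rfl, this, this, this] at h
      exact h
    · exact Nat.emultiplicity_pow_sub_pow hr ho hd hnd i
  rw [e, hr.emultiplicity_mul] at key
  have hfin : emultiplicity r (q - 1) ≠ ⊤ :=
    finiteMultiplicity_iff_emultiplicity_ne_top.1
      (Nat.finiteMultiplicity_iff.2 ⟨hr.one_lt.ne', (by omega : 0 < q - 1)⟩)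
  exact (WithTop.add_left_inj hfin).1 key

lemma dvd_iff (q n i : ℕ) (hq : 2 ≤ q) (h1 : ∀ r : ℕ, r.Prime → r ∣ n → r ∣ q - 1)
    (h4 : 4 ∣ n → 4 ∣ q - 1) : n ∣ S q i ↔ n ∣ i := by
  have : ∀ r k : ℕ, r.Prime → r ^ k ∣ n → (r ^ k ∣ S q i ↔ r ^ k ∣ i) := by
    intro r k hr hk
    rcases Nat.eq_zero_or_pos k with rfl | hk0
    · simp
    have hrn : r ∣ n := (dvd_pow_self r hk0.ne').trans hk
    by_cases h : r = 2 → 4 ∣ q - 1
    · rw [pow_dvd_iff_le_emultiplicity, pow_dvd_iff_le_emultiplicity, val q i r hq hr (h1 r hr hrn) h]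
    · push Not at h
      obtain ⟨rfl, h⟩ := h
      have : k = 1 := by
        by_contra hk1
        exact h (h4 ((pow_dvd_pow 2 (show 2 ≤ k by omega)).trans hk))
      subst this
      simp only [pow_one]
      exact (S_mod q i 2 (by omega) (h1 2 hr hrn)).dvd_iff dvd_rfl
  rw [Nat.dvd_iff_prime_pow_dvd_dvd (S q i) n, Nat.dvd_iff_prime_pow_dvd_dvd i n]
  exact ⟨fun h p k hp hk => (this p k hp hk).1 (h p k hp hk),
    fun h p k hp hk => (this p k hp hk).2 (h p k hp hk)⟩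

lemma surj (q n : ℕ) (hq : 2 ≤ q) (hn : 1 < n) (h0 : n ∣ S q n)
    (h : ∀ i : ℕ, 0 < i → i < n → ¬ n ∣ S q i) (x : ZMod n) : ∃ i, (S q i : ZMod n) = x := by
  haveI : NeZero n := ⟨by omega⟩
  have hcop : Nat.Coprime n q := by
    obtain ⟨m, rfl⟩ : ∃ m, n = 1 + m := ⟨n - 1, by omega⟩
    rw [S_add] at h0
    simp only [S, Finset.range_one, Finset.sum_singleton, pow_zero, pow_one] at h0
    rw [Nat.Coprime, ← Nat.dvd_one]
    exact (Nat.dvd_add_left (Dvd.dvd.mul_right (Nat.gcd_dvd_right _ _) _)).1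
      ((Nat.gcd_dvd_left _ _).trans h0)
  have key : ∀ a b : Fin n, a < b → (S q a : ZMod n) ≠ S q b := by
    intro a b hab he
    obtain ⟨d, hd⟩ : ∃ d, (b : ℕ) = a + d := ⟨b - a, by have : (a : ℕ) < b := hab; omega⟩
    rw [hd, S_add, ZMod.natCast_eq_natCast_iff, Nat.modEq_iff_dvd' (by omega),
      Nat.add_sub_cancel_left] at he
    have hab' : (a : ℕ) < b := hab
    exact h d (by omega) (by have := b.2; omega) ((hcop.pow_right a).dvd_of_dvd_mul_left he)
  have inj : Function.Injective (fun a : Fin n => (S q a : ZMod n)) := by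
    intro a b hab
    rcases lt_trichotomy a b with h' | h' | h'
    · exact absurd hab (key a b h')
    · exact h'
    · exact absurd hab.symm (key b a h')
  have := (Fintype.bijective_iff_injective_and_card _).2 ⟨inj, by simp⟩
  obtain ⟨a, ha⟩ := this.2 x
  exact ⟨a, ha⟩

/-- The Dickson pair condition: for a prime power `q` and `n > 1`, (every prime factor of `n` divides `q - 1`, and `4 ∣ n → 4 ∣ q - 1`) holds exactly when `q ^ n ≡ 1` modulo `n * (q - 1)` but `q ^ i` is not, for `0 < i < n`. -/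
theorem result (q n : ℕ) (hq : IsPrimePow q) (hn : 1 < n) : ((∀ r : ℕ, r.Prime → r ∣ n → r ∣ q - 1) ∧ (4 ∣ n → 4 ∣ q - 1)) ↔ (q ^ n ≡ 1 [MOD n * (q - 1)] ∧ ∀ i : ℕ, 0 < i → i < n → ¬ q ^ i ≡ 1 [MOD n * (q - 1)]) := by
  have hq2 : 2 ≤ q := hq.two_le
  simp only [modEq_iff q n _ hq2]
  constructor
  · rintro ⟨h1, h4⟩
    refine ⟨(dvd_iff q n n hq2 h1 h4).2 dvd_rfl, fun i hi hin h => ?_⟩
    exact absurd (Nat.le_of_dvd hi ((dvd_iff q n i hq2 h1 h4).1 h)) (by omega)
  · rintro ⟨h0, h⟩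
    have hs : ∀ r : ℕ, r ∣ n → ∀ x : ZMod r, ∃ i, (S q i : ZMod r) = x := by
      intro r hr x
      obtain ⟨y, rfl⟩ := ZMod.castHom_surjective hr x
      obtain ⟨i, rfl⟩ := surj q n hq2 hn h0 h y
      exact ⟨i, by simp⟩
    have h1 : ∀ r : ℕ, r.Prime → r ∣ n → r ∣ q - 1 := by
      intro r hr hrn
      haveI := Fact.mk hr
      by_contra hc
      have hne : ((q : ZMod r) - 1) ≠ 0 := by
        intro h'
        apply hc
        rw [← ZMod.natCast_eq_zero_iff, Nat.cast_sub (by omega)]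
        simpa using h'
      obtain ⟨i, hi⟩ := hs r hrn (-((q : ZMod r) - 1)⁻¹)
      have e := congrArg (fun t : ℕ => (t : ZMod r)) (S_mul q i (by omega))
      simp only [Nat.cast_add, Nat.cast_mul, Nat.cast_one, Nat.cast_pow,
        Nat.cast_sub (show 1 ≤ q by omega), hi] at e
      rw [mul_neg, mul_inv_cancel₀ hne] at e
      have hq0 : (q : ZMod r) = 0 := pow_eq_zero_iff' |>.1 (by rw [← e]; ring) |>.1
      obtain ⟨m, rfl⟩ : ∃ m, n = 1 + m := ⟨n - 1, by omega⟩
      have h2 := (ZMod.natCast_eq_zero_iff _ r).2 (hrn.trans h0)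
      rw [S_add] at h2
      simp [S, hq0] at h2
    refine ⟨h1, fun h4 => ?_⟩
    by_contra hc
    have h2 : 2 ∣ q - 1 := h1 2 Nat.prime_two (Dvd.dvd.trans (by norm_num) h4)
    have hq3 : (q : ZMod 4) = 3 := by
      have : q % 4 = 3 := by omega
      rw [← ZMod.natCast_mod q 4, this]; rfl
    have : ∀ i, (S q i : ZMod 4) = 0 ∨ (S q i : ZMod 4) = 1 := by
      intro i
      induction i with
      | zero => simp [S]
      | succ j ih =>
        rw [add_comm, S_add]
        simp only [S, Finset.range_one, Finset.sum_singleton, pow_zero, pow_one] at ih ⊢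
        rw [Nat.cast_add, Nat.cast_mul, hq3]
        rcases ih with h' | h' <;> rw [h'] <;> decide
    obtain ⟨i, hi⟩ := hs 4 h4 2
    rcases this i with h' | h' <;> rw [h'] at hi <;> exact absurd hi (by decide)

end Cfsg.Agent.S0694
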