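import Mathlib
import Cfsg.Statements.S0698
import Cfsg.Agent.H18.Sharp2

set_option autoImplicit false
open scoped Pointwise
open Cfsg

namespace Cfsg.Agent.S0698

/-- Jordan's Theorem on normal subgroups of multiply transitive groups: if `G` is `k`-transitive (`k > 1`) of degree greater than `k`, a non-trivial normal subgroup is `(k-1)`-transitive, except possibly for `k = 3` when it may be an elementary abelian 2-group. -/
theorem result {α : Type*} [Fintype α] [DecidableEq α] (G : Subgroup (Equiv.Perm α)) {k : ℕ} (hk : 1 < k) (hdeg : k < Fintype.card α) (hG : MulAction.IsMultiplyPretransitive G α k) (N : Subgroup G) [N.Normal] (hN : N ≠ ⊥) : MulAction.IsMultiplyPretransitive N α (k - 1) ∨ (k = 3 ∧ IsMulCommutative N ∧ ∀ n ∈ N, n ^ 2 = 1) := by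
  obtain ⟨k, rfl⟩ : ∃ j, k = j + 1 := ⟨k - 1, by omega⟩
  have hcast : ∀ j : ℕ, j ≤ Fintype.card α → (j : ℕ∞) ≤ ENat.card α := fun j hj => by
    rw [ENat.card_eq_coe_fintype_card]; exact_mod_cast hj
  have hp : MulAction.IsMultiplyPreprimitive G α k :=
    MulAction.isMultiplyPreprimitive_of_isMultiplyPretransitive_succ G α (hcast _ hdeg.le)
  simp only [Nat.add_sub_cancel]
  by_cases hnr : ∃ a : α, MulAction.stabilizer N a ≠ ⊥
  · rcases H18.normal_mt_of_mprim (by omega) hp N hnr with h | h
    · exact Or.inl h
    · omega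
  push Not at hnr
  have hprim : MulAction.IsPreprimitive G α :=
    MulAction.isPreprimitive_of_is_two_pretransitive (H18.mt_le hG (by omega) (by omega))
  have hNt := H18.normal_trans_of_prim_perm hprim N hN
  rcases Nat.lt_or_ge k 2 with h | h
  · left
    obtain rfl : k = 1 := by omega
    exact MulAction.is_one_pretransitive_iff.2 hNt
  rcases Nat.lt_or_ge k 3 with h' | h'
  · obtain rfl : k = 2 := by omega
    rcases H18.two_prim_regular_normal (by omega) hp N hNt hnr with h | h
    · omega
    · exact Or.inr ⟨rfl, h.1, h.2.1⟩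
  · have := H18.three_prim_regular_normal (by omega)
      (MulAction.isMultiplyPreprimitive_of_le G α hp h' (hcast _ (by omega))) N hNt hnr
    omega

end Cfsg.Agent.S0698
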