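import Mathlib
import Cfsg.Statements.S0705
import Cfsg.Agent.H18.Gleason

set_option autoImplicit false
open scoped Pointwise
open Cfsg

namespace Cfsg.Agent.S0705

/-- A generously `k`-transitive permutation group (every `(k+1)`-subset has its full symmetric group induced by the setwise stabiliser) of degree greater than `k` is `k`-transitive, and for a `k`-subset the setwise and pointwise stabilisers have the same orbits outside it. -/
theorem result {α : Type*} [Fintype α] [DecidableEq α] (G : Subgroup (Equiv.Perm α)) {k : ℕ} (hk : k < Fintype.card α) (hgen : ∀ s : Finset α, s.card = k + 1 → ∀ σ : Equiv.Perm ↥s, ∃ g ∈ G, ∀ x : ↥s, g (x : α) = σ x) : MulAction.IsMultiplyPretransitive G α k ∧ ∀ s : Finset α, s.card = k → ∀ a b : α, a ∉ s → b ∉ s → (∃ g ∈ G, g • s = s ∧ g a = b) → ∃ g ∈ G, (∀ x ∈ s, g x = x) ∧ g a = b := by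
  constructor
  · refine H18.mt_of_forall_fix fun s hs a b ha hb => ?_
    obtain ⟨t, hst, -, ht⟩ := Finset.exists_subsuperset_card_eq (s := insert a (insert b s))
      (t := Finset.univ) (n := k + 1) (Finset.subset_univ _)
      ((Finset.card_insert_le _ _).trans (Nat.succ_le_succ ((Finset.card_insert_le _ _).trans hs)))
      (by simpa using hk)
    have hat : a ∈ t := hst (by simp)
    have hbt : b ∈ t := hst (by simp)
    obtain ⟨g, hg, hg'⟩ := H18.gen_fun (hgen t ht) (Equiv.swap a b) (Equiv.injective _).injOn
      (fun x hx => by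
        rw [Equiv.swap_apply_def]; split_ifs <;> assumption)
    refine ⟨⟨g, hg⟩, fun x hx => ?_, ?_⟩
    · change g x = x
      rw [hg' x (hst (by simp [hx])), Equiv.swap_apply_of_ne_of_ne (by rintro rfl; exact ha hx)
        (by rintro rfl; exact hb hx)]
    · change g a = b
      rw [hg' a hat, Equiv.swap_apply_left]
  · rintro s hs a b ha hb ⟨g, hg, hgs, hga⟩
    have hmem : ∀ x, x ∈ s ↔ g x ∈ s := fun x => by
      conv_rhs => rw [← hgs]
      exact (Finset.smul_mem_smul_finset_iff g).symm
    obtain ⟨h, hh, hh'⟩ := H18.gen_fun (hgen (insert b s) (by rw [Finset.card_insert_of_notMem hb, hs]))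
      (fun x => if x = b then b else g⁻¹ x) (by
        intro x hx y hy hxy
        simp only [Finset.coe_insert, Set.mem_insert_iff, Finset.mem_coe] at hx hy hxy
        split_ifs at hxy with h1 h2 h2
        · rw [h1, h2]
        · exact absurd ((hmem b).2 (by rw [hxy]; simpa using hy.resolve_left h2)) hb
        · exact absurd ((hmem b).2 (by rw [← hxy]; simpa using hx.resolve_left h1)) hb
        · exact g⁻¹.injective hxy) (by
        intro x hx
        split_ifs with h1
        · simp
        · exact Finset.mem_insert_of_mem ((hmem _).2 (by simpa [h1] using hx)))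
    refine ⟨h * g, G.mul_mem hh hg, fun x hx => ?_, ?_⟩
    · have h1 := (hmem x).1 hx
      rw [Equiv.Perm.mul_apply, hh' _ (Finset.mem_insert_of_mem h1),
        if_neg (by rintro h2; exact hb (h2 ▸ h1))]
      simp
    · rw [Equiv.Perm.mul_apply, hga, hh' _ (Finset.mem_insert_self _ _), if_pos rfl]

end Cfsg.Agent.S0705
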