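import Mathlib
import Cfsg.Statements.S0706
import Cfsg.Agent.H18.Gleason
import Cfsg.Agent.S0705

set_option autoImplicit false
open scoped Pointwise
open Cfsg

namespace Cfsg.Agent.S0706

/-- In a generously `k`-transitive permutation group, for a prime `p ≤ k` and a `k`-set `Γ`, there are no `p` points outside `Γ` lying in distinct orbits of the pointwise stabiliser of `Γ` all of length prime to `p` (at most `p - 1` such orbits). -/
theorem result {α : Type*} [Fintype α] [DecidableEq α] (G : Subgroup (Equiv.Perm α)) {k : ℕ} (hk : k < Fintype.card α) (hgen : ∀ s : Finset α, s.card = k + 1 → ∀ σ : Equiv.Perm ↥s, ∃ g ∈ G, ∀ x : ↥s, g (x : α) = σ x) {p : ℕ} (hp : p.Prime) (hpk : p ≤ k) (Γ : Finset α) (hΓ : Γ.card = k) (f : Fin p → α) (hf : ∀ i, f i ∉ Γ) (hdist : ∀ i j, i ≠ j → f j ∉ MulAction.orbit (fixingSubgroup G (Γ : Set α)) (f i)) : ∃ i, p ∣ Nat.card (MulAction.orbit (fixingSubgroup G (Γ : Set α)) (f i)) := by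
  have := Fact.mk hp
  obtain ⟨hkt, horb⟩ := Cfsg.Agent.S0705.result G hk hgen
  by_contra! hcon
  obtain ⟨C, hCΓ, hC⟩ := Finset.exists_subset_card_eq (s := Γ) (n := p) (by omega)
  set H := fixingSubgroup G (Γ : Set α) with hH
  let L : Subgroup G := MulAction.stabilizer G C ⊓ fixingSubgroup G ((Γ \ C : Finset α) : Set α)
  have hHL : H ≤ L := by
    intro g hg
    rw [hH, mem_fixingSubgroup_iff] at hg
    refine ⟨?_, ?_⟩
    · change g • C = C
      ext x
      rw [Finset.mem_smul_finset]
      constructor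
      · rintro ⟨y, hy, rfl⟩
        rwa [hg y (hCΓ hy)]
      · intro hx
        exact ⟨x, hx, hg x (hCΓ hx)⟩
    · change g ∈ fixingSubgroup G _
      rw [mem_fixingSubgroup_iff]
      intro y hy
      exact hg y (Finset.mem_sdiff.1 hy).1
  have hLΓ : ∀ g ∈ L, (g : Equiv.Perm α) • Γ = Γ := by
    intro g hg
    have h1 : g • C = C := hg.1
    have h2 : g • (Γ \ C) = Γ \ C := by
      have := MulAction.fixingSubgroup_le_stabilizer G _ hg.2
      rw [MulAction.mem_stabilizer_iff] at this
      exact Finset.coe_injective (by rw [Finset.coe_smul_finset]; exact this)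
    change g • Γ = Γ
    conv_lhs => rw [← Finset.union_sdiff_of_subset hCΓ, Finset.smul_finset_union, h1, h2,
      Finset.union_sdiff_of_subset hCΓ]
  have hout : ∀ i, ∀ x ∈ MulAction.orbit H (f i), x ∉ Γ := by
    rintro i _ ⟨g, rfl⟩ hx
    have := g⁻¹.2 ⟨_, hx⟩
    change (g : G)⁻¹ • (g : G) • f i = g • f i at this
    rw [inv_smul_smul] at this
    exact hf i (this ▸ hx)
  have hinv : ∀ i, ∀ g ∈ L, ∀ x ∈ MulAction.orbit H (f i), g • x ∈ MulAction.orbit H (f i) := by
    intro i g hg x hx
    have hx' := hout i x hx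
    have hgx : g • x ∉ Γ := by
      intro h
      rw [← hLΓ g hg] at h
      exact hx' ((Finset.smul_mem_smul_finset_iff (g : Equiv.Perm α)).1 h)
    obtain ⟨h, hh, hh1, hh2⟩ := horb Γ hΓ x (g • x) hx' hgx ⟨g, g.2, hLΓ g hg, rfl⟩
    have := MulAction.mem_orbit_of_mem_orbit (⟨⟨h, hh⟩, fun y => hh1 y y.2⟩ : H) hx
    rw [← hh2]; exact this
  -- p divides the index of H in L
  obtain ⟨c, hc⟩ : C.Nonempty := by rw [← Finset.card_pos, hC]; exact hp.pos
  have hLorb : MulAction.orbit L c = (C : Set α) := by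
    ext x
    constructor
    · rintro ⟨g, rfl⟩
      have h1 : (g : G) • C = C := g.2.1
      rw [Finset.mem_coe, ← h1]
      exact Finset.smul_mem_smul_finset hc
    · intro hx
      obtain ⟨g, hg⟩ := H18.exists_smul_of_injOn_eq hkt Γ hΓ (Equiv.swap c x) (Equiv.injective _).injOn
      refine ⟨⟨g, ?_, ?_⟩, ?_⟩
      · change g • C = C
        apply Finset.eq_of_subset_of_card_le _ (by rw [Finset.card_smul_finset])
        intro y hy
        rw [Finset.mem_smul_finset] at hy
        obtain ⟨z, hz, rfl⟩ := hy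
        rw [hg z (hCΓ hz), Equiv.swap_apply_def]
        split_ifs <;> assumption
      · change g ∈ fixingSubgroup G _
        rw [mem_fixingSubgroup_iff]
        intro y hy
        have hy' := Finset.mem_sdiff.1 hy
        rw [hg y hy'.1, Equiv.swap_apply_of_ne_of_ne (by rintro rfl; exact hy'.2 hc)
          (by rintro rfl; exact hy'.2 hx)]
      · change g • c = x
        rw [hg c (hCΓ hc), Equiv.swap_apply_left]
  have hidx : p ∣ (H.subgroupOf L).index := by
    have h1 : H.subgroupOf L ≤ MulAction.stabilizer L c := fun g hg => hg ⟨c, hCΓ hc⟩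
    have h2 := Subgroup.index_dvd_of_le h1
    rwa [MulAction.index_stabilizer, hLorb, Set.ncard_coe_finset, hC] at h2
  obtain ⟨R⟩ : Nonempty (Sylow p L) := inferInstance
  let R' : Subgroup G := (R : Subgroup L).map L.subtype
  have hR' : IsPGroup p R' := R.isPGroup'.map _
  have hR'L : R' ≤ L := Subgroup.map_subtype_le _
  have hfix : ∀ i, ∃ x ∈ MulAction.orbit H (f i), ∀ g ∈ R', g • x = x := fun i =>
    H18.exists_fixed_in_invariant R' hR' _ (Set.toFinite _) (fun g hg => hinv i g (hR'L hg)) (hcon i)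
  choose β hβ hβ' using hfix
  have hβinj : Function.Injective β := by
    intro i j hij
    by_contra hne
    apply hdist i j hne
    have h1 := MulAction.orbit_eq_iff.2 (hβ i)
    have h2 := MulAction.orbit_eq_iff.2 (hβ j)
    rw [← h1, hij, h2]
    exact MulAction.mem_orbit_self _
  let Γ' : Finset α := (Γ \ C) ∪ Finset.univ.image β
  have hΓ' : Γ'.card = k := by
    rw [Finset.card_union_of_disjoint, Finset.card_sdiff_of_subset hCΓ,
      Finset.card_image_of_injective _ hβinj]
    · simp; omega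
    · rw [Finset.disjoint_right]
      intro x hx hx'
      obtain ⟨i, -, rfl⟩ := Finset.mem_image.1 hx
      exact hout i _ (hβ i) (Finset.mem_sdiff.1 hx').1
  have hle : R' ≤ fixingSubgroup G (Γ' : Set α) := by
    intro g hg
    rw [mem_fixingSubgroup_iff]
    intro y hy
    rcases Finset.mem_union.1 hy with hy | hy
    · exact (hR'L hg).2 ⟨y, hy⟩
    · obtain ⟨i, -, rfl⟩ := Finset.mem_image.1 hy
      exact hβ' i g hg
  have h1 := Subgroup.card_dvd_of_le hle
  rw [H18.card_fixingSubgroup_eq hkt Γ' Γ hΓ' hΓ, ← hH, Subgroup.card_map_of_injective L.subtype_injective] at h1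
  have h2 : Nat.card H * (H.subgroupOf L).index = Nat.card (R : Subgroup L) * (R : Subgroup L).index := by
    rw [Subgroup.card_mul_index, ← Nat.card_congr (Subgroup.subgroupOfEquivOfLe hHL).toEquiv,
      Subgroup.card_mul_index]
  obtain ⟨u, hu⟩ := h1
  rw [hu, mul_assoc] at h2
  have h3 := Nat.eq_of_mul_eq_mul_left Nat.card_pos h2
  exact R.not_dvd_index (h3 ▸ hidx.mul_left u)

end Cfsg.Agent.S0706
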