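import Mathlib
import Cfsg.Statements.S0699
import Cfsg.Agent.H18.Sharp2
import Cfsg.Agent.S0698
import Cfsg.Agent.S0706

set_option autoImplicit false
open scoped Pointwise
open Cfsg

namespace Cfsg.Agent.S0699

/-- Wagner's Theorem: a non-trivial normal subgroup of a triply transitive permutation group of odd degree at least 5 is triply transitive. -/
theorem result {α : Type*} [Fintype α] [DecidableEq α] (G : Subgroup (Equiv.Perm α)) (hodd : Odd (Fintype.card α)) (h5 : 5 ≤ Fintype.card α) (hG : MulAction.IsMultiplyPretransitive G α 3) (N : Subgroup G) [N.Normal] (hN : N ≠ ⊥) : MulAction.IsMultiplyPretransitive N α 3 := by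
  have : Fact (Nat.Prime 2) := ⟨Nat.prime_two⟩
  have hNn : N.Normal := inferInstance
  have h2 : MulAction.IsMultiplyPretransitive N α 2 := by
    rcases Cfsg.Agent.S0698.result G (k := 3) (by norm_num) (by omega) hG N hN with h | ⟨-, -, h⟩
    · exact h
    exfalso
    have hprim : MulAction.IsPreprimitive G α :=
      MulAction.isPreprimitive_of_is_two_pretransitive (H18.mt_le hG (by omega) (by omega))
    have hNt := H18.normal_trans_of_prim_perm hprim N hN
    have hP : IsPGroup 2 N := fun g => ⟨1, Subtype.ext (by simpa using h g g.2)⟩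
    obtain ⟨m, hm⟩ := IsPGroup.iff_card.1 hP
    obtain ⟨a⟩ : Nonempty α := Fintype.card_pos_iff.1 (by omega)
    have h3 := H18.card_eq_card_mul_stabilizer (G := N) a
    rw [hm, Nat.card_eq_fintype_card] at h3
    obtain ⟨i, -, hi⟩ := (Nat.dvd_prime_pow Nat.prime_two).1 (Dvd.intro _ h3.symm)
    rcases i with _ | i
    · omega
    · rw [hi, pow_succ] at hodd
      exact (Nat.not_even_iff_odd.2 hodd) (by simp)
  have hcompl : ∀ a b : α, a ≠ b → ¬ 2 ∣ ({a, b}ᶜ : Set α).ncard := by
    intro a b hab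
    rw [Set.ncard_compl, Set.ncard_pair hab, Nat.card_eq_fintype_card]
    obtain ⟨m, hm⟩ := hodd
    omega
  -- a swap in N fixing a third point
  have hswap : ∀ a b c : α, a ≠ b → a ≠ c → b ≠ c → ∃ n ∈ N, n • a = b ∧ n • b = a ∧ n • c = c := by
    obtain ⟨a, b, hab⟩ := Fintype.exists_pair_of_one_lt_card (α := α) (by omega)
    obtain ⟨n, hn1, hn2⟩ := H18.mt_two_iff.1 h2 a b b a hab hab.symm
    obtain ⟨e, m, hm, hem⟩ := Nat.exists_eq_two_pow_mul_odd (orderOf_pos n).ne'
    have hsw : ∀ i : ℕ, (n ^ (2 * i + 1)) • a = b ∧ (n ^ (2 * i + 1)) • b = a := by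
      intro i
      induction i with
      | zero => simpa using ⟨hn1, hn2⟩
      | succ i ih =>
        rw [show 2 * (i + 1) + 1 = (2 * i + 1) + 1 + 1 by ring, pow_succ, pow_succ, mul_smul, mul_smul,
          mul_smul, mul_smul, hn1, hn2, hn1]
        exact ih
    obtain ⟨i, rfl⟩ := hm
    set u : N := n ^ (2 * i + 1)
    have hu : IsPGroup 2 (Subgroup.zpowers u) := by
      apply IsPGroup.of_card_dvd_pow (n := e)
      rw [Nat.card_zpowers, orderOf_dvd_iff_pow_eq_one, ← pow_mul, mul_comm, ← hem, pow_orderOf_eq_one]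
    obtain ⟨c, hc, hc'⟩ := H18.exists_fixed_in_invariant _ hu ({a, b}ᶜ : Set α) (Set.toFinite _) (by
      intro g hg
      have : Subgroup.zpowers u ≤ MulAction.stabilizer N ({a, b} : Set α) := by
        rw [Subgroup.zpowers_le, MulAction.mem_stabilizer_iff, Set.smul_set_insert,
          Set.smul_set_singleton, (hsw i).1, (hsw i).2, Set.pair_comm]
      have h := MulAction.mem_stabilizer_iff.1 (this hg)
      intro x hx hgx
      rw [← h] at hgx
      exact hx (Set.smul_mem_smul_set_iff.1 hgx)) (hcompl a b hab)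
    simp only [Set.mem_compl_iff, Set.mem_insert_iff, Set.mem_singleton_iff, not_or] at hc
    intro a' b' c' h1 h2 h3
    obtain ⟨g, rfl, rfl, rfl⟩ := H18.mt_three_iff.1 hG a b c a' b' c' hab (Ne.symm hc.1) (Ne.symm hc.2) h1 h2 h3
    refine ⟨g * u * g⁻¹, hNn.conj_mem _ u.2 g, ?_, ?_, ?_⟩
    · rw [mul_smul, mul_smul, inv_smul_smul]; exact congrArg _ (hsw i).1
    · rw [mul_smul, mul_smul, inv_smul_smul]; exact congrArg _ (hsw i).2
    · rw [mul_smul, mul_smul, inv_smul_smul]; exact congrArg _ (hc' u (Subgroup.mem_zpowers u))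
  have hgen : ∀ s : Finset α, s.card = 2 + 1 → ∀ σ : Equiv.Perm ↥s, ∃ g ∈ N.map G.subtype,
      ∀ x : ↥s, g (x : α) = σ x := by
    intro s hs σ
    induction σ using Equiv.Perm.swap_induction_on with
    | one => exact ⟨1, Subgroup.one_mem _, fun _ => rfl⟩
    | swap_mul f x y hxy ih =>
      obtain ⟨g, hg, hg'⟩ := ih
      obtain ⟨z, -, hz⟩ := Finset.exists_mem_notMem_of_card_lt_card (s := ({x, y} : Finset s))
        (t := Finset.univ) (by rw [Finset.card_pair hxy]; simp [hs])
      simp only [Finset.mem_insert, Finset.mem_singleton, not_or] at hz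
      have huniv : ({x, y, z} : Finset s) = Finset.univ := by
        apply Finset.eq_univ_of_card
        rw [Finset.card_eq_three.2 ⟨x, y, z, hxy, Ne.symm hz.1, Ne.symm hz.2, rfl⟩]
        simp [hs]
      obtain ⟨n, hn, h1, h2, h3⟩ := hswap x y z (fun h => hxy (Subtype.ext h))
        (fun h => hz.1 (Subtype.ext h).symm) (fun h => hz.2 (Subtype.ext h).symm)
      refine ⟨n * g, Subgroup.mul_mem _ ⟨n, hn, rfl⟩ hg, fun w => ?_⟩
      rw [Equiv.Perm.mul_apply, Equiv.Perm.mul_apply, hg']
      have : f w ∈ ({x, y, z} : Finset s) := huniv ▸ Finset.mem_univ _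
      simp only [Finset.mem_insert, Finset.mem_singleton] at this
      rcases this with h | h | h <;> rw [h]
      · rw [Equiv.swap_apply_left]; exact h1
      · rw [Equiv.swap_apply_right]; exact h2
      · rw [Equiv.swap_apply_of_ne_of_ne hz.1 hz.2]; exact h3
  refine H18.mt_succ_of_forall h2 fun s hs x y hx hy => ?_
  by_contra hcon
  let G' := fixingSubgroup G (s : Set α)
  let X := SubMulAction.ofFixingSubgroup G (s : Set α)
  have hXt : MulAction.IsPretransitive G' X := ⟨fun u v => by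
    obtain ⟨g, h1, h2⟩ := H18.exists_fix_smul_eq hG s hs u.2 v.2
    exact ⟨⟨g, fun z => h1 z z.2⟩, Subtype.ext h2⟩⟩
  have hX : ¬ 2 ∣ Nat.card X := by
    obtain ⟨a, b, hab, rfl⟩ := Finset.card_eq_two.1 hs
    have := hcompl a b hab
    rw [← Nat.card_coe_set_eq] at this
    have e : Nat.card X = Nat.card ({a, b}ᶜ : Set α) :=
      Nat.card_congr (Equiv.subtypeEquivRight fun z => by
        simp [X, SubMulAction.mem_ofFixingSubgroup_iff])
    rwa [e]
  have horb : ∀ u : X, ¬ 2 ∣ Nat.card (MulAction.orbit (fixingSubgroup (N.map G.subtype) (s : Set α)) (u : α)) := by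
    intro u h
    have hB := MulAction.IsBlock.orbit_of_normal (G := G') (N := N.subgroupOf G') u
    have h3 := hB.ncard_dvd_card (MulAction.nonempty_orbit u)
    apply hX (Dvd.dvd.trans _ h3)
    refine h.trans (dvd_of_eq (Eq.symm ?_))
    rw [Nat.card_coe_set_eq, ← Set.ncard_image_of_injective _ Subtype.val_injective]
    congr 1
    ext z
    constructor
    · rintro ⟨_, ⟨⟨g, hg⟩, rfl⟩, rfl⟩
      exact ⟨⟨⟨_, g, hg, rfl⟩, g.2⟩, rfl⟩
    · rintro ⟨⟨⟨_, g, hg, rfl⟩, hg'⟩, rfl⟩
      exact ⟨_, ⟨⟨⟨g, hg'⟩, hg⟩, rfl⟩, rfl⟩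
  obtain ⟨i, hi⟩ := Cfsg.Agent.S0706.result (N.map G.subtype) (k := 2) (by omega) hgen Nat.prime_two le_rfl s hs
    ![x, y] (fun i => by fin_cases i <;> assumption) (by
      have key : y ∉ MulAction.orbit (fixingSubgroup (N.map G.subtype) (s : Set α)) x := by
        rintro ⟨⟨⟨_, g, hg, rfl⟩, hg'⟩, h⟩
        exact hcon ⟨⟨g, hg⟩, fun z hz => hg' ⟨z, hz⟩, h⟩
      intro i j hij
      fin_cases i <;> fin_cases j
      · exact absurd rfl hij
      · exact key
      · intro h
        exact key (MulAction.mem_orbit_symm.1 h)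
      · exact absurd rfl hij)
  fin_cases i
  · exact horb ⟨x, hx⟩ hi
  · exact horb ⟨y, hy⟩ hi

end Cfsg.Agent.S0699
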