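import Mathlib
import Cfsg.Statements.S0700
import Cfsg.Agent.H18.Sharp2

set_option autoImplicit false
open scoped Pointwise
open Cfsg

namespace Cfsg.Agent.S0700

open MulAction in
/-- a normal transitive subgroup of a 2-transitive group is primitive or Frobenius/regular -/
theorem prim_or_frob {G α : Type*} [Group G] [MulAction G α] [Fintype α] [FaithfulSMul G α]
    (hG : IsMultiplyPretransitive G α 2) (N : Subgroup G) [hN : N.Normal]
    (hNt : IsPretransitive N α) :
    IsPreprimitive N α ∨ ∀ g ∈ N, ∀ a b : α, a ≠ b → g • a = a → g • b = b → g = 1 := by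
  classical
  by_cases hp : IsPreprimitive N α
  · exact Or.inl hp
  right
  -- proper nontrivial invariant equivalence relations
  let good : (α → α → Prop) → Prop := fun r => Equivalence r ∧
    (∀ g ∈ N, ∀ x y, r x y → r (g • x) (g • y)) ∧ (∃ a b, a ≠ b ∧ r a b)
  let sz : (α → α → Prop) → ℕ := fun r => Nat.card {x : α × α // r x.1 x.2}
  have hex : ∃ r, good r ∧ ¬ ∀ x y, r x y := by
    by_contra! h
    exact hp (H18.prim_of_rel fun r hr hinv a b hab hrab =>
      h r ⟨hr, fun g hg => hinv ⟨g, hg⟩, a, b, hab, hrab⟩)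
  obtain ⟨r0, hr0, hr0'⟩ := hex
  obtain ⟨r, hr, hmin⟩ := exists_minimalFor_of_wellFoundedLT good sz ⟨r0, hr0⟩
  have hle : ∀ s t : α → α → Prop, (∀ x y, s x y → t x y) → sz t ≤ sz s → ∀ x y, t x y → s x y := by
    intro s t hst hsz x y hxy
    have : {x : α × α | s x.1 x.2} = {x : α × α | t x.1 x.2} :=
      Set.eq_of_subset_of_ncard_le (fun z hz => hst _ _ hz) hsz
    exact (this ▸ hxy : (x, y) ∈ {x : α × α | s x.1 x.2})
  have hmin' : ∀ s, good s → sz r ≤ sz s := fun s hs => by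
    by_contra! h
    exact absurd (hmin hs h.le) (not_le.2 h)
  have hrne : ¬ ∀ x y, r x y := fun h =>
    hr0' fun x y => hle r0 r (fun _ _ _ => h _ _) (hmin' r0 hr0) x y (h x y)
  let tr : G → α → α → Prop := fun g x y => r (g⁻¹ • x) (g⁻¹ • y)
  have htr : ∀ g, good (tr g) := by
    intro g
    obtain ⟨h1, h2, a, b, hab, h3⟩ := hr
    refine ⟨⟨fun x => h1.refl _, h1.symm, h1.trans⟩, fun n hn x y h => ?_, g • a, g • b,
      fun h => hab (smul_left_cancel g h), by simpa [tr] using h3⟩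
    have := h2 _ (hN.conj_mem n hn g⁻¹) _ _ h
    simpa [tr, mul_smul] using this
  have hsz : ∀ g, sz (tr g) = sz r := fun g =>
    Nat.card_congr ⟨fun x => ⟨(g⁻¹ • x.1.1, g⁻¹ • x.1.2), x.2⟩,
      fun x => ⟨(g • x.1.1, g • x.1.2), by simpa [tr] using x.2⟩, fun x => by simp, fun x => by simp⟩
  have huniq : ∀ g k : G, ∀ a b, a ≠ b → tr g a b → tr k a b → ∀ x y, tr g x y → tr k x y := by
    intro g k a b hab h1 h2 x y hxy
    have hg : good fun x y => tr g x y ∧ tr k x y :=
      ⟨⟨fun x => ⟨(htr g).1.refl x, (htr k).1.refl x⟩,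
        fun h => ⟨(htr g).1.symm h.1, (htr k).1.symm h.2⟩,
        fun h h' => ⟨(htr g).1.trans h.1 h'.1, (htr k).1.trans h.2 h'.2⟩⟩,
        fun n hn x y h => ⟨(htr g).2.1 n hn x y h.1, (htr k).2.1 n hn x y h.2⟩, a, b, hab, h1, h2⟩
    exact (hle _ (tr g) (fun _ _ h => h.1) ((hsz g).le.trans (hmin' _ hg)) x y hxy).2
  have hline : ∀ a b, a ≠ b → ∃ g, tr g a b := by
    intro a b hab
    obtain ⟨-, -, u, v, huv, h3⟩ := hr
    obtain ⟨g, rfl, rfl⟩ := H18.mt_two_iff.1 hG u v a b huv hab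
    exact ⟨g, by simpa [tr] using h3⟩
  have hoff : ∀ n ∈ N, ∀ a b, a ≠ b → n • a = a → n • b = b → ∀ g, tr g a b →
      ∀ c, ¬ tr g a c → n • c = c := by
    intro n hn a b hab ha hb g hg c hc
    by_contra hnc
    have hac : a ≠ c := by rintro rfl; exact hc ((htr g).1.refl _)
    have hbc : b ≠ c := by rintro rfl; exact hc hg
    obtain ⟨k, hk⟩ := hline a c hac
    obtain ⟨l, hl⟩ := hline b c hbc
    have h1 : tr k c (n • c) :=
      (htr k).1.trans ((htr k).1.symm hk) (by simpa [ha] using (htr k).2.1 n hn _ _ hk)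
    have h2 : tr l c (n • c) :=
      (htr l).1.trans ((htr l).1.symm hl) (by simpa [hb] using (htr l).2.1 n hn _ _ hl)
    have h3 := huniq l k _ _ (Ne.symm hnc) h2 h1 _ _ hl
    have h4 : tr k a b := (htr k).1.trans hk ((htr k).1.symm h3)
    exact hc (huniq k g a b hab h4 hg _ _ hk)
  intro n hn a b hab ha hb
  obtain ⟨g, hg⟩ := hline a b hab
  obtain ⟨c, hc⟩ : ∃ c, ¬ tr g a c := by
    by_contra! h
    apply hrne
    intro x y
    have := (htr g).1.trans ((htr g).1.symm (h (g • x))) (h (g • y))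
    simpa [tr] using this
  have hac : a ≠ c := by rintro rfl; exact hc ((htr g).1.refl _)
  have hnc := hoff n hn a b hab ha hb g hg c hc
  obtain ⟨k, hk⟩ := hline a c hac
  refine FaithfulSMul.eq_of_smul_eq_smul (α := α) fun d => ?_
  rw [one_smul]
  by_cases hd : tr g a d
  swap
  · exact hoff n hn a b hab ha hb g hg d hd
  by_cases had : a = d
  · exact had ▸ ha
  refine hoff n hn a c hac ha hnc k hk d fun h => hc (huniq k g a d had h hd _ _ hk)

/-- Burnside's Theorem on doubly transitive groups: a minimal normal subgroup of a finite doubly transitive permutation group is elementary abelian and regular, or simple and primitive. -/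
theorem result {α : Type*} [Fintype α] [DecidableEq α] (G : Subgroup (Equiv.Perm α)) (hG : MulAction.IsMultiplyPretransitive G α 2) (N : Subgroup G) [N.Normal] (hN : N ≠ ⊥) (hmin : ∀ M : Subgroup G, M.Normal → M ≤ N → M = ⊥ ∨ M = N) : (IsMulCommutative N ∧ (∃ p : ℕ, p.Prime ∧ ∀ n ∈ N, n ^ p = 1) ∧ ∀ a : α, MulAction.stabilizer N a = ⊥) ∨ (IsSimpleGroup N ∧ MulAction.IsPreprimitive N α) := by
  have hprim := MulAction.isPreprimitive_of_is_two_pretransitive hG
  have hNt := H18.normal_trans_of_prim_perm hprim N hN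
  obtain ⟨n0, hn0, a0, ha0⟩ := H18.exists_move_of_ne_bot hN
  have hcard : 2 ≤ Fintype.card α := Fintype.one_lt_card_iff.2 ⟨_, _, ha0⟩
  have frob : (∀ g ∈ N, ∀ a b : α, a ≠ b → g • a = a → g • b = b → g = 1) →
      (IsMulCommutative N ∧ (∃ p : ℕ, p.Prime ∧ ∀ n ∈ N, n ^ p = 1) ∧ ∀ a : α, MulAction.stabilizer N a = ⊥) := by
    intro h
    obtain ⟨p, j, hp, hj, hc, K, hKn, hKN, hKc, hKp, hKt, hK, hKr, hKP, hQ⟩ :=
      H18.frob_normal_struct hG hcard N hNt h
    rcases hmin K hKn hKN with h | h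
    · exfalso
      obtain ⟨⟨k, hk⟩, hk'⟩ := MulAction.exists_smul_eq K a0 (n0 • a0)
      rw [h, Subgroup.mem_bot] at hk
      subst hk
      exact ha0 (by rw [← hk']; exact one_smul G a0)
    · subst h
      exact ⟨hKc, ⟨p, hp, hKp⟩, hKr⟩
  rcases prim_or_frob hG N hNt with hp | h
  swap
  · exact Or.inl (frob h)
  by_cases hs : IsSimpleGroup N
  · exact Or.inr ⟨hs, hp⟩
  exfalso
  have hNnt : Nontrivial N := (Subgroup.nontrivial_iff_ne_bot N).2 hN
  obtain ⟨K, hKn, hK1, hK2⟩ : ∃ K : Subgroup N, K.Normal ∧ K ≠ ⊥ ∧ K ≠ ⊤ := by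
    by_contra! h
    exact hs ⟨fun K hK => by
      by_cases h1 : K = ⊥
      · exact Or.inl h1
      · exact Or.inr (h K hK h1)⟩
  obtain ⟨M, hMK, hM⟩ := exists_minimal_le_of_wellFoundedLT
    (fun M : Subgroup N => M.Normal ∧ M ≠ ⊥) K ⟨hKn, hK1⟩
  let mn : Subgroup N → Prop := fun M => M.Normal ∧ M ≠ ⊥ ∧
    ∀ L : Subgroup N, L.Normal → L ≤ M → L = ⊥ ∨ L = M
  have hmnM : mn M := ⟨hM.1.1, hM.1.2, fun L hL hLM => by
    by_cases h1 : L = ⊥
    · exact Or.inl h1
    · exact Or.inr (le_antisymm hLM (hM.2 ⟨hL, h1⟩ hLM))⟩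
  have hmap : ∀ (φ : N ≃* N) (M : Subgroup N), mn M → mn (M.map φ.toMonoidHom) := by
    rintro φ M ⟨h1, h2, h3⟩
    refine ⟨h1.map _ φ.surjective, fun h => h2 ((Subgroup.map_eq_bot_iff_of_injective M φ.injective).1 h),
      fun L hL hLM => ?_⟩
    rcases h3 (L.comap φ.toMonoidHom) (hL.comap _) (by
      rw [← Subgroup.comap_map_eq_self_of_injective (f := φ.toMonoidHom) φ.injective M]
      exact Subgroup.comap_mono hLM) with h | h
    · left
      rw [← Subgroup.map_comap_eq_self_of_surjective (f := φ.toMonoidHom) φ.surjective L, h,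
        Subgroup.map_bot]
    · right
      rw [← Subgroup.map_comap_eq_self_of_surjective (f := φ.toMonoidHom) φ.surjective L, h]
  have hnormal : ∀ L : Subgroup N, (∀ g : G, L.map (MulAut.conjNormal g : N ≃* N).toMonoidHom ≤ L) →
      L ≠ ⊥ → L = ⊤ := by
    intro L hL hL1
    have h1 : (L.map N.subtype).Normal := ⟨by
      rintro _ ⟨x, hx, rfl⟩ g
      exact ⟨_, hL g ⟨x, hx, rfl⟩, rfl⟩⟩
    rcases hmin _ h1 (Subgroup.map_subtype_le _) with h | h
    · exact absurd ((Subgroup.map_eq_bot_iff_of_injective L N.subtype_injective).1 h) hL1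
    · apply Subgroup.map_injective N.subtype_injective
      rw [h, ← MonoidHom.range_eq_map, Subgroup.range_subtype]
  obtain ⟨g0, hg0⟩ : ∃ g : G, M.map (MulAut.conjNormal g : N ≃* N).toMonoidHom ≠ M := by
    by_contra! h
    exact hK2 (top_le_iff.1 (hnormal M (fun g => (h g).le) hM.1.2 ▸ hMK))
  set M' := M.map (MulAut.conjNormal g0 : N ≃* N).toMonoidHom
  have hmnM' : mn M' := hmap _ M hmnM
  have hMn := hmnM.1
  have hMn' := hmnM'.1
  have hMt := H18.normal_trans_of_prim_faithful hp M hmnM.2.1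
  have hMt' := H18.normal_trans_of_prim_faithful hp M' hmnM'.2.1
  have hsemi : ∀ L : Subgroup N, MulAction.IsPretransitive L α → ∀ c : N, (∀ m ∈ L, Commute c m) →
      c • a0 = a0 → c = 1 := by
    intro L hL c hc ha
    refine FaithfulSMul.eq_of_smul_eq_smul (α := α) fun d => ?_
    obtain ⟨m, rfl⟩ := MulAction.exists_smul_eq L a0 d
    rw [one_smul]
    change c • (m : N) • a0 = (m : N) • a0
    rw [← mul_smul, (hc m m.2).eq, mul_smul, ha]
  have hc := H18.commute_of_min_normal_ne M M' hmnM.2.2 hmnM'.2.2 hg0.symm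
  have hthird : ∀ L, mn L → L ≤ M ⊔ M' := by
    intro L hL
    by_cases h : L = M
    · exact h ▸ le_sup_left
    have := hL.1
    have hc' := H18.commute_of_min_normal_ne L M hL.2.2 hmnM.2.2 h
    intro l hl
    obtain ⟨m, hm⟩ := MulAction.exists_smul_eq M' a0 (l • a0)
    have := hsemi M hMt ((m : N)⁻¹ * l) (fun x hx => ((hc x hx m m.2).symm.inv_left).mul_left (hc' l hl x hx))
      (by rw [mul_smul, ← hm]; exact inv_smul_smul (m : N) a0)
    rw [← inv_mul_eq_one.1 this]
    exact Subgroup.mem_sup_right m.2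
  have htop : M ⊔ M' = ⊤ := hnormal _ (fun g => by
    rw [Subgroup.map_sup]
    exact sup_le (hthird _ (hmap _ _ hmnM)) (hthird _ (hmap _ _ hmnM')))
    (fun h => hmnM.2.1 (le_bot_iff.1 (h ▸ le_sup_left)))
  have hreg : ∀ L L' : Subgroup N, MulAction.IsPretransitive L α → MulAction.IsPretransitive L' α →
      (∀ m ∈ L, ∀ m' ∈ L', Commute m m') → Nat.card L = Nat.card α := by
    intro L L' h1 h2 h3
    apply H18.card_eq_of_regular a0
    rw [eq_bot_iff]
    intro m hm
    exact Subtype.ext (hsemi L' h2 m (h3 m m.2) hm)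
  have hcM := hreg M M' hMt hMt' hc
  have hcM' := hreg M' M hMt' hMt fun m hm m' hm' => (hc m' hm' m hm).symm
  have hidx : M.index ∣ Nat.card α := by
    rw [← Subgroup.relIndex_top_right, ← htop, Subgroup.relIndex_sup_left, ← hcM']
    exact Subgroup.index_dvd_card _
  have hstab : Nat.card (MulAction.stabilizer N a0) = M.index := by
    have h1 := H18.card_eq_card_mul_stabilizer (G := N) a0
    rw [← M.card_mul_index, hcM] at h1
    exact (Nat.eq_of_mul_eq_mul_left (by rw [Nat.card_eq_fintype_card]; omega) h1).symm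
  have hfix : ∀ n : N, n • a0 = a0 → n = 1 := by
    intro n hn
    refine FaithfulSMul.eq_of_smul_eq_smul (α := α) fun d => ?_
    rw [one_smul]
    by_cases hd : d = a0
    · rw [hd, hn]
    let G' := MulAction.stabilizer G a0
    let X := SubMulAction.ofStabilizer G a0
    have hXt : MulAction.IsPretransitive G' X := ⟨fun u v => by
      obtain ⟨g, h1, h2⟩ := H18.mt_two_iff.1 hG a0 u a0 v (Ne.symm u.2) (Ne.symm v.2)
      exact ⟨⟨g, h1⟩, Subtype.ext h2⟩⟩
    have hB := MulAction.IsBlock.orbit_of_normal (G := G') (N := N.subgroupOf G') (⟨d, hd⟩ : X)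
    have h3 := hB.ncard_dvd_card (MulAction.nonempty_orbit _)
    have hX : Nat.card X + 1 = Nat.card α := SubMulAction.nat_card_ofStabilizer_add_one_eq G a0
    have h4 : (MulAction.orbit (N.subgroupOf G') (⟨d, hd⟩ : X)).ncard ∣ Nat.card α := by
      refine Dvd.dvd.trans ?_ hidx
      rw [← hstab, ← MulAction.index_stabilizer]
      refine (Subgroup.index_dvd_card _).trans (dvd_of_eq ?_)
      exact Nat.card_congr ⟨fun x => ⟨⟨x.1.1, x.2⟩, x.1.2⟩, fun x => ⟨⟨x.1.1, x.2⟩, x.1.2⟩,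
        fun _ => rfl, fun _ => rfl⟩
    rw [← hX] at h4
    have h5 := Nat.dvd_one.1 ((Nat.dvd_add_right h3).1 h4)
    obtain ⟨z, hz⟩ := Set.ncard_eq_one.1 h5
    have h6 := MulAction.mem_orbit_self (M := N.subgroupOf G') (⟨d, hd⟩ : X)
    have h7 := MulAction.mem_orbit (⟨d, hd⟩ : X) (⟨⟨n, hn⟩, n.2⟩ : N.subgroupOf G')
    rw [hz, Set.mem_singleton_iff] at h6 h7
    exact congrArg Subtype.val (h7.trans h6.symm)
  have hb : MulAction.stabilizer N a0 = ⊥ := by
    rw [eq_bot_iff]; exact fun n hn => hfix n hn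
  rw [hb, Subgroup.card_bot, eq_comm, Subgroup.index_eq_one] at hstab
  exact hK2 (top_le_iff.1 (hstab ▸ hMK))

end Cfsg.Agent.S0700
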