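import Mathlib
import Cfsg.Statements.S0701
import Cfsg.Agent.H18.Prim

set_option autoImplicit false
open Cfsg

namespace Cfsg.Agent.S0701

/-- The centraliser in the full symmetric group of a transitive permutation group `G` is semiregular, and it is transitive if and only if `G` is regular. -/
theorem result {α : Type*} (G : Subgroup (Equiv.Perm α)) [MulAction.IsPretransitive G α] : (∀ c ∈ Subgroup.centralizer (G : Set (Equiv.Perm α)), ∀ a : α, c a = a → c = 1) ∧ (MulAction.IsPretransitive (Subgroup.centralizer (G : Set (Equiv.Perm α))) α ↔ ∀ a : α, MulAction.stabilizer G a = ⊥) := by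
  refine ⟨fun c hc a ha => H18.centralizer_semiregular hc ha, ?_, ?_⟩
  · intro h a
    rw [eq_bot_iff]
    intro g hg
    rw [Subgroup.mem_bot]
    ext b
    obtain ⟨c, rfl⟩ := MulAction.exists_smul_eq (Subgroup.centralizer (G : Set (Equiv.Perm α))) a b
    have h1 := H18.mem_centralizer_perm_iff.1 c.2 g a
    rw [MulAction.mem_stabilizer_iff.1 hg] at h1
    exact h1.symm
  · intro h
    refine ⟨fun a b => ?_⟩
    obtain ⟨c, hc, hc'⟩ := H18.exists_perm_comm_of_stabilizer_eq (G := G) ((h a).trans (h b).symm)
    exact ⟨⟨c, H18.mem_centralizer_perm_iff.2 hc'⟩, hc⟩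

end Cfsg.Agent.S0701
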