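import Mathlib
import Cfsg.Statements.S0702
import Cfsg.Agent.H18.Prim

set_option autoImplicit false
open Cfsg

namespace Cfsg.Agent.S0702

open MulAction in
theorem stab_eq {G α : Type*} [Group G] [MulAction G α] (a : α) (n : G)
    (hn : n ∈ Subgroup.normalizer ((stabilizer G a : Subgroup G) : Set G)) :
    stabilizer G a = stabilizer G (n⁻¹ • a) := by
  ext g
  rw [Subgroup.mem_normalizer_iff] at hn
  have := hn g
  rw [this, mem_stabilizer_iff, mem_stabilizer_iff, mul_smul, mul_smul, ← eq_inv_smul_iff]

open MulAction in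
theorem mem_norm {G α : Type*} [Group G] [MulAction G α] (a : α) (n : G)
    (hn : stabilizer G a = stabilizer G (n⁻¹ • a)) :
    n ∈ Subgroup.normalizer ((stabilizer G a : Subgroup G) : Set G) := by
  rw [Subgroup.mem_normalizer_iff]
  intro g
  have : g ∈ stabilizer G a ↔ g ∈ stabilizer G (n⁻¹ • a) := by rw [← hn]
  rw [this, mem_stabilizer_iff, mem_stabilizer_iff, mul_smul, mul_smul, ← eq_inv_smul_iff (g := n)]

/-- For a transitive permutation group `G` on a finite set, the centraliser of `G` in the symmetric group is isomorphic to `N_G(G_ω)/G_ω`, and its orbit of `ω` is the set of fixed points of `G_ω`. -/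
theorem result {α : Type*} [Finite α] (G : Subgroup (Equiv.Perm α)) [MulAction.IsPretransitive G α] (a : α) : Nonempty (Subgroup.centralizer (G : Set (Equiv.Perm α)) ≃* Subgroup.normalizer ((MulAction.stabilizer G a : Subgroup G) : Set G) ⧸ (MulAction.stabilizer G a).subgroupOf (Subgroup.normalizer ((MulAction.stabilizer G a : Subgroup G) : Set G))) ∧ MulAction.orbit (Subgroup.centralizer (G : Set (Equiv.Perm α))) a = MulAction.fixedPoints (MulAction.stabilizer G a) α := by
  have hstab : ∀ c ∈ Subgroup.centralizer (G : Set (Equiv.Perm α)),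
      MulAction.stabilizer G a = MulAction.stabilizer G (c a) := by
    intro c hc
    ext g
    rw [MulAction.mem_stabilizer_iff, MulAction.mem_stabilizer_iff,
      ← H18.mem_centralizer_perm_iff.1 hc g a, c.injective.eq_iff]
  constructor
  · set N := Subgroup.normalizer ((MulAction.stabilizer G a : Subgroup G) : Set G)
    have h1 : ∀ n : N, ∃ c : Subgroup.centralizer (G : Set (Equiv.Perm α)),
        (c : Equiv.Perm α) a = (n : G)⁻¹ • a := by
      intro n
      obtain ⟨c, hc, hc'⟩ := H18.exists_perm_comm_of_stabilizer_eq (stab_eq a (n : G) n.2)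
      exact ⟨⟨c, H18.mem_centralizer_perm_iff.2 hc'⟩, hc⟩
    choose f hf using h1
    have huniq : ∀ c d : Subgroup.centralizer (G : Set (Equiv.Perm α)),
        (c : Equiv.Perm α) a = (d : Equiv.Perm α) a → c = d := by
      intro c d h
      have := H18.centralizer_semiregular (d⁻¹ * c).2 (a := a) (by
        simp [h])
      rw [← inv_mul_eq_one.1 (Subtype.ext this : d⁻¹ * c = 1)]
    let φ : N →* Subgroup.centralizer (G : Set (Equiv.Perm α)) := MonoidHom.mk' f (fun n m => by
      apply huniq
      rw [hf, Subgroup.coe_mul, Subgroup.coe_mul, Equiv.Perm.mul_apply, hf,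
        H18.mem_centralizer_perm_iff.1 (f n).2, hf, mul_inv_rev, mul_smul])
    have hsurj : Function.Surjective φ := by
      intro c
      obtain ⟨g, hg⟩ := MulAction.exists_smul_eq G a ((c : Equiv.Perm α) a)
      refine ⟨⟨g⁻¹, mem_norm a _ (by rw [inv_inv, hg]; exact hstab c c.2)⟩, huniq _ _ ?_⟩
      change (f _ : Equiv.Perm α) a = _
      rw [hf]; simpa using hg
    have hker : φ.ker = (MulAction.stabilizer G a).subgroupOf N := by
      ext n
      rw [MonoidHom.mem_ker, Subgroup.mem_subgroupOf, MulAction.mem_stabilizer_iff]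
      constructor
      · intro h
        have := hf n
        change (φ n : Equiv.Perm α) a = _ at this
        rw [h, eq_inv_smul_iff] at this
        exact this
      · intro h
        apply huniq
        change (f _ : Equiv.Perm α) a = a
        rw [hf, inv_smul_eq_iff, h]
    exact ⟨(QuotientGroup.quotientKerEquivOfSurjective φ hsurj).symm.trans
      (QuotientGroup.quotientMulEquivOfEq hker)⟩
  · ext b
    constructor
    · rintro ⟨c, rfl⟩ g
      have : (g : G) ∈ MulAction.stabilizer G ((c : Equiv.Perm α) a) := hstab c c.2 ▸ g.2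
      exact this
    · intro hb
      have hle : MulAction.stabilizer G a ≤ MulAction.stabilizer G b := fun g hg => hb ⟨g, hg⟩
      have heq := Subgroup.eq_of_le_of_card_ge hle (H18.card_stabilizer_eq_of_trans b a).le
      obtain ⟨c, hc, hc'⟩ := H18.exists_perm_comm_of_stabilizer_eq heq
      exact ⟨⟨c, H18.mem_centralizer_perm_iff.2 hc'⟩, hc⟩

end Cfsg.Agent.S0702
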