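import Mathlib
import Cfsg.Statements.S0703
import Cfsg.Agent.H18.Prim

set_option autoImplicit false
open Cfsg

namespace Cfsg.Agent.S0703

/-- An abelian transitive minimal normal subgroup `M` of a permutation group on a finite set is self-centralising in the symmetric group, regular, elementary abelian, and is the unique minimal normal subgroup. -/
theorem result {α : Type*} [Finite α] (G : Subgroup (Equiv.Perm α)) (M : Subgroup G) [M.Normal] (hM : M ≠ ⊥) (hmin : ∀ L : Subgroup G, L.Normal → L ≤ M → L = ⊥ ∨ L = M) (hab : IsMulCommutative M) (htrans : MulAction.IsPretransitive M α) : Subgroup.centralizer ((M.map G.subtype : Subgroup (Equiv.Perm α)) : Set (Equiv.Perm α)) = M.map G.subtype ∧ (∀ a : α, MulAction.stabilizer M a = ⊥) ∧ (∃ p : ℕ, p.Prime ∧ ∀ m ∈ M, m ^ p = 1) ∧ ∀ L : Subgroup G, L.Normal → L ≠ ⊥ → (∀ L' : Subgroup G, L'.Normal → L' ≤ L → L' = ⊥ ∨ L' = L) → L = M := by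
  have hcomm : ∀ a ∈ M, ∀ b ∈ M, Commute a b := fun a ha b hb =>
    congrArg Subtype.val (hab.is_comm.comm ⟨a, ha⟩ ⟨b, hb⟩)
  obtain ⟨m0, hm0, a0, -⟩ := H18.exists_move_of_ne_bot hM
  have ht : MulAction.IsPretransitive (M.map G.subtype) α := by
    rw [← MulAction.is_one_pretransitive_iff] at htrans ⊢
    exact H18.mt_map_subtype_iff.2 htrans
  have hle : M.map G.subtype ≤ Subgroup.centralizer ((M.map G.subtype : Subgroup (Equiv.Perm α)) : Set (Equiv.Perm α)) := by
    rintro _ ⟨m, hm, rfl⟩ _ ⟨m', hm', rfl⟩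
    exact congrArg Subtype.val (hcomm m' hm' m hm).eq
  have h1 := H18.eq_of_trans_le_semiregular hle ht a0 fun k hk h => H18.centralizer_semiregular hk h
  refine ⟨h1.symm, fun a => ?_, H18.pow_prime_eq_one_of_min_normal_comm M hM hmin hab, ?_⟩
  · rw [eq_bot_iff]
    intro m hm
    rw [Subgroup.mem_bot]
    ext1; ext1
    exact H18.centralizer_semiregular (hle ⟨m, m.2, rfl⟩) hm
  · intro L hLn hL hLmin
    by_contra hne
    have hc := H18.commute_of_min_normal_ne L M hLmin hmin hne
    have hi := H18.inf_eq_bot_of_min_normal_ne L M hLmin hmin hne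
    apply hL
    rw [← hi, eq_comm, inf_eq_left]
    intro l hl
    have : (l : Equiv.Perm α) ∈ M.map G.subtype := by
      rw [h1]
      rintro _ ⟨m', hm', rfl⟩
      exact congrArg Subtype.val (hc l hl m' hm').eq.symm
    obtain ⟨m, hm, hml⟩ := this
    rwa [← Subtype.ext hml]

end Cfsg.Agent.S0703
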