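import Mathlib
import Cfsg.Statements.S0704
import Cfsg.Agent.H18.Prim

set_option autoImplicit false
open Cfsg

namespace Cfsg.Agent.S0704

theorem aux {α : Type*} (G : Subgroup (Equiv.Perm α)) (M N : Subgroup G)
    (hc : ∀ m ∈ M, ∀ n ∈ N, Commute m n) (a0 : α)
    (hMt : MulAction.IsPretransitive M α) (hNt : MulAction.IsPretransitive N α) :
    Subgroup.centralizer ((M.map G.subtype : Subgroup (Equiv.Perm α)) : Set (Equiv.Perm α)) = N.map G.subtype ∧
      ∀ a : α, MulAction.stabilizer N a = ⊥ := by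
  have ht : MulAction.IsPretransitive (M.map G.subtype) α := by
    rw [← MulAction.is_one_pretransitive_iff] at hMt ⊢
    exact H18.mt_map_subtype_iff.2 hMt
  have ht' : MulAction.IsPretransitive (N.map G.subtype) α := by
    rw [← MulAction.is_one_pretransitive_iff] at hNt ⊢
    exact H18.mt_map_subtype_iff.2 hNt
  have hle : N.map G.subtype ≤ Subgroup.centralizer ((M.map G.subtype : Subgroup (Equiv.Perm α)) : Set (Equiv.Perm α)) := by
    rintro _ ⟨m, hm, rfl⟩ _ ⟨m', hm', rfl⟩
    exact congrArg Subtype.val (hc m' hm' m hm).eq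
  have h1 := H18.eq_of_trans_le_semiregular hle ht' a0 fun k hk h => H18.centralizer_semiregular hk h
  refine ⟨h1.symm, fun a => ?_⟩
  rw [eq_bot_iff]
  intro m hm
  rw [Subgroup.mem_bot]
  ext1; ext1
  exact H18.centralizer_semiregular (hle ⟨m, m.2, rfl⟩) hm

/-- Two distinct transitive minimal normal subgroups `M`, `N` of a permutation group are regular, non-abelian, isomorphic, each other's centraliser in the symmetric group, and the only minimal normal subgroups. -/
theorem result {α : Type*} (G : Subgroup (Equiv.Perm α)) (M N : Subgroup G) [M.Normal] [N.Normal] (hM : M ≠ ⊥) (hN : N ≠ ⊥) (hMmin : ∀ L : Subgroup G, L.Normal → L ≤ M → L = ⊥ ∨ L = M) (hNmin : ∀ L : Subgroup G, L.Normal → L ≤ N → L = ⊥ ∨ L = N) (hMN : M ≠ N) (hMt : MulAction.IsPretransitive M α) (hNt : MulAction.IsPretransitive N α) : (∀ a : α, MulAction.stabilizer M a = ⊥) ∧ (∀ a : α, MulAction.stabilizer N a = ⊥) ∧ ¬ IsMulCommutative M ∧ Nonempty (M ≃* N) ∧ Subgroup.centralizer ((M.map G.subtype : Subgroup (Equiv.Perm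 α)) : Set (Equiv.Perm α)) = N.map G.subtype ∧ Subgroup.centralizer ((N.map G.subtype : Subgroup (Equiv.Perm α)) : Set (Equiv.Perm α)) = M.map G.subtype ∧ ∀ L : Subgroup G, L.Normal → L ≠ ⊥ → (∀ L' : Subgroup G, L'.Normal → L' ≤ L → L' = ⊥ ∨ L' = L) → L = M ∨ L = N := by
  obtain ⟨m0, hm0, a0, -⟩ := H18.exists_move_of_ne_bot hM
  have hc := H18.commute_of_min_normal_ne M N hMmin hNmin hMN
  have hi := H18.inf_eq_bot_of_min_normal_ne M N hMmin hNmin hMN
  obtain ⟨h1, h2⟩ := aux G M N hc a0 hMt hNt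
  obtain ⟨h3, h4⟩ := aux G N M (fun n hn m hm => (hc m hm n hn).symm) a0 hNt hMt
  have hcent : ∀ l : G, (∀ m ∈ M, Commute l m) → l ∈ N := by
    intro l hl
    have : (l : Equiv.Perm α) ∈ N.map G.subtype := by
      rw [← h1]
      rintro _ ⟨m', hm', rfl⟩
      exact congrArg Subtype.val (hl m' hm').eq.symm
    obtain ⟨m, hm, hml⟩ := this
    rwa [← Subtype.ext hml]
  refine ⟨h4, h2, fun hab => ?_, ?_, h1, h3, ?_⟩
  · apply hM
    rw [← hi, eq_comm, inf_eq_left]
    intro l hl
    exact hcent l fun m hm => congrArg Subtype.val (hab.is_comm.comm ⟨l, hl⟩ ⟨m, hm⟩)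
  · have e1 : ∀ m : M, ∃ n : N, n • a0 = m⁻¹ • a0 := fun m => MulAction.exists_smul_eq N a0 _
    choose f hf using e1
    have uN : ∀ n n' : N, n • a0 = n' • a0 → n = n' := by
      intro n n' h
      have : n'⁻¹ * n ∈ MulAction.stabilizer N a0 := by
        rw [MulAction.mem_stabilizer_iff, mul_smul, h, inv_smul_smul]
      rw [h2, Subgroup.mem_bot, inv_mul_eq_one] at this
      exact this.symm
    have uM : ∀ n n' : M, n • a0 = n' • a0 → n = n' := by
      intro n n' h
      have : n'⁻¹ * n ∈ MulAction.stabilizer M a0 := by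
        rw [MulAction.mem_stabilizer_iff, mul_smul, h, inv_smul_smul]
      rw [h4, Subgroup.mem_bot, inv_mul_eq_one] at this
      exact this.symm
    have hsw : ∀ (m : M) (n : N) (x : α), n • m • x = m • n • x := by
      intro m n x
      change (n : G) • (m : G) • x = (m : G) • (n : G) • x
      rw [← mul_smul, ← mul_smul, (hc m m.2 n n.2).eq]
    let φ : M →* N := MonoidHom.mk' f (fun m m' => uN _ _ (by
      rw [hf, mul_smul, hf, hsw, hf, mul_inv_rev, mul_smul]))
    refine ⟨MulEquiv.ofBijective φ ⟨fun m m' h => ?_, fun n => ?_⟩⟩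
    · have h' : f m = f m' := h
      have := hf m
      rw [h', hf] at this
      exact inv_injective (uM _ _ this).symm
    · obtain ⟨m, hm⟩ := MulAction.exists_smul_eq M a0 (n • a0)
      refine ⟨m⁻¹, uN _ _ ?_⟩
      change f _ • a0 = _
      rw [hf, inv_inv, hm]
  · intro L hLn hL hLmin
    by_cases hne : L = M
    · exact Or.inl hne
    right
    have hc' := H18.commute_of_min_normal_ne L M hLmin hMmin hne
    exact (hNmin L hLn fun l hl => hcent l (hc' l hl)).resolve_left hL

end Cfsg.Agent.S0704
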