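import Mathlib
import Cfsg.Statements.S0707
import Cfsg.Agent.H18.Prim

set_option autoImplicit false
open Cfsg

namespace Cfsg.Agent.S0707

/-- In a primitive permutation group, distinct points have distinct stabilisers unless the group is regular of prime degree. -/
theorem result {α : Type*} (G : Subgroup (Equiv.Perm α)) [MulAction.IsPreprimitive G α] (h : ¬ (Nat.card α).Prime ∨ ∃ a : α, MulAction.stabilizer G a ≠ ⊥) {a b : α} (hab : a ≠ b) : MulAction.stabilizer G a ≠ MulAction.stabilizer G b := by
  intro heq
  have hp : MulAction.IsPreprimitive G α := inferInstance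
  have key := H18.prim_rel hp (fun x y => MulAction.stabilizer G x = MulAction.stabilizer G y)
    ⟨fun _ => rfl, Eq.symm, Eq.trans⟩ (fun g x y hxy => by
      rw [MulAction.stabilizer_smul_eq_stabilizer_map_conj, MulAction.stabilizer_smul_eq_stabilizer_map_conj, hxy]) hab heq
  have hreg : ∀ x : α, MulAction.stabilizer G x = ⊥ := by
    intro x
    rw [eq_bot_iff]
    intro g hg
    rw [Subgroup.mem_bot]
    ext y
    have : g ∈ MulAction.stabilizer G y := key x y ▸ hg
    exact this
  rcases h with h | ⟨x, hx⟩
  swap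
  · exact hx (hreg x)
  apply h
  have : Nontrivial α := ⟨a, b, hab⟩
  have hco := MulAction.IsPreprimitive.isCoatom_stabilizer_of_isPreprimitive G a
  rw [hreg a] at hco
  rw [← H18.card_eq_of_regular a (hreg a)]
  have hall : ∀ H : Subgroup G, H = ⊥ ∨ H = ⊤ := fun H => by
    by_cases hH : H = ⊥
    · exact Or.inl hH
    · exact Or.inr (hco.2 H (bot_lt_iff_ne_bot.2 hH))
  have hnt : Nontrivial G := by
    rw [← Subgroup.nontrivial_iff]; exact ⟨⊥, ⊤, hco.1⟩
  obtain ⟨g, hg⟩ := exists_ne (1 : G)
  have hz : Subgroup.zpowers g = ⊤ := (hall _).resolve_left (by simpa using hg)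
  have hcyc : IsCyclic G := ⟨g, fun x => by
    have : x ∈ Subgroup.zpowers g := hz ▸ Subgroup.mem_top x
    exact this⟩
  have : IsSimpleGroup G := ⟨fun H _ => hall H⟩
  exact Group.is_simple_iff_prime_card.1 this

end Cfsg.Agent.S0707
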