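import Mathlib
import Cfsg.Statements.S0709

set_option autoImplicit false
open Cfsg

namespace Cfsg.Agent.S0709

/-- Witt's Lemma for constructing transitive extensions. Points `q 1, …, q t` (`t ≥ 2`) of a finite set are given; `G` fixes `q i` for `i ≥ 3` and is doubly transitive on the remaining points; `s 1 ∈ G` swaps `q 1, q 2`; for `2 ≤ i ≤ t-1`, `s i` swaps `q i, q (i+1)` and fixes the other `q j`; with `H` the stabiliser of `q 1, q 2` in `G`: `s i ^ 2 ∈ H`, `(s i * s (i+1)) ^ 3 ∈ H`, `(s i * s j) ^ 2 ∈ H` for `j ≥ i + 2`, and `s i` (`i ≥ 2`) normalises the stabiliser of `q 2` in `G`. Then `G` and the `s i` generate a `t`-transitive group whose pointwise stabiliser of the `q`'s is `H`. -/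
theorem result {α : Type*} [Fintype α] [DecidableEq α] (t : ℕ) (ht : 2 ≤ t) (q : ℕ → α) (hq : ∀ i j : ℕ, 1 ≤ i → i ≤ t → 1 ≤ j → j ≤ t → q i = q j → i = j) (G : Subgroup (Equiv.Perm α)) (hfix : ∀ g ∈ G, ∀ i : ℕ, 3 ≤ i → i ≤ t → g (q i) = q i) (h2 : ∀ a b c d : α, (∀ i, 3 ≤ i → i ≤ t → a ≠ q i ∧ b ≠ q i ∧ c ≠ q i ∧ d ≠ q i) → a ≠ b → c ≠ d → ∃ g ∈ G, g a = c ∧ g b = d) (s : ℕ → Equiv.Perm α) (hs1 : s 1 ∈ G) (hs1q : s 1 (q 1) = q 2 ∧ s 1 (q 2) = q 1) (hsq : ∀ i : ℕ, 2 ≤ i → i + 1 ≤ t → s i (q i) = q (i + 1) ∧ s i (q (i + 1)) = q i ∧ ∀ j : ℕ, 1 ≤ j → j ≤ t → j ≠ i → j ≠ i + 1 → s i (q j) = q j) (H : Subgroup (Equiv.Perm α)) (hH : H = G ⊓ MulAction.stabilizer (Equiv.Perm α) (q 1) ⊓ MulAction.stabilizer (Equiv.Perm α) (q 2)) (hsq2 : ∀ i : ℕ, 1 ≤ i → i + 1 ≤ t → s i ^ 2 ∈ H) (hbraid : ∀ i : ℕ, 1 ≤ i → i + 2 ≤ t → (s i * s (i + 1)) ^ 3 ∈ H) (hcomm : ∀ i j : ℕ, 1 ≤ i → i + 2 ≤ j → j + 1 ≤ t → (s i * s j) ^ 2 ∈ H ∧ (s j * s i) ^ 2 ∈ H) (hnorm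 : ∀ i : ℕ, 2 ≤ i → i + 1 ≤ t → ∀ g ∈ G ⊓ MulAction.stabilizer (Equiv.Perm α) (q 2), s i * g * (s i)⁻¹ ∈ G ⊓ MulAction.stabilizer (Equiv.Perm α) (q 2)) : MulAction.IsMultiplyPretransitive ↥(Subgroup.closure ((G : Set (Equiv.Perm α)) ∪ {x | ∃ i : ℕ, 2 ≤ i ∧ i + 1 ≤ t ∧ x = s i})) α t ∧ Subgroup.closure ((G : Set (Equiv.Perm α)) ∪ {x | ∃ i : ℕ, 2 ≤ i ∧ i + 1 ≤ t ∧ x = s i}) ⊓ fixingSubgroup (Equiv.Perm α) {x | ∃ i : ℕ, 1 ≤ i ∧ i ≤ t ∧ x = q i} = H := by
  classical
  let G1 : Subgroup (Equiv.Perm α) := G ⊓ MulAction.stabilizer (Equiv.Perm α) (q 2)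
  let A : ℕ → Subgroup (Equiv.Perm α) := fun i =>
    Subgroup.closure ((G1 : Set (Equiv.Perm α)) ∪ {x | ∃ j : ℕ, 1 ≤ j ∧ j + 1 ≤ i ∧ x = s j})
  have hG1A : ∀ i, G1 ≤ A i := fun i g hg => Subgroup.subset_closure (Or.inl hg)
  have hHG1 : H ≤ G1 := by rw [hH]; exact fun g hg => ⟨hg.1.1, hg.2⟩
  have hHA : ∀ i, H ≤ A i := fun i => hHG1.trans (hG1A i)
  have hsA : ∀ i j, 1 ≤ j → j + 1 ≤ i → s j ∈ A i := fun i j h1 h2 =>
    Subgroup.subset_closure (Or.inr ⟨j, h1, h2, rfl⟩)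
  have hle : ∀ (i : ℕ) (K : Subgroup (Equiv.Perm α)), G1 ≤ K → (∀ j, 1 ≤ j → j + 1 ≤ i → s j ∈ K) →
      A i ≤ K := by
    intro i K h1 h2
    refine (Subgroup.closure_le _).2 ?_
    rintro x (hx | ⟨j, a, b, rfl⟩)
    · exact h1 hx
    · exact h2 j a b
  have hmono : ∀ i, A i ≤ A (i + 1) := fun i => hle i _ (hG1A _) fun j a b => hsA _ j a (by omega)
  have hA1 : A 1 = G1 := le_antisymm (hle 1 _ le_rfl fun j a b => by omega) (hG1A 1)
  have hsw : ∀ i, 1 ≤ i → i + 1 ≤ t → s i (q i) = q (i + 1) ∧ s i (q (i + 1)) = q i := by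
    intro i h1 h2
    rcases h1.eq_or_lt with rfl | h
    · exact hs1q
    · exact ⟨(hsq i h h2).1, (hsq i h h2).2.1⟩
  have hAfix : ∀ i j, 1 ≤ i → i < j → j ≤ t → ∀ g ∈ A i, g (q j) = q j := by
    intro i j h1 h2 h3
    refine hle i (MulAction.stabilizer (Equiv.Perm α) (q j)) (fun g hg => ?_) fun l a b => ?_
    · by_cases e : j = 2
      · rw [e]; exact hg.2
      · exact hfix g hg.1 j (by omega) h3
    · rcases a.eq_or_lt with rfl | h
      · exact hfix _ hs1 j (by omega) h3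
      · exact (hsq l h (by omega)).2.2 j (by omega) h3 (by omega) (by omega)
  have htr1 : ∀ x, (∀ j, 1 < j → j ≤ t → x ≠ q j) → ∃ g ∈ G1, g (q 1) = x := by
    intro x hx
    obtain ⟨g, hg, h3, h4⟩ := h2 (q 1) (q 2) x (q 2) (fun i a b =>
      ⟨fun e => by have := hq _ _ le_rfl (by omega) (by omega) b e; omega,
       fun e => by have := hq _ _ (by omega) ht (by omega) b e; omega, hx i (by omega) b,
       fun e => by have := hq _ _ (by omega) ht (by omega) b e; omega⟩)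
      (fun e => by have := hq _ _ le_rfl (by omega) (by omega) ht e; omega) (hx 2 (by omega) ht)
    exact ⟨g, ⟨hg, h4⟩, h3⟩
  have hGdc : ∀ g ∈ G, g ∈ G1 ∨ ∃ a ∈ G1, ∃ b ∈ G1, g = a * s 1 * b := by
    intro g hg
    by_cases h : g (q 2) = q 2
    · exact Or.inl ⟨hg, h⟩
    obtain ⟨k, hk, e⟩ := htr1 (g (q 2)) fun j a b e => by
      by_cases hj : j = 2
      · exact h (hj ▸ e)
      · have := g.injective (e.trans (hfix g hg j (by omega) b).symm)
        have := hq _ _ (by omega) ht (by omega) b this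
        omega
    refine Or.inr ⟨k, hk, (s 1)⁻¹ * k⁻¹ * g, ⟨G.mul_mem (G.mul_mem (G.inv_mem hs1) (G.inv_mem hk.1)) hg,
      ?_⟩, by group⟩
    show ((s 1)⁻¹ * k⁻¹ * g) (q 2) = q 2
    rw [Equiv.Perm.mul_apply, Equiv.Perm.mul_apply, ← e, Equiv.Perm.coe_inv, Equiv.Perm.coe_inv,
      Equiv.symm_apply_apply, Equiv.symm_apply_eq, hs1q.2]
  have hA2 : A 2 = G := by
    refine le_antisymm (hle 2 _ inf_le_left fun j a b => by rw [show j = 1 by omega]; exact hs1) ?_
    intro g hg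
    rcases hGdc g hg with h | ⟨a, ha, b, hb, rfl⟩
    · exact hG1A 2 h
    · exact mul_mem (mul_mem (hG1A 2 ha) (hsA 2 1 le_rfl le_rfl)) (hG1A 2 hb)
  have hnrm : ∀ i, 1 ≤ i → i + 2 ≤ t → ∀ g ∈ A i, s (i + 1) * g * (s (i + 1))⁻¹ ∈ A i := by
    intro i h1 h3
    refine hle i ((A i).comap (MulAut.conj (s (i + 1))).toMonoidHom) (fun g hg => ?_) fun j a b => ?_
    · exact hG1A i (hnorm (i + 1) (by omega) h3 g hg)
    · show s (i + 1) * s j * (s (i + 1))⁻¹ ∈ A i
      have : s (i + 1) * s j * (s (i + 1))⁻¹ =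
          (s j)⁻¹ * (s j * s (i + 1)) ^ 2 * (s (i + 1) ^ 2)⁻¹ := by rw [pow_two, pow_two]; group
      rw [this]
      exact mul_mem (mul_mem (inv_mem (hsA i j a b)) (hHA i (hcomm j (i + 1) a (by omega) h3).1))
        (inv_mem (hHA i (hsq2 (i + 1) (by omega) h3)))
  have hdc : ∀ i, 1 ≤ i → i + 1 ≤ t → ∀ g ∈ A (i + 1), g ∈ A i ∨ ∃ a ∈ A i, ∃ b ∈ A i, g = a * s i * b := by
    intro i h1
    induction i, h1 using Nat.le_induction with
    | base => intro _; rw [hA2, hA1]; exact hGdc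
    | succ i h1 ih =>
      intro h3
      have ih := ih (by omega)
      set σ := s (i + 1) with hσ
      have hσ2 : σ ^ 2 ∈ A i := hHA i (hsq2 (i + 1) (by omega) h3)
      have hσ2' := hmono i hσ2
      have hsi : s i ∈ A (i + 1) := hsA _ i h1 le_rfl
      have key : ∀ g ∈ A (i + 1), σ * g * σ ∈ A (i + 1) ∨
          ∃ a ∈ A (i + 1), ∃ b ∈ A (i + 1), σ * g * σ = a * σ * b := by
        intro g hg
        rcases ih g hg with h | ⟨a, ha, b, hb, rfl⟩
        · left
          have : σ * g * σ = σ * g * σ⁻¹ * σ ^ 2 := by rw [pow_two]; group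
          rw [this]
          exact hmono i (mul_mem (hnrm i h1 h3 g h) hσ2)
        · right
          have h4 := hmono i (hnrm i h1 h3 a ha)
          have h5 : σ⁻¹ * b * σ ∈ A (i + 1) := by
            have := hnrm i h1 h3 _ (mul_mem (mul_mem (inv_mem hσ2) hb) hσ2)
            rw [← hσ] at this
            convert hmono i this using 1
            rw [pow_two]; group
          have h6 := hHA (i + 1) (hbraid i h1 h3)
          refine ⟨σ * a * σ⁻¹ * (s i)⁻¹ * (s i * σ) ^ 3 * (σ ^ 2)⁻¹,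
            mul_mem (mul_mem (mul_mem h4 (inv_mem hsi)) h6) (inv_mem hσ2'),
            (s i)⁻¹ * (σ⁻¹ * b * σ), mul_mem (inv_mem hsi) h5, ?_⟩
          rw [pow_succ, pow_two, pow_two]; group
      let K : Subgroup (Equiv.Perm α) :=
        { carrier := {g | g ∈ A (i + 1) ∨ ∃ a ∈ A (i + 1), ∃ b ∈ A (i + 1), g = a * σ * b}
          one_mem' := Or.inl (one_mem _)
          mul_mem' := by
            rintro x y (hx | ⟨a, ha, b, hb, rfl⟩) (hy | ⟨c, hc, d, hd, rfl⟩)
            · exact Or.inl (mul_mem hx hy)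
            · exact Or.inr ⟨x * c, mul_mem hx hc, d, hd, by group⟩
            · exact Or.inr ⟨a, ha, b * y, mul_mem hb hy, by group⟩
            · rcases key _ (mul_mem hb hc) with h | ⟨e, he, f, hf, h⟩
              · left
                convert mul_mem (mul_mem ha h) hd using 1
                group
              · refine Or.inr ⟨a * e, mul_mem ha he, f * d, mul_mem hf hd, ?_⟩
                have : a * σ * b * (c * σ * d) = a * (σ * (b * c) * σ) * d := by group
                rw [this, h]; group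
          inv_mem' := by
            rintro x (hx | ⟨a, ha, b, hb, rfl⟩)
            · exact Or.inl (inv_mem hx)
            · exact Or.inr ⟨b⁻¹, inv_mem hb, (σ ^ 2)⁻¹ * a⁻¹, mul_mem (inv_mem hσ2') (inv_mem ha),
                by rw [pow_two]; group⟩ }
      refine hle (i + 1 + 1) K (fun g hg => Or.inl (hG1A _ hg)) fun j a b => ?_
      by_cases e : j = i + 1
      · exact Or.inr ⟨1, one_mem _, 1, one_mem _, by rw [e]; simp [σ]⟩
      · exact Or.inl (hsA _ j a (by omega))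
  have hstab : ∀ i, 1 ≤ i → i + 1 ≤ t → ∀ g ∈ A (i + 1), g (q (i + 1)) = q (i + 1) → g ∈ A i := by
    intro i h1 h3 g hg e
    rcases hdc i h1 h3 g hg with h | ⟨a, ha, b, hb, rfl⟩
    · exact h
    · exfalso
      rw [Equiv.Perm.mul_apply, Equiv.Perm.mul_apply, hAfix i (i + 1) h1 (by omega) h3 b hb,
        (hsw i h1 h3).2] at e
      have := a.injective (e.trans (hAfix i (i + 1) h1 (by omega) h3 a ha).symm)
      have := hq _ _ h1 (by omega) (by omega) h3 this
      omega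
  have htr : ∀ i, 1 ≤ i → i ≤ t → ∀ x, (∀ j, i < j → j ≤ t → x ≠ q j) → ∃ g ∈ A i, g (q i) = x := by
    intro i h1
    induction i, h1 using Nat.le_induction with
    | base => intro _; rw [hA1]; exact htr1
    | succ i h1 ih =>
      intro h3 x hx
      by_cases e : x = q (i + 1)
      · exact ⟨1, one_mem _, e.symm⟩
      obtain ⟨g, hg, h4⟩ := ih (by omega) x fun j a b => by
        by_cases e' : j = i + 1
        · rw [e']; exact e
        · exact hx j (by omega) b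
      exact ⟨g * s i, mul_mem (hmono i hg) (hsA _ i h1 le_rfl), by
        rw [Equiv.Perm.mul_apply, (hsw i h1 h3).2, h4]⟩
  have hmt : ∀ i, 1 ≤ i → i ≤ t → ∀ x : ℕ → α, (∀ j l, 1 ≤ j → j ≤ i → 1 ≤ l → l ≤ i → x j = x l → j = l) →
      (∀ l, 1 ≤ l → l ≤ i → ∀ j, i < j → j ≤ t → x l ≠ q j) →
      ∃ g ∈ A i, ∀ l, 1 ≤ l → l ≤ i → g (q l) = x l := by
    intro i h1
    induction i, h1 using Nat.le_induction with
    | base =>
      intro h3 x _ hx
      obtain ⟨g, hg, e⟩ := htr 1 le_rfl h3 (x 1) (hx 1 le_rfl le_rfl)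
      exact ⟨g, hg, fun l a b => by rw [show l = 1 by omega]; exact e⟩
    | succ i h1 ih =>
      intro h3 x hinj hx
      obtain ⟨g, hg, e⟩ := htr (i + 1) (by omega) h3 (x (i + 1)) (hx _ (by omega) le_rfl)
      obtain ⟨k, hk, e'⟩ := ih (by omega) (fun l => g.symm (x l))
        (fun j l a b c d h => hinj j l a (by omega) c (by omega) (g.symm.injective h))
        (fun l a b j c d h => by
          rw [Equiv.symm_apply_eq] at h
          by_cases e2 : j = i + 1
          · rw [e2, e] at h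
            have := hinj _ _ a (by omega) (by omega) le_rfl h
            omega
          · rw [hAfix (i + 1) j (by omega) (by omega) d g hg] at h
            exact hx l a (by omega) j (by omega) d h)
      refine ⟨g * k, mul_mem hg (hmono i hk), fun l a b => ?_⟩
      rw [Equiv.Perm.mul_apply]
      by_cases e2 : l = i + 1
      · rw [e2, hAfix i (i + 1) h1 (by omega) h3 k hk, e]
      · rw [e' l a (by omega), Equiv.apply_symm_apply]
  have hmono' : ∀ i j, i ≤ j → A i ≤ A j := fun i j h => hle i _ (hG1A _) fun l a b => hsA _ l a (by omega)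
  have hcl : Subgroup.closure ((G : Set (Equiv.Perm α)) ∪ {x | ∃ i : ℕ, 2 ≤ i ∧ i + 1 ≤ t ∧ x = s i}) = A t := by
    apply le_antisymm
    · refine (Subgroup.closure_le _).2 ?_
      rintro x (hx | ⟨j, a, b, rfl⟩)
      · exact hmono' 2 t ht (hA2 ▸ hx)
      · exact hsA t j (by omega) b
    · refine hle t _ (fun g hg => Subgroup.subset_closure (Or.inl hg.1)) fun j a b => ?_
      rcases a.eq_or_lt with rfl | h
      · exact Subgroup.subset_closure (Or.inl hs1)
      · exact Subgroup.subset_closure (Or.inr ⟨j, h, b, rfl⟩)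
  rw [hcl]
  constructor
  · rw [MulAction.isMultiplyPretransitive_iff]
    have : ∀ x : Fin t ↪ α, ∃ g ∈ A t, ∀ l : Fin t, g (q (l + 1)) = x l := by
      intro x
      obtain ⟨g, hg, e⟩ := hmt t (by omega) le_rfl
        (fun l => if h : l - 1 < t then x ⟨l - 1, h⟩ else q 0) (fun j l a b c d h => by
          simp only [dif_pos (show j - 1 < t by omega), dif_pos (show l - 1 < t by omega)] at h
          have := congrArg Fin.val (x.injective h)
          simp only at this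
          omega) (fun l a b j c d => by omega)
      refine ⟨g, hg, fun l => ?_⟩
      rw [e _ (by omega) (by omega)]
      simp
    intro x y
    obtain ⟨g, hg, e⟩ := this x
    obtain ⟨k, hk, e'⟩ := this y
    refine ⟨⟨k * g⁻¹, mul_mem hk (inv_mem hg)⟩, ?_⟩
    ext l
    show (k * g⁻¹) (x l) = y l
    rw [← e, ← e']; simp
  · apply le_antisymm
    · rintro g ⟨hg, hf⟩
      have hf : ∀ i, 1 ≤ i → i ≤ t → g (q i) = q i := fun i a b =>
        (mem_fixingSubgroup_iff _).1 hf _ ⟨i, a, b, rfl⟩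
      have : ∀ i, 1 ≤ i → i ≤ t → g ∈ A i → g ∈ A 1 := by
        intro i h1
        induction i, h1 using Nat.le_induction with
        | base => exact fun _ h => h
        | succ i h1 ih => exact fun h3 h => ih (by omega) (hstab i h1 h3 g h (hf _ (by omega) h3))
      have := this t (by omega) le_rfl hg
      rw [hA1] at this
      rw [hH]
      exact ⟨⟨this.1, hf 1 le_rfl (by omega)⟩, this.2⟩
    · refine le_inf (hHA t) fun g hg => (mem_fixingSubgroup_iff _).2 ?_
      rintro _ ⟨i, a, b, rfl⟩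
      rcases a.eq_or_lt with rfl | h
      · rw [hH] at hg; exact hg.1.2
      · exact hAfix 1 i le_rfl h b g (hHA 1 hg)

end Cfsg.Agent.S0709
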