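import Mathlib
import Cfsg.Statements.S0712
import Cfsg.Agent.H18.Prim

set_option autoImplicit false
open Cfsg

namespace Cfsg.Agent.S0712

/-- Jordan: a primitive group in which the pointwise stabiliser of a set `s` is doubly transitive on the complement of `s` (which has at least 2 points) is `(|s| + 2)`-transitive. -/
theorem result {α : Type*} [Fintype α] [DecidableEq α] (G : Subgroup (Equiv.Perm α)) (hG : MulAction.IsPreprimitive G α) (s : Set α) {m : ℕ} (hsm : s.ncard = m) (hm : m + 2 ≤ Fintype.card α) (h2 : MulAction.IsMultiplyPretransitive (fixingSubgroup G s) (SubMulAction.ofFixingSubgroup G s) 2) : MulAction.IsMultiplyPretransitive G α (m + 2) := by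
  have hm1 : MulAction.IsMultiplyPretransitive G α (m + 1) := by
    rcases m with _ | n
    · exact MulAction.is_one_pretransitive_iff.2 hG.toIsPretransitive
    · have := hG.isMultiplyPreprimitive hsm (by rw [Nat.card_eq_fintype_card]; omega)
        (MulAction.isPreprimitive_of_is_two_pretransitive h2)
      exact this.isMultiplyPretransitive
  have hfin : s.Finite := Set.toFinite s
  have hne : s ≠ Set.univ := by
    rintro rfl
    rw [Set.ncard_univ, Nat.card_eq_fintype_card] at hsm
    omega
  obtain ⟨a, ha⟩ := (Set.ne_univ_iff_exists_notMem s).1 hne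
  refine H18.mt_succ_of_exists hm1 (insert a hfin.toFinset) ?_ ?_
  · rw [Finset.card_insert_of_notMem (by simpa using ha), ← Set.ncard_eq_toFinset_card s hfin, hsm]
  · intro b c hb hc
    simp only [Finset.mem_insert, Set.Finite.mem_toFinset, not_or] at hb hc
    obtain ⟨g, hg1, hg2⟩ := H18.mt_two_iff.1 h2 ⟨a, ha⟩ ⟨b, hb.2⟩ ⟨a, ha⟩ ⟨c, hc.2⟩
      (fun h => hb.1 (congrArg Subtype.val h).symm) (fun h => hc.1 (congrArg Subtype.val h).symm)
    refine ⟨g, fun x hx => ?_, congrArg Subtype.val hg2⟩
    simp only [Finset.mem_insert, Set.Finite.mem_toFinset] at hx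
    rcases hx with rfl | hx
    · exact congrArg Subtype.val hg1
    · exact g.2 ⟨x, hx⟩

end Cfsg.Agent.S0712
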