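import Mathlib
import Cfsg.Statements.S0714
import Cfsg.Agent.H18.PermMod

set_option autoImplicit false
open scoped Pointwise
open Cfsg

namespace Cfsg.Agent.S0714

/-- Over any field, the permutation module of the alternating group of degree at least 5 has exactly four invariant subspaces: zero, the constant functions, the functions with coordinate sum zero, and everything. -/
theorem result {α : Type*} [Fintype α] [DecidableEq α] (hα : 5 ≤ Fintype.card α) {K : Type*} [Field K] (W : Subrepresentation (Cfsg.permRep K (alternatingGroup α) α)) : W.toSubmodule = ⊥ ∨ W = Cfsg.permConstants K (alternatingGroup α) α ∨ W = Cfsg.permSumZero K (alternatingGroup α) α ∨ W.toSubmodule = ⊤ := by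
  by_cases hc : ∀ v ∈ W.toSubmodule, ∀ a b, v a = v b
  · by_cases h0 : W.toSubmodule = ⊥
    · exact Or.inl h0
    right; left
    obtain ⟨w, hw, hw0⟩ := (Submodule.ne_bot_iff _).1 h0
    obtain ⟨a, ha⟩ : ∃ a, w a ≠ 0 := Function.ne_iff.1 hw0
    ext u
    rw [H18.mem_permConstants]
    constructor
    · exact fun hu => ⟨u a, fun x => hc u hu x a⟩
    · rintro ⟨c, hc'⟩
      have : u = (c / w a) • w := funext fun x => by
        rw [hc', Pi.smul_apply, hc w hw x a, smul_eq_mul, div_mul_cancel₀ _ ha]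
      rw [this]
      exact W.toSubmodule.smul_mem _ hw
  push Not at hc
  obtain ⟨v, hv, a, b, hab⟩ := hc
  have hab' : a ≠ b := by rintro rfl; exact hab rfl
  have hex : ∀ s : Finset α, s.card < 5 → ∃ x, x ∉ s := fun s hs => by
    obtain ⟨c, -, hc⟩ := Finset.exists_mem_notMem_of_card_lt_card (s := s)
      (t := Finset.univ) (by rw [Finset.card_univ]; omega)
    exact ⟨c, hc⟩
  obtain ⟨c, hc⟩ := hex {a, b} (by have := Finset.card_le_two (a := a) (b := b); omega)
  obtain ⟨d, hd⟩ := hex {a, b, c} (by have := Finset.card_le_three (a := a) (b := b) (c := c); omega)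
  obtain ⟨e, he⟩ := hex {a, b, c, d} (by have := Finset.card_le_four (a := a) (b := b) (c := c) (d := d); omega)
  simp only [Finset.mem_insert, Finset.mem_singleton, not_or] at hc hd he
  have hmem : ∀ x y z : α, x ≠ y → x ≠ z → Equiv.swap x y * Equiv.swap x z ∈ alternatingGroup α := by
    intro x y z h1 h2
    simp [Equiv.Perm.mem_alternatingGroup, h1, h2]
  let σ : alternatingGroup α := ⟨_, hmem a c b (Ne.symm hc.1) hab'⟩
  let τ : alternatingGroup α := ⟨_, hmem a e d (Ne.symm he.1) (Ne.symm hd.1)⟩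
  let w := v - permRep K _ α σ⁻¹ v
  have hw : w ∈ W.toSubmodule := W.toSubmodule.sub_mem hv (W.apply_mem_toSubmodule _ hv)
  have hw' : ∀ x, w x = v x - v (Equiv.swap a c (Equiv.swap a b x)) := fun x => rfl
  let u := w - permRep K _ α τ⁻¹ w
  have hu : u ∈ W.toSubmodule := W.toSubmodule.sub_mem hw (W.apply_mem_toSubmodule _ hw)
  have hu' : ∀ x, u x = w x - w (Equiv.swap a e (Equiv.swap a d x)) := fun x => rfl
  have hwz : ∀ x, x ≠ a → x ≠ b → x ≠ c → w x = 0 := fun x h1 h2 h3 => by
    rw [hw', Equiv.swap_apply_of_ne_of_ne h1 h2, Equiv.swap_apply_of_ne_of_ne h1 h3, sub_self]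
  have hwa : w a = v a - v b := by
    rw [hw', Equiv.swap_apply_left, Equiv.swap_apply_of_ne_of_ne hab'.symm (Ne.symm hc.2)]
  have hueq : u = (v a - v b) • (Pi.single a 1 - Pi.single e 1 : α → K) := by
    ext x
    rw [hu', Pi.smul_apply, Pi.sub_apply, Pi.single_apply, Pi.single_apply]
    by_cases h1 : x = a
    · subst h1
      rw [Equiv.swap_apply_left, Equiv.swap_apply_of_ne_of_ne hd.1 (Ne.symm he.2.2.2), hwa,
        hwz d hd.1 hd.2.1 hd.2.2, if_pos rfl, if_neg (Ne.symm he.1)]
      simp
    by_cases h2 : x = e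
    · subst h2
      rw [Equiv.swap_apply_of_ne_of_ne h1 he.2.2.2, Equiv.swap_apply_right, hwa,
        hwz x he.1 he.2.1 he.2.2.1, if_neg h1, if_pos rfl]
      simp
    by_cases h3 : x = d
    · subst h3
      rw [Equiv.swap_apply_right, Equiv.swap_apply_left, hwz x hd.1 hd.2.1 hd.2.2,
        hwz e he.1 he.2.1 he.2.2.1, if_neg h1, if_neg h2]
      simp
    rw [Equiv.swap_apply_of_ne_of_ne h1 h3, Equiv.swap_apply_of_ne_of_ne h1 h2, if_neg h1, if_neg h2]
    simp
  have h1 : (Pi.single a 1 - Pi.single e 1 : α → K) ∈ W.toSubmodule := by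
    rw [hueq] at hu
    exact (W.toSubmodule.smul_mem_iff (sub_ne_zero.2 hab)).1 hu
  have h2t : MulAction.IsMultiplyPretransitive (alternatingGroup α) α 2 :=
    H18.mt_le (alternatingGroup.isMultiplyPretransitive α) (by rw [Nat.card_eq_fintype_card]; omega)
      (by rw [Nat.card_eq_fintype_card]; omega)
  have h2 : ∀ x, (Pi.single x 1 - Pi.single a 1 : α → K) ∈ W.toSubmodule := by
    intro x
    by_cases hx : x = a
    · simp [hx]
    obtain ⟨g, h3, h4⟩ := H18.mt_two_iff.1 h2t a e x a (Ne.symm he.1) hx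
    have := W.apply_mem_toSubmodule g h1
    rwa [map_sub, H18.permRep_single, H18.permRep_single, h3, h4] at this
  have h3 : ∀ f : α → K, f - (∑ x, f x) • (Pi.single a 1 : α → K) ∈ W.toSubmodule := by
    intro f
    have : f - (∑ x, f x) • (Pi.single a 1 : α → K) = ∑ x, f x • (Pi.single x 1 - Pi.single a 1 : α → K) := by
      simp only [smul_sub, Finset.sum_sub_distrib, Finset.sum_smul]
      congr 1
      ext y
      simp [Finset.sum_apply, Pi.single_apply]
    rw [this]
    exact Submodule.sum_mem _ fun x _ => W.toSubmodule.smul_mem _ (h2 x)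
  right; right
  by_cases h4 : ∀ f ∈ W.toSubmodule, ∑ x, f x = 0
  · left
    ext f
    rw [H18.mem_permSumZero]
    refine ⟨h4 f, fun hf => ?_⟩
    simpa [hf] using h3 f
  · right
    push Not at h4
    obtain ⟨f, hf, hf0⟩ := h4
    have h5 : (Pi.single a 1 : α → K) ∈ W.toSubmodule := by
      have := W.toSubmodule.sub_mem hf (h3 f)
      rw [sub_sub_cancel] at this
      exact (W.toSubmodule.smul_mem_iff hf0).1 this
    rw [eq_top_iff]
    intro g _
    have := W.toSubmodule.add_mem (h3 g) (W.toSubmodule.smul_mem (∑ x, g x) h5)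
    rwa [sub_add_cancel] at this

end Cfsg.Agent.S0714
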