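import Cfsg.Statements.S0716
import Mathlib
import Cfsg.Agent.H27.CentRing
-- import your own Cfsg.Agent.* helpers here

set_option autoImplicit false
open Cfsg

namespace Cfsg.Agent.S0716

open scoped Pointwise commutatorElement

/-- (a) If all non-principal irreducible constituents of the permutation character of a transitive group have the same degree `f`, the character is multiplicity-free and all non-trivial subdegrees equal `f`. (b) A transitive group of rank at most 5 has multiplicity-free permutation character. -/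
theorem result {G : Type*} [Group G] [Fintype G] {Ω : Type*} [Fintype Ω] [MulAction G Ω] [MulAction.IsPretransitive G Ω] (a : Ω) : ((f : ℕ) → (∀ χ : G → ℂ, Cfsg.IsIrrCharacter G χ → χ ≠ (fun _ => 1) → Cfsg.classInner (fun g : G => (Nat.card (MulAction.fixedBy Ω g) : ℂ)) χ ≠ 0 → χ 1 = f) → (∀ χ : G → ℂ, Cfsg.IsIrrCharacter G χ → Cfsg.classInner (fun g : G => (Nat.card (MulAction.fixedBy Ω g) : ℂ)) χ = 0 ∨ Cfsg.classInner (fun g : G => (Nat.card (MulAction.fixedBy Ω g) : ℂ)) χ = 1) ∧ ∀ b : Ω, b ≠ a → Nat.card (MulAction.orbit (MulAction.stabilizer G a) b) = f) ∧ (Nat.card (MulAction.orbitRel.Quotient (MulAction.stabilizer G a) Ω) ≤ 5 → ∀ χ : G → ℂ, Cfsg.IsIrrCharacter G χ → Cfsg.classInner (fun g : G => (Nat.card (MulAction.fixedBy Ω g) : ℂ)) χ = 0 ∨ Cfsg.classInner (fun g : G => (Nat.card (MulAction.fixedBy Ω g) : ℂ)) χ = 1) := by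
  classical
  refine ⟨fun f hf => H27.multFree_of_equal_degree a hf, fun h5 χ hχ => ?_⟩
  obtain ⟨m, hm, h1, h2, -⟩ := H27.exists_mult (G := G) a
  by_contra hc
  have hc' := hc
  rw [hm ⟨χ, hχ⟩] at hc'
  push Not at hc'
  have h3 : m ⟨χ, hχ⟩ ≠ 0 := by exact_mod_cast hc'.1
  have h4 : m ⟨χ, hχ⟩ ≠ 1 := by exact_mod_cast hc'.2
  have h6 : (⟨χ, hχ⟩ : IrrCharacter G) ∈ Finset.univ.erase ⟨1, H05.isIrrCharacter_one⟩ :=
    Finset.mem_erase.2 ⟨fun h => h4 (h ▸ h1), Finset.mem_univ _⟩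
  rw [← Finset.add_sum_erase _ _ h6] at h2
  have h7 : 2 ^ 2 ≤ m ⟨χ, hχ⟩ ^ 2 := Nat.pow_le_pow_left (by omega) 2
  have h8 := Finset.sum_eq_zero_iff.1 (Nat.eq_zero_of_le_zero (Nat.le_of_add_le_add_left
    ((Nat.add_le_add_right h7 _).trans (Nat.le_of_add_le_add_left (h2.symm.le.trans h5)))))
  refine hc ((H27.multFree_of_equal_degree a (f := charDegree χ) fun ψ hψ h9 h10 => ?_).1 χ hχ)
  by_cases h : ψ = χ
  · rw [h, H05.Cfsg.IsCharacter.charDegree_eq (H05.Cfsg.IsIrrCharacter.isCharacter hχ)]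
  exfalso
  apply h10
  have := h8 ⟨ψ, hψ⟩ (Finset.mem_erase.2 ⟨fun h' => h (congrArg Subtype.val h'),
    Finset.mem_erase.2 ⟨fun h' => h9 (congrArg Subtype.val h'), Finset.mem_univ _⟩⟩)
  rw [hm ⟨ψ, hψ⟩, pow_eq_zero_iff two_ne_zero |>.1 this, Nat.cast_zero]

end Cfsg.Agent.S0716
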