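import Cfsg.Statements.S0717
import Mathlib
import Cfsg.Agent.H27.CentRing
-- import your own Cfsg.Agent.* helpers here

set_option autoImplicit false
open Cfsg

namespace Cfsg.Agent.S0717

open scoped Pointwise commutatorElement

open H05 H27
open scoped ComplexConjugate

theorem sum_inv_mul {G : Type*} [Group G] [Fintype G] {π χ : G → ℂ} (hπ : IsCharacter G π)
    (hχ : IsIrrCharacter G χ) (x : G) :
    ∑ g, χ g⁻¹ * π (g * x) = Nat.card G * classInner π χ * χ x / χ 1 := by
  classical
  simp only [hπ.isClassFunction.apply_eq_sum (_ * x), Finset.mul_sum]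
  rw [Finset.sum_comm, Finset.sum_eq_single ⟨χ, hχ⟩]
  · simp only [mul_left_comm (χ _) (classInner π χ), ← Finset.mul_sum]
    rw [hχ.sum_inv_mul_apply_mul hχ.isGeneralizedCharacter, hχ.classInner_self]
    ring
  · intro ψ _ h
    simp only [mul_left_comm (χ _) (classInner π ψ), ← Finset.mul_sum]
    rw [ψ.2.sum_inv_mul_apply_mul hχ.isGeneralizedCharacter,
      ψ.2.classInner_of_ne hχ (fun h' => h (Subtype.ext h'))]
    simp
  · simp

theorem card_fixedBy_eq {G Ω : Type*} [Group G] [Fintype Ω] [DecidableEq Ω] [MulAction G Ω] (g : G) :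
    (Nat.card (MulAction.fixedBy Ω g) : ℂ) = ∑ ω : Ω, if g • ω = ω then 1 else 0 := by
  classical
  rw [Nat.card_eq_fintype_card, Fintype.card_subtype, Finset.card_filter]
  push_cast
  exact Finset.sum_congr rfl fun ω _ => if_congr Iff.rfl rfl rfl

/-- All suborbits of a transitive group are self-paired (every pair of points is interchanged by some group element) if and only if the permutation character is multiplicity-free and each of its irreducible constituents is real-valued. -/
theorem result {G : Type*} [Group G] [Fintype G] {Ω : Type*} [Fintype Ω] [MulAction G Ω] [MulAction.IsPretransitive G Ω] : (∀ a b : Ω, ∃ g : G, g • a = b ∧ g • b = a) ↔ ∀ χ : G → ℂ, Cfsg.IsIrrCharacter G χ → Cfsg.classInner (fun g : G => (Nat.card (MulAction.fixedBy Ω g) : ℂ)) χ ≠ 0 → Cfsg.classInner (fun g : G => (Nat.card (MulAction.fixedBy Ω g) : ℂ)) χ = 1 ∧ ∀ g : G, (starRingEnd ℂ) (χ g) = χ g := by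
  classical
  have hπ := isCharacter_perm (G := G) Ω
  constructor
  · intro h χ hχ h0
    have sym : ∀ S : Module.End ℂ (Ω → ℂ), (∀ g, S * permRep ℂ G Ω g = permRep ℂ G Ω g * S) →
        (LinearMap.toMatrix' S).transpose = LinearMap.toMatrix' S := by
      intro S hS
      ext x y
      obtain ⟨g, h1, h2⟩ := h x y
      have h3 := congrFun (congrArg (fun T : Module.End ℂ (Ω → ℂ) => T (Pi.single y 1)) (hS g)) y
      have h4 : permRep ℂ G Ω g (Pi.single y 1) = Pi.single x 1 := by
        funext z
        show (Pi.single y (1 : ℂ) : Ω → ℂ) (g⁻¹ • z) = _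
        simp only [Pi.single_apply, inv_smul_eq_iff, h2]
      change S (permRep ℂ G Ω g (Pi.single y 1)) y = S (Pi.single y 1) (g⁻¹ • y) at h3
      rw [h4, show g⁻¹ • y = x by rw [← h1, inv_smul_smul]] at h3
      simpa [LinearMap.toMatrix'_apply] using h3
    refine ⟨?_, ?_⟩
    · rw [← character_permRep] at h0 ⊢
      refine (multFree_of_comm _ (fun S T hS hT => ?_) hχ).resolve_left h0
      apply LinearMap.toMatrix'.injective
      rw [← sym (S * T) fun g => by rw [mul_assoc, hT, ← mul_assoc, hS, mul_assoc],
        LinearMap.toMatrix'_mul, LinearMap.toMatrix'_mul, Matrix.transpose_mul, sym S hS, sym T hT]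
    · have key : ∀ x, ∑ g, χ g * (Nat.card (MulAction.fixedBy Ω (g * x)) : ℂ) =
          ∑ g, χ g⁻¹ * (Nat.card (MulAction.fixedBy Ω (g * x)) : ℂ) := by
        intro x
        simp only [card_fixedBy_eq, Finset.mul_sum]
        rw [Finset.sum_comm, Finset.sum_comm (f := fun g (ω : Ω) => χ g⁻¹ * _)]
        refine Finset.sum_congr rfl fun ω _ => ?_
        obtain ⟨k, h1, h2⟩ := h ω (x • ω)
        refine Fintype.sum_equiv ((MulAut.conj k).toEquiv.trans (Equiv.inv G)) _ _ fun g => ?_
        show _ = χ (k * g * k⁻¹)⁻¹⁻¹ * if ((k * g * k⁻¹)⁻¹ * x) • ω = ω then 1 else 0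
        rw [inv_inv, hχ.isClassFunction g k]
        congr 1
        refine if_congr ?_ rfl rfl
        rw [mul_smul, mul_smul, inv_smul_eq_iff, mul_smul, mul_smul,
          show k⁻¹ • ω = x • ω by rw [inv_smul_eq_iff, h2]]
        conv_rhs => lhs; rw [← h1]
        rw [smul_left_cancel_iff, eq_comm]
      have h1 : ∀ x, classInner (fun g : G => (Nat.card (MulAction.fixedBy Ω g) : ℂ))
          (fun g => conj (χ g)) * conj (χ x) =
          classInner (fun g : G => (Nat.card (MulAction.fixedBy Ω g) : ℂ)) χ * χ x := by
        intro x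
        have h2 := sum_inv_mul hπ hχ x
        have h3 := sum_inv_mul hπ hχ.conj x
        have h4 : conj (χ 1) = χ 1 := by rw [← hχ.isCharacter.apply_inv, inv_one]
        simp only [hχ.isCharacter.apply_inv, Complex.conj_conj, h4] at h3
        rw [key, h2, div_left_inj' hχ.apply_one_ne_zero, mul_assoc, mul_assoc,
          mul_right_inj' card_ne_zero_complex] at h3
        exact h3.symm
      have h2 := h1 1
      rw [← hχ.isCharacter.apply_inv, inv_one, mul_left_inj' hχ.apply_one_ne_zero] at h2
      intro g
      have h3 := h1 g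
      rwa [h2, mul_right_inj' h0] at h3
  · intro h a b
    rw [← character_permRep] at h
    let M : Matrix Ω Ω ℤ := fun x y => orbMat G a b x y - orbMat G a b y x
    have hM : ∀ (g : G) x y, M (g • x) (g • y) = M x y := fun g x y => by
      simp only [M, orbMat_smul]
    have hD := intOp_comm hM
    have h0 : intOp M = 0 := by
      apply eq_zero_of_irr _ _ hD
      intro U hU u hu
      have hχ := isIrrCharacter_character U.toRepresentation
      set χ := U.toRepresentation.character with hχd
      obtain ⟨h1, h2⟩ := h χ hχ (classInner_subrep_ne_zero U hχ.isCharacter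
        (by rw [hχ.classInner_self]; exact one_ne_zero))
      obtain ⟨c, hc⟩ := exists_scalar_of_mult_one _ hχ h1 _ hD
      have hcl : IsClassFunction G fun g => χ g⁻¹ := hχ.isClassFunction.inv_comp
      let E : Module.End ℂ (Ω → ℂ) := ∑ g, χ g⁻¹ • permRep ℂ G Ω g
      have hE : ∀ g, E * permRep ℂ G Ω g = permRep ℂ G Ω g * E := sum_smul_rep_comm _ hcl
      have h3 : intOp M * E - c • E = 0 := by
        apply eq_zero_of_irr (permRep ℂ G Ω)
        · intro g
          rw [sub_mul, mul_sub, mul_assoc, hE, ← mul_assoc, hD, mul_assoc, smul_mul_assoc, hE,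
            mul_smul_comm]
        intro W hW w hw
        have h4 := congrArg (fun T : Module.End ℂ W.toSubmodule => (T ⟨w, hw⟩ : Ω → ℂ))
          (sum_smul_rep_eq W.toRepresentation hcl)
        have h5 : E w = ((∑ g, χ g⁻¹ * W.toRepresentation.character g) /
            W.toRepresentation.character 1) • w := by
          refine Eq.trans ?_ h4
          simp only [E, LinearMap.sum_apply, LinearMap.smul_apply, Submodule.coe_sum, Submodule.coe_smul]
          rfl
        rw [LinearMap.sub_apply, Module.End.mul_apply, LinearMap.smul_apply, h5]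
        by_cases h6 : W.toRepresentation.character = χ
        · rw [map_smul, hc W h6 w hw, smul_comm, sub_self]
        · have h7 := sum_inv_mul (isCharacter_character W.toRepresentation) hχ 1
          rw [(isIrrCharacter_character W.toRepresentation).classInner_of_ne hχ h6] at h7
          simp only [mul_one, mul_zero, zero_mul, zero_div] at h7
          simp [h7]
      have h4 := congrArg (LinearMap.trace ℂ _) (sub_eq_zero.1 h3)
      have h5 : LinearMap.trace ℂ _ E = Nat.card G := by
        have h7 := sum_inv_mul (isCharacter_character (permRep ℂ G Ω)) hχ 1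
        rw [h1, mul_one, mul_div_assoc, div_self hχ.apply_one_ne_zero, mul_one] at h7
        simp only [mul_one] at h7
        simp only [E, map_sum, map_smul, smul_eq_mul]
        exact h7
      have h6 : LinearMap.trace ℂ _ (intOp M * E) = 0 := by
        simp only [E]
        rw [Finset.mul_sum]
        simp only [mul_smul_comm, map_sum, map_smul, smul_eq_mul, trace_intOp_mul]
        simp only [M, Int.cast_sub, Finset.sum_sub_distrib, mul_sub]
        rw [sub_eq_zero]
        refine Fintype.sum_equiv (Equiv.inv G) _ _ fun g => ?_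
        show _ = χ g⁻¹⁻¹ * ∑ x, (orbMat G a b (g⁻¹ • x) x : ℂ)
        rw [inv_inv, hχ.isCharacter.apply_inv, h2]
        congr 1
        refine Fintype.sum_equiv (MulAction.toPerm g) _ _ fun x => ?_
        show _ = (orbMat G a b (g⁻¹ • g • x) (g • x) : ℂ)
        rw [inv_smul_smul]
      rw [h6, map_smul, h5, smul_eq_mul, eq_comm, mul_eq_zero] at h4
      rw [hc U rfl u hu, h4.resolve_right card_ne_zero_complex, zero_smul]
    have h1 := congrFun (congrArg (fun T : Module.End ℂ (Ω → ℂ) => T (Pi.single b 1)) h0) a
    simp only [intOp_apply, Pi.single_apply, mul_ite, mul_one, mul_zero, Finset.sum_ite_eq',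
      Finset.mem_univ, if_true, LinearMap.zero_apply, Pi.zero_apply, Int.cast_eq_zero] at h1
    by_contra h2
    have h3 : orbMat G a b a b = 1 := if_pos ⟨1, one_smul _ _, one_smul _ _⟩
    have h4 : orbMat G a b b a = 0 := if_neg h2
    simp [M, h3, h4] at h1

end Cfsg.Agent.S0717
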