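import Cfsg.Statements.S0719
import Mathlib
import Cfsg.Agent.H27.W2p
-- import your own Cfsg.Agent.* helpers here

set_option autoImplicit false
open Cfsg

namespace Cfsg.Agent.S0719

open scoped Pointwise commutatorElement

open H05 H27 MulAction

theorem arith {m k l s : ℤ} (hm : 2 ≤ m) (hk : 0 < k) (hl : 0 < l) (hk1 : k ≠ 1) (hl1 : l ≠ 1)
    (h1 : k + l + 1 = 2 * m) (h2 : s ^ 2 * l + (s + 1) ^ 2 * k = k * l) (h3 : m - 1 ∣ k + s) :
    m = 2 * s ^ 2 + 2 * s + 1 ∧ k = s * (2 * s + 1) ∧ l = (s + 1) * (2 * s + 1) ∧ s ≠ 0 ∧ s ≠ -1 := by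
  have h4 : s ^ 2 ≤ k := by nlinarith [mul_nonneg (sq_nonneg (s + 1)) hk.le]
  have h5 : (s + 1) ^ 2 ≤ l := by nlinarith [mul_nonneg (sq_nonneg s) hl.le]
  have h6 : 0 < k + s := by
    by_contra h
    have : s = -1 ∨ s = 0 := by
      have : s ≤ 0 := by nlinarith
      have : -1 ≤ s := by nlinarith
      omega
    omega
  have h7 : 0 < l - s - 1 := by
    by_contra h
    have : s = -1 ∨ s = 0 := by
      have : s ≤ 0 := by nlinarith
      have : -1 ≤ s := by nlinarith
      omega
    omega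
  obtain ⟨c, hc⟩ := h3
  obtain rfl : c = 1 := by
    have : 0 < c := by nlinarith
    have : c < 2 := by nlinarith
    omega
  obtain rfl : l = k + 2 * s + 1 := by omega
  have h8 : k * (k - s * (2 * s + 1)) + s * (k - s * (2 * s + 1)) = 0 := by linear_combination -h2
  have h9 : k = s * (2 * s + 1) := by
    have : (k + s) * (k - s * (2 * s + 1)) = 0 := by linear_combination h8
    rcases mul_eq_zero.1 this with h | h <;> omega
  refine ⟨by linear_combination h9 - hc, h9, by rw [h9]; ring, ?_, ?_⟩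
  · rintro rfl; omega
  · rintro rfl; omega

/-- Groups of Wielandt type: if a primitive group of degree `2m` has rank 3 and permutation character `1 + χ₁ + χ₂` with irreducible `χ₁, χ₂` of degrees `m - 1` and `m`, then `m = 2a² + 2a + 1` for some positive integer `a` and the two non-trivial subdegrees are `a(2a+1)` and `(a+1)(2a+1)`. -/
theorem result {G : Type*} [Group G] [Fintype G] {Ω : Type*} [Fintype Ω] [MulAction G Ω] (hprim : MulAction.IsPreprimitive G Ω) {m : ℕ} (hm : Fintype.card Ω = 2 * m) (a₀ : Ω) (hrank : Nat.card (MulAction.orbitRel.Quotient (MulAction.stabilizer G a₀) Ω) = 3) (χ₁ χ₂ : G → ℂ) (h₁ : Cfsg.IsIrrCharacter G χ₁) (h₂ : Cfsg.IsIrrCharacter G χ₂) (hπ : (fun g : G => (Nat.card (MulAction.fixedBy Ω g) : ℂ)) = fun g => 1 + χ₁ g + χ₂ g) (hd₁ : χ₁ 1 = (m : ℂ) - 1) (hd₂ : χ₂ 1 = m) : ∃ a : ℕ, 0 < a ∧ m = 2 * a ^ 2 + 2 * a + 1 ∧ ∀ b : Ω, b ≠ a₀ → Nat.card (MulAction.orbit (MulAction.stabilizer G a₀) b) = a * (2 * a + 1) ∨ Nat.card (MulAction.orbit (MulAction.stabilizer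 G a₀) b) = (a + 1) * (2 * a + 1) := by
  classical
  have hπc := isCharacter_perm (G := G) Ω
  haveI : Nonempty Ω := ⟨a₀⟩
  have hin : ∀ ψ, classInner (fun g : G => (Nat.card (fixedBy Ω g) : ℂ)) ψ =
      classInner 1 ψ + classInner χ₁ ψ + classInner χ₂ ψ := fun ψ => by
    rw [hπ, ← classInner_add_left, ← classInner_add_left]; rfl
  have h12 : χ₁ ≠ χ₂ := fun h => by
    rw [h, hd₂] at hd₁
    exact one_ne_zero (by linear_combination hd₁)
  have h0 := hin 1
  rw [classInner_perm_one_of_transitive, isIrrCharacter_one.classInner_self, h₁.classInner_eq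
    isIrrCharacter_one, h₂.classInner_eq isIrrCharacter_one] at h0
  have h11 : χ₁ ≠ 1 := fun h => by
    rw [if_pos h, if_neg (h ▸ h12.symm)] at h0; simp at h0
  have h21 : χ₂ ≠ 1 := fun h => by
    rw [if_pos h, if_neg h11] at h0; simp at h0
  have hi1 : classInner (fun g : G => (Nat.card (fixedBy Ω g) : ℂ)) χ₁ = 1 := by
    rw [hin, isIrrCharacter_one.classInner_of_ne h₁ h11.symm, h₁.classInner_self,
      h₂.classInner_of_ne h₁ h12.symm]; simp
  have hi2 : classInner (fun g : G => (Nat.card (fixedBy Ω g) : ℂ)) χ₂ = 1 := by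
    rw [hin, isIrrCharacter_one.classInner_of_ne h₂ h21.symm, h₂.classInner_self,
      h₁.classInner_of_ne h₂ h12]; simp
  have hi0 : ∀ ψ, IsIrrCharacter G ψ → ψ ≠ 1 → ψ ≠ χ₁ → ψ ≠ χ₂ →
      classInner (fun g : G => (Nat.card (fixedBy Ω g) : ℂ)) ψ = 0 := fun ψ h a b c => by
    rw [hin, isIrrCharacter_one.classInner_of_ne h a.symm, h₁.classInner_of_ne h b.symm,
      h₂.classInner_of_ne h c.symm]; simp
  have hm2 : 2 ≤ m := by
    have := h₁.charDegree_pos
    have h3 : (m : ℂ) = (charDegree χ₁ + 1 : ℕ) := by push_cast; rw [h₁.charDegree_eq, hd₁]; ring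
    have h4 : m = charDegree χ₁ + 1 := by exact_mod_cast h3
    omega
  have hm0 : (m : ℂ) ≠ 0 := Nat.cast_ne_zero.2 (by omega)
  have hint : ∀ g, ∃ z : ℤ, χ₂ g = z := fun g => by
    refine exists_int_of_fixed (h₂.isCharacter.isIntegral g) fun σ => ?_
    have h3 := h₂.galois σ.toRingHom
    have h4 := classInner_galois_of_generalized hπc.isGeneralizedCharacter h₂.isGeneralizedCharacter
      σ.toRingHom
    simp only [map_natCast] at h4
    have h5 := h₂.isCharacter.galois_apply_one σ.toRingHom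
    by_contra h6
    refine one_ne_zero (hi2.symm.trans (h4.symm.trans (hi0 _ h3 (fun h => ?_) (fun h => ?_) fun h => ?_)))
    · have h7 := h5.symm.trans (congrFun h 1)
      rw [hd₂, Pi.one_apply] at h7
      have : m = 1 := by exact_mod_cast h7
      omega
    · have h7 := h5.symm.trans (congrFun h 1)
      rw [hd₂, hd₁] at h7
      exact one_ne_zero (by linear_combination h7)
    · exact h6 (congrFun h g)
  choose z hz using hint
  set E := projMat G Ω χ₂ with hE
  have hEi : InvM G E := projMat_inv h₂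
  have htr : ∀ χ, IsIrrCharacter G χ → classInner (fun g : G => (Nat.card (fixedBy Ω g) : ℂ)) χ = 1 →
      (projMat G Ω χ).trace = χ 1 := fun χ h h' => by
    have := projMat_trace (Ω := Ω) h 1
    rw [h', one_mul] at this
    simpa [Matrix.trace] using this
  have hsym : ∀ x y, E x y = E y x := fun x y => by
    rw [hE, projMat_apply, projMat_apply]
    congr 1
    refine Fintype.sum_equiv (Equiv.inv G) _ _ fun g => ?_
    show _ = if g⁻¹ • x = y then χ₂ g⁻¹⁻¹ else 0
    rw [inv_inv, h₂.isCharacter.apply_inv, hz, map_intCast]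
    exact if_congr (by rw [inv_smul_eq_iff, eq_comm]) rfl rfl
  have hrat : ∀ x y, ∃ q : ℚ, E x y = q := fun x y =>
    ⟨m / Nat.card G * ∑ g : G, if g • y = x then z g⁻¹ else 0, by
      rw [hE, projMat_apply, hd₂]; push_cast; simp only [hz, apply_ite (Rat.cast : ℚ → ℂ), Rat.cast_intCast, Rat.cast_zero]⟩
  have hdiag : E a₀ a₀ = 1 / 2 := by
    have h3 := htr _ h₂ hi2
    rw [Matrix.trace, Finset.sum_congr rfl (g := fun _ => E a₀ a₀) fun x _ => by
      obtain ⟨g, rfl⟩ := exists_smul_eq G a₀ x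
      exact hEi g a₀ a₀, Finset.sum_const, Finset.card_univ, hm, hd₂, nsmul_eq_mul] at h3
    push_cast at h3
    apply mul_left_cancel₀ hm0
    linear_combination (1 / 2 : ℂ) * h3
  set H := stabilizer G a₀
  have key : ∀ b, b ≠ a₀ → ∃ s : ℤ, 2 * Nat.card (orbit H b) * E a₀ b = s ∧
      (m : ℤ) - 1 ∣ Nat.card (orbit H b) + s := by
    intro b hb
    have hA := orbC_inv (G := G) a₀ b
    obtain ⟨c, h3, h4⟩ := exists_mul_projMat h₂ hi2 hA
    obtain ⟨r, h5, -⟩ := exists_mul_projMat h₁ hi1 hA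
    have hne : ∀ χ, IsIrrCharacter G χ → classInner (fun g : G => (Nat.card (fixedBy Ω g) : ℂ)) χ = 1 →
        projMat G Ω χ ≠ 0 := fun χ h h' h'' => h.apply_one_ne_zero (by rw [← htr χ h h', h'']; simp)
    have h6 : 2 * Nat.card (orbit H b) * E a₀ b = c := by
      have h7 := trace_orbC_transpose_mul hEi.transpose a₀ b
      rw [← Matrix.transpose_mul, h4, Matrix.trace_transpose, Matrix.trace_smul, htr _ h₂ hi2, hm, hd₂,
        Matrix.transpose_apply, hsym, smul_eq_mul] at h7
      apply mul_left_cancel₀ hm0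
      push_cast at h7
      linear_combination -h7
    obtain ⟨s, hs⟩ : ∃ s : ℤ, c = s := by
      obtain ⟨q, hq⟩ := hrat a₀ b
      exact exists_int_of_isIntegral_of_rat (isIntegral_of_mul_eq (hne _ h₂ hi2) h3)
        ⟨2 * Nat.card (orbit H b) * q, by rw [← h6, hq]; push_cast; rfl⟩
    refine ⟨s, h6.trans hs, ?_⟩
    have h7 : orbC G a₀ b * projMat G Ω 1 = (Nat.card (orbit H b) : ℂ) • projMat G Ω 1 := by
      ext x y
      have h8 : ∀ w, projMat G Ω 1 w y = projMat G Ω 1 x y := fun w => by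
        obtain ⟨k, rfl⟩ := exists_smul_eq G x w
        rw [projMat_apply, projMat_apply]
        congr 1
        refine (Fintype.sum_equiv (Equiv.mulLeft k) _ _ fun g => ?_).symm
        simp [mul_smul]
      simp only [Matrix.mul_apply, h8, ← Finset.sum_mul, orbC_apply, ← Int.cast_sum, sum_orbMat]
      simp [H]
    have h8 : projMat G Ω 1 + projMat G Ω χ₁ + E = 1 := by
      rw [← sum_projMat (G := G), ← Finset.sum_subset (Finset.subset_univ
        {(⟨1, isIrrCharacter_one⟩ : IrrCharacter G), ⟨χ₁, h₁⟩, ⟨χ₂, h₂⟩}), Finset.sum_insert, Finset.sum_pair,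
        add_assoc]
      · simpa using h12
      · simp [h11.symm, h21.symm]
      · intro ψ _ h
        simp only [Finset.mem_insert, Finset.mem_singleton, not_or, Subtype.ext_iff] at h
        exact projMat_eq_zero ψ.2 (hi0 _ ψ.2 h.1 h.2.1 h.2.2)
    have h9 : (orbC G a₀ b).trace = 0 := Finset.sum_eq_zero fun x _ => by
      rcases orbMat_cases (G := G) a₀ b x x with ⟨h5, -⟩ | ⟨-, g, h5, h6⟩
      · rw [Matrix.diag, orbC_apply, h5, Int.cast_zero]
      · exact absurd (MulAction.injective g (h6.trans h5.symm)) hb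
    rw [← mul_one (orbC G a₀ b), ← h8, mul_add, mul_add, h7, h5, h3, Matrix.trace_add, Matrix.trace_add,
      Matrix.trace_smul, Matrix.trace_smul, Matrix.trace_smul, htr _ h₁ hi1, htr _ h₂ hi2,
      htr _ isIrrCharacter_one (classInner_perm_one_of_transitive Ω), hd₁, hd₂, hs] at h9
    have h10 : (m : ℂ) - 1 ≠ 0 := hd₁ ▸ h₁.apply_one_ne_zero
    obtain ⟨r', rfl⟩ : ∃ r' : ℤ, r = r' :=
      exists_int_of_isIntegral_of_rat (isIntegral_of_mul_eq (hne _ h₁ hi1) h5)
        ⟨-(Nat.card (orbit H b) + s * m) / (m - 1), by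
          push_cast
          rw [eq_div_iff h10]
          simp only [smul_eq_mul, Pi.one_apply] at h9
          linear_combination h9⟩
    refine ⟨-r' - s, Int.cast_injective (α := ℂ) ?_⟩
    push_cast
    simp only [smul_eq_mul, Pi.one_apply] at h9
    linear_combination h9
  haveI := Fintype.ofFinite (orbitRel.Quotient H Ω)
  obtain ⟨u, v, huv, h3⟩ := Finset.card_eq_two.1 (show (Finset.univ.erase
      (Quotient.mk'' a₀ : orbitRel.Quotient H Ω)).card = 2 by
    rw [Finset.card_erase_of_mem (Finset.mem_univ _), Finset.card_univ, ← Nat.card_eq_fintype_card, hrank])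
  induction u using Quotient.inductionOn' with
  | h y =>
  induction v using Quotient.inductionOn' with
  | h y' =>
  have hy : y ≠ a₀ := fun h => by simpa [h] using h3.ge (Finset.mem_insert_self _ _)
  have hy' : y' ≠ a₀ := fun h => by
    simpa [h] using h3.ge (Finset.mem_insert_of_mem (Finset.mem_singleton_self _))
  have ho : ∀ w, w ≠ a₀ → a₀ ∉ orbit H w := fun w hw h1 => by
    obtain ⟨k, hk⟩ := mem_orbit_symm.1 h1
    exact hw (hk.symm.trans (show (k : G) • a₀ = a₀ from k.2))
  have hz' : ∀ w, w ≠ a₀ → w ∈ orbit H y ∨ w ∈ orbit H y' := fun w hw => by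
    have := h3.le (Finset.mem_erase.2 ⟨fun h => ho w hw (orbitRel_apply.1 (Quotient.exact' h.symm)),
      Finset.mem_univ (Quotient.mk'' w)⟩)
    simp only [Finset.mem_insert, Finset.mem_singleton] at this
    exact this.imp (fun h => orbitRel_apply.1 (Quotient.exact' h)) fun h => orbitRel_apply.1 (Quotient.exact' h)
  have hdis : Disjoint (orbit H y).toFinset (orbit H y').toFinset := by
    rw [Finset.disjoint_left]
    intro w h4 h5
    exact huv ((Quotient.sound' (orbitRel_apply.2 (Set.mem_toFinset.1 h4))).symm.trans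
      (Quotient.sound' (orbitRel_apply.2 (Set.mem_toFinset.1 h5))))
  have hnot : a₀ ∉ (orbit H y).toFinset ∪ (orbit H y').toFinset := by simp [ho y hy, ho y' hy']
  have hall : Finset.univ = insert a₀ ((orbit H y).toFinset ∪ (orbit H y').toFinset) := by
    ext w
    by_cases hw : w = a₀
    · simp [hw]
    · simpa [hw] using hz' w hw
  have hsum : ∀ f : ℂ → ℂ, ∑ w, f (E a₀ w) = f (1 / 2) + (Nat.card (orbit H y) * f (E a₀ y) +
      Nat.card (orbit H y') * f (E a₀ y')) := fun f => by
    have h7 : ∀ w, ∑ x ∈ (orbit H w).toFinset, f (E a₀ x) = Nat.card (orbit H w) * f (E a₀ w) := by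
      intro w
      rw [Finset.sum_congr rfl (g := fun _ => f (E a₀ w)) fun x hx => by
        obtain ⟨k, rfl⟩ := Set.mem_toFinset.1 hx
        show f (E a₀ ((k : G) • w)) = _
        rw [← hEi k a₀ w, show (k : G) • a₀ = a₀ from k.2], Finset.sum_const, Set.toFinset_card,
        Nat.card_eq_fintype_card, nsmul_eq_mul]
    rw [hall, Finset.sum_insert hnot, Finset.sum_union hdis, h7, h7, hdiag]
  obtain ⟨s, hs, hs'⟩ := key y hy
  have e1 := hsum fun _ => 1
  have e2 := (projMat_row h₂ h21 a₀).symm.trans (hsum id)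
  have e3 := congrFun (congrFun (projMat_mul_self (Ω := Ω) h₂) a₀) a₀
  rw [← hE, Matrix.mul_apply, hdiag] at e3
  simp only [hsym _ a₀, ← sq] at e3
  rw [hsum (· ^ 2)] at e3
  simp only [Finset.sum_const, Finset.card_univ, hm, nsmul_eq_mul, mul_one, id] at e1 e2
  have hn1 : ∀ w, w ≠ a₀ → (Nat.card (orbit H w) : ℤ) ≠ 1 := fun w hw h => by
    have h4 := card_orbit_eq_one_of_prim hprim hw.symm (by exact_mod_cast h) a₀
    rw [h4, h4] at e1
    have : 2 * m = 3 := Nat.cast_injective (R := ℂ) (e1.trans (by norm_num))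
    omega
  obtain ⟨a1, a2, a3, a4, a5⟩ := arith (m := m) (s := s) (by exact_mod_cast hm2)
    (by exact_mod_cast W2.card_pos a₀ y) (by exact_mod_cast W2.card_pos a₀ y') (hn1 y hy) (hn1 y' hy')
    (Int.cast_injective (α := ℂ) (by push_cast at e1 ⊢; linear_combination -e1))
    (Int.cast_injective (α := ℂ) (by
      push_cast
      have e4 : (s : ℂ) + 1 = -(2 * Nat.card (orbit H y') * E a₀ y') := by
        linear_combination -hs - 2 * e2
      rw [e4, ← hs]
      linear_combination (4 * Nat.card (orbit H y) * Nat.card (orbit H y') : ℂ) * e3)) hs'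
  have hb : ∀ b, b ≠ a₀ → (Nat.card (orbit H b) : ℤ) = s * (2 * s + 1) ∨
      (Nat.card (orbit H b) : ℤ) = (s + 1) * (2 * s + 1) := fun b hb => by
    rcases hz' b hb with h1 | h1
    · left; rw [orbit_eq_iff.2 h1, a2]
    · right; rw [orbit_eq_iff.2 h1, a3]
  rcases lt_or_gt_of_ne a4 with h1 | h1
  · obtain ⟨a, ha⟩ : ∃ a : ℕ, s = -a - 1 := ⟨(-s - 1).toNat, by omega⟩
    subst ha
    refine ⟨a, by omega, by zify; rw [a1]; ring, fun b hb' => ?_⟩
    zify
    rcases hb b hb' with h2 | h2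
    · right; rw [h2]; ring
    · left; rw [h2]; ring
  · obtain ⟨a, rfl⟩ : ∃ a : ℕ, s = a := ⟨s.toNat, by omega⟩
    refine ⟨a, by omega, by exact_mod_cast a1, fun b hb' => ?_⟩
    exact_mod_cast hb b hb'

end Cfsg.Agent.S0719
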