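import Mathlib
import Cfsg.Statements.S0722
import Cfsg.Agent.H18.Prim

set_option autoImplicit false
open Cfsg

namespace Cfsg.Agent.S0722

/-- In a primitive group `H`, with `N` a minimal normal subgroup and `K` a point stabiliser, `K ⊓ N` is maximal among proper `K`-invariant subgroups of `N`. -/
theorem result {α : Type*} [Finite α] (H : Subgroup (Equiv.Perm α)) [MulAction.IsPreprimitive H α] (N : Subgroup H) [N.Normal] (hN : N ≠ ⊥) (hmin : ∀ M : Subgroup H, M.Normal → M ≤ N → M = ⊥ ∨ M = N) (a : α) (X : Subgroup H) (hX : X ≤ N) (hKX : MulAction.stabilizer H a ⊓ N ≤ X) (hinv : MulAction.stabilizer H a ≤ Subgroup.normalizer (X : Set H)) : X = MulAction.stabilizer H a ⊓ N ∨ X = N := by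
  obtain ⟨n, hn, b, hb⟩ := H18.exists_move_of_ne_bot hN
  have : Nontrivial α := ⟨_, _, hb⟩
  have hco := MulAction.IsPreprimitive.isCoatom_stabilizer_of_isPreprimitive H a
  rcases hinv.eq_or_lt with h | h
  · left
    exact le_antisymm (le_inf (h ▸ Subgroup.le_normalizer) hX) hKX
  · have hn : X.Normal := Subgroup.normalizer_eq_top_iff.1 (hco.2 _ h)
    rcases hmin X hn hX with h' | h'
    · left
      exact le_antisymm (h' ▸ bot_le) hKX
    · exact Or.inr h'

end Cfsg.Agent.S0722
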