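import Mathlib
import Cfsg.Statements.S0724
import Cfsg.Agent.H18.Prim

set_option autoImplicit false
open Cfsg

namespace Cfsg.Agent.S0724

theorem pow_dvd {G α : Type*} [Group G] [Fintype G] [MulAction G α] [Finite α] (k : ℕ) :
    (Nat.card G : ℤ) ∣ ∑ g : G, (Nat.card (MulAction.fixedBy α g) : ℤ) ^ k := by
  classical
  have := Fintype.ofFinite α
  have := Fintype.ofFinite (MulAction.orbitRel.Quotient G (Fin k → α))
  have h := MulAction.sum_card_fixedBy_eq_card_orbits_mul_card_group G (Fin k → α)
  have h2 : ∀ g : G, Fintype.card (MulAction.fixedBy (Fin k → α) g) = Nat.card (MulAction.fixedBy α g) ^ k := by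
    intro g
    rw [← Nat.card_eq_fintype_card]
    have e : MulAction.fixedBy (Fin k → α) g ≃ (Fin k → MulAction.fixedBy α g) :=
      ⟨fun x i => ⟨x.1 i, congrFun x.2 i⟩, fun x => ⟨fun i => x i, funext fun i => (x i).2⟩,
        fun _ => rfl, fun _ => rfl⟩
    rw [Nat.card_congr e, Nat.card_fun]; simp
  simp only [h2] at h
  rw [Nat.card_eq_fintype_card (α := G)]
  exact_mod_cast Dvd.intro_left _ h.symm

theorem eval_dvd {G α : Type*} [Group G] [Fintype G] [MulAction G α] [Finite α] (P : Polynomial ℤ) :
    (Nat.card G : ℤ) ∣ ∑ g : G, P.eval (Nat.card (MulAction.fixedBy α g) : ℤ) := by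
  induction P using Polynomial.induction_on' with
  | add p q hp hq => simp only [Polynomial.eval_add, Finset.sum_add_distrib]; exact hp.add hq
  | monomial n a =>
    simp only [Polynomial.eval_monomial, ← Finset.mul_sum]
    exact (pow_dvd n).mul_left _

/-- Blichfeldt's Theorem: if a finite set `L` of natural numbers contains the number of fixed points of every non-identity element of a permutation group `G` of degree `n`, then the order of `G` divides `∏ (n - l)` over `l ∈ L`. -/
theorem result {α : Type*} [Fintype α] [DecidableEq α] (G : Subgroup (Equiv.Perm α)) (L : Finset ℕ) (hL : ∀ g ∈ G, g ≠ 1 → Nat.card (MulAction.fixedBy α g) ∈ L) : Nat.card G ∣ ∏ l ∈ L, (Fintype.card α - l) := by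
  classical
  by_cases hl : ∃ l ∈ L, Fintype.card α < l
  · obtain ⟨l, hl, hl'⟩ := hl
    rw [Finset.prod_eq_zero hl (by omega)]
    exact dvd_zero _
  push Not at hl
  have h := eval_dvd (G := G) (α := α) (∏ l ∈ L, (Polynomial.X - Polynomial.C (l : ℤ)))
  rw [Finset.sum_eq_single 1] at h
  · simp only [Polynomial.eval_prod, Polynomial.eval_sub, Polynomial.eval_X, Polynomial.eval_C] at h
    have h1 : Nat.card (MulAction.fixedBy α (1 : G)) = Fintype.card α := by
      rw [MulAction.fixedBy_one_eq_univ, Nat.card_congr (Equiv.Set.univ α), Nat.card_eq_fintype_card]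
    rw [h1] at h
    rw [← Int.natCast_dvd_natCast, Nat.cast_prod]
    convert h using 2 with l hl'
    rw [Nat.cast_sub (hl l hl')]
  · intro g _ hg
    rw [Polynomial.eval_prod]
    refine Finset.prod_eq_zero (hL g g.2 (fun h => hg (Subtype.ext h))) ?_
    simp only [Polynomial.eval_sub, Polynomial.eval_X, Polynomial.eval_C]
    exact sub_self _
  · simp

end Cfsg.Agent.S0724
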