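import Mathlib
import Cfsg.Statements.S0728
import Cfsg.Agent.H18.Sharp3Even

set_option autoImplicit false
open scoped Pointwise
open Cfsg

namespace Cfsg.Agent.S0728

/-- In a sharply triply transitive group of even degree at least 6 (degree `q + 1`, `q` odd), a two-point stabiliser has at most one subgroup of order 3. -/
theorem result {α : Type*} [Fintype α] [DecidableEq α] (heven : Even (Fintype.card α)) (h6 : 6 ≤ Fintype.card α) (G : Subgroup (Equiv.Perm α)) (h3 : MulAction.IsMultiplyPretransitive G α 3) (hsharp : ∀ x : Fin 3 ↪ α, MulAction.stabilizer G x = ⊥) {a b : α} (hab : a ≠ b) (A B : Subgroup G) (hA : A ≤ MulAction.stabilizer G a ⊓ MulAction.stabilizer G b) (hB : B ≤ MulAction.stabilizer G a ⊓ MulAction.stabilizer G b) (hA3 : Nat.card A = 3) (hB3 : Nat.card B = 3) : A = B := by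
  have h : H19.Sharp3 G α := ⟨H18.mt_three_iff.mp h3, H18.sharp_three_iff.mp hsharp⟩
  have hz := H18.Z3.of_sharp3 h (by omega)
  have : Fact (Nat.Prime 3) := ⟨Nat.prime_three⟩
  have key : ∀ A : Subgroup G, Nat.card A = 3 → ∃ u ∈ A, orderOf u = 3 ∧ A = Subgroup.zpowers u := by
    intro A hA
    obtain ⟨u, hu⟩ := exists_prime_orderOf_dvd_card' (G := A) 3 hA.symm.dvd
    rw [← Subgroup.orderOf_coe] at hu
    exact ⟨u, u.2, hu, (Subgroup.eq_of_le_of_card_ge (Subgroup.zpowers_le.2 u.2)
      (by rw [Nat.card_zpowers, hu, hA])).symm⟩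
  obtain ⟨u, hu, hu3, rfl⟩ := key A hA3
  obtain ⟨v, hv, hv3, rfl⟩ := key B hB3
  rcases hz.order_three (by omega) hab (hA hu) (hB hv) hu3 hv3 with rfl | rfl
  · rfl
  · exact (Subgroup.zpowers_inv).symm

end Cfsg.Agent.S0728
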