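import Mathlib
import Cfsg.Statements.S0729
import Cfsg.Agent.H18.Sharp3Even

set_option autoImplicit false
open scoped Pointwise
open Cfsg

namespace Cfsg.Agent.S0729

/-- In a sharply triply transitive group of even degree at least 6, the two-point stabiliser `H = G_{a,b}` has a normal subgroup of index 2 that is normalised by the element `s` interchanging `a, b` and fixing a third point `c`. -/
theorem result {α : Type*} [Fintype α] [DecidableEq α] (heven : Even (Fintype.card α)) (h6 : 6 ≤ Fintype.card α) (G : Subgroup (Equiv.Perm α)) (h3 : MulAction.IsMultiplyPretransitive G α 3) (hsharp : ∀ x : Fin 3 ↪ α, MulAction.stabilizer G x = ⊥) {a b c : α} (hab : a ≠ b) (hac : a ≠ c) (hbc : b ≠ c) (s : G) (hsa : s • a = b) (hsb : s • b = a) (hsc : s • c = c) : ∃ N : Subgroup G, N ≤ MulAction.stabilizer G a ⊓ MulAction.stabilizer G b ∧ (N.subgroupOf (MulAction.stabilizer G a ⊓ MulAction.stabilizer G b)).Normal ∧ N.relIndex (MulAction.stabilizer G a ⊓ MulAction.stabilizer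 G b) = 2 ∧ ∀ n ∈ N, s * n * s⁻¹ ∈ N := by
  have h : H19.Sharp3 G α := ⟨H18.mt_three_iff.mp h3, H18.sharp_three_iff.mp hsharp⟩
  have hz := H18.Z3.of_sharp3 h (by omega)
  obtain ⟨φ, ⟨y, hy⟩, hφ⟩ := H18.sharp3_exists_hom h (by omega) heven hab (s := s) (Or.inr ⟨hsa, hsb⟩)
    (hz.swap_sq hab hsa hsb hsc)
  have e : (φ.ker.map (H18.st2 G a b).subtype).subgroupOf (H18.st2 G a b) = φ.ker :=
    Subgroup.comap_map_eq_self_of_injective (Subgroup.subtype_injective _) _
  refine ⟨φ.ker.map (H18.st2 G a b).subtype, Subgroup.map_subtype_le _, ?_, ?_, ?_⟩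
  · rw [e]; infer_instance
  · rw [Subgroup.relIndex, e]; exact H18.index_ker_eq_two φ hy
  · rintro _ ⟨x, hx, rfl⟩
    exact ⟨⟨_, H18.conj_mem_st2 (Or.inr ⟨hsa, hsb⟩) x.2⟩, (hφ x).trans hx, rfl⟩

end Cfsg.Agent.S0729
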