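import Mathlib
import Cfsg.Statements.S0733
import Cfsg.Agent.H18.Prim

set_option autoImplicit false
open Cfsg

namespace Cfsg.Agent.S0733

/-- A permutation group of affine type — generated by the translations of a finite vector space `V` over `ZMod p` together with a group `G₀` of linear automorphisms — is primitive on `V` if and only if `G₀` is irreducible on `V`. -/
theorem result {p : ℕ} [Fact p.Prime] {V : Type*} [AddCommGroup V] [Module (ZMod p) V] [Finite V] [Nontrivial V] (G₀ : Subgroup (V ≃ₗ[ZMod p] V)) (G : Subgroup (Equiv.Perm V)) (hG : ∀ σ : Equiv.Perm V, σ ∈ G ↔ ∃ g ∈ G₀, ∃ b : V, ∀ x : V, σ x = (g : V ≃ₗ[ZMod p] V) x + b) : MulAction.IsPreprimitive G V ↔ ∀ W : Submodule (ZMod p) V, (∀ g ∈ G₀, ∀ v ∈ W, (g : V ≃ₗ[ZMod p] V) v ∈ W) → W = ⊥ ∨ W = ⊤ := by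
  have htr : ∀ b : V, Equiv.addRight b ∈ G := fun b => (hG _).2 ⟨1, G₀.one_mem, b, fun x => rfl⟩
  have : MulAction.IsPretransitive G V := ⟨fun x y => ⟨⟨_, htr (y - x)⟩, by
    change x + (y - x) = y; abel⟩⟩
  constructor
  · intro hp W hW
    by_cases h : W = ⊥
    · exact Or.inl h
    right
    obtain ⟨w, hw, hw0⟩ := (Submodule.ne_bot_iff W).1 h
    have key := H18.prim_rel hp (fun x y => x - y ∈ W)
      ⟨fun x => by simp, fun {x y} h => by simpa using W.neg_mem h,
        fun {x y z} h h' => by simpa using W.add_mem h h'⟩ (fun g x y hxy => by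
        obtain ⟨g0, hg0, b, hb⟩ := (hG g).1 g.2
        change (g : Equiv.Perm V) x - (g : Equiv.Perm V) y ∈ W
        rw [hb, hb, add_sub_add_right_eq_sub, ← map_sub]
        exact hW g0 hg0 _ hxy) hw0 (by simpa using hw)
    rw [eq_top_iff]
    intro x _
    simpa using key x 0
  · intro h
    refine H18.prim_of_rel fun r hr hinv a b hab hrab => ?_
    have hadd : ∀ x y c, r x y → r (x + c) (y + c) := fun x y c h => hinv ⟨_, htr c⟩ x y h
    let A : AddSubgroup V :=
      { carrier := {x | r x 0}
        zero_mem' := hr.refl 0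
        add_mem' := fun {x y} hx hy => hr.trans (by simpa using hadd x 0 y hx) hy
        neg_mem' := fun {x} hx => hr.symm (by simpa using hadd x 0 (-x) hx) }
    rcases h (AddSubgroup.toZModSubmodule p A) (fun g hg v hv => by
      have := hinv ⟨g.toEquiv, (hG _).2 ⟨g, hg, 0, fun x => by simp⟩⟩ v 0 hv
      change r (g v) (g 0) at this
      rw [map_zero] at this
      exact this) with h1 | h1
    · exfalso
      have : a - b ∈ AddSubgroup.toZModSubmodule p A := by
        change r (a - b) 0
        simpa [sub_eq_add_neg] using hadd a b (-b) hrab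
      rw [h1, Submodule.mem_bot, sub_eq_zero] at this
      exact hab this
    · intro x y
      have hx : x ∈ AddSubgroup.toZModSubmodule p A := h1 ▸ Submodule.mem_top
      have hy : y ∈ AddSubgroup.toZModSubmodule p A := h1 ▸ Submodule.mem_top
      exact hr.trans hx (hr.symm hy)

end Cfsg.Agent.S0733
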