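import Mathlib
import Cfsg.Statements.S0734
import Cfsg.Agent.H18.Prim

set_option autoImplicit false
open Cfsg

namespace Cfsg.Agent.S0734

/-- Higman's criterion for primitivity: a transitive action on a finite set is primitive if and only if every non-trivial orbital graph (edges = images of a fixed pair of distinct points) is connected. -/
theorem result {G : Type*} [Group G] {Ω : Type*} [Finite Ω] [MulAction G Ω] [MulAction.IsPretransitive G Ω] [Nontrivial Ω] : MulAction.IsPreprimitive G Ω ↔ ∀ a b : Ω, a ≠ b → (SimpleGraph.fromRel fun x y : Ω => ∃ g : G, g • a = x ∧ g • b = y).Connected := by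
  constructor
  · intro hp a b hab
    set Γ := SimpleGraph.fromRel fun x y : Ω => ∃ g : G, g • a = x ∧ g • b = y
    have hadj : ∀ (g : G) x y, Γ.Adj x y → Γ.Adj (g • x) (g • y) := by
      intro g x y h
      rw [SimpleGraph.fromRel_adj] at h ⊢
      refine ⟨fun h' => h.1 (smul_left_cancel g h'), ?_⟩
      rcases h.2 with ⟨k, rfl, rfl⟩ | ⟨k, rfl, rfl⟩
      · exact Or.inl ⟨g * k, mul_smul _ _ _, mul_smul _ _ _⟩
      · exact Or.inr ⟨g * k, mul_smul _ _ _, mul_smul _ _ _⟩
    have key := H18.prim_rel hp Γ.Reachable Γ.reachable_is_equivalence (fun g x y h =>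
      h.map ⟨fun x => g • x, fun {x y} => hadj g x y⟩) hab (SimpleGraph.Adj.reachable (by
        rw [SimpleGraph.fromRel_adj]
        exact ⟨hab, Or.inl ⟨1, one_smul _ _, one_smul _ _⟩⟩))
    exact ⟨key⟩
  · intro h
    refine H18.prim_of_rel fun r hr hinv a b hab hrab x y => ?_
    obtain ⟨w⟩ := (h a b hab).1 x y
    induction w with
    | nil => exact hr.refl _
    | cons h' _ ih =>
      refine hr.trans ?_ ih
      rw [SimpleGraph.fromRel_adj] at h'
      rcases h'.2 with ⟨k, rfl, rfl⟩ | ⟨k, rfl, rfl⟩
      · exact hinv k _ _ hrab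
      · exact hr.symm (hinv k _ _ hrab)

end Cfsg.Agent.S0734
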