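import Mathlib
import Cfsg.Statements.S0735
import Cfsg.Agent.H18.Prim

set_option autoImplicit false
open scoped Pointwise
open Cfsg

namespace Cfsg.Agent.S0735

/-- A 2-homogeneous permutation group (transitive on 2-subsets) of even order is doubly transitive; a non-trivial 2-homogeneous group is primitive. -/
theorem result {α : Type*} [Fintype α] [DecidableEq α] (G : Subgroup (Equiv.Perm α)) (h2 : MulAction.IsPretransitive G (Set.powersetCard α 2)) (hα : 3 ≤ Fintype.card α) : (Even (Nat.card G) → MulAction.IsMultiplyPretransitive G α 2) ∧ (G ≠ ⊥ → MulAction.IsPreprimitive G α) := by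
  have key : ∀ a b c d : α, a ≠ b → c ≠ d → ∃ g : G, (g • a = c ∧ g • b = d) ∨ (g • a = d ∧ g • b = c) := by
    intro a b c d hab hcd
    obtain ⟨g, hg⟩ := h2.exists_smul_eq ⟨{a, b}, Finset.card_pair hab⟩ ⟨{c, d}, Finset.card_pair hcd⟩
    have hg' : g • ({a, b} : Finset α) = {c, d} := congrArg Subtype.val hg
    simp only [Finset.smul_finset_insert, Finset.smul_finset_singleton] at hg'
    refine ⟨g, ?_⟩
    have := congrArg (fun s : Finset α => (s : Set α)) hg'
    simp only [Finset.coe_insert, Finset.coe_singleton] at this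
    exact Set.pair_eq_pair_iff.1 this
  constructor
  · intro hev
    have : Fact (Nat.Prime 2) := ⟨Nat.prime_two⟩
    obtain ⟨t, ht⟩ := exists_prime_orderOf_dvd_card' 2 hev.two_dvd
    have ht1 : t ≠ 1 := by rintro rfl; simp at ht
    have ht2 : t * t = 1 := by rw [← pow_two, ← ht, pow_orderOf_eq_one]
    obtain ⟨u, hu⟩ : ∃ u : α, t • u ≠ u := by
      by_contra! h
      exact ht1 (by ext x; exact h x)
    have httu : t • t • u = u := by rw [← mul_smul, ht2, one_smul]
    refine H18.mt_two_iff.2 fun a b c d hab hcd => ?_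
    obtain ⟨g, hg⟩ := key a b u (t • u) hab hu.symm
    obtain ⟨k, hk⟩ := key u (t • u) c d hu.symm hcd
    rcases hg with ⟨h1, h2⟩ | ⟨h1, h2⟩ <;> rcases hk with ⟨h3, h4⟩ | ⟨h3, h4⟩
    · exact ⟨k * g, by rw [mul_smul, h1, h3], by rw [mul_smul, h2, h4]⟩
    · exact ⟨k * t * g, by rw [mul_smul, mul_smul, h1, h4], by rw [mul_smul, mul_smul, h2, httu, h3]⟩
    · exact ⟨k * t * g, by rw [mul_smul, mul_smul, h1, httu, h3], by rw [mul_smul, mul_smul, h2, h4]⟩
    · exact ⟨k * g, by rw [mul_smul, h1, h4], by rw [mul_smul, h2, h3]⟩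
  · intro _
    have : MulAction.IsPretransitive G α := by
      refine ⟨fun a b => ?_⟩
      by_contra hcon
      have hab : a ≠ b := by rintro rfl; exact hcon ⟨1, one_smul _ _⟩
      obtain ⟨c, hc⟩ : ∃ c, c ∉ ({a, b} : Finset α) := by
        obtain ⟨c, -, hc⟩ := Finset.exists_mem_notMem_of_card_lt_card (s := ({a, b} : Finset α))
          (t := Finset.univ) (by rw [Finset.card_pair hab, Finset.card_univ]; omega)
        exact ⟨c, hc⟩
      simp only [Finset.mem_insert, Finset.mem_singleton, not_or] at hc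
      obtain ⟨g, hg⟩ := key a c b c (Ne.symm hc.1) (Ne.symm hc.2)
      rcases hg with ⟨h1, -⟩ | ⟨h1, h2⟩
      · exact hcon ⟨g, h1⟩
      · exact hcon ⟨g * g, by rw [mul_smul, h1, h2]⟩
    refine H18.prim_of_rel fun r hr hinv a b hab hrab x y => ?_
    by_cases hxy : x = y
    · exact hxy ▸ hr.refl x
    obtain ⟨g, ⟨rfl, rfl⟩ | ⟨rfl, rfl⟩⟩ := key a b x y hab hxy
    · exact hinv g _ _ hrab
    · exact hr.symm (hinv g _ _ hrab)

end Cfsg.Agent.S0735
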