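import Mathlib
import Cfsg.Statements.S0736
import Cfsg.Agent.H05.Homog

set_option autoImplicit false
open Cfsg

namespace Cfsg.Agent.S0736

/-- A `k`-homogeneous permutation group of degree `n`, `k ≥ 2`, with `k + q - 1 ≤ n` for every prime power `q` dividing `k`, is `(k-1)`-homogeneous. -/
theorem result {α : Type*} [Fintype α] [DecidableEq α] (G : Subgroup (Equiv.Perm α)) {k : ℕ} (hk : 2 ≤ k) (hG : MulAction.IsPretransitive G (Set.powersetCard α k)) (hq : ∀ q : ℕ, IsPrimePow q → q ∣ k → k + q - 1 ≤ Fintype.card α) : MulAction.IsPretransitive G (Set.powersetCard α (k - 1)) := by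
  obtain ⟨j, rfl⟩ : ∃ j, k = j + 1 := ⟨k - 1, by omega⟩
  have h1 : H05.Hom.Hom G α (j + 1) := (H05.Hom.hom_iff (G := G)).1 hG
  exact (H05.Hom.hom_iff (G := G)).2
    (h1.pred (by omega) fun q h1 h2 => by have := hq q h1 h2; omega)

end Cfsg.Agent.S0736
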