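import Mathlib
import Cfsg.Statements.S0737
import Cfsg.Agent.H18.FC10
import Cfsg.Agent.S0205
import Cfsg.Agent.S0735

set_option autoImplicit false
open scoped Pointwise
open Cfsg

namespace Cfsg.Agent.S0737

open Subgroup MulAction

/-- A non-trivial 2-homogeneous permutation group that is not doubly transitive has odd order and degree `p^f ≡ 3 (mod 4)`, and is permutation-isomorphic to a group of semi-affine transformations `x ↦ a φ(x) + b` of the field with `p^f` elements containing all translations. -/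
theorem result {α : Type*} [Fintype α] [DecidableEq α] (G : Subgroup (Equiv.Perm α)) (hne : G ≠ ⊥) (h2 : MulAction.IsPretransitive G (Set.powersetCard α 2)) (hn2 : ¬ MulAction.IsMultiplyPretransitive G α 2) : Odd (Nat.card G) ∧ ∃ (p f : ℕ) (_ : Fact p.Prime), p ≠ 2 ∧ Fintype.card α = p ^ f ∧ p ^ f % 4 = 3 ∧ ∃ e : α ≃ GaloisField p f, (∀ g : G, e.symm.trans (((g : Equiv.Perm α)).trans e) ∈ Cfsg.semiaffineGroup (GaloisField p f)) ∧ ∀ b : GaloisField p f, ∃ g : G, ∀ x : α, e ((g : Equiv.Perm α) x) = e x + b := by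
  have key : ∀ a b c d : α, a ≠ b → c ≠ d → ∃ g : G, (g • a = c ∧ g • b = d) ∨ (g • a = d ∧ g • b = c) := by
    intro a b c d hab hcd
    obtain ⟨g, hg⟩ := h2.exists_smul_eq ⟨{a, b}, Finset.card_pair hab⟩ ⟨{c, d}, Finset.card_pair hcd⟩
    have hg' : g • ({a, b} : Finset α) = {c, d} := congrArg Subtype.val hg
    simp only [Finset.smul_finset_insert, Finset.smul_finset_singleton] at hg'
    refine ⟨g, ?_⟩
    have := congrArg (fun s : Finset α => (s : Set α)) hg'
    simp only [Finset.coe_insert, Finset.coe_singleton] at this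
    exact Set.pair_eq_pair_iff.1 this
  have mv : ∀ g : G, g ≠ 1 → ∃ a : α, g • a ≠ a := fun g hg => by
    by_contra! h
    exact hg (Subtype.ext (Equiv.ext h))
  haveI := (G.nontrivial_iff_ne_bot).2 hne
  have h3 : 3 ≤ Fintype.card α := by
    by_contra! hc
    obtain ⟨g, hg⟩ := exists_ne (1 : G)
    obtain ⟨u, hu⟩ := mv g hg
    have hx : ∀ x, x = u ∨ x = g • u := fun x => by
      by_contra! h
      have := Finset.card_le_univ ({x, u, g • u} : Finset α)
      rw [Finset.card_insert_of_notMem (by simp [h]), Finset.card_pair hu.symm] at this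
      omega
    have hgu : g • g • u = u := (hx _).resolve_right fun e => hu (smul_left_cancel g e)
    refine hn2 (is_two_pretransitive_iff.2 fun {a b c d} hab hcd => ?_)
    rcases hx a with rfl | rfl <;> rcases hx b with e | e <;> rcases hx c with e1 | e1 <;> rcases hx d with e2 | e2 <;>
      first | exact (hab e.symm).elim | exact (hcd (e1.trans e2.symm)).elim | (refine ⟨1, ?_⟩; simp [e, e1, e2]; done) |
        (refine ⟨g, ?_⟩; simp [e, e1, e2, hgu])
  have hodd : Odd (Nat.card G) := Nat.not_even_iff_odd.1 fun e => hn2 ((S0735.result G h2 h3).1 e)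
  refine ⟨hodd, ?_⟩
  haveI := S0205.result hodd
  obtain ⟨N, _, N1, -, _, p, hp, Np⟩ := H02.exists_minimal_normal_elementary (G := G)
  haveI := Fact.mk hp
  haveI := (N.nontrivial_iff_ne_bot).2 N1
  have tr : ∀ x y : α, ∃ n : N, (n : G) • x = y := fun x y => by
    by_cases hxy : x = y
    · exact ⟨1, by simp [hxy]⟩
    obtain ⟨n, hn⟩ := exists_ne (1 : N)
    obtain ⟨u, hu⟩ := mv n (fun e => hn (Subtype.ext e))
    obtain ⟨g, ⟨rfl, rfl⟩ | ⟨rfl, rfl⟩⟩ := key u _ x y hu.symm hxy
    · exact ⟨MulAut.conjNormal g n, by simp [mul_smul]⟩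
    · exact ⟨MulAut.conjNormal g n⁻¹, by simp [mul_smul]⟩
  obtain ⟨o⟩ : Nonempty α := Fintype.card_pos_iff.1 (by omega)
  have cm : ∀ a b : N, (a : G) * b = b * a := fun a b => congrArg Subtype.val (mul_comm' a b)
  let r : N ≃ α := Equiv.ofBijective (fun n => (n : G) • o) ⟨fun a b e => Subtype.ext (Subtype.ext (Equiv.ext fun x => by
    obtain ⟨c, rfl⟩ := tr o x
    change (a : G) • (c : G) • o = (b : G) • (c : G) • o
    rw [← mul_smul, ← mul_smul, cm, cm b, mul_smul, mul_smul]
    exact congrArg _ e)), tr o⟩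
  have hr : ∀ n : N, r n = (n : G) • o := fun _ => rfl
  have act : ∀ (g : G) (n : N), g • r n = r (MulAut.conjNormal g n * r.symm (g • o)) := fun g n => by
    rw [hr (_ * _), coe_mul, mul_smul, ← hr (r.symm _), r.apply_symm_apply, hr]
    simp [mul_smul]
  have r1 : r.symm o = 1 := r.symm_apply_eq.2 (by simp [hr])
  letI : CommGroup N := { mul_comm := mul_comm' }
  obtain ⟨f, f0, hf⟩ := (H02.isPGroup_of_pow_eq_one Np).nontrivial_iff_card.1 inferInstance
  have p2 : p ≠ 2 := by
    rintro rfl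
    exact (hodd.of_dvd_nat ((hf ▸ dvd_pow_self 2 f0.ne' :).trans N.card_subgroup_dvd_card)).not_two_dvd_nat dvd_rfl
  have hα : Nat.card α = p ^ f := by rw [← Nat.card_congr r, hf]
  have h4 : p ^ f % 4 = 3 := by
    haveI : Nontrivial α := Fintype.one_lt_card_iff_nontrivial.1 (by omega)
    obtain ⟨o', ho⟩ := exists_ne o
    have h5 := (stabilizer G (⟨{o', o}, Finset.card_pair ho⟩ : Set.powersetCard α 2)).index_dvd_card
    rw [index_stabilizer_of_transitive, Set.powersetCard.card, hα, Nat.choose_two_right] at h5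
    have h6 := hodd.of_dvd_nat h5
    obtain ⟨k, hk⟩ : Odd (p ^ f) := (hp.odd_of_ne_two p2).pow
    rw [hk, Nat.add_sub_cancel, Nat.mul_left_comm, Nat.mul_div_cancel_left _ two_pos, Nat.odd_mul] at h6
    obtain ⟨-, j, hj⟩ := h6
    omega
  refine ⟨p, f, inferInstance, p2, Nat.card_eq_fintype_card.symm.trans hα, h4, ?_⟩
  rcases H18.huppert_aut (p := p) (fun x : N => Subtype.ext (Np x x.2)) (MulAut.conjNormal : G →* MulAut N)
    (fun x y hx hy => by
      have k : ∀ x : N, x ≠ 1 → o ≠ r x := fun x hx e => hx (r.injective (e.symm.trans (by simp [hr])))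
      obtain ⟨g, ⟨a, b⟩ | ⟨a, b⟩⟩ := key o _ o _ (k x hx) (k y hy) <;> rw [act, a] at b
      · exact ⟨g, Or.inl (by simpa [r1] using b)⟩
      · exact ⟨g, Or.inr (eq_inv_of_mul_eq_one_left (by simpa [r1] using congrArg r.symm b))⟩) with
    ⟨F, _, _, e, he⟩ | h
  swap
  · rw [hf] at h
    rcases h with h | h | h | h | h | h <;> rw [h] at h4 <;> omega
  haveI := Fintype.ofFinite (GaloisField p f)
  let ι : F ≃+* GaloisField p f := FiniteField.ringEquivOfCardEq (by
    rw [← Nat.card_eq_fintype_card, ← Nat.card_eq_fintype_card, GaloisField.card p f f0.ne', ← hf,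
      ← Nat.card_congr e.toEquiv]; rfl)
  let E : α ≃ GaloisField p f := r.symm.trans (Additive.ofMul.trans (e.toEquiv.trans ι.toEquiv))
  have hE : ∀ n : N, E (r n) = ι (e (.ofMul n)) := fun n => by simp [E]
  refine ⟨E, fun g => ?_, fun b => ?_⟩
  · obtain ⟨a, σ, h⟩ := he g
    have a0 : ι a ≠ 0 := fun e0 => by
      obtain ⟨n, hn⟩ := exists_ne (1 : N)
      have := h n
      rw [(map_eq_zero ι).1 e0, zero_mul, map_eq_zero_iff _ e.injective] at this
      exact hn ((map_eq_one_iff (MulAut.conjNormal g) (MulEquiv.injective _)).1 this)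
    refine ⟨Units.mk0 _ a0, ι (e (.ofMul (r.symm (g • o)))), ι.symm.trans (σ.trans ι), fun x => ?_⟩
    obtain ⟨x, rfl⟩ := E.surjective x
    obtain ⟨x, rfl⟩ := r.surjective x
    change E (g • E.symm (E (r x))) = _
    rw [E.symm_apply_apply, act, hE, hE, ofMul_mul, map_add, map_add, h]
    simp
  · obtain ⟨b, rfl⟩ := ι.surjective b
    obtain ⟨b, rfl⟩ := e.surjective b
    refine ⟨(b.toMul : N), fun x => ?_⟩
    obtain ⟨x, rfl⟩ := r.surjective x
    change E (((b.toMul : N) : G) • r x) = _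
    rw [hr, ← mul_smul, ← coe_mul, ← hr, ← hr, hE, hE, ofMul_mul, map_add, map_add, add_comm]
    rfl

end Cfsg.Agent.S0737
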