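import Mathlib
import Cfsg.Statements.S0739
import Cfsg.Agent.H18.ZassOdd

set_option autoImplicit false
open scoped Pointwise
open Cfsg

namespace Cfsg.Agent.S0739

/-- In a finite Zassenhaus group whose two-point stabiliser `H = G_{a,b}` has odd order `d`, and which has no normal `q`-complement for any prime `q ∣ d`, `H` is cyclic, `C_G(H) = H`, and every element swapping `a` and `b` inverts each element of `H`. -/
theorem result {G Ω : Type*} [Group G] [Finite G] [MulAction G Ω] [Fintype Ω] (hZ : Cfsg.IsZassenhausGroup G Ω) {a b : Ω} (hab : a ≠ b) (hodd : Odd (Nat.card ↥(MulAction.stabilizer G a ⊓ MulAction.stabilizer G b))) (hnil : ∀ q : ℕ, q.Prime → q ∣ Nat.card ↥(MulAction.stabilizer G a ⊓ MulAction.stabilizer G b) → ¬ ∃ N : Subgroup G, N.Normal ∧ N.index = q ^ (Nat.card G).factorization q) : IsCyclic ↥(MulAction.stabilizer G a ⊓ MulAction.stabilizer G b) ∧ Subgroup.centralizer ((MulAction.stabilizer G a ⊓ MulAction.stabilizer G b : Subgroup G) : Set G) = MulAction.stabilizer G a ⊓ MulAction.stabilizer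 G b ∧ ∀ s : G, s • a = b → s • b = a → ∀ h ∈ MulAction.stabilizer G a ⊓ MulAction.stabilizer G b, s * h * s⁻¹ = h⁻¹ := by
    obtain ⟨F, hF⟩ := H18.zass_exists_ker hZ a
    have h := H18.Z3.of_zass hZ
    have hF1 := H18.zass_ker_ne_bot hZ hF
    obtain ⟨h1, h2⟩ := hF.inverts_of_odd h hab hF1 hodd (by
      intro q hq hqd P hP
      have h3 := MonoidHom.ker_transferSylow_isComplement' P hP
      refine hnil q hq.out hqd ⟨_, ?_, h3.symm.index_eq_card.trans P.card_eq_multiplicity⟩
      exact MonoidHom.normal_ker _)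
    refine ⟨hF.isCyclic_st2 h hab hF1 h1, le_antisymm ?_ fun x hx y hy => h1 y hy x hx,
      fun s s1 s2 => (h2 s s1 s2).2⟩
    intro g hg
    obtain ⟨x, hx1, hx⟩ := H07.Zass.exists_ne_one_mem_two hZ hab
    have e : x * g = g * x := hg x hx
    rcases h.mem_pairStab_of_conj hab (g := g) hx hx1 (by rw [← e, mul_inv_cancel_right]; exact hx) with h3 | h3
    · exact h3
    · exfalso
      have h4 := (h2 g h3.1 h3.2).2 x hx
      rw [← e, mul_inv_cancel_right, eq_inv_iff_mul_eq_one, ← sq] at h4
      apply hx1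
      rw [← orderOf_eq_one_iff]
      exact Nat.eq_one_of_dvd_coprimes (Nat.coprime_two_left.2 hodd) (orderOf_dvd_of_pow_eq_one h4)
        (Subgroup.orderOf_dvd_natCard _ hx)

end Cfsg.Agent.S0739
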