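import Mathlib
import Cfsg.Statements.S0744
import Cfsg.Agent.H18.Gleason

set_option autoImplicit false
open Cfsg

namespace Cfsg.Agent.S0744

/-- If for some `k > 1` the pointwise stabilisers of all `(k-1)`-subsets have the same order `> 1` and those of all `k`-subsets have the same order, then the group is `(k-1)`-transitive. -/
theorem result {α : Type*} [Fintype α] [DecidableEq α] (G : Subgroup (Equiv.Perm α)) {k : ℕ} (hk : 1 < k) (hkn : k ≤ Fintype.card α) (l m : ℕ) (hl : 1 < l) (hkm1 : ∀ s : Finset α, s.card = k - 1 → Nat.card (fixingSubgroup G (s : Set α)) = l) (hkm : ∀ s : Finset α, s.card = k → Nat.card (fixingSubgroup G (s : Set α)) = m) : MulAction.IsMultiplyPretransitive G α (k - 1) := by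
  have horb : ∀ s : Finset α, s.card = k - 1 → ∀ a ∉ s,
      l = Nat.card (MulAction.orbit (fixingSubgroup G (s : Set α)) a) * m := by
    intro s hs a ha
    rw [← hkm1 s hs, ← hkm (insert a s) (by rw [Finset.card_insert_of_notMem ha]; omega),
      Finset.coe_insert]
    exact H18.card_fixingSubgroup_insert _ a
  have hm0 : m ≠ 0 := by
    obtain ⟨s, -, hs⟩ := Finset.exists_subset_card_eq (s := Finset.univ) (n := k) (by simpa using hkn)
    rw [← hkm s hs]; exact Nat.card_pos.ne'
  obtain ⟨s0, -, hs0⟩ := Finset.exists_subset_card_eq (s := (Finset.univ : Finset α)) (n := k - 1)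
    (by simp; omega)
  have hne : fixingSubgroup G (s0 : Set α) ≠ ⊥ := by
    intro h
    have := hkm1 s0 hs0
    rw [h, Subgroup.card_bot] at this
    omega
  obtain ⟨g, hg, a, ha⟩ := H18.exists_move_of_ne_bot hne
  have has : a ∉ s0 := fun h => ha (hg ⟨a, h⟩)
  set r := Nat.card (MulAction.orbit (fixingSubgroup G (s0 : Set α)) a) with hr
  have hlr : l = r * m := horb s0 hs0 a has
  have hr1 : r ≠ 1 := by
    intro h
    rw [hr, Nat.card_eq_one_iff_unique] at h
    have := h.1.elim ⟨_, MulAction.mem_orbit a (⟨g, hg⟩ : fixingSubgroup G (s0 : Set α))⟩ ⟨a, MulAction.mem_orbit_self a⟩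
    exact ha (congrArg Subtype.val this)
  obtain ⟨p, hp, hpr⟩ := Nat.exists_prime_and_dvd hr1
  have := Fact.mk hp
  refine H18.gleason hp (by omega) (by omega) fun s hs => ?_
  obtain ⟨P⟩ : Nonempty (Sylow p (fixingSubgroup G (s : Set α))) := inferInstance
  refine ⟨(P : Subgroup _).map (fixingSubgroup G (s : Set α)).subtype, P.isPGroup'.map _, ?_⟩
  ext x
  constructor
  · intro hx
    by_contra hxs
    have h1 : (P : Subgroup _) ≤ MulAction.stabilizer (fixingSubgroup G (s : Set α)) x :=
      fun y hy => hx ⟨y, y, hy, rfl⟩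
    have h2 := Subgroup.index_dvd_of_le h1
    rw [MulAction.index_stabilizer, ← Nat.card_coe_set_eq] at h2
    have h3 := horb s hs x hxs
    rw [hlr] at h3
    rw [← Nat.eq_of_mul_eq_mul_right (Nat.pos_of_ne_zero hm0) h3] at h2
    exact P.not_dvd_index (hpr.trans h2)
  · rintro hx ⟨_, y, hy, rfl⟩
    exact y.2 ⟨x, hx⟩

end Cfsg.Agent.S0744
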