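import Mathlib
import Cfsg.Statements.S0745
import Cfsg.Agent.H05.Homog2
import Cfsg.Agent.H18.Sharp2
import Cfsg.Agent.S0744

set_option autoImplicit false
open Cfsg

namespace Cfsg.Agent.S0745

open MulAction H05.Hom in
theorem no_prime {G α : Type*} [Group G] [MulAction G α] [Fintype α] {t d p m : ℕ}
    (h : St G α (t + 1) d) (hp : p.Prime) (hα : Fintype.card α = p)
    (hm : p.descFactorial (t + 1) * d = p * m) : m % p ∣ p - 1 := by
  have := h.trans
  have := h.finite
  have := h.faith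
  have := Fact.mk hp
  exact (H14.prime_degree hp hα (hm ▸ hα ▸ h.card) default).1

theorem ar4 : ∀ e ∈ Finset.range 7, ∀ r ∈ Finset.range 25, e ∣ 6 → e * r ∣ 24 → e ≠ 1 → e ∣ r + 1 →
    ¬ 2 * e ∣ r + 1 → (e = 2 ∧ r = 1) ∨ (e = 3 ∧ r = 2) ∨ (e = 3 ∧ r = 8) := by decide +kernel

theorem ar5 : ∀ e ∈ Finset.range 25, ∀ r ∈ Finset.range 121, e ∣ 24 → e * r ∣ 120 → e ≠ 1 →
    e ∣ r + 1 → ¬ 2 * e ∣ r + 1 → (e = 2 ∧ r = 1) ∨ (e = 2 ∧ r = 5) ∨ (e = 3 ∧ r = 2) ∨
    (e = 3 ∧ r = 8) ∨ (e = 3 ∧ r = 20) ∨ (e = 4 ∧ r = 3) ∨ (e = 6 ∧ r = 5) := by decide +kernel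

/-- Let `G` have degree `n` and `3 ≤ k ≤ n`; suppose `G` is `(k-2)`-transitive but not `(k-1)`-transitive, and is `(k-1)`-homogeneous and `k`-homogeneous. Then `k = n` and `G` is the alternating group, or `n = 5, k = 4, |G| = 20`, or `n = 6, k = 5, |G| = 120`, or `n = 9, k = 5, |G| ∈ {504, 1512}`. -/
theorem result {α : Type*} [Fintype α] [DecidableEq α] (G : Subgroup (Equiv.Perm α)) {k : ℕ} (hk : 3 ≤ k) (hkn : k ≤ Fintype.card α) (ht : MulAction.IsMultiplyPretransitive G α (k - 2)) (hnt : ¬ MulAction.IsMultiplyPretransitive G α (k - 1)) (hh1 : MulAction.IsPretransitive G (Set.powersetCard α (k - 1))) (hh : MulAction.IsPretransitive G (Set.powersetCard α k)) : (k = Fintype.card α ∧ G = alternatingGroup α) ∨ (Fintype.card α = 5 ∧ k = 4 ∧ Nat.card G = 20) ∨ (Fintype.card α = 6 ∧ k = 5 ∧ Nat.card G = 120) ∨ (Fintype.card α = 9 ∧ k = 5 ∧ (Nat.card G = 504 ∨ Nat.card G = 1512)) := by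
  open MulAction H05.Hom in
  obtain ⟨t, rfl⟩ : ∃ t, k = t + 3 := ⟨k - 3, by omega⟩
  have H1 : Hom G α (t + 2) := (hom_iff (G := G)).1 hh1
  have H2 : Hom G α (t + 3) := (hom_iff (G := G)).1 hh
  replace ht : IsMultiplyPretransitive G α (t + 1) := ht
  replace hnt : ¬ IsMultiplyPretransitive G α (t + 2) := hnt
  have ex : ∀ j, j ≤ t + 3 → ∃ s : Finset α, s.card = j := fun j hj => by
    obtain ⟨s, -, hs⟩ := Finset.exists_subset_card_eq (s := (Finset.univ : Finset α)) (n := j)
      (by simp; omega)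
    exact ⟨s, hs⟩
  obtain ⟨s1, hs1⟩ := ex (t + 1) (by omega)
  obtain ⟨s2, hs2⟩ := ex (t + 2) (by omega)
  obtain ⟨s3, hs3⟩ := ex (t + 3) (by omega)
  have hfix : ∀ s : Finset α, s.card = t + 2 → Nat.card (fixingSubgroup G (s : Set α)) = 1 := by
    intro s hs
    by_contra hne
    have : 0 < Nat.card (fixingSubgroup G (s : Set α)) := Nat.card_pos
    exact hnt (Cfsg.Agent.S0744.result G (k := t + 3) (by omega) hkn _ _ (by omega)
      (fun u hu => H1.card_fix hu hs) (fun u hu => H2.card_fix hu hs3))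
  have hfree : ∀ s : Finset α, s.card = t + 2 → ∀ g : G, (∀ x ∈ s, g • x = x) → g = 1 := by
    intro s hs g hg
    have h1 := Subgroup.card_eq_one.1 (hfix s hs)
    have : g ∈ fixingSubgroup G (s : Set α) := fun y => hg y y.2
    rwa [h1, Subgroup.mem_bot] at this
  have S := st_of ht hs1
  have horb := H18.card_fixingSubgroup_insert (G := G) (s1 : Set α)
  generalize Nat.card (fixingSubgroup G (s1 : Set α)) = d at S horb
  have hodd : Odd d := by
    by_contra he
    rw [Nat.not_odd_iff_even] at he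
    exact hnt (H1.mt_of_top (x := (Subtype.val : s2 → α)) (by simpa using hs2) Subtype.val_injective
      (S.Ind_top he hfree (by simpa using hs2) Subtype.val_injective))
  obtain ⟨r, hr⟩ : ∃ r, Fintype.card α = t + 2 + r := ⟨Fintype.card α - (t + 2), by omega⟩
  have hr1 : 1 ≤ r := by omega
  have hc := S.card
  have hpos : 0 < (Fintype.card α).descFactorial (t + 1) := Nat.descFactorial_pos.2 (by omega)
  have hd0 : 0 < d := hodd.pos
  obtain ⟨e, he⟩ := card_stab_dvd (hfree s2 hs2)
  obtain ⟨f, hf⟩ := card_stab_dvd (s := s3) (G := G) fun g hg => by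
    obtain ⟨u, hu, hu'⟩ := Finset.exists_subset_card_eq (s := s3) (n := t + 2) (by omega)
    exact hfree u hu' g fun x hx => hg x (hu hx)
  rw [hs2] at he
  rw [hs3] at hf
  have hde : d * e = r + 1 := by
    have h1 := Nat.descFactorial_eq_factorial_mul_choose (Fintype.card α) (t + 2)
    rw [he, Nat.descFactorial_succ, mul_right_comm, mul_comm (Nat.card _), ← H1.card hs2, hc,
      mul_assoc, mul_comm] at h1
    have := Nat.eq_of_mul_eq_mul_left hpos h1
    omega
  have hfe : f = e * r := by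
    have h1 := Nat.descFactorial_eq_factorial_mul_choose (Fintype.card α) (t + 3)
    rw [hf, Nat.descFactorial_succ, Nat.descFactorial_succ, mul_right_comm, mul_comm (Nat.card _),
      ← H2.card hs3, hc, ← mul_assoc, mul_comm, mul_assoc _ d] at h1
    have := Nat.eq_of_mul_eq_mul_left hpos h1
    rw [show Fintype.card α - (t + 2) = r by omega, show Fintype.card α - (t + 1) = d * e by omega,
      mul_comm, mul_assoc] at this
    exact (Nat.eq_of_mul_eq_mul_left hd0 this).symm
  have he1 : e ≠ 1 := by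
    rintro rfl
    refine hnt (H18.mt_succ_of_exists ht s1 hs1 fun a b ha hb => ?_)
    have h1 := horb a
    rw [← Finset.coe_insert, hfix _ (by rw [Finset.card_insert_of_notMem ha, hs1]), mul_one] at h1
    have h2 : orbit (fixingSubgroup G (s1 : Set α)) a = (s1 : Set α)ᶜ := by
      refine Set.eq_of_subset_of_ncard_le ?_ ?_
      · rintro _ ⟨g, rfl⟩ hx
        exact ha (by
          have := g.2 ⟨_, hx⟩
          have h3 : (g : G) • a = a := smul_left_cancel (g : G) this
          rwa [← h3])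
      · rw [← Nat.card_coe_set_eq (orbit _ _), ← h1, ← Finset.coe_compl, Set.ncard_coe_finset,
          Finset.card_compl]
        omega
    obtain ⟨g, hg⟩ : b ∈ orbit (fixingSubgroup G (s1 : Set α)) a := h2 ▸ hb
    exact ⟨g, fun x hx => g.2 ⟨x, hx⟩, hg⟩
  have hE : e ∣ (t + 2).factorial := Dvd.intro_left _ he.symm
  have hF : e * r ∣ (t + 3).factorial := hfe ▸ Dvd.intro_left _ hf.symm
  have hE' : e ∣ r + 1 := Dvd.intro_left _ hde
  have he0 : 0 < e := Nat.pos_of_dvd_of_pos hE' (by omega)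
  have hE2 : ¬ 2 * e ∣ r + 1 := by
    rw [← hde, Nat.mul_dvd_mul_iff_right he0, ← even_iff_two_dvd, Nat.not_even_iff_odd]
    exact hodd
  have hA : r = 1 → t + 3 = Fintype.card α ∧ G = alternatingGroup α := by
    rintro rfl
    refine ⟨hr.symm, Equiv.Perm.eq_alternatingGroup_of_index_eq_two ?_⟩
    have h1 := G.card_mul_index
    have hd1 : d = 1 := by
      have : d ≤ 2 := Nat.le_of_dvd (by omega) (Dvd.intro _ hde)
      obtain ⟨c, hc⟩ := hodd
      omega
    rw [Nat.card_perm, Nat.card_eq_fintype_card (α := α), hc, hd1, mul_one,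
      ← Nat.factorial_mul_descFactorial S.le, show Fintype.card α - (t + 1) = 2 by omega,
      mul_comm (Nat.factorial 2)] at h1
    exact Nat.eq_of_mul_eq_mul_left hpos h1
  have hrle : r ≤ (t + 3).factorial :=
    Nat.le_of_dvd (Nat.factorial_pos _) ((Dvd.intro_left _ rfl).trans hF)
  have hele : e ≤ (t + 2).factorial := Nat.le_of_dvd (Nat.factorial_pos _) hE
  obtain ⟨a⟩ : Nonempty α := Fintype.card_pos_iff.1 (by omega)
  haveI : Fintype (SubMulAction.ofStabilizer G a) := Fintype.ofFinite _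
  have hca := H14.Sharp.card_ofStab (G := G) a
  have S' := S.stab a
  match t with
  | 0 =>
    refine Or.inl (hA ?_)
    simp only [Nat.factorial] at hrle hele hF
    obtain rfl : e = 2 := by omega
    interval_cases r <;> omega
  | 1 =>
    rcases ar4 e (Finset.mem_range.2 (Nat.lt_succ_of_le hele)) r
      (Finset.mem_range.2 (Nat.lt_succ_of_le hrle)) hE hF he1 hE' hE2 with h | h | h
    · exact Or.inl (hA h.2)
    · obtain ⟨rfl, rfl⟩ := h
      obtain rfl : d = 1 := by omega
      exact Or.inr (Or.inl ⟨hr, rfl, by rw [hc, hr]; rfl⟩)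
    · obtain ⟨rfl, rfl⟩ := h
      obtain rfl : d = 3 := by omega
      exact absurd (no_prime S (p := 11) (m := 30) (by norm_num) hr rfl) (by decide)
  | 2 =>
    rcases ar5 e (Finset.mem_range.2 (Nat.lt_succ_of_le hele)) r
      (Finset.mem_range.2 (Nat.lt_succ_of_le hrle)) hE hF he1 hE' hE2 with h | h | h | h | h | h | h
    · exact Or.inl (hA h.2)
    · obtain ⟨rfl, rfl⟩ := h
      obtain rfl : d = 3 := by omega
      exact Or.inr (Or.inr (Or.inr ⟨hr, rfl, Or.inr (by rw [hc, hr]; rfl)⟩))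
    · obtain ⟨rfl, rfl⟩ := h
      obtain rfl : d = 1 := by omega
      exact Or.inr (Or.inr (Or.inl ⟨hr, rfl, by rw [hc, hr]; rfl⟩))
    · obtain ⟨rfl, rfl⟩ := h
      obtain rfl : d = 3 := by omega
      exact absurd (no_prime S' (p := 11) (m := 30) (by norm_num) (by omega) rfl) (by decide)
    · obtain ⟨rfl, rfl⟩ := h
      obtain rfl : d = 7 := by omega
      exact absurd (no_prime S' (p := 23) (m := 154) (by norm_num) (by omega) rfl) (by decide)
    · obtain ⟨rfl, rfl⟩ := h
      obtain rfl : d = 1 := by omega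
      exfalso
      have hS := S'.sharp
      obtain ⟨p, j, hp, hj, hpj, -⟩ := H18.frob_normal_struct hS.1 (by omega) ⊤
        ⟨fun x y => by
          obtain ⟨g, hg⟩ := S'.trans.exists_smul_eq x y
          exact ⟨⟨g, trivial⟩, hg⟩⟩
        (fun g _ => H18.sharp_two_iff.1 hS.2 g)
      have h6 : p ^ j = 6 := by omega
      have h2 := (Nat.prime_dvd_prime_iff_eq Nat.prime_two hp).1
        (Nat.prime_two.dvd_of_dvd_pow (n := j) (by rw [h6]; norm_num))
      have h3 := (Nat.prime_dvd_prime_iff_eq Nat.prime_three hp).1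
        (Nat.prime_three.dvd_of_dvd_pow (n := j) (by rw [h6]; norm_num))
      omega
    · obtain ⟨rfl, rfl⟩ := h
      obtain rfl : d = 1 := by omega
      exact Or.inr (Or.inr (Or.inr ⟨hr, rfl, Or.inl (by rw [hc, hr]; rfl)⟩))
  | t + 3 =>
    refine Or.inl (hA ?_)
    have S4 : St G α (4 + t) d := by rwa [show 4 + t = t + 3 + 1 by omega]
    rcases St.hall t S4 hodd with h | h | h
    · omega
    · obtain ⟨h, rfl⟩ := h
      omega
    · exfalso
      obtain ⟨h, rfl⟩ := h
      obtain rfl : e = 7 := by omega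
      have := (Nat.Prime.dvd_factorial (by norm_num)).1 hE
      obtain ⟨j, rfl⟩ : ∃ j, t = j + 2 := ⟨t - 2, by omega⟩
      have := H14.Sharp.deg6 j (G := G) (α := α) (by rw [show 6 + j = 4 + (j + 2) by omega]; exact S4.sharp)
        (by omega)
      omega

end Cfsg.Agent.S0745
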