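import Mathlib
import Cfsg.Statements.S0746
import Cfsg.Agent.H05.Homog2
import Cfsg.Agent.S0745

set_option autoImplicit false
open Cfsg

namespace Cfsg.Agent.S0746

/-- The Livingstone–Wagner Theorem, first form: a `k`-homogeneous group of degree `n` with `4 ≤ 2k ≤ n` is `(k-1)`-transitive. -/
theorem result {α : Type*} [Fintype α] [DecidableEq α] (G : Subgroup (Equiv.Perm α)) {k : ℕ} (hk : 2 ≤ k) (hkn : 2 * k ≤ Fintype.card α) (hh : MulAction.IsPretransitive G (Set.powersetCard α k)) : MulAction.IsMultiplyPretransitive G α (k - 1) := by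
  obtain ⟨j, rfl⟩ : ∃ j, k = j + 2 := ⟨k - 2, by omega⟩
  clear hk
  induction j with
  | zero =>
    have h1 : H05.Hom.Hom G α 1 := ((H05.Hom.hom_iff (G := G)).1 hh).pred' (by omega)
    refine MulAction.is_one_pretransitive_iff.2 ⟨fun a b => ?_⟩
    obtain ⟨g, hg⟩ := h1 {a} {b} (by simp) (by simp)
    exact ⟨g, by simpa using hg⟩
  | succ j ih =>
    have h1 := (H05.Hom.hom_iff (G := G)).2
      (H05.Hom.Hom.pred' (j := j + 2) ((H05.Hom.hom_iff (G := G)).1 hh) (by omega))
    by_contra hn
    have := Cfsg.Agent.S0745.result G (k := j + 3) (by omega) (by omega) (ih (by omega) h1) hn h1 hh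
    omega

end Cfsg.Agent.S0746
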