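import Mathlib
import Cfsg.Statements.S0748
import Cfsg.Agent.H05.Homog3
import Cfsg.Agent.S0746

set_option autoImplicit false
open Cfsg

namespace Cfsg.Agent.S0748

/-- The Livingstone–Wagner Theorem: a `k`-homogeneous permutation group of degree `n` with `10 ≤ 2k ≤ n` is `k`-transitive. -/
theorem result {α : Type*} [Fintype α] [DecidableEq α] (G : Subgroup (Equiv.Perm α)) {k : ℕ} (hk : 5 ≤ k) (hkn : 2 * k ≤ Fintype.card α) (hh : MulAction.IsPretransitive G (Set.powersetCard α k)) : MulAction.IsMultiplyPretransitive G α k := by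
  open MulAction H05.Hom in
  obtain ⟨j, rfl⟩ : ∃ j, k = 4 + j + 1 := ⟨k - 5, by omega⟩
  have h1 : IsMultiplyPretransitive G α (4 + j) := Cfsg.Agent.S0746.result G (by omega) hkn hh
  have H : Hom G α (4 + j + 1) := (hom_iff (G := G)).1 hh
  obtain ⟨s, hs, hA⟩ := ai_of_mt (by omega) _ G rfl (by omega) h1
  by_contra hn
  obtain ⟨Z, -, hZ⟩ := Finset.exists_subset_card_eq (s := (Finset.univ : Finset α)) (n := 3 + j)
    (by simp; omega)
  have hodd : ¬ 2 ∣ Nat.card (fixingSubgroup G (Z : Set α)) := by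
    intro h2
    obtain ⟨t, ht⟩ := exists_prime_orderOf_dvd_card' 2 h2
    rw [← Subgroup.orderOf_coe] at ht
    obtain ⟨a, ha⟩ : ∃ a : α, (t : G) • a ≠ a := by
      by_contra hh
      push Not at hh
      have : (t : G) = 1 := Subtype.ext (Equiv.ext hh)
      rw [this, orderOf_one] at ht
      omega
    have tt : ∀ x : α, (t : G) • (t : G) • x = x := fun x => by
      rw [← mul_smul, ← pow_two, ← ht, pow_orderOf_eq_one, one_smul]
    have haZ : a ∉ Z := fun h => ha (t.2 ⟨a, h⟩)
    have hbZ : (t : G) • a ∉ Z := fun h => ha (smul_left_cancel (t : G) (t.2 ⟨_, h⟩))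
    obtain ⟨g, hg⟩ := H (insert a (insert ((t : G) • a) Z)) s (by
      rw [Finset.card_insert_of_notMem (by simp [ha.symm, haZ]), Finset.card_insert_of_notMem hbZ]
      omega) hs
    have m1 : g • a ∈ s := hg ▸ Finset.smul_mem_smul_finset (by simp)
    have m2 : g • (t : G) • a ∈ s := hg ▸ Finset.smul_mem_smul_finset (by simp)
    have hne : (⟨_, m1⟩ : s) ≠ ⟨_, m2⟩ := fun e =>
      ha (smul_left_cancel g (congrArg Subtype.val e)).symm
    have hsw : Equiv.swap (⟨_, m1⟩ : s) ⟨_, m2⟩ ∈ Ind G (Subtype.val : s → α) := by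
      refine swap_mem_Ind (g * t * g⁻¹) (by simp [mul_smul]) (by simp [mul_smul, tt]) ?_
      rintro ⟨l, hl⟩ e1 e2
      rw [← hg] at hl
      obtain ⟨w, hw, rfl⟩ := Finset.mem_smul_finset.1 hl
      simp only [Finset.mem_insert] at hw
      rcases hw with rfl | rfl | hw
      · exact absurd rfl e1
      · exact absurd rfl e2
      · have : (t : G) • w = w := t.2 ⟨w, hw⟩
        simp [mul_smul, this]
    refine hn (H.mt_of_top (x := (Subtype.val : s → α)) (by simpa using hs) Subtype.val_injective (eq_top_iff.2 fun σ _ => ?_))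
    rcases Int.units_eq_one_or (Equiv.Perm.sign σ) with e | e
    · exact hA e
    · exact (Subgroup.mul_mem_cancel_left _ hsw).1 (hA (by
        rw [Equiv.Perm.mem_alternatingGroup, map_mul, e, Equiv.Perm.sign_swap hne]; rfl))
  obtain ⟨a, ha⟩ : ∃ a, a ∉ Z := by
    by_contra hh
    push Not at hh
    have := Finset.card_le_card (show Finset.univ ⊆ Z from fun x _ => hh x)
    rw [Finset.card_univ] at this
    omega
  have S := st_of h1 (s := insert a Z) (by rw [Finset.card_insert_of_notMem ha]; omega)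
  have S' := st_of (H18.mt_le h1 (show 3 + j ≤ 4 + j by omega) S.le) hZ
  have e := S.card
  rw [S'.card, show 4 + j = 3 + j + 1 by omega, Nat.descFactorial_succ, mul_comm (_ - _), mul_assoc] at e
  have e' := Nat.eq_of_mul_eq_mul_left (Nat.descFactorial_pos.2 S'.le) e
  rw [e'] at hodd
  have hd := St.hall j S (by
    rw [← Nat.not_even_iff_odd, even_iff_two_dvd]; exact fun h => hodd (h.mul_left _))
  exact hodd (Dvd.dvd.mul_right (by omega) _)

end Cfsg.Agent.S0748
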