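import Mathlib
import Cfsg.Statements.S0752
import Cfsg.Agent.H09.SpOrder

set_option autoImplicit false
open Cfsg

namespace Cfsg.Agent.S0752

/-- Classification of alternating forms: for an alternating bilinear form B on a finite-dimensional space over any field there is a basis indexed by (Fin m ⊕ Fin m) ⊕ Fin k such that B (e_i, f_j) = δ_ij, the e's are pairwise orthogonal, the f's are pairwise orthogonal, and the last k basis vectors are orthogonal to everything (they span the radical). -/
theorem result {F V : Type*} [Field F] [AddCommGroup V] [Module F V] [FiniteDimensional F V] (B : LinearMap.BilinForm F V) (hA : B.IsAlt) : ∃ (m k : ℕ) (b : Module.Basis ((Fin m ⊕ Fin m) ⊕ Fin k) F V), (∀ i j : Fin m, B (b (Sum.inl (Sum.inl i))) (b (Sum.inl (Sum.inr j))) = if i = j then 1 else 0) ∧ (∀ i j : Fin m, B (b (Sum.inl (Sum.inl i))) (b (Sum.inl (Sum.inl j))) = 0) ∧ (∀ i j : Fin m, B (b (Sum.inl (Sum.inr i))) (b (Sum.inl (Sum.inr j))) = 0) ∧ (∀ (j : Fin k) (v : V), B (b (Sum.inr j)) v = 0) := by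
  obtain ⟨W, hW⟩ := (LinearMap.ker B).exists_isCompl
  obtain ⟨m, e, f, h1, h2, h3, h4⟩ := H09.exists_symp_family hA W fun u hu h0 => by
    have : u ∈ LinearMap.ker B := by
      rw [LinearMap.mem_ker]
      ext v
      obtain ⟨a, ha, b, hb, rfl⟩ := Submodule.mem_sup.1 (hW.sup_eq_top ▸ Submodule.mem_top : v ∈ LinearMap.ker B ⊔ W)
      have : B u a = 0 := hA.isRefl _ _ (by rw [LinearMap.mem_ker.1 ha]; rfl)
      simp [this, h0 b hb]
    exact (Submodule.disjoint_def.1 hW.disjoint) u this hu
  let c := Module.finBasis F (LinearMap.ker B)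
  have hc : Submodule.span F (Set.range fun j => (c j : V)) = LinearMap.ker B := by
    have := congrArg (Submodule.map (LinearMap.ker B).subtype) c.span_eq
    rwa [Submodule.map_span, ← Set.range_comp, Submodule.map_top, Submodule.range_subtype] at this
  have hli : LinearIndependent F (Sum.elim (Sum.elim e f) fun j => (c j : V)) :=
    LinearIndependent.sum_type (H09.symp_family_li hA h1 h2 h3)
      (c.linearIndependent.map' _ (Submodule.ker_subtype _)) (by rw [h4, hc]; exact hW.disjoint.symm)
  have hsp : ⊤ ≤ Submodule.span F (Set.range (Sum.elim (Sum.elim e f) fun j => (c j : V))) := by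
    rw [Set.Sum.elim_range, Submodule.span_union, h4, hc, sup_comm, hW.sup_eq_top]
  refine ⟨m, _, Module.Basis.mk hli hsp, by simpa using h1, by simpa using h2, by simpa using h3, ?_⟩
  intro j v
  simp [LinearMap.mem_ker.1 (c j).2]

end Cfsg.Agent.S0752
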