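import Mathlib
import Cfsg.Statements.S0757

set_option autoImplicit false
open Cfsg

namespace Cfsg.Agent.S0757

/-- The two diagonal forms Σ x_i^2 and Σ_(i<n) x_i^2 + α x_n^2 on F^(n+1), with α a non-square and 2 ≠ 0 in F, are inequivalent quadratic forms (so over a finite field of odd order there are exactly two classes of non-singular symmetric bilinear forms in each dimension). -/
theorem result {F : Type*} [Field F] (h2 : (2 : F) ≠ 0) (n : ℕ) (α : F) (hα : ¬ IsSquare α) : ¬ (QuadraticMap.weightedSumSquares F (fun _ : Fin (n + 1) => (1 : F))).Equivalent (QuadraticMap.weightedSumSquares F (fun i : Fin (n + 1) => if i = Fin.last n then α else (1 : F))) := by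
  rintro ⟨e⟩
  letI : Invertible (2 : F) := invertibleOfNonzero h2
  have hd : ∀ w : Fin (n + 1) → F, QuadraticForm.discr' (QuadraticMap.weightedSumSquares F w) = ∏ i, w i := by
    intro w
    rw [← Matrix.det_diagonal, QuadraticForm.discr']
    congr 1
    ext i j
    rw [QuadraticForm.toMatrix', LinearMap.toMatrix₂'_apply, QuadraticMap.associated_apply]
    simp only [QuadraticMap.weightedSumSquares_apply]
    rw [← Finset.sum_sub_distrib, ← Finset.sum_sub_distrib, Finset.sum_eq_single i]
    · by_cases hij : i = j
      · subst hij
        simp [Module.End.smul_def]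
        field_simp; ring
      · simp [hij]
    · intro k _ hk; simp [hk]
    · simp
  have h1 : QuadraticMap.weightedSumSquares F (fun i : Fin (n + 1) => if i = Fin.last n then α else (1 : F)) =
      (QuadraticMap.weightedSumSquares F (fun _ : Fin (n + 1) => (1 : F))).comp e.symm.toLinearEquiv.toLinearMap := by
    ext x; exact (e.symm.map_app x).symm
  have := congrArg QuadraticForm.discr' h1
  rw [QuadraticForm.discr'_comp, hd, hd] at this
  exact hα ⟨_, by simpa using this⟩

end Cfsg.Agent.S0757
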