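import Mathlib
import Cfsg.Agent.H10.Sym
import Cfsg.Statements.S0758

set_option autoImplicit false
open Cfsg

namespace Cfsg.Agent.S0758

/-- For a finite field F of odd order q and a non-square α: the form x² + y² is isotropic iff q ≡ 1 mod 4, and the form x² + α y² is isotropic iff q ≡ 3 mod 4. -/
theorem result {F : Type*} [Field F] [Fintype F] (h2 : (2 : F) ≠ 0) (α : F) (hα : ¬ IsSquare α) : ((∃ x y : F, (x ≠ 0 ∨ y ≠ 0) ∧ x ^ 2 + y ^ 2 = 0) ↔ Fintype.card F % 4 = 1) ∧ ((∃ x y : F, (x ≠ 0 ∨ y ≠ 0) ∧ x ^ 2 + α * y ^ 2 = 0) ↔ Fintype.card F % 4 = 3) := by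
  have hα0 : α ≠ 0 := by rintro rfl; exact hα IsSquare.zero
  have key : ∀ c : F, c ≠ 0 → ((∃ x y : F, (x ≠ 0 ∨ y ≠ 0) ∧ x ^ 2 + c * y ^ 2 = 0) ↔
      H10.chi (-1 : F) * H10.chi c = 1) := by
    intro c hc
    rw [← H10.chi_mul (by simp) hc, H10.chi_eq_one_iff]
    constructor
    · rintro ⟨x, y, hxy, h⟩
      have hy : y ≠ 0 := by rintro rfl; simp_all
      exact ⟨x / y, by field_simp; linear_combination -h⟩
    · rintro ⟨r, hr⟩
      exact ⟨r, 1, .inr one_ne_zero, by linear_combination -hr⟩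
  have k1 := key 1 one_ne_zero
  simp only [one_mul] at k1
  rw [k1, key α hα0, H10.chi_eq_neg_one_iff.2 hα]
  have h1 := H10.chi_neg_one_pow h2 1
  simp only [pow_one, Nat.card_eq_fintype_card] at h1
  rcases h1 with ⟨h1, h3⟩ | ⟨h1, h3⟩ <;> simp [h1, h3]

end Cfsg.Agent.S0758
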