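import Mathlib
import Cfsg.Agent.H10.Sym
import Cfsg.Statements.S0759

set_option autoImplicit false
open Cfsg

namespace Cfsg.Agent.S0759

/-- Type of the orthonormal form: over a finite field of odd order q and for m ≥ 1, the quadratic form Σ_(i<2m) x_i² on F^(2m) admits an m-dimensional subspace on which it vanishes identically if and only if it is not the case that q ≡ 3 (mod 4) and m is odd. -/
theorem result {F : Type*} [Field F] [Fintype F] (h2 : (2 : F) ≠ 0) (m : ℕ) (hm : 1 ≤ m) : (∃ W : Submodule F (Fin (2 * m) → F), Module.finrank F W = m ∧ ∀ w ∈ W, ∑ i, w i ^ 2 = 0) ↔ ¬ (Fintype.card F % 4 = 3 ∧ Odd m) := by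
  let Q : QuadraticForm F (Fin (2 * m) → F) := QuadraticMap.weightedSumSquares F fun _ => (1 : F)
  have hQ : ∀ w, (H10.Form.ofQuad Q).Q w = ∑ i, w i ^ 2 := fun w => by
    simp [Q, QuadraticMap.weightedSumSquares_apply, sq]
  have h := H10.Form.isQuad_ofQuad Q
  have hb : ∀ i, (H10.Form.ofQuad Q).Q (Pi.basisFun F _ i) = 1 := fun i => by
    rw [hQ, Finset.sum_eq_single i] <;> simp +contextual [Pi.single_apply]
  have ho : ∀ i j, i ≠ j → (H10.Form.ofQuad Q).B (Pi.basisFun F _ i) (Pi.basisFun F _ j) = 0 := by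
    intro i j hij
    have := h.Q_add (Pi.basisFun F _ i) (Pi.basisFun F _ j)
    rw [hb, hb, hQ, Finset.sum_eq_add i j hij] at this
    · simp [hij, hij.symm] at this; simpa using this
    all_goals simp +contextual [Pi.single_apply]
  have := H10.Form.nondeg_of_orth_basis _ (Pi.basisFun F _) ho
    fun i => h.B_self_ne_zero h2 (by simp only [hb]; exact one_ne_zero)
  have key := h.hasTS_iff_of_basis h2 (m := m) (by simp) (Pi.basisFun F _) ho
    (fun i => by simp only [hb]; exact one_ne_zero)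
  have e : (∃ W : Submodule F (Fin (2 * m) → F), Module.finrank F W = m ∧ ∀ w ∈ W, ∑ i, w i ^ 2 = 0) ↔
      (H10.Form.ofQuad Q).HasTS m :=
    ⟨fun ⟨W, h1, h3⟩ => ⟨W, h.ts fun x hx => by rw [hQ, h3 x hx], h1⟩,
      fun ⟨W, h1, h3⟩ => ⟨W, h3, fun x hx => by rw [← hQ, h1.Q x hx]⟩⟩
  rw [e, key]
  simp only [hb, Finset.prod_const_one, H10.chi_one]
  have h1 := H10.chi_neg_one_pow h2 1
  simp only [pow_one, Nat.card_eq_fintype_card] at h1
  rcases h1 with ⟨h1, h3⟩ | ⟨h1, h3⟩
  · simp [h1, h3]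
  · rcases Nat.even_or_odd m with he | he
    · simp [h1, h3, he.neg_one_pow, Nat.not_odd_iff_even.2 he]
    · simp [h1, h3, he.neg_one_pow, he]

end Cfsg.Agent.S0759
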