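import Mathlib
import Cfsg.Agent.H10.Quad
import Cfsg.Statements.S0763

set_option autoImplicit false
open Cfsg

namespace Cfsg.Agent.S0763

/-- Binary quadratic forms in characteristic two over a finite field: if Q is a quadratic form on a 2-dimensional space whose polar form is non-degenerate, then either there are vectors v, w with Q v = Q w = 0 and polar value 1 (Q is xy in these coordinates), or there are v, w and μ with Q v = 1, Q w = μ, polar value 1 and x² + x + μ without roots in F (Q is x² + xy + μy²). -/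
theorem result {F V : Type*} [Field F] [Finite F] [CharP F 2] [AddCommGroup V] [Module F V] (Q : QuadraticForm F V) (h2 : Module.finrank F V = 2) (hQ : (QuadraticMap.polarBilin Q).Nondegenerate) : (∃ v w : V, LinearIndependent F ![v, w] ∧ Q v = 0 ∧ Q w = 0 ∧ QuadraticMap.polar Q v w = 1) ∨ (∃ (v w : V) (μ : F), LinearIndependent F ![v, w] ∧ (∀ x : F, x ^ 2 + x + μ ≠ 0) ∧ Q v = 1 ∧ Q w = μ ∧ QuadraticMap.polar Q v w = 1) := by
  have := H10.Form.ofQuad_nondeg hQ
  have h := H10.Form.isQuad_ofQuad Q
  by_cases ha : ∀ v, Q v = 0 → v = 0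
  · right
    obtain ⟨v, -, hv⟩ := h.exists_Q_eq_of_aniso (W := ⊤) (by simp [h2]) (fun v _ => ha v) 1
    have hv0 : v ≠ 0 := by rintro rfl; simp at hv
    obtain ⟨w, hw⟩ := (H10.Form.ofQuad Q).exists_B_eq_one hv0
    have h2' : (2 : F) = 0 := CharTwo.two_eq_zero
    have hli := (H10.Form.ofQuad Q).linearIndependent_pair_of_gram (e := v) (f := w)
      (by rw [h.B_self, h2', hw, h.B_comm w v, hw]; simp)
    refine ⟨v, w, Q w, hli, fun x hx => ?_, hv, rfl, hw⟩
    have := ha _ ((h.Q_comb x 1 v w).trans (by rw [hv, hw]; simpa [add_right_comm] using hx))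
    simpa using (LinearIndependent.pair_iff.1 hli _ _ this).2
  · left
    push Not at ha
    obtain ⟨v, hv, hv0⟩ := ha
    obtain ⟨w, hw⟩ := (H10.Form.ofQuad Q).exists_hyp hv hv0
    exact ⟨v, w, hw.li, hw.Qe, hw.Qf, hw.Bef⟩

end Cfsg.Agent.S0763
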