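import Mathlib
import Cfsg.Statements.S0769
import Cfsg.Agent.H09.SLBasic

set_option autoImplicit false
open Cfsg

namespace Cfsg.Agent.S0769

/-- Order of the Borel subgroup of GL_n(q): the invertible lower-triangular n × n matrices over a field with q elements number q^(n(n-1)/2) (q-1)^n (unitriangular part times the diagonal torus). -/
theorem result {F : Type*} [Field F] [Fintype F] {q : ℕ} (hF : Fintype.card F = q) (n : ℕ) : Nat.card {g : Matrix.GeneralLinearGroup (Fin n) F // ∀ i j : Fin n, i < j → (g : Matrix (Fin n) (Fin n) F) i j = 0} = q ^ (n * (n - 1) / 2) * (q - 1) ^ n := by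
  classical
  subst hF
  let e : {g : Matrix.GeneralLinearGroup (Fin n) F // ∀ i j : Fin n, i < j → (g : Matrix (Fin n) (Fin n) F) i j = 0}
      ≃ ({p : Fin n × Fin n // p.2 < p.1} → F) × (Fin n → Fˣ) :=
    { toFun := fun g => (fun p => (g.1 : Matrix (Fin n) (Fin n) F) p.1.1 p.1.2, fun i =>
        Units.mk0 ((g.1 : Matrix (Fin n) (Fin n) F) i i) (by
          have h1 := g.1.det_ne_zero
          rw [Matrix.det_of_lowerTriangular _ (fun i j hij => g.2 i j hij)] at h1
          exact Finset.prod_ne_zero_iff.1 h1 i (Finset.mem_univ i)))
      invFun := fun x => ⟨Matrix.GeneralLinearGroup.mkOfDetNeZero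
          (Matrix.of fun i j => if h : j < i then x.1 ⟨(i, j), h⟩ else if i = j then x.2 i else 0) (by
            rw [Matrix.det_of_lowerTriangular]
            · simp [Finset.prod_ne_zero_iff]
            · intro i j hij
              have hij' : i < j := hij
              simp [hij'.not_gt, hij'.ne]), by
          intro i j hij
          simp [Matrix.GeneralLinearGroup.mkOfDetNeZero, hij.not_gt, hij.ne]⟩
      left_inv := fun g => by
        ext i j
        simp only [Matrix.GeneralLinearGroup.mkOfDetNeZero, Matrix.GeneralLinearGroup.val_mk',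
          Matrix.of_apply, Units.val_mk0]
        split_ifs with h1 h2
        · rfl
        · rw [h2]
        · exact (g.2 i j (lt_of_le_of_ne (not_lt.1 h1) h2)).symm
      right_inv := fun x => by
        ext p
        · simp [Matrix.GeneralLinearGroup.mkOfDetNeZero, p.2]
        · simp [Matrix.GeneralLinearGroup.mkOfDetNeZero] }
  rw [Nat.card_congr e, Nat.card_prod, Nat.card_fun, Nat.card_fun, H09.card_units_field,
    Nat.card_eq_fintype_card (α := F), Nat.card_eq_fintype_card (α := Fin n), Fintype.card_fin]
  congr 2
  rw [Nat.card_eq_fintype_card, Fintype.card_subtype, ← Finset.sum_range_id, Finset.sum_range,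
    ← Finset.univ_product_univ, Finset.card_filter, Finset.sum_product]
  refine Finset.sum_congr rfl fun i _ => ?_
  rw [← Finset.card_filter]
  rw [← Fin.card_Iio i]; congr 1; ext; simp

end Cfsg.Agent.S0769
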