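import Mathlib
import Cfsg.Statements.S0770
import Cfsg.Agent.H09.GLStab

set_option autoImplicit false
open Cfsg

namespace Cfsg.Agent.S0770

/-- For a field with at least 3 elements, an invertible matrix normalises the subgroup of invertible diagonal matrices of GL_n if and only if it is monomial (exactly one non-zero entry in each row). -/
theorem result {F : Type*} [Field F] (hF : ∃ a : F, a ≠ 0 ∧ a ≠ 1) (n : ℕ) (g : Matrix.GeneralLinearGroup (Fin n) F) : g ∈ Subgroup.normalizer ((Units.map (Matrix.diagonalRingHom (Fin n) F).toMonoidHom).range : Subgroup (Matrix.GeneralLinearGroup (Fin n) F)) ↔ ∀ i : Fin n, ∃! j : Fin n, (g : Matrix (Fin n) (Fin n) F) i j ≠ 0 := by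
  have h1 : (Units.map (Matrix.diagonalRingHom (Fin n) F).toMonoidHom).range =
      H09.diagSub (Units.coeHom (Matrix (Fin n) (Fin n) F)) := by
    ext t
    rw [H09.mem_diagSub]
    constructor
    · rintro ⟨d, rfl⟩; exact Matrix.isDiag_diagonal _
    · intro ht
      have ht' := H09.mem_diagSub.2 ht
      refine ⟨(Pi.isUnit_iff.2 fun i => ((ht' i i).2 rfl).isUnit :
        IsUnit (Matrix.diag (t : Matrix (Fin n) (Fin n) F))).unit, Units.ext ht.diagonal_diag⟩
  obtain ⟨a, ha0, ha1⟩ := hF
  rw [h1, H09.normalizer_diagSub, H09.mem_monoSub_iff_rows]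
  · rfl
  · intro j j' hjj
    refine ⟨_, h1.le ⟨(Pi.isUnit_iff.2 fun i => ?_ : IsUnit (Function.update (1 : Fin n → F) j a)).unit, rfl⟩, ?_⟩
    · by_cases h : i = j <;> simp [h, ha0]
    · simp [hjj.symm, ha1]

end Cfsg.Agent.S0770
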