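import Mathlib
import Cfsg.Statements.S0772
import Cfsg.Agent.H09.GLStab

set_option autoImplicit false
open Cfsg

namespace Cfsg.Agent.S0772

/-- Maximal parabolics are maximal: over a finite field, for 0 < k < n the stabiliser in GL_n of the span of the first k coordinate vectors is a maximal proper subgroup. -/
theorem result {F : Type*} [Field F] [Finite F] (n k : ℕ) (hk0 : 0 < k) (hkn : k < n) : IsCoatom (Cfsg.stabilizing (Cfsg.glToMat (Fin n) F) {v : Fin n → F | ∀ i : Fin n, k ≤ (i : ℕ) → v i = 0}) := by
  have h := H09.isCoatom_stab_gl (W := H09.coordSub F {i : Fin n | (i : ℕ) < k}) ?_ ?_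
  · convert h
    rw [Cfsg.Geo.subspaceStabilizer]
    congr 1
    ext v
    simp [H09.mem_coordSub]
  · intro h
    have := H09.finrank_coordSub (F := F) {i : Fin n | (i : ℕ) < k}
    rw [h, H09.ncard_fin_lt _ _ hkn.le, finrank_bot] at this
    omega
  · intro h
    have := H09.finrank_coordSub (F := F) {i : Fin n | (i : ℕ) < k}
    rw [h, H09.ncard_fin_lt _ _ hkn.le] at this
    simp at this
    omega

end Cfsg.Agent.S0772
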