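import Mathlib
import Cfsg.Statements.S0773
import Cfsg.Agent.H09.GLStab

set_option autoImplicit false
open Cfsg

namespace Cfsg.Agent.S0773

open Matrix in
/-- inverse transpose followed by a reindexing -/
def dualEquiv {F : Type*} [Field F] {n : ℕ} (e : Fin n ≃ Fin n) : GL (Fin n) F ≃* GL (Fin n) F where
  toFun g := ⟨((g⁻¹ : GL (Fin n) F) : Matrix _ _ F)ᵀ.submatrix e e, (g : Matrix _ _ F)ᵀ.submatrix e e, by
    rw [submatrix_mul_equiv, ← transpose_mul]; simp, by
    rw [submatrix_mul_equiv, ← transpose_mul]; simp⟩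
  invFun g := ⟨((g⁻¹ : GL (Fin n) F) : Matrix _ _ F)ᵀ.submatrix e.symm e.symm,
    (g : Matrix _ _ F)ᵀ.submatrix e.symm e.symm, by
    rw [submatrix_mul_equiv, ← transpose_mul]; simp, by
    rw [submatrix_mul_equiv, ← transpose_mul]; simp⟩
  left_inv g := Units.ext (by ext i j; change (g : Matrix _ _ F) (e (e.symm i)) (e (e.symm j)) = _; simp)
  right_inv g := Units.ext (by ext i j; change (g : Matrix _ _ F) (e.symm (e i)) (e.symm (e j)) = _; simp)
  map_mul' g h := Units.ext (by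
    change submatrix _ _ _ = submatrix _ _ _ * submatrix _ _ _
    rw [submatrix_mul_equiv, ← transpose_mul, ← Units.val_mul, ← _root_.mul_inv_rev])

/-- The stabilisers in GL_n(F), F finite, of the coordinate subspaces of dimensions k and n − k are isomorphic groups, but when 2k ≠ n (and 0 < k < n) no element of GL_n conjugates one onto the other. -/
theorem result {F : Type*} [Field F] [Finite F] (n k : ℕ) (hk0 : 0 < k) (hkn : k < n) (h2 : 2 * k ≠ n) : Nonempty (↥(Cfsg.stabilizing (Cfsg.glToMat (Fin n) F) {v : Fin n → F | ∀ i : Fin n, k ≤ (i : ℕ) → v i = 0}) ≃* ↥(Cfsg.stabilizing (Cfsg.glToMat (Fin n) F) {v : Fin n → F | ∀ i : Fin n, n - k ≤ (i : ℕ) → v i = 0})) ∧ ∀ g : Matrix.GeneralLinearGroup (Fin n) F, (Cfsg.stabilizing (Cfsg.glToMat (Fin n) F) {v : Fin n → F | ∀ i : Fin n, k ≤ (i : ℕ) → v i = 0}).map (MulAut.conj g).toMonoidHom ≠ Cfsg.stabilizing (Cfsg.glToMat (Fin n) F) {v : Fin n → F | ∀ i : Fin n, n - k ≤ (i : ℕ) → v i = 0} := by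
  have key : ∀ k, {v : Fin n → F | ∀ i : Fin n, k ≤ (i : ℕ) → v i = 0} = H09.coordSub F {i : Fin n | (i : ℕ) < k} := by
    intro k
    ext v
    simp [H09.mem_coordSub]
  rw [key, key]
  have hr : ∀ k ≤ n, Module.finrank F (H09.coordSub F {i : Fin n | (i : ℕ) < k}) = k := fun k hk => by
    rw [H09.finrank_coordSub, H09.ncard_fin_lt _ _ hk]
  refine ⟨⟨((dualEquiv Fin.revPerm).subgroupMap _).trans (MulEquiv.subgroupCongr ?_)⟩, fun g hg => ?_⟩
  · ext g
    obtain ⟨g, rfl⟩ := (dualEquiv (F := F) Fin.revPerm).surjective g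
    refine (Subgroup.mem_map_iff_mem (dualEquiv Fin.revPerm).injective).trans ?_
    rw [← inv_mem_iff, H09.mem_stabilizing_coordSub, H09.mem_stabilizing_coordSub]
    refine ⟨fun h j hj i hi => h (Fin.rev i) ?_ (Fin.rev j) ?_, fun h j hj i hi => ?_⟩
    · simp at hi ⊢; omega
    · simp at hj ⊢; omega
    · have := h (Fin.rev i) (by simp at hi ⊢; omega) (Fin.rev j) (by simp at hj ⊢; omega)
      change ((g⁻¹ : GL (Fin n) F) : Matrix _ _ F) (Fin.rev (Fin.rev i)) (Fin.rev (Fin.rev j)) = 0 at this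
      rwa [Fin.rev_rev, Fin.rev_rev] at this
  · rw [H09.stabilizing_map_conj] at hg
    have h1 := H09.finrank_map_toMat (Cfsg.glToMat (Fin n) F) g (H09.coordSub F {i : Fin n | (i : ℕ) < k})
    have h3 := hr (n - k) (by omega)
    rw [hr k hkn.le] at h1
    rcases H09.eq_of_stab_sl_le (inf_le_left.trans hg.le) with h | h | h <;> rw [h] at h3
    · simp at h3; omega
    · omega
    · simp at h3; omega

end Cfsg.Agent.S0773
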