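import Mathlib
import Cfsg.Statements.S0774
import Cfsg.Agent.H09.SpStab

set_option autoImplicit false
open Cfsg

namespace Cfsg.Agent.S0774

/-- Borel subgroup of the symplectic group: the elements of Sp_2m(q) stabilising each of the totally isotropic coordinate subspaces ⟨e_0, ..., e_k⟩ (k < m) form a subgroup of order q^(m²) (q − 1)^m. -/
theorem result {F : Type*} [Field F] [Fintype F] {q : ℕ} (hF : Fintype.card F = q) (m : ℕ) : Nat.card ↥(⨅ k : Fin m, Cfsg.stabilizing (Cfsg.spToMat m F) {v : Fin m ⊕ Fin m → F | (∀ i : Fin m, (k : ℕ) < (i : ℕ) → v (Sum.inl i) = 0) ∧ ∀ i : Fin m, v (Sum.inr i) = 0}) = q ^ (m ^ 2) * (q - 1) ^ m := by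
  let W : Fin m → Submodule F (Fin m ⊕ Fin m → F) := fun k =>
    H09.coordSub F (Sum.inl '' {i : Fin m | (i : ℕ) < k + 1})
  have hW : ∀ k : Fin m, {v : Fin m ⊕ Fin m → F | (∀ i : Fin m, (k : ℕ) < (i : ℕ) → v (Sum.inl i) = 0) ∧ ∀ i : Fin m, v (Sum.inr i) = 0} = W k := by
    intro k
    ext v
    simp [W, H09.mem_coordSub, -not_exists]
  have hmono : Monotone W := fun i j hij => H09.coordSub_mono (Set.image_mono fun k hk => by
    have := Fin.le_def.1 hij
    simp only [Set.mem_setOf_eq] at hk ⊢; omega)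
  have hr : ∀ k, Module.finrank F (W k) = k + 1 := fun k => by
    rw [H09.finrank_coordSub, Set.ncard_image_of_injective _ Sum.inl_injective,
      H09.ncard_fin_lt _ _ k.2]
  let e : Fin m → Fin m ⊕ Fin m → F := fun i => Pi.single (Sum.inl i) 1
  have he : LinearIndependent F e := (Pi.linearIndependent_single_one _ F).comp _ Sum.inl_injective
  have heW : ∀ i, e i ∈ W i := fun i => H09.single_mem_coordSub.2 ⟨i, by simp, rfl⟩
  have hiso : ∀ i j, ∀ u ∈ W i, ∀ v ∈ W j, H09.spB (Fin m) F u v = 0 := fun i j u hu v hv => by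
    rw [H09.spB_apply']
    refine Finset.sum_eq_zero fun k _ => ?_
    rw [hu (Sum.inr k) (by simp), hv (Sum.inr k) (by simp)]; simp
  simp only [hW]
  rw [H09.card_eq_mul_of_orbit _ e (fun s => LinearIndependent F s ∧ ∀ i, s i ∈ W i),
    H09.card_li_tuples_mem m W hmono]
  · have hTS : (H09.spForm (Fin m) F).TS (Submodule.span F (Set.range e)) :=
      H09.isAltF_spForm.ts fun x hx y hy => H09.span_le_orthogonal_of_isotropic
        (B := H09.spB (Fin m) F) (fun i j => hiso i j _ (heW i) _ (heW j)) hy x hx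
    obtain ⟨U, hU, -, hrU, hc⟩ := (H09.spForm (Fin m) F).exists_card_fix_TS m _ ⊤ hTS
      (fun x _ hx => H09.spB_nondeg.1 x fun y => hx y trivial) le_top
      (by rw [finrank_span_eq_card he, Fintype.card_fin])
    have hr' : Module.finrank F U = 2 * 0 := by
      simp at hrU; omega
    have := hU.nondeg
    rw [H10.Form.perp_top, bot_sup_eq, (H09.isAltF_spForm.restrict U).card_Isom hr', hr',
      H09.isAltF_spForm.card_T_ker, Nat.card_eq_fintype_card (α := F), hF] at hc
    have h2 : MulAction.stabilizer (Matrix.symplecticGroup (Fin m) F) e =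
        ((H09.spForm (Fin m) F).fix (Submodule.span F (Set.range e))).comap
          (H09.spIsomEquiv (Fin m) F).toMonoidHom := by
      ext g
      rw [Subgroup.mem_comap, H10.Form.mem_fix_span, MulAction.mem_stabilizer_iff, funext_iff]
      simp
    rw [h2, Subgroup.comap_equiv_eq_map_symm', Subgroup.card_map_of_injective (MulEquiv.injective _), hc]
    simp only [hr, hF, pow_succ, ← Nat.mul_sub_one, Finset.prod_mul_distrib, Finset.prod_pow_eq_pow_sum]
    have h3 : ∑ i : Fin m, (i : ℕ) = m * (m - 1) / 2 := by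
      rw [Fin.sum_univ_eq_sum_range (fun i => i), Finset.sum_range_id]
    have h4 : m * (m - 1) / 2 + (m * (m - 1) / 2 + m) = m * m := by
      have := Nat.div_mul_cancel (Nat.even_mul_pred_self m).two_dvd
      have h5 : m * (m - 1) + m = m * m := by cases m <;> simp; ring
      omega
    simp [h3, ← h4]
    ring
  · intro g
    rw [Subgroup.mem_iInf]
    refine ⟨fun h => ⟨he.map' (DistribSMul.toLinearMap F _ g)
      (LinearMap.ker_eq_bot.2 (MulAction.injective g)), fun i => (h i _).1 (heW i)⟩, fun h k => ?_⟩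
    rw [H09.mem_stabilizing_coordSub]
    rintro _ ⟨j, hj, rfl⟩ i hi
    have := hmono (show j ≤ k from Nat.lt_succ_iff.1 hj) (h.2 j) i hi
    simpa [e, H09.sp_smul_def] using this
  · intro s hs
    obtain ⟨g, hg⟩ := (H09.spAct_sp (l := Fin m) (F := F)).witt_family e s he hs.1 fun i j => by
      rw [hiso i j _ (heW i) _ (heW j), hiso i j _ (hs.2 i) _ (hs.2 j)]
    exact ⟨g, funext hg⟩

end Cfsg.Agent.S0774
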