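import Mathlib
import Cfsg.Statements.S0775
import Cfsg.Agent.H09.SpOrder

set_option autoImplicit false
open Cfsg

namespace Cfsg.Agent.S0775

/-- Maximal parabolics of the symplectic group: if W is a k-dimensional subspace of F^(2m) on which the symplectic form vanishes identically, its stabiliser in Sp_2m(q) has order q^(k(k+1)/2 + 2k(m−k)) · |Sp_(2m−2k)(q)| · |GL_k(q)|. -/
theorem result {F : Type*} [Field F] [Fintype F] {q : ℕ} (hF : Fintype.card F = q) (m k : ℕ) (hk : k ≤ m) (W : Submodule F (Fin m ⊕ Fin m → F)) (hWk : Module.finrank F W = k) (hW : ∀ u ∈ W, ∀ v ∈ W, Cfsg.sympForm m F u v = 0) : Nat.card ↥(Cfsg.stabilizing (Cfsg.spToMat m F) (W : Set (Fin m ⊕ Fin m → F))) = q ^ (k * (k + 1) / 2 + 2 * k * (m - k)) * (q ^ ((m - k) ^ 2) * ∏ i ∈ Finset.range (m - k), (q ^ (2 * (i + 1)) - 1)) * ∏ i : Fin k, (q ^ k - q ^ (i : ℕ)) := by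
  have hTS : (H09.spForm (Fin m) F).TS W := H09.isAltF_spForm.ts fun x hx y hy => by
    rw [H09.spForm_B, ← H09.sympForm_eq]; exact hW x hx y hy
  obtain ⟨U, hU, -, hr, hc⟩ := (H09.spForm (Fin m) F).exists_card_fix_TS k W ⊤ hTS
    (fun x _ hx => H09.spB_nondeg.1 x fun y => hx y trivial) le_top hWk
  have hr' : Module.finrank F U = 2 * (m - k) := by
    simp at hr; omega
  have := hU.nondeg
  rw [H10.Form.perp_top, bot_sup_eq, (H09.isAltF_spForm.restrict U).card_Isom hr', hr',
    H09.isAltF_spForm.card_T_ker, Nat.card_eq_fintype_card (α := F), hF] at hc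
  have hGL : Nat.card (W ≃ₗ[F] W) = ∏ i : Fin k, (q ^ k - q ^ (i : ℕ)) := by
    subst hWk
    rw [← hF, ← Matrix.card_GL_field]
    exact Nat.card_congr ((LinearMap.GeneralLinearGroup.generalLinearEquiv F W).symm.trans
      (Matrix.GeneralLinearGroup.toLin' (Module.finBasis F W)).symm).toEquiv
  rw [Nat.card_congr (H09.stabilizingEquivStab m W).toEquiv, H10.Form.card_stab_TS _ hTS, hc, hGL,
    mul_comm, ← pow_add]
  congr 3
  have : k * (k + 1) / 2 = k * (k - 1) / 2 + k := by
    rw [← Nat.add_mul_div_left _ _ two_pos]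
    congr 1
    cases k <;> simp; ring
  rw [this]; ring

end Cfsg.Agent.S0775
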