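import Mathlib
import Cfsg.Statements.S0776
import Cfsg.Agent.H09.SpOrder

set_option autoImplicit false
open Cfsg

namespace Cfsg.Agent.S0776

/-- If W ≤ F^(2m) is a 2k-dimensional subspace on which the symplectic form is non-degenerate, then the stabiliser of W in Sp_2m(F) is isomorphic to Sp_2k(F) × Sp_(2m−2k)(F). -/
theorem result {F : Type*} [Field F] (m k : ℕ) (hk : k ≤ m) (W : Submodule F (Fin m ⊕ Fin m → F)) (hWk : Module.finrank F W = 2 * k) (hW : ∀ u ∈ W, (∀ v ∈ W, Cfsg.sympForm m F u v = 0) → u = 0) : Nonempty (↥(Cfsg.stabilizing (Cfsg.spToMat m F) (W : Set (Fin m ⊕ Fin m → F))) ≃* Matrix.symplecticGroup (Fin k) F × Matrix.symplecticGroup (Fin (m - k)) F) := by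
  have hN : (H09.spForm (Fin m) F).NondegOn W := fun x hx h => hW x hx fun y hy => by
    rw [H09.sympForm_eq]; exact h y hy
  have h1 := hN.nondeg
  have h2 := hN.perp.nondeg
  have h3 := (H09.spForm (Fin m) F).finrank_perp W
  obtain ⟨e1⟩ := (H09.isAltF_spForm.restrict W).nonempty_isom_equiv hWk
  obtain ⟨e2⟩ := (H09.isAltF_spForm.restrict ((H09.spForm (Fin m) F).perp W)).nonempty_isom_equiv
    (m := m - k) (by simp at h3; omega)
  exact ⟨(H09.stabilizingEquivStab m W).trans ((H10.Form.stabEquiv hN).trans (e1.prodCongr e2))⟩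

end Cfsg.Agent.S0776
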