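import Mathlib
import Cfsg.Statements.S0777
import Cfsg.Agent.H09.SpStab

set_option autoImplicit false
open Cfsg

namespace Cfsg.Agent.S0777

/-- Weyl group of type C_m: for q ≥ 4 the diagonal matrices of Sp_2m(q) form a torus T ≅ (C_(q−1))^m (the elements stabilising every coordinate axis), and the normaliser of T in Sp_2m(q) has order 2^m · m! · (q − 1)^m. -/
theorem result {F : Type*} [Field F] [Fintype F] {q : ℕ} (hF : Fintype.card F = q) (hq : 4 ≤ q) (m : ℕ) : Nat.card ↥(Subgroup.normalizer (⨅ i : Fin m ⊕ Fin m, Cfsg.stabilizing (Cfsg.spToMat m F) ((Submodule.span F {(Pi.single i (1 : F) : Fin m ⊕ Fin m → F)} : Submodule F (Fin m ⊕ Fin m → F)) : Set (Fin m ⊕ Fin m → F)) : Set (Matrix.symplecticGroup (Fin m) F))) = 2 ^ m * Nat.factorial m * (q - 1) ^ m := by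
  have h1 : (⨅ i : Fin m ⊕ Fin m, Cfsg.stabilizing (Cfsg.spToMat m F) ((Submodule.span F {(Pi.single i (1 : F) : Fin m ⊕ Fin m → F)} : Submodule F (Fin m ⊕ Fin m → F)) : Set (Fin m ⊕ Fin m → F))) = H09.diagSub (Matrix.symplecticGroup (Fin m) F).subtype := by
    ext g
    rw [Subgroup.mem_iInf, H09.mem_diagSub]
    have : ∀ i : Fin m ⊕ Fin m, Submodule.span F {(Pi.single i (1 : F) : Fin m ⊕ Fin m → F)} =
        H09.coordSub F {i} := fun i => by rw [H09.coordSub_eq_span]; simp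
    simp only [this, H09.mem_stabilizing_coordSub]
    exact ⟨fun h i j hij => h j j rfl i hij, fun h k j hj i hi => h (by rintro rfl; exact hi hj)⟩
  rw [Set.iInf_eq_iInter, ← Subgroup.coe_iInf, h1, H09.normalizer_diagSub, H09.card_monoSub, H09.range_monoPerm_sp,
    H09.card_centralizer_sumComm, H09.card_sp_diagSub, Fintype.card_fin, hF]
  obtain ⟨a, ha0, ha⟩ := H09.exists_sq_ne_one_of_four_le (F := F) (hF ▸ hq)
  have ha1 : a ≠ 1 := by rintro rfl; simp at ha
  have ha2 : a ≠ a⁻¹ := fun h => ha (by rw [pow_two]; nth_rewrite 1 [h]; exact inv_mul_cancel₀ ha0)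
  intro j j' hjj
  refine ⟨_, H09.range_spLevi_glDiag.le ⟨Function.update 1 (Sum.elim id id j) (Units.mk0 a ha0), rfl⟩, ?_⟩
  change (H09.spLevi (H09.glDiag _)).1 j j ≠ (H09.spLevi (H09.glDiag _)).1 j' j'
  rw [H09.spLevi_glDiag_coe]
  rcases j with j | j <;> rcases j' with j' | j' <;> by_cases h : j' = j <;>
    simp_all [ha2.symm]

end Cfsg.Agent.S0777
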