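import Mathlib
import Cfsg.Statements.S0778
import Cfsg.Agent.H09.SpStab

set_option autoImplicit false
open Cfsg

namespace Cfsg.Agent.S0778

/-- The elements of Sp_2m(F) stabilising both W = ⟨e_1..e_m⟩ and U = ⟨f_1..f_m⟩ form a subgroup isomorphic to GL_m(F) (block-diagonal matrices diag(X, X^(−ᵀ)) up to the sign convention of J), for m ≥ 1 or m = 0 alike. -/
theorem result {F : Type*} [Field F] (m : ℕ) : Nonempty (↥(Cfsg.stabilizing (Cfsg.spToMat m F) {v : Fin m ⊕ Fin m → F | ∀ i : Fin m, v (Sum.inr i) = 0} ⊓ Cfsg.stabilizing (Cfsg.spToMat m F) {v : Fin m ⊕ Fin m → F | ∀ i : Fin m, v (Sum.inl i) = 0}) ≃* Matrix.GeneralLinearGroup (Fin m) F) := by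
  refine ⟨(MulEquiv.subgroupCongr ?_).trans (MonoidHom.ofInjective H09.spLevi_injective).symm⟩
  have h1 : {v : Fin m ⊕ Fin m → F | ∀ i : Fin m, v (Sum.inr i) = 0} =
      H09.coordSub F (Set.range (Sum.inl : Fin m → Fin m ⊕ Fin m)) := by
    ext v; simp [H09.mem_coordSub]
  have h2 : {v : Fin m ⊕ Fin m → F | ∀ i : Fin m, v (Sum.inl i) = 0} =
      H09.coordSub F (Set.range (Sum.inr : Fin m → Fin m ⊕ Fin m)) := by
    ext v; simp [H09.mem_coordSub]
  ext g
  rw [h1, h2, Subgroup.mem_inf, H09.mem_stabilizing_coordSub, H09.mem_stabilizing_coordSub,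
    H09.mem_range_spLevi]
  simp only [Set.mem_range, forall_exists_index, forall_apply_eq_imp_iff, Sum.forall]
  simp
  exact ⟨fun h => ⟨fun i j => h.1 j i, fun i j => h.2 j i⟩, fun h => ⟨fun i j => h.1 j i, fun i j => h.2 j i⟩⟩

end Cfsg.Agent.S0778
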