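import Mathlib
import Cfsg.Agent.H10.Bridge
import Cfsg.Statements.S0779

set_option autoImplicit false
open Cfsg

namespace Cfsg.Agent.S0779

/-- Unitary transvections: let |F| = q², h the standard Hermitian form Σ x_i y_i^q and v ≠ 0 with h(v, v) = 0. The linear map x ↦ x + c h(x, v) v is an isometry of h if and only if c = 0 or c^(q−1) = −1. -/
theorem result {F : Type*} [Field F] [Fintype F] {q : ℕ} (hF : Fintype.card F = q ^ 2) (n : ℕ) (v : Fin n → F) (hv : v ≠ 0) (hv0 : Cfsg.hermForm n F q v v = 0) (c : F) : (∀ x y : Fin n → F, Cfsg.hermForm n F q ((Cfsg.unitaryTransvection n q v c).mulVec x) ((Cfsg.unitaryTransvection n q v c).mulVec y) = Cfsg.hermForm n F q x y) ↔ (c = 0 ∨ c ^ (q - 1) = -1) := by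
  have hF' := Nat.card_eq_fintype_card.trans hF
  have hU := H10.stdU_isUnitary hF' n
  have key : c + c ^ q = 0 ↔ (c = 0 ∨ c ^ (q - 1) = -1) := by
    rw [H10.pow_q_eq_mul hF', show c + c ^ (q - 1) * c = c * (c ^ (q - 1) + 1) by ring, mul_eq_zero,
      add_eq_zero_iff_eq_neg]
  rw [← key]
  constructor
  · intro h
    obtain ⟨x, hx⟩ := (H10.stdU hF' n).exists_B_eq_one hv
    have h1 := h x x
    have hx' : (H10.stdU hF' n).B x v = 1 := by rw [hU.herm.B_comm, hx, map_one]
    have hv' : (H10.stdU hF' n).B v v = 0 := hv0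
    simp only [H10.unitaryTransvection_mulVec, ← H10.stdU_B hF', map_add, LinearMap.add_apply,
      H10.Form.B_smul_left, H10.Form.B_smul_right, hx, hx', hv', hU.σ_eq] at h1
    simp only [mul_one, mul_zero, add_zero] at h1
    linear_combination h1
  · intro h x y
    simp only [H10.unitaryTransvection_mulVec]
    exact ((H10.stdU hF' n).isIsom_quasiLin (hU.quasi_cond (p := v) hv0 h)).B y x

end Cfsg.Agent.S0779
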