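import Mathlib
import Cfsg.Agent.H10.SUGen
import Cfsg.Statements.S0781

set_option autoImplicit false
open Cfsg

namespace Cfsg.Agent.S0781

/-- In SU_n(q) with n ≥ 4, or n = 3 and q > 2, every element whose matrix is a unitary transvection x ↦ x + c h(x, v) v (v isotropic) is a commutator ⁅B, C⁆ of two elements of SU_n(q). -/
theorem result {F : Type*} [Field F] [Fintype F] {q : ℕ} (hF : Fintype.card F = q ^ 2) (n : ℕ) (hn : 4 ≤ n ∨ (n = 3 ∧ 3 ≤ q)) (A : ↥(Cfsg.SU n F q)) (v : Fin n → F) (c : F) (hv0 : Cfsg.hermForm n F q v v = 0) (hA : ((A : Matrix.SpecialLinearGroup (Fin n) F) : Matrix (Fin n) (Fin n) F) = Cfsg.unitaryTransvection n q v c) : A ∈ commutatorSet ↥(Cfsg.SU n F q) := by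
  have hF' : Nat.card F = q ^ 2 := by rw [Nat.card_eq_fintype_card, hF]
  have h := H10.stdU_isUnitary hF' n
  have hn' : 3 ≤ Module.finrank F (Fin n → F) := by simp; omega
  have hA' : ∀ x, (H10.SUEquiv hF' n A).1.1 x = x + (c * (H10.stdU hF' n).B v x) • v := fun x => by
    rw [H10.SUEquiv_apply, hA, H10.unitaryTransvection_mulVec]; rfl
  obtain ⟨t, ht, h1⟩ : ∃ t, (H10.stdU hF' n).T t = 0 ∧
      (H10.SUEquiv hF' n A).1 = (H10.stdU hF' n).siegel v 0 t := by
    by_cases hv : v = 0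
    · refine ⟨0, by simp, H10.Form.Isom.ext fun x => ?_⟩
      rw [hA', H10.Form.siegel_zero _ hv0]; simp [hv]
    obtain ⟨f, hyp⟩ := (H10.stdU hF' n).exists_hyp hv0 hv
    have h2 := H10.Form.Isom.Q_map (H10.SUEquiv hF' n A).1 f
    rw [hA', H10.Form.Q_add, H10.Form.Q_smul_of_sing _ hyp.Qe, hyp.Qf, hyp.Bef, map_smul, hyp.Bfe,
      h.herm.ε_eq] at h2
    have h3 : (H10.stdU hF' n).T (-c) = 0 := by simpa using h2
    refine ⟨-c, h3, H10.Form.Isom.ext fun x => ?_⟩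
    rw [hA', H10.Form.siegel_apply _ hyp.Qe (by simp) (by simpa using h3), h.herm.ε_eq]
    simp
  obtain ⟨a, ha, b, hb, h2⟩ := h.exists_commutator_eq_transvection hn' (p := v) hv0 ht
  rw [h.E_eq_SIsom hn'] at ha hb
  refine ⟨(H10.SUEquiv hF' n).symm ⟨a, ha⟩, (H10.SUEquiv hF' n).symm ⟨b, hb⟩,
    (H10.SUEquiv hF' n).injective (Subtype.ext ?_)⟩
  rw [h1, ← h2, map_commutatorElement, MulEquiv.apply_symm_apply, MulEquiv.apply_symm_apply]
  rfl

end Cfsg.Agent.S0781
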