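import Mathlib
import Cfsg.Agent.H10.Par
import Cfsg.Agent.H10.Bridge
import Cfsg.Statements.S0782

set_option autoImplicit false
open Cfsg

namespace Cfsg.Agent.S0782

/-- Maximal parabolics of SU_n(q): if W is a k-dimensional subspace of F^n (n ≥ 1, |F| = q²) on which the Hermitian form vanishes, then (q + 1) times the order of its stabiliser in SU_n(q) equals q^(k(2n−3k)) · |GL_k(q²)| · |GU_(n−2k)(q)|, where |GU_m(q)| = q^(m(m−1)/2) Π_(i=1..m) (q^i − (−1)^i). -/
theorem result {F : Type*} [Field F] [Fintype F] {q : ℕ} (hF : Fintype.card F = q ^ 2) (n k : ℕ) (hn : 1 ≤ n) (hk : 2 * k ≤ n) (W : Submodule F (Fin n → F)) (hWk : Module.finrank F W = k) (hW : ∀ u ∈ W, ∀ v ∈ W, Cfsg.hermForm n F q u v = 0) : (q + 1) * Nat.card ↥((Cfsg.stabilizing (Cfsg.slToMat n F) (W : Set (Fin n → F))).subgroupOf (Cfsg.SU n F q)) = q ^ (k * (2 * n - 3 * k)) * (∏ i : Fin k, ((q ^ 2) ^ k - (q ^ 2) ^ (i : ℕ))) * (q ^ ((n - 2 * k) * ((n - 2 * k) - 1) / 2) * ∏ i ∈ Finset.range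 (n - 2 * k), (if Even i then q ^ (i + 1) + 1 else q ^ (i + 1) - 1)) := by
  have hF' : Nat.card F = q ^ 2 := by simpa using hF
  have h := H10.stdU_isUnitary hF' n
  have hTS : (H10.stdU hF' n).TS W := h.herm.ts fun x hx y hy => by rw [H10.stdU_B]; exact hW y hy x hx
  have : Nontrivial (Fin n → F) := Module.nontrivial_of_finrank_pos (R := F) (by simp; omega)
  have h1 := h.card_stab_TS_SIsom hTS
  rw [h.card_stab_TS hTS (n := n) (by simp) hWk] at h1
  refine Eq.trans ?_ h1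
  congr 1
  exact Nat.card_congr ((H10.SUEquiv hF' n).toEquiv.subtypeEquiv fun g => by
    simp only [Subgroup.mem_subgroupOf, H10.Form.mem_stab]
    exact forall_congr' fun v => by rw [MulEquiv.toEquiv_eq_coe, EquivLike.coe_coe, H10.SUEquiv_apply]; rfl)

end Cfsg.Agent.S0782
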