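import Mathlib
import Cfsg.Agent.H10.Herm
import Cfsg.Agent.H10.Bridge
import Cfsg.Statements.S0783

set_option autoImplicit false
open Cfsg

namespace Cfsg.Agent.S0783

/-- PGU_n(q)/PSU_n(q) is cyclic of order (n, q+1): for n ≥ 2 and |F| = q² there is a surjective homomorphism from GU_n(q) onto the cyclic group of order gcd(n, q + 1) whose kernel is generated by the determinant-one elements together with the centre. -/
theorem result {F : Type*} [Field F] [Fintype F] {q : ℕ} (hF : Fintype.card F = q ^ 2) (n : ℕ) (hn : 2 ≤ n) : ∃ φ : ↥(Cfsg.GU n F q) →* Multiplicative (ZMod (Nat.gcd n (q + 1))), Function.Surjective φ ∧ φ.ker = (Matrix.GeneralLinearGroup.det : Matrix.GeneralLinearGroup (Fin n) F →* Fˣ).ker.subgroupOf (Cfsg.GU n F q) ⊔ Subgroup.center ↥(Cfsg.GU n F q) := by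
  have hF' : Nat.card F = q ^ 2 := by simpa using hF
  have h := H10.stdU_isUnitary hF' n
  set φ := H10.stdU hF' n
  set e := H10.GUEquiv hF' n
  have : Nontrivial (Fin n → F) := Module.nontrivial_of_finrank_pos (R := F) (by simp; omega)
  set C := (powMonoidHom (q + 1) : Fˣ →* Fˣ).ker with hC
  let d : φ.Isom →* C := φ.det.codRestrict C fun g => by rw [hC, ← h.range_det]; exact ⟨g, rfl⟩
  have hd : Function.Surjective d := by
    rintro ⟨c, hc⟩
    rw [hC, ← h.range_det] at hc
    obtain ⟨g, rfl⟩ := hc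
    exact ⟨g, rfl⟩
  set P := (powMonoidHom n : C →* C).range
  have hP : Nat.card (C ⧸ P) = Nat.gcd n (q + 1) := by
    rw [← Subgroup.index_eq_card, IsCyclic.index_powMonoidHom_range, H10.card_ker_pow_add hF', Nat.gcd_comm]
  have hc : IsCyclic (C ⧸ P) := isCyclic_of_surjective _ (QuotientGroup.mk'_surjective P)
  have i : C ⧸ P ≃* Multiplicative (ZMod (Nat.gcd n (q + 1))) := hP ▸ (zmodCyclicMulEquiv hc).symm
  have hZ : ∀ g : Cfsg.GU n F q, g ∈ Subgroup.center _ ↔ ∃ c : F, ∀ x, (e g).1 x = c • x := fun g => by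
    rw [← h.mem_center_Isom_iff (by simpa using hn), ← H10.map_center e]
    erw [Subgroup.mem_map_equiv, MulEquiv.symm_apply_apply]
  refine ⟨i.toMonoidHom.comp ((QuotientGroup.mk' P).comp (d.comp e.toMonoidHom)),
    i.surjective.comp ((QuotientGroup.mk'_surjective P).comp (hd.comp e.surjective)), ?_⟩
  have hk : ∀ g, g ∈ (i.toMonoidHom.comp ((QuotientGroup.mk' P).comp (d.comp e.toMonoidHom))).ker ↔
      d (e g) ∈ P := fun g => by
    simp [MonoidHom.mem_ker]
  apply le_antisymm
  · intro g hg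
    obtain ⟨c, hc⟩ := (hk g).1 hg
    have hc1 : φ.σ (c.1 : F) * c.1 = 1 := by
      have := congrArg Units.val (show c.1 ^ (q + 1) = 1 from c.2)
      rw [h.σ_eq]; simpa [pow_succ] using this
    have hs := φ.scalar_apply hc1
    have h2 : φ.det (φ.scalar c.1) = φ.det (e g) := by
      apply Units.ext
      rw [φ.coe_det, φ.det_of_scalar hs]
      have := congrArg (fun x : C => (x.1 : F)) hc
      simpa [d] using this
    rw [show g = g * (e.symm (φ.scalar c.1))⁻¹ * e.symm (φ.scalar c.1) by simp]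
    refine Subgroup.mul_mem_sup ?_ ((hZ _).2 ⟨c.1, by simpa using hs⟩)
    rw [Subgroup.mem_subgroupOf, MonoidHom.mem_ker, ← H10.GUEquiv_det hF']
    simp [e, φ] at h2 ⊢
    simp [h2]
  · refine sup_le (fun g hg => (hk g).2 ?_) fun g hg => (hk g).2 ?_
    · rw [Subgroup.mem_subgroupOf, MonoidHom.mem_ker, ← H10.GUEquiv_det hF'] at hg
      rw [show d (e g) = 1 from Subtype.ext hg]
      exact P.one_mem
    · obtain ⟨c, hc⟩ := (hZ g).1 hg
      have hc1 := φ.norm_of_scalar hc
      have hc0 : c ≠ 0 := by rintro rfl; simp at hc1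
      refine ⟨⟨Units.mk0 c hc0, Units.ext ?_⟩, Subtype.ext (Units.ext ?_)⟩
      · rw [h.σ_eq] at hc1; simpa [pow_succ] using hc1
      · have := φ.det_of_scalar hc
        rw [← φ.coe_det] at this
        simpa [d] using this.symm

end Cfsg.Agent.S0783
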