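import Mathlib
import Cfsg.Agent.H10.Bridge
import Cfsg.Statements.S0784

set_option autoImplicit false
open Cfsg

namespace Cfsg.Agent.S0784

/-- Reflections: if Q(v) ≠ 0 then the matrix R = 1 − Q(v)⁻¹ · v f(v, ·)ᵀ preserves Q, maps v to −v, fixes each x with f(v, x) = 0, and has determinant −1 (in characteristic two, −1 = 1 and R is the orthogonal transvection of v). -/
theorem result {F : Type*} [Field F] {n : ℕ} (Q : QuadraticForm F (Fin n → F)) (v : Fin n → F) (hv : Q v ≠ 0) : (∀ x, Q ((Cfsg.reflectionMatrix ⇑Q v).mulVec x) = Q x) ∧ (Cfsg.reflectionMatrix ⇑Q v).mulVec v = -v ∧ (∀ x, QuadraticMap.polar ⇑Q v x = 0 → (Cfsg.reflectionMatrix ⇑Q v).mulVec x = x) ∧ (Cfsg.reflectionMatrix ⇑Q v).det = -1 := by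
  have hk : (H10.Form.ofQuad Q).T ((H10.Form.ofQuad Q).ε * -(Q v)⁻¹) +
      (H10.Form.ofQuad Q).σ (-(Q v)⁻¹) * -(Q v)⁻¹ * (H10.Form.ofQuad Q).Q v = 0 := by
    simp [hv]
  have h1 : Matrix.toLin' (Cfsg.reflectionMatrix Q v) =
      LinearMap.transvection (-(Q v)⁻¹ • QuadraticMap.polarBilin Q v) v := by
    refine LinearMap.ext fun x => ?_
    rw [Matrix.toLin'_apply, H10.reflectionMatrix_mulVec, LinearMap.transvection.apply]; simp
  refine ⟨fun x => ?_, ?_, fun x hx => ?_, ?_⟩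
  · rw [H10.reflectionMatrix_mulVec]
    exact ((H10.Form.ofQuad Q).isIsom_quasiLin hk).Q x
  · rw [H10.reflectionMatrix_mulVec, QuadraticMap.polar_self, two_smul, mul_add, neg_mul,
      inv_mul_cancel₀ hv]
    module
  · rw [H10.reflectionMatrix_mulVec, hx]; simp
  · rw [← LinearMap.det_toLin', h1, LinearMap.transvection.det]
    simp [QuadraticMap.polar_self, two_mul, mul_add, hv]

end Cfsg.Agent.S0784
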