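import Mathlib
import Cfsg.Agent.H10.Bridge
import Cfsg.Statements.S0785

set_option autoImplicit false
open Cfsg

namespace Cfsg.Agent.S0785

/-- det(I) = {±1}: for a quadratic form on F^n whose polar form is non-degenerate, every element of the isometry group has determinant 1 or −1, and as soon as Q takes a non-zero value some isometry has determinant −1. -/
theorem result {F : Type*} [Field F] {n : ℕ} (Q : QuadraticForm F (Fin n → F)) (hQ : (QuadraticMap.polarBilin Q).Nondegenerate) : (∀ g : ↥(Cfsg.isometryGroup F ⇑Q), ((g : Matrix.GeneralLinearGroup (Fin n) F) : Matrix (Fin n) (Fin n) F).det = 1 ∨ ((g : Matrix.GeneralLinearGroup (Fin n) F) : Matrix (Fin n) (Fin n) F).det = -1) ∧ ((∃ v, Q v ≠ 0) → ∃ g : ↥(Cfsg.isometryGroup F ⇑Q), ((g : Matrix.GeneralLinearGroup (Fin n) F) : Matrix (Fin n) (Fin n) F).det = -1) := by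
  have := H10.Form.ofQuad_nondeg hQ
  refine ⟨fun g => ?_, ?_⟩
  · have h := (H10.Form.ofQuad Q).σ_det_mul_det (H10.isometryEquiv Q g)
    rw [H10.isometryEquiv_det] at h
    exact mul_self_eq_one_iff.1 h
  · rintro ⟨v, hv⟩
    have hk : (H10.Form.ofQuad Q).T ((H10.Form.ofQuad Q).ε * -(Q v)⁻¹) +
        (H10.Form.ofQuad Q).σ (-(Q v)⁻¹) * -(Q v)⁻¹ * (H10.Form.ofQuad Q).Q v = 0 := by
      simp [hv]
    obtain ⟨g, hg⟩ := (H10.isometryEquiv Q).surjective ((H10.Form.ofQuad Q).quasi v (-(Q v)⁻¹))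
    have h := congrArg Units.val (H10.isometryEquiv_det Q g)
    rw [hg, H10.Form.coe_det, H10.Form.det_quasi _ hk] at h
    refine ⟨g, h.symm.trans ?_⟩
    simp [QuadraticMap.polar_self, two_mul, mul_add, hv]

end Cfsg.Agent.S0785
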