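import Mathlib
import Cfsg.Agent.H10.Omega
import Cfsg.Statements.S0786

set_option autoImplicit false
open Cfsg

namespace Cfsg.Agent.S0786

/-- Generation by reflections: if F is finite, Q is a quadratic form on F^n with non-degenerate polar form, and (|F|, n) ≠ (2, 4), then the isometry group of Q is generated by the reflections r_v, Q(v) ≠ 0. -/
theorem result {F : Type*} [Field F] [Fintype F] {n : ℕ} (Q : QuadraticForm F (Fin n → F)) (hQ : (QuadraticMap.polarBilin Q).Nondegenerate) (h : Fintype.card F ≠ 2 ∨ n ≠ 4) : Subgroup.closure {g : ↥(Cfsg.isometryGroup F ⇑Q) | ∃ v : Fin n → F, Q v ≠ 0 ∧ ((g : Matrix.GeneralLinearGroup (Fin n) F) : Matrix (Fin n) (Fin n) F) = Cfsg.reflectionMatrix ⇑Q v} = ⊤ := by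
  have := H10.Form.ofQuad_nondeg hQ
  have h0 := H10.Form.isQuad_ofQuad Q
  refine H10.closure_eq_top_of_equiv (H10.isometryEquiv Q)
    (T := {g | ∃ v, Q v ≠ 0 ∧ g = (H10.Form.ofQuad Q).refl v})
    (h0.eq_top_of_refl (h.elim (fun h => h0.good_of_card (by simpa using h))
      fun h => h0.good_of_finrank (by simpa using h)) fun v hv =>
        Subgroup.subset_closure ⟨v, hv, rfl⟩) ?_
  rintro g ⟨v, hv, hg⟩
  refine ⟨v, hv, H10.matrix_eq_iff_mulVec.2 fun x => ?_⟩
  rw [← H10.isometryEquiv_apply, hg, h0.refl_apply, H10.reflectionMatrix_mulVec]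
  rfl

end Cfsg.Agent.S0786
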