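import Mathlib
import Cfsg.Agent.H10.Irred
import Cfsg.Statements.S0787

set_option autoImplicit false
open Cfsg

namespace Cfsg.Agent.S0787

/-- Existence and uniqueness of Ω: if F is finite, n ≥ 2, Q is a quadratic form on F^n with non-degenerate polar form and (|F|, n) ≠ (2, 4), then the group of isometries of determinant one has a unique subgroup of index 2. -/
theorem result {F : Type*} [Field F] [Fintype F] {n : ℕ} (hn : 2 ≤ n) (Q : QuadraticForm F (Fin n → F)) (hQ : (QuadraticMap.polarBilin Q).Nondegenerate) (h : Fintype.card F ≠ 2 ∨ n ≠ 4) : ∃! H : Subgroup ↥(Cfsg.specialIsometryGroup F ⇑Q), H.index = 2 := by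
  have := H10.Form.ofQuad_nondeg hQ
  have h0 := H10.Form.isQuad_ofQuad Q
  set φ := H10.Form.ofQuad Q with hφ
  have hg : φ.Good := h.elim (fun h => h0.good_of_card (by simpa using h))
      fun h => h0.good_of_finrank (by simpa using h)
  have hn' : 2 ≤ Module.finrank F (Fin n → F) := by simpa using hn
  suffices ∃! H : Subgroup φ.SIsom, H.index = 2 by
    refine (Equiv.existsUnique_congr (H10.specialIsometryEquiv Q).mapSubgroup.toEquiv fun H => ?_).2 this
    rw [← Subgroup.index_map_of_bijective (f := (H10.specialIsometryEquiv Q).toMonoidHom)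
        (H10.specialIsometryEquiv Q).bijective]; rfl
  have hle : commutator φ.Isom ≤ φ.SIsom := Abelianization.commutator_subset_ker _
  have h1 : ((commutator φ.Isom).subgroupOf φ.SIsom).index = 2 := by
    have h1 := Subgroup.relIndex_mul_index hle
    by_cases h2 : (2 : F) = 0
    · have h3 : φ.SIsom = ⊤ := by
        rw [eq_top_iff]; intro g _
        rw [H10.Form.mem_SIsom, h0.det_eq_dickson hg]
        rcases Int.units_eq_one_or (φ.dickson g) with h | h <;> simp [h]
        linear_combination -h2
      rw [h0.index_commutator_even hg h2 hn'] at h1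
      rw [← h1, Subgroup.index_eq_one.2 h3, mul_one]; rfl
    · have : Nontrivial (Fin n → F) := Module.nontrivial_of_finrank_pos (R := F) (by omega)
      obtain ⟨a, ha⟩ := h0.dickson_surjective hg (-1)
      have h3 : φ.SIsom = φ.dickson.ker := by ext g; exact (h0.dickson_eq_one_iff h2).symm
      rw [h0.index_commutator_odd h2 hn', show φ.SIsom.index = 2 from h3 ▸ H10.index_ker_eq_two ha] at h1
      change (commutator φ.Isom).relIndex φ.SIsom = 2
      omega
  refine ⟨_, h1, fun H hH => ?_⟩
  have h3 : commutator φ.Isom ≤ H.map φ.SIsom.subtype := by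
    refine (h0.commutator_le_of_refl hg (Subgroup.normalClosure {g | ∃ k ∈ φ.SIsom, g = k * k})
      fun a b ha hb => Subgroup.subset_normalClosure ⟨φ.refl a * φ.refl b, ?_, ?_⟩).trans ?_
    · rw [H10.Form.SIsom, MonoidHom.mem_ker, map_mul, ← Units.val_eq_one, Units.val_mul,
        H10.Form.coe_det, H10.Form.coe_det, h0.det_refl ha, h0.det_refl hb]; simp
    · rw [commutatorElement_def, h0.refl_inv, h0.refl_inv, mul_assoc]
    · refine (Subgroup.closure_le _).2 fun g hg => ?_
      obtain ⟨_, ⟨k, hk, rfl⟩, h4⟩ := Group.mem_conjugatesOfSet_iff.1 hg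
      obtain ⟨c, rfl⟩ := isConj_iff.1 h4
      refine ⟨⟨c * k * c⁻¹, φ.SIsom_normal.conj_mem k hk c⟩ * ⟨c * k * c⁻¹, φ.SIsom_normal.conj_mem k hk c⟩,
        (Subgroup.mul_mem_iff_of_index_two hH).2 Iff.rfl, by simp [mul_assoc]⟩
  have h4 : (commutator φ.Isom).subgroupOf φ.SIsom ≤ H := fun g hg => by
    obtain ⟨k, hk, hk'⟩ := h3 hg
    rwa [← (Subtype.ext hk' : k = g)]
  have h5 := Subgroup.relIndex_mul_index h4
  rw [hH, h1] at h5
  exact le_antisymm (Subgroup.relIndex_eq_one.1 (by omega)) h4

end Cfsg.Agent.S0787
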