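import Mathlib
import Cfsg.Agent.H10.Omega
import Cfsg.Statements.S0790

set_option autoImplicit false
open Cfsg

namespace Cfsg.Agent.S0790

/-- −1 ∈ Ω⁺_2m(q) iff q^m ≡ 1 (mod 4), for q odd and m ≥ 1 (so that in the other case SO⁺_2m(q) = 2 × Ω⁺_2m(q)). -/
theorem result {F : Type*} [Field F] [Fintype F] {q : ℕ} (hF : Fintype.card F = q) (hodd : Odd q) (m : ℕ) (hm : 1 ≤ m) : (∃ g : ↥(Cfsg.isometryGroup F (Cfsg.quadFormPlus m F)), g ∈ Cfsg.Omega F (Cfsg.quadFormPlus m F) ∧ ((g : Matrix.GeneralLinearGroup (Fin m ⊕ Fin m) F) : Matrix (Fin m ⊕ Fin m) (Fin m ⊕ Fin m) F) = -1) ↔ q ^ m % 4 = 1 := by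
  have h2 := H10.two_ne_zero_of_odd_card (hF ▸ hodd)
  have h0 := H10.Form.isQuad_ofQuad (H10.qPlus m F)
  have hn : Module.finrank F (Fin m ⊕ Fin m → F) = 2 * m := by simp; omega
  have h1 := h0.neg_one_mem_iff h2 (by omega)
  rw [(h0.hasTS_iff_disc h2 hn).1 H10.qPlus_hasTS, hn] at h1
  have h3 := H10.chi_neg_one_pow h2 m
  rw [Nat.card_eq_fintype_card, hF] at h3
  refine Iff.trans ?_ (h1.trans ?_)
  · constructor
    · rintro ⟨g, hg, h4⟩
      convert (H10.mem_commutator_equiv (H10.isometryEquiv (H10.qPlus m F))).2 hg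
      refine H10.Form.Isom.ext fun x => ?_
      rw [H10.Form.neg_one_apply]
      exact ((congrArg (fun M => Matrix.mulVec M x) h4).trans (by simp [Matrix.neg_mulVec])).symm
    · intro h4
      obtain ⟨g, hg⟩ := (H10.isometryEquiv (H10.qPlus m F)).surjective (H10.Form.scalar _ (-1))
      refine ⟨g, (H10.mem_commutator_equiv (H10.isometryEquiv (H10.qPlus m F))).1 (hg ▸ h4),
        H10.matrix_eq_iff_mulVec.2 fun x => ?_⟩
      refine (H10.isometryEquiv_apply (H10.qPlus m F) g x).symm.trans ?_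
      rw [hg, H10.Form.neg_one_apply]
      simp [Matrix.neg_mulVec]
  · rcases h3 with ⟨h3, h4⟩ | ⟨h3, h4⟩ <;> simp [h3, h4]

end Cfsg.Agent.S0790
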