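import Mathlib
import Cfsg.Agent.H10.Irred
import Cfsg.Statements.S0792

set_option autoImplicit false
open Cfsg

namespace Cfsg.Agent.S0792

/-- For q odd and Q with non-degenerate polar form on F^n, the determinant-one isometries form the subgroup generated by all products r_u r_v of two reflections (Q(u), Q(v) ≠ 0). -/
theorem result {F : Type*} [Field F] [Fintype F] (h2 : (2 : F) ≠ 0) {n : ℕ} (Q : QuadraticForm F (Fin n → F)) (hQ : (QuadraticMap.polarBilin Q).Nondegenerate) : Cfsg.specialIsometryGroup F ⇑Q = Subgroup.closure {g : ↥(Cfsg.isometryGroup F ⇑Q) | ∃ u v : Fin n → F, Q u ≠ 0 ∧ Q v ≠ 0 ∧ ((g : Matrix.GeneralLinearGroup (Fin n) F) : Matrix (Fin n) (Fin n) F) = Cfsg.reflectionMatrix ⇑Q u * Cfsg.reflectionMatrix ⇑Q v} := by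
  have := H10.Form.ofQuad_nondeg hQ
  have h0 := H10.Form.isQuad_ofQuad Q
  have hg := h0.good_of_two_ne_zero h2
  ext g
  rw [← H10.isometryEquiv_mem_SIsom, ← h0.dickson_eq_one_iff h2,
    ← H10.mem_closure_equiv (H10.isometryEquiv Q) (T := {g | ∃ u v, Q u ≠ 0 ∧ Q v ≠ 0 ∧
      g = (H10.Form.ofQuad Q).refl u * (H10.Form.ofQuad Q).refl v})]
  · refine ⟨fun h => h0.ker_dickson_le hg (fun u v hu hv => by
      exact Subgroup.subset_closure ⟨u, v, hu, hv, rfl⟩) h, fun h => ?_⟩
    refine (Subgroup.closure_le (H10.Form.ofQuad Q).dickson.ker).2 ?_ h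
    rintro _ ⟨u, v, hu, hv, rfl⟩
    rw [SetLike.mem_coe, MonoidHom.mem_ker, map_mul, h0.dickson_refl hg hu, h0.dickson_refl hg hv]; simp
  · intro g
    refine exists₂_congr fun u v => and_congr_right fun _ => and_congr_right fun _ => ?_
    rw [H10.matrix_eq_iff_mulVec]
    simp only [← Matrix.mulVec_mulVec, H10.reflectionMatrix_mulVec, ← H10.isometryEquiv_apply]
    refine ⟨fun h x => ?_, fun h => H10.Form.Isom.ext fun x => ?_⟩
    · rw [h, H10.Form.Isom.mul_apply, h0.refl_apply, h0.refl_apply]; rfl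
    · rw [h, H10.Form.Isom.mul_apply, h0.refl_apply, h0.refl_apply]; rfl

end Cfsg.Agent.S0792
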