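import Mathlib
import Cfsg.Agent.H10.Bridge
import Cfsg.Statements.S0793

set_option autoImplicit false
open Cfsg

namespace Cfsg.Agent.S0793

/-- Root elements: if Q(u) = Q(v) = 0 and f(u, v) = 0 (f the polar form), then for every c the Siegel matrix T_(u,v)(c) preserves Q, fixes u and v, and T(c) T(d) = T(c + d). -/
theorem result {F : Type*} [Field F] {n : ℕ} (Q : QuadraticForm F (Fin n → F)) (u v : Fin n → F) (hu : Q u = 0) (hv : Q v = 0) (huv : QuadraticMap.polar ⇑Q u v = 0) : (∀ c x, Q ((Cfsg.siegelMatrix ⇑Q u v c).mulVec x) = Q x) ∧ (∀ c, (Cfsg.siegelMatrix ⇑Q u v c).mulVec u = u ∧ (Cfsg.siegelMatrix ⇑Q u v c).mulVec v = v) ∧ ∀ c d, Cfsg.siegelMatrix ⇑Q u v c * Cfsg.siegelMatrix ⇑Q u v d = Cfsg.siegelMatrix ⇑Q u v (c + d) := by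
  have huu : QuadraticMap.polar Q u u = 0 := by simp [QuadraticMap.polar_self, hu]
  have hvv : QuadraticMap.polar Q v v = 0 := by simp [QuadraticMap.polar_self, hv]
  have hvu : QuadraticMap.polar Q v u = 0 := by rw [QuadraticMap.polar_comm, huv]
  refine ⟨fun c x => ?_, fun c => ?_, fun c d => ?_⟩
  · rw [H10.siegelMatrix_mulVec]
    have := ((H10.Form.ofQuad Q).isIsom_siegelLin (p := v) (w := c • u) (s := 0) hv
      (by simp [hvu]) (by simp [QuadraticMap.map_smul, hu])).Q x
    rw [H10.Form.siegelLin_apply] at this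
    simpa [smul_smul, mul_comm] using this
  · simp [H10.siegelMatrix_mulVec, huu, hvv, hvu, huv]
  · rw [H10.matrix_eq_iff_mulVec]
    intro x
    simp only [← Matrix.mulVec_mulVec, H10.siegelMatrix_mulVec, QuadraticMap.polar_add_right,
      QuadraticMap.polar_sub_right, QuadraticMap.polar_smul_right, huu, hvv, hvu, huv]
    module

end Cfsg.Agent.S0793
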