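import Mathlib
import Cfsg.Agent.H10.Irred
import Cfsg.Statements.S0794

set_option autoImplicit false
open Cfsg

namespace Cfsg.Agent.S0794

/-- For q odd, n ≥ 5 and Q with non-degenerate polar form: an isometry whose matrix is a Siegel transformation T_(u,v)(c) (u, v singular and orthogonal) is a commutator in the isometry group, so lies in Ω. -/
theorem result {F : Type*} [Field F] [Fintype F] (h2 : (2 : F) ≠ 0) {n : ℕ} (hn : 5 ≤ n) (Q : QuadraticForm F (Fin n → F)) (hQ : (QuadraticMap.polarBilin Q).Nondegenerate) (u v : Fin n → F) (hu : Q u = 0) (hv : Q v = 0) (huv : QuadraticMap.polar ⇑Q u v = 0) (c : F) (g : ↥(Cfsg.isometryGroup F ⇑Q)) (hg : ((g : Matrix.GeneralLinearGroup (Fin n) F) : Matrix (Fin n) (Fin n) F) = Cfsg.siegelMatrix ⇑Q u v c) : g ∈ commutatorSet ↥(Cfsg.isometryGroup F ⇑Q) ∧ g ∈ Cfsg.Omega F ⇑Q := by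
  have := H10.Form.ofQuad_nondeg hQ
  have h0 := H10.Form.isQuad_ofQuad Q
  suffices h : g ∈ commutatorSet ↥(Cfsg.isometryGroup F ⇑Q) from
    ⟨h, Subgroup.subset_normalClosure h |> fun h => by rwa [Cfsg.Omega, commutator_eq_normalClosure]⟩
  have hvu : (H10.Form.ofQuad Q).B v u = 0 := (H10.Form.ofQuad Q).B_symm_zero huv
  have h1 : ∀ d : F, (H10.Form.ofQuad Q).B v (d • u) = 0 := fun d => by rw [map_smul, hvu, smul_zero]
  have h3 : ∀ d : F, (H10.Form.ofQuad Q).T 0 = (H10.Form.ofQuad Q).Q (d • u) := fun d => by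
    rw [H10.Form.Q_smul_of_sing _ hu, map_zero]
  have h4 : H10.isometryEquiv Q g = (H10.Form.ofQuad Q).siegel v (c • u) 0 := by
    refine H10.Form.Isom.ext fun x => ?_
    rw [H10.isometryEquiv_apply, hg, H10.siegelMatrix_mulVec, H10.Form.siegel_apply _ hv (h1 c) (h3 c)]
    simp [smul_smul, mul_comm]
  by_cases hli : LinearIndependent F ![v, u]
  · obtain ⟨k, h5, h6⟩ := (H10.Form.ofQuad Q).witt_pair hli (v := v) (v' := -u)
      (by rw [LinearIndependent.pair_iff] at hli ⊢
          intro s t hst; simpa using hli s (-t) (by simpa using hst)) rfl (by simp)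
      (by rw [map_neg, hvu, neg_zero])
    refine ⟨(H10.isometryEquiv Q).symm k, (H10.isometryEquiv Q).symm
      ((H10.Form.ofQuad Q).siegel v ((-c / 2) • u) 0), (H10.isometryEquiv Q).injective ?_⟩
    rw [map_commutatorElement, MulEquiv.apply_symm_apply, MulEquiv.apply_symm_apply, h4,
      commutatorElement_def, H10.Form.siegel_conj _ k hv (h1 _) (h3 _),
      H10.Form.siegel_inv hv (h1 _) (h3 _), h5, map_smul, h6, smul_neg, ← neg_smul,
      H10.Form.siegel_mul _ hv (h1 _) (h3 _) (h1 _) (by simpa using h3 _), ← add_smul]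
    congr 1
    · congr 1; field_simp; ring
    · simp [QuadraticMap.polar_self, hu]
  · refine ⟨1, 1, (H10.isometryEquiv Q).injective ?_⟩
    rw [h4, commutatorElement_self, map_one]
    by_cases hv0 : v = 0
    · rw [hv0, H10.Form.siegel_zero_left (h3 c)]
    rw [LinearIndependent.pair_iff' hv0] at hli
    push Not at hli
    obtain ⟨a, rfl⟩ := hli
    rw [smul_smul, H10.Form.siegel_self hv (map_zero _)]
    simpa using (H10.Form.siegel_zero _ hv).symm

end Cfsg.Agent.S0794
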