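import Mathlib
import Cfsg.Agent.H10.Irred
import Cfsg.Statements.S0795

set_option autoImplicit false
open Cfsg

namespace Cfsg.Agent.S0795

/-- Generation of Ω by root elements: for q odd, n ≥ 5 and Q with non-degenerate polar form on F^n, the commutator subgroup of the isometry group equals the subgroup generated by the isometries whose matrices are Siegel transformations T_(u,v)(c) with u, v singular and orthogonal. -/
theorem result {F : Type*} [Field F] [Fintype F] (h2 : (2 : F) ≠ 0) {n : ℕ} (hn : 5 ≤ n) (Q : QuadraticForm F (Fin n → F)) (hQ : (QuadraticMap.polarBilin Q).Nondegenerate) : Cfsg.Omega F ⇑Q = Subgroup.closure {g : ↥(Cfsg.isometryGroup F ⇑Q) | ∃ (u v : Fin n → F) (c : F), Q u = 0 ∧ Q v = 0 ∧ QuadraticMap.polar ⇑Q u v = 0 ∧ ((g : Matrix.GeneralLinearGroup (Fin n) F) : Matrix (Fin n) (Fin n) F) = Cfsg.siegelMatrix ⇑Q u v c} := by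
  have := H10.Form.ofQuad_nondeg hQ
  have h0 := H10.Form.isQuad_ofQuad Q
  have key : ∀ (g : ↥(Cfsg.isometryGroup F ⇑Q)) (u v : Fin n → F) (c : F), Q u = 0 → Q v = 0 →
      QuadraticMap.polar ⇑Q u v = 0 → (H10.isometryEquiv Q g = (H10.Form.ofQuad Q).siegel v (c • u) 0 ↔
        ((g : Matrix.GeneralLinearGroup (Fin n) F) : Matrix (Fin n) (Fin n) F) =
          Cfsg.siegelMatrix ⇑Q u v c) := by
    intro g u v c hu hv huv
    have h1 : ∀ x, ((H10.Form.ofQuad Q).siegel v (c • u) 0).1 x =
        (Cfsg.siegelMatrix ⇑Q u v c).mulVec x := fun x => by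
      rw [H10.siegelMatrix_mulVec, H10.Form.siegel_apply _ hv
        (by simp [QuadraticMap.polar_comm Q v u, huv]) (by simp [QuadraticMap.map_smul, hu])]
      simp [smul_smul, mul_comm]
    rw [H10.matrix_eq_iff_mulVec]
    exact ⟨fun h x => by rw [← h1, ← h]; rfl, fun h => H10.Form.Isom.ext fun x => by
      rw [h1, ← h]; rfl⟩
  ext g
  rw [← H10.mem_commutator_equiv (H10.isometryEquiv Q),
    ← h0.E_eq_commutator (h0.good_of_two_ne_zero h2) (by simp; omega),
    ← H10.mem_closure_equiv (H10.isometryEquiv Q) (T := {g | ∃ (u v : Fin n → F) (c : F), Q u = 0 ∧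
      Q v = 0 ∧ QuadraticMap.polar ⇑Q u v = 0 ∧ g = (H10.Form.ofQuad Q).siegel v (c • u) 0})]
  · refine ⟨fun h => h0.E_le_of_sing (by simpa using hn) (fun p w hp hw hpw => by
      exact Subgroup.subset_closure ⟨w, p, 1, hw, hp, (H10.Form.ofQuad Q).B_symm_zero hpw, by simp⟩) h,
      fun h => (Subgroup.closure_le _).2 ?_ h⟩
    rintro _ ⟨u, v, c, hu, hv, huv, rfl⟩
    exact H10.Form.siegel_mem_E _ hv (by simp [QuadraticMap.polar_comm Q v u, huv])
      (by simp [QuadraticMap.map_smul, hu])
  · intro g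
    exact exists₃_congr fun u v c => and_congr_right fun hu => and_congr_right fun hv =>
      and_congr_right fun huv => key g u v c hu hv huv

end Cfsg.Agent.S0795
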