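import Mathlib
import Cfsg.Statements.S0796

set_option autoImplicit false
open Cfsg

namespace Cfsg.Agent.S0796

/-- If G is finite and acts faithfully and primitively on X, H is the stabiliser of a point, A is a normal subgroup of H whose normal closure in G is G, then for every non-trivial normal subgroup K of G the quotient G ⧸ K is isomorphic to A ⧸ B for some normal subgroup B of A. -/
theorem result {G X : Type*} [Group G] [Finite G] [MulAction G X] [FaithfulSMul G X] (hprim : MulAction.IsPreprimitive G X) (x : X) (A : Subgroup G) (hA : A ≤ MulAction.stabilizer G x) (hAn : (A.subgroupOf (MulAction.stabilizer G x)).Normal) (hgen : Subgroup.normalClosure (A : Set G) = ⊤) (K : Subgroup G) [K.Normal] (hK : K ≠ ⊥) : ∃ (B : Subgroup A) (_ : B.Normal), Nonempty (G ⧸ K ≃* A ⧸ B) := by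
  have htr : MulAction.IsPretransitive K X := by
    apply MulAction.IsQuasiPreprimitive.isPretransitive_of_normal
    intro h
    apply hK
    rw [eq_bot_iff]
    intro k hk
    rw [Subgroup.mem_bot]
    apply FaithfulSMul.eq_of_smul_eq_smul (α := X)
    intro y
    rw [one_smul]
    exact (Set.eq_univ_iff_forall.1 h y) ⟨k, hk⟩
  have hnormal : (K ⊔ A).Normal := by
    constructor
    intro y hy g
    obtain ⟨k, hk⟩ := MulAction.exists_smul_eq K x (g • x)
    have hh : (k : G)⁻¹ * g ∈ MulAction.stabilizer G x := by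
      rw [MulAction.mem_stabilizer_iff, mul_smul, ← hk]
      exact inv_smul_smul (k : G) x
    rw [← SetLike.mem_coe, Subgroup.normal_mul] at hy
    obtain ⟨k', hk', a, ha, rfl⟩ := hy
    have h1 : ((k : G)⁻¹ * g) * a * ((k : G)⁻¹ * g)⁻¹ ∈ A :=
      hAn.conj_mem ⟨a, hA ha⟩ ha ⟨_, hh⟩
    have h2 : g * (k' * a) * g⁻¹ = (g * k' * g⁻¹) * (k * (((k : G)⁻¹ * g) * a * ((k : G)⁻¹ * g)⁻¹) * (k : G)⁻¹) := by
      group
    rw [h2]
    refine mul_mem (Subgroup.mem_sup_left (‹K.Normal›.conj_mem _ hk' g)) ?_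
    exact mul_mem (mul_mem (Subgroup.mem_sup_left k.2) (Subgroup.mem_sup_right h1))
      (Subgroup.mem_sup_left (inv_mem k.2))
  have htop : K ⊔ A = ⊤ := by
    rw [eq_top_iff, ← hgen]
    exact Subgroup.normalClosure_le_normal (fun a ha => Subgroup.mem_sup_right ha)
  let f : A →* G ⧸ K := (QuotientGroup.mk' K).comp A.subtype
  have hf : Function.Surjective f := by
    intro y
    obtain ⟨g, rfl⟩ := QuotientGroup.mk_surjective y
    have hg : g ∈ K ⊔ A := htop ▸ Subgroup.mem_top g
    rw [← SetLike.mem_coe, Subgroup.normal_mul] at hg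
    obtain ⟨k, hk, a, ha, rfl⟩ := hg
    refine ⟨⟨a, ha⟩, ?_⟩
    simp [f, (QuotientGroup.eq_one_iff k).2 hk]
  exact ⟨f.ker, inferInstance, ⟨(QuotientGroup.quotientKerEquivOfSurjective f hf).symm⟩⟩

end Cfsg.Agent.S0796
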