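import Mathlib
import Cfsg.Agent.H10.Irred
import Cfsg.Statements.S0797

set_option autoImplicit false
open Cfsg

namespace Cfsg.Agent.S0797

/-- O^ε_2m(q) ≅ Ω.2² for q odd: if F is finite of odd characteristic, n ≥ 2 is even and Q has non-degenerate polar form on F^n, the isometry group of Q has exactly three subgroups of index 2. -/
theorem result {F : Type*} [Field F] [Fintype F] (h2 : (2 : F) ≠ 0) {n : ℕ} (hn : 2 ≤ n) (heven : Even n) (Q : QuadraticForm F (Fin n → F)) (hQ : (QuadraticMap.polarBilin Q).Nondegenerate) : Nat.card {H : Subgroup ↥(Cfsg.isometryGroup F ⇑Q) // H.index = 2} = 3 := by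
  have := H10.Form.ofQuad_nondeg hQ
  have h0 := H10.Form.isQuad_ofQuad Q
  have hg := h0.good_of_two_ne_zero h2
  set φ := H10.Form.ofQuad Q
  rw [Nat.card_congr (((H10.isometryEquiv Q).mapSubgroup.toEquiv).subtypeEquiv
    (q := fun H => H.index = 2) fun H => by
      rw [← Subgroup.index_map_of_bijective (f := (H10.isometryEquiv Q).toMonoidHom)
        (H10.isometryEquiv Q).bijective]; rfl)]
  have hs := h0.prod_surjective h2 (by simpa using hn)
  obtain ⟨a, ha⟩ := hs (-1, 1)
  obtain ⟨b, hb⟩ := hs (1, -1)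
  simp only [MonoidHom.prod_apply, Prod.mk.injEq] at ha hb
  have : {H : Subgroup φ.Isom | H.index = 2} =
      {φ.dickson.ker, φ.spinor.ker, (φ.dickson * φ.spinor).ker} := by
    ext H
    constructor
    · intro hH
      obtain ⟨f, rfl⟩ := H10.exists_hom_of_index_two hH
      rcases h0.hom_cases hg f with rfl | rfl | rfl | rfl
      · simp at hH
      all_goals simp
    · rintro (rfl | rfl | rfl)
      exacts [H10.index_ker_eq_two ha.1, H10.index_ker_eq_two hb.2,
        H10.index_ker_eq_two (g := a) (by simp [ha])]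
  change Set.ncard {H : Subgroup φ.Isom | H.index = 2} = 3
  rw [this, Set.ncard_eq_three]
  refine ⟨_, _, _, fun h => ?_, fun h => ?_, fun h => ?_, rfl⟩
  · simpa [ha] using SetLike.ext_iff.1 h a
  · simpa [hb] using SetLike.ext_iff.1 h b
  · simpa [ha] using SetLike.ext_iff.1 h a

end Cfsg.Agent.S0797
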