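import Mathlib
import Cfsg.Agent.H10.Irred
import Cfsg.Statements.S0798

set_option autoImplicit false
open Cfsg

namespace Cfsg.Agent.S0798

/-- For q odd, n ≥ 2 even, Q with non-degenerate polar form (n, |F|) ≠ (4, 3), and a fixed c ≠ 0: the subgroup of the isometry group generated by the reflections r_v with Q(v) ∈ c·(F^×)² has index 2. -/
theorem result {F : Type*} [Field F] [Fintype F] (h2 : (2 : F) ≠ 0) {n : ℕ} (hn : 2 ≤ n) (heven : Even n) (Q : QuadraticForm F (Fin n → F)) (hQ : (QuadraticMap.polarBilin Q).Nondegenerate) (h43 : ¬ (n = 4 ∧ Fintype.card F = 3)) (c : F) (hc : c ≠ 0) : (Subgroup.closure {g : ↥(Cfsg.isometryGroup F ⇑Q) | ∃ (v : Fin n → F) (t : F), t ≠ 0 ∧ Q v = c * t ^ 2 ∧ ((g : Matrix.GeneralLinearGroup (Fin n) F) : Matrix (Fin n) (Fin n) F) = Cfsg.reflectionMatrix ⇑Q v}).index = 2 := by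
  have := H10.Form.ofQuad_nondeg hQ
  have h0 := H10.Form.isQuad_ofQuad Q
  have hg := h0.good_of_two_ne_zero h2
  set φ := H10.Form.ofQuad Q with hφ
  have hn' : Module.finrank F (Fin n → F) = 2 ∨ 4 ≤ Module.finrank F (Fin n → F) := by
    obtain ⟨k, rfl⟩ := heven; simp; omega
  have h1 := h0.commutator_le_of_class h2 hn' (by simpa using h43) hc
  set K := Subgroup.closure {g | ∃ v, φ.Q v ≠ 0 ∧ H10.chi (φ.Q v) = H10.chi c ∧ g = φ.refl v}
  obtain ⟨a, -, ha⟩ := h0.exists_Q_eq φ.nondegOn_top (by simpa using hn) c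
  have ha0 : φ.Q a ≠ 0 := by rwa [ha]
  have haK : φ.refl a ∈ K := Subgroup.subset_closure ⟨a, ha0, by rw [ha], rfl⟩
  obtain ⟨f, hf, hf'⟩ : ∃ f : φ.Isom →* ℤˣ, (∀ v, φ.Q v ≠ 0 → f (φ.refl v) =
      H10.chi c * H10.chi (φ.Q v)) ∧ ∀ g, φ.dickson g = 1 → f g = φ.spinor g := by
    rcases Int.units_eq_one_or (H10.chi c) with h | h
    · exact ⟨φ.spinor, fun v hv => by simp [h, h0.spinor_refl hg hv], fun _ _ => rfl⟩
    · exact ⟨φ.dickson * φ.spinor, fun v hv => by
        simp [h, h0.spinor_refl hg hv, h0.dickson_refl hg hv], fun _ h => by simp [h]⟩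
  have h3 : K = f.ker := by
    refine le_antisymm ((Subgroup.closure_le _).2 ?_) fun g hg' => ?_
    · rintro _ ⟨v, hv, hv', rfl⟩
      simp [hf v hv, hv']
    · rcases Int.units_eq_one_or (φ.dickson g) with h | h
      · exact h1 ((h0.mem_commutator_iff hg (by simpa using hn)).2 ⟨h, (hf' g h).symm.trans hg'⟩)
      · have h4 : φ.dickson (g * φ.refl a) = 1 := by simp [h, h0.dickson_refl hg ha0]
        refine (mul_mem_cancel_right haK).1
          (h1 ((h0.mem_commutator_iff hg (by simpa using hn)).2 ⟨h4, (hf' _ h4).symm.trans ?_⟩))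
        rw [map_mul, hg', hf a ha0, ha]; simp
  obtain ⟨b, hb⟩ := h0.prod_surjective h2 (by simpa using hn) (1, -1)
  simp only [MonoidHom.prod_apply, Prod.mk.injEq] at hb
  refine Eq.trans ?_ ((Subgroup.index_comap_of_surjective (f := (H10.isometryEquiv Q).toMonoidHom) K
      (H10.isometryEquiv Q).surjective).trans (h3 ▸ H10.index_ker_eq_two ((hf' b hb.1).trans hb.2)))
  congr 1
  ext g
  refine (H10.mem_closure_equiv (H10.isometryEquiv Q) fun g => exists_congr fun v => ?_).symm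
  have h4 : H10.isometryEquiv Q g = φ.refl v ↔ ((g : Matrix.GeneralLinearGroup (Fin n) F) :
      Matrix (Fin n) (Fin n) F) = Cfsg.reflectionMatrix ⇑Q v := by
    rw [H10.matrix_eq_iff_mulVec]
    simp only [H10.reflectionMatrix_mulVec, ← H10.isometryEquiv_apply]
    exact ⟨fun h x => by rw [h, h0.refl_apply]; rfl,
      fun h => H10.Form.Isom.ext fun x => by rw [h, h0.refl_apply]; rfl⟩
  rw [h4]
  constructor
  · rintro ⟨h5, h6, h7⟩
    obtain ⟨t, ht, h8⟩ := H10.exists_eq_mul_sq_of_chi_eq h5 hc h6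
    exact ⟨t, ht, h8.trans (by ring), h7⟩
  · rintro ⟨t, ht, h5, h6⟩
    refine ⟨by simp [hφ, h5, hc, ht], ?_, h6⟩
    rw [show φ.Q v = c * (t * t) by rw [← sq]; exact h5, H10.chi_mul hc (by simpa), H10.chi_mul_self,
      mul_one]

end Cfsg.Agent.S0798
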