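import Mathlib
import Cfsg.Agent.L.Torus
-- Template for statement S0800 (row 800; see /opt/grader/pristine/manifest.json for weights).
-- Copy to Cfsg/Agent/S0800.lean and replace the sorry. The statement below is byte-identical to the frozen
-- statement Cfsg.CfsgFrozen.S0800 (Cfsg/Statements/S0800.lean; the theorem Cfsg.sl_two_semisimple_order_dvd);
-- the grader kernel-checks Cfsg.Agent.S0800.result against that frozen type. Keep the theorem IN THIS FILE
-- (a `result` declared elsewhere and merely imported here is not credited); helpers may live anywhere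
-- under Cfsg/Agent/.
import Cfsg.Statements.S0800
-- import your own Cfsg.Agent.* helpers here

set_option autoImplicit false
open Cfsg

namespace Cfsg.Agent.S0800

/-- Tori of SL_2(q): if g ∈ SL_2(q) has order coprime to the characteristic p, then the order of g divides q − 1 or q + 1. -/
theorem result {F : Type*} [Field F] [Fintype F] {q : ℕ} (hF : Fintype.card F = q) (p : ℕ) [Fact p.Prime] [CharP F p] (g : Matrix.SpecialLinearGroup (Fin 2) F) (hg : Nat.Coprime (orderOf g) p) : orderOf g ∣ q - 1 ∨ orderOf g ∣ q + 1 := by
  subst hF
  by_cases ht : (g : L.M2 F).trace ^ 2 = 4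
  · -- parabolic or scalar
    obtain ⟨a, ha1, ha2⟩ : ∃ a : F, (g : L.M2 F).trace = 2 * a ∧ a ^ 2 = 1 := by
      have : ((g : L.M2 F).trace - 2) * ((g : L.M2 F).trace + 2) = 0 := by linear_combination ht
      rcases mul_eq_zero.1 this with h | h
      · exact ⟨1, by linear_combination h, by simp⟩
      · exact ⟨-1, by linear_combination h, by simp⟩
    have hs : L.IsScal ((g ^ p : L.SL2 F) : L.M2 F) := by
      rw [L.SL2_coe_pow, L.pow_char_of_par p ha1 (by rw [ha2]; simp)]
      exact L.isScal_smul_one _
    have ho : orderOf (g ^ p) = orderOf g := hg.orderOf_pow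
    by_cases h2 : (2 : F) = 0
    · rw [(L.SL2_scal_iff_two h2).1 hs, orderOf_one] at ho
      left; rw [← ho]; exact one_dvd _
    · have hodd := L.odd_card_iff.2 h2
      have : orderOf g ∣ 2 := by
        rw [← ho]; apply orderOf_dvd_of_pow_eq_one
        rcases L.SL2_scal_iff.1 hs with h | h <;> rw [h] <;> simp
      right; exact this.trans (even_iff_two_dvd.1 hodd.add_one)
  · have hm : g ∈ Subgroup.centralizer ({g} : Set (L.SL2 F)) :=
      Subgroup.mem_centralizer_singleton_iff.2 rfl
    have := Subgroup.orderOf_dvd_natCard _ hm
    rcases L.card_torus ht with ⟨-, h⟩ | ⟨-, h⟩ <;> rw [h] at this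
    · exact Or.inl this
    · exact Or.inr this

end Cfsg.Agent.S0800
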