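import Mathlib
import Cfsg.Statements.S0801
import Cfsg.Agent.L.DicksonX
import Cfsg.Agent.H17.Dickson2

set_option autoImplicit false
open Cfsg

namespace Cfsg.Agent.S0801

open Matrix H17 L.Dk H09 Subgroup
open scoped MatrixGroups

/-- the field with nine elements -/
abbrev R := QuadraticAlgebra (ZMod 3) (-1) 0

/-- coded matrices -/
abbrev T := R × R × R × R

/-- left multiplication by the first generator -/
def mx (t : T) : T := (t.1, t.2.1, t.1 + t.2.2.1, t.2.1 + t.2.2.2)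

/-- left multiplication by the second generator -/
def my (t : T) : T := (t.1 + ⟨0, 1⟩ * t.2.2.1, t.2.1 + ⟨0, 1⟩ * t.2.2.2, t.2.2.1, t.2.2.2)

/-- breadth-first closure -/
def it : ℕ → List T
  | 0 => [(1, 0, 0, 1)]
  | n + 1 => (it n ++ (it n).map mx ++ (it n).map my).dedup

theorem it_spec : (it 12).length = 120 ∧ (1, 0, 0, 1) ∈ it 12 ∧ ∀ t ∈ it 12, mx t ∈ it 12 ∧ my t ∈ it 12 := by
  decide +kernel

theorem exc {F : Type*} [Field F] [Fintype F] [CharP F 3] {lam : F} (h : lam ^ 2 = -1) :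
    Nat.card (closure {lo (1 : F), up lam}) = 120 := by
  let _ := ZMod.algebra F 3
  let f : R →ₐ[ZMod 3] F := QuadraticAlgebra.lift ⟨lam, by simp [← sq, h]⟩
  have hf : f ⟨0, 1⟩ = lam := by simp [f, QuadraticAlgebra.lift]
  have fi : Function.Injective f := (injective_iff_map_eq_zero f).2 fun z hz => by
    by_contra h0
    obtain ⟨a, b⟩ := z
    obtain ⟨c, d, e⟩ := (by decide : ∀ a b : ZMod 3, (⟨a, b⟩ : R) ≠ 0 → ∃ c d : ZMod 3, (⟨a, b⟩ : R) * ⟨c, d⟩ = 1) a b h0
    have := congrArg f e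
    rw [map_mul, hz, zero_mul, map_one] at this
    exact zero_ne_one this
  let M : T → Matrix (Fin 2) (Fin 2) F := fun t => !![f t.1, f t.2.1; f t.2.2.1, f t.2.2.2]
  have Mi : Function.Injective M := fun s t e => Prod.ext (fi (congrFun (congrFun e 0) 0))
    (Prod.ext (fi (congrFun (congrFun e 0) 1)) (Prod.ext (fi (congrFun (congrFun e 1) 0)) (fi (congrFun (congrFun e 1) 1))))
  have M1 : M (1, 0, 0, 1) = 1 := by simp [M, one_fin_two]
  have Mx : ∀ t, M (mx t) = (lo (1 : F)).1 * M t := fun t => by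
    show _ = !![1, 0; 1, 1] * _
    simp [M, mx]
  have My : ∀ t, M (my t) = (up lam).1 * M t := fun t => by
    show _ = !![1, lam; 0, 1] * _
    simp [M, my, hf]
  set L := closure {lo (1 : F), up lam}
  have a1 : ∀ n, ∀ t ∈ it n, ∃ g ∈ L, g.1 = M t := fun n => by
    induction n with
    | zero => intro t ht; exact ⟨1, one_mem _, by rw [List.mem_singleton.1 ht, M1]; rfl⟩
    | succ n ih =>
      intro t ht
      simp only [it, List.mem_dedup, List.mem_append, List.mem_map] at ht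
      rcases ht with (ht | ⟨s, hs, rfl⟩) | ⟨s, hs, rfl⟩
      · exact ih t ht
      · obtain ⟨g, hg, e⟩ := ih s hs
        exact ⟨lo 1 * g, mul_mem (subset_closure (by simp)) hg, by rw [Mx, ← e]; rfl⟩
      · obtain ⟨g, hg, e⟩ := ih s hs
        exact ⟨up lam * g, mul_mem (subset_closure (by simp)) hg, by rw [My, ← e]; rfl⟩
  have a2 : ∀ g ∈ L, ∃ t ∈ it 12, g.1 = M t := fun g hg => by
    replace hg : g ∈ Submonoid.closure {lo (1 : F), up lam} := by rw [← closure_toSubmonoid_of_finite]; exact hg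
    induction hg using Submonoid.closure_induction_left with
    | one => exact ⟨_, it_spec.2.1, M1.symm⟩
    | mul_left x hx y _ ih =>
      obtain ⟨t, ht, e⟩ := ih
      rcases hx with rfl | rfl
      · exact ⟨_, (it_spec.2.2 t ht).1, by rw [Mx, ← e]; rfl⟩
      · exact ⟨_, (it_spec.2.2 t ht).2, by rw [My, ← e]; rfl⟩
  have e : Subtype.val '' (L : Set SL(2, F)) = M '' ((it 12).toFinset : Set T) := by
    ext m
    exact ⟨fun ⟨g, hg, e⟩ => let ⟨t, ht, e'⟩ := a2 g hg; ⟨t, by simpa using ht, e'.symm.trans e⟩,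
      fun ⟨t, ht, e⟩ => let ⟨g, hg, e'⟩ := a1 12 t (by simpa using ht); ⟨g, hg, e'.trans e⟩⟩
  refine ((Nat.card_image_of_injective Subtype.val_injective (L : Set SL(2, F))).symm.trans
    ((congrArg (fun s : Set _ => Nat.card s) e).trans (Nat.card_image_of_injective Mi _))).trans ?_
  rw [Nat.card_coe_set_eq, Set.ncard_coe_finset, List.toFinset_card_of_nodup (l := it 12) (List.nodup_dedup _), it_spec.1]

theorem kA4 : ∀ g : alternatingGroup (Fin 4), g ^ 2 = 1 ∨ g ^ 3 = 1 ∨ g ^ 4 = 1 := by decide +kernel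

theorem kS4 : ∀ g : Equiv.Perm (Fin 4), g ^ 2 = 1 ∨ g ^ 3 = 1 ∨ g ^ 4 = 1 := by decide +kernel

theorem kA5 : ∀ g : alternatingGroup (Fin 5), g ^ 2 = 1 ∨ g ^ 3 = 1 ∨ g ^ 5 = 1 := by decide +kernel

theorem cA5 : Fintype.card (alternatingGroup (Fin 5)) = 60 := by decide +kernel

theorem jj_mem {F : Type*} [Field F] {F₀ : Subfield F} {σ g : PGL(2, F)} (h : g ∈ cj σ (subPGL F₀)) : jj g ∈ F₀ := by
  obtain ⟨k, hk⟩ := mem_cj.1 h
  have := jj_conj σ⁻¹ g
  rw [inv_inv, ← hk, jj_map] at this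
  exact this ▸ (jj k).2

theorem gen {F : Type*} [Field F] [Fintype F] (h2 : (2 : F) ≠ 0) {lam : F} (hlam : lam ≠ 0)
    (hgen : Subfield.closure ({lam} : Set F) = ⊤) (hx : ¬ (Fintype.card F = 9 ∧ lam ^ 2 = -1)) :
    closure {lo (1 : F), up lam} = ⊤ := by
  obtain ⟨p, hp⟩ := CharP.exists F
  have pp : p.Prime := CharP.char_is_prime F p
  have := Fact.mk pp
  have hp2 : p ≠ 2 := by rintro rfl; exact h2 (CharP.cast_eq_zero F 2)
  set L := closure {lo (1 : F), up lam}
  have hxL : lo (1 : F) ∈ L := subset_closure (by simp)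
  have hyL : up lam ∈ L := subset_closure (by simp)
  have lop : ∀ (n : ℕ) (a : F), lo a ^ n = lo (n * a) := fun n a => by
    induction n with
    | zero => rw [pow_zero]; ext i j; fin_cases i <;> fin_cases j <;> simp [lo, sl2]
    | succ n ih => rw [pow_succ, ih, lo_mul]; congr 1; push_cast; ring
  have lo0 : lo (0 : F) = 1 := by simpa using (lop 0 0).symm
  let H := L.map (SpecialLinearGroup.toPGL (n := Fin 2))
  let a : H := ⟨_, mem_map_of_mem _ hxL⟩
  let b : H := ⟨_, mem_map_of_mem _ hyL⟩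
  have j1 : jj (a * b).1 = (2 + lam) ^ 2 := by
    show jj (SpecialLinearGroup.toPGL _ * SpecialLinearGroup.toPGL _) = _
    rw [← map_mul, jj_toPGL]
    show (!![1, 0; 1, 1] * !![1, lam; 0, 1]).trace ^ 2 = _
    simp; ring
  have j2 : jj (a * b⁻¹).1 = (2 - lam) ^ 2 := by
    show jj (SpecialLinearGroup.toPGL _ * (SpecialLinearGroup.toPGL _)⁻¹) = _
    rw [← map_inv, up_inv, ← map_mul, jj_toPGL]
    show (!![1, 0; 1, 1] * !![1, -lam; 0, 1]).trace ^ 2 = _
    simp; ring
  have top : ∀ F₀ : Subfield F, jj (a * b).1 ∈ F₀ → jj (a * b⁻¹).1 ∈ F₀ → F₀ = ⊤ := fun F₀ h1 h3 => by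
    rw [eq_top_iff, ← hgen, Subfield.closure_le, Set.singleton_subset_iff]
    have : lam = ((2 + lam) ^ 2 - (2 - lam) ^ 2) / 2 ^ 3 := by field_simp; ring
    rw [this, ← j1, ← j2]
    exact F₀.div_mem (F₀.sub_mem h1 h3) (F₀.pow_mem (ofNat_mem F₀ 2) 3)
  have big : pslRange F ≤ H → L = ⊤ := fun h => by
    have : ∀ s : SL(2, F), s ^ p = 1 → s ∈ L := fun s hs => by
      obtain ⟨l, hl, e⟩ := h (mem_pslRange.2 ⟨s, rfl⟩)
      have c : l⁻¹ * s ∈ center SL(2, F) := by
        rw [← SpecialLinearGroup.toPGL_ker, MonoidHom.mem_ker, map_mul, map_inv, e, inv_mul_cancel]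
      have c2 : (l⁻¹ * s) ^ 2 = 1 := by
        obtain ⟨r, hr, e⟩ := Matrix.SpecialLinearGroup.mem_center_iff.1 c
        have : ((l⁻¹ * s) ^ 2).1 = 1 := by
          rw [Matrix.SpecialLinearGroup.coe_pow, ← e, ← map_pow, show r ^ 2 = 1 by simpa using hr, map_one]
        exact Subtype.ext this
      obtain ⟨k, hk⟩ := pp.odd_of_ne_two hp2
      have : s = l ^ (p + 1) := by
        calc s = s ^ (p + 1) := by rw [pow_succ, hs, one_mul]
          _ = (l * (l⁻¹ * s)) ^ (p + 1) := by rw [mul_inv_cancel_left]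
          _ = _ := by
            rw [Commute.mul_pow (mem_center_iff.1 c l), show p + 1 = 2 * (k + 1) by omega, pow_mul (l⁻¹ * s), c2,
              one_pow, mul_one]
      exact this ▸ pow_mem hl _
    exact eq_top_of_up_lo L (fun c => this _ (by rw [up_pow, CharP.cast_eq_zero, zero_mul, up_zero]))
      fun c => this _ (by rw [lop, CharP.cast_eq_zero, zero_mul, lo0])
  have prime : (⊥ : Subfield F) = ⊤ → L = ⊤ := fun h => by
    have c : ∀ c : F, ∃ n : ℕ, (n : F) = c := fun c => by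
      obtain ⟨n, hn⟩ := (mem_bot_iff_intCast p F).1 (h ▸ Subfield.mem_top c)
      exact ⟨(n : ZMod p).val, by
        rw [← hn, ← Int.cast_natCast, ZMod.val_intCast]; exact (CharP.intCast_eq_intCast_mod F p).symm⟩
    refine eq_top_of_up_lo L (fun c' => ?_) fun c' => ?_
    · obtain ⟨n, hn⟩ := c (c' / lam)
      have := pow_mem hyL n
      rwa [up_pow, hn, div_mul_cancel₀ _ hlam] at this
    · obtain ⟨n, hn⟩ := c c'
      have := pow_mem hxL n
      rwa [lop, hn, mul_one] at this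
  have hb : b.1 = aff 1 lam := toPGL_up lam
  have ob : orderOf b = p := orderOf_eq_prime (Subtype.ext (by
    rw [SubmonoidClass.coe_pow, hb]; exact (aff_pow_char_iff p).2 rfl)) fun e => hlam (aff_eq_one.1
      (hb.symm.trans (congrArg Subtype.val e))).2
  have pH : p ∣ Nat.card H := ob ▸ orderOf_dvd_natCard b
  have top' : ∀ F₀ : Subfield F, lam ∈ F₀ → F₀ = ⊤ := fun F₀ h => by
    rwa [eq_top_iff, ← hgen, Subfield.closure_le, Set.singleton_subset_iff]
  have small : (∀ g : H, g ^ 2 = 1 ∨ g ^ 3 = 1 ∨ g ^ 4 = 1) → L = ⊤ := fun h => by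
    have c : ∀ g : H, jj g.1 ∈ (⊥ : Subfield F) := fun g => by
      by_cases h1 : g.1 = 1
      · rw [h1, jj_one]; exact ofNat_mem _ 4
      by_cases h3 : g.1 ^ 2 = 1
      · rw [(pow_two_iff h1).1 h3]; exact zero_mem _
      rcases h g with e | e | e
      · exact absurd (congrArg Subtype.val e) h3
      · rw [(pow_three_iff h1).1 (congrArg Subtype.val e)]; exact one_mem _
      · rw [jj_of_four (congrArg Subtype.val e) h3]; exact ofNat_mem _ 2
    exact prime (top _ (c _) (c _))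
  have five : p ∣ 60 → (∀ g : H, g ^ 2 = 1 ∨ g ^ 3 = 1 ∨ g ^ 5 = 1) → L = ⊤ := fun hd h => by
    have c : ∀ (g : H) (u : F), jj g.1 = u ^ 2 → u ∈ (⊥ : Subfield F) ∨ jj g.1 ^ 2 - 3 * jj g.1 + 1 = 0 := fun g u hu => by
      have k : ∀ v ∈ (⊥ : Subfield F), jj g.1 = v ^ 2 → u ∈ (⊥ : Subfield F) := fun v hv e => by
        rcases sq_eq_sq_iff_eq_or_eq_neg.1 (hu.symm.trans e) with rfl | rfl
        exacts [hv, neg_mem hv]
      by_cases h1 : g.1 = 1
      · exact .inl (k 2 (ofNat_mem _ 2) (by rw [h1, jj_one]; norm_num))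
      rcases h g with e | e | e
      · exact .inl (k 0 (zero_mem _) (by rw [(pow_two_iff h1).1 (congrArg Subtype.val e)]; norm_num))
      · exact .inl (k 1 (one_mem _) (by rw [(pow_three_iff h1).1 (congrArg Subtype.val e)]; norm_num))
      · exact .inr (jj_of_five (congrArg Subtype.val e) h1)
    rcases c _ _ j1 with e1 | e1
    · exact prime (top' _ (by simpa using sub_mem e1 (ofNat_mem _ 2)))
    rcases c _ _ j2 with e2 | e2
    · exact prime (top' _ (by simpa using sub_mem (ofNat_mem _ 2) e2))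
    rw [j1] at e1
    rw [j2] at e2
    have e3 : 2 * lam ^ 2 + 5 = 0 := mul_left_cancel₀ (mul_ne_zero (pow_ne_zero 3 h2) hlam) (by linear_combination e1 - e2)
    have hp' : p = 3 ∨ p = 5 := by
      rcases (Nat.Prime.dvd_mul pp (m := 2 ^ 2) (n := 3 * 5)).1 hd with h | h
      · exact absurd ((Nat.prime_dvd_prime_iff_eq pp Nat.prime_two).1 (pp.dvd_of_dvd_pow h)) hp2
      · exact ((Nat.Prime.dvd_mul pp).1 h).imp (Nat.prime_dvd_prime_iff_eq pp Nat.prime_three).1
          (Nat.prime_dvd_prime_iff_eq pp Nat.prime_five).1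
    exfalso
    rcases hp' with rfl | rfl
    · have h3 : (3 : F) = 0 := CharP.cast_eq_zero F 3
      have e4 : lam ^ 2 = -1 := mul_left_cancel₀ h2 (by linear_combination e3 - h3)
      refine hx ⟨?_, e4⟩
      have b1 := card_le_of_fixF (F := F) (p := 3) two_ne_zero (top' _ (mem_fixF.2 (by
        linear_combination lam * (lam ^ 6 - lam ^ 4 + lam ^ 2 - 1) * e4)))
      obtain ⟨⟨n, hn0⟩, -, hn⟩ := FiniteField.card F 3
      have b2 := FiniteField.pow_card lam
      rw [hn] at b1 b2 ⊢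
      have b3 : n ≤ 2 := (Nat.pow_le_pow_iff_right (by norm_num)).1 b1
      obtain rfl | rfl : n = 1 ∨ n = 2 := by omega
      · exact absurd (mul_left_cancel₀ h2 (by simp only [PNat.mk_coe] at b2; linear_combination lam * e4 - b2) : lam = 0) hlam
      · rfl
    · have h5 : (5 : F) = 0 := CharP.cast_eq_zero F 5
      exact mul_ne_zero h2 (pow_ne_zero 2 hlam) (by linear_combination e3 - h5)
  have sub : ∀ (F₀ : Subfield F) (σ : PGL(2, F)), H ≤ cj σ (subPGL F₀) → F₀ = ⊤ := fun F₀ σ h => by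
    have : ∀ g : H, jj g.1 ∈ F₀ := fun g => jj_mem (h g.2)
    exact top _ (this _) (this _)
  rcases clsX p H with ⟨x, h⟩ | ⟨-, h⟩ | ⟨C, -, h1, -, h3⟩ | ⟨⟨e⟩⟩ | ⟨⟨e⟩⟩ | ⟨⟨e⟩⟩ | ⟨F₀, σ, h⟩ | ⟨F₀, σ, h⟩
  · rcases P1.cases x with rfl | ⟨t, rfl⟩
    · have : Matrix.SpecialLinearGroup.toGL (lo (1 : F)) • (pInf : P1 F) = pInf := (pgl_mk_smul _ _).symm.trans (h a)
      exact absurd (gl_smul_pInf_eq_pInf.1 this) one_ne_zero
    · have : aff 1 lam • pt t = pt t := by rw [← hb]; exact h b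
      simp [aff_smul_pt, hlam] at this
  · exact absurd pH h
  · by_cases hC : b ∈ C
    · exact absurd (ob ▸ Subgroup.orderOf_dvd_natCard C hC) h1
    · exact absurd ((Nat.prime_dvd_prime_iff_eq pp Nat.prime_two).1
        (ob ▸ orderOf_dvd_of_pow_eq_one (by rw [sq, h3 b hC]))) hp2
  · exact small fun g => by simpa only [← map_pow, e.map_eq_one_iff] using kA4 (e g)
  · exact small fun g => by simpa only [← map_pow, e.map_eq_one_iff] using kS4 (e g)
  · refine five (pH.trans ?_) fun g => by simpa only [← map_pow, e.map_eq_one_iff] using kA5 (e g)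
    rw [Nat.card_congr e.toEquiv, Nat.card_eq_fintype_card, cA5]
  · obtain rfl := sub F₀ σ h.le
    exact big (by rw [h, subPGL_top, cj_top]; exact le_top)
  · obtain rfl := sub F₀ σ (h.le.trans (map_mono (map_le_range _ _)))
    exact big (by rw [h, subPSL_top, cj_pslRange])

/-- Let F be a finite field of odd characteristic and λ ≠ 0 an element generating F as a field. Then the lower and upper unitriangular matrices with off-diagonal entries 1 and λ generate SL_2(F), unless |F| = 9 and λ² = −1, in which case they generate a subgroup of order 120. -/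
theorem result {F : Type*} [Field F] [Fintype F] (h2 : (2 : F) ≠ 0) (lam : F) (hlam : lam ≠ 0) (hgen : Subfield.closure ({lam} : Set F) = ⊤) : (Subgroup.closure {g : Matrix.SpecialLinearGroup (Fin 2) F | (g : Matrix (Fin 2) (Fin 2) F) = !![1, 0; 1, 1] ∨ (g : Matrix (Fin 2) (Fin 2) F) = !![1, lam; 0, 1]} = ⊤ ∧ ¬ (Fintype.card F = 9 ∧ lam ^ 2 = -1)) ∨ (Fintype.card F = 9 ∧ lam ^ 2 = -1 ∧ Nat.card ↥(Subgroup.closure {g : Matrix.SpecialLinearGroup (Fin 2) F | (g : Matrix (Fin 2) (Fin 2) F) = !![1, 0; 1, 1] ∨ (g : Matrix (Fin 2) (Fin 2) F) = !![1, lam; 0, 1]}) = 120) := by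
  have e : {g : Matrix.SpecialLinearGroup (Fin 2) F | (g : Matrix (Fin 2) (Fin 2) F) = !![1, 0; 1, 1] ∨
      (g : Matrix (Fin 2) (Fin 2) F) = !![1, lam; 0, 1]} = {lo 1, up lam} := by
    ext g
    exact or_congr (Subtype.ext_iff (a2 := lo 1)).symm (Subtype.ext_iff (a2 := up lam)).symm
  rw [e]
  by_cases hx : Fintype.card F = 9 ∧ lam ^ 2 = -1
  · have : CharP F 3 := by
      obtain ⟨p, hp⟩ := CharP.exists F
      have pp : p.Prime := CharP.char_is_prime F p
      have := Fact.mk pp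
      have h3 := char_dvd_card (F := F) p
      rw [hx.1] at h3
      rwa [← (Nat.prime_dvd_prime_iff_eq pp Nat.prime_three).1 (pp.dvd_of_dvd_pow (n := 2) h3)]
    exact .inr ⟨hx.1, hx.2, exc hx.2⟩
  · exact .inl ⟨gen h2 hlam hgen hx, hx⟩

end Cfsg.Agent.S0801
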