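import Mathlib
import Cfsg.Agent.L.PSL2Sub
-- Template for statement S0805 (row 805; see /opt/grader/pristine/manifest.json for weights).
-- Copy to Cfsg/Agent/S0805.lean and replace the sorry. The statement below is byte-identical to the frozen
-- statement Cfsg.CfsgFrozen.S0805 (Cfsg/Statements/S0805.lean; the theorem Cfsg.psl_two_has_pgl_two_subfield_iff);
-- the grader kernel-checks Cfsg.Agent.S0805.result against that frozen type. Keep the theorem IN THIS FILE
-- (a `result` declared elsewhere and merely imported here is not credited); helpers may live anywhere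
-- under Cfsg/Agent/.
import Cfsg.Statements.S0805
-- import your own Cfsg.Agent.* helpers here

set_option autoImplicit false
open Cfsg

namespace Cfsg.Agent.S0805

/-- Subfield subgroups: let F be a finite field of odd order q and K a finite field with |K|^m = q, m ≥ 1. Then PSL_2(F) has a subgroup isomorphic to PSL_2(K), and has a subgroup isomorphic to PGL_2(K) if and only if m is even. -/
theorem result {F K : Type*} [Field F] [Fintype F] [Field K] [Fintype K] {q : ℕ} (hF : Fintype.card F = q) (hodd : Odd q) (m : ℕ) (hm : 1 ≤ m) (hK : Fintype.card K ^ m = q) : (∃ H : Subgroup (Matrix.ProjectiveSpecialLinearGroup (Fin 2) F), Nonempty (H ≃* Matrix.ProjectiveSpecialLinearGroup (Fin 2) K)) ∧ ((∃ H : Subgroup (Matrix.ProjectiveSpecialLinearGroup (Fin 2) F), Nonempty (H ≃* Matrix.ProjGenLinGroup (Fin 2) K)) ↔ Even m) := by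
  subst hF
  obtain ⟨ι⟩ := L.Dk.exists_ringHom hK
  refine ⟨L.Dk.exists_subgroup_of_injective ⟨_, L.Dk.pslMap_injective ι⟩, ?_, ?_⟩
  · rintro ⟨H, ⟨e⟩⟩
    by_contra hm'
    rw [Nat.not_even_iff_odd] at hm'
    have h1 := L.Dk.card_dvd_of_equiv e
    have h2 := L.Dk.card_psl (F := F)
    have hd : L.Dk.dd F = 2 := ((L.Dk.dd_cases (F := F)).resolve_left (by rw [Nat.odd_iff] at hodd; omega)).2
    rw [L.Dk.card_PGL2] at h1
    have h3 : 2 * (Fintype.card K ^ 2 - 1) ∣ Fintype.card F * (Fintype.card F ^ 2 - 1) := by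
      rw [← h2, hd]; exact Nat.mul_dvd_mul_left _ ((dvd_mul_left _ _).trans h1)
    have hr : Odd (Fintype.card K) := by
      rw [← hK, Nat.odd_pow_iff (by omega)] at hodd; exact hodd
    have h4 : Fintype.card F ^ 2 - 1 = (Fintype.card K ^ 2 - 1) * ∑ i ∈ Finset.range m, (Fintype.card K ^ 2) ^ i := by
      rw [← hK, ← pow_mul, mul_comm m, pow_mul, mul_comm, Nat.geomSum_eq (by
        have := Fintype.one_lt_card (α := K); nlinarith), Nat.div_mul_cancel]
      simpa using Nat.sub_dvd_pow_sub_pow (Fintype.card K ^ 2) 1 m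
    have h5 : Odd (∑ i ∈ Finset.range m, (Fintype.card K ^ 2) ^ i) := by
      rw [Finset.odd_sum_iff_odd_card_odd, Finset.filter_true_of_mem (fun i _ => hr.pow.pow), Finset.card_range]
      exact hm'
    rw [h4, mul_left_comm, mul_comm 2] at h3
    have h6 := Nat.dvd_of_mul_dvd_mul_left (by
      have := Fintype.one_lt_card (α := K)
      have : 1 < Fintype.card K ^ 2 := by nlinarith
      omega) h3
    exact (Nat.not_even_iff_odd.2 (hodd.mul h5)) (even_iff_two_dvd.2 h6)
  · rintro ⟨k, rfl⟩
    have hsq : ∀ a : K, IsSquare (ι a) := by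
      intro a
      by_cases ha : a = 0
      · simp [ha]
      have hc : ringChar F ≠ 2 := L.ringChar_ne_two (L.two_ne_zero_of_odd hodd)
      rw [FiniteField.isSquare_iff hc (by simpa using ha), ← map_pow]
      have hr : Odd (Fintype.card K) := by
        rw [← hK, Nat.odd_pow_iff (by omega)] at hodd; exact hodd
      obtain ⟨c, hc⟩ : Fintype.card K - 1 ∣ Fintype.card F / 2 := by
        obtain ⟨s, hs⟩ := hr.pow (n := k)
        have h1 : Fintype.card F / 2 = (Fintype.card K ^ k - 1) * (s + 1) := by
          rw [← hK, pow_add, hs, Nat.add_sub_cancel, show (2 * s + 1) * (2 * s + 1) = 1 + 2 * (2 * s * (s + 1)) by ring,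
            Nat.add_mul_div_left _ _ two_pos]
          simp
        rw [h1]
        exact Dvd.dvd.mul_right (by simpa using Nat.sub_dvd_pow_sub_pow (Fintype.card K) 1 k) _
      rw [hc, pow_mul, FiniteField.pow_card_sub_one_eq_one a ha, one_pow, map_one]
    refine L.Dk.exists_subgroup_of_injective ⟨(L.Dk.pslEquiv F).symm.toMonoidHom.comp
      ((Matrix.ProjGenLinGroup.map ι).codRestrict _ (fun g => ?_)), (L.Dk.pslEquiv F).symm.injective.comp
        fun _ _ e => L.Dk.map_injective ι (congrArg Subtype.val e)⟩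
    obtain ⟨A, rfl⟩ := Matrix.ProjGenLinGroup.mk_surjective g
    rw [Matrix.ProjGenLinGroup.map_mk, L.Dk.mk_mem_pslRange_iff]
    have : ((Matrix.GeneralLinearGroup.map ι A : GL (Fin 2) F) : L.M2 F).det = ι (A : L.M2 K).det :=
      (RingHom.map_det ι _).symm
    rw [this]; exact hsq _

end Cfsg.Agent.S0805
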