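import Mathlib
import Cfsg.Agent.L.SL2Loc
import Cfsg.Agent.H09.SL2Basic
-- Template for statement S0809 (row 809; see /opt/grader/pristine/manifest.json for weights).
-- Copy to Cfsg/Agent/S0809.lean and replace the sorry. The statement below is byte-identical to the frozen
-- statement Cfsg.CfsgFrozen.S0809 (Cfsg/Statements/S0809.lean; the theorem Cfsg.sl_two_order_four_subgroups_conjugate);
-- the grader kernel-checks Cfsg.Agent.S0809.result against that frozen type. Keep the theorem IN THIS FILE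
-- (a `result` declared elsewhere and merely imported here is not credited); helpers may live anywhere
-- under Cfsg/Agent/.
import Cfsg.Statements.S0809
-- import your own Cfsg.Agent.* helpers here

set_option autoImplicit false
open Cfsg

namespace Cfsg.Agent.S0809

/-- In SL_2(q), q odd: any two subgroups of order 4 are conjugate, and the normaliser of a subgroup of order 4 has order 2(q − 1) if q ≡ 1 (mod 4) and 2(q + 1) if q ≡ 3 (mod 4); consequently all involutions of PSL_2(q) are conjugate. -/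
theorem result {F : Type*} [Field F] [Fintype F] {q : ℕ} (hF : Fintype.card F = q) (hodd : Odd q) (A : Subgroup (Matrix.SpecialLinearGroup (Fin 2) F)) (hA : Nat.card A = 4) : (∀ B : Subgroup (Matrix.SpecialLinearGroup (Fin 2) F), Nat.card B = 4 → ∃ g : Matrix.SpecialLinearGroup (Fin 2) F, B = A.map (MulAut.conj g).toMonoidHom) ∧ (q % 4 = 1 → Nat.card ↥(Subgroup.normalizer (A : Set (Matrix.SpecialLinearGroup (Fin 2) F))) = 2 * (q - 1)) ∧ (q % 4 = 3 → Nat.card ↥(Subgroup.normalizer (A : Set (Matrix.SpecialLinearGroup (Fin 2) F))) = 2 * (q + 1)) ∧ (∀ x y : Matrix.ProjectiveSpecialLinearGroup (Fin 2) F, orderOf x = 2 → orderOf y = 2 → IsConj x y) := by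
  classical
  subst hF
  have h2 := L.two_ne_zero_of_odd hodd
  have h4 : (0 : F) ^ 2 ≠ 4 := by
    rw [show (4 : F) = 2 * 2 by norm_num]; simpa using h2
  have key : ∀ B : Subgroup (L.SL2 F), Nat.card B = 4 → ∃ b : L.SL2 F, (b : L.M2 F).trace = 0 ∧ B = Subgroup.zpowers b := by
    intro B hB
    have : ∃ b ∈ B, b ≠ 1 ∧ b ≠ -1 := by
      by_contra! h
      have h1 : (B : Set (L.SL2 F)) ⊆ {1, -1} := fun b hb => by
        by_cases e : b = 1
        exacts [Or.inl e, Or.inr (h b hb e)]
      have h3 := Set.ncard_le_ncard h1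
      have h5 : (B : Set (L.SL2 F)).ncard = 4 := hB
      have := Set.ncard_insert_le (1 : L.SL2 F) {-1}
      simp only [Set.ncard_singleton] at this
      omega
    obtain ⟨b, hb, hb1, hb2⟩ := this
    have h5 : b ^ 4 = 1 := by
      have := pow_card_eq_one' (x := (⟨b, hb⟩ : B))
      rw [hB] at this; exact congrArg Subtype.val this
    have h6 : b * b ≠ 1 := fun e => hb2 (H09.SL2.eq_neg_one_of_mul_self h2 hb1 e)
    have h7 : b * b = -1 := H09.SL2.eq_neg_one_of_mul_self h2 h6 (by rw [← h5]; simp [pow_succ, mul_assoc])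
    refine ⟨b, (Matrix.trace_fin_two _).trans (H09.SL2.trace_eq_zero_of_mul_self h7), ?_⟩
    refine (Subgroup.eq_of_le_of_card_ge ((Subgroup.zpowers_le).2 hb) ?_).symm
    rw [hB, Nat.card_zpowers, orderOf_eq_prime_pow (p := 2) (n := 1) (by rwa [pow_one, sq]) h5]
    rfl
  obtain ⟨a, ha, rfl⟩ := key A hA
  have ht : (a : L.M2 F).trace ^ 2 ≠ 4 := by rwa [ha]
  have hle : Subgroup.zpowers a ≤ Subgroup.centralizer {a} := (Subgroup.zpowers_le).2 (L.mem_centralizer_SL.2 rfl)
  have hN := L.card_normalizer_torus ht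
  rw [← L.normalizer_of_le_torus ht hle (Subgroup.mem_zpowers a) (L.SLc.not_isScal_of_trace ht)] at hN
  have hd := Subgroup.card_dvd_of_le hle
  rw [hA] at hd
  have h1 := Fintype.one_lt_card (α := F)
  refine ⟨fun B hB => ?_, fun h => ?_, fun h => ?_, fun x y hx hy => ?_⟩
  · obtain ⟨b, hb, rfl⟩ := key B hB
    obtain ⟨g, rfl⟩ := isConj_iff.1 (L.isConj_SL_of_disc ht (ha.trans hb.symm))
    exact ⟨g, by rw [MonoidHom.map_zpowers]; rfl⟩
  · rcases L.card_torus ht with h5 | h5 <;> rw [h5.2] at hN hd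
    · exact hN
    · omega
  · rcases L.card_torus ht with h5 | h5 <;> rw [h5.2] at hN hd
    · omega
    · exact hN
  · have k : ∀ s : L.SL2 F, orderOf (QuotientGroup.mk s : Matrix.ProjectiveSpecialLinearGroup (Fin 2) F) = 2 →
        (s : L.M2 F).trace = 0 := by
      intro s hs
      have h5 := pow_orderOf_eq_one (QuotientGroup.mk s : Matrix.ProjectiveSpecialLinearGroup (Fin 2) F)
      rw [hs, ← QuotientGroup.mk_pow, H09.PSL2.mk_eq_one_iff, sq] at h5
      have h6 : ¬ (s = 1 ∨ s = -1) := fun e => by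
        rw [H09.PSL2.mk_eq_one_iff.2 e, orderOf_one] at hs; omega
      refine (Matrix.trace_fin_two _).trans (H09.SL2.trace_eq_zero_of_mul_self (h5.resolve_left fun e => h6 ?_))
      by_cases e1 : s = 1
      exacts [Or.inl e1, Or.inr (H09.SL2.eq_neg_one_of_mul_self h2 e1 e)]
    obtain ⟨s, rfl⟩ := QuotientGroup.mk_surjective x
    obtain ⟨t, rfl⟩ := QuotientGroup.mk_surjective y
    exact (QuotientGroup.mk' _).map_isConj (L.isConj_SL_of_disc (by rwa [k s hx]) ((k s hx).trans (k t hy).symm))

end Cfsg.Agent.S0809
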