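import Mathlib
import Cfsg.Agent.L.PSL2Max
-- Template for statement S0810 (row 810; see /opt/grader/pristine/manifest.json for weights).
-- Copy to Cfsg/Agent/S0810.lean and replace the sorry. The statement below is byte-identical to the frozen
-- statement Cfsg.CfsgFrozen.S0810 (Cfsg/Statements/S0810.lean; the theorem Cfsg.psl_two_minimal_simple_iff);
-- the grader kernel-checks Cfsg.Agent.S0810.result against that frozen type. Keep the theorem IN THIS FILE
-- (a `result` declared elsewhere and merely imported here is not credited); helpers may live anywhere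
-- under Cfsg/Agent/.
import Cfsg.Statements.S0810
-- import your own Cfsg.Agent.* helpers here

set_option autoImplicit false
open Cfsg

namespace Cfsg.Agent.S0810

/-- PSL_2(q) is minimal simple iff q is 2^r (r prime), 3^r (r an odd prime), a prime greater than 5 congruent to 2 or 3 mod 5, or 5. -/
theorem result {F : Type*} [Field F] [Fintype F] {q : ℕ} (hF : Fintype.card F = q) : Cfsg.IsMinimalSimple (Matrix.ProjectiveSpecialLinearGroup (Fin 2) F) ↔ ((∃ r : ℕ, r.Prime ∧ q = 2 ^ r) ∨ (∃ r : ℕ, r.Prime ∧ r ≠ 2 ∧ q = 3 ^ r) ∨ (q.Prime ∧ 5 < q ∧ (q % 5 = 2 ∨ q % 5 = 3)) ∨ q = 5) := by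
  subst hF
  obtain ⟨p, hp, n, hpp, hn⟩ := FiniteField.card' F
  have : Fact p.Prime := ⟨hpp⟩
  have hq' := L.Dk.card_field_ne (F := F)
  have hd := L.Dk.dd_cases (F := F)
  have hG := L.Dk.card_psl (F := F)
  have nA5 : ¬ Group.IsSolvable (alternatingGroup (Fin 5)) := fun h =>
    absurd (IsSimpleGroup.comm_iff_isSolvable.2 h) (by decide +kernel)
  constructor
  · rintro ⟨h1, h2, h3⟩
    have h4 : 4 ≤ Fintype.card F := by
      by_contra h
      exact h2 ⟨⟨IsSimpleGroup.comm_iff_isSolvable.2 (L.Dk.isSolvable_psl_small (by omega))⟩⟩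
    have mono : ∀ a b : ℕ, 2 ≤ a → a ^ 2 ≤ b → 2 * (a * (a ^ 2 - 1)) ≤ b * (b ^ 2 - 1) - 1 ∧ 1 ≤ b * (b ^ 2 - 1) := by
      intro a b ha hb
      have h5 : a ^ 2 - 1 < b ^ 2 - 1 := by
        have hb2 : 2 ≤ b := by nlinarith
        have : b < b ^ 2 := by nlinarith
        have : 1 ≤ a ^ 2 := by nlinarith
        omega
      have h6 : 2 * a * (a ^ 2 - 1) < b * (b ^ 2 - 1) :=
        Nat.mul_lt_mul_of_le_of_lt (by nlinarith) h5 (by nlinarith)
      rw [mul_assoc] at h6
      omega
    have key : ∀ {H : Type} [Group H] [Finite H], ¬ Group.IsSolvable H →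
        (∃ f : H →* Matrix.ProjectiveSpecialLinearGroup (Fin 2) F, Function.Injective f) →
        Fintype.card F * (Fintype.card F ^ 2 - 1) ≤ 2 * Nat.card H := by
      intro H _ _ hH ⟨f, hf⟩
      have e := MonoidHom.ofInjective hf
      have h5 : f.range = ⊤ := by
        by_contra h
        have := h3 _ h
        exact hH (Group.isSolvable_of_isSolvable_injective (f := e.toMonoidHom) e.injective)
      rw [← hG, Nat.card_congr e.toEquiv, h5, Subgroup.card_top]
      exact Nat.mul_le_mul_right _ (by omega)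
    have hsub : ∀ s m : ℕ, s * m = n → 2 ≤ m → p ^ s ≤ 3 := by
      intro s m hsm hm
      by_contra h
      have hs : s ≠ 0 := by rintro rfl; simp at h
      obtain ⟨K, _, _, hK⟩ := L.Dk.exists_field_card p s hs
      have h5 : Fintype.card K ^ m = Fintype.card F := by rw [hK, hn, ← pow_mul, hsm]
      obtain ⟨ι⟩ := L.Dk.exists_ringHom h5
      have h6 := key (L.Dk.not_solvable_psl (F := K) (by omega)) ⟨_, L.Dk.pslMap_injective ι⟩
      have h7 := L.Dk.card_psl_le_pgl (F := K)
      rw [L.Dk.card_PGL2] at h7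
      have := mono _ (Fintype.card F) (Fintype.one_lt_card (α := K))
        (h5 ▸ Nat.pow_le_pow_right Fintype.card_pos hm)
      omega
    have hA5 : 5 ∣ Fintype.card F * (Fintype.card F ^ 2 - 1) → Fintype.card F ≤ 5 := by
      intro h
      have h6 := key nA5 (L.Dk.exists_A5_psl h)
      rw [L.Dk.card_A5] at h6
      by_contra h7
      have : 6 * (36 - 1) ≤ Fintype.card F * (Fintype.card F ^ 2 - 1) :=
        Nat.mul_le_mul (by omega) (Nat.sub_le_sub_right (by nlinarith) _)
      omega
    have hprime : (n : ℕ) ≠ 1 → p ≤ 3 → (n : ℕ).Prime := by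
      intro h5 h6
      by_contra h7
      obtain ⟨s, hs, hs2, hsn⟩ := Nat.exists_dvd_of_not_prime2 (by have := n.pos; omega) h7
      obtain ⟨m, hm⟩ := hs
      have h8 := hsub s m hm.symm (by
        rcases m with _ | _ | m
        · have := n.pos; omega
        · omega
        · omega)
      have : 2 ^ 2 ≤ p ^ s := (Nat.pow_le_pow_left hpp.two_le 2).trans (Nat.pow_le_pow_right hpp.pos hs2)
      omega
    by_cases hn1 : (n : ℕ) = 1
    · rw [hn1, pow_one] at hn
      by_cases h5 : Fintype.card F = 5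
      · exact Or.inr (Or.inr (Or.inr h5))
      have h6 : 5 < Fintype.card F := by
        have : p ≠ 4 := by rintro rfl; norm_num at hpp
        omega
      refine Or.inr (Or.inr (Or.inl ⟨hn ▸ hpp, h6, ?_⟩))
      by_contra h7
      refine absurd (hA5 ?_) (by omega)
      rw [L.Dk.sq_sub_one]
      have : Fintype.card F % 5 = 0 ∨ (Fintype.card F + 1) % 5 = 0 ∨ (Fintype.card F - 1) % 5 = 0 := by omega
      rcases this with h | h | h
      · exact (Nat.dvd_of_mod_eq_zero h).mul_right _
      · exact ((Nat.dvd_of_mod_eq_zero h).mul_right _).mul_left _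
      · exact ((Nat.dvd_of_mod_eq_zero h).mul_left _).mul_left _
    · have h5 := hsub 1 n (one_mul _) (by have := n.pos; omega)
      rw [pow_one] at h5
      have h6 := hprime hn1 h5
      have h7 := hpp.two_le
      interval_cases p
      · exact Or.inl ⟨n, h6, hn⟩
      · refine Or.inr (Or.inl ⟨n, h6, fun e => ?_, hn⟩)
        rw [e] at hn
        have := hA5 (by rw [hn]; decide)
        omega
  · intro h
    have h4 : 4 ≤ Fintype.card F := by
      rcases h with ⟨r, hr, h⟩ | ⟨r, hr, -, h⟩ | h | h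
      · rw [h]; exact Nat.pow_le_pow_right (n := 2) two_pos hr.two_le
      · rw [h]; exact le_trans (by norm_num) (Nat.pow_le_pow_right (n := 3) (by norm_num) hr.two_le)
      · omega
      · omega
    refine ⟨L.Dk.psl_simple h4, L.Dk.psl_not_comm, fun H hH => ?_⟩
    have hdG := Subgroup.card_subgroup_dvd_card H
    have hsub : ∀ c m : ℕ, c ^ m = Fintype.card F → c ≠ Fintype.card F → c ≤ 3 := by
      intro c m hc hne
      have k1 : ∀ a r : ℕ, a.Prime → (r = 1 ∨ r.Prime) → Fintype.card F = a ^ r → c = a := by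
        intro a r ha hr e
        have hm : m ≠ 0 := by rintro rfl; simp at hc; omega
        obtain ⟨j, -, rfl⟩ := (Nat.dvd_prime_pow ha).1 (e ▸ hc ▸ dvd_pow_self c hm : c ∣ a ^ r)
        rw [← pow_mul, e] at hc
        have h5 := Nat.pow_right_injective ha.two_le hc
        rw [e] at hne
        have h6 : j ≠ r := fun e => hne (by rw [e])
        rcases hr with rfl | hr
        · exact absurd (Nat.eq_one_of_mul_eq_one_right h5) h6
        · rw [((Nat.dvd_prime hr).1 ⟨m, h5.symm⟩).resolve_right h6, pow_one]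
      rcases h with ⟨r, hr, h⟩ | ⟨r, hr, -, h⟩ | h | h
      · rw [k1 2 r Nat.prime_two (Or.inr hr) h]; omega
      · rw [k1 3 r Nat.prime_three (Or.inr hr) h]
      · exact absurd (k1 _ 1 h.1 (Or.inl rfl) (pow_one _).symm) hne
      · exact absurd ((k1 5 1 Nat.prime_five (Or.inl rfl) h).trans h.symm) hne
    rcases L.Dk.clsPSL p H with ⟨x, h⟩ | ⟨h, hp⟩ | ⟨C, h, hp, hi, -⟩ | ⟨⟨f⟩⟩ | ⟨⟨f⟩⟩ | ⟨⟨f⟩⟩ |
      ⟨K, _, _, m, hm, hK, ⟨f⟩⟩ | ⟨K, _, _, m, hm, hK, ⟨f⟩⟩
    · have := L.Dk.isSolvable_of_fix (H.map Matrix.ProjectiveSpecialLinearGroup.toPGL) (x := x) (by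
        rintro _ ⟨g, hg, rfl⟩; exact (H09.toPGL_smul g x).trans (h ⟨g, hg⟩))
      have e := H.equivMapOfInjective _ Matrix.ProjectiveSpecialLinearGroup.toPGL_injective
      exact Group.isSolvable_of_isSolvable_injective (f := e.toMonoidHom) e.injective
    · exact Group.isSolvable_of_comm fun a b => mul_comm' a b
    · exact L.Dk.isSolvable_of_index_two C hi
    · exact L.Dk.isSolvable_of_dvd_24 (by rw [Nat.card_congr f.toEquiv, L.Dk.card_A4]; decide)
    · exact L.Dk.isSolvable_of_dvd_24 (by rw [Nat.card_congr f.toEquiv, L.Dk.card_S4])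
    · exfalso
      have h1 : Nat.card H = 60 := (Nat.card_congr f.toEquiv).trans L.Dk.card_A5
      have h5 : 5 ∣ Fintype.card F * (Fintype.card F ^ 2 - 1) := by
        rw [← hG]; exact ((show 5 ∣ Nat.card H by omega).trans hdG).mul_left _
      have h6 : Fintype.card F % 5 ≠ 2 ∧ Fintype.card F % 5 ≠ 3 := by
        rw [L.Dk.sq_sub_one, Nat.prime_five.dvd_mul, Nat.prime_five.dvd_mul] at h5
        omega
      have h7 : Fintype.card F ≠ 4 ∧ Fintype.card F ≠ 5 :=
        ⟨fun e => hH (Subgroup.eq_top_of_card_eq _ (by rw [h1, L.Dk.card_psl_of e (n := 60) rfl])),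
         fun e => hH (Subgroup.eq_top_of_card_eq _ (by rw [h1, L.Dk.card_psl_of e (n := 60) rfl]))⟩
      have k1 : ∀ k : ℕ, 4 ^ k % 5 = 1 ∨ 4 ^ k % 5 = 4 := fun k => by
        induction k with
        | zero => simp
        | succ k ih => rw [pow_succ]; omega
      rcases h with ⟨r, hr, h⟩ | ⟨r, hr, hr2, h⟩ | h | h
      · obtain ⟨k, rfl⟩ := hr.odd_of_ne_two (by rintro rfl; omega)
        have := k1 k
        rw [pow_succ, pow_mul, show 2 ^ 2 = 4 from rfl] at h
        omega
      · obtain ⟨k, rfl⟩ := hr.odd_of_ne_two hr2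
        have := k1 k
        rw [pow_succ, pow_mul] at h
        have h8 : (3 ^ 2) ^ k % 5 = 4 ^ k % 5 := by rw [Nat.pow_mod]; rfl
        omega
      · omega
      · omega
    · have := L.Dk.isSolvable_pgl_small (hsub _ m hK fun e => hH (L.Dk.eq_top_of_pgl e f))
      exact Group.isSolvable_of_isSolvable_injective (f := f.toMonoidHom) f.injective
    · have := L.Dk.isSolvable_psl_small (hsub _ m hK fun e => hH (L.Dk.eq_top_of_psl e f))
      exact Group.isSolvable_of_isSolvable_injective (f := f.toMonoidHom) f.injective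

end Cfsg.Agent.S0810
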