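import Mathlib
import Cfsg.Agent.L.PSL2Max
-- Template for statement S0811 (row 811; see /opt/grader/pristine/manifest.json for weights).
-- Copy to Cfsg/Agent/S0811.lean and replace the sorry. The statement below is byte-identical to the frozen
-- statement Cfsg.CfsgFrozen.S0811 (Cfsg/Statements/S0811.lean; the theorem Cfsg.psl_two_dihedral_q_add_one_maximal);
-- the grader kernel-checks Cfsg.Agent.S0811.result against that frozen type. Keep the theorem IN THIS FILE
-- (a `result` declared elsewhere and merely imported here is not credited); helpers may live anywhere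
-- under Cfsg/Agent/.
import Cfsg.Statements.S0811
-- import your own Cfsg.Agent.* helpers here

set_option autoImplicit false
open Cfsg

namespace Cfsg.Agent.S0811

/-- For q ∉ {2, 7, 9}, PSL_2(q) has a maximal subgroup isomorphic to the dihedral group of order 2(q + 1)/d, d = gcd(2, q − 1). -/
theorem result {F : Type*} [Field F] [Fintype F] {q : ℕ} (hF : Fintype.card F = q) (hq : q ∉ ({2, 7, 9} : Finset ℕ)) : ∃ H : Subgroup (Matrix.ProjectiveSpecialLinearGroup (Fin 2) F), IsCoatom H ∧ Nonempty (H ≃* DihedralGroup ((q + 1) / Nat.gcd 2 (q - 1))) := by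
  subst hF
  obtain ⟨s, hs, h⟩ := L.Dk.exists_torus_add (F := F)
  exact ⟨_, L.Dk.isCoatom_torusNBar hs (Or.inl ⟨h, hq⟩), L.Dk.eq_div_dd h ▸ L.Dk.torusNBar_iso hs⟩

end Cfsg.Agent.S0811
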