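import Mathlib
import Cfsg.Statements.S0820
import Cfsg.Agent.H09.L34
import Cfsg.Agent.S2579

set_option autoImplicit false
open Cfsg

namespace Cfsg.Agent.S0820

/-- Any two elements of order 2 of PSL_3(4) are conjugate. -/
theorem result {F : Type*} [Field F] [Fintype F] (hF : Fintype.card F = 4) (x y : Matrix.ProjectiveSpecialLinearGroup (Fin 3) F) (hx : orderOf x = 2) (hy : orderOf y = 2) : IsConj x y := by
  have h2 : (2 : F) = 0 := H09.two_eq_zero_of_even_card (by rw [hF]; decide)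
  have key : ∀ x : Matrix.ProjectiveSpecialLinearGroup (Fin 3) F, orderOf x = 2 →
      ∃ g : Matrix.SpecialLinearGroup (Fin 3) F, QuotientGroup.mk g = x ∧ IsTransvection g.1 := fun x hx => by
    obtain ⟨g, rfl⟩ := QuotientGroup.mk_surjective x
    have h1 : (QuotientGroup.mk g : Matrix.ProjectiveSpecialLinearGroup (Fin 3) F) ^ 2 = 1 :=
      orderOf_dvd_iff_pow_eq_one.1 hx.dvd
    have h3 : (g ^ 3).1 * (g ^ 3).1 = 1 := by
      have := H09.L34.center_cube hF ((QuotientGroup.eq_one_iff (g ^ 2)).1 h1)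
      rw [← pow_mul, mul_comm, pow_mul, sq] at this
      exact congrArg Subtype.val this
    have h4 : (QuotientGroup.mk (g ^ 3) : Matrix.ProjectiveSpecialLinearGroup (Fin 3) F) = QuotientGroup.mk g := by
      rw [QuotientGroup.mk_pow, pow_succ, h1, one_mul]
    have h5 : ((g ^ 3).1 - 1) * ((g ^ 3).1 - 1) = 0 := by
      rw [sub_mul, mul_sub, h3, mul_one, one_mul, sub_sub, ← add_sub_assoc, ← two_smul F, h2]; simp [← two_smul F, h2]
    refine ⟨g ^ 3, h4, ?_, h5⟩
    have h6 := Matrix.rank_add_rank_le_card_of_mul_eq_zero h5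
    have h7 : ((g ^ 3).1 - 1).rank ≠ 0 := fun e => by
      rw [← h4, show g ^ 3 = 1 from Subtype.ext (sub_eq_zero.1 (Matrix.toLin'.map_eq_zero_iff.1
        (LinearMap.range_eq_bot.1 (Submodule.finrank_eq_zero.1 e))))] at hx
      simp at hx
    rw [Fintype.card_fin] at h6
    omega
  obtain ⟨g, rfl, hg⟩ := key x hx
  obtain ⟨k, rfl, hk⟩ := key y hy
  exact (QuotientGroup.mk' _).map_isConj (Cfsg.Agent.S2579.result le_rfl g k hg hk)

end Cfsg.Agent.S0820
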