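import Mathlib
import Cfsg.Statements.S0821
import Cfsg.Agent.H09.AutForm7

set_option autoImplicit false
open Cfsg

namespace Cfsg.Agent.S0821

/-- PSp_2m(q) ≇ PΩ_(2m+1)(q) for q odd and m ≥ 3 (they have the same order). -/
theorem result {F : Type*} [Field F] [Fintype F] (hodd : Odd (Fintype.card F)) (m : ℕ) (hm : 3 ≤ m) : IsEmpty (Cfsg.PSp m F ≃* Cfsg.POmega F (Cfsg.quadFormOdd m F)) := by
  refine ⟨fun e => ?_⟩
  have h2 := H10.two_ne_zero_of_odd_card hodd
  have := H10.qOdd_nondeg (m := m) h2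
  have : NeZero m := ⟨by omega⟩
  have h5 : 5 ≤ Fintype.card (Unit ⊕ (Fin m ⊕ Fin m)) := by simp; omega
  have hQ := H10.Form.isQuad_ofQuad (H10.qOdd m F)
  have hA : H09.IsAltF (H09.spForm (Fin m) F) := H09.isAltF_spForm
  have h := H09.omRep (H10.qOdd m F) h5
  have h' := H09.spRep F (Fin m)
  obtain ⟨p, _, _⟩ := H09.exists_char F
  obtain ⟨u, v, hyp⟩ := h.hyp
  have hn : Module.finrank F (Unit ⊕ (Fin m ⊕ Fin m) → F) = 2 * m + 1 := by simp; ring
  have hn' : Module.finrank F (Fin m ⊕ Fin m → F) = 2 * m := by simp; ring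
  obtain ⟨Y, M, hY, hc, hM, hle, hcomm, h1 | h1⟩ := h.point_or_max p h' e.symm
    (Or.inr (H09.quad_idx2 hQ (by omega))) hQ.B_comm hyp.Qe hyp.e_ne_zero
  · obtain ⟨x, h3, h4⟩ := finrank_eq_one_iff'.1 h1
    have h6 : M = F ∙ x.1 := by
      refine le_antisymm (fun y hy => ?_) ((Submodule.span_singleton_le_iff_mem _ _).2 x.2)
      obtain ⟨c, hc⟩ := h4 ⟨y, hy⟩
      exact Submodule.mem_span_singleton.2 ⟨c, congrArg Subtype.val hc⟩
    obtain ⟨y, hxy⟩ := (H09.spForm (Fin m) F).exists_hyp (u := x.1) rfl (by simpa using h3)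
    obtain ⟨a, ha, b, hb, hab⟩ := (hA.idx2 (by omega)).exists_hyp hxy
    have ha := ((H09.spForm (Fin m) F).mem_perp_pair.1 ha).1
    have hb := ((H09.spForm (Fin m) F).mem_perp_pair.1 hb).1
    have hT : ∀ (s : F) w, (H09.spForm (Fin m) F).T s = (H09.spForm (Fin m) F).Q w :=
      fun s w => hA.T_apply s
    have hle' : H09.Rad (H09.spRho F (Fin m)) (F ∙ x.1) ≤ Y := by rw [← h6]; exact hle
    have h7 := congrArg (H09.spRho F (Fin m)) (hcomm _ (hle' (h'.sg_mem hxy.Qe ha (hT 0 a))) _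
      (hle' (h'.sg_mem hxy.Qe hb (hT 0 b)))).eq
    rw [map_mul, map_mul, h'.rho_sg hxy.Qe ha (hT 0 a), h'.rho_sg hxy.Qe hb (hT 0 b),
      ← commutatorElement_eq_one_iff_mul_comm,
      H10.Form.siegel_commutator hxy.Qe ha (hT 0 a) hb (hT 0 b), hab.Bef, hab.Bfe, hA.ε_eq,
      ← (H09.spForm (Fin m) F).siegel_zero hxy.Qe] at h7
    have := (H09.siegel_inj hxy (by simp) (by simp) (hT _ _) (by simp) (by simp) (hT _ _) h7).2
    exact h2 (by linear_combination this)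
  · have := h'.finite
    have h3 := hc.card_eq (h.noPCenter p) (h'.noPCenter p) (h.isPGroup_Rad p _) hY
    have h4 := Subgroup.card_le_of_le hle
    have h6 := H09.finrank_of_perp_eq h1
    rw [← h3, h'.card_Rad_max hM h1, h.card_Rad_point hyp.Qe hyp.e_ne_zero, hQ.card_ker_T,
      hA.card_T_ker, ← pow_add, mul_one, Nat.pow_le_pow_iff_right Finite.one_lt_card, hn,
      show Module.finrank F M = m by omega] at h4
    obtain ⟨k, rfl⟩ : ∃ k, m = k + 3 := ⟨m - 3, by omega⟩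
    have h10 := Nat.div_add_mod ((k + 3) * (k + 2)) 2
    have h11 := Nat.mod_lt ((k + 3) * (k + 2)) two_pos
    change (k + 3) * (k + 2) / 2 + (k + 3) ≤ 2 * (k + 3) + 1 - 2 at h4
    have h12 : (k + 3) * (k + 2) / 2 ≤ k + 2 := by omega
    nlinarith

end Cfsg.Agent.S0821
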