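import Mathlib
import Cfsg.Agent.H10.Small
import Cfsg.Statements.S0823

set_option autoImplicit false
open Cfsg

namespace Cfsg.Agent.S0823

/-- SO_3(3) ≅ S_4: the determinant-one isometries of the form x_0² + x_1y_1 over the field with 3 elements form a group isomorphic to the symmetric group on 4 letters. -/
theorem result {F : Type*} [Field F] [Fintype F] (hF : Fintype.card F = 3) : Nonempty (↥(Cfsg.specialIsometryGroup F (Cfsg.quadFormOdd 1 F)) ≃* Equiv.Perm (Fin 4)) := by
  have h2 : (2 : F) ≠ 0 := H10.two_ne_zero_of_odd_card (by rw [hF]; decide)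
  have hF' : Nat.card F = 3 := by simpa using hF
  have := H10.qOdd_nondeg (m := 1) h2
  have h := H10.Form.isQuad_ofQuad (H10.qOdd 1 F)
  have hn : Module.finrank F (Unit ⊕ (Fin 1 ⊕ Fin 1) → F) = 2 * 1 + 1 := by simp
  obtain ⟨e⟩ := H10.Form.equiv_perm_points (h.hasTS_odd hn) hn.ge (H10.Form.SIsom _) (fun g hg c hc => by
      have h1 := H10.Form.norm_of_scalar _ hc
      have h3 := H10.Form.det_of_scalar _ hc
      rw [(H10.Form.mem_SIsom _).1 hg, hn] at h3
      rw [h.σ_eq] at h1
      linear_combination -h3 - c * h1) (k := 4) (by rw [h.cnt_odd hn, hF']; rfl) (by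
      have h1 : H10.Form.SIsom _ = (H10.Form.dickson _).ker := Subgroup.ext fun g =>
        (h.dickson_eq_one_iff h2).symm
      have h3 := (H10.Form.ofQuad (H10.qOdd 1 F)).dickson.ker.index_mul_card
      rw [Subgroup.index_ker, MonoidHom.range_eq_top.2 (h.dickson_surjective (h.good_of_two_ne_zero h2)),
        h.card_Isom_odd hn, hF', ← h1] at h3
      simp [H10.oOdd] at h3
      simp only [Nat.factorial]
      omega)
  exact ⟨(H10.specialIsometryEquiv (H10.qOdd 1 F)).trans e⟩

end Cfsg.Agent.S0823
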