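import Mathlib
import Cfsg.Agent.H10.Small
import Cfsg.Statements.S0824

set_option autoImplicit false
open Cfsg

namespace Cfsg.Agent.S0824

/-- O⁻_4(2) ≅ S_5: the isometry group of the form x y + z_1² + z_1 z_2 + z_2² over the field with 2 elements is isomorphic to the symmetric group on 5 letters. -/
theorem result {F : Type*} [Field F] [Fintype F] (hF : Fintype.card F = 2) : Nonempty (↥(Cfsg.isometryGroup F (Cfsg.quadFormMinus 1 F 1 1)) ≃* Equiv.Perm (Fin 5)) := by
  have h2 := H10.two_eq_zero_of_card_two hF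
  have hF' : Nat.card F = 2 := by simpa using hF
  have h1 : ∀ c : F, c = 0 ∨ c = 1 := fun c => by
    have := FiniteField.pow_card c
    rw [hF] at this
    grind
  have hab : ∀ z₁ z₂ : F, z₁ ^ 2 + 1 * z₁ * z₂ + 1 * z₂ ^ 2 = 0 → z₁ = 0 ∧ z₂ = 0 := fun x y H => by
    rcases h1 x with rfl | rfl <;> rcases h1 y with rfl | rfl
    · simp
    · simp at H
    · simp at H
    · exact (one_ne_zero (α := F) (by linear_combination H - h2)).elim
  have hd := H10.disc_ne_zero_of_aniso hab
  have := H10.qMinus_nondeg (m := 1) hd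
  have h := H10.Form.isQuad_ofQuad (H10.qMinus 1 F 1 1)
  have hn : Module.finrank F ((Fin 1 ⊕ Fin 1) ⊕ Fin 2 → F) = 2 * 1 + 2 := by simp
  have hm := H10.qMinus_not_hasTS (m := 1) hd hab
  obtain ⟨e⟩ := H10.Form.equiv_perm_points (h.hasTS_pred hn) (by omega) ⊤ (fun g _ c hc =>
      (h1 c).resolve_left (by rintro rfl; simpa using H10.Form.norm_of_scalar _ hc)) (k := 5)
    (by rw [h.cnt_minus hn hm, hF']; rfl) (by rw [Subgroup.card_top, h.card_Isom_minus hn hm, hF']; rfl)
  exact ⟨(H10.isometryEquiv (H10.qMinus 1 F 1 1)).trans (Subgroup.topEquiv.symm.trans e)⟩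

end Cfsg.Agent.S0824
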