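import Mathlib
import Cfsg.Statements.S0826
import Cfsg.Agent.H09.SpStab

set_option autoImplicit false
open Cfsg

namespace Cfsg.Agent.S0826

open Module

/-- even weight vectors -/
def evenSub (N : ℕ) : Submodule (ZMod 2) (Fin N → ZMod 2) :=
  LinearMap.ker (dotProductBilin (ZMod 2) (ZMod 2) (1 : Fin N → ZMod 2))

theorem mem_evenSub {N : ℕ} {v : Fin N → ZMod 2} : v ∈ evenSub N ↔ ∑ i, v i = 0 := by
  simp [evenSub, dotProduct]

/-- the dot product on even weight vectors -/
def evenB (N : ℕ) : LinearMap.BilinForm (ZMod 2) (evenSub N) :=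
  (dotProductBilin (ZMod 2) (ZMod 2)).compl₁₂ (evenSub N).subtype (evenSub N).subtype

theorem evenB_apply {N : ℕ} (x y : evenSub N) : evenB N x y = ∑ i, x.1 i * y.1 i := rfl

theorem evenB_alt (N : ℕ) : (evenB N).IsAlt := fun x => by
  rw [evenB_apply, ← mem_evenSub.1 x.2]
  refine Finset.sum_congr rfl fun i _ => ?_
  generalize x.1 i = a
  revert a; decide

theorem pair_mem {N : ℕ} (i j : Fin N) : (Pi.single i 1 - Pi.single j 1 : Fin N → ZMod 2) ∈ evenSub N := by
  simp [mem_evenSub]

theorem mem_ker_evenB {N : ℕ} {x : evenSub N} : x ∈ LinearMap.ker (evenB N) ↔ ∀ i j, x.1 i = x.1 j := by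
  rw [LinearMap.mem_ker]
  constructor
  · intro h i j
    have := LinearMap.congr_fun h ⟨_, pair_mem i j⟩
    rw [evenB_apply] at this
    simpa [mul_sub, Pi.single_apply, sub_eq_zero] using this
  · intro h
    ext y
    rcases N with _ | N
    · simp [evenB_apply]
    · simp only [evenB_apply, fun i => h i 0, ← Finset.mul_sum, mem_evenSub.1 y.2]
      simp

/-- permutations act on even weight vectors -/
def permHom (N : ℕ) : Equiv.Perm (Fin N) →* H09.isometryAlt (evenB N) :=
  MonoidHom.mk' (fun σ => ⟨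
    { toFun := fun x => ⟨x.1 ∘ σ.symm, by rw [mem_evenSub, ← mem_evenSub.1 x.2]; exact Equiv.sum_comp σ.symm x.1⟩
      invFun := fun x => ⟨x.1 ∘ σ, by rw [mem_evenSub, ← mem_evenSub.1 x.2]; exact Equiv.sum_comp σ x.1⟩
      map_add' := fun _ _ => rfl
      map_smul' := fun _ _ => rfl
      left_inv := fun x => by ext i; simp
      right_inv := fun x => by ext i; simp },
    fun x y => Equiv.sum_comp σ.symm fun i => x.1 i * y.1 i⟩) fun σ τ => rfl

/-- S_2n ≤ Sp_(2n−2)(2) for n ≥ 3: there is an injective homomorphism from the symmetric group on 2n letters into the symplectic group of degree 2n − 2 over the field with two elements. -/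
theorem result (n : ℕ) (hn : 3 ≤ n) : ∃ f : Equiv.Perm (Fin (2 * n)) →* Matrix.symplecticGroup (Fin (n - 1)) (ZMod 2), Function.Injective f := by
  have h1 : finrank (ZMod 2) (evenSub (2 * n)) = 2 * n - 1 := by
    have := LinearMap.finrank_range_add_finrank_ker
      (dotProductBilin (ZMod 2) (ZMod 2) (1 : Fin (2 * n) → ZMod 2))
    rw [LinearMap.range_eq_top.2 fun a => ⟨Pi.single ⟨0, by omega⟩ a, by simp⟩] at this
    simp at this
    rw [evenSub]; omega
  have h0 : (1 : Fin (2 * n) → ZMod 2) ∈ evenSub (2 * n) := by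
    rw [mem_evenSub]; simp; left; rfl
  have h2 : finrank (ZMod 2) (LinearMap.ker (evenB (2 * n))) = 1 := by
    have : LinearMap.ker (evenB (2 * n)) = Submodule.span (ZMod 2) {⟨1, h0⟩} := by
      ext x
      rw [mem_ker_evenB, Submodule.mem_span_singleton]
      refine ⟨fun h => ⟨x.1 ⟨0, by omega⟩, ?_⟩, ?_⟩
      · ext i; simp [h i ⟨0, by omega⟩]
      · rintro ⟨a, rfl⟩ i j; rfl
    rw [this, finrank_span_singleton]
    intro h
    have := congrFun (congrArg Subtype.val h) ⟨0, by omega⟩
    simp at this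
  have h3 := (LinearMap.ker (evenB (2 * n))).finrank_quotient_add_finrank
  obtain ⟨e⟩ := H09.nonempty_isometryAlt_equiv_sp (H09.quotRad_nondeg (evenB_alt (2 * n)))
    (H09.quotRad_alt _) (m := n - 1) (by omega)
  refine ⟨e.toMonoidHom.comp ((H09.quotRadHom (evenB_alt _)).comp (permHom _)),
    e.injective.comp ((injective_iff_map_eq_one ((H09.quotRadHom (evenB_alt _)).comp (permHom _))).2 fun σ hσ => ?_)⟩
  have h4 := (H09.mem_ker_quotRadHom (evenB_alt _)).1 hσ
  simp only [mem_ker_evenB] at h4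
  ext i
  by_contra hi
  have hi' : σ i ≠ i := fun h => hi (congrArg Fin.val h)
  obtain ⟨j, hj⟩ : ∃ j, j ∉ ({i, σ.symm i} : Finset (Fin (2 * n))) := by
    have := Finset.card_le_two (a := i) (b := σ.symm i)
    exact (Finset.exists_mem_notMem_of_card_lt_card (t := Finset.univ) (by simp; omega)).imp fun _ h => h.2
  obtain ⟨k, hk⟩ : ∃ k, k ∉ ({i, j, σ i, σ j} : Finset (Fin (2 * n))) := by
    have := Finset.card_le_four (a := i) (b := j) (c := σ i) (d := σ j)
    exact (Finset.exists_mem_notMem_of_card_lt_card (t := Finset.univ) (by simp; omega)).imp fun _ h => h.2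
  simp only [Finset.mem_insert, Finset.mem_singleton, not_or] at hj hk
  have h5 := h4 ⟨_, pair_mem i j⟩ i k
  change (Pi.single i 1 - Pi.single j 1 : Fin (2 * n) → ZMod 2) (σ.symm i) - (Pi.single i 1 - Pi.single j 1 : Fin (2 * n) → ZMod 2) i =
    (Pi.single i 1 - Pi.single j 1 : Fin (2 * n) → ZMod 2) (σ.symm k) - (Pi.single i 1 - Pi.single j 1 : Fin (2 * n) → ZMod 2) k at h5
  simp [Pi.single_apply, Equiv.symm_apply_eq, hi'.symm, Ne.symm hj.1, hk.1, hk.2.1, hk.2.2.1, hk.2.2.2,
    Ne.symm hj.2] at h5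

end Cfsg.Agent.S0826
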