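import Mathlib
import Cfsg.Statements.S0828
import Cfsg.Agent.H09.SpStab

set_option autoImplicit false
open Cfsg

namespace Cfsg.Agent.S0828

/-- The symplectic generalised quadrangle over a field with q elements: the number of 2-dimensional subspaces of F^4 on which the symplectic form vanishes is (q + 1)(q² + 1), and every non-zero vector lies in exactly q + 1 of them. -/
theorem result {F : Type*} [Field F] [Fintype F] {q : ℕ} (hF : Fintype.card F = q) : Nat.card {W : Submodule F (Fin 2 ⊕ Fin 2 → F) // Module.finrank F W = 2 ∧ ∀ u ∈ W, ∀ v ∈ W, Cfsg.sympForm 2 F u v = 0} = (q + 1) * (q ^ 2 + 1) ∧ ∀ v : Fin 2 ⊕ Fin 2 → F, v ≠ 0 → Nat.card {W : Submodule F (Fin 2 ⊕ Fin 2 → F) // Module.finrank F W = 2 ∧ v ∈ W ∧ ∀ u ∈ W, ∀ w ∈ W, Cfsg.sympForm 2 F u w = 0} = q + 1 := by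
  have hq : 2 ≤ q := hF ▸ Fintype.one_lt_card
  obtain ⟨r, rfl⟩ : ∃ r, q = r + 1 := ⟨q - 1, by omega⟩
  have e1 : (r + 1) ^ 2 - (r + 1) = (r + 1) * r := by apply Nat.sub_eq_of_eq_add; ring
  have e2 : (r + 1) ^ 3 - (r + 1) = (r + 1 + 1) * ((r + 1) * r) := by apply Nat.sub_eq_of_eq_add; ring
  have e3 : (r + 1) ^ 2 - 1 = (r + 2) * r := by apply Nat.sub_eq_of_eq_add; ring
  have e4 : (r + 1) ^ 4 - 1 = ((r + 1) ^ 2 + 1) * ((r + 2) * r) := by apply Nat.sub_eq_of_eq_add; ring
  have hr : 0 < r := by omega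
  simp only [H09.sympForm_eq]
  constructor
  · have := H09.card_isotropic_subspaces_mul (H09.spB_nondeg (l := Fin 2) (F := F)) H09.spB_alt 2
    simp only [Fin.prod_univ_two, hF, Module.finrank_fintype_fun_eq_card, Fintype.card_sum,
      Fintype.card_fin, Fin.val_zero, Fin.val_one, pow_zero, pow_one, Nat.reduceAdd, Nat.sub_zero,
      Nat.add_one_sub_one, e1, e2, e3, e4] at this
    refine Nat.eq_of_mul_eq_mul_right (m := (r + 2) * r * ((r + 1) * r)) (by positivity) ?_
    rw [this]; ring
  · intro v hv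
    set B := H09.spB (Fin 2) F
    have hA : B.IsAlt := H09.spB_alt
    have h1 : Module.finrank F (Submodule.span F {v}) = 1 := finrank_span_singleton hv
    have hle : Submodule.span F {v} ≤ B.orthogonal (Submodule.span F {v}) := by
      have := H09.span_le_orthogonal_of_isotropic (B := B) (s := fun _ : Unit => v) fun _ _ => hA v
      simpa using this
    have key : ∀ U : Submodule F (Fin 2 ⊕ Fin 2 → F), v ∈ U → Nat.card ((U : Set (Fin 2 ⊕ Fin 2 → F)) \ (Submodule.span F {v} : Submodule F (Fin 2 ⊕ Fin 2 → F)) : Set _) =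
        (r + 1) ^ Module.finrank F U - (r + 1) := fun U hU => by
      rw [Nat.card_coe_set_eq, Set.ncard_sdiff ((Submodule.span_singleton_le_iff_mem _ _).2 hU),
        ← Nat.card_coe_set_eq, ← Nat.card_coe_set_eq, SetLike.coe_sort_coe, SetLike.coe_sort_coe,
        H09.natCard_submodule, H09.natCard_submodule, h1, hF, pow_one]
    have hli : ∀ w, w ∉ Submodule.span F {v} → LinearIndependent F ![w, v] := fun w hw => by
      rw [linearIndependent_fin2]
      refine ⟨hv, fun a ha => hw ?_⟩
      exact Submodule.mem_span_singleton.2 ⟨a, ha⟩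
    have h2 := H09.card_eq_mul_of_fibers (α := ((B.orthogonal (Submodule.span F {v}) : Set (Fin 2 ⊕ Fin 2 → F)) \ (Submodule.span F {v} : Submodule F (Fin 2 ⊕ Fin 2 → F)) : Set _))
      (β := {W : Submodule F (Fin 2 ⊕ Fin 2 → F) // Module.finrank F W = 2 ∧ v ∈ W ∧ ∀ u ∈ W, ∀ w ∈ W, B u w = 0})
      (fun w => ⟨Submodule.span F (Set.range ![w.1, v]), by
        rw [finrank_span_eq_card (hli _ w.2.2), Fintype.card_fin], Submodule.subset_span ⟨1, rfl⟩,
        fun x hx y hy => H09.span_le_orthogonal_of_isotropic (B := B) (fun i j => by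
          have h3 : B v w = 0 := w.2.1 v (Submodule.mem_span_singleton_self v)
          fin_cases i <;> fin_cases j
          exacts [hA _, hA.isRefl _ _ h3, h3, hA _]) hy x hx⟩) ((r + 1) * r) (fun W => by
        have h5 := key W.1 W.2.2.1
        rw [W.2.1, e1] at h5
        rw [← h5]
        refine Nat.card_congr ((Equiv.subtypeSubtypeEquivSubtypeExists _ _).trans
          (Equiv.subtypeEquivRight fun w => ⟨fun ⟨h2, h3⟩ => ⟨?_, h2.2⟩, fun h2 => ⟨⟨?_, h2.2⟩, ?_⟩⟩))
        · rw [← h3]; exact Submodule.subset_span ⟨0, rfl⟩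
        · intro y hy
          exact W.2.2.2 y ((Submodule.span_singleton_le_iff_mem _ _).2 W.2.2.1 hy) w h2.1
        · refine Subtype.ext (Submodule.eq_of_le_of_finrank_eq ?_ ?_)
          · rw [Submodule.span_le]
            rintro _ ⟨i, rfl⟩
            fin_cases i
            exacts [h2.1, W.2.2.1]
          · rw [finrank_span_eq_card (hli _ h2.2), Fintype.card_fin, W.2.1])
    rw [key _ (hle (Submodule.mem_span_singleton_self v)),
      LinearMap.BilinForm.finrank_orthogonal H09.spB_nondeg, h1] at h2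
    simp only [Module.finrank_fintype_fun_eq_card, Fintype.card_sum, Fintype.card_fin,
      Nat.reduceAdd, Nat.add_one_sub_one, e2] at h2
    exact (Nat.eq_of_mul_eq_mul_right (by positivity) h2).symm

end Cfsg.Agent.S0828
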