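import Mathlib
import Cfsg.Agent.H10.Par
import Cfsg.Agent.H10.Bridge
import Cfsg.Statements.S0830

set_option autoImplicit false
open Cfsg

namespace Cfsg.Agent.S0830

/-- The unitary quadrangle of PSU_5(q): with |F| = q², the number of 2-dimensional subspaces of F^5 on which the Hermitian form vanishes is (q³ + 1)(q⁵ + 1). -/
theorem result {F : Type*} [Field F] [Fintype F] {q : ℕ} (hF : Fintype.card F = q ^ 2) : Nat.card {W : Submodule F (Fin 5 → F) // Module.finrank F W = 2 ∧ ∀ u ∈ W, ∀ v ∈ W, Cfsg.hermForm 5 F q u v = 0} = (q ^ 3 + 1) * (q ^ 5 + 1) := by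
  have hF' : Nat.card F = q ^ 2 := by simpa using hF
  have h := H10.stdU_isUnitary hF' 5
  have h1 := h.card_TS (n := 5) (k := 2) (by simp) (by omega)
  have e : Nat.card {W : Submodule F (Fin 5 → F) // Module.finrank F W = 2 ∧ ∀ u ∈ W, ∀ v ∈ W, Cfsg.hermForm 5 F q u v = 0} =
      Nat.card {X : Submodule F (Fin 5 → F) // (H10.stdU hF' 5).TS X ∧ Module.finrank F X = 2} :=
    Nat.card_congr (Equiv.subtypeEquivRight fun W => ⟨fun H => ⟨h.herm.ts fun x hx y hy => by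
      rw [H10.stdU_B]; exact H.2 y hy x hx, H.1⟩, fun H => ⟨H.2, fun x hx y hy => by
      rw [← H10.stdU_B hF']; exact H.1.B y hy x hx⟩⟩)
  rw [e]
  generalize Nat.card _ = N at h1 ⊢
  have h2 := h.two_le
  have a1 : 1 ≤ q ^ 2 := Nat.one_le_pow _ _ (by omega)
  have a2 : 1 ≤ q ^ 4 := Nat.one_le_pow _ _ (by omega)
  have a3 : 1 ≤ (q ^ 2) ^ 2 := Nat.one_le_pow _ _ (by omega)
  have a4 : q ^ 2 ≤ (q ^ 2) ^ 2 := by nlinarith
  simp [H10.guOrd, Finset.prod_range_succ, Fin.prod_univ_succ, Nat.even_iff] at h1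
  zify [a1, a2, a3, a4] at h1 ⊢
  have b : (2 : ℤ) ≤ q := by exact_mod_cast h2
  have b1 : (q : ℤ) ^ 2 - 1 ≠ 0 := by nlinarith
  have b2 : (q : ℤ) ^ 4 - 1 ≠ 0 := by nlinarith [pow_le_pow_left₀ (by norm_num) b 4]
  have b3 : (q : ℤ) ≠ 0 := by omega
  have b4 : (q : ℤ) + 1 ≠ 0 := by omega
  apply mul_left_cancel₀ (mul_ne_zero (mul_ne_zero (pow_ne_zero (5 * (5 - 1) / 2) b3) (mul_ne_zero b1 b2))
    (pow_ne_zero (5 - 4) b4))
  linear_combination h1

end Cfsg.Agent.S0830
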