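import Mathlib
import Cfsg.Agent.H10.Family
import Cfsg.Statements.S0831

set_option autoImplicit false
open Cfsg

namespace Cfsg.Agent.S0831

/-- The two families of maximal totally singular subspaces of the hyperbolic quadric: for the form Σ x_i y_i on F^(2m), m ≥ 1, and m-dimensional subspaces U, W, X on which it vanishes, the parities of m − dim(U ∩ W), m − dim(W ∩ X) and m − dim(U ∩ X) sum to an even number (so 'even codimension of the intersection' is an equivalence relation), and there exist two such subspaces meeting in codimension 1 (so there are exactly two classes). -/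
theorem result {F : Type*} [Field F] (m : ℕ) (hm : 1 ≤ m) : (∀ U W X : Submodule F (Fin m ⊕ Fin m → F), (Module.finrank F U = m ∧ ∀ w ∈ U, Cfsg.quadFormPlus m F w = 0) → (Module.finrank F W = m ∧ ∀ w ∈ W, Cfsg.quadFormPlus m F w = 0) → (Module.finrank F X = m ∧ ∀ w ∈ X, Cfsg.quadFormPlus m F w = 0) → Even ((m - Module.finrank F ↥(U ⊓ W)) + (m - Module.finrank F ↥(W ⊓ X)) + (m - Module.finrank F ↥(U ⊓ X)))) ∧ ∃ U W : Submodule F (Fin m ⊕ Fin m → F), (Module.finrank F U = m ∧ ∀ w ∈ U, Cfsg.quadFormPlus m F w = 0) ∧ (Module.finrank F W = m ∧ ∀ w ∈ W, Cfsg.quadFormPlus m F w = 0) ∧ Module.finrank F ↥(U ⊓ W) + 1 = m := by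
  have h0 := H10.Form.isQuad_ofQuad (H10.qPlus m F)
  have hn : Module.finrank F (Fin m ⊕ Fin m → F) = 2 * m := by simp; omega
  refine ⟨fun U W X hU hW hX => ?_, ?_⟩
  · have h1 : Module.finrank F ↥(U ⊓ W) ≤ m := (Submodule.finrank_mono inf_le_left).trans hU.1.le
    have h2 : Module.finrank F ↥(W ⊓ X) ≤ m := (Submodule.finrank_mono inf_le_left).trans hW.1.le
    have h3 : Module.finrank F ↥(U ⊓ X) ≤ m := (Submodule.finrank_mono inf_le_left).trans hU.1.le
    have := h0.even_family hn (h0.ts hW.2) (h0.ts hX.2) hW.1 hX.1 (m - Module.finrank F ↥(U ⊓ W))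
      (h0.ts hU.2) hU.1 (by omega)
    rw [Nat.even_iff] at this ⊢
    omega
  · obtain ⟨U, hU, h1⟩ := H10.qPlus_hasTS (F := F) (m := m)
    have h2 : U ≠ ⊥ := by
      rintro rfl
      simp at h1
      omega
    obtain ⟨e, he, he0⟩ := Submodule.exists_mem_ne_zero_of_ne_bot h2
    obtain ⟨f, hf⟩ := (H10.Form.ofQuad (H10.qPlus m F)).exists_hyp (hU.1 e he) he0
    have h3 : f ∉ U := fun h => by
      have := hU.2 e he f h
      rw [hf.3] at this
      exact one_ne_zero this
    obtain ⟨h4, h5, h6⟩ := hU.exists_adj hn h1 h3 hf.2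
    exact ⟨U, _, ⟨h1, hU.1⟩, ⟨h5, h4.1⟩, h6⟩

end Cfsg.Agent.S0831
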