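import Mathlib
import Cfsg.Agent.H10.Family
import Cfsg.Agent.H10.Bridge
import Cfsg.Statements.S0832

set_option autoImplicit false
open Cfsg

namespace Cfsg.Agent.S0832

/-- For the form Σ x_i y_i on F^(2m) over a finite field, m ≥ 1: an (m−1)-dimensional subspace on which the form vanishes is contained in exactly two m-dimensional subspaces on which it vanishes. -/
theorem result {F : Type*} [Field F] [Finite F] (m : ℕ) (hm : 1 ≤ m) (U : Submodule F (Fin m ⊕ Fin m → F)) (hU : Module.finrank F U + 1 = m ∧ ∀ u ∈ U, Cfsg.quadFormPlus m F u = 0) : Nat.card {W : Submodule F (Fin m ⊕ Fin m → F) // Module.finrank F W = m ∧ (∀ w ∈ W, Cfsg.quadFormPlus m F w = 0) ∧ U ≤ W} = 2 := by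
  have h0 := H10.Form.isQuad_ofQuad (H10.qPlus m F)
  set φ := H10.Form.ofQuad (H10.qPlus m F)
  have hn : Module.finrank F (Fin m ⊕ Fin m → F) = 2 * m := by simp; omega
  obtain ⟨X, hX, h1⟩ := H10.qPlus_hasTS (F := F) (m := m)
  have hUT : φ.TS U := h0.ts hU.2
  obtain ⟨W, hW, hUW, h2⟩ := hUT.exists_ge hX (by omega)
  rw [h1] at h2
  have hlt : ¬ φ.perp U ≤ φ.perp W := fun H => by
    have := Submodule.finrank_mono (φ.perp_le_perp_iff.1 H)
    omega
  obtain ⟨e, he, heU, hsup⟩ := H10.Form.exists_sup_eq hUW (by omega)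
  obtain ⟨f, hfU, hf⟩ := φ.exists_partner (hW.Q e he) heU (φ.mem_perp.2 fun x hx => hW.B x (hUW hx) e he)
  have h3 : f ∉ W := fun h => by
    have := hW.B e he f h
    rw [hf.3] at this
    exact one_ne_zero this
  obtain ⟨h4, h5, h6⟩ := hW.exists_adj hn h2 h3 hf.2
  set W' := W ⊓ φ.perp (F ∙ f) ⊔ F ∙ f
  have hUW' : U ≤ W' := le_sup_of_le_left (le_inf hUW fun x hx =>
    φ.mem_perp_singleton.2 (φ.mem_perp'.1 hfU x hx))
  have hI : W ⊓ W' = U := (Submodule.eq_of_le_of_finrank_eq (le_inf hUW hUW') (by omega)).symm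
  have hne : W ≠ W' := fun h => h3 (h ▸ Submodule.mem_sup_right (Submodule.mem_span_singleton_self f))
  rw [Nat.card_eq_two_iff]
  refine ⟨⟨W, h2, hW.Q, hUW⟩, ⟨W', h5, h4.Q, hUW'⟩, fun h => hne (congrArg Subtype.val h), ?_⟩
  rw [Set.eq_univ_iff_forall]
  rintro ⟨Y, hY1, hY2, hY3⟩
  have hY : φ.TS Y := h0.ts hY2
  obtain ⟨y, hy, hyU, rfl⟩ := H10.Form.exists_sup_eq hY3 (by omega)
  have := h0.mem_or_mem_of_adj hn hW h4 h2 h5 h6 (x := y)
    (by rw [hI]; exact φ.mem_perp.2 fun x hx => hY.B x (hY3 hx) y hy) (hY.Q y hy)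
  simp only [Set.mem_insert_iff, Set.mem_singleton_iff, Subtype.mk.injEq]
  refine this.imp (fun h => ?_) (fun h => ?_)
  · exact Submodule.eq_of_le_of_finrank_eq (sup_le hUW ((Submodule.span_singleton_le_iff_mem _ _).2 h)) (by omega)
  · exact Submodule.eq_of_le_of_finrank_eq (sup_le hUW' ((Submodule.span_singleton_le_iff_mem _ _).2 h)) (by omega)

end Cfsg.Agent.S0832
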