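import Mathlib
import Cfsg.Statements.S0833
import Cfsg.Agent.H09.SpStab

set_option autoImplicit false
open Cfsg

namespace Cfsg.Agent.S0833

/-- If B₁, B₂ are non-degenerate alternating forms on U (dim 2k) and W (dim 2l), then B₁ ⊗ B₂ on U ⊗ W is symmetric, non-degenerate, and vanishes identically on some subspace of dimension 2kl (half of dim U ⊗ W). -/
theorem result {F U W : Type*} [Field F] [Fintype F] [AddCommGroup U] [Module F U] [FiniteDimensional F U] [AddCommGroup W] [Module F W] [FiniteDimensional F W] (B₁ : LinearMap.BilinForm F U) (B₂ : LinearMap.BilinForm F W) (h₁ : B₁.Nondegenerate) (h₂ : B₂.Nondegenerate) (hA₁ : B₁.IsAlt) (hA₂ : B₂.IsAlt) (k l : ℕ) (hU : Module.finrank F U = 2 * k) (hW : Module.finrank F W = 2 * l) : (B₁.tmul B₂).IsSymm ∧ (B₁.tmul B₂).Nondegenerate ∧ (∃ X : Submodule F (TensorProduct F U W), Module.finrank F X = 2 * k * l ∧ ∀ x ∈ X, ∀ y ∈ X, (B₁.tmul B₂) x y = 0) := by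
  obtain ⟨b, h1, h2, h3⟩ := H09.exists_symp_basis h₁ hA₁ hU
  refine ⟨?_, ?_, ?_⟩
  · refine ⟨fun x y => ?_⟩
    induction x using TensorProduct.induction_on with
    | zero => simp
    | add a b ha hb => simp only [map_add, LinearMap.add_apply, ha, hb]
    | tmul a b =>
      induction y using TensorProduct.induction_on with
      | zero => simp
      | add c d hc hd => simp only [map_add, LinearMap.add_apply, hc, hd]
      | tmul c d => simp [← hA₁.neg_eq a c, ← hA₂.neg_eq b d]
  · let c := Module.finBasis F W
    refine (LinearMap.BilinForm.nondegenerate_iff_det_ne_zero (b.tensorProduct c)).2 ?_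
    have : LinearMap.BilinForm.toMatrix (b.tensorProduct c) (B₁.tmul B₂) =
        Matrix.kroneckerMap (· * ·) (LinearMap.BilinForm.toMatrix b B₁) (LinearMap.BilinForm.toMatrix c B₂) := by
      ext ⟨i, j⟩ ⟨i', j'⟩
      simp [mul_comm]
    rw [this, Matrix.det_kronecker]
    exact mul_ne_zero (pow_ne_zero _ ((LinearMap.BilinForm.nondegenerate_iff_det_ne_zero b).1 h₁))
      (pow_ne_zero _ ((LinearMap.BilinForm.nondegenerate_iff_det_ne_zero c).1 h₂))
  · let U₀ := Submodule.span F (Set.range fun i => b (Sum.inl i))
    have hU₀ : Module.finrank F U₀ = k := by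
      have := finrank_span_eq_card (b.linearIndependent.comp _ Sum.inl_injective)
      rwa [Fintype.card_fin] at this
    have hiso : ∀ x y : U₀, B₁ x y = 0 := fun x y =>
      H09.span_le_orthogonal_of_isotropic h2 y.2 x x.2
    refine ⟨LinearMap.range (U₀.subtype.rTensor W), ?_, ?_⟩
    · rw [LinearMap.finrank_range_of_inj (Module.Flat.rTensor_preserves_injective_linearMap _
        U₀.injective_subtype), Module.finrank_tensorProduct, hU₀, hW]
      ring
    · rintro _ ⟨x, rfl⟩ _ ⟨y, rfl⟩
      induction x using TensorProduct.induction_on with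
      | zero => simp
      | add a b ha hb => simp only [map_add, LinearMap.add_apply, ha, hb, add_zero]
      | tmul a b =>
        induction y using TensorProduct.induction_on with
        | zero => simp
        | add c d hc hd => simp only [map_add, LinearMap.add_apply, hc, hd, add_zero]
        | tmul c d => simp [hiso]

end Cfsg.Agent.S0833
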