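import Mathlib
import Cfsg.Statements.S0836
import Cfsg.Agent.H09.SL2Basic

set_option autoImplicit false
open Cfsg

namespace Cfsg.Agent.S0836

open Matrix Matrix.SpecialLinearGroup in
open scoped MatrixGroups commutatorElement in
theorem aux {F : Type*} [Field F] {ι : Type*} [Fintype ι] [DecidableEq ι] {i j : ι} (hij : i ≠ j)
    (a : F) (ha : a ≠ 0) (b : F) :
    ⁅diag2n hij a ha, SpecialLinearGroup.transvection hij b⁆ =
      SpecialLinearGroup.transvection hij (b * (a ^ 2 - 1)) := by
  have h1 : diag2n hij a ha * SpecialLinearGroup.transvection hij b =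
      SpecialLinearGroup.transvection hij (b * a ^ 2) * diag2n hij a ha := by
    apply Subtype.ext
    simp only [coe_mul, transvection_coe, diag2n_coe, mul_add, add_mul, one_mul, mul_one]
    congr 1
    ext k l
    simp only [diagonal_mul, mul_diagonal, single_apply]
    by_cases h : i = k ∧ j = l
    · obtain ⟨rfl, rfl⟩ := h
      simp [hij.symm]; field_simp
    · simp [h]
  rw [commutatorElement_def, h1, mul_inv_cancel_right, transvection_inv, ← transvection_add]
  congr 1; ring

/-- For i ≠ j and any scalar c, the elementary transvection 1 + c E_ij is a commutator ⁅g, h⁆ of two elements of SL_n(F) provided n ≥ 3, or n = 2 and F contains x ≠ 0 with x² ≠ 1. -/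
theorem result {F : Type*} [Field F] (n : ℕ) (hn : 3 ≤ n ∨ (n = 2 ∧ ∃ x : F, x ≠ 0 ∧ x ^ 2 ≠ 1)) (i j : Fin n) (hij : i ≠ j) (c : F) (t : Matrix.SpecialLinearGroup (Fin n) F) (ht : (t : Matrix (Fin n) (Fin n) F) = Matrix.transvection i j c) : t ∈ commutatorSet (Matrix.SpecialLinearGroup (Fin n) F) := by
  have : t = Matrix.SpecialLinearGroup.transvection hij c := Subtype.ext ht
  subst this
  rcases hn with hn | ⟨rfl, x, hx, hx2⟩
  · exact H09.transvection_mem_commutatorSet (by simpa using hn) hij c
  · refine ⟨_, _, (aux hij x hx (c / (x ^ 2 - 1))).trans ?_⟩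
    rw [div_mul_cancel₀ _ (sub_ne_zero.2 hx2)]

end Cfsg.Agent.S0836
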