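import Mathlib
import Cfsg.Agent.H10.Par
import Cfsg.Agent.H10.Bridge
import Cfsg.Statements.S0837

set_option autoImplicit false
open Cfsg

namespace Cfsg.Agent.S0837

/-- If W ≤ F^n (|F| = q²) is a k-dimensional subspace on which the Hermitian form Σ x_i y_i^q is non-degenerate, then the stabiliser of W in GU_n(q) is isomorphic to GU_k(q) × GU_(n−k)(q). -/
theorem result {F : Type*} [Field F] [Fintype F] {q : ℕ} (hF : Fintype.card F = q ^ 2) (n k : ℕ) (hk : k ≤ n) (W : Submodule F (Fin n → F)) (hWk : Module.finrank F W = k) (hW : ∀ u ∈ W, (∀ v ∈ W, Cfsg.hermForm n F q u v = 0) → u = 0) : Nonempty (↥((Cfsg.stabilizing (Cfsg.glToMat (Fin n) F) (W : Set (Fin n → F))).subgroupOf (Cfsg.GU n F q)) ≃* ↥(Cfsg.GU k F q) × ↥(Cfsg.GU (n - k) F q)) := by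
  have hF' : Nat.card F = q ^ 2 := by simpa using hF
  have h := H10.stdU_isUnitary hF' n
  have hN : (H10.stdU hF' n).NondegOn W := fun x hx H => hW x hx fun v hv => by
    rw [← H10.stdU_B hF']; exact (H10.stdU hF' n).B_symm_zero (H v hv)
  have := hN.nondeg
  have := hN.perp.nondeg
  obtain ⟨e₁, h₁⟩ := (h.restrict W).exists_isEquiv (H10.stdU_isUnitary hF' k) (by simp [hWk])
  obtain ⟨e₂, h₂⟩ := (h.restrict ((H10.stdU hF' n).perp W)).exists_isEquiv
    (H10.stdU_isUnitary hF' (n - k)) (by have := (H10.stdU hF' n).finrank_perp W; simp at this ⊢; omega)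
  have e : ↥((Cfsg.stabilizing (Cfsg.glToMat (Fin n) F) (W : Set (Fin n → F))).subgroupOf (Cfsg.GU n F q)) ≃*
      (H10.stdU hF' n).stab W := by
    refine ((H10.GUEquiv hF' n).subgroupMap _).trans (MulEquiv.subgroupCongr ?_)
    ext g
    obtain ⟨g, rfl⟩ := (H10.GUEquiv hF' n).surjective g
    erw [Subgroup.mem_map_equiv, MulEquiv.symm_apply_apply]
    simp only [Subgroup.mem_subgroupOf, H10.Form.mem_stab]
    exact forall_congr' fun v => by rw [H10.GUEquiv_apply]; rfl
  exact ⟨e.trans ((H10.Form.stabEquiv hN).trans ((h₁.isomEquiv.trans (H10.GUEquiv hF' k).symm).prodCongr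
    (h₂.isomEquiv.trans (H10.GUEquiv hF' (n - k)).symm)))⟩

end Cfsg.Agent.S0837
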