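import Mathlib
import Cfsg.Agent.H10.Quad2
import Cfsg.Statements.S0838

set_option autoImplicit false
open Cfsg

namespace Cfsg.Agent.S0838

/-- Over a finite field with 2 ≠ 0 and n odd: two quadratic forms Q₁, Q₂ on F^n with non-degenerate polar forms are similar — there are an invertible linear map g and a scalar c ≠ 0 with Q₂ (g v) = c · Q₁ v for all v. -/
theorem result {F : Type*} [Field F] [Fintype F] (h2 : (2 : F) ≠ 0) {n : ℕ} (hn : Odd n) (Q₁ Q₂ : QuadraticForm F (Fin n → F)) (h₁ : (QuadraticMap.polarBilin Q₁).Nondegenerate) (h₂ : (QuadraticMap.polarBilin Q₂).Nondegenerate) : ∃ (g : (Fin n → F) ≃ₗ[F] (Fin n → F)) (c : F), c ≠ 0 ∧ ∀ v, Q₂ (g v) = c * Q₁ v := by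
  have := H10.Form.ofQuad_nondeg h₁
  have := H10.Form.ofQuad_nondeg h₂
  obtain ⟨m, rfl⟩ := hn
  exact (H10.Form.isQuad_ofQuad Q₁).exists_similar_odd (H10.Form.isQuad_ofQuad Q₂) (m := m)
    (by simp) (by simp)

end Cfsg.Agent.S0838
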