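import Mathlib
import Cfsg.Statements.S0839
import Cfsg.Agent.H09.SLBasic

set_option autoImplicit false
open Cfsg

namespace Cfsg.Agent.S0839

/-- Every transvection t ∈ SL_(n+2)(F) (rank(t − 1) = 1, (t − 1)² = 0) is conjugate in SL_(n+2)(F) to 1 + v·e_0ᵀ for some column vector v with v_0 = 0 (the group A of matrices that are the identity except in the first column below the diagonal); the dimension is written n + 2 ≥ 2. -/
theorem result {F : Type*} [Field F] (n : ℕ) (t : Matrix.SpecialLinearGroup (Fin (n + 2)) F) (ht : Cfsg.IsTransvection (t : Matrix (Fin (n + 2)) (Fin (n + 2)) F)) : ∃ (g : Matrix.SpecialLinearGroup (Fin (n + 2)) F) (v : Fin (n + 2) → F), v 0 = 0 ∧ ((g⁻¹ * t * g : Matrix.SpecialLinearGroup (Fin (n + 2)) F) : Matrix (Fin (n + 2)) (Fin (n + 2)) F) = 1 + Matrix.vecMulVec v (Pi.single 0 1) := by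
  classical
  obtain ⟨hr, hsq⟩ := ht
  set N : Matrix (Fin (n + 2)) (Fin (n + 2)) F := (t : Matrix (Fin (n + 2)) (Fin (n + 2)) F) - 1 with hN
  -- N = u wᵀ
  have hex : ∃ u w : Fin (n + 2) → F, u ≠ 0 ∧ w ≠ 0 ∧ N = Matrix.vecMulVec u w := by
    have h1 : Module.finrank F (LinearMap.range N.mulVecLin) = 1 := hr
    obtain ⟨⟨u, hu⟩, hu0, hall⟩ := finrank_eq_one_iff'.1 h1
    have hc : ∀ j, ∃ c : F, c • u = N.mulVec (Pi.single j 1) := fun j => by
      obtain ⟨c, hc⟩ := hall ⟨N.mulVec (Pi.single j 1), ⟨_, rfl⟩⟩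
      exact ⟨c, congrArg Subtype.val hc⟩
    choose w hw using hc
    have hNe : N = Matrix.vecMulVec u w := by
      ext i j
      have := congrFun (hw j) i
      simp at this
      simp [Matrix.vecMulVec_apply, ← this, mul_comm]
    refine ⟨u, w, fun h => hu0 (Subtype.ext h), ?_, hNe⟩
    rintro rfl
    rw [hNe] at hr
    simp at hr
  obtain ⟨u, w, hu, hw, hNe⟩ := hex
  have hwu : w ⬝ᵥ u = 0 := by
    rw [hNe, Matrix.vecMulVec_mul_vecMulVec] at hsq
    obtain ⟨i, hi⟩ := Function.ne_iff.1 hu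
    obtain ⟨j, hj⟩ := Function.ne_iff.1 hw
    have := congrFun (congrFun hsq i) j
    simp [Matrix.vecMulVec_apply] at this
    rcases this with h | h | h
    · exact absurd h hi
    · exact h
    · exact absurd h hj
  -- find h ∈ SL with h • e₀ ∝ w
  have he : (Pi.single 0 1 : Fin (n + 2) → F) ≠ 0 := Pi.single_ne_zero_iff.2 one_ne_zero
  obtain ⟨h, hh⟩ := MulAction.exists_smul_eq (Matrix.SpecialLinearGroup (Fin (n + 2)) F)
    (Projectivization.mk F w hw) (Projectivization.mk F _ he)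
  rw [Projectivization.smul_mk, Projectivization.mk_eq_mk_iff'] at hh
  obtain ⟨a, ha⟩ := hh
  have ha' : (h : Matrix (Fin (n + 2)) (Fin (n + 2)) F).mulVec w = a • Pi.single 0 1 := ha.symm
  set g : Matrix.SpecialLinearGroup (Fin (n + 2)) F := h.transpose with hg
  have hwg : Matrix.vecMul w (g : Matrix (Fin (n + 2)) (Fin (n + 2)) F) = a • Pi.single 0 1 := by
    rw [hg, Matrix.SpecialLinearGroup.coe_transpose, Matrix.vecMul_transpose, ha']
  refine ⟨g, a • ((g⁻¹ : Matrix.SpecialLinearGroup (Fin (n + 2)) F) : Matrix _ _ F).mulVec u, ?_, ?_⟩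
  · have h1 : Matrix.vecMul w (g : Matrix (Fin (n + 2)) (Fin (n + 2)) F) ⬝ᵥ
        ((g⁻¹ : Matrix.SpecialLinearGroup (Fin (n + 2)) F) : Matrix _ _ F).mulVec u = 0 := by
      rw [← Matrix.dotProduct_mulVec, Matrix.mulVec_mulVec, ← Matrix.SpecialLinearGroup.coe_mul,
        mul_inv_cancel, Matrix.SpecialLinearGroup.coe_one, Matrix.one_mulVec, hwu]
    rw [hwg] at h1
    simpa using h1
  · have ht1 : (t : Matrix (Fin (n + 2)) (Fin (n + 2)) F) = 1 + Matrix.vecMulVec u w := by
      rw [← hNe, hN]; abel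
    rw [Matrix.SpecialLinearGroup.coe_mul, Matrix.SpecialLinearGroup.coe_mul, ht1, mul_add, add_mul,
      mul_one, ← Matrix.SpecialLinearGroup.coe_mul, inv_mul_cancel,
      Matrix.SpecialLinearGroup.coe_one, Matrix.mul_vecMulVec, Matrix.vecMulVec_mul, hwg]
    congr 1
    ext i j
    simp [Matrix.vecMulVec_apply]; ring

end Cfsg.Agent.S0839
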