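import Mathlib
import Cfsg.Statements.S0848
import Cfsg.Agent.H08.Small

set_option autoImplicit false
open Cfsg

namespace Cfsg.Agent.S0848

/-- If a finite group equals its own commutator subgroup and contains an involution whose centralizer is isomorphic to the dihedral group of order 8, then the group has order 168 or 360. -/
theorem result {G : Type*} [Group G] [Finite G] (hperf : commutator G = ⊤) (t : G) (ht : orderOf t = 2) (e : Subgroup.centralizer ({t} : Set G) ≃* DihedralGroup 4) : Nat.card G = 168 ∨ Nat.card G = 360 := by
  obtain ⟨F, _, _, h, -⟩ := H08.psl2_of_cent_D8 (fun H hH => by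
    have := Subgroup.normal_of_index_eq_two hH
    have h1 : commutator G ≤ H := (Subgroup.Normal.quotient_commutative_iff_commutator_le).1
      ((isCyclic_of_prime_card (p := 2) hH).isMulCommutative)
    rw [hperf, top_le_iff] at h1
    simp [h1] at hH) ht e
  tauto

end Cfsg.Agent.S0848
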