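import Mathlib
import Cfsg.Statements.S0849
import Cfsg.Agent.H06.Induction

set_option autoImplicit false
open Cfsg

namespace Cfsg.Agent.S0849

/-- Let H be a subgroup of a finite group G and S a subset of H that is mapped to itself under conjugation by H, is disjoint from its conjugate by any element outside H, and is closed under inverses. Let φ be a class function of H vanishing on H away from S, and let u, v be involutions of G. Then the sum of the induced function of φ over all products a * b with a conjugate to u and b conjugate to v equals the index of H times the sum of φ (a * b) over such pairs with a and b in H. -/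
theorem result {G : Type*} [Group G] [Fintype G] (H : Subgroup G) (S : Set G) (hSH : S ⊆ H) (hHS : ∀ h ∈ H, ∀ s ∈ S, h * s * h⁻¹ ∈ S) (hTI : ∀ g : G, g ∉ H → ∀ s ∈ S, g * s * g⁻¹ ∉ S) (hinv : ∀ s ∈ S, s⁻¹ ∈ S) (φ : H → ℂ) (hφ : Cfsg.IsClassFunction H φ) (hφS : ∀ x : H, (x : G) ∉ S → φ x = 0) (u v : G) (hu : orderOf u = 2) (hv : orderOf v = 2) : ∑ᶠ p ∈ {p : G × G | IsConj u p.1 ∧ IsConj v p.2}, Cfsg.indFun H φ (p.1 * p.2) = (H.index : ℂ) * ∑ᶠ p ∈ {p : H × H | IsConj u (p.1 : G) ∧ IsConj v (p.2 : G)}, φ (p.1 * p.2) := by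
  classical
  let _ : Fintype H := Fintype.ofFinite _
  have hfin : ∀ {X : Type _} [Fintype X] (s : Set X) [DecidablePred (· ∈ s)] (f : X → ℂ),
      ∑ᶠ p ∈ s, f p = ∑ p ∈ Finset.univ.filter (· ∈ s), f p := by
    intro X _ s _ f
    rw [← finsum_mem_coe_finset]
    congr 1
    simp
  rw [hfin, hfin]
  set T := Finset.univ.filter (· ∈ {p : G × G | IsConj u p.1 ∧ IsConj v p.2}) with hT
  have hinner : ∀ x : G, ∑ p ∈ T, extendByZero H φ (x⁻¹ * (p.1 * p.2) * x) =
      ∑ p ∈ T, extendByZero H φ (p.1 * p.2) := by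
    intro x
    refine Finset.sum_nbij' (fun p => (x⁻¹ * p.1 * x, x⁻¹ * p.2 * x))
      (fun p => (x * p.1 * x⁻¹, x * p.2 * x⁻¹)) ?_ ?_ ?_ ?_ ?_
    · intro p hp
      simp only [hT, Finset.mem_filter, Finset.mem_univ, true_and, Set.mem_ofPred_eq] at hp ⊢
      exact ⟨hp.1.trans (isConj_iff.mpr ⟨x⁻¹, by simp⟩), hp.2.trans (isConj_iff.mpr ⟨x⁻¹, by simp⟩)⟩
    · intro p hp
      simp only [hT, Finset.mem_filter, Finset.mem_univ, true_and, Set.mem_ofPred_eq] at hp ⊢
      exact ⟨hp.1.trans (isConj_iff.mpr ⟨x, by simp⟩), hp.2.trans (isConj_iff.mpr ⟨x, by simp⟩)⟩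
    · intro p _; ext <;> simp [mul_assoc]
    · intro p _; ext <;> simp [mul_assoc]
    · intro p _; congr 1; simp [mul_assoc]
  have hL : ∑ p ∈ T, indFun H φ (p.1 * p.2) =
      (H.index : ℂ) * ∑ p ∈ T, extendByZero H φ (p.1 * p.2) := by
    simp_rw [H06.indFun_apply]
    rw [← Finset.mul_sum, Finset.sum_comm]
    simp_rw [hinner]
    rw [Finset.sum_const, Finset.card_univ, nsmul_eq_mul, ← Nat.card_eq_fintype_card,
      ← H.card_mul_index, Nat.cast_mul, ← mul_assoc, ← mul_assoc,
      inv_mul_cancel₀ (H06.natCard_ne_zero H), one_mul]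
  rw [hL]
  congr 1
  symm
  refine Finset.sum_bij_ne_zero (fun p _ _ => ((p.1 : G), (p.2 : G))) ?_ ?_ ?_ ?_
  · intro p hp _
    simpa [hT] using hp
  · intro p _ _ q _ _ h
    simp only [Prod.mk.injEq] at h
    exact Prod.ext (Subtype.ext h.1) (Subtype.ext h.2)
  · intro p hp hne
    simp only [hT, Finset.mem_filter, Finset.mem_univ, true_and, Set.mem_ofPred_eq] at hp
    obtain ⟨hmem, hne'⟩ := H06.extendByZero_ne_zero H hne
    have hS : p.1 * p.2 ∈ S := by
      by_contra h
      exact hne' (hφS _ h)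
    have ho : ∀ {w a : G}, orderOf w = 2 → IsConj w a → a * a = 1 := by
      intro w a hw h
      obtain ⟨c, rfl⟩ := isConj_iff.mp h
      have : w * w = 1 := by rw [← pow_two, ← hw, pow_orderOf_eq_one]
      calc c * w * c⁻¹ * (c * w * c⁻¹) = c * (w * w) * c⁻¹ := by group
        _ = 1 := by rw [this]; group
    have h1 := ho hu hp.1
    have h2 := ho hv hp.2
    have h1H : p.1 ∈ H := by
      by_contra h
      apply hTI _ h _ hS
      have : p.1 * (p.1 * p.2) * p.1⁻¹ = (p.1 * p.2)⁻¹ := by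
        rw [← mul_assoc, h1, one_mul, mul_inv_rev, inv_eq_of_mul_eq_one_left h2]
      rw [this]
      exact hinv _ hS
    have h2H : p.2 ∈ H := by
      have := H.mul_mem (H.inv_mem h1H) hmem
      simpa using this
    refine ⟨(⟨p.1, h1H⟩, ⟨p.2, h2H⟩), by simpa using hp, hne', rfl⟩
  · intro p _ _
    exact (H06.extendByZero_coe H φ (p.1 * p.2)).symm

end Cfsg.Agent.S0849
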