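import Mathlib
import Cfsg.Statements.S0851
import Cfsg.Agent.H18.TIFN

set_option autoImplicit false
open scoped Pointwise
open Cfsg

namespace Cfsg.Agent.S0851

open H05 H25 H25.PF6 Cfsg

/-- Let K be a subgroup of the finite group G that meets each conjugate by an element outside its normalizer N trivially, is properly contained in N, and contains the centralizer of each of its non-identity elements (a T.I. subgroup with Frobenius normalizer). Suppose K is abelian, let e be the index of K in N, and call an irreducible character of N relevant when it takes at some element of K a value different from its degree. Then either there is exactly one relevant character and K is an elementary abelian p-group of order e + 1 for some prime p, or there are a sign ε and an injective map f from the relevant characters to the irreducible characters of G such that inducing χ - ξ to G gives ε (f χ - f ξ) for all relevant χ and ξ. -/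
theorem result {G : Type*} [Group G] [Fintype G] (K : Subgroup G) (hTI : ∀ g : G, g ∉ Subgroup.normalizer (K : Set G) → ∀ k ∈ K, g * k * g⁻¹ ∈ K → k = 1) (hlt : K < Subgroup.normalizer (K : Set G)) (hC : ∀ k ∈ K, k ≠ 1 → Subgroup.centralizer ({k} : Set G) ≤ K) (hab : ∀ a ∈ K, ∀ b ∈ K, a * b = b * a) : (Nat.card {χ : Cfsg.IrrCharacter (Subgroup.normalizer (K : Set G)) // ∃ k : Subgroup.normalizer (K : Set G), (k : G) ∈ K ∧ (χ : ↥(Subgroup.normalizer (K : Set G)) → ℂ) k ≠ (χ : ↥(Subgroup.normalizer (K : Set G)) → ℂ) 1} = 1 ∧ ∃ p : ℕ, p.Prime ∧ Cfsg.IsElementaryAbelian p K ∧ Nat.card K = (K.subgroupOf (Subgroup.normalizer (K : Set G))).index + 1) ∨ ∃ (ε : ℂ) (f : {χ : Cfsg.IrrCharacter (Subgroup.normalizer (K : Set G)) // ∃ k : Subgroup.normalizer (K : Set G), (k : G) ∈ K ∧ (χ : ↥(Subgroup.normalizer (K : Set G)) → ℂ) k ≠ (χ : ↥(Subgroup.normalizer (K : Set G)) → ℂ) 1} → Cfsg.IrrCharacter G), (ε = 1 ∨ ε = -1) ∧ Function.Injective f ∧ ∀ χ ξ, Cfsg.indFun (Subgroup.normalizer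 (K : Set G)) ((χ.1 : ↥(Subgroup.normalizer (K : Set G)) → ℂ) - (ξ.1 : ↥(Subgroup.normalizer (K : Set G)) → ℂ)) = ε • ((f χ : G → ℂ) - (f ξ : G → ℂ)) := by
  right
  rcases isEmpty_or_nonempty {χ : Cfsg.IrrCharacter (Subgroup.normalizer (K : Set G)) // ∃ k : Subgroup.normalizer (K : Set G), (k : G) ∈ K ∧ (χ : ↥(Subgroup.normalizer (K : Set G)) → ℂ) k ≠ (χ : ↥(Subgroup.normalizer (K : Set G)) → ℂ) 1} with he | hne
  · exact ⟨1, isEmptyElim, Or.inl rfl, isEmptyElim, isEmptyElim⟩
  have hK1 : K ≠ ⊥ := by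
    rintro rfl
    obtain ⟨χ, k, hk, e⟩ := hne
    exact e (by rw [show k = 1 from Subtype.ext (Subgroup.mem_bot.1 hk)])
  obtain ⟨h1, hti, hfrob⟩ := amb_hyp K hK1 hTI hC
  have hset := amb_set_eq le_rfl hfrob
  have hm : ∀ χ : {χ : Cfsg.IrrCharacter (Subgroup.normalizer (K : Set G)) // ∃ k : Subgroup.normalizer (K : Set G), (k : G) ∈ K ∧ (χ : ↥(Subgroup.normalizer (K : Set G)) → ℂ) k ≠ (χ : ↥(Subgroup.normalizer (K : Set G)) → ℂ) 1}, χ.1.1 ∈ sInd (K.subgroupOf (Subgroup.normalizer (K : Set G))) (K.subgroupOf (Subgroup.normalizer (K : Set G))) ⊥ := fun χ => by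
    rw [← Finset.mem_coe, ← hset]; exact ⟨χ.1.2, χ.2⟩
  have hc : ⁅K.subgroupOf (Subgroup.normalizer (K : Set G)), K.subgroupOf (Subgroup.normalizer (K : Set G))⁆ ≤ ⊥ := by
    rw [le_bot_iff, Subgroup.commutator_eq_bot_iff_le_centralizer]
    intro x hx y hy
    exact Subtype.ext (hab y hy x hx)
  obtain ⟨ε, hε, μ, m1, m2, m3⟩ := H06.exceptional_ti (Subgroup.normalizer (K : Set G)) K
    (fun t ht t1 g hg => by by_contra h; exact t1 (hTI g h t ht hg))
    (fun χ : {χ : Cfsg.IrrCharacter (Subgroup.normalizer (K : Set G)) // ∃ k : Subgroup.normalizer (K : Set G), (k : G) ∈ K ∧ (χ : ↥(Subgroup.normalizer (K : Set G)) → ℂ) k ≠ (χ : ↥(Subgroup.normalizer (K : Set G)) → ℂ) 1} => χ.1.1) (fun χ => χ.1.2) (fun χ ξ e => Subtype.ext (Subtype.ext e))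
    (fun χ ξ x hx => by rw [sInd_suppIn (hm χ) x hx, sInd_suppIn (hm ξ) x hx])
    (fun χ ξ => by rw [sInd_deg_lin hc bot_le (hm χ), sInd_deg_lin hc bot_le (hm ξ)])
  exact ⟨ε, fun χ => ⟨μ χ, m1 χ⟩, hε, fun χ ξ e => m2 (congrArg Subtype.val e), fun χ ξ => by
    rw [H06.indFun_sub, m3]⟩

end Cfsg.Agent.S0851
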