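import Mathlib
import Cfsg.Statements.S0852
import Cfsg.Agent.H18.TIFN

set_option autoImplicit false
open scoped Pointwise
open Cfsg

namespace Cfsg.Agent.S0852

open H05 H25 H25.PF6 Cfsg

/-- Let K be a subgroup of the finite group G that meets each conjugate by an element outside its normalizer N trivially, is properly contained in N, and contains the centralizer of each of its non-identity elements (a T.I. subgroup with Frobenius normalizer). Let S be the set of irreducible characters of N taking at some element of K a value different from their degree, suppose S has at least two members, and let star be a linear isometry on the integer span of S into the generalized characters of G that agrees with induction on the members vanishing at the identity (so S is coherent, with star as the extending isometry). Then an irreducible character ψ of G is of the form star χ or -star χ for some χ in S if and only if ψ is not constant on the non-identity elements of K. -/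
theorem result {G : Type*} [Group G] [Fintype G] (K : Subgroup G) (hTI : ∀ g : G, g ∉ Subgroup.normalizer (K : Set G) → ∀ k ∈ K, g * k * g⁻¹ ∈ K → k = 1) (hlt : K < Subgroup.normalizer (K : Set G)) (hC : ∀ k ∈ K, k ≠ 1 → Subgroup.centralizer ({k} : Set G) ≤ K) [Fintype ↥(Subgroup.normalizer (K : Set G))] (S : Set (↥(Subgroup.normalizer (K : Set G)) → ℂ)) (hS : S = {χ : ↥(Subgroup.normalizer (K : Set G)) → ℂ | Cfsg.IsIrrCharacter ↥(Subgroup.normalizer (K : Set G)) χ ∧ ∃ k : ↥(Subgroup.normalizer (K : Set G)), (k : G) ∈ K ∧ χ k ≠ χ 1}) (htwo : ∃ χ ∈ S, ∃ ξ ∈ S, χ ≠ ξ) (star : (↥(Subgroup.normalizer (K : Set G)) → ℂ) → (G → ℂ)) (hstar : Cfsg.IsLinearIsometryOn (Cfsg.zspan S) star) (hext : ∀ α ∈ Cfsg.zspanOn S ({1}ᶜ : Set ↥(Subgroup.normalizer (K : Set G))), star α = Cfsg.indFun (Subgroup.normalizer (K : Set G)) α) (ψ : G → ℂ) (hψ : Cfsg.IsIrrCharacter G ψ) : (∃ χ ∈ S, ψ = star χ ∨ ψ = -star χ) ↔ ∃ a ∈ K, ∃ b ∈ K, a ≠ 1 ∧ b ≠ 1 ∧ ψ a ≠ ψ b := by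
  obtain rfl : ‹Fintype ↥(Subgroup.normalizer (K : Set G))› = fintypeSubgroup _ := Subsingleton.elim _ _
  have hK1 : K ≠ ⊥ := by
    rintro rfl
    obtain ⟨χ, hχ, -⟩ := htwo
    rw [hS] at hχ
    obtain ⟨-, k, hk, e⟩ := hχ
    exact e (by rw [show k = 1 from Subtype.ext (Subgroup.mem_bot.1 hk)])
  obtain ⟨h1, hti, hfrob⟩ := amb_hyp K hK1 hTI hC
  rw [amb_set_eq le_rfl hfrob] at hS
  subst hS
  obtain ⟨ν, hν, e⟩ := cohWith_of_isometry (τ := H06.indFunLinear _) hstar hext (fun _ _ _ => rfl)
  have h : TIHyp _ _ (H06.indFunLinear _) := ⟨hti, fun _ _ _ => rfl⟩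
  constructor
  · rintro ⟨χ, hχ, hc⟩
    by_contra hn
    push Not at hn
    obtain ⟨k₀, hk₀, hk₁⟩ : ∃ k ∈ K, k ≠ 1 := by
      by_contra hc
      push Not at hc
      exact hK1 ((Subgroup.eq_bot_iff_forall K).2 hc)
    have := H18.TI.orth_of_const h hfrob hν htwo hψ (c := ψ k₀)
      (fun k hk hk1 => hn k hk k₀ hk₀ (fun e => hk1 (Subtype.ext e)) hk₁) hχ
    rw [e χ (mem_zspan hχ)] at this
    rcases hc with hc | hc
    · rw [← hc, hψ.classInner_self] at this; simp at this
    · rw [← neg_neg (star χ), ← hc, ip_neg_right, hψ.classInner_self] at this; simp at this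
  · rintro ⟨a, ha, b, hb, a1, b1, hab⟩
    by_contra hn
    push Not at hn
    obtain ⟨c, hc⟩ := H18.TI.const_of_orth h hν hψ.isClassFunction fun ζ hζ => by
      rcases IsSIrr.ip_cases (Or.inl hψ) (hν.sirr hζ (frob_sInd_irr hfrob ζ hζ)) with e' | e' | e'
      · exact absurd (e'.trans (e ζ (mem_zspan hζ))) (hn ζ hζ).1
      · exact absurd (by rw [e', e ζ (mem_zspan hζ)]) (hn ζ hζ).2
      · exact e'
    exact hab ((hc ⟨a, Subgroup.le_normalizer ha⟩ ha fun e => a1 (congrArg Subtype.val e)).trans
      (hc ⟨b, Subgroup.le_normalizer hb⟩ hb fun e => b1 (congrArg Subtype.val e)).symm)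

end Cfsg.Agent.S0852
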