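import Mathlib
import Cfsg.Statements.S0853
import Cfsg.Agent.H18.TIFN

set_option autoImplicit false
open scoped Pointwise
open Cfsg

namespace Cfsg.Agent.S0853

open H05 H25 H25.PF6 Cfsg

/-- Let K be a subgroup of the finite group G that meets each conjugate by an element outside its normalizer N trivially, is properly contained in N, and contains the centralizer of each of its non-identity elements (a T.I. subgroup with Frobenius normalizer). Let S be the set of irreducible characters of N taking at some element of K a value different from their degree, suppose S has at least two members, and let star be a linear isometry on the integer span of S into the generalized characters of G that agrees with induction on the members vanishing at the identity (so S is coherent, with star as the extending isometry). Then there is a single integer m such that star χ k - χ k = m * χ 1 / e for every χ in S and every non-identity element k of K, where e is the index of K in N. -/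
theorem result {G : Type*} [Group G] [Fintype G] (K : Subgroup G) (hTI : ∀ g : G, g ∉ Subgroup.normalizer (K : Set G) → ∀ k ∈ K, g * k * g⁻¹ ∈ K → k = 1) (hlt : K < Subgroup.normalizer (K : Set G)) (hC : ∀ k ∈ K, k ≠ 1 → Subgroup.centralizer ({k} : Set G) ≤ K) [Fintype ↥(Subgroup.normalizer (K : Set G))] (S : Set (↥(Subgroup.normalizer (K : Set G)) → ℂ)) (hS : S = {χ : ↥(Subgroup.normalizer (K : Set G)) → ℂ | Cfsg.IsIrrCharacter ↥(Subgroup.normalizer (K : Set G)) χ ∧ ∃ k : ↥(Subgroup.normalizer (K : Set G)), (k : G) ∈ K ∧ χ k ≠ χ 1}) (htwo : ∃ χ ∈ S, ∃ ξ ∈ S, χ ≠ ξ) (star : (↥(Subgroup.normalizer (K : Set G)) → ℂ) → (G → ℂ)) (hstar : Cfsg.IsLinearIsometryOn (Cfsg.zspan S) star) (hext : ∀ α ∈ Cfsg.zspanOn S ({1}ᶜ : Set ↥(Subgroup.normalizer (K : Set G))), star α = Cfsg.indFun (Subgroup.normalizer (K : Set G)) α) : ∃ m : ℤ, ∀ χ ∈ S, ∀ k : ↥(Subgroup.normalizer (K : Set G)), (k : G) ∈ K → k ≠ 1 → star χ k - χ k = (m : ℂ) * χ 1 / ((K.subgroupOf (Subgroup.normalizer (K : Set G))).index : ℂ) := by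
  obtain rfl : ‹Fintype ↥(Subgroup.normalizer (K : Set G))› = fintypeSubgroup _ := Subsingleton.elim _ _
  have hK1 : K ≠ ⊥ := by
    rintro rfl
    obtain ⟨χ, hχ, -⟩ := htwo
    rw [hS] at hχ
    obtain ⟨-, k, hk, e⟩ := hχ
    exact e (by rw [show k = 1 from Subtype.ext (Subgroup.mem_bot.1 hk)])
  obtain ⟨h1, hti, hfrob⟩ := amb_hyp K hK1 hTI hC
  rw [amb_set_eq le_rfl hfrob] at hS
  subst hS
  obtain ⟨ν, hν, e⟩ := cohWith_of_isometry (τ := H06.indFunLinear _) hstar hext (fun _ _ _ => rfl)
  have h : TIHyp _ _ (H06.indFunLinear _) := ⟨hti, fun _ _ _ => rfl⟩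
  obtain ⟨m, hm⟩ := H18.TI.exists_int_sub h h1 hfrob hν
  exact ⟨m, fun χ hχ k hk hk1 => by rw [← e χ (mem_zspan hχ)]; exact hm χ hχ k hk hk1⟩

end Cfsg.Agent.S0853
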