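import Mathlib
import Cfsg.Statements.S0855
import Cfsg.Agent.H07.Deg2

set_option autoImplicit false
open Cfsg
open H05 H06 Cfsg H07

namespace Cfsg.Agent.S0855

/-- For a finite group G and a prime p: every irreducible character of G has degree a power of p if and only if G has an abelian normal subgroup whose order is prime to p and whose index is a power of p. -/
theorem result {G : Type*} [Group G] [Finite G] (p : ℕ) (hp : p.Prime) : (∀ χ : Cfsg.IrrCharacter G, ∃ k : ℕ, (χ : G → ℂ) 1 = (p : ℂ) ^ k) ↔ ∃ A : Subgroup G, A.Normal ∧ (∀ a ∈ A, ∀ b ∈ A, a * b = b * a) ∧ Nat.Coprime (Nat.card A) p ∧ ∃ k : ℕ, A.index = p ^ k := by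
  have := Fact.mk hp
  constructor
  · intro h
    have h1 : ∀ χ : IrrCharacter G, ∃ k, charDegree χ.1 = p ^ k := fun χ =>
      (h χ).imp fun k hk => charDegree_eq_of_apply_one (by rw [hk]; simp)
    have h2 := thompson_npc (G := G) (p := p) fun χ h2 => by
      obtain ⟨k, hk⟩ := h1 χ
      rw [hk] at h2 ⊢
      exact dvd_pow_self p (by rintro rfl; simp at h2)
    have := comm_of_deg_one fun θ : IrrCharacter (pResidual p G) => by
      obtain ⟨χ, h3⟩ := exists_over_dvd _ θ
      obtain ⟨k, hk⟩ := h1 χ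
      exact Nat.eq_one_of_dvd_coprimes (h2.pow_right k) θ.2.charDegree_dvd_card (hk ▸ h3)
    exact ⟨_, inferInstance, fun a ha b hb => setLike_mul_comm ha hb, h2, H03.exists_index_pResidual⟩
  · rintro ⟨A, h1, h2, -, k, hk⟩ χ
    have : IsMulCommutative A := ⟨⟨fun a b => Subtype.ext (h2 _ a.2 _ b.2)⟩⟩
    obtain ⟨j, -, hj⟩ := (Nat.dvd_prime_pow hp).1 (hk ▸ ito_charDegree_dvd_index χ.2 A)
    exact ⟨j, by rw [← χ.2.charDegree_eq, hj]; simp⟩

end Cfsg.Agent.S0855
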