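import Mathlib
import Cfsg.Statements.S0856
import Cfsg.Agent.H07.Gallagher

set_option autoImplicit false
open Cfsg
open H05 Cfsg

namespace Cfsg.Agent.S0856

/-- Let N be a normal subgroup of the finite group G and φ, ϑ irreducible characters of N that are invariant under conjugation by G, such that the pointwise product φ * ϑ is irreducible and ϑ is the restriction of an irreducible character χ of G. Then multiplication by χ is a bijection from the set of irreducible characters of G having nonzero inner product with the function induced from φ onto the set of those having nonzero inner product with the function induced from φ * ϑ. -/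
theorem result {G : Type*} [Group G] [Fintype G] (N : Subgroup G) [hN : N.Normal] (φ ϑ : N → ℂ) (hφ : Cfsg.IsIrrCharacter N φ) (hϑ : Cfsg.IsIrrCharacter N ϑ) (hφinv : ∀ (g : G) (n : N), φ ⟨g * n * g⁻¹, hN.conj_mem (n : G) n.2 g⟩ = φ n) (hϑinv : ∀ (g : G) (n : N), ϑ ⟨g * n * g⁻¹, hN.conj_mem (n : G) n.2 g⟩ = ϑ n) (hprod : Cfsg.IsIrrCharacter N (φ * ϑ)) (χ : G → ℂ) (hχ : Cfsg.IsIrrCharacter G χ) (hext : ∀ n : N, χ n = ϑ n) : Set.BijOn (fun β : G → ℂ => β * χ) {β : G → ℂ | Cfsg.IsIrrCharacter G β ∧ Cfsg.classInner (Cfsg.indFun N φ) β ≠ 0} {ψ : G → ℂ | Cfsg.IsIrrCharacter G ψ ∧ Cfsg.classInner (Cfsg.indFun N (φ * ϑ)) ψ ≠ 0} := by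
  let _ := Fintype.ofFinite N
  have hinv := (H07.conjFun_eq_iff N).mpr hφinv
  have key : ∀ (θ : N → ℂ) (β : G → ℂ), IsIrrCharacter G β →
      (classInner (indFun N θ) β ≠ 0 ↔ classInner (fun n : N => β n) θ ≠ 0) := fun θ β hβ => by
    rw [H06.frobenius_reciprocity _ _ _ hβ.isClassFunction, H06.classInner_ne_zero_comm]
  refine ⟨fun β hβ => ?_, fun β hβ γ hγ h => ?_, fun ψ hψ => ?_⟩
  · have h1 := (key _ _ hβ.1).mp hβ.2
    have h2 := H07.gallagher_irr N hφ hinv hprod hχ.isCharacter hext hβ.1 h1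
    refine ⟨h2, (key _ _ h2).mpr ?_⟩
    rwa [H07.gallagher_res N hφ hinv hprod hext hβ.1 h1]
  · exact H07.gallagher_inj N hφ hinv hprod hχ.isCharacter hext hβ.1 ((key _ _ hβ.1).mp hβ.2)
      hγ.1 ((key _ _ hγ.1).mp hγ.2) h
  · obtain ⟨β, hβ, h1, h2⟩ := H07.gallagher_surj N hφ hinv hprod hχ.isCharacter hext hψ.1
      ((key _ _ hψ.1).mp hψ.2)
    exact ⟨β, ⟨hβ, (key _ _ hβ).mpr h1⟩, h2.symm⟩

end Cfsg.Agent.S0856
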