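import Mathlib
import Cfsg.Statements.S0859
import Cfsg.Agent.H07.Ch6

set_option autoImplicit false
open Cfsg
open H05 H06 Cfsg H07

namespace Cfsg.Agent.S0859

/-- Let G be a finite solvable group and N a normal subgroup such that for every prime p every Sylow p-subgroup of N is abelian. Suppose every irreducible character of G is induced from an irreducible character of some subgroup containing N whose restriction to N is irreducible. Then every irreducible character of G is induced from a character of degree 1 of some subgroup. -/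
theorem result {G : Type*} [Group G] [Fintype G] [Group.IsSolvable G] (N : Subgroup G) [N.Normal] (hab : ∀ (p : ℕ) [Fact p.Prime] (P : Sylow p N), ∀ a ∈ P, ∀ b ∈ P, a * b = b * a) (hrel : ∀ χ : G → ℂ, Cfsg.IsIrrCharacter G χ → ∃ (H : Subgroup G) (hNH : N ≤ H) (ψ : H → ℂ), Cfsg.IsIrrCharacter H ψ ∧ Cfsg.indFun H ψ = χ ∧ Cfsg.IsIrrCharacter N (fun n : N => ψ ⟨(n : G), hNH n.2⟩)) (χ : G → ℂ) (hχ : Cfsg.IsIrrCharacter G χ) : ∃ (U : Subgroup G) (lam : U → ℂ), Cfsg.IsCharacter U lam ∧ lam 1 = 1 ∧ Cfsg.indFun U lam = χ := by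
  classical
  obtain ⟨H, hNH, ψ, h1, rfl, h2⟩ := hrel χ hχ
  have hN : H07.AbSyl N := fun p hp Q hQ => by
    haveI := Fact.mk hp
    obtain ⟨P, hP⟩ := hQ.exists_le_sylow
    exact ⟨⟨fun a b => Subtype.ext (hab p P _ (hP a.2) _ (hP b.2))⟩⟩
  obtain ⟨U, lam, h3, h4, rfl⟩ := H07.monomial_of_rel (N.subgroupOf H)
    (hN.of_injective (Subgroup.subgroupOfEquivOfLe hNH).toMonoidHom (Subgroup.subgroupOfEquivOfLe hNH).injective) h1
    ((H07.isIrr_subgroupOf_iff N H hNH _).2 h2)
  obtain ⟨η, h5, h6, h7⟩ := H07.exists_ind_map H U lam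
  exact ⟨_, η, (h5 h3).isCharacter, h6.trans h4, h7⟩

end Cfsg.Agent.S0859
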