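import Mathlib
import Cfsg.Statements.S0861
import Cfsg.Agent.H07.Deg
import Cfsg.Agent.H21.Height
import Cfsg.Agent.H21.RComb

set_option autoImplicit false
open Cfsg
open H05 H06 Cfsg H07

namespace Cfsg.Agent.S0861

/-- Let P be a normal abelian Sylow p-subgroup of the finite group G and suppose some element g of P has centralizer exactly P. Then the number of irreducible characters of G is at most the order of P, and if equality holds then G / P is abelian (the commutator subgroup lies in P). -/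
theorem result {G : Type*} [Group G] [Finite G] (p : ℕ) [Fact p.Prime] (P : Sylow p G) [(P : Subgroup G).Normal] (hab : ∀ a ∈ P, ∀ b ∈ P, a * b = b * a) (g : G) (hg : g ∈ P) (hC : Subgroup.centralizer ({g} : Set G) = P) : Nat.card (Cfsg.IrrCharacter G) ≤ Nat.card P ∧ (Nat.card (Cfsg.IrrCharacter G) = Nat.card P → commutator G ≤ P) := by
  classical
  have hp : p.Prime := Fact.out
  have : IsMulCommutative P := ⟨⟨fun a b => Subtype.ext (hab _ a.2 _ b.2)⟩⟩
  obtain ⟨M, hM⟩ := H21.exists_isPModular hp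
  have := hM.2.1
  have h1 : ∀ χ : IrrCharacter G, χ.1 g ≠ 0 := fun χ h => by
    have h1 := (H21.isRComb_irr χ).ideal_sub_of_commute hM (x := g) (y := 1)
      (by simpa using IsPGroup.iff_orderOf.1 P.2 ⟨g, hg⟩) (Commute.one_right g)
    rw [mul_one, h, zero_sub, H21.ideal_neg_iff, ← χ.2.charDegree_eq, H21.ideal_natCast_iff hM] at h1
    exact P.not_dvd_index (h1.trans (ito_charDegree_dvd_index χ.2 _))
  have : NeZero (Nat.card G) := ⟨Nat.card_pos.ne'⟩
  let F : IrrCharacter G → ℝ := fun χ =>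
    ∑ u : (ZMod (Nat.card G))ˣ, ‖χ.1 (g ^ (u : ZMod (Nat.card G)).val)‖ ^ 2
  have h2 : ∀ χ, (Nat.card (ZMod (Nat.card G))ˣ : ℝ) ≤ F χ := fun χ => by
    simpa [F] using card_units_le_sum_norm (χ.2.isGeneralizedCharacter.pow 2) (pow_ne_zero 2 (h1 χ))
  have h3 : ∑ χ, F χ = Nat.card P * Nat.card (ZMod (Nat.card G))ˣ := by
    rw [Finset.sum_comm, Finset.sum_congr rfl (g := fun _ => (Nat.card P : ℝ)) fun u _ => ?_]
    · simp [mul_comm]
    rw [sum_irr_norm_sq, ← hC, ← Subgroup.centralizer_closure {g}, ← Subgroup.centralizer_closure {g ^ _},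
      ← Subgroup.zpowers_eq_closure, ← Subgroup.zpowers_eq_closure, le_antisymm (Subgroup.zpowers_le.2 (pow_mem (Subgroup.mem_zpowers g) _)) (Subgroup.zpowers_le.2
      (mem_of_pow_mem (ZMod.val_coe_unit_coprime u) (Subgroup.mem_zpowers _)))]
  have h4 : (0 : ℝ) < Nat.card (ZMod (Nat.card G))ˣ := by exact_mod_cast Nat.card_pos
  have h5 : ∑ _χ : IrrCharacter G, (Nat.card (ZMod (Nat.card G))ˣ : ℝ) =
      Nat.card (IrrCharacter G) * Nat.card (ZMod (Nat.card G))ˣ := by simp
  refine ⟨by exact_mod_cast le_of_mul_le_mul_right (h5 ▸ h3 ▸ Finset.sum_le_sum fun χ _ => h2 χ) h4,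
    fun h => commutator_le_of_irr _ fun χ h6 => ?_⟩
  have h7 := (Finset.sum_eq_sum_iff_of_le fun χ _ => h2 χ).1 (by rw [h5, h3, h]) χ (Finset.mem_univ _)
  simp only [F, h6 _ (pow_mem hg _), χ.2.isCharacter.norm_apply_one, Finset.sum_const, Finset.card_univ,
    nsmul_eq_mul, ← Nat.card_eq_fintype_card] at h7
  have h8 : charDegree χ.1 ^ 2 = 1 := by exact_mod_cast (mul_left_cancel₀ h4.ne' ((mul_one _).trans h7)).symm
  exact (pow_eq_one_iff.1 h8).resolve_right two_ne_zero

end Cfsg.Agent.S0861
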