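import Mathlib
import Cfsg.Statements.S0862
import Cfsg.Agent.H07.Extend

set_option autoImplicit false
open Cfsg
open H05 Cfsg

namespace Cfsg.Agent.S0862

/-- Let N be a normal subgroup of the finite group G and ϑ an irreducible character of N of degree d coprime to the index of N, which is the restriction of some irreducible character of G. Let μ be a character of G of degree 1 whose restriction to N is the determinantal character of ϑ. Then there is exactly one irreducible character χ of G restricting to ϑ whose determinantal character is μ. -/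
theorem result {G : Type*} [Group G] [Finite G] (N : Subgroup G) [N.Normal] (ϑ : N → ℂ) (hϑ : Cfsg.IsIrrCharacter N ϑ) (d : ℕ) (hd : ϑ 1 = d) (hcop : Nat.Coprime N.index d) (hext : ∃ η : G → ℂ, Cfsg.IsIrrCharacter G η ∧ (∀ n : N, η n = ϑ n)) (μ : G → ℂ) (hμ : Cfsg.IsCharacter G μ ∧ μ 1 = 1) (hμN : ∀ n : N, μ n = Cfsg.detChar ϑ n) : ∃! χ : G → ℂ, Cfsg.IsIrrCharacter G χ ∧ (∀ n : N, χ n = ϑ n) ∧ Cfsg.detChar χ = μ := by
  obtain ⟨η, hη, h1⟩ := hext
  obtain ⟨ν, rfl⟩ := hμ.1.exists_monoidHom hμ.2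
  rw [← charDegree_eq_of_apply_one hd] at hcop
  obtain ⟨χ, hχ, h2, h3⟩ := H07.exists_ext_det N hcop hη h1 ν fun n => Units.ext (by
    rw [← H07.detChar_apply]; exact hμN n)
  refine ⟨χ, ⟨hχ, h2, by rw [H07.detChar_eq, h3]⟩, ?_⟩
  rintro ψ ⟨hψ, h4, h5⟩
  refine H07.ext_unique_of_det N hϑ hcop hψ.isCharacter h4 hχ.isCharacter h2 ?_
  rw [h3]
  apply monoidHom_coe_injective
  rw [H07.detChar_eq] at h5
  exact h5

end Cfsg.Agent.S0862
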