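import Mathlib
import Cfsg.Statements.S0865
import Cfsg.Agent.H07.LinExt

set_option autoImplicit false
open Cfsg
open H05

namespace Cfsg.Agent.S0865

/-- Let N be a normal subgroup of the finite group G and λ a character of N of degree 1, invariant under conjugation by G, whose order (under pointwise multiplication) is coprime to the index of N. Then there is a character μ of G of degree 1 restricting to λ with the same order as λ, and μ is the only degree-1 character of G restricting to λ whose order is coprime to the index of N. -/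
theorem result {G : Type*} [Group G] [Finite G] (N : Subgroup G) [hN : N.Normal] (lam : N → ℂ) (hlam : Cfsg.IsCharacter N lam ∧ lam 1 = 1) (hinv : ∀ (g : G) (n : N), lam ⟨g * n * g⁻¹, hN.conj_mem (n : G) n.2 g⟩ = lam n) (hcop : Nat.Coprime N.index (orderOf lam)) : ∃ μ : G → ℂ, (Cfsg.IsCharacter G μ ∧ μ 1 = 1 ∧ (∀ n : N, μ n = lam n) ∧ orderOf μ = orderOf lam) ∧ ∀ μ' : G → ℂ, Cfsg.IsCharacter G μ' ∧ μ' 1 = 1 → (∀ n : N, μ' n = lam n) → Nat.Coprime N.index (orderOf μ') → μ' = μ := by
  obtain ⟨φ, rfl⟩ := hlam.1.exists_monoidHom hlam.2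
  rw [H07.orderOf_coe_hom] at hcop ⊢
  obtain ⟨μ, hμ, hμk⟩ := H07.exists_ext_hom_of_coprime φ (fun g n => Units.ext (hinv g n))
    (pow_orderOf_eq_one φ) hcop
  have hord : orderOf μ = orderOf φ := by
    apply Nat.dvd_antisymm (orderOf_dvd_of_pow_eq_one (hμk _ (pow_orderOf_eq_one φ)))
    apply orderOf_dvd_of_pow_eq_one
    ext n
    rw [MonoidHom.pow_apply, ← hμ, ← MonoidHom.pow_apply, pow_orderOf_eq_one]
    rfl
  refine ⟨fun g => (μ g : ℂ), ⟨H05.isCharacter_monoidHom μ, by simp, fun n => by simp only [hμ], ?_⟩, ?_⟩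
  · rw [H07.orderOf_coe_hom, hord]
  · intro μ' hμ' hext hcop'
    obtain ⟨ψ, rfl⟩ := hμ'.1.exists_monoidHom hμ'.2
    rw [H07.orderOf_coe_hom] at hcop'
    have : ψ = μ := H07.hom_ext_unique_of_coprime (N := N) ψ μ
      (fun n => by rw [hμ]; exact Units.ext (hext n)) (k := orderOf ψ * orderOf μ)
      (by rw [pow_mul, pow_orderOf_eq_one, one_pow])
      (by rw [mul_comm, pow_mul, pow_orderOf_eq_one, one_pow])
      (Nat.Coprime.mul_right hcop' (hord ▸ hcop))
    rw [this]

end Cfsg.Agent.S0865
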