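import Mathlib
import Cfsg.Statements.S0869
import Cfsg.Agent.H07.PermChar

set_option autoImplicit false
open Cfsg

namespace Cfsg.Agent.S0869

/-- Let S be a nonempty finite type and R an additive subgroup of the integer-valued functions on S that is closed under pointwise multiplication. If the constant function 1 is not in R, then there exist a point x of S and a prime p such that p divides f x for every f in R. -/
theorem result {S : Type*} [Finite S] [Nonempty S] (R : AddSubgroup (S → ℤ)) (hmul : ∀ f ∈ R, ∀ g ∈ R, f * g ∈ R) (h1 : (1 : S → ℤ) ∉ R) : ∃ (x : S) (p : ℕ), p.Prime ∧ ∀ f ∈ R, (p : ℤ) ∣ f x := by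
  classical
  let _ := Fintype.ofFinite S
  by_contra hcon
  push Not at hcon
  have hex : ∀ x : S, ∃ f ∈ R, f x = 1 := by
    intro x
    obtain ⟨a, ha⟩ := Int.subgroup_cyclic (R.map (Pi.evalAddMonoidHom (fun _ : S => ℤ) x))
    have h1 : a.natAbs = 1 := by
      by_contra hne
      obtain ⟨p, hp, hpa⟩ := Nat.exists_prime_and_dvd hne
      obtain ⟨f, hf, hpf⟩ := hcon x p hp
      apply hpf
      have : f x ∈ R.map (Pi.evalAddMonoidHom (fun _ : S => ℤ) x) := ⟨f, hf, rfl⟩
      rw [ha, AddSubgroup.mem_closure_singleton] at this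
      obtain ⟨n, hn⟩ := this
      rw [← hn, smul_eq_mul]
      exact Dvd.dvd.mul_left (Int.natCast_dvd.mpr hpa) n
    have : (1 : ℤ) ∈ R.map (Pi.evalAddMonoidHom (fun _ : S => ℤ) x) := by
      rw [ha, AddSubgroup.mem_closure_singleton]
      rcases Int.natAbs_eq_iff.mp h1 with h | h
      · exact ⟨1, by simp [h]⟩
      · exact ⟨-1, by simp [h]⟩
    obtain ⟨f, hf, hfx⟩ := this
    exact ⟨f, hf, hfx⟩
  choose f hf hfx using hex
  have := H07.prod_const_mem R hmul f hf (fun _ => 1) (by simpa using hfx)
  apply h1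
  convert this using 1
  ext; simp

end Cfsg.Agent.S0869
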