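import Mathlib
import Cfsg.Statements.S0874
import Cfsg.Agent.H07.BrauerLocal

set_option autoImplicit false
open Cfsg

namespace Cfsg.Agent.S0874

/-- For a finite group G and a prime p there are an integer m not divisible by p and a list of triples (E, φ, c), with E a p-elementary subgroup, φ a character of E and c an integer, such that the constant function m on G equals the sum of the c • (function induced from φ). -/
theorem result {G : Type*} [Group G] [Fintype G] (p : ℕ) (hp : p.Prime) : ∃ (m : ℤ) (l : List ((E : Subgroup G) × ((E → ℂ) × ℤ))), ¬ (p : ℤ) ∣ m ∧ (∀ t ∈ l, Cfsg.IsElementary p t.1 ∧ Cfsg.IsCharacter t.1 t.2.1) ∧ (fun _ : G => (m : ℂ)) = (l.map fun t => (t.2.2 : ℂ) • Cfsg.indFun t.1 t.2.1).sum := by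
  obtain ⟨m, hm, h⟩ := H07.brauer_local (G := G) hp
  obtain ⟨l, hl, hsum⟩ := H07.exists_list_of_mem_closure
    (fun t : (E : Subgroup G) × (E → ℂ) => Cfsg.IsElementary p t.1 ∧ Cfsg.IsCharacter t.1 t.2)
    (fun t => Cfsg.indFun t.1 t.2) h
  refine ⟨m, l.map fun t => ⟨t.1.1, t.1.2, t.2⟩, hm, ?_, ?_⟩
  · intro t ht
    obtain ⟨s, hs, rfl⟩ := List.mem_map.mp ht
    exact hl s hs
  · rw [hsum, List.map_map]
    congr 1
    refine List.map_congr_left fun t _ => ?_
    simp only [Function.comp, Int.cast_smul_eq_zsmul]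

end Cfsg.Agent.S0874
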