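import Mathlib
import Cfsg.Statements.S0875
import Cfsg.Agent.H07.Part

set_option autoImplicit false
open Cfsg
open H05 H06 Cfsg H07
open scoped ComplexConjugate

namespace Cfsg.Agent.S0875

/-- Let G be a finite group of order m * n with m and n coprime, and g an element whose order is coprime to m. Every x in G factors uniquely as x = u * v with u, v commuting, the order of u coprime to n and the order of v coprime to m; let ϑ be the function on G equal to n at those x whose factor v is conjugate to g and equal to 0 elsewhere. Then ϑ is a linear combination of the irreducible characters of G with algebraic-integer coefficients. -/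
theorem result {G : Type*} [Group G] [Fintype G] (m n : ℕ) (hmn : Nat.card G = m * n) (hcop : Nat.Coprime m n) (g : G) (hg : Nat.Coprime (orderOf g) m) (ϑ : G → ℂ) (hϑ1 : ∀ x : G, (∃ v : G, IsConj v g ∧ (∃ u : G, x = u * v ∧ Commute u v ∧ Nat.Coprime (orderOf u) n ∧ Nat.Coprime (orderOf v) m)) → ϑ x = n) (hϑ0 : ∀ x : G, (¬ ∃ v : G, IsConj v g ∧ (∃ u : G, x = u * v ∧ Commute u v ∧ Nat.Coprime (orderOf u) n ∧ Nat.Coprime (orderOf v) m)) → ϑ x = 0) : ∃ c : Cfsg.IrrCharacter G → ℂ, (∀ χ, c χ ∈ Cfsg.AlgInt) ∧ ϑ = ∑ᶠ χ : Cfsg.IrrCharacter G, c χ • (χ : G → ℂ) := by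
  classical
  obtain ⟨e, he⟩ := exists_pExp hcop
  have h0 : ∀ x : G, orderOf x ∣ m * n := fun x => hmn ▸ orderOf_dvd_natCard x
  have h1 : ϑ = fun x => if IsConj g (x ^ e) then (n : ℂ) else 0 := funext fun x => by
    split_ifs with h
    · exact hϑ1 x ⟨_, h.symm, x * (x ^ e)⁻¹, by simp,
        ((Commute.refl x).pow_right e).mul_left (Commute.refl _).inv_left,
        hcop.coprime_dvd_left (he.orderOf_mul_inv_dvd (h0 x)),
        hcop.symm.coprime_dvd_left (he.orderOf_pow_dvd (h0 x))⟩
    · refine hϑ0 x fun ⟨v, h2, u, h3, h4, h5, h6⟩ => h ?_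
      rw [h3, he.pow_mul_eq h4 (h5.dvd_of_dvd_mul_right (h0 u)) (h6.dvd_of_dvd_mul_left (h0 v))]
      exact h2.symm
  have h2 : IsClassFunction G ϑ := h1 ▸ (isClassFunction_ite_isConj g (n : ℂ) 0).pow_comp e
  let A : AddSubgroup (G → ℂ) :=
    { carrier := {f | ∀ χ : IrrCharacter G, classInner f χ.1 ∈ AlgInt}
      add_mem' := fun ha hb χ => by rw [H05.classInner_add_left]; exact add_mem (ha χ) (hb χ)
      zero_mem' := fun χ => by simp
      neg_mem' := fun ha χ => by rw [H05.classInner_neg_left]; exact neg_mem (ha χ) }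
  refine ⟨fun χ => classInner ϑ χ.1, brauer_induction_mem_addSubgroup A h2 fun E p hp hE φ hφ χ => ?_, by
    rw [finsum_eq_sum_of_fintype]; exact h2.eq_sum⟩
  have := hE.isNilpotent hp
  have h3 : Nat.card E ∣ m * n := hmn ▸ E.card_subgroup_dvd_card
  let K := (he.proj h3).ker
  obtain ⟨η, h4, h5, -⟩ := exists_cosetAvg K (hφ.mul (χ.2.conj.isCharacter.restrict E))
  obtain ⟨c, hc⟩ := he.card_range_proj h3
  rw [← Subgroup.index_ker] at hc
  rw [frobenius_reciprocity E _ _ χ.2.isClassFunction, classInner_def, sum_eq_sum_quotient_sum K, Finset.mul_sum]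
  refine sum_mem fun q _ => ?_
  have h6 : ∀ k : K, φ (q.out * k) * ϑ (q.out * k : E) * conj (χ.1 (q.out * k : E)) =
      ϑ q.out * (φ * fun x : E => conj (χ.1 x)) (k * q.out) := fun k => by
    rw [(hφ.mul (χ.2.conj.isCharacter.restrict E)).apply_mul_comm, h1]
    simp only [← Subgroup.coe_pow, he.mul_pow h3, show (k : E) ^ e = 1 from k.2, mul_one, Pi.mul_apply]
    ring
  simp only [h6, ← Finset.mul_sum, h5]
  rw [← K.card_mul_index, h1]
  have := natCard_ne_zero K
  have : (K.index : ℂ) ≠ 0 := Nat.cast_ne_zero.2 Subgroup.index_ne_zero_of_finite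
  beta_reduce
  split_ifs
  · convert mul_mem (natCast_mem AlgInt c) (h4.isIntegral (q.out : E ⧸ K)) using 1
    rw [hc]; push_cast; field_simp; rfl
  · simp

end Cfsg.Agent.S0875
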