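import Mathlib
import Cfsg.Statements.S0876
import Cfsg.Agent.H21.RComb

set_option autoImplicit false
open Cfsg
open H05

namespace Cfsg.Agent.S0876

/-- Let G be a finite group, p a prime and M a maximal ideal of the ring of algebraic integers containing p. Let x, y be elements with p-parts a and b (so a⁻¹ * x and b⁻¹ * y are their p-regular parts). Then a⁻¹ * x and b⁻¹ * y are conjugate in G if and only if, for every irreducible character χ, the difference χ x - χ y lies in the local ideal at M. -/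
theorem result {G : Type*} [Group G] [Finite G] (p : ℕ) (M : Ideal Cfsg.AlgInt) (hM : Cfsg.IsPModular p M) (x y a b : G) (ha : Cfsg.IsPPart p x a) (hb : Cfsg.IsPPart p y b) : IsConj (a⁻¹ * x) (b⁻¹ * y) ↔ ∀ χ : Cfsg.IrrCharacter G, Cfsg.MemLocalIdeal M ((χ : G → ℂ) x - (χ : G → ℂ) y) := by
  have := Fact.mk hM.1
  have := hM.2.1
  classical
  obtain rfl := H21.isPPart_iff.1 ha
  obtain rfl := H21.isPPart_iff.1 hb
  have h1 : ∀ x : G, (H21.pPart p x)⁻¹ * x = H21.pReg p x := fun x =>
    inv_mul_eq_iff_eq_mul.2 (H21.pPart_mul_pReg p x).symm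
  rw [h1, h1]
  refine ⟨fun h χ => H21.ideal_sub_trans ((H21.isRComb_irr χ).ideal_sub_pReg hM x) ?_, fun h => ?_⟩
  · rw [χ.2.isClassFunction.isConj h]
    exact H21.ideal_sub_comm.1 ((H21.isRComb_irr χ).ideal_sub_pReg hM y)
  · obtain ⟨c, h2, h3⟩ := H21.isRComb_comp_pReg hM (H05.isClassFunction_ite_isConj (H21.pReg p x) 1 0)
      fun g _ => by split_ifs; exacts [H21.ring_one, H21.ring_zero]
    by_contra h4
    have h5 := H21.ideal_sum (s := Finset.univ) fun χ _ => H21.ideal_mul_left (h2 χ) (h χ)
    have h6 := congrFun h3 x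
    have h7 := congrFun h3 y
    simp only [IsConj.refl, if_true, if_neg h4, Finset.sum_apply, Pi.smul_apply, smul_eq_mul] at h6 h7
    simp only [mul_sub, Finset.sum_sub_distrib, ← h6, ← h7, sub_zero] at h5
    exact H21.not_ideal_one h5

end Cfsg.Agent.S0876
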