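import Mathlib
import Cfsg.Statements.S0879
import Cfsg.Agent.H07.Zass

set_option autoImplicit false
open Cfsg

namespace Cfsg.Agent.S0879

/-- Let G be a Zassenhaus group on the finite set Ω and E the stabilizer of two distinct points a, b. Then an element outside the normalizer of E conjugates no non-identity element of E into E, and E has index 2 in its normalizer. -/
theorem result {G Ω : Type*} [Group G] [Finite G] [MulAction G Ω] [Fintype Ω] (hZ : Cfsg.IsZassenhausGroup G Ω) {a b : Ω} (hab : a ≠ b) : (∀ g : G, g ∉ Subgroup.normalizer ((MulAction.stabilizer G a ⊓ MulAction.stabilizer G b : Subgroup G) : Set G) → ∀ x ∈ (MulAction.stabilizer G a ⊓ MulAction.stabilizer G b : Subgroup G), g * x * g⁻¹ ∈ (MulAction.stabilizer G a ⊓ MulAction.stabilizer G b : Subgroup G) → x = 1) ∧ ((MulAction.stabilizer G a ⊓ MulAction.stabilizer G b : Subgroup G).subgroupOf (Subgroup.normalizer ((MulAction.stabilizer G a ⊓ MulAction.stabilizer G b : Subgroup G) : Set G))).index = 2 := by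
  refine ⟨fun g hg x hx hgx => ?_, ?_⟩
  · rw [H07.Zass.mem_normalizer_two_iff hZ hab] at hg
    have hxa : x • a = a := hx.1
    have hxb : x • b = b := hx.2
    have h1 : x • g⁻¹ • a = g⁻¹ • a := by
      have : (g * x * g⁻¹) • a = a := hgx.1
      rwa [mul_smul, mul_smul, smul_eq_iff_eq_inv_smul] at this
    have h2 : x • g⁻¹ • b = g⁻¹ • b := by
      have : (g * x * g⁻¹) • b = b := hgx.2
      rwa [mul_smul, mul_smul, smul_eq_iff_eq_inv_smul] at this
    by_contra hx1
    have key : ∀ c, x • c = c → c = a ∨ c = b := by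
      intro c hc
      by_contra h
      push Not at h
      exact hx1 (H07.Zass.eq_one_of_three hZ hab h.2.symm h.1.symm hxa hxb hc)
    have hne : g⁻¹ • a ≠ g⁻¹ • b := fun h => hab (smul_left_cancel g⁻¹ h)
    apply hg
    rcases key _ h1 with h | h <;> rcases key _ h2 with h' | h'
    · exact absurd (h.trans h'.symm) hne
    · exact Or.inl ⟨(inv_smul_eq_iff.mp h).symm, (inv_smul_eq_iff.mp h').symm⟩
    · exact Or.inr ⟨(inv_smul_eq_iff.mp h').symm, (inv_smul_eq_iff.mp h).symm⟩
    · exact absurd (h.trans h'.symm) hne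
  · obtain ⟨t, hta, htb⟩ := H07.Zass.exists_smul_pair hZ hab hab.symm
    rw [Subgroup.index_eq_two_iff]
    refine ⟨⟨t, (H07.Zass.mem_normalizer_two_iff hZ hab t).mpr (Or.inr ⟨hta, htb⟩)⟩, ?_⟩
    rintro ⟨g, hg⟩
    have hg' := (H07.Zass.mem_normalizer_two_iff hZ hab g).mp hg
    simp only [Subgroup.mem_subgroupOf, Subgroup.coe_mul, Subgroup.mem_inf,
      MulAction.mem_stabilizer_iff, mul_smul, hta, htb]
    rcases hg' with ⟨h1, h2⟩ | ⟨h1, h2⟩
    · rw [h1, h2]
      exact Or.inr ⟨⟨rfl, rfl⟩, fun h => hab h.2⟩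
    · rw [h1, h2]
      exact Or.inl ⟨⟨rfl, rfl⟩, fun h => hab h.2⟩

end Cfsg.Agent.S0879
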