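import Mathlib
import Cfsg.Statements.S0885
import Cfsg.Agent.H18.Feit3
import Cfsg.Agent.H02.Thompson

set_option autoImplicit false
open scoped Pointwise
open Cfsg

namespace Cfsg.Agent.S0885

/-- Let G be a finite Zassenhaus group on Ω with h + 1 points whose two-point stabilizer E has odd order e, and let H be the subgroup of the stabilizer of a consisting of the identity and the elements fixing no point other than a (given here as a subgroup of the stabilizer of order one less than the number of points whose non-identity elements fix only a; it is the Frobenius kernel of the stabilizer). Then either h - 1 ≤ 2 * e, or H is a non-abelian 2-group whose commutator subgroup has index at most 4 * e ^ 2 + 1 in H. -/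
theorem result {G Ω : Type*} [Group G] [Finite G] [MulAction G Ω] [Fintype Ω] (hZ : Cfsg.IsZassenhausGroup G Ω) {a b : Ω} (hab : a ≠ b) (h e : ℕ) (hh : Fintype.card Ω = h + 1) (he : Nat.card ↥(MulAction.stabilizer G a ⊓ MulAction.stabilizer G b : Subgroup G) = e) (hodd : Odd e) (H : Subgroup G) (hHa : H ≤ MulAction.stabilizer G a) (hHcard : Nat.card H + 1 = Fintype.card Ω) (hHfix : ∀ u ∈ H, u ≠ 1 → ∀ c : Ω, u • c = c → c = a) : h - 1 ≤ 2 * e ∨ (IsPGroup 2 H ∧ (∃ u v : H, u * v ≠ v * u) ∧ (commutator H).index ≤ 4 * e ^ 2 + 1) := by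
  have hF := H18.isKer_of_card hZ hHa hHcard hHfix
  have hle := Nat.le_of_dvd Nat.card_pos (H18.card_st2_dvd (Subgroup.normalClosure (H : Set G)) a b)
  change Nat.card (H18.st2 G a b) = e at he
  rw [he] at hle
  rcases H18.zass_feit_closure hZ hab (he ▸ hodd) hF (H02.isNilpotent_of_fpf_subgroup (hF.st2_le_normalizer b)
    (H18.zass_st2_ne_bot hZ hab) (hF.fpf (H18.Z3.of_zass hZ) hab)) with h1 | ⟨h1, h2, h3⟩
  · left; omega
  · exact Or.inr ⟨h1, h2, h3.trans (by gcongr)⟩

end Cfsg.Agent.S0885
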