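import Mathlib
import Cfsg.Statements.S0893
import Cfsg.Agent.H07.Ch6

set_option autoImplicit false
open Cfsg
open H05 H06 Cfsg H07

namespace Cfsg.Agent.S0893

/-- Let P be an extraspecial p-group of order p ^ (2 * n + 1), A an abelian subgroup of order p ^ (n + 1), and λ a character of A of degree 1 that is not identically 1 on the elements of A lying in the centre of P. Then the function induced from λ to P is an irreducible character of P and vanishes at every element outside the centre. -/
theorem result {P : Type*} [Group P] [Fintype P] (p n : ℕ) [Fact p.Prime] (hP : Cfsg.IsExtraspecial p P) (hcard : Nat.card P = p ^ (2 * n + 1)) (A : Subgroup P) (hab : ∀ a ∈ A, ∀ b ∈ A, a * b = b * a) (hA : Nat.card A = p ^ (n + 1)) (lam : A → ℂ) (hlam : Cfsg.IsCharacter A lam ∧ lam 1 = 1) (hZ : ∃ a : A, (a : P) ∈ Subgroup.center P ∧ lam a ≠ 1) : Cfsg.IsIrrCharacter P (Cfsg.indFun A lam) ∧ ∀ x : P, x ∉ Subgroup.center P → Cfsg.indFun A lam x = 0 := by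
  classical
  obtain ⟨a, ha, ha'⟩ := hZ
  have h0 := hlam.1.isIrr_of_apply_one hlam.2
  obtain ⟨χ, h1, h2⟩ := H06.exists_irr_over A h0
  have h3 : Cfsg.charDegree χ ≠ 1 := fun h => ha' ((H07.apply_eq_of_constituent (h1.isCharacter.restrict A) h0 h2
    (h1.isCharacter.mem_charKer.1 ((H07.commutator_le_charKer_iff h1).2 ((H07.deg_eq_one_iff h1.isCharacter).1 h)
      (hP.1.2.2 ▸ ha)))).trans hlam.2)
  have h4 : A.index = p ^ n := by
    have := A.index_mul_card
    rw [hA, hcard, show 2 * n + 1 = n + (n + 1) by ring, pow_add p n (n + 1)] at this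
    exact Nat.eq_of_mul_eq_mul_right (pow_pos (Fact.out : p.Prime).pos _) this
  have h5 : Cfsg.indFun A lam = χ := H06.eq_of_constituent_of_degree (H06.isCharacter_indFun A hlam.1) h1
    (by rwa [H06.frobenius_reciprocity _ _ _ h1.isClassFunction, H06.classInner_ne_zero_comm])
    (by rw [H06.indFun_one, hlam.2, mul_one, h4, ← h1.charDegree_eq, H07.es_deg hP hcard h1 h3])
  rw [h5]
  exact ⟨h1, fun x hx => H07.apply_eq_zero_of_commutator_le h1 (hP.1.2.2.le.trans center_le_charCenter)
    (by rwa [H06.charCenter_eq_center (H07.es_faithful hP h1 h3)])⟩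

end Cfsg.Agent.S0893
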