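import Mathlib
import Cfsg.Statements.S0894
import Cfsg.Agent.H07.Ch6

set_option autoImplicit false
open Cfsg
open H05 H06 Cfsg H07

namespace Cfsg.Agent.S0894

/-- Let P be an extraspecial p-group of order p ^ (2 * n + 1). Then every irreducible character of P has degree 1 or p ^ n, and exactly p - 1 of them have degree p ^ n. -/
theorem result {P : Type*} [Group P] [Finite P] (p n : ℕ) [Fact p.Prime] (hP : Cfsg.IsExtraspecial p P) (hcard : Nat.card P = p ^ (2 * n + 1)) : (∀ χ : Cfsg.IrrCharacter P, (χ : P → ℂ) 1 = 1 ∨ (χ : P → ℂ) 1 = (p : ℂ) ^ n) ∧ Nat.card {χ : Cfsg.IrrCharacter P // (χ : P → ℂ) 1 = (p : ℂ) ^ n} = p - 1 := by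
  have h1 : ∀ χ : Cfsg.IrrCharacter P, Cfsg.charDegree χ.1 ≠ 1 → χ.1 1 = (p : ℂ) ^ n := fun χ h => by
    rw [← χ.2.charDegree_eq, H07.es_deg hP hcard χ.2 h, Nat.cast_pow]
  refine ⟨fun χ => (em _).imp (H07.deg_eq_one_iff χ.2.isCharacter).1 (h1 χ), ?_⟩
  rw [← H07.es_card hP]
  refine Nat.card_congr (Equiv.subtypeEquivRight fun χ => ⟨fun h h' => ?_, h1 χ⟩)
  rw [← χ.2.charDegree_eq, h', ← Nat.cast_pow, Nat.cast_inj] at h
  have h2 := H07.es_index hP hcard
  rw [← h, one_pow, Subgroup.index_eq_one] at h2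
  haveI : Nontrivial P := Finite.one_lt_card_iff_nontrivial.1 (hcard ▸ Nat.one_lt_pow (by omega) (Fact.out : p.Prime).one_lt)
  haveI := hP.1.1.isNilpotent
  exact (Group.IsSolvable.commutator_lt_top_of_nontrivial P).ne (hP.1.2.2.trans h2)

end Cfsg.Agent.S0894
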