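import Mathlib
import Cfsg.Statements.S0895
import Cfsg.Agent.H21.FS

set_option autoImplicit false
open Cfsg
open H05

namespace Cfsg.Agent.S0895

/-- Let χ be a real-valued irreducible character of a finite group G whose degree is an odd natural number. Then the average over s in G of χ (s * s) equals 1. -/
theorem result {G : Type*} [Group G] [Fintype G] (χ : G → ℂ) (hχ : Cfsg.IsIrrCharacter G χ) (hreal : ∀ g : G, (χ g).im = 0) (d : ℕ) (hd : χ 1 = d) (hodd : Odd d) : (Nat.card G : ℂ)⁻¹ * ∑ s : G, χ (s * s) = 1 := by
  exact H21.fsIndicator_of_odd hχ hreal (by rwa [charDegree_eq_of_apply_one hd])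

end Cfsg.Agent.S0895
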