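import Mathlib
import Cfsg.Statements.S0897
import Cfsg.Agent.H07.Ch6

set_option autoImplicit false
open Cfsg
open H05 H06 Cfsg H07

namespace Cfsg.Agent.S0897

/-- Let N be a normal subgroup of the finite group G with the index of N a power of the prime p, and P a Sylow p-subgroup of G such that P ⊓ N lies in the centre of P and every character of degree 1 of P ⊓ N is the restriction of a character of degree 1 of P. Then every irreducible character of N invariant under conjugation by G is the restriction of an irreducible character of G. -/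
theorem result {G : Type*} [Group G] [Fintype G] (p : ℕ) [Fact p.Prime] (N : Subgroup G) [hN : N.Normal] (hind : ∃ k : ℕ, N.index = p ^ k) (P : Sylow p G) (hcent : ∀ x ∈ (P : Subgroup G) ⊓ N, ∀ y ∈ (P : Subgroup G), x * y = y * x) (hlin : ∀ lam : ↥((P : Subgroup G) ⊓ N) → ℂ, Cfsg.IsCharacter ↥((P : Subgroup G) ⊓ N) lam → lam 1 = 1 → ∃ μ : ↥(P : Subgroup G) → ℂ, Cfsg.IsCharacter ↥(P : Subgroup G) μ ∧ μ 1 = 1 ∧ ∀ x : ↥((P : Subgroup G) ⊓ N), μ ⟨(x : G), x.2.1⟩ = lam x) (ϑ : N → ℂ) (hϑ : Cfsg.IsIrrCharacter N ϑ) (hinv : ∀ (g : G) (n : N), ϑ ⟨g * n * g⁻¹, hN.conj_mem (n : G) n.2 g⟩ = ϑ n) : ∃ χ : G → ℂ, Cfsg.IsIrrCharacter G χ ∧ ∀ n : N, χ n = ϑ n := by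
  obtain ⟨k, hk⟩ := hind
  refine H07.ext_of_dade N hk P (eq_bot_iff.2 fun x hx => ?_) hϑ fun g => funext (hinv g)
  have h1 : x ∈ (P : Subgroup G) := Subgroup.commutator_le_self _ hx.1
  haveI : IsMulCommutative ((P : Subgroup G) ⊓ N : Subgroup G) := ⟨⟨fun a b => Subtype.ext (hcent _ a.2 _ b.2.1)⟩⟩
  by_contra hne
  obtain ⟨φ, hφ⟩ := H07.exists_hom_apply_ne_one (G := ((P : Subgroup G) ⊓ N : Subgroup G)) (x := ⟨x, h1, hx.2⟩) (by
    rw [(commutator_eq_bot_iff _).2 this]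
    exact fun h => hne (congrArg Subtype.val (Subgroup.mem_bot.1 h)))
  obtain ⟨μ, h2, h3, h4⟩ := hlin _ (isCharacter_monoidHom φ) (by simp)
  have h5 := h2.mem_charKer.1 ((H07.commutator_le_charKer_iff (h2.isIrr_of_apply_one h3)).2 h3 (x := ⟨x, h1⟩) (by
    have := hx.1
    rw [← Subgroup.map_subtype_commutator] at this
    obtain ⟨y, hy, e⟩ := this
    exact (Subtype.ext e : y = ⟨x, h1⟩) ▸ hy))
  exact hφ (Units.ext ((h4 _).symm.trans (h5.trans h3)))

end Cfsg.Agent.S0897
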