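import Mathlib
import Cfsg.Statements.S0900
import Cfsg.Agent.H07.Gallagher

set_option autoImplicit false
open Cfsg
open H05 Cfsg

namespace Cfsg.Agent.S0900

/-- Let N be a normal subgroup of the finite group G, χ an irreducible character of G and ϑ an irreducible character of N having nonzero inner product with the restriction of χ. Consider: (a) the restriction of χ to N is e • ϑ for a natural number e with e ^ 2 equal to the index of N; (b) χ vanishes outside N and ϑ is invariant under conjugation by G; (c) ϑ is invariant and every irreducible character of G having nonzero inner product with the function induced from ϑ equals χ. Then (a) ↔ (b) and (a) ↔ (c). -/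
theorem result {G : Type*} [Group G] [Fintype G] (N : Subgroup G) [hN : N.Normal] [Fintype N] (χ : G → ℂ) (hχ : Cfsg.IsIrrCharacter G χ) (ϑ : N → ℂ) (hϑ : Cfsg.IsIrrCharacter N ϑ) (hcon : Cfsg.classInner (fun n : N => χ n) ϑ ≠ 0) : ((∃ e : ℕ, (fun n : N => χ n) = (e : ℂ) • ϑ ∧ e ^ 2 = N.index) ↔ ((∀ g : G, g ∉ N → χ g = 0) ∧ ∀ (g : G) (n : N), ϑ ⟨g * n * g⁻¹, hN.conj_mem (n : G) n.2 g⟩ = ϑ n)) ∧ ((∃ e : ℕ, (fun n : N => χ n) = (e : ℂ) • ϑ ∧ e ^ 2 = N.index) ↔ (∀ (g : G) (n : N), ϑ ⟨g * n * g⁻¹, hN.conj_mem (n : G) n.2 g⟩ = ϑ n ∧ ∀ ψ : G → ℂ, Cfsg.IsIrrCharacter G ψ → Cfsg.classInner (Cfsg.indFun N ϑ) ψ ≠ 0 → ψ = χ)) := by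
  have key : ∀ ψ : G → ℂ, IsIrrCharacter G ψ →
      (classInner (indFun N ϑ) ψ ≠ 0 ↔ classInner (fun n : N => ψ n) ϑ ≠ 0) := fun β hβ => by
    rw [H06.frobenius_reciprocity _ _ _ hβ.isClassFunction, H06.classInner_ne_zero_comm]
  constructor
  · constructor
    · rintro ⟨e, he, h⟩
      exact ⟨(H07.fullyRamified_iff_vanish N hχ hϑ he).mp h,
        (H07.conjFun_eq_iff N).mp (H07.conjFun_eq_of_res_eq_smul N hχ he)⟩
    · rintro ⟨h1, h2⟩
      obtain ⟨e, -, -, he⟩ := H07.exists_res_eq_smul N hχ hϑ hcon ((H07.conjFun_eq_iff N).mpr h2)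
      exact ⟨e, he, (H07.fullyRamified_iff_vanish N hχ hϑ he).mpr h1⟩
  · constructor
    · rintro ⟨e, he, h⟩ g n
      exact ⟨(H07.conjFun_eq_iff N).mp (H07.conjFun_eq_of_res_eq_smul N hχ he) g n,
        fun ψ hψ h1 => (H07.fullyRamified_iff_unique N hχ hϑ he).mp h ψ hψ ((key ψ hψ).mp h1)⟩
    · intro h
      obtain ⟨e, -, -, he⟩ := H07.exists_res_eq_smul N hχ hϑ hcon
        ((H07.conjFun_eq_iff N).mpr fun g n => (h g n).1)
      exact ⟨e, he, (H07.fullyRamified_iff_unique N hχ hϑ he).mpr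
        fun ψ hψ h1 => (h 1 1).2 ψ hψ ((key ψ hψ).mpr h1)⟩

end Cfsg.Agent.S0900
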