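import Mathlib
import Cfsg.Statements.S0901
import Cfsg.Agent.H21.Residue

set_option autoImplicit false
open Cfsg

namespace Cfsg.Agent.S0901

/-- Let M be a maximal ideal of the ring of algebraic integers containing the prime p, and let U be the set of complex roots of unity of order prime to p. Then reduction modulo M is injective on U, and every algebraic integer not in M is congruent modulo M to an element of U (so U maps bijectively onto the nonzero residues). -/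
theorem result (p : ℕ) [Fact p.Prime] (M : Ideal Cfsg.AlgInt) (hM : Cfsg.IsPModular p M) : (∀ ε₁ ε₂ : Cfsg.AlgInt, (∃ m : ℕ, ¬ p ∣ m ∧ (ε₁ : ℂ) ^ m = 1) → (∃ m : ℕ, ¬ p ∣ m ∧ (ε₂ : ℂ) ^ m = 1) → ε₁ - ε₂ ∈ M → ε₁ = ε₂) ∧ (∀ a : Cfsg.AlgInt, a ∉ M → ∃ ε : Cfsg.AlgInt, (∃ m : ℕ, ¬ p ∣ m ∧ (ε : ℂ) ^ m = 1) ∧ a - ε ∈ M) := by
  have := hM.2.1
  constructor
  · rintro ε₁ ε₂ ⟨m₁, h₁, e₁⟩ ⟨m₂, h₂, e₂⟩ h
    exact Subtype.ext (H21.root_eq_of_congr hM h₁ e₁ h₂ e₂ (H21.ideal_coe_iff.2 h))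
  · intro a ha
    obtain ⟨ζ, ⟨m, hm, h1⟩, h2⟩ := H21.exists_root_congr hM (H21.ring_coe a)
      (H21.ideal_coe_iff.not.2 ha)
    have hm0 : m ≠ 0 := by rintro rfl; exact hm (dvd_zero p)
    exact ⟨⟨ζ, H21.isIntegral_of_pow_eq_one hm0 h1⟩, ⟨m, hm, h1⟩, H21.ideal_coe_iff.1 h2⟩

end Cfsg.Agent.S0901
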