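import Mathlib
import Cfsg.Agent.H20.GA
-- Template for statement S0903 (row 903; see /opt/grader/pristine/manifest.json for weights).
-- Copy to Cfsg/Agent/S0903.lean and replace the sorry. The statement below is byte-identical to the frozen
-- statement Cfsg.CfsgFrozen.S0903 (Cfsg/Statements/S0903.lean; the theorem Cfsg.brauer_map_pair_count_congruence);
-- the grader kernel-checks Cfsg.Agent.S0903.result against that frozen type. Keep the theorem IN THIS FILE
-- (a `result` declared elsewhere and merely imported here is not credited); helpers may live anywhere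
-- under Cfsg/Agent/.
import Cfsg.Statements.S0903
-- import your own Cfsg.Agent.* helpers here

set_option autoImplicit false
open Cfsg

open H20 MonoidAlgebra

namespace Cfsg.Agent.S0903

/-- Let P be a p-subgroup of the finite group G, let c centralize P and let g, h ∈ G. The number of pairs (x, y) with x conjugate to g, y conjugate to h and x * y = c is congruent modulo p to the number of such pairs in which x and y both centralize P. (This is why the Brauer map on class sums is multiplicative.) -/
theorem result {G : Type*} [Group G] [Finite G] (p : ℕ) [Fact p.Prime] (P : Subgroup G) (hP : IsPGroup p P) (c : G) (hc : c ∈ Subgroup.centralizer (P : Set G)) (g h : G) : Nat.card {xy : G × G // IsConj g xy.1 ∧ IsConj h xy.2 ∧ xy.1 * xy.2 = c} ≡ Nat.card {xy : G × G // IsConj g xy.1 ∧ IsConj h xy.2 ∧ xy.1 * xy.2 = c ∧ xy.1 ∈ Subgroup.centralizer (P : Set G) ∧ xy.2 ∈ Subgroup.centralizer (P : Set G)} [MOD p] := by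
  classical
  have := Fintype.ofFinite G
  have key : ∀ (S T : Set G), ((setSum (ZMod p) S * setSum (ZMod p) T).coeff c) =
      (Nat.card {xy : G × G // xy.1 ∈ S ∧ xy.2 ∈ T ∧ xy.1 * xy.2 = c} : ZMod p) := by
    intro S T
    rw [coeff_mul_left]
    have e : {xy : G × G // xy.1 ∈ S ∧ xy.2 ∈ T ∧ xy.1 * xy.2 = c} ≃ {x : G // x ∈ S ∧ x⁻¹ * c ∈ T} :=
      { toFun := fun xy => ⟨xy.1.1, xy.2.1, (inv_mul_eq_iff_eq_mul.2 xy.2.2.2.symm).symm ▸ xy.2.2.1⟩
        invFun := fun x => ⟨(x.1, x.1⁻¹ * c), x.2.1, x.2.2, by simp⟩
        left_inv := by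
          rintro ⟨⟨x, y⟩, h1, h2, h3⟩
          simp only [Subtype.mk.injEq, Prod.mk.injEq, true_and]
          rw [← h3]; simp
        right_inv := fun x => rfl }
    rw [Nat.card_congr e, Nat.card_eq_fintype_card, Fintype.card_subtype, Finset.card_filter]
    push_cast
    refine Finset.sum_congr rfl fun x _ => ?_
    rw [coeff_setSum, coeff_setSum]
    by_cases h1 : x ∈ S <;> by_cases h2 : x⁻¹ * c ∈ T <;> simp [h1, h2]
  have h1 := trunc_centralizer_mul (k := ZMod p) hP ((isCen_classSum g).cInv _)
    ((isCen_classSum h).cInv _)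
  have h2 := congrArg (fun a : (ZMod p)[G] => a.coeff c) h1
  simp only [coeff_trunc_of_mem _ hc, classSum, trunc_setSum, key] at h2
  rw [← ZMod.natCast_eq_natCast_iff]
  refine h2.trans ?_
  congr 1
  refine Nat.card_congr (Equiv.subtypeEquivRight fun xy => ?_)
  simp only [Set.mem_inter_iff, SetLike.mem_coe, Set.mem_ofPred_eq]
  tauto

end Cfsg.Agent.S0903
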