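import Mathlib
import Cfsg.Statements.S0910
import Cfsg.Agent.H21.Principal
import Cfsg.Agent.H05.Burnside

set_option autoImplicit false
open Cfsg

namespace Cfsg.Agent.S0910
open H05 Cfsg H20 H21 MonoidAlgebra Classical
open scoped ComplexConjugate

/-- Let G be a non-abelian finite simple group and p a prime. If an irreducible character χ lies in the principal block (relative to a maximal ideal of the algebraic integers containing p) and χ 1 is a power of p, then χ is the principal character. -/
theorem result {G : Type*} [Group G] [Finite G] (p : ℕ) [Fact p.Prime] (M : Ideal Cfsg.AlgInt) (hM : Cfsg.IsPModular p M) [IsSimpleGroup G] (hna : ∃ a b : G, a * b ≠ b * a) (χ : Cfsg.IrrCharacter G) (hχ : χ ∈ Cfsg.principalBlock M G) (k : ℕ) (hdeg : (χ : G → ℂ) 1 = (p : ℂ) ^ k) : (χ : G → ℂ) = fun _ => 1 := by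
  have hdeg' : charDegree (χ : G → ℂ) = p ^ k := charDegree_eq_of_apply_one (by rw [hdeg]; simp)
  have hcenter : charCenter (χ : G → ℂ) = ⊤ := by
    rcases k with _ | k
    · rw [eq_top_iff]
      intro x _
      rw [χ.2.mem_charCenter, hdeg']
      obtain ⟨φ, hφ⟩ := χ.2.isCharacter.exists_monoidHom (by rw [hdeg]; simp)
      rw [hφ]
      simpa using norm_monoidHom_eq_one φ x
    · have hdvd : p ∣ Nat.card G :=
        (hdeg' ▸ dvd_pow_self p (Nat.succ_ne_zero k)).trans χ.2.charDegree_dvd_card
      obtain ⟨P⟩ : Nonempty (Sylow p G) := inferInstance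
      have hP : (P : Subgroup G) ≠ ⊥ := P.ne_bot_of_dvd_card hdvd
      haveI : Nontrivial (P : Subgroup G) := (Subgroup.nontrivial_iff_ne_bot _).2 hP
      haveI := P.isPGroup'.center_nontrivial
      obtain ⟨z, hz⟩ := exists_ne (1 : Subgroup.center (P : Subgroup G))
      have hle : (P : Subgroup G) ≤ Subgroup.centralizer ({((z : (P : Subgroup G)) : G)} : Set G) := by
        intro w hw
        rw [Subgroup.mem_centralizer_singleton_iff]
        exact congrArg Subtype.val (Subgroup.mem_center_iff.1 z.2 ⟨w, hw⟩)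
      have hidx : ¬ p ∣ (Subgroup.centralizer ({((z : (P : Subgroup G)) : G)} : Set G)).index :=
        fun h => P.not_dvd_index (h.trans (Subgroup.index_dvd_of_le hle))
      have hne := principal_apply_ne_zero hM hχ hidx
      have hcop : Nat.Coprime (charDegree (χ : G → ℂ))
          (Subgroup.centralizer ({((z : (P : Subgroup G)) : G)} : Set G)).index := by
        rw [hdeg']
        exact Nat.Coprime.pow_left _ ((Nat.Prime.coprime_iff_not_dvd hM.1).2 hidx)
      have hmem := χ.2.mem_charCenter.2
        ((χ.2.eq_zero_or_norm_eq_of_coprime _ hcop).resolve_left hne)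
      refine ((charCenter_normal (χ : G → ℂ)).eq_bot_or_eq_top).resolve_left fun h => hz ?_
      rw [h, Subgroup.mem_bot] at hmem
      exact Subtype.ext (Subtype.ext hmem)
  have hker : charKer (χ : G → ℂ) = ⊤ := by
    refine ((charKer_normal (χ : G → ℂ)).eq_bot_or_eq_top).resolve_left fun h => ?_
    obtain ⟨a, b, hab⟩ := hna
    have h1 := mem_charCenter_iff.1 (hcenter ▸ Subgroup.mem_top b : b ∈ charCenter (χ : G → ℂ)) a
    rw [h, Subgroup.mem_bot] at h1
    apply hab
    calc a * b = (a * b * a⁻¹ * b⁻¹) * (b * a) := by group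
      _ = b * a := by rw [h1, one_mul]
  haveI := Fintype.ofFinite G
  refine χ.2.eq_of_classInner_ne_zero isIrrCharacter_one' ?_
  rw [classInner_def]
  have : ∀ g, (χ : G → ℂ) g = (χ : G → ℂ) 1 := fun g =>
    χ.2.isCharacter.mem_charKer.1 (hker ▸ Subgroup.mem_top g)
  simp only [this, map_one, mul_one, Finset.sum_const, Finset.card_univ, nsmul_eq_mul,
    ← Nat.card_eq_fintype_card]
  have h1 := card_ne_zero_complex (G := G)
  exact mul_ne_zero (inv_ne_zero h1) (mul_ne_zero h1 χ.2.apply_one_ne_zero)

end Cfsg.Agent.S0910
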