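import Mathlib
import Cfsg.Statements.S0904
import Cfsg.Agent.H21.Principal
import Cfsg.Agent.S0910

set_option autoImplicit false
open Cfsg

namespace Cfsg.Agent.S0904
open H05 Cfsg H20 H21 MonoidAlgebra Classical
open scoped ComplexConjugate

theorem main {G : Type*} [Group G] [Finite G] [IsSimpleGroup G] (p q r a b : ℕ) (hp : p.Prime)
    (hq : q.Prime) (hr : r.Prime) (hpq : p ≠ q) (hpr : p ≠ r) (hqr : q ≠ r)
    (hcard : Nat.card G = p ^ a * q ^ b * r) {x y : G} (hx : orderOf x = p) (hy : orderOf y = r)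
    (hxy : Commute x y) : False := by
  haveI : Fact p.Prime := ⟨hp⟩
  have hord : orderOf (x * y) = p * r := by
    rw [hxy.orderOf_mul_eq_mul_orderOf_of_coprime, hx, hy]
    rw [hx, hy]
    exact (Nat.coprime_primes hp hr).2 hpr
  have hna : ∃ a b : G, a * b ≠ b * a := by
    by_contra hcon
    push Not at hcon
    letI : CommGroup G := { (inferInstance : Group G) with mul_comm := hcon }
    have h1 : (Nat.card G).Prime := IsSimpleGroup.prime_card
    have h2 : p * r ∣ Nat.card G := hord ▸ orderOf_dvd_natCard _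
    have h3 := (Nat.prime_dvd_prime_iff_eq hp h1).1 ((dvd_mul_right p r).trans h2)
    have h4 := (Nat.prime_dvd_prime_iff_eq hr h1).1 ((dvd_mul_left r p).trans h2)
    exact hpr (h3.trans h4.symm)
  obtain ⟨M, hM⟩ := exists_isPModular hp
  obtain ⟨Q, hQ⟩ := exists_isPModular hq
  haveI := hM.2.1
  haveI := hQ.2.1
  have h1 := (isPBlock_principal (M := M) (G := G)).weak_block_orth' hM (x := x * y) (y := 1)
    (by rw [hord]; exact dvd_mul_right p r) (by rw [orderOf_one]; exact hp.not_dvd_one)
  rw [H21.finsum_mem_irr, ← Finset.add_sum_erase _ _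
    (a := irrOne G) (Finset.mem_filter.2 ⟨Finset.mem_univ _, one_mem_principal⟩)] at h1
  apply not_ideal_one (M := Q)
  have h2 : (1 : ℂ) = -∑ χ ∈ (Finset.univ.filter fun χ => χ ∈ principalBlock M G).erase (irrOne G),
      (χ : G → ℂ) (x * y) * conj ((χ : G → ℂ) 1) := by
    rw [eq_neg_iff_add_eq_zero, ← h1]
    simp
  rw [h2]
  refine ideal_neg (ideal_sum fun χ hχ => ?_)
  obtain ⟨hne, hχ⟩ := Finset.mem_erase.1 hχ
  have hχB := (Finset.mem_filter.1 hχ).2
  by_cases h0 : (χ : G → ℂ) (x * y) = 0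
  · rw [h0, zero_mul]; exact ideal_zero
  rw [χ.2.conj_apply_one, ← χ.2.charDegree_eq]
  refine ideal_mul_left (ring_irr χ _) ((ideal_natCast_iff hQ).2 ?_)
  by_contra hqd
  have hrd : ¬ r ∣ charDegree (χ : G → ℂ) := by
    intro hrd
    apply h0
    refine apply_eq_zero_of_defect_zero hr ?_ (by rw [hord]; exact dvd_mul_left r p)
    refine le_antisymm (nu_le_card χ) ?_
    have : (Nat.card G).factorization r = 1 := by
      rw [hcard, Nat.factorization_mul (mul_ne_zero (pow_ne_zero _ hp.ne_zero) (pow_ne_zero _ hq.ne_zero)) hr.ne_zero,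
        Nat.factorization_mul (pow_ne_zero _ hp.ne_zero) (pow_ne_zero _ hq.ne_zero), Finsupp.add_apply, Finsupp.add_apply,
        Nat.factorization_pow, Nat.factorization_pow, hp.factorization, hq.factorization,
        hr.factorization]
      simp [hpr, hqr]
    rw [this]
    exact (hr.dvd_iff_one_le_factorization χ.2.charDegree_pos.ne').1 hrd
  have hd : charDegree (χ : G → ℂ) ∣ p ^ a := by
    have h3 := χ.2.charDegree_dvd_card
    rw [hcard] at h3
    have h4 := Nat.Coprime.dvd_of_dvd_mul_right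
      ((Nat.Prime.coprime_iff_not_dvd hr).2 hrd).symm h3
    exact Nat.Coprime.dvd_of_dvd_mul_right
      (Nat.Coprime.pow_right b ((Nat.Prime.coprime_iff_not_dvd hq).2 hqd).symm) h4
  obtain ⟨k, -, hk⟩ := (Nat.dvd_prime_pow hp).1 hd
  exact hne (Subtype.ext (S0910.result p M hM hna χ hχB k
    (by rw [← χ.2.charDegree_eq, hk]; simp)))


/-- Let G be a finite simple group of order p ^ a * q ^ b * r with p, q, r distinct primes. Then every Sylow r-subgroup S of G satisfies C_G(S) = S. -/
theorem result {G : Type*} [Group G] [Finite G] [IsSimpleGroup G] (p q r a b : ℕ) (hp : p.Prime) (hq : q.Prime) [Fact r.Prime] (hpq : p ≠ q) (hpr : p ≠ r) (hqr : q ≠ r) (hcard : Nat.card G = p ^ a * q ^ b * r) (S : Sylow r G) : Subgroup.centralizer (S : Set G) = (S : Subgroup G) := by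
  have hr : r.Prime := Fact.out
  have hcardS : Nat.card (S : Subgroup G) = r := by
    rw [S.card_eq_multiplicity, hcard, Nat.factorization_mul (mul_ne_zero (pow_ne_zero _ hp.ne_zero) (pow_ne_zero _ hq.ne_zero)) hr.ne_zero,
      Nat.factorization_mul (pow_ne_zero _ hp.ne_zero) (pow_ne_zero _ hq.ne_zero), Finsupp.add_apply, Finsupp.add_apply,
      Nat.factorization_pow, Nat.factorization_pow, hp.factorization, hq.factorization,
      hr.factorization]
    simp [hpr, hqr]
  haveI hcyc : IsCyclic (S : Subgroup G) := isCyclic_of_prime_card hcardS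
  have hle : (S : Subgroup G) ≤ Subgroup.centralizer (S : Set G) :=
    Subgroup.le_centralizer (S : Subgroup G)
  by_contra hne
  obtain ⟨y, hy⟩ := exists_prime_orderOf_dvd_card' (G := (S : Subgroup G)) r (by rw [hcardS])
  have hy' : orderOf (y : G) = r := by rw [Subgroup.orderOf_coe, hy]
  -- a prime dividing the relative index
  set C := Subgroup.centralizer (S : Set G) with hC
  obtain ⟨m, hm⟩ : r ∣ Nat.card C := hcardS ▸ Subgroup.card_dvd_of_le hle
  have hm1 : m ≠ 1 := by
    rintro rfl
    exact hne (Subgroup.eq_of_le_of_card_ge hle (by rw [hm, hcardS, mul_one])).symm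
  have hmd : m ∣ p ^ a * q ^ b := by
    have h1 : Nat.card C ∣ Nat.card G := Subgroup.card_subgroup_dvd_card C
    rw [hm, hcard, mul_comm r m] at h1
    exact Nat.dvd_of_mul_dvd_mul_right hr.pos h1
  obtain ⟨s, hs, hsm⟩ := Nat.exists_prime_and_dvd hm1
  have hsC : s ∣ Nat.card C := hm ▸ hsm.mul_left r
  have hspq : s = p ∨ s = q := by
    rcases (Nat.Prime.dvd_mul hs).1 (hsm.trans hmd) with h | h
    · exact Or.inl ((Nat.prime_dvd_prime_iff_eq hs hp).1 (hs.dvd_of_dvd_pow h))
    · exact Or.inr ((Nat.prime_dvd_prime_iff_eq hs hq).1 (hs.dvd_of_dvd_pow h))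
  haveI : Fact s.Prime := ⟨hs⟩
  obtain ⟨x, hx⟩ := exists_prime_orderOf_dvd_card' (G := C) s hsC
  have hx' : orderOf (x : G) = s := by rw [Subgroup.orderOf_coe, hx]
  have hxy : Commute (x : G) (y : G) := (x.2 y y.2).symm
  rcases hspq with rfl | rfl
  · exact main s q r a b hp hq hr hpq hpr hqr hcard hx' hy' hxy
  · exact main s p r b a hq hp hr hpq.symm hqr hpr (by rw [hcard]; ring) hx' hy' hxy

end Cfsg.Agent.S0904
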