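import Mathlib
import Cfsg.Agent.H20.Induced
import Cfsg.Agent.H21.Height
import Cfsg.Agent.H02.PCore
-- Template for statement S0905 (row 905; see /opt/grader/pristine/manifest.json for weights).
-- Copy to Cfsg/Agent/S0905.lean and replace the sorry. The statement below is byte-identical to the frozen
-- statement Cfsg.CfsgFrozen.S0905 (Cfsg/Statements/S0905.lean; the theorem Cfsg.class_sum_avoiding_centralizer_pcore_nilpotent);
-- the grader kernel-checks Cfsg.Agent.S0905.result against that frozen type. Keep the theorem IN THIS FILE
-- (a `result` declared elsewhere and merely imported here is not credited); helpers may live anywhere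
-- under Cfsg/Agent/.
import Cfsg.Statements.S0905
-- import your own Cfsg.Agent.* helpers here

set_option autoImplicit false
open Cfsg

open H20 H05 H21 MonoidAlgebra Cfsg

namespace Cfsg.Agent.S0905

theorem coeff_pow_cast {G : Type*} [Group G] [Finite G] (k : Type*) [CommRing k] (g : G) (n : ℕ) (x : G) :
    ((classSum k g) ^ n).coeff x = (((classSum ℤ g) ^ n).coeff x : k) := by
  classical
  have := Fintype.ofFinite G
  induction n generalizing x with
  | zero => simp only [pow_zero, coeff_one']; split_ifs <;> simp
  | succ n ih =>
    rw [pow_succ, pow_succ, coeff_mul_left, coeff_mul_left, Int.cast_sum]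
    refine Finset.sum_congr rfl fun h _ => ?_
    rw [ih, Int.cast_mul, coeff_classSum, coeff_classSum]
    split_ifs <;> simp

/-- Let F be a field of characteristic p and let g be an element of the finite group G no conjugate of which centralizes O_p(G). Then the class sum of g is a nilpotent element of the group algebra F[G]. -/
theorem result {G : Type*} [Group G] [Finite G] (p : ℕ) [Fact p.Prime] (F : Type*) [Field F] [CharP F p] (g : G) (hg : ∀ x : G, IsConj g x → x ∉ Subgroup.centralizer (Cfsg.pCore p G : Set G)) : IsNilpotent (∑ᶠ x ∈ ConjClasses.carrier (ConjClasses.mk g), MonoidAlgebra.single x (1 : F) : MonoidAlgebra F G) := by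
  obtain ⟨M, hM⟩ := exists_isPModular (Fact.out : p.Prime)
  have := hM.2.1
  have := charP_Res hM
  have h1 : IsNilpotent (classSum (Res M) g) := isNilpotent_of_lam (isCen_classSum g) fun χ =>
    lam_classSum_eq_zero_of_normal hM (H02.pCore_isPGroup p G) χ.2 (hg g (IsConj.refl g))
  obtain ⟨n, hn⟩ := h1
  have h2 : (∑ᶠ x ∈ ConjClasses.carrier (ConjClasses.mk g), MonoidAlgebra.single x (1 : F) :
      MonoidAlgebra F G) = classSum F g := by
    rw [classSum, setSum_eq_finsum]
    congr 1
  rw [h2]
  refine ⟨n, ext_coeff fun x => ?_⟩
  have h3 := coeff_pow_cast (Res M) g n x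
  rw [hn, coeff_zero'] at h3
  rw [coeff_pow_cast, coeff_zero', CharP.intCast_eq_zero_iff F p]
  exact (CharP.intCast_eq_zero_iff (Res M) p _).1 h3.symm

end Cfsg.Agent.S0905
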