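import Mathlib
import Cfsg.Agent.H20.Defect
-- Template for statement S0906 (row 906; see /opt/grader/pristine/manifest.json for weights).
-- Copy to Cfsg/Agent/S0906.lean and replace the sorry. The statement below is byte-identical to the frozen
-- statement Cfsg.CfsgFrozen.S0906 (Cfsg/Statements/S0906.lean; the theorem Cfsg.exists_defect_class);
-- the grader kernel-checks Cfsg.Agent.S0906.result against that frozen type. Keep the theorem IN THIS FILE
-- (a `result` declared elsewhere and merely imported here is not credited); helpers may live anywhere
-- under Cfsg/Agent/.
import Cfsg.Statements.S0906
-- import your own Cfsg.Agent.* helpers here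

set_option autoImplicit false
open Cfsg

open H20 H05 H21 MonoidAlgebra

namespace Cfsg.Agent.S0906

/-- Let B be a block of the finite group G relative to a maximal ideal M of the algebraic integers containing the prime p. Then some element g represents a defect class of B: the idempotent coefficient of B at g is a local integer not in the local ideal at M, and the central characters of the members of B at g are not in the local ideal. -/
theorem result {G : Type*} [Group G] [Finite G] (p : ℕ) [Fact p.Prime] (M : Ideal Cfsg.AlgInt) (hM : Cfsg.IsPModular p M) (B : Set (Cfsg.IrrCharacter G)) (hB : Cfsg.IsPBlock M B) : ∃ g : G, Cfsg.IsDefectClass M B g := by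
  have := hM.2.1
  exact hB.exists_isDefectClass

end Cfsg.Agent.S0906
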