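import Mathlib
import Cfsg.Agent.H20.Block
-- Template for statement S0909 (row 909; see /opt/grader/pristine/manifest.json for weights).
-- Copy to Cfsg/Agent/S0909.lean and replace the sorry. The statement below is byte-identical to the frozen
-- statement Cfsg.CfsgFrozen.S0909 (Cfsg/Statements/S0909.lean; the theorem Cfsg.local_integral_idempotent_set_is_union_of_blocks);
-- the grader kernel-checks Cfsg.Agent.S0909.result against that frozen type. Keep the theorem IN THIS FILE
-- (a `result` declared elsewhere and merely imported here is not credited); helpers may live anywhere
-- under Cfsg/Agent/.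
import Cfsg.Statements.S0909
-- import your own Cfsg.Agent.* helpers here

set_option autoImplicit false
open Cfsg

open H20 H05 H21 MonoidAlgebra

namespace Cfsg.Agent.S0909

/-- Let A be a set of irreducible characters of the finite group G such that, for every g, the inverse of the group order times the sum over χ ∈ A of χ 1 * conj (χ g) is a local integer at the maximal ideal M (containing the prime p) of the algebraic integers. Then A is a union of blocks relative to M: it contains the whole block of each of its members. -/
theorem result {G : Type*} [Group G] [Finite G] (p : ℕ) [Fact p.Prime] (M : Ideal Cfsg.AlgInt) (hM : Cfsg.IsPModular p M) (A : Set (Cfsg.IrrCharacter G)) (hA : ∀ g : G, Cfsg.MemLocalRing M (Cfsg.blockCoeff A g)) (χ : Cfsg.IrrCharacter G) (hχ : χ ∈ A) : Cfsg.blockOf M (χ : G → ℂ) ⊆ A := by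
  have := hM.2.1
  exact blockOf_subset_of_isInt hA hχ

end Cfsg.Agent.S0909
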