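import Mathlib
import Cfsg.Agent.H20.Defect
-- Template for statement S0911 (row 911; see /opt/grader/pristine/manifest.json for weights).
-- Copy to Cfsg/Agent/S0911.lean and replace the sorry. The statement below is byte-identical to the frozen
-- statement Cfsg.CfsgFrozen.S0911 (Cfsg/Statements/S0911.lean; the theorem Cfsg.min_max_defect_class);
-- the grader kernel-checks Cfsg.Agent.S0911.result against that frozen type. Keep the theorem IN THIS FILE
-- (a `result` declared elsewhere and merely imported here is not credited); helpers may live anywhere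
-- under Cfsg/Agent/.
import Cfsg.Statements.S0911
-- import your own Cfsg.Agent.* helpers here

set_option autoImplicit false
open Cfsg

open H20 H05 H21 MonoidAlgebra

namespace Cfsg.Agent.S0911

/-- The min–max Theorem for defect classes. Let B be a block of the finite group G relative to a maximal ideal M of the algebraic integers containing the prime p, let g represent a defect class of B and let D be a Sylow p-subgroup of the centralizer of g (viewed in G). For any h: (a) if the idempotent coefficient of B at h is a local integer outside the local ideal, then some conjugate of D contains a Sylow p-subgroup of the centralizer of h; (b) if the central character of some member of B at h is outside the local ideal, then some conjugate of D is contained in a Sylow p-subgroup of the centralizer of h. -/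
theorem result {G : Type*} [Group G] [Finite G] (p : ℕ) [Fact p.Prime] (M : Ideal Cfsg.AlgInt) (hM : Cfsg.IsPModular p M) (B : Set (Cfsg.IrrCharacter G)) (hB : Cfsg.IsPBlock M B) (g : G) (hg : Cfsg.IsDefectClass M B g) (D : Sylow p (Subgroup.centralizer ({g} : Set G))) (h : G) : (Cfsg.MemLocalRing M (Cfsg.blockCoeff B h) → ¬ Cfsg.MemLocalIdeal M (Cfsg.blockCoeff B h) → ∃ (x : G) (Q : Sylow p (Subgroup.centralizer ({h} : Set G))), (Q : Subgroup (Subgroup.centralizer ({h} : Set G))).map (Subgroup.centralizer ({h} : Set G)).subtype ≤ ((D : Subgroup (Subgroup.centralizer ({g} : Set G))).map (Subgroup.centralizer ({g} : Set G)).subtype).map (MulAut.conj x).toMonoidHom) ∧ ((∃ χ ∈ B, ¬ Cfsg.MemLocalIdeal M (Cfsg.centralChar (χ : G → ℂ) h)) → ∃ (x : G) (Q : Sylow p (Subgroup.centralizer ({h} : Set G))), ((D : Subgroup (Subgroup.centralizer ({g} : Set G))).map (Subgroup.centralizer ({g} : Set G)).subtype).map (MulAut.conj x).toMonoidHom ≤ (Q : Subgroup (Subgroup.centralizer ({h} : Set G))).map (Subgroup.centralizer ({h} : Set G)).subtype) := by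
  have := hM.2.1
  have hD : IsDefectGroup p M B _ := isDefectGroup_iff.2 ⟨g, hg, sylIn_map D⟩
  constructor
  · intro _ h2
    obtain ⟨Q⟩ : Nonempty (Sylow p (Subgroup.centralizer ({h} : Set G))) := inferInstance
    obtain ⟨x, hx⟩ := subConj_iff_le_cj.1 (hD.subConj_of_coeff hM hB (sylIn_map Q).isPGroup
      (le_centralizer_singleton_iff.1 (sylIn_map Q).le) (by rwa [Ne, hB.coeff_eB_eq_zero_iff]))
    exact ⟨x, Q, hx⟩
  · rintro ⟨χ, hχ, h2⟩
    obtain ⟨x, hx⟩ := hD.subConj_of_lam hM hB hχ (l := h) (by rwa [Ne, lam_classSum_eq_zero_iff χ.2])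
    obtain ⟨E, ⟨Q, rfl⟩, hE⟩ := exists_sylIn_ge (isPGroup_cj hD.isPGroup x) hx
    exact ⟨x, Q, hE⟩

end Cfsg.Agent.S0911
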