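import Mathlib
import Cfsg.Agent.H20.Defect
import Cfsg.Agent.H02.PCore
-- Template for statement S0912 (row 912; see /opt/grader/pristine/manifest.json for weights).
-- Copy to Cfsg/Agent/S0912.lean and replace the sorry. The statement below is byte-identical to the frozen
-- statement Cfsg.CfsgFrozen.S0912 (Cfsg/Statements/S0912.lean; the theorem Cfsg.pcore_le_defect_group);
-- the grader kernel-checks Cfsg.Agent.S0912.result against that frozen type. Keep the theorem IN THIS FILE
-- (a `result` declared elsewhere and merely imported here is not credited); helpers may live anywhere
-- under Cfsg/Agent/.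
import Cfsg.Statements.S0912
-- import your own Cfsg.Agent.* helpers here

set_option autoImplicit false
open Cfsg

open H20 H05 H21 MonoidAlgebra

namespace Cfsg.Agent.S0912

/-- Let B be a block of the finite group G relative to a maximal ideal M of the algebraic integers containing the prime p. Every defect group of B contains the largest normal p-subgroup O_p(G). -/
theorem result {G : Type*} [Group G] [Finite G] (p : ℕ) [Fact p.Prime] (M : Ideal Cfsg.AlgInt) (hM : Cfsg.IsPModular p M) (B : Set (Cfsg.IrrCharacter G)) (hB : Cfsg.IsPBlock M B) (D : Subgroup G) (hD : Cfsg.IsDefectGroup p M B D) : Cfsg.pCore p G ≤ D := by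
  have := hM.2.1
  exact hD.normal_le hM hB (H02.pCore_isPGroup p G)

end Cfsg.Agent.S0912
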