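import Mathlib
import Cfsg.Agent.H20.Defect
-- Template for statement S0914 (row 914; see /opt/grader/pristine/manifest.json for weights).
-- Copy to Cfsg/Agent/S0914.lean and replace the sorry. The statement below is byte-identical to the frozen
-- statement Cfsg.CfsgFrozen.S0914 (Cfsg/Statements/S0914.lean; the theorem Cfsg.defect_zero_iff_singleton_block);
-- the grader kernel-checks Cfsg.Agent.S0914.result against that frozen type. Keep the theorem IN THIS FILE
-- (a `result` declared elsewhere and merely imported here is not credited); helpers may live anywhere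
-- under Cfsg/Agent/.
import Cfsg.Statements.S0914
-- import your own Cfsg.Agent.* helpers here

set_option autoImplicit false
open Cfsg

open H20 H05 H21 MonoidAlgebra

namespace Cfsg.Agent.S0914

/-- Let χ be an irreducible character of the finite group G, p a prime and M a maximal ideal of the algebraic integers containing p. Then p does not divide the integer (Nat.card G) / χ(1) if and only if the block of χ relative to M consists of χ alone. -/
theorem result {G : Type*} [Group G] [Finite G] (p : ℕ) [Fact p.Prime] (M : Ideal Cfsg.AlgInt) (hM : Cfsg.IsPModular p M) (χ : Cfsg.IrrCharacter G) : ¬ p ∣ Nat.card G / Cfsg.charDegree (χ : G → ℂ) ↔ Cfsg.blockOf M (χ : G → ℂ) = {χ} := by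
  rw [blockOf_eq_singleton_iff hM]
  obtain ⟨m, hm⟩ := χ.2.charDegree_dvd_card
  have h0 := charDegree_ne_zero' χ
  have h1 : m ≠ 0 := by
    rintro rfl
    exact Nat.card_pos.ne' hm
  rw [hm, Nat.mul_div_cancel_left _ (Nat.pos_of_ne_zero h0), Nat.factorization_mul h0 h1,
    Finsupp.add_apply, left_eq_add, Nat.factorization_eq_zero_iff]
  simp [hM.1, h1]

end Cfsg.Agent.S0914
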