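import Mathlib
import Cfsg.Agent.H20.First
import Cfsg.Agent.H24.PSolv
-- Template for statement S0915 (row 915; see /opt/grader/pristine/manifest.json for weights).
-- Copy to Cfsg/Agent/S0915.lean and replace the sorry. The statement below is byte-identical to the frozen
-- statement Cfsg.CfsgFrozen.S0915 (Cfsg/Statements/S0915.lean; the theorem Cfsg.p_solvable_trivial_p_prime_core_unique_block);
-- the grader kernel-checks Cfsg.Agent.S0915.result against that frozen type. Keep the theorem IN THIS FILE
-- (a `result` declared elsewhere and merely imported here is not credited); helpers may live anywhere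
-- under Cfsg/Agent/.
import Cfsg.Statements.S0915
-- import your own Cfsg.Agent.* helpers here

set_option autoImplicit false
open Cfsg

open H20 H05 H21 MonoidAlgebra

namespace Cfsg.Agent.S0915

/-- Let G be a finite p-solvable group with trivial largest normal subgroup of order prime to p. Then any two irreducible characters of G lie in the same block relative to every maximal ideal M of the algebraic integers containing p: G has a single p-block. -/
theorem result {G : Type*} [Group G] [Finite G] (p : ℕ) [Fact p.Prime] (M : Ideal Cfsg.AlgInt) (hM : Cfsg.IsPModular p M) (hsolv : Cfsg.IsPSolvable p G) (hcore : Cfsg.pPrimeCore p G = ⊥) (χ ψ : Cfsg.IrrCharacter G) : Cfsg.SameBlock M (χ : G → ℂ) (ψ : G → ℂ) := by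
  have := hM.2.1
  exact sameBlock_of_centralizer_isPGroup hM (H02.pCore_isPGroup p G)
    ((H02.pCore_isPGroup p G).to_le (H24.PS.centralizer_pCore_le hsolv hcore)) χ.2 ψ.2

end Cfsg.Agent.S0915
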