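import Mathlib
import Cfsg.Agent.H20.First
-- Template for statement S0920 (row 920; see /opt/grader/pristine/manifest.json for weights).
-- Copy to Cfsg/Agent/S0920.lean and replace the sorry. The statement below is byte-identical to the frozen
-- statement Cfsg.CfsgFrozen.S0920 (Cfsg/Statements/S0920.lean; the theorem Cfsg.brauer_first_main_theorem);
-- the grader kernel-checks Cfsg.Agent.S0920.result against that frozen type. Keep the theorem IN THIS FILE
-- (a `result` declared elsewhere and merely imported here is not credited); helpers may live anywhere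
-- under Cfsg/Agent/.
import Cfsg.Statements.S0920
-- import your own Cfsg.Agent.* helpers here

set_option autoImplicit false
open Cfsg

open H20 H05 H21 MonoidAlgebra

namespace Cfsg.Agent.S0920

/-- Brauer's First Main Theorem. Let D be a p-subgroup of the finite group G with normalizer N, and fix a maximal ideal M of the algebraic integers containing p. Then (i) every block b of N having D as a defect group induces some block B of G having D as a defect group; (ii) every block of G with defect group D is induced by exactly one block of N with defect group D. -/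
theorem result {G : Type*} [Group G] [Finite G] (p : ℕ) [Fact p.Prime] (M : Ideal Cfsg.AlgInt) (hM : Cfsg.IsPModular p M) (D : Subgroup G) (hD : IsPGroup p D) : (∀ b : Set (Cfsg.IrrCharacter (Subgroup.normalizer (D : Set G))), Cfsg.IsPBlock M b → Cfsg.IsDefectGroup p M b (D.subgroupOf (Subgroup.normalizer (D : Set G))) → ∃ B : Set (Cfsg.IrrCharacter G), Cfsg.IsPBlock M B ∧ Cfsg.IsDefectGroup p M B D ∧ Cfsg.IsInducedBlock M (Subgroup.normalizer (D : Set G)) b B) ∧ (∀ B : Set (Cfsg.IrrCharacter G), Cfsg.IsPBlock M B → Cfsg.IsDefectGroup p M B D → ∃! b : Set (Cfsg.IrrCharacter (Subgroup.normalizer (D : Set G))), Cfsg.IsPBlock M b ∧ Cfsg.IsDefectGroup p M b (D.subgroupOf (Subgroup.normalizer (D : Set G))) ∧ Cfsg.IsInducedBlock M (Subgroup.normalizer (D : Set G)) b B) := by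
  have := hM.2.1
  constructor
  · intro b hb hbD
    obtain ⟨B, hB, hBD⟩ := first_main_exists_induced hM hD hb hbD
    exact ⟨B, hB.2.1, hBD, hB⟩
  · intro B hB hBD
    obtain ⟨b, hb, hbD⟩ := hBD.exists_induced hM hB Subgroup.le_normalizer
      (Subgroup.centralizer_le_normalizer _) le_rfl
    exact ⟨b, ⟨hb.1, hbD, hb⟩, fun b' hb' => first_main_unique hM hBD hb'.2.2 hb⟩

end Cfsg.Agent.S0920
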