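import Mathlib
import Cfsg.Statements.S0925
import Cfsg.Agent.H21.BlockOrth
import Cfsg.Agent.S0913

set_option autoImplicit false
open Cfsg

namespace Cfsg.Agent.S0925

/-- (i) Let ϑ be a class function on the finite group G and x a p-element, and suppose ϑ vanishes at every element whose p-part is conjugate to x. Then for every block B (relative to a maximal ideal M of the algebraic integers containing p) the B-part of ϑ — the sum over χ ∈ B of the inner product of ϑ with χ, times χ — also vanishes at every such element. (ii) Block orthogonality, its corollary: if the p-parts of g and h are not conjugate, then the sum over χ ∈ B of χ g * χ h⁻¹ is zero for every block B. -/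
theorem result {G : Type*} [Group G] [Finite G] (p : ℕ) [Fact p.Prime] (M : Ideal Cfsg.AlgInt) (hM : Cfsg.IsPModular p M) : (∀ (ϑ : G → ℂ), Cfsg.IsClassFunction G ϑ → ∀ x : G, (∃ k : ℕ, orderOf x = p ^ k) → (∀ u z : G, Cfsg.IsPPart p u z → IsConj x z → ϑ u = 0) → ∀ B : Set (Cfsg.IrrCharacter G), Cfsg.IsPBlock M B → ∀ u z : G, Cfsg.IsPPart p u z → IsConj x z → Cfsg.blockPart B ϑ u = 0) ∧ (∀ g h x y : G, Cfsg.IsPPart p g x → Cfsg.IsPPart p h y → ¬ IsConj x y → ∀ B : Set (Cfsg.IrrCharacter G), Cfsg.IsPBlock M B → ∑ᶠ χ ∈ B, (χ : G → ℂ) g * (χ : G → ℂ) h⁻¹ = 0) := by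
  have := Fintype.ofFinite G
  refine ⟨fun ϑ _ x _ h B hB u z hu hz => ?_, fun g h x y hx hy hxy B hB => ?_⟩
  · refine H21.blockPart_eq_zero_of_sec hM (Cfsg.Agent.S0913.result p M hM B hB)
      (H21.isSec_section x) (fun g hg => h g _ (H21.isPPart_pPart p g) hg) ?_
    rwa [H21.isPPart_iff.1 hu] at hz
  · rw [H21.finsum_mem_irr]
    simp only [fun χ : IrrCharacter G => H05.Cfsg.IsIrrCharacter.apply_inv χ.2 h]
    refine H21.block_orth hM (Cfsg.Agent.S0913.result p M hM B hB) ?_
    rwa [← H21.isPPart_iff.1 hx, ← H21.isPPart_iff.1 hy]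

end Cfsg.Agent.S0925
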