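import Mathlib
import Cfsg.Agent.H20.Induced
-- Template for statement S0932 (row 932; see /opt/grader/pristine/manifest.json for weights).
-- Copy to Cfsg/Agent/S0932.lean and replace the sorry. The statement below is byte-identical to the frozen
-- statement Cfsg.CfsgFrozen.S0932 (Cfsg/Statements/S0932.lean; the theorem Cfsg.induced_central_char_eq_central_char_induced);
-- the grader kernel-checks Cfsg.Agent.S0932.result against that frozen type. Keep the theorem IN THIS FILE
-- (a `result` declared elsewhere and merely imported here is not credited); helpers may live anywhere
-- under Cfsg/Agent/.
import Cfsg.Statements.S0932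
-- import your own Cfsg.Agent.* helpers here

set_option autoImplicit false
open Cfsg

open H20 H05 H21 MonoidAlgebra

namespace Cfsg.Agent.S0932

/-- Let H be a subgroup of the finite group G and ξ a character of H. For every g ∈ G, the sum of ξ h / ξ 1 over the elements h ∈ H that are conjugate in G to g equals the central character at g of the character of G induced from ξ (class size times value divided by degree). -/
theorem result {G : Type*} [Group G] [Fintype G] (H : Subgroup G) (ξ : H → ℂ) (hξ : Cfsg.IsCharacter H ξ) (g : G) : Cfsg.inducedCentralChar H ξ g = Cfsg.centralChar (Cfsg.indFun H ξ) g := by
  exact inducedCentralChar_eq H ξ g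

end Cfsg.Agent.S0932
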