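import Mathlib
import Cfsg.Agent.H21.Principal
-- Template for statement S0939 (row 939; see /opt/grader/pristine/manifest.json for weights).
-- Copy to Cfsg/Agent/S0939.lean and replace the sorry. The statement below is byte-identical to the frozen
-- statement Cfsg.CfsgFrozen.S0939 (Cfsg/Statements/S0939.lean; the theorem Cfsg.principal_block_of_group_with_normal_p_complement);
-- the grader kernel-checks Cfsg.Agent.S0939.result against that frozen type. Keep the theorem IN THIS FILE
-- (a `result` declared elsewhere and merely imported here is not credited); helpers may live anywhere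
-- under Cfsg/Agent/.
import Cfsg.Statements.S0939
-- import your own Cfsg.Agent.* helpers here

set_option autoImplicit false
open Cfsg

open H20 H05 H21 MonoidAlgebra

namespace Cfsg.Agent.S0939

/-- Let G be a finite group with a normal p-complement (the largest normal subgroup O_p'(G) of order prime to p has p-power index). Then, relative to any maximal ideal M of the algebraic integers containing p, the principal block of G is the set of irreducible characters χ with χ n = χ 1 for every n ∈ O_p'(G). -/
theorem result {G : Type*} [Group G] [Finite G] (p : ℕ) [Fact p.Prime] (M : Ideal Cfsg.AlgInt) (hM : Cfsg.IsPModular p M) (hnc : ∃ k : ℕ, (Cfsg.pPrimeCore p G).index = p ^ k) : Cfsg.principalBlock M G = {χ : Cfsg.IrrCharacter G | ∀ n ∈ Cfsg.pPrimeCore p G, (χ : G → ℂ) n = (χ : G → ℂ) 1} := by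
  obtain ⟨k, hk⟩ := hnc
  exact principal_eq_of_complement hM (H02.not_dvd_card_pPrimeCore hM.1) hk

end Cfsg.Agent.S0939
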