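import Mathlib
import Cfsg.Statements.S0940
import Cfsg.Agent.H21.RComb

set_option autoImplicit false
open Cfsg

namespace Cfsg.Agent.S0940
open H05 Cfsg H20 H21 MonoidAlgebra Classical
open scoped ComplexConjugate

/-- Let G be a finite group and M a maximal ideal of the algebraic integers containing the prime p. For every p-regular g, the idempotent coefficient of the principal block at g (the inverse of the group order times the sum over χ in the principal block of χ 1 * conj (χ g)) is congruent modulo the local ideal at M to N / R, where N is the number of pairs (x, y) with x of p-power order, y of order prime to p and x * y = g, and R is the number of elements of G of order prime to p. -/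
theorem result {G : Type*} [Group G] [Finite G] (p : ℕ) [Fact p.Prime] (M : Ideal Cfsg.AlgInt) (hM : Cfsg.IsPModular p M) (g : G) (hg : ¬ p ∣ orderOf g) : Cfsg.MemLocalIdeal M (Cfsg.blockCoeff (Cfsg.principalBlock M G) g - (Nat.card {xy : G × G // (∃ k : ℕ, orderOf xy.1 = p ^ k) ∧ ¬ p ∣ orderOf xy.2 ∧ xy.1 * xy.2 = g} : ℂ) / (Nat.card {y : G // ¬ p ∣ orderOf y} : ℂ)) := by
  haveI := hM.2.1
  haveI := Fintype.ofFinite G
  have hp := hM.1
  have hδ : IsClassFunction G (fun g : G => if g = 1 then (1 : ℂ) else 0) := fun g h => by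
    simp
  have hπ := isRComb_comp_pReg hM hδ (fun g _ => by split_ifs; exacts [ring_one, ring_zero])
  set π : G → ℂ := fun g => if pReg p g = 1 then (1 : ℂ) else 0 with hπdef
  have hN : (Nat.card {xy : G × G // (∃ k : ℕ, orderOf xy.1 = p ^ k) ∧ ¬ p ∣ orderOf xy.2 ∧ xy.1 * xy.2 = g} : ℂ) =
      ev π (zReg p (fun _ => 1) * single g⁻¹ 1) := by
    have e : {xy : G × G // (∃ k : ℕ, orderOf xy.1 = p ^ k) ∧ ¬ p ∣ orderOf xy.2 ∧ xy.1 * xy.2 = g} ≃
        {y : G // ¬ p ∣ orderOf y ∧ pReg p (y * g⁻¹) = 1} :=
      { toFun := fun xy => ⟨xy.1.2, xy.2.2.1, by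
          obtain ⟨⟨x, y⟩, h1, h2, rfl⟩ := xy
          rw [pReg_eq_one_iff, mul_inv_rev, mul_inv_cancel_left, orderOf_inv]
          exact h1⟩
        invFun := fun y => ⟨((y.1 * g⁻¹)⁻¹, y.1), by
          rw [orderOf_inv, ← pReg_eq_one_iff]; exact y.2.2, y.2.1, by simp⟩
        left_inv := fun xy => by
          obtain ⟨⟨x, y⟩, h1, h2, rfl⟩ := xy
          apply Subtype.ext
          apply Prod.ext
          · simp
          · rfl
        right_inv := fun y => rfl }
    rw [Nat.card_congr e, ev_mul_single, Nat.card_eq_fintype_card, Fintype.card_subtype,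
      Finset.card_filter, Nat.cast_sum]
    refine Finset.sum_congr rfl fun y _ => ?_
    rw [coeff_zReg, hπdef]
    by_cases h1 : p ∣ orderOf y <;> by_cases h2 : pReg p (y * g⁻¹) = 1 <;> simp [h1, h2]
  have hR := not_dvd_card_regular (G := G) hp
  set R := Nat.card {y : G // ¬ p ∣ orderOf y} with hRdef
  have hR0 : (R : ℂ) ≠ 0 := by
    rw [Nat.cast_ne_zero]
    rintro h
    exact hR (h ▸ dvd_zero p)
  have hf : blockCoeff (principalBlock M G) g =
      ∑ χ with χ ∈ principalBlock M G, classInner π (χ : G → ℂ) * (χ : G → ℂ) g⁻¹ := by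
    rw [← blockPart_eq, blockPart_congr_sec hM (ring_blockCoeff isPBlock_principal) isSec_regular
      (φ := fun g : G => if g = 1 then (1 : ℂ) else 0)
      (fun y hy => by simp only [hπdef, pReg_eq_self_iff.2 hy]) (by rwa [Set.mem_setOf_eq, orderOf_inv]),
      blockPart_eq, blockCoeff_eq, Finset.mul_sum]
    refine Finset.sum_congr rfl fun χ _ => ?_
    rw [classInner_def, Finset.sum_eq_single 1]
    · simp [χ.2.conj_apply_one, mul_assoc]
    · intro b _ hb; simp [hb]
    · simp
  rw [← ideal_unit_mul_iff (ring_natCast R) (mt (ideal_natCast_iff hM).1 hR), mul_sub,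
    mul_div_cancel₀ _ hR0, hN, hf, hπ.isClassFunction.eq_sum, ev_sum_left, Finset.sum_filter,
    Finset.mul_sum, ← Finset.sum_sub_distrib, ← hπ.isClassFunction.eq_sum]
  refine ideal_sum fun χ _ => ?_
  rw [ev_smul_left, ev_cen_mul χ.2 (isCen_zReg (isClassFunction_const 1)), ev_single, one_mul]
  split_ifs with hχ
  · have h1 := sameBlock_omega (isClassFunction_const 1) χ.2.isClassFunction hχ
      (isCen_zReg (p := p) (isClassFunction_const 1)) (isInt_zReg fun _ => ring_one)
    rw [omega_one_zReg_one, ← hRdef] at h1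
    have := ideal_mul_left (ring_mul (hπ.ring_classInner χ.2.isGeneralizedCharacter)
      (ring_irr χ g⁻¹)) h1
    convert this using 1
    ring
  · have h1 : omega (χ : G → ℂ) (zReg p fun _ => 1) = 0 := by
      by_contra h2
      refine hχ ((mem_principal_iff_ev hM).2 fun h3 => h2 ?_)
      unfold omega
      rw [h3, zero_div]
    rw [h1]
    simpa using ideal_zero

end Cfsg.Agent.S0940
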