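import Mathlib
import Cfsg.Statements.S0944
import Cfsg.Agent.H05.Values

set_option autoImplicit false
open Cfsg

namespace Cfsg.Agent.S0944

/-- Let χ be an irreducible character of the finite group G and u an involution. Then χ u is a rational integer n with n ≡ χ 1 (mod 2). -/
theorem result {G : Type*} [Group G] [Finite G] (χ : Cfsg.IrrCharacter G) (u : G) (hu : orderOf u = 2) : ∃ n : ℤ, (χ : G → ℂ) u = (n : ℂ) ∧ (2 : ℤ) ∣ (Cfsg.charDegree (χ : G → ℂ) : ℤ) - n := by
  classical
  obtain ⟨ω, h1, h2⟩ := H05.Cfsg.IsCharacter.exists_roots (H05.Cfsg.IsIrrCharacter.isCharacter χ.2) u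
  rw [hu] at h1
  have h3 := h2 1
  simp only [pow_one] at h3
  refine ⟨∑ i, if ω i = 1 then 1 else -1, ?_, ?_⟩
  · rw [h3]
    push_cast
    refine Finset.sum_congr rfl fun i _ => ?_
    split_ifs with h
    · exact h
    · exact (sq_eq_one_iff.1 (h1 i)).resolve_left h
  · have : (charDegree (χ : G → ℂ) : ℤ) = ∑ i : Fin (charDegree (χ : G → ℂ)), (1 : ℤ) := by simp
    rw [this, ← Finset.sum_sub_distrib]
    refine Finset.dvd_sum fun i _ => ?_
    split_ifs <;> simp

end Cfsg.Agent.S0944
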