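import Mathlib
import Cfsg.Statements.S0946
import Cfsg.Agent.H21.Homocyclic

set_option autoImplicit false
open Cfsg

namespace Cfsg.Agent.S0946

/-- Let P be a Sylow 2-subgroup of the finite group G isomorphic to Z/2^m × Z/2^m with m ≥ 1. Then either P has a normal complement in G, or all involutions of G are conjugate. -/
theorem result {G : Type*} [Group G] [Finite G] (P : Sylow 2 G) (m : ℕ) (hm : 1 ≤ m) (e : (P : Subgroup G) ≃* Multiplicative (ZMod (2 ^ m) × ZMod (2 ^ m))) : (∃ N : Subgroup G, N.Normal ∧ Subgroup.IsComplement' N (P : Subgroup G)) ∨ ∀ s t : G, orderOf s = 2 → orderOf t = 2 → IsConj s t := by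
  have : Fact (Nat.Prime 2) := ⟨Nat.prime_two⟩
  by_cases h : (Subgroup.centralizer (P : Set G)).relIndex (Subgroup.normalizer (P : Set G)) = 1
  · left
    rw [Subgroup.relIndex_eq_one] at h
    exact ⟨_, inferInstance, MonoidHom.ker_transferSylow_isComplement' P h⟩
  · right
    have key : ∀ s : G, orderOf s = 2 → ∃ s' ∈ (P : Subgroup G), orderOf s' = 2 ∧ IsConj s s' := by
      intro s hs
      have h1 : IsPGroup 2 (Subgroup.zpowers s) := IsPGroup.of_card (n := 1) (by simp [hs])
      obtain ⟨Q, hQ⟩ := h1.exists_le_sylow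
      obtain ⟨g, rfl⟩ := MulAction.exists_smul_eq G P Q
      have h2 := hQ (Subgroup.mem_zpowers s)
      rw [Sylow.coe_subgroup_smul, Subgroup.mem_pointwise_smul_iff_inv_smul_mem, ← map_inv] at h2
      exact ⟨_, h2, ((MulAut.conj g⁻¹).orderOf_eq s).trans hs, isConj_iff.2 ⟨g⁻¹, rfl⟩⟩
    intro s t hs ht
    obtain ⟨s', h1, h2, h3⟩ := key s hs
    obtain ⟨t', h4, h5, h6⟩ := key t ht
    obtain ⟨n, -, hn⟩ := H21.homocyclic_conj_of_ne_one P hm e h h1 h4 h2 h5
    exact h3.trans ((isConj_iff.2 ⟨n, hn⟩).trans h6.symm)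

end Cfsg.Agent.S0946
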