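import Mathlib
import Cfsg.Statements.S0947
import Cfsg.Agent.H21.Principal

set_option autoImplicit false
open Cfsg

namespace Cfsg.Agent.S0947
open H05 Cfsg H20 H21 MonoidAlgebra Classical
open scoped ComplexConjugate

/-- Let z ≠ 1 be a p-element of the finite group G with centralizer H, and fix a maximal ideal M of the algebraic integers containing p. (i) For every y ∈ H of order prime to p, the sum over ζ in the principal block of G of |ζ (z * y)|² equals the sum over χ in the principal block of H of |χ y|². (ii) If moreover H has a normal p-complement (its largest normal subgroup of order prime to p has p-power index), that common value is the largest power of p dividing the order of H. -/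
theorem result {G : Type*} [Group G] [Finite G] (p : ℕ) [Fact p.Prime] (M : Ideal Cfsg.AlgInt) (hM : Cfsg.IsPModular p M) (z : G) (hz : ∃ k : ℕ, orderOf z = p ^ k) (hz1 : z ≠ 1) (y : Subgroup.centralizer ({z} : Set G)) (hy : ¬ p ∣ orderOf y) : (∑ᶠ ζ ∈ Cfsg.principalBlock M G, ‖(ζ : G → ℂ) (z * (y : G))‖ ^ 2 = ∑ᶠ χ ∈ Cfsg.principalBlock M (Subgroup.centralizer ({z} : Set G)), ‖(χ : Subgroup.centralizer ({z} : Set G) → ℂ) y‖ ^ 2) ∧ ((∃ k : ℕ, (Cfsg.pPrimeCore p (Subgroup.centralizer ({z} : Set G))).index = p ^ k) → ∑ᶠ ζ ∈ Cfsg.principalBlock M G, ‖(ζ : G → ℂ) (z * (y : G))‖ ^ 2 = ((p ^ (Nat.card (Subgroup.centralizer ({z} : Set G))).factorization p : ℕ) : ℝ)) := by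
  have hnorm : ∀ a : ℂ, ((‖a‖ ^ 2 : ℝ) : ℂ) = a * conj a := fun a => by
    rw [Complex.mul_conj, Complex.normSq_eq_norm_sq]
  have h1 := sum_principal_mul_conj hM hz hy hy
  have h2 : ∑ᶠ ζ ∈ Cfsg.principalBlock M G, ‖(ζ : G → ℂ) (z * (y : G))‖ ^ 2 = ∑ᶠ χ ∈ Cfsg.principalBlock M (Subgroup.centralizer ({z} : Set G)), ‖(χ : Subgroup.centralizer ({z} : Set G) → ℂ) y‖ ^ 2 := by
    rw [H21.finsum_mem_irr, H21.finsum_mem_irr]
    apply Complex.ofReal_injective
    rw [Complex.ofReal_sum, Complex.ofReal_sum]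
    simp only [hnorm]
    exact h1
  refine ⟨h2, fun ⟨k, hk⟩ => ?_⟩
  rw [h2, H21.finsum_mem_irr]
  apply Complex.ofReal_injective
  rw [Complex.ofReal_sum]
  simp only [hnorm]
  rw [sum_principal_of_complement hM (H02.not_dvd_card_pPrimeCore hM.1) hk hy hy,
    index_eq_of_complement hM.1 (H02.not_dvd_card_pPrimeCore hM.1) hk]
  simp

end Cfsg.Agent.S0947
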