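import Mathlib
import Cfsg.Statements.S0948
import Cfsg.Agent.H21.Klein

set_option autoImplicit false
open Cfsg

namespace Cfsg.Agent.S0948
open H05 Cfsg H20 H21 MonoidAlgebra Classical
open scoped ComplexConjugate

/-- Let the finite group G have a Sylow 2-subgroup P that is a Klein four-group, suppose all involutions of G are conjugate, and fix a maximal ideal M of the algebraic integers containing 2. Then the principal block consists of exactly four irreducible characters, the principal character and ζ₂, ζ₃, ζ₄, and there is a sign ε such that for every involution z: ζ₂ z = 1, ζ₃ z = ε, ζ₄ z = -1; moreover ζ₂ 1 ≡ 1, ζ₃ 1 ≡ ε, ζ₄ 1 ≡ -1 (mod 4), and 1 + ζ₂ y + ε ζ₃ y - ζ₄ y = 0 for every y of odd order. -/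
theorem result {G : Type*} [Group G] [Finite G] (M : Ideal Cfsg.AlgInt) (hM : Cfsg.IsPModular 2 M) (P : Sylow 2 G) (hP : IsKleinFour (P : Subgroup G)) (hone : ∀ s t : G, orderOf s = 2 → orderOf t = 2 → IsConj s t) : ∃ ζ₂ ζ₃ ζ₄ : Cfsg.IrrCharacter G, ∃ ε : ℤ, (ε = 1 ∨ ε = -1) ∧ (ζ₂ : G → ℂ) ≠ (fun _ => 1) ∧ (ζ₃ : G → ℂ) ≠ (fun _ => 1) ∧ ζ₂ ≠ ζ₃ ∧ ζ₂ ≠ ζ₄ ∧ ζ₃ ≠ ζ₄ ∧ Cfsg.principalBlock M G = {χ : Cfsg.IrrCharacter G | (χ : G → ℂ) = (fun _ => 1) ∨ χ = ζ₂ ∨ χ = ζ₃ ∨ χ = ζ₄} ∧ (∀ z : G, orderOf z = 2 → (ζ₂ : G → ℂ) z = 1 ∧ (ζ₃ : G → ℂ) z = (ε : ℂ) ∧ (ζ₄ : G → ℂ) z = -1) ∧ (4 : ℤ) ∣ (Cfsg.charDegree (ζ₂ : G → ℂ) : ℤ) - 1 ∧ (4 : ℤ) ∣ (Cfsg.charDegree (ζ₃ : G → ℂ) : ℤ) - ε ∧ (4 : ℤ) ∣ (Cfsg.charDegree (ζ₄ : G → ℂ) : ℤ) + 1 ∧ ∀ y : G, Odd (orderOf y) → 1 + (ζ₂ : G → ℂ) y + (ε : ℂ) * (ζ₃ : G → ℂ) y - (ζ₄ : G → ℂ) y = 0 := by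
  haveI := hM.2.1
  have h : KleinHyp M P := ⟨hM, hP, hone⟩
  obtain ⟨z, -, hz⟩ := h.exists_invol
  obtain ⟨hc, hs⟩ := h.card_and_sign hz
  rw [natCard_eq_card_filter] at hc
  have h1 : irrOne G ∈ Finset.univ.filter fun χ => χ ∈ principalBlock M G := by
    simpa using one_mem_principal
  have h3 := Finset.card_erase_of_mem h1
  rw [hc] at h3
  obtain ⟨a, b, c, hab, hac, hbc, he⟩ := Finset.card_eq_three.1 h3
  have hmem : ∀ χ, χ ∈ principalBlock M G ↔ (χ : G → ℂ) = (fun _ => 1) ∨ χ = a ∨ χ = b ∨ χ = c := by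
    intro χ
    have := Finset.ext_iff.1 he χ
    simp only [Finset.mem_erase, Finset.mem_filter, Finset.mem_univ, true_and, Finset.mem_insert,
      Finset.mem_singleton] at this
    rw [← this]
    by_cases h0 : χ = irrOne G
    · subst h0; exact iff_of_true one_mem_principal (Or.inl rfl)
    · have : ¬ (χ : G → ℂ) = fun _ => 1 := fun h => h0 (Subtype.ext h)
      simp [h0, this]
  have hne : ∀ χ, χ = a ∨ χ = b ∨ χ = c → (χ : G → ℂ) ≠ fun _ => 1 := fun χ hχ h0 => by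
    have : χ ∈ ({a, b, c} : Finset _) := by simpa using hχ
    rw [← he] at this
    exact (Finset.mem_erase.1 this).1 (Subtype.ext h0)
  have key : ∀ a b c : IrrCharacter G, a ≠ b → a ≠ c → b ≠ c →
      (∀ χ, χ ∈ principalBlock M G ↔ (χ : G → ℂ) = (fun _ => 1) ∨ χ = a ∨ χ = b ∨ χ = c) →
      (∀ χ, χ = a ∨ χ = b ∨ χ = c → (χ : G → ℂ) ≠ fun _ => 1) →
      (a : G → ℂ) z = 1 → (c : G → ℂ) z = -1 → ∃ ζ₂ ζ₃ ζ₄ : Cfsg.IrrCharacter G, ∃ ε : ℤ, (ε = 1 ∨ ε = -1) ∧ (ζ₂ : G → ℂ) ≠ (fun _ => 1) ∧ (ζ₃ : G → ℂ) ≠ (fun _ => 1) ∧ ζ₂ ≠ ζ₃ ∧ ζ₂ ≠ ζ₄ ∧ ζ₃ ≠ ζ₄ ∧ Cfsg.principalBlock M G = {χ : Cfsg.IrrCharacter G | (χ : G → ℂ) = (fun _ => 1) ∨ χ = ζ₂ ∨ χ = ζ₃ ∨ χ = ζ₄} ∧ (∀ z : G, orderOf z = 2 → (ζ₂ : G → ℂ) z = 1 ∧ (ζ₃ : G → ℂ) z = (ε : ℂ) ∧ (ζ₄ : G → ℂ) z = -1) ∧ (4 : ℤ) ∣ (Cfsg.charDegree (ζ₂ : G → ℂ) : ℤ) - 1 ∧ (4 : ℤ) ∣ (Cfsg.charDegree (ζ₃ : G → ℂ) : ℤ) - ε ∧ (4 : ℤ) ∣ (Cfsg.charDegree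 (ζ₄ : G → ℂ) : ℤ) + 1 ∧ ∀ y : G, Odd (orderOf y) → 1 + (ζ₂ : G → ℂ) y + (ε : ℂ) * (ζ₃ : G → ℂ) y - (ζ₄ : G → ℂ) y = 0 := by
    intro a b c hab hac hbc hmem hne ha hc
    obtain ⟨ε, hε, hb⟩ : ∃ ε : ℤ, (ε = 1 ∨ ε = -1) ∧ (b : G → ℂ) z = ε := by
      rcases hs b ((hmem b).2 (by simp)) with h | h
      · exact ⟨1, Or.inl rfl, by simpa using h⟩
      · exact ⟨-1, Or.inr rfl, by simpa using h⟩
    have hB : principalBlock M G = {χ : IrrCharacter G | (χ : G → ℂ) = (fun _ => 1) ∨ χ = a ∨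
      χ = b ∨ χ = c} := Set.ext hmem
    refine ⟨a, b, c, ε, hε, hne a (by simp), hne b (by simp), hab, hac, hbc, hB, fun w hw => ?_,
      h.four_dvd hz a.2.isCharacter (by simpa using ha), h.four_dvd hz b.2.isCharacter hb,
      by simpa using h.four_dvd hz c.2.isCharacter (e := -1) (by simpa using hc), fun y hy => ?_⟩
    · rw [← a.2.isClassFunction.isConj (hone z w hz hw), ← b.2.isClassFunction.isConj (hone z w hz hw),
        ← c.2.isClassFunction.isConj (hone z w hz hw)]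
      exact ⟨ha, hb, hc⟩
    · have := h.sum_odd hz (y := y) (by rwa [← even_iff_two_dvd, Nat.not_even_iff_odd])
      rw [sum_mem_four hB (hne a (by simp)) (hne b (by simp)) (hne c (by simp)) hab hac hbc, ha, hb,
        hc] at this
      simp only [irrOne_apply] at this
      linear_combination this
  have h0 := h.sum_odd hz (y := 1) (by simp)
  rw [sum_mem_four (Set.ext hmem) (hne a (by simp)) (hne b (by simp)) (hne c (by simp)) hab hac hbc,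
    ← a.2.charDegree_eq, ← b.2.charDegree_eq, ← c.2.charDegree_eq] at h0
  simp only [irrOne_apply] at h0
  have pa := a.2.charDegree_pos
  have pb := b.2.charDegree_pos
  have pc := c.2.charDegree_pos
  rcases hs a ((hmem a).2 (by simp)) with ha | ha <;>
  rcases hs b ((hmem b).2 (by simp)) with hb | hb <;>
  rcases hs c ((hmem c).2 (by simp)) with hc | hc
  · rw [ha, hb, hc] at h0; norm_cast at h0; omega
  · exact key a b c hab hac hbc hmem hne ha hc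
  · exact key a c b hac hab hbc.symm (fun χ => by rw [hmem]; tauto) (fun χ h => hne χ (by tauto)) ha hb
  · exact key a b c hab hac hbc hmem hne ha hc
  · exact key b c a hbc hab.symm hac.symm (fun χ => by rw [hmem]; tauto) (fun χ h => hne χ (by tauto)) hb ha
  · exact key b c a hbc hab.symm hac.symm (fun χ => by rw [hmem]; tauto) (fun χ h => hne χ (by tauto)) hb ha
  · exact key c b a hbc.symm hac.symm hab.symm (fun χ => by rw [hmem]; tauto) (fun χ h => hne χ (by tauto)) hc ha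
  · rw [ha, hb, hc] at h0; norm_cast at h0; omega

end Cfsg.Agent.S0948
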