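import Mathlib
import Cfsg.Agent.H20.Cover
-- Template for statement S0954 (row 954; see /opt/grader/pristine/manifest.json for weights).
-- Copy to Cfsg/Agent/S0954.lean and replace the sorry. The statement below is byte-identical to the frozen
-- statement Cfsg.CfsgFrozen.S0954 (Cfsg/Statements/S0954.lean; the theorem Cfsg.blocks_of_group_with_normal_p_complement);
-- the grader kernel-checks Cfsg.Agent.S0954.result against that frozen type. Keep the theorem IN THIS FILE
-- (a `result` declared elsewhere and merely imported here is not credited); helpers may live anywhere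
-- under Cfsg/Agent/.
import Cfsg.Statements.S0954
-- import your own Cfsg.Agent.* helpers here

set_option autoImplicit false
open Cfsg

open H20 H05 H21 MonoidAlgebra

namespace Cfsg.Agent.S0954

/-- Let N be a normal subgroup of the finite group G of order prime to p and of p-power index (a normal p-complement), and fix a maximal ideal M of the algebraic integers containing p. Then two irreducible characters χ, ψ of G lie in the same block if and only if some irreducible character of N has nonzero inner product with both the restriction of χ and the restriction of ψ. -/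
theorem result {G : Type*} [Group G] [Fintype G] (p : ℕ) [Fact p.Prime] (M : Ideal Cfsg.AlgInt) (hM : Cfsg.IsPModular p M) (N : Subgroup G) [N.Normal] [Fintype N] (hN : ¬ p ∣ Nat.card N) (hidx : ∃ k : ℕ, N.index = p ^ k) (χ ψ : Cfsg.IrrCharacter G) : Cfsg.SameBlock M (χ : G → ℂ) (ψ : G → ℂ) ↔ ∃ θ : Cfsg.IrrCharacter N, Cfsg.classInner (fun n : N => (χ : G → ℂ) n) (θ : N → ℂ) ≠ 0 ∧ Cfsg.classInner (fun n : N => (ψ : G → ℂ) n) (θ : N → ℂ) ≠ 0 := by
  have := hM.2.1
  obtain ⟨k, hk⟩ := hidx
  simp only [← over_iff]
  constructor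
  · intro h
    obtain ⟨θ, hθ⟩ := exists_under N χ
    have hb := isPBlock_singleton_of_not_dvd hM hN θ
    have h2 : Covers _ (blockOf M (χ : G → ℂ)) {θ} := ⟨χ, mem_blockOf_self χ, θ, rfl, hθ⟩
    obtain ⟨θ', rfl, h3⟩ := h2.exists_over (isPBlock_blockOf χ) hb.isInt_idem h
    exact ⟨θ', hθ, h3⟩
  · rintro ⟨θ, h1, h2⟩
    have hb := isPBlock_singleton_of_not_dvd hM hN θ
    have h3 : Covers _ (blockOf M (χ : G → ℂ)) {θ} := ⟨χ, mem_blockOf_self χ, θ, rfl, h1⟩
    have h4 : Covers _ (blockOf M (ψ : G → ℂ)) {θ} := ⟨ψ, mem_blockOf_self ψ, θ, rfl, h2⟩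
    have := h3.unique_of_index hM hk h4 (isPBlock_blockOf χ) (isPBlock_blockOf ψ) hb
    rw [← mem_blockOf, this]
    exact mem_blockOf_self ψ

end Cfsg.Agent.S0954
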