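import Mathlib
import Cfsg.Agent.H20.First
import Cfsg.Agent.H02.PCore
-- Template for statement S0955 (row 955; see /opt/grader/pristine/manifest.json for weights).
-- Copy to Cfsg/Agent/S0955.lean and replace the sorry. The statement below is byte-identical to the frozen
-- statement Cfsg.CfsgFrozen.S0955 (Cfsg/Statements/S0955.lean; the theorem Cfsg.defect_group_eq_pcore_normalizer);
-- the grader kernel-checks Cfsg.Agent.S0955.result against that frozen type. Keep the theorem IN THIS FILE
-- (a `result` declared elsewhere and merely imported here is not credited); helpers may live anywhere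
-- under Cfsg/Agent/.
import Cfsg.Statements.S0955
-- import your own Cfsg.Agent.* helpers here

set_option autoImplicit false
open Cfsg

open H20 H05 H21 MonoidAlgebra

namespace Cfsg.Agent.S0955

/-- Let D be a defect group of a block of the finite group G relative to a maximal ideal M of the algebraic integers containing the prime p. Then D is the largest normal p-subgroup of its own normalizer: O_p(N_G(D)) = D. -/
theorem result {G : Type*} [Group G] [Finite G] (p : ℕ) [Fact p.Prime] (M : Ideal Cfsg.AlgInt) (hM : Cfsg.IsPModular p M) (B : Set (Cfsg.IrrCharacter G)) (hB : Cfsg.IsPBlock M B) (D : Subgroup G) (hD : Cfsg.IsDefectGroup p M B D) : (Cfsg.pCore p (Subgroup.normalizer (D : Set G))).map (Subgroup.normalizer (D : Set G)).subtype = D := by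
  have := hM.2.1
  exact le_antisymm (hD.le_of_normalizer hM hB (H02.pCore_isPGroup p _))
    (H02.le_pCoreOf Subgroup.le_normalizer le_rfl hD.isPGroup)

end Cfsg.Agent.S0955
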