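import Mathlib
import Cfsg.Agent.H20.Misc
-- Template for statement S0956 (row 956; see /opt/grader/pristine/manifest.json for weights).
-- Copy to Cfsg/Agent/S0956.lean and replace the sorry. The statement below is byte-identical to the frozen
-- statement Cfsg.CfsgFrozen.S0956 (Cfsg/Statements/S0956.lean; the theorem Cfsg.green_defect_group_sylow_intersection);
-- the grader kernel-checks Cfsg.Agent.S0956.result against that frozen type. Keep the theorem IN THIS FILE
-- (a `result` declared elsewhere and merely imported here is not credited); helpers may live anywhere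
-- under Cfsg/Agent/.
import Cfsg.Statements.S0956
-- import your own Cfsg.Agent.* helpers here

set_option autoImplicit false
open Cfsg

open H20 H05 H21 MonoidAlgebra Cfsg

namespace Cfsg.Agent.S0956

/-- Let D be a defect group of a block of the finite group G (relative to a maximal ideal M of the algebraic integers containing the prime p) and P a Sylow p-subgroup containing D. Then there is an element x of order prime to p such that D is a Sylow p-subgroup of the centralizer of x and D = P ∩ x P x⁻¹. -/
theorem result {G : Type*} [Group G] [Finite G] (p : ℕ) [Fact p.Prime] (M : Ideal Cfsg.AlgInt) (hM : Cfsg.IsPModular p M) (B : Set (Cfsg.IrrCharacter G)) (hB : Cfsg.IsPBlock M B) (D : Subgroup G) (hD : Cfsg.IsDefectGroup p M B D) (P : Sylow p G) (hDP : D ≤ P) : ∃ x : G, ¬ p ∣ orderOf x ∧ (∃ S : Sylow p (Subgroup.centralizer ({x} : Set G)), (S : Subgroup (Subgroup.centralizer ({x} : Set G))).map (Subgroup.centralizer ({x} : Set G)).subtype = D) ∧ (P : Subgroup G) ⊓ (P : Subgroup G).map (MulAut.conj x).toMonoidHom = D := by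
  have := hM.2.1
  obtain ⟨y, h1, h2, h3⟩ := ((maxBr_top_iff hM hB).2 hD).exists_inf_cj hM hB.isBI_top P.isPGroup' hDP le_top
  obtain ⟨S, hS⟩ := hD.sylIn_of_coeff hM hB h1 h2
  exact ⟨y, hB.not_dvd_of_coeff_eB_ne_zero hM h2, ⟨S, hS.symm⟩, h3⟩

end Cfsg.Agent.S0956
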