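import Mathlib
import Cfsg.Agent.H21.Rob
-- Template for statement S0957 (row 957; see /opt/grader/pristine/manifest.json for weights).
-- Copy to Cfsg/Agent/S0957.lean and replace the sorry. The statement below is byte-identical to the frozen
-- statement Cfsg.CfsgFrozen.S0957 (Cfsg/Statements/S0957.lean; the theorem Cfsg.sylow_coset_pair_count_divisibility);
-- the grader kernel-checks Cfsg.Agent.S0957.result against that frozen type. Keep the theorem IN THIS FILE
-- (a `result` declared elsewhere and merely imported here is not credited); helpers may live anywhere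
-- under Cfsg/Agent/.
import Cfsg.Statements.S0957
-- import your own Cfsg.Agent.* helpers here

set_option autoImplicit false
open Cfsg

open H20 H05 H21 MonoidAlgebra Cfsg

namespace Cfsg.Agent.S0957

/-- Let P be a Sylow p-subgroup of the finite group G, let g, h ∈ G and let p ^ d be the order of a Sylow p-subgroup of the centralizer of g. Then the number of pairs (y, z) with y conjugate to g, z conjugate to h and z * y⁻¹ ∈ P is divisible by the order of P divided by p ^ d. -/
theorem result {G : Type*} [Group G] [Finite G] (p : ℕ) [Fact p.Prime] (P : Sylow p G) (g h : G) (S : Sylow p (Subgroup.centralizer ({g} : Set G))) : Nat.card P / Nat.card S ∣ Nat.card {yz : G × G // IsConj g yz.1 ∧ IsConj h yz.2 ∧ yz.2 * yz.1⁻¹ ∈ (P : Subgroup G)} := by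
  classical
  have := Fintype.ofFinite G
  obtain ⟨M, hM⟩ := exists_isPModular (Fact.out : p.Prime)
  have := hM.2.1
  obtain ⟨w, h1, -, h3⟩ := unit_rob hM P (y := g) rfl
  have h4 : Nat.card {yz : G × G // IsConj g yz.1 ∧ IsConj h yz.2 ∧ yz.2 * yz.1⁻¹ ∈ (P : Subgroup G)} =
      nPairs (P : Subgroup G) h g := by
    refine Nat.card_congr ((Equiv.prodComm G G).subtypeEquiv fun yz => ?_)
    simp only [Equiv.prodComm_apply, Prod.fst_swap, Prod.snd_swap]
    rw [← (P : Subgroup G).inv_mem_iff]
    simp only [mul_inv_rev, inv_inv]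
    tauto
  rw [h4, P.card_eq_multiplicity, S.card_eq_multiplicity, Nat.pow_div ((Nat.factorization_le_iff_dvd Nat.card_pos.ne'
    Nat.card_pos.ne').2 (Subgroup.card_subgroup_dvd_card _) p) hM.1.pos]
  rcases eq_or_ne (nPairs (P : Subgroup G) h g) 0 with h5 | h5
  · rw [h5]; exact dvd_zero _
  have h6 := h3 h
  have hp0 : (p : ℂ) ≠ 0 := Nat.cast_ne_zero.2 hM.1.ne_zero
  set j := (Nat.card G).factorization p - (Nat.card (Subgroup.centralizer ({g} : Set G))).factorization p
  have h7 : MemLocalRing M ((nPairs (P : Subgroup G) h g : ℂ) / ((p ^ j : ℕ) : ℂ)) := by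
    rw [h6, Nat.cast_pow, mul_div_cancel_left₀ _ (pow_ne_zero _ hp0)]
    exact ring_mul h1 (ring_robW _ _ _)
  rw [ring_div_natCast_iff hM h5 (pow_ne_zero _ hM.1.ne_zero), hM.1.factorization_pow] at h7
  simp only [Finsupp.single_eq_same] at h7
  exact (hM.1.pow_dvd_iff_le_factorization h5).2 h7

end Cfsg.Agent.S0957
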