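import Mathlib
import Cfsg.Agent.H20.Defect
-- Template for statement S0958 (row 958; see /opt/grader/pristine/manifest.json for weights).
-- Copy to Cfsg/Agent/S0958.lean and replace the sorry. The statement below is byte-identical to the frozen
-- statement Cfsg.CfsgFrozen.S0958 (Cfsg/Statements/S0958.lean; the theorem Cfsg.block_induced_from_local_subgroup_iff_defect_group_contains);
-- the grader kernel-checks Cfsg.Agent.S0958.result against that frozen type. Keep the theorem IN THIS FILE
-- (a `result` declared elsewhere and merely imported here is not credited); helpers may live anywhere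
-- under Cfsg/Agent/.
import Cfsg.Statements.S0958
-- import your own Cfsg.Agent.* helpers here

set_option autoImplicit false
open Cfsg

open H20 H05 H21 MonoidAlgebra

namespace Cfsg.Agent.S0958

/-- Let P be a p-subgroup of the finite group G and H a subgroup with P ⊔ C_G(P) ≤ H ≤ N_G(P); fix a maximal ideal M of the algebraic integers containing p. Then a block B of G is induced by some block of H if and only if some conjugate of P is contained in a defect group of B. -/
theorem result {G : Type*} [Group G] [Finite G] (p : ℕ) [Fact p.Prime] (M : Ideal Cfsg.AlgInt) (hM : Cfsg.IsPModular p M) (P H : Subgroup G) (hP : IsPGroup p P) (hPH : P ⊔ Subgroup.centralizer (P : Set G) ≤ H) (hHN : H ≤ Subgroup.normalizer (P : Set G)) (B : Set (Cfsg.IrrCharacter G)) (hB : Cfsg.IsPBlock M B) : (∃ b : Set (Cfsg.IrrCharacter H), Cfsg.IsInducedBlock M H b B) ↔ ∃ D : Subgroup G, Cfsg.IsDefectGroup p M B D ∧ ∃ x : G, P.map (MulAut.conj x).toMonoidHom ≤ D := by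
  have := hM.2.1
  have hC := le_sup_right.trans hPH
  rw [exists_isInducedBlock_iff_br_ne_zero hM hP (le_sup_left.trans hPH) hC hHN hB]
  constructor
  · intro h
    obtain ⟨D, hD⟩ := hB.exists_isDefectGroup p
    exact ⟨D, hD, (hD.subConj_iff_br hM hB hP hC).2 h⟩
  · rintro ⟨D, hD, h⟩
    exact (hD.subConj_iff_br hM hB hP hC).1 h

end Cfsg.Agent.S0958
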