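import Mathlib
import Cfsg.Agent.H20.Defect
-- Template for statement S0959 (row 959; see /opt/grader/pristine/manifest.json for weights).
-- Copy to Cfsg/Agent/S0959.lean and replace the sorry. The statement below is byte-identical to the frozen
-- statement Cfsg.CfsgFrozen.S0959 (Cfsg/Statements/S0959.lean; the theorem Cfsg.brauer_map_nonzero_on_block_idempotent_iff);
-- the grader kernel-checks Cfsg.Agent.S0959.result against that frozen type. Keep the theorem IN THIS FILE
-- (a `result` declared elsewhere and merely imported here is not credited); helpers may live anywhere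
-- under Cfsg/Agent/.
import Cfsg.Statements.S0959
-- import your own Cfsg.Agent.* helpers here

set_option autoImplicit false
open Cfsg

open H20 H05 H21 MonoidAlgebra

namespace Cfsg.Agent.S0959

/-- Let B be a block of the finite group G with defect group D (relative to a maximal ideal M of the algebraic integers containing the prime p), and let P be a p-subgroup. Then there is an element g whose idempotent coefficient for B is a local integer outside the local ideal at M and which has a conjugate centralizing P, if and only if some conjugate of P is contained in D. -/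
theorem result {G : Type*} [Group G] [Finite G] (p : ℕ) [Fact p.Prime] (M : Ideal Cfsg.AlgInt) (hM : Cfsg.IsPModular p M) (B : Set (Cfsg.IrrCharacter G)) (hB : Cfsg.IsPBlock M B) (D : Subgroup G) (hD : Cfsg.IsDefectGroup p M B D) (P : Subgroup G) (hP : IsPGroup p P) : (∃ g : G, Cfsg.MemLocalRing M (Cfsg.blockCoeff B g) ∧ ¬ Cfsg.MemLocalIdeal M (Cfsg.blockCoeff B g) ∧ ∃ c : G, IsConj g c ∧ c ∈ Subgroup.centralizer (P : Set G)) ↔ ∃ x : G, P.map (MulAut.conj x).toMonoidHom ≤ D := by
  have := hM.2.1
  refine Iff.trans ?_ (hD.subConj_iff hM hB hP).symm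
  constructor
  · rintro ⟨g, -, h2, c, hc, hc'⟩
    refine ⟨c, hc', ?_⟩
    rwa [← (isCen_eB B).coeff_isConj hc, Ne, hB.coeff_eB_eq_zero_iff]
  · rintro ⟨k, hk, hk'⟩
    exact ⟨k, hB.ring_blockCoeff k, by rwa [Ne, hB.coeff_eB_eq_zero_iff] at hk', k, IsConj.refl k, hk⟩

end Cfsg.Agent.S0959
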