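import Mathlib
import Cfsg.Statements.S0961
import Cfsg.Agent.H21.Contrib

set_option autoImplicit false
open Cfsg

namespace Cfsg.Agent.S0961
open H05 Cfsg H20 H21 MonoidAlgebra Classical
open scoped ComplexConjugate

theorem tilde_eq {G : Type*} [Group G] (p : ℕ) (c : ℂ) (χ : G → ℂ) :
    (fun x : G => if p ∣ orderOf x then (0 : ℂ) else c * χ x) = c • pRegularPart p χ := by
  funext x
  simp only [Pi.smul_apply, smul_eq_mul, pRegularPart_apply]
  split_ifs <;> simp


/-- Let χ be an irreducible character of the finite group G and let p ^ a be the largest power of the prime p dividing the order of G. Then the function equal to p ^ a * χ x at elements x of order prime to p and to 0 elsewhere is a generalized character (a difference of characters). -/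
theorem result {G : Type*} [Group G] [Finite G] (p : ℕ) [Fact p.Prime] (χ : Cfsg.IrrCharacter G) : Cfsg.IsGeneralizedCharacter G (fun x : G => if p ∣ orderOf x then 0 else ((p ^ (Nat.card G).factorization p : ℕ) : ℂ) * (χ : G → ℂ) x) := by
  rw [tilde_eq, Nat.cast_pow]
  exact isGen_pow_smul_pRegularPart Fact.out χ.2.isGeneralizedCharacter

end Cfsg.Agent.S0961
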