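import Mathlib
import Cfsg.Agent.H21.Rob
-- Template for statement S0962 (row 962; see /opt/grader/pristine/manifest.json for weights).
-- Copy to Cfsg/Agent/S0962.lean and replace the sorry. The statement below is byte-identical to the frozen
-- statement Cfsg.CfsgFrozen.S0962 (Cfsg/Statements/S0962.lean; the theorem Cfsg.card_blocks_of_defect_ge_le_card_p_regular_classes);
-- the grader kernel-checks Cfsg.Agent.S0962.result against that frozen type. Keep the theorem IN THIS FILE
-- (a `result` declared elsewhere and merely imported here is not credited); helpers may live anywhere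
-- under Cfsg/Agent/.
import Cfsg.Statements.S0962
-- import your own Cfsg.Agent.* helpers here

set_option autoImplicit false
open Cfsg

open H20 H05 H21 MonoidAlgebra Cfsg

namespace Cfsg.Agent.S0962

/-- Fix a maximal ideal M of the algebraic integers containing the prime p and a natural number d. The number of blocks of the finite group G of defect at least d is at most the number of conjugacy classes of p-regular elements of G of defect at least d, where the defect of a class is the exponent of p in the order of the centralizer of any of its elements. -/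
theorem result {G : Type*} [Group G] [Finite G] (p : ℕ) [Fact p.Prime] (M : Ideal Cfsg.AlgInt) (hM : Cfsg.IsPModular p M) (d : ℕ) : Nat.card {B : Set (Cfsg.IrrCharacter G) // Cfsg.IsPBlock M B ∧ d ≤ Cfsg.blockDefect p B} ≤ Nat.card {C : ConjClasses G // ∃ g : G, ConjClasses.mk g = C ∧ Cfsg.IsPRegular p g ∧ d ≤ (Nat.card (Subgroup.centralizer ({g} : Set G))).factorization p} := by
  classical
  have := Fintype.ofFinite G
  have := hM.2.1
  set n := {B : Set (Cfsg.IrrCharacter G) // Cfsg.IsPBlock M B ∧ d ≤ Cfsg.blockDefect p B}
  set β := {C : ConjClasses G // ∃ g : G, ConjClasses.mk g = C ∧ Cfsg.IsPRegular p g ∧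
    d ≤ (Nat.card (Subgroup.centralizer ({g} : Set G))).factorization p}
  have := Fintype.ofFinite n
  have := Fintype.ofFinite β
  rw [Nat.card_eq_fintype_card, Nat.card_eq_fintype_card]
  refine card_le_of_mul_eq_one (F := Res M) (Matrix.of fun B C => lB M B.1 C.1.out)
    (Matrix.of fun C B => (eB M B.1).coeff C.1.out) ?_
  ext B B'
  rw [Matrix.mul_apply, Matrix.one_apply]
  simp only [Matrix.of_apply]
  rw [sum_lB_coeff B.2.1 B'.2.1 (fun C : β => C.1.out)]
  · by_cases h : B = B'
    · rw [if_pos h, if_pos (congrArg Subtype.val h)]
    · rw [if_neg h, if_neg fun h1 => h (Subtype.ext h1)]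
  · intro i j hij
    exact Subtype.ext (by rw [isConj_out_iff.1 hij, mk_out])
  · intro g h1 h2
    exact ⟨⟨ConjClasses.mk g, g, rfl, B'.2.1.not_dvd_of_coeff_eB_ne_zero hM h2,
      B.2.2.trans (defect_le_of_lB hM B.2.1 h1)⟩, isConj_out g⟩

end Cfsg.Agent.S0962
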