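import Mathlib
import Cfsg.Agent.H20.Cover
-- Template for statement S0963 (row 963; see /opt/grader/pristine/manifest.json for weights).
-- Copy to Cfsg/Agent/S0963.lean and replace the sorry. The statement below is byte-identical to the frozen
-- statement Cfsg.CfsgFrozen.S0963 (Cfsg/Statements/S0963.lean; the theorem Cfsg.constituent_of_restriction_iff_central_characters_agree);
-- the grader kernel-checks Cfsg.Agent.S0963.result against that frozen type. Keep the theorem IN THIS FILE
-- (a `result` declared elsewhere and merely imported here is not credited); helpers may live anywhere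
-- under Cfsg/Agent/.
import Cfsg.Statements.S0963
-- import your own Cfsg.Agent.* helpers here

set_option autoImplicit false
open Cfsg

open H20 H05 H21 MonoidAlgebra

namespace Cfsg.Agent.S0963

/-- Let N be a normal subgroup of the finite group G, χ an irreducible character of G and θ an irreducible character of N. Then θ occurs in the restriction of χ to N if and only if, for every n ∈ N, the central character of χ at n (class size in G times χ n over χ 1) equals the sum of θ m / θ 1 over the elements m of N conjugate in G to n. -/
theorem result {G : Type*} [Group G] [Fintype G] (N : Subgroup G) [N.Normal] [Fintype N] (χ : Cfsg.IrrCharacter G) (θ : Cfsg.IrrCharacter N) : Cfsg.classInner (fun n : N => (χ : G → ℂ) n) (θ : N → ℂ) ≠ 0 ↔ ∀ n : N, Cfsg.centralChar (χ : G → ℂ) (n : G) = Cfsg.inducedCentralChar N (θ : N → ℂ) (n : G) := by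
  rw [← over_iff]
  constructor
  · intro h n
    rw [← omega_classSum χ.2.isClassFunction, ← omega_res_classSum]
    refine omega_of_over χ.2 h (isCen_classSum _) fun g hg => coeff_setSum_of_notMem fun h1 => hg ?_
    obtain ⟨c, rfl⟩ := isConj_iff.1 h1
    exact Subgroup.Normal.conj_mem inferInstance _ n.2 c
  · intro h
    have hz := isCen_inc_idem_orb (N := N) {θ}
    have h1 : omega (χ : G → ℂ) (inc N (idem (orb N {θ}))) =
        omega (θ : N → ℂ) (res N (inc N (idem (orb N {θ})))) := by
      refine lam_ext_classSum (φ := omega (χ : G → ℂ)) (ψ := fun z => omega (θ : N → ℂ) (res N z))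
        (fun a b _ _ => omega_add _ a b) (fun c a _ => omega_smul _ c a)
        (fun a b _ _ => by rw [map_add, omega_add]) (fun c a _ => by rw [map_smul, omega_smul])
        hz fun g hg => ?_
      have hg' : g ∈ N := by_contra fun h1 => hg (coeff_inc_of_notMem N _ h1)
      rw [omega_classSum χ.2.isClassFunction, omega_res_classSum]
      exact h ⟨g, hg'⟩
    rw [res_inc, omega_idem_of_mem (subset_orb _ (Set.mem_singleton θ)),
      omega_inc_idem_orb_eq_one_iff] at h1
    obtain ⟨θ', rfl, h2⟩ := h1
    exact h2

end Cfsg.Agent.S0963
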