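import Mathlib
import Cfsg.Agent.H20.Cover
-- Template for statement S0965 (row 965; see /opt/grader/pristine/manifest.json for weights).
-- Copy to Cfsg/Agent/S0965.lean and replace the sorry. The statement below is byte-identical to the frozen
-- statement Cfsg.CfsgFrozen.S0965 (Cfsg/Statements/S0965.lean; the theorem Cfsg.passman_covering_criterion);
-- the grader kernel-checks Cfsg.Agent.S0965.result against that frozen type. Keep the theorem IN THIS FILE
-- (a `result` declared elsewhere and merely imported here is not credited); helpers may live anywhere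
-- under Cfsg/Agent/.
import Cfsg.Statements.S0965
-- import your own Cfsg.Agent.* helpers here

set_option autoImplicit false
open Cfsg

open H20 H05 H21 MonoidAlgebra

namespace Cfsg.Agent.S0965

/-- Let N be a normal subgroup of the finite group G and let B, b be blocks of G and of N relative to a maximal ideal M of the algebraic integers containing the prime p. Then some χ ∈ B has a constituent in b on restriction to N if and only if, for all χ ∈ B, θ ∈ b and n ∈ N, the central character of χ at n is congruent modulo the local ideal at M to the sum of θ m / θ 1 over the elements m ∈ N conjugate in G to n. -/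
theorem result {G : Type*} [Group G] [Fintype G] (p : ℕ) [Fact p.Prime] (M : Ideal Cfsg.AlgInt) (hM : Cfsg.IsPModular p M) (N : Subgroup G) [N.Normal] [Fintype N] (B : Set (Cfsg.IrrCharacter G)) (hB : Cfsg.IsPBlock M B) (b : Set (Cfsg.IrrCharacter N)) (hb : Cfsg.IsPBlock M b) : (∃ χ ∈ B, ∃ θ ∈ b, Cfsg.classInner (fun n : N => (χ : G → ℂ) n) (θ : N → ℂ) ≠ 0) ↔ ∀ χ ∈ B, ∀ θ ∈ b, ∀ n : N, Cfsg.MemLocalIdeal M (Cfsg.centralChar (χ : G → ℂ) (n : G) - Cfsg.inducedCentralChar N (θ : N → ℂ) (n : G)) := by
  have := hM.2.1
  rw [← covers_iff]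
  have key : ∀ (χ : IrrCharacter G) (θ : IrrCharacter N) (n : G),
      MemLocalIdeal M (centralChar (χ : G → ℂ) n - inducedCentralChar N (θ : N → ℂ) n) ↔
      lam M (χ : G → ℂ) (classSum (Res M) n) = lam M (θ : N → ℂ) (res N (classSum (Res M) n)) := by
    intro χ θ n
    rw [ideal_sub_comm, ideal_induced_sub_iff θ.2 χ.2, eq_comm]
  simp only [key]
  constructor
  · intro h χ hχ θ hθ n
    refine h.lam_eq hB hb hχ hθ (isCen_classSum _) fun g hg => coeff_setSum_of_notMem fun h1 => hg ?_
    obtain ⟨c, rfl⟩ := isConj_iff.1 h1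
    exact Subgroup.Normal.conj_mem inferInstance _ n.2 c
  · intro h
    obtain ⟨χ, hχ⟩ := hB.nonempty
    obtain ⟨θ, hθ⟩ := hb.nonempty
    exact covers_of_lam hB hb hχ hθ fun n hn => h χ hχ θ hθ ⟨n, hn⟩

end Cfsg.Agent.S0965
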