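import Mathlib
import Cfsg.Agent.H20.Cover
-- Template for statement S0966 (row 966; see /opt/grader/pristine/manifest.json for weights).
-- Copy to Cfsg/Agent/S0966.lean and replace the sorry. The statement below is byte-identical to the frozen
-- statement Cfsg.CfsgFrozen.S0966 (Cfsg/Statements/S0966.lean; the theorem Cfsg.unique_block_covering_when_quotient_p_group);
-- the grader kernel-checks Cfsg.Agent.S0966.result against that frozen type. Keep the theorem IN THIS FILE
-- (a `result` declared elsewhere and merely imported here is not credited); helpers may live anywhere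
-- under Cfsg/Agent/.
import Cfsg.Statements.S0966
-- import your own Cfsg.Agent.* helpers here

set_option autoImplicit false
open Cfsg

open H20 H05 H21 MonoidAlgebra

namespace Cfsg.Agent.S0966

/-- Let N be a normal subgroup of p-power index in the finite group G and b a block of N relative to a maximal ideal M of the algebraic integers containing p. Then there is exactly one block B of G containing a character whose restriction to N has a constituent in b. -/
theorem result {G : Type*} [Group G] [Fintype G] (p : ℕ) [Fact p.Prime] (M : Ideal Cfsg.AlgInt) (hM : Cfsg.IsPModular p M) (N : Subgroup G) [N.Normal] [Fintype N] (hidx : ∃ k : ℕ, N.index = p ^ k) (b : Set (Cfsg.IrrCharacter N)) (hb : Cfsg.IsPBlock M b) : ∃! B : Set (Cfsg.IrrCharacter G), Cfsg.IsPBlock M B ∧ ∃ χ ∈ B, ∃ θ ∈ b, Cfsg.classInner (fun n : N => (χ : G → ℂ) n) (θ : N → ℂ) ≠ 0 := by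
  have := hM.2.1
  obtain ⟨k, hk⟩ := hidx
  simp only [← covers_iff]
  obtain ⟨B, hB, h⟩ := exists_covers hb
  exact ⟨B, ⟨hB, h⟩, fun B' h' => h'.2.unique_of_index hM hk h h'.1 hB hb⟩

end Cfsg.Agent.S0966
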