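import Mathlib
import Cfsg.Agent.H20.Quot2
-- Template for statement S0968 (row 968; see /opt/grader/pristine/manifest.json for weights).
-- Copy to Cfsg/Agent/S0968.lean and replace the sorry. The statement below is byte-identical to the frozen
-- statement Cfsg.CfsgFrozen.S0968 (Cfsg/Statements/S0968.lean; the theorem Cfsg.block_with_defect_group_p_when_p_central_mod_centralizer);
-- the grader kernel-checks Cfsg.Agent.S0968.result against that frozen type. Keep the theorem IN THIS FILE
-- (a `result` declared elsewhere and merely imported here is not credited); helpers may live anywhere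
-- under Cfsg/Agent/.
import Cfsg.Statements.S0968
-- import your own Cfsg.Agent.* helpers here

set_option autoImplicit false
open Cfsg

open H20 H05 H21 MonoidAlgebra Cfsg

namespace Cfsg.Agent.S0968

/-- Let P be a p-subgroup of the finite group G with P ⊔ C_G(P) = G, and let B be a block with defect group P relative to a maximal ideal M of the algebraic integers containing p. Then there is exactly one θ ∈ B with θ x = θ 1 for all x ∈ P; for this θ the exponent of p in θ(1) equals the exponent of p in the index of P; and the number of members of B equals the number of conjugacy classes of P. -/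
theorem result {G : Type*} [Group G] [Finite G] (p : ℕ) [Fact p.Prime] (M : Ideal Cfsg.AlgInt) (hM : Cfsg.IsPModular p M) (P : Subgroup G) (hP : IsPGroup p P) (hG : P ⊔ Subgroup.centralizer (P : Set G) = ⊤) (B : Set (Cfsg.IrrCharacter G)) (hB : Cfsg.IsPBlock M B) (hD : Cfsg.IsDefectGroup p M B P) : (∃! θ : Cfsg.IrrCharacter G, θ ∈ B ∧ ∀ x ∈ P, (θ : G → ℂ) x = (θ : G → ℂ) 1) ∧ (∀ θ ∈ B, (∀ x ∈ P, (θ : G → ℂ) x = (θ : G → ℂ) 1) → (Cfsg.charDegree (θ : G → ℂ)).factorization p = P.index.factorization p) ∧ Nat.card B = Nat.card (ConjClasses P) := by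
  have := hM.2.1
  have : P.Normal := by
    rw [← Subgroup.normalizer_eq_top_iff, eq_top_iff, ← hG]
    exact sup_le Subgroup.le_normalizer (Subgroup.centralizer_le_normalizer _)
  obtain ⟨χ, hχ, hk⟩ := hB.exists_ker hM hP
  refine ⟨⟨χ, ⟨hχ, hk⟩, fun θ hθ => eq_of_ker hM hG hB hD hχ hk hθ.1 hθ.2⟩, fun θ hθ hk' => ?_, ?_⟩
  · have h1 := factorization_degree_of_ker hM hG hB hD hθ hk'
    have h2 := factorization_index_add (p := p) P
    omega
  · obtain ⟨Φ, -⟩ := exists_thZ_equiv hM hG hB hD hχ hk
    rw [Nat.card_congr Φ, card_irr_eq_card_conjClasses]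

end Cfsg.Agent.S0968
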