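import Mathlib
import Cfsg.Agent.H21.Column
import Cfsg.Agent.H21.Subsec
import Cfsg.Agent.H21.DefectVal
-- Template for statement S0969 (row 969; see /opt/grader/pristine/manifest.json for weights).
-- Copy to Cfsg/Agent/S0969.lean and replace the sorry. The statement below is byte-identical to the frozen
-- statement Cfsg.CfsgFrozen.S0969 (Cfsg/Statements/S0969.lean; the theorem Cfsg.laradji_central_defect_group);
-- the grader kernel-checks Cfsg.Agent.S0969.result against that frozen type. Keep the theorem IN THIS FILE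
-- (a `result` declared elsewhere and merely imported here is not credited); helpers may live anywhere
-- under Cfsg/Agent/.
import Cfsg.Statements.S0969
-- import your own Cfsg.Agent.* helpers here

set_option autoImplicit false
open Cfsg

open H20 H05 H21 MonoidAlgebra Cfsg

namespace Cfsg.Agent.S0969

/-- Let D be a central p-subgroup of the finite group G and χ an irreducible character with the exponent of p in χ(1) equal to the exponent of p in the index of D; fix a maximal ideal M of the algebraic integers containing p. Then D is a defect group of the block of χ, and χ g = 0 whenever the p-part of g does not lie in D. -/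
theorem result {G : Type*} [Group G] [Finite G] (p : ℕ) [Fact p.Prime] (M : Ideal Cfsg.AlgInt) (hM : Cfsg.IsPModular p M) (D : Subgroup G) (hD : IsPGroup p D) (hDZ : D ≤ Subgroup.center G) (χ : Cfsg.IrrCharacter G) (hdeg : (Cfsg.charDegree (χ : G → ℂ)).factorization p = D.index.factorization p) : Cfsg.IsDefectGroup p M (Cfsg.blockOf M (χ : G → ℂ)) D ∧ ∀ g x : G, Cfsg.IsPPart p g x → x ∉ D → (χ : G → ℂ) g = 0 := by
  classical
  have := Fintype.ofFinite G
  have := Fintype.ofFinite D
  have := hM.2.1
  have hB := H20.isPBlock_blockOf (M := M) χ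
  have hχ := H20.mem_blockOf_self (M := M) χ
  set B := blockOf M (χ : G → ℂ)
  have : D.Normal := ⟨fun n hn g => by
    rw [Subgroup.mem_center_iff.1 (hDZ hn) g, mul_inv_cancel_right]; exact hn⟩
  obtain ⟨P, hP⟩ := hB.exists_isDefectGroup p
  have hDP := hP.normal_le hM hB hD
  obtain ⟨k, hk⟩ := IsPGroup.iff_card.1 hD
  have h1 := factorization_index_add (p := p) D
  rw [hk, hM.1.factorization_pow, Finsupp.single_eq_same] at h1
  obtain ⟨n, hn⟩ := exists_int_pow_contrib hM.1 χ χ.2.isGeneralizedCharacter (i := k) (by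
    unfold nu; omega)
  have hn1 : n ≤ 1 := by
    have h2 : ∑ x ∈ (Finset.univ : Finset D) ×ˢ (Finset.univ.filter fun g : G => ¬ p ∣ orderOf g),
        ‖(χ : G → ℂ) (x.1 * x.2)‖ ^ 2 ≤ ∑ g, ‖(χ : G → ℂ) g‖ ^ 2 := by
      rw [← Finset.sum_image (f := fun g => ‖(χ : G → ℂ) g‖ ^ 2) (g := fun x : D × G => x.1 * x.2)]
      · exact Finset.sum_le_sum_of_subset_of_nonneg (Finset.subset_univ _) fun _ _ _ => by positivity
      · intro x hx y hy hxy
        simp only [Finset.coe_product, Finset.coe_univ, Finset.coe_filter, Finset.mem_univ, true_and,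
          Set.mem_prod, Set.mem_univ, Set.mem_ofPred_eq] at hx hy
        have e1 := pPart_mul_of_commute (orderOf_pow_of_mem hD x.1.2) hx
          (Subgroup.mem_center_iff.1 (hDZ x.1.2) _).symm
        have e2 := pPart_mul_of_commute (orderOf_pow_of_mem hD y.1.2) hy
          (Subgroup.mem_center_iff.1 (hDZ y.1.2) _).symm
        have e3 : (x.1 : G) = y.1 := by rw [← e1, ← e2]; exact congrArg _ hxy
        refine Prod.ext (Subtype.ext e3) ?_
        simp only [e3] at hxy
        exact mul_left_cancel hxy
    rw [χ.2.sum_norm_sq, Finset.sum_product] at h2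
    have h3 : ∀ (z : D) (y : G), ‖(χ : G → ℂ) (z * y)‖ = ‖(χ : G → ℂ) y‖ := by
      intro z y
      rw [χ.2.apply_mul_of_mem_center (hDZ z.2), norm_mul, norm_div, χ.2.norm_eq_of_mem_center (hDZ z.2),
        χ.2.isCharacter.norm_apply_one, div_self (Nat.cast_ne_zero.2 χ.2.charDegree_pos.ne'), one_mul]
    simp only [h3, Finset.sum_const, Finset.card_univ, nsmul_eq_mul, ← Nat.card_eq_fintype_card, hk] at h2
    rw [contrib_def] at hn
    simp only [Complex.mul_conj, Complex.normSq_eq_norm_sq] at hn
    have h4 : (n : ℝ) = p ^ k * ((Nat.card G : ℝ)⁻¹ * ∑ g with ¬ p ∣ orderOf g, ‖(χ : G → ℂ) g‖ ^ 2) := by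
      apply Complex.ofReal_injective
      push_cast at hn ⊢
      exact hn.symm
    have h5 : (0 : ℝ) < Nat.card G := Nat.cast_pos.2 Nat.card_pos
    have : (n : ℝ) ≤ 1 := by
      rw [h4, mul_left_comm, inv_mul_le_iff₀ h5, mul_one]
      exact_mod_cast h2
    exact_mod_cast this
  have h6 := factorization_degree_add p hχ
  obtain ⟨m, hm, hm'⟩ := exists_cm_eq hM hB hχ hχ
  have h7 := cast_cm hM.1 hχ χ
  have hd : blockDefect p B = blockHeight p B (χ : G → ℂ) + k := by omega
  rw [hm, hd, pow_add, mul_assoc, hn] at h7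
  have h8 : m = n := by
    push_cast at h7
    exact_mod_cast mul_left_cancel₀ (pow_ne_zero _ (Nat.cast_ne_zero.2 hM.1.ne_zero)) h7
  have h9 : blockHeight p B (χ : G → ℂ) = 0 := by
    by_contra hc
    have h10 := hm'.2 hc
    have h11 := cm_self_nonneg hM hB hχ
    rw [hm] at h11
    have h12 : 0 ≤ m := le_of_mul_le_mul_left (by simpa using h11)
      (pow_pos (Nat.cast_pos.2 hM.1.pos) (blockHeight p B (χ : G → ℂ)))
    have h13 : m ≠ 0 := by
      rintro rfl
      rw [← h8, contrib_self_eq, Int.cast_zero, mul_eq_zero, classInner_self_eq_zero] at hn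
      rcases hn with hn | hn
      · exact pow_ne_zero _ (Nat.cast_ne_zero.2 hM.1.ne_zero) hn
      · have := congrFun hn 1
        rw [pRegularPart_of_not_dvd _ (by simpa using hM.1.ne_one)] at this
        exact χ.2.apply_one_ne_zero this
    have h14 : m = 1 := by omega
    rw [h14] at h10
    exact hM.1.ne_one (by exact_mod_cast Int.eq_one_of_dvd_one (by positivity) h10)
  have h15 : D = P := Subgroup.eq_of_le_of_card_ge hDP (by rw [hP.card_eq hM hB, hk, hd, h9, zero_add])
  subst h15
  refine ⟨hP, fun g x hx hxD => ?_⟩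
  by_contra hc
  obtain ⟨t, ht⟩ := exists_conj_mem_of_apply_ne_zero hM hB hP hχ hc
  rw [← isPPart_iff.1 hx] at ht
  exact hxD (by simpa [mul_assoc] using this.conj_mem _ ht t⁻¹)

end Cfsg.Agent.S0969
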