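import Mathlib
import Cfsg.Agent.H20.Knorr
-- Template for statement S0970 (row 970; see /opt/grader/pristine/manifest.json for weights).
-- Copy to Cfsg/Agent/S0970.lean and replace the sorry. The statement below is byte-identical to the frozen
-- statement Cfsg.CfsgFrozen.S0970 (Cfsg/Statements/S0970.lean; the theorem Cfsg.fong_defect_group_of_block_covering_invariant_block);
-- the grader kernel-checks Cfsg.Agent.S0970.result against that frozen type. Keep the theorem IN THIS FILE
-- (a `result` declared elsewhere and merely imported here is not credited); helpers may live anywhere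
-- under Cfsg/Agent/.
import Cfsg.Statements.S0970
-- import your own Cfsg.Agent.* helpers here

set_option autoImplicit false
open Cfsg

open H20 H05 H21 MonoidAlgebra

namespace Cfsg.Agent.S0970

/-- Let N be a normal subgroup of the finite group G and fix a maximal ideal M of the algebraic integers containing the prime p. Let b be a block of N that is invariant under conjugation by G, and B a block of G covering b (some χ ∈ B has a constituent in b) whose defect is at least that of every block covering b. If P is a defect group of B, then p does not divide the index of P ⊔ N, the subgroup P ∩ N of N is a defect group of b, and the defect of B equals the defect of b plus the exponent of p in the index of N. -/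
theorem result {G : Type*} [Group G] [Fintype G] (p : ℕ) [Fact p.Prime] (M : Ideal Cfsg.AlgInt) (hM : Cfsg.IsPModular p M) (N : Subgroup G) [hN : N.Normal] [Fintype N] (b : Set (Cfsg.IrrCharacter N)) (hb : Cfsg.IsPBlock M b) (hinv : ∀ g : G, ∀ θ ∈ b, ∀ θ' : Cfsg.IrrCharacter N, (∀ n : N, (θ' : N → ℂ) n = (θ : N → ℂ) ⟨g * n * g⁻¹, hN.conj_mem n n.2 g⟩) → θ' ∈ b) (B : Set (Cfsg.IrrCharacter G)) (hB : Cfsg.IsPBlock M B) (hcov : ∃ χ ∈ B, ∃ θ ∈ b, Cfsg.classInner (fun n : N => (χ : G → ℂ) n) (θ : N → ℂ) ≠ 0) (hmax : ∀ B' : Set (Cfsg.IrrCharacter G), Cfsg.IsPBlock M B' → (∃ χ ∈ B', ∃ θ ∈ b, Cfsg.classInner (fun n : N => (χ : G → ℂ) n) (θ : N → ℂ) ≠ 0) → Cfsg.blockDefect p B' ≤ Cfsg.blockDefect p B) (P : Subgroup G) (hP : Cfsg.IsDefectGroup p M B P) : ¬ p ∣ (P ⊔ N).index ∧ Cfsg.IsDefectGroup p M b ((P ⊓ N).subgroupOf N) ∧ Cfsg.blockDefect p B = Cfsg.blockDefect p b + N.index.factorization p := by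
  classical
  have := hM.2.1
  have hNn : (⊤ : Subgroup G) ≤ Subgroup.normalizer (N : Set G) :=
    (Subgroup.normalizer_eq_top N).ge
  have h1 : ∀ g, cjB N g b = b := fun g => by
    obtain ⟨θ, hθ⟩ := (hb.cjB g).nonempty
    obtain ⟨θ', hθ', h⟩ := mem_cjB.1 hθ
    exact (hb.cjB g).eq_of_mem hb hθ (hinv g θ' hθ' θ h)
  have h2 : IsCen (iB M N b) := isCen_inc_eB_of_inv h1
  have h3 := (covers_iff_iB hB hb).1 (covers_iff.2 hcov)
  have hP' := (maxBr_top_iff hM hB).2 hP
  obtain ⟨x, -, -, -, h4⟩ := hb.isBI.exists_cj_maxBr_inf hM le_top hNn hB.isBI_top h3 hP'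
  have h5 := h4.cjA x⁻¹
  rw [h2.cjA_eq, cj_inf, cj_inv_cj, cj_normal] at h5
  have h6 := (maxBr_iB_iff hM hb inf_le_right).1 h5
  obtain ⟨S⟩ : Nonempty (Sylow p G) := inferInstance
  obtain ⟨D, -, hD, h7, h8, h9⟩ := hb.isBI.exists_fong hM le_top hNn (h2.cInv _) S.isPGroup' le_top
  have h10 : iB M N b = ∑ B ∈ blocks G M with Covers N B b, eB M B := by
    rw [← inc_eB_orb_eq_sum hb.isInt_idem, orb_eq_self h1]; rfl
  rw [h10, map_sum] at h7
  obtain ⟨B', hB', h11⟩ := Finset.exists_ne_zero_of_sum_ne_zero h7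
  obtain ⟨hB', h12⟩ := Finset.mem_filter.1 hB'
  rw [mem_blocks] at hB'
  obtain ⟨E, hE⟩ := hB'.exists_isDefectGroup p
  have h13 : Nat.card D ≤ Nat.card P := by
    refine (Nat.le_of_dvd Nat.card_pos ((hE.subConj_iff hM hB' hD).2
      (trunc_ne_zero_iff.1 h11)).card_dvd).trans ?_
    rw [hE.card_eq hM hB', hP.card_eq hM hB]
    exact Nat.pow_le_pow_right hM.1.pos (hmax B' hB' (covers_iff.1 h12))
  have h14 := h5.card_eq hM hb.isBI h9
  have key : ∀ R : Subgroup G, Nat.card R * (R ⊔ N).index = Nat.card (R ⊓ N :) * N.index := by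
    intro R
    rw [← Subgroup.relIndex_mul_index (le_sup_right : N ≤ R ⊔ N), Subgroup.relIndex_sup_right,
      ← mul_assoc, ← Subgroup.inf_relIndex_left, Subgroup.relIndex, ← H26.card_subgroupOf
        (inf_le_left : R ⊓ N ≤ R), Subgroup.card_mul_index]
  have h15 : ¬ p ∣ (D ⊔ N).index := fun h => S.not_dvd_index
    (h.trans (Subgroup.index_dvd_of_le (h8.trans (sup_comm N D).le)))
  obtain ⟨m, hm⟩ := IsPGroup.iff_card.1 hD
  have h16 := key D
  have h17 := key P
  rw [h14, ← h17, hm, hP.card_eq hM hB] at h16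
  rw [hm, hP.card_eq hM hB, Nat.pow_le_pow_iff_right hM.1.one_lt] at h13
  have h18 := congrArg (fun n => n.factorization p) h16
  have hp0 : ∀ n, p ^ n ≠ 0 := fun n => pow_ne_zero _ hM.1.ne_zero
  simp only [Nat.factorization_mul (hp0 _) Subgroup.index_ne_zero_of_finite, Finsupp.add_apply,
    hM.1.factorization_pow, Finsupp.single_eq_same,
    Nat.factorization_eq_zero_of_not_dvd h15] at h18
  have h19 : (P ⊔ N).index.factorization p = 0 := by omega
  refine ⟨fun h => ?_, h6, ?_⟩
  · exact (hM.1.factorization_pos_of_dvd Subgroup.index_ne_zero_of_finite h).ne' h19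
  · have h20 := congrArg (fun n => n.factorization p) h17
    rw [← H26.card_subgroupOf (inf_le_right : P ⊓ N ≤ N), hP.card_eq hM hB,
      h6.card_eq hM hb] at h20
    simpa only [Nat.factorization_mul (hp0 _) Subgroup.index_ne_zero_of_finite, Finsupp.add_apply,
      hM.1.factorization_pow, Finsupp.single_eq_same, h19, add_zero] using h20

end Cfsg.Agent.S0970
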