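import Mathlib
import Cfsg.Agent.H20.Knorr
-- Template for statement S0973 (row 973; see /opt/grader/pristine/manifest.json for weights).
-- Copy to Cfsg/Agent/S0973.lean and replace the sorry. The statement below is byte-identical to the frozen
-- statement Cfsg.CfsgFrozen.S0973 (Cfsg/Statements/S0973.lean; the theorem Cfsg.extended_first_main_theorem);
-- the grader kernel-checks Cfsg.Agent.S0973.result against that frozen type. Keep the theorem IN THIS FILE
-- (a `result` declared elsewhere and merely imported here is not credited); helpers may live anywhere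
-- under Cfsg/Agent/.
import Cfsg.Statements.S0973
-- import your own Cfsg.Agent.* helpers here

set_option autoImplicit false
open Cfsg

open H20 H05 H21 MonoidAlgebra

namespace Cfsg.Agent.S0973

/-- Let B be a block of the finite group G with defect group P (relative to a maximal ideal M of the algebraic integers containing p), and let L = P ⊔ C_G(P). Then (i) some block b of L with defect group P (viewed in L) induces B, and (ii) if b and b' are blocks of L both inducing B, there is n ∈ N_G(P) carrying b to b': for every θ ∈ b there is θ' ∈ b' with θ' x = θ (n x n⁻¹) for all x ∈ L. -/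
theorem result {G : Type*} [Group G] [Finite G] (p : ℕ) [Fact p.Prime] (M : Ideal Cfsg.AlgInt) (hM : Cfsg.IsPModular p M) (B : Set (Cfsg.IrrCharacter G)) (hB : Cfsg.IsPBlock M B) (P : Subgroup G) (hP : Cfsg.IsDefectGroup p M B P) : (∃ b : Set (Cfsg.IrrCharacter ↥(P ⊔ Subgroup.centralizer (P : Set G))), Cfsg.IsDefectGroup p M b (P.subgroupOf (P ⊔ Subgroup.centralizer (P : Set G))) ∧ Cfsg.IsInducedBlock M (P ⊔ Subgroup.centralizer (P : Set G)) b B) ∧ ∀ b b' : Set (Cfsg.IrrCharacter ↥(P ⊔ Subgroup.centralizer (P : Set G))), Cfsg.IsInducedBlock M (P ⊔ Subgroup.centralizer (P : Set G)) b B → Cfsg.IsInducedBlock M (P ⊔ Subgroup.centralizer (P : Set G)) b' B → ∃ n ∈ Subgroup.normalizer (P : Set G), ∀ θ ∈ b, ∃ θ' ∈ b', ∀ x : ↥(P ⊔ Subgroup.centralizer (P : Set G)), ∀ hx : n * (x : G) * n⁻¹ ∈ P ⊔ Subgroup.centralizer (P : Set G), (θ' : ↥(P ⊔ Subgroup.centralizer (P : Set G)) → ℂ) x = (θ : ↥(P ⊔ Subgroup.centralizer (P : Set G)) → ℂ) ⟨n * (x : G) * n⁻¹, hx⟩ := by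
  have := hM.2.1
  have h0 : P ⊔ Subgroup.centralizer (P : Set G) ≤ Subgroup.normalizer (P : Set G) :=
    sup_le Subgroup.le_normalizer (Subgroup.centralizer_le_normalizer _)
  have h1 : Subgroup.normalizer (P : Set G) ≤
      Subgroup.normalizer ((P ⊔ Subgroup.centralizer (P : Set G) : Subgroup G) : Set G) :=
    H26.le_normalizer_sup le_rfl (H26.normalizer_le_normalizer_centralizer P)
  constructor
  · obtain ⟨b, h2, h3⟩ := hP.exists_induced hM hB le_sup_left le_sup_right h0
    exact ⟨b, h3, h2⟩
  · intro b b' h h'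
    have h2 := ((maxBr_top_iff hM hB).2 hP).isBI_trunc hM hB.isBI_top
    rw [inf_top_eq] at h2
    obtain ⟨x, hx, h3⟩ := h2.exists_cjA h0 h1 h.1.isBI h'.1.isBI (by
      rw [(isInducedBlock_iff_iB hM hP.isPGroup le_sup_left le_sup_right h0 h.1 hB).1 h]
      exact h.1.iB_ne_zero) (by
      rw [(isInducedBlock_iff_iB hM hP.isPGroup le_sup_left le_sup_right h0 h'.1 hB).1 h']
      exact h'.1.iB_ne_zero)
    have h4 := cj_of_mem_normalizer (h1 hx)
    rw [← iB_bmap_cjIso_symm h4] at h3
    refine ⟨x⁻¹, inv_mem hx, fun θ hθ => ⟨irrComap (cjIso x h4).symm θ, ?_, fun y hy => ?_⟩⟩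
    · rw [h'.1.eq_of_iB_eq (h.1.bmap _) h3]
      exact irrComap_mem_bmap.2 hθ
    · rw [irrComap_apply]
      exact congrArg _ (Subtype.ext (by rw [coe_cjIso_symm]; simp only [inv_inv]))

end Cfsg.Agent.S0973
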