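import Mathlib
import Cfsg.Statements.S0986
import Cfsg.Agent.H19.SylowCount

set_option autoImplicit false
open Cfsg

namespace Cfsg.Agent.S0986

/-- Let P and Q be distinct Sylow p-subgroups of a finite group G chosen so that the order of P ∩ Q is as large as possible among intersections of two distinct Sylow p-subgroups, and let N be the normalizer of P ∩ Q. Then N has more than one Sylow p-subgroup, any two distinct Sylow p-subgroups of N intersect exactly in P ∩ Q, and each Sylow p-subgroup of N lies in exactly one Sylow p-subgroup of G. -/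
theorem result {G : Type*} [Group G] [Finite G] (p : ℕ) [Fact p.Prime] (P Q : Sylow p G) (hPQ : P ≠ Q) (hmax : ∀ P' Q' : Sylow p G, P' ≠ Q' → Nat.card ↥((P' : Subgroup G) ⊓ (Q' : Subgroup G)) ≤ Nat.card ↥((P : Subgroup G) ⊓ (Q : Subgroup G))) : 1 < Nat.card (Sylow p ↥(Subgroup.normalizer (((P : Subgroup G) ⊓ (Q : Subgroup G) : Subgroup G) : Set G))) ∧ (∀ S T : Sylow p ↥(Subgroup.normalizer (((P : Subgroup G) ⊓ (Q : Subgroup G) : Subgroup G) : Set G)), S ≠ T → (S : Subgroup _) ⊓ (T : Subgroup _) = ((P : Subgroup G) ⊓ (Q : Subgroup G)).subgroupOf (Subgroup.normalizer (((P : Subgroup G) ⊓ (Q : Subgroup G) : Subgroup G) : Set G))) ∧ ∀ S : Sylow p ↥(Subgroup.normalizer (((P : Subgroup G) ⊓ (Q : Subgroup G) : Subgroup G) : Set G)), ∃! T : Sylow p G, (S : Subgroup _).map (Subgroup.normalizer (((P : Subgroup G) ⊓ (Q : Subgroup G) : Subgroup G) : Set G)).subtype ≤ (T : Subgroup G) := by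
  set D : Subgroup G := (P : Subgroup G) ⊓ (Q : Subgroup G) with hD
  set N : Subgroup G := Subgroup.normalizer (D : Set G) with hN
  have hDP : D < P := lt_of_le_of_ne inf_le_left (fun e => hPQ (H19.sylow_eq_of_le (by
    rw [← e]; exact inf_le_right)))
  have hDQ : D < Q := lt_of_le_of_ne inf_le_right (fun e => hPQ (H19.sylow_eq_of_le (by
    rw [← e]; exact inf_le_left)).symm)
  have hP' := H19.lt_normalizer_inf_of_pgroup P.2 hDP
  have hQ' := H19.lt_normalizer_inf_of_pgroup Q.2 hDQ
  -- a subgroup bigger than D lies in at most one Sylow subgroup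
  have huniq : ∀ (X : Subgroup G) (S T : Sylow p G), Nat.card D < Nat.card X → X ≤ S → X ≤ T → S = T := by
    intro X S T hX hS hT
    by_contra hne
    have h1 := hmax S T hne
    have h2 : Nat.card X ≤ Nat.card ↥((S : Subgroup G) ⊓ (T : Subgroup G)) :=
      Subgroup.card_le_of_le (le_inf hS hT)
    omega
  have hcardlt : ∀ X : Subgroup G, D < X → Nat.card D < Nat.card X := fun X hX =>
    lt_of_le_of_ne (Subgroup.card_le_of_le hX.le)
      (fun e => hX.ne (Subgroup.eq_of_le_of_card_ge hX.le e.ge))
  have hsub : ∀ R : Sylow p G, ∃ S : Sylow p N, (N ⊓ R : Subgroup G) ≤ (S : Subgroup N).map N.subtype := by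
    intro R
    have h1 : IsPGroup p ((R : Subgroup G).subgroupOf N) := R.2.comap_subtype
    obtain ⟨S, hS⟩ := h1.exists_le_sylow
    refine ⟨S, ?_⟩
    rw [inf_comm, ← Subgroup.subgroupOf_map_subtype]
    exact Subgroup.map_mono hS
  have hbig : ∀ S : Sylow p N, Nat.card D < Nat.card ((S : Subgroup N).map N.subtype) := by
    intro S
    obtain ⟨S0, hS0⟩ := hsub P
    have h1 := Subgroup.card_le_of_le hS0
    have h2 := hcardlt _ hP'
    rw [Subgroup.card_map_of_injective N.subtype_injective] at h1 ⊢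
    rw [H19.sylow_card_eq S S0]
    exact h2.trans_le h1
  refine ⟨?_, ?_, ?_⟩
  · by_contra hc
    have hsub1 : Subsingleton (Sylow p N) := by
      rw [← Finite.card_le_one_iff_subsingleton]; omega
    obtain ⟨S, hS⟩ := hsub P
    obtain ⟨T, hT⟩ := hsub Q
    obtain rfl : S = T := Subsingleton.elim _ _
    obtain ⟨R, hR⟩ := (S.2.map N.subtype).exists_le_sylow
    exact hPQ ((huniq _ P R (hcardlt _ hP') inf_le_right (hS.trans hR)).trans
      (huniq _ Q R (hcardlt _ hQ') inf_le_right (hT.trans hR)).symm)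
  · intro S T hST
    have hDp : IsPGroup p (D.subgroupOf N) := (P.2.to_inf_left (K := Q)).comap_subtype
    have : (D.subgroupOf N).Normal := Subgroup.normal_in_normalizer
    have hle : D.subgroupOf N ≤ (S : Subgroup N) ⊓ (T : Subgroup N) :=
      le_inf (hDp.le_sylow_of_normal S) (hDp.le_sylow_of_normal T)
    symm
    apply Subgroup.eq_of_le_of_card_ge hle
    obtain ⟨S', hS'⟩ := (S.2.map N.subtype).exists_le_sylow
    obtain ⟨T', hT'⟩ := (T.2.map N.subtype).exists_le_sylow
    have hne : S' ≠ T' := by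
      rintro rfl
      apply hST
      have h1 : IsPGroup p ((S' : Subgroup G).subgroupOf N) := S'.2.comap_subtype
      have h2 := S.3 h1 (Subgroup.map_le_iff_le_comap.mp hS')
      have h3 := T.3 h1 (Subgroup.map_le_iff_le_comap.mp hT')
      exact Sylow.ext (h2.symm.trans h3)
    have h1 := hmax S' T' hne
    have h2 : ((S : Subgroup N) ⊓ (T : Subgroup N)).map N.subtype ≤ (S' : Subgroup G) ⊓ (T' : Subgroup G) :=
      le_inf ((Subgroup.map_mono inf_le_left).trans hS') ((Subgroup.map_mono inf_le_right).trans hT')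
    have h3 := Subgroup.card_le_of_le h2
    rw [Subgroup.card_map_of_injective N.subtype_injective] at h3
    have h4 : Nat.card (D.subgroupOf N) = Nat.card D :=
      Nat.card_congr (Subgroup.subgroupOfEquivOfLe Subgroup.le_normalizer).toEquiv
    omega
  · intro S
    obtain ⟨R, hR⟩ := (S.2.map N.subtype).exists_le_sylow
    exact ⟨R, hR, fun T hT => huniq _ T R (hbig S) hT hR⟩

end Cfsg.Agent.S0986
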