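import Mathlib
import Cfsg.Statements.S0987
import Cfsg.Agent.H19.SylowCount

set_option autoImplicit false
open Cfsg

namespace Cfsg.Agent.S0987

/-- If a finite group has order pqr for primes p < q < r, then its Sylow r-subgroups are normal. -/
theorem result {G : Type*} [Group G] [Finite G] (p q r : ℕ) (hp : p.Prime) (hq : q.Prime) [Fact r.Prime] (hpq : p < q) (hqr : q < r) (hG : Nat.card G = p * q * r) (R : Sylow r G) : (R : Subgroup G).Normal := by
  have hr : r.Prime := Fact.out
  have := Fact.mk hp
  have hmin : (Nat.card G).minFac = p := by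
    rw [hG]
    apply le_antisymm (Nat.minFac_le_of_dvd hp.two_le (Dvd.intro (q * r) (by ring)))
    have hne : p * q * r ≠ 1 := by
      have := hp.two_le; have := hq.two_le; have := hr.two_le
      nlinarith [Nat.mul_le_mul (Nat.mul_le_mul hp.two_le hq.two_le) hr.two_le]
    have h1 := Nat.minFac_prime hne
    have h2 := Nat.minFac_dvd (p * q * r)
    rcases (Nat.Prime.dvd_mul h1).mp h2 with h | h
    · rcases (Nat.Prime.dvd_mul h1).mp h with h | h
      · exact ((Nat.prime_dvd_prime_iff_eq h1 hp).mp h).ge
      · rw [(Nat.prime_dvd_prime_iff_eq h1 hq).mp h]; omega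
    · rw [(Nat.prime_dvd_prime_iff_eq h1 hr).mp h]; omega
  obtain ⟨P⟩ : Nonempty (Sylow p G) := inferInstance
  have hfac : ∀ s a : ℕ, s.Prime → a.Coprime s → (s * a).factorization s = 1 := by
    intro s a hs ha
    rw [Nat.factorization_mul hs.ne_zero (by rintro rfl; simp at ha; exact hs.one_lt.ne' ha)]
    simp only [Finsupp.add_apply, hs.factorization_self]
    rw [Nat.factorization_eq_zero_of_not_dvd ((Nat.Prime.coprime_iff_not_dvd hs).mp ha.symm)]
  have cpq : p.Coprime q := (Nat.coprime_primes hp hq).mpr hpq.ne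
  have cqr : q.Coprime r := (Nat.coprime_primes hq hr).mpr hqr.ne
  have cpr : p.Coprime r := (Nat.coprime_primes hp hr).mpr (hpq.trans hqr).ne
  have hP : Nat.card (P : Subgroup G) = p := by
    rw [P.card_eq_multiplicity, hG, mul_assoc, hfac p _ hp (Nat.Coprime.mul_left cpq.symm cpr.symm), pow_one]
  have hR : Nat.card (R : Subgroup G) = r := by
    rw [R.card_eq_multiplicity, hG, mul_comm, hfac r _ hr (Nat.Coprime.mul_left cpr cqr), pow_one]
  have hcyc : IsCyclic P := isCyclic_of_prime_card hP
  have hc := hcyc.isComplement' hmin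
  set K := (MonoidHom.transferSylow P (hcyc.normalizer_le_centralizer hmin)).ker with hK
  have hKi : K.index = p := by rw [hc.symm.index_eq_card, hP]
  have hKc : Nat.card K = q * r := by
    have := K.index_mul_card
    rw [hKi, hG, mul_assoc] at this
    exact Nat.eq_of_mul_eq_mul_left hp.pos this
  have hRK : (R : Subgroup G) ≤ K := by
    intro x hx
    rw [← QuotientGroup.eq_one_iff, ← orderOf_eq_one_iff]
    have h1 : orderOf (x : G ⧸ K) ∣ p := by
      have := orderOf_dvd_natCard (x : G ⧸ K)
      rwa [← Subgroup.index_eq_card, hKi] at this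
    have h2 : orderOf (x : G ⧸ K) ∣ r :=
      (orderOf_map_dvd (QuotientGroup.mk' K) x).trans ((Subgroup.orderOf_dvd_natCard _ hx).trans hR.dvd)
    exact Nat.eq_one_of_dvd_coprimes cpr h1 h2
  let R' : Sylow r K := R.subtype hRK
  have hR' : Nat.card (R' : Subgroup K) = r :=
    (Nat.card_congr (Subgroup.subgroupOfEquivOfLe hRK).toEquiv).trans hR
  have hidx : (R' : Subgroup K).index = q := by
    have := (R' : Subgroup K).index_mul_card
    rw [hR', hKc] at this
    exact Nat.eq_of_mul_eq_mul_right hr.pos this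
  have h1 := R'.card_dvd_index
  rw [hidx] at h1
  have h2 := card_sylow_modEq_one r K
  have h3 : Nat.card (Sylow r K) = 1 := by
    rcases (Nat.dvd_prime hq).mp h1 with h | h
    · exact h
    · rw [h, Nat.ModEq, Nat.mod_eq_of_lt hqr, Nat.mod_eq_of_lt hr.one_lt] at h2
      exact absurd h2 hq.one_lt.ne'
  have : Subsingleton (Sylow r K) := (Nat.card_eq_one_iff_unique.mp h3).1
  have h4 : ((R' : Subgroup K).map K.subtype).Normal := inferInstance
  rwa [Sylow.coe_subtype, Subgroup.subgroupOf_map_subtype, inf_eq_left.mpr hRK] at h4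

end Cfsg.Agent.S0987
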