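import Mathlib
import Cfsg.Statements.S0988
import Cfsg.Agent.H19.Sieve

set_option autoImplicit false
open Cfsg

namespace Cfsg.Agent.S0988

/-- If a finite simple group has order p^2 * q * r with p, q and r prime, then its order is 60. -/
theorem result {G : Type*} [Group G] [Finite G] [IsSimpleGroup G] (p q r : ℕ) (hp : p.Prime) (hq : q.Prime) (hr : r.Prime) (hG : Nat.card G = p ^ 2 * q * r) : Nat.card G = 60 := by
  have h1 : ¬ IsMulCommutative G := H19.not_comm_of_simple_card (by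
    rw [hG]; exact Nat.not_prime_mul (by nlinarith [hp.two_le, hq.two_le]) hr.one_lt.ne')
  have hs : ¬ Group.IsSolvable G := fun h => h1 ⟨⟨IsSimpleGroup.comm_iff_isSolvable.2 h⟩⟩
  have h2 := Cfsg.Agent.S0499.result h1 (Nat.not_odd_iff_even.1 fun h => hs (Cfsg.Agent.S0205.result h))
  have h3 : p ≠ q := by rintro rfl; exact hs (H05.burnside_paqb G hp hr (a := 3) (b := 1) (by rw [hG]; ring))
  have h4 : p ≠ r := by rintro rfl; exact hs (H05.burnside_paqb G hp hq (a := 3) (b := 1) (by rw [hG]; ring))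
  have h5 : q ≠ r := by rintro rfl; exact hs (H05.burnside_paqb G hp hq (a := 2) (b := 2) (by rw [hG]; ring))
  have h6 : ∀ s : ℕ, s.Prime → s ≠ 2 → s % 2 = 1 := fun s hs h => Nat.odd_iff.1 (hs.odd_of_ne_two h)
  obtain rfl : p = 2 := by
    by_contra h
    have e1 : 4 ∣ q * r := (Nat.Coprime.pow_right 2 ((Nat.coprime_primes Nat.prime_two hp).2 (Ne.symm h) |>.pow_left 2)
      ).dvd_of_dvd_mul_left (by rw [← mul_assoc, ← hG]; omega)
    by_cases e : q = 2
    · have := h6 r hr (by omega); subst e; omega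
    · have e2 : 4 ∣ r := (Nat.Coprime.pow_left 2 ((Nat.coprime_primes Nat.prime_two hq).2 (Ne.symm e))).dvd_of_dvd_mul_left e1
      rcases hr.eq_one_or_self_of_dvd 4 e2 with h | h
      · omega
      · subst h; exact absurd hr (by decide)
  have e1 := Nat.odd_iff.1 ((hq.odd_of_ne_two h3.symm).mul (hr.odd_of_ne_two h4.symm))
  have key : ∀ s : ℕ, s.Prime → s ≠ 2 → s ≠ 3 → Nat.card G = 12 * s → Nat.card G = 60 := fun s hs h2 h3 e => by
    have := hs.two_le
    have := h6 s hs h2
    obtain ⟨t, rfl⟩ : ∃ t, s = t + 5 := ⟨s - 5, by omega⟩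
    have := H19.card_of_big_simple h1 hs (e ▸ dvd_mul_left _ _) (by rw [e]; nlinarith [Nat.zero_le (t ^ 3), Nat.zero_le (t ^ 2)])
    rw [show (t + 5) ^ 2 - 1 = t ^ 2 + 10 * t + 24 by rw [Nat.sub_eq_iff_eq_add] <;> nlinarith, show t + 5 - 1 = t + 4 from rfl,
      show (t + 4) ^ 2 - 1 = t ^ 2 + 8 * t + 15 by rw [Nat.sub_eq_iff_eq_add] <;> nlinarith, e] at this
    rcases this with h | h <;> nlinarith
  rw [mul_assoc] at hG
  rcases (Nat.Prime.dvd_mul Nat.prime_three).1 (show 3 ∣ q * r by omega) with e | e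
  · obtain rfl := (Nat.prime_dvd_prime_iff_eq Nat.prime_three hq).1 e
    exact key r hr h4.symm h5.symm (by omega)
  · obtain rfl := (Nat.prime_dvd_prime_iff_eq Nat.prime_three hr).1 e
    exact key q hq h3.symm h5 (by omega)

end Cfsg.Agent.S0988
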