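import Mathlib
import Cfsg.Statements.S0991
import Cfsg.Agent.H19.Basic

set_option autoImplicit false
open Cfsg

namespace Cfsg.Agent.S0991

/-- Embedding Theorem: if a non-abelian finite simple group has a proper subgroup of index n, then it is isomorphic to a subgroup of the alternating group of degree n. -/
theorem result {G : Type*} [Group G] [Finite G] [IsSimpleGroup G] (hG : ¬ IsMulCommutative G) (H : Subgroup G) (hH : H ≠ ⊤) : ∃ f : G →* ↥(alternatingGroup (Fin H.index)), Function.Injective f := by
  classical
  haveI : Fintype (G ⧸ H) := Fintype.ofFinite _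
  obtain ⟨f, hf, -⟩ := H19.exists_alt_embed_of_action hG (H19.exists_smul_ne_quotient hH)
  let e : (G ⧸ H) ≃ Fin H.index := Finite.equivFin (G ⧸ H)
  exact ⟨(e.altCongrHom).toMonoidHom.comp f, (e.altCongrHom).injective.comp hf⟩

end Cfsg.Agent.S0991
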