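import Mathlib
import Cfsg.Statements.S0992
import Cfsg.Agent.H19.SylowCount

set_option autoImplicit false
open Cfsg

namespace Cfsg.Agent.S0992

/-- Let G be a non-abelian finite simple group of even order not divisible by 8, and T a Sylow 2-subgroup. Then T is a Klein four-group and the centralizer of T has index 3 in the normalizer of T. -/
theorem result {G : Type*} [Group G] [Finite G] [IsSimpleGroup G] (hG : ¬ IsMulCommutative G) (h2 : Even (Nat.card G)) (h8 : ¬ 8 ∣ Nat.card G) (T : Sylow 2 G) : IsKleinFour ↥(T : Subgroup G) ∧ (Subgroup.centralizer ((T : Subgroup G) : Set G)).relIndex (Subgroup.normalizer ((T : Subgroup G) : Set G)) = 3 := by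
  have hd : 2 ∣ Nat.card G := h2.two_dvd
  have hmin : (Nat.card G).minFac = 2 := (Nat.minFac_eq_two_iff _).mpr hd
  have hncyc : ¬ IsCyclic T := fun hc =>
    H19.not_normalizer_le_centralizer hG hd T (hc.normalizer_le_centralizer hmin)
  obtain ⟨k, hk⟩ := T.2.exists_card_eq
  have hk3 : k < 3 := by
    by_contra h
    apply h8
    exact (pow_dvd_pow 2 (not_lt.mp h)).trans (hk ▸ Subgroup.card_subgroup_dvd_card _)
  have hk2 : k = 2 := by
    interval_cases k
    · have : Subsingleton (T : Subgroup G) := (Nat.card_eq_one_iff_unique.mp hk).1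
      exact absurd isCyclic_of_subsingleton hncyc
    · exact absurd (isCyclic_of_prime_card (p := 2) hk) hncyc
    · rfl
  subst hk2
  have hK : IsKleinFour (T : Subgroup G) :=
    ⟨hk, (not_isCyclic_iff_exponent_eq_prime Nat.prime_two hk).mp hncyc⟩
  refine ⟨hK, ?_⟩
  have h1 := (H19.relIndex_centralizer_normalizer_dvd (T : Subgroup G)).trans
    (H19.card_mulAut_dvd_factorial _)
  rw [hk] at h1
  have hcomm := IsKleinFour.isMulCommutative (G := (T : Subgroup G))
  have h3 : ¬ 2 ∣ (Subgroup.centralizer ((T : Subgroup G) : Set G)).relIndex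
      (Subgroup.normalizer ((T : Subgroup G) : Set G)) := fun h =>
    T.not_dvd_index (h.trans ((Subgroup.relIndex_dvd_of_le_left _ (T : Subgroup G).le_centralizer).trans
      (Subgroup.relIndex_dvd_index_of_le Subgroup.le_normalizer)))
  have h4 : (Subgroup.centralizer ((T : Subgroup G) : Set G)).relIndex
      (Subgroup.normalizer ((T : Subgroup G) : Set G)) ≠ 1 := fun h =>
    H19.not_normalizer_le_centralizer hG hd T (Subgroup.relIndex_eq_one.mp h)
  generalize (Subgroup.centralizer ((T : Subgroup G) : Set G)).relIndex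
      (Subgroup.normalizer ((T : Subgroup G) : Set G)) = m at *
  have h5 : m ∣ 6 := h1
  have h6 := Nat.le_of_dvd (by norm_num) h5
  interval_cases m <;> simp_all

end Cfsg.Agent.S0992
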