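import Mathlib
import Cfsg.Statements.S0995
import Cfsg.Agent.H19.SylowCount

set_option autoImplicit false
open Cfsg

namespace Cfsg.Agent.S0995

/-- Let G be a finite perfect group containing an element z of prime order p whose centralizer is the cyclic group it generates. Let t be the number of conjugacy classes of elements of order p. Then t divides p - 1, the number of Sylow p-subgroups has the form 1 + n * p, and |G| * t = (p - 1) * p * (1 + n * p). -/
theorem result {G : Type*} [Group G] [Finite G] (hperf : commutator G = ⊤) (p : ℕ) [Fact p.Prime] (z : G) (hz : orderOf z = p) (hC : Subgroup.centralizer ({z} : Set G) = Subgroup.zpowers z) : ∃ n t : ℕ, t = Nat.card {c : ConjClasses G // ∃ g : G, ConjClasses.mk g = c ∧ orderOf g = p} ∧ t ∣ p - 1 ∧ Nat.card (Sylow p G) = 1 + n * p ∧ Nat.card G * t = (p - 1) * p * (1 + n * p) := by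
  classical
  have hp : p.Prime := Fact.out
  obtain ⟨P, hP⟩ := (H19.isPGroup_zpowers_of_orderOf hz).exists_le_sylow
  have hz1 : z ≠ 1 := by rintro rfl; rw [orderOf_one] at hz; exact hp.one_lt.ne hz
  have hPz : (P : Subgroup G) = Subgroup.zpowers z := by
    refine le_antisymm ?_ hP
    have hzP : z ∈ (P : Subgroup G) := hP (Subgroup.mem_zpowers z)
    have : Nontrivial (P : Subgroup G) := ⟨⟨⟨z, hzP⟩, 1, fun h => hz1 (congrArg Subtype.val h)⟩⟩
    have := P.2.center_nontrivial
    obtain ⟨⟨⟨w, hwP⟩, hw⟩, hw1⟩ := exists_ne (1 : Subgroup.center (P : Subgroup G))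
    have hwc : ∀ y ∈ (P : Subgroup G), y * w = w * y := fun y hy =>
      congrArg Subtype.val (Subgroup.mem_center_iff.mp hw ⟨y, hy⟩)
    have hwz : w ∈ Subgroup.zpowers z := by
      rw [← hC, Subgroup.mem_centralizer_singleton_iff]; exact (hwc z hzP).symm
    have hw1' : w ≠ 1 := fun h => hw1 (Subtype.ext (Subtype.ext h))
    have hzw : z ∈ Subgroup.zpowers w := by
      have h1 : Subgroup.zpowers w ≤ Subgroup.zpowers z := Subgroup.zpowers_le.mpr hwz
      have h2 := Subgroup.card_dvd_of_le h1
      rw [Nat.card_zpowers z, hz] at h2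
      rcases (Nat.dvd_prime hp).mp h2 with h | h
      · rw [Nat.card_zpowers, orderOf_eq_one_iff] at h; exact absurd h hw1'
      · rw [Subgroup.eq_of_le_of_card_ge h1 (by rw [h, Nat.card_zpowers, hz])]
        exact Subgroup.mem_zpowers z
    intro y hy
    rw [← hC, Subgroup.mem_centralizer_singleton_iff]
    obtain ⟨k, rfl⟩ := hzw
    exact (Commute.zpow_right (hwc y hy) k)
  have hcard : Nat.card (P : Subgroup G) = p := by rw [hPz, Nat.card_zpowers, hz]
  have h1 := H19.card_orderOf_eq_prime hcard
  -- centralizers of elements of order p have order p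
  have hcen : ∀ g : G, orderOf g = p → Nat.card (Subgroup.centralizer ({g} : Set G)) = p := by
    intro g hg
    obtain ⟨Q, hQ⟩ := H19.exists_sylow_eq_zpowers hcard hg
    obtain ⟨c, hc⟩ := MulAction.exists_smul_eq G P Q
    have h2 : Subgroup.centralizer ({g} : Set G) = Subgroup.centralizer ((Q : Subgroup G) : Set G) := by
      rw [hQ, Subgroup.zpowers_eq_closure, Subgroup.centralizer_closure]
    have h3 : Subgroup.centralizer ((P : Subgroup G) : Set G) = P := by
      rw [hPz, Subgroup.zpowers_eq_closure, Subgroup.centralizer_closure, hC, Subgroup.zpowers_eq_closure]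
    have h4 : Subgroup.centralizer ((Q : Subgroup G) : Set G) = Q := by
      apply le_antisymm
      · intro x hx
        rw [← hc] at hx ⊢
        refine ⟨c⁻¹ * x * c, ?_, by simp [mul_assoc]⟩
        change c⁻¹ * x * c ∈ (P : Subgroup G)
        rw [← h3]
        intro y hy
        have := hx (c * y * c⁻¹) ⟨y, hy, rfl⟩
        calc y * (c⁻¹ * x * c) = c⁻¹ * (c * y * c⁻¹ * x) * c := by group
          _ = _ := by rw [this]; group
      · have : IsCyclic (Q : Subgroup G) := by rw [hQ]; infer_instance
        exact Subgroup.le_centralizer _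
    rw [h2, h4, H19.sylow_card_eq Q P, hcard]
  let T := {c : ConjClasses G // ∃ g : G, ConjClasses.mk g = c ∧ orderOf g = p}
  have hcount : Nat.card {x : G // orderOf x = p} * p = Nat.card T * Nat.card G := by
    have := Fintype.ofFinite T
    let f : {x : G // orderOf x = p} → T := fun x => ⟨ConjClasses.mk x.1, x.1, rfl, x.2⟩
    rw [Nat.card_congr (Equiv.sigmaFiberEquiv f).symm, Nat.card_sigma, Finset.sum_mul]
    have h3 : ∀ y, Nat.card {a // f a = y} * p = Nat.card G := by
      rintro ⟨_, g, rfl, hg⟩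
      rw [← H19.card_conj_mul_card_centralizer g, hcen g hg]
      congr 1
      refine Nat.card_congr (Equiv.ofBijective (fun a => ⟨a.1.1, ?_⟩) ⟨?_, ?_⟩)
      · exact (ConjClasses.mk_eq_mk_iff_isConj.mp (congrArg Subtype.val a.2)).symm
      · intro a b hab
        exact Subtype.ext (Subtype.ext (by simpa using hab))
      · rintro ⟨x, hx⟩
        refine ⟨⟨⟨x, ?_⟩, Subtype.ext (ConjClasses.mk_eq_mk_iff_isConj.mpr hx.symm)⟩, rfl⟩
        obtain ⟨c, rfl⟩ := isConj_iff.mp hx
        simpa [hg] using (MulAut.conj c).orderOf_eq g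
    rw [Finset.sum_congr rfl (fun y _ => h3 y), Finset.sum_const, Finset.card_univ, smul_eq_mul,
      ← Nat.card_eq_fintype_card]
  have h5 := card_sylow_modEq_one p G
  have hpos : 0 < Nat.card (Sylow p G) := Nat.card_pos
  obtain ⟨n, hn⟩ := (Nat.modEq_iff_dvd' hpos).mp h5.symm
  have hn' : Nat.card (Sylow p G) = 1 + n * p := by rw [mul_comm]; omega
  refine ⟨n, Nat.card T, rfl, ?_, hn', ?_⟩
  · have h6 := H19.card_sylow_mul_card_normalizer P
    obtain ⟨e, he⟩ : p ∣ Nat.card (Subgroup.normalizer (P : Set G)) :=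
      hcard.symm.dvd.trans (Subgroup.card_dvd_of_le (Subgroup.le_normalizer (H := (P : Subgroup G))))
    refine ⟨e, ?_⟩
    rw [h1, ← h6, he] at hcount
    apply Nat.eq_of_mul_eq_mul_left (Nat.mul_pos hpos hp.pos)
    calc _ = Nat.card (Sylow p G) * (p - 1) * p := by ring
      _ = _ := by rw [hcount]; ring
  · rw [mul_comm, ← hcount, h1, hn']; ring

end Cfsg.Agent.S0995
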