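import Mathlib
import Cfsg.Statements.S0996
import Cfsg.Agent.H19.Brauer43

set_option autoImplicit false
open Cfsg

namespace Cfsg.Agent.S0996

/-- Let G be a finite perfect group containing an element z of prime order p whose centralizer is the cyclic group it generates, and suppose the number 1 + n * p of Sylow p-subgroups satisfies n < (p + 3) / 2. Then p > 3 and G is isomorphic to the projective special linear group of dimension 2 over the field with p elements, or p - 1 is a power of 2 and G is isomorphic to that group over the field with p - 1 elements. -/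
theorem result {G : Type*} [Group G] [Finite G] (hperf : commutator G = ⊤) (p : ℕ) [Fact p.Prime] (z : G) (hz : orderOf z = p) (hC : Subgroup.centralizer ({z} : Set G) = Subgroup.zpowers z) (hn : 2 * Nat.card (Sylow p G) < (p + 1) * (p + 2)) : (∃ (F : Type) (_ : Field F) (_ : Fintype F), Fintype.card F = p ∧ 3 < p ∧ Nonempty (G ≃* Matrix.ProjectiveSpecialLinearGroup (Fin 2) F)) ∨ (∃ (m : ℕ) (F : Type) (_ : Field F) (_ : Fintype F), Fintype.card F = 2 ^ m ∧ p = 2 ^ m + 1 ∧ 3 < p ∧ Nonempty (G ≃* Matrix.ProjectiveSpecialLinearGroup (Fin 2) F)) := by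
  obtain ⟨P, hP⟩ := H19.exists_sylow_of_selfCent hz hC
  have hc : Nat.card P = p := by rw [show Nat.card P = Nat.card (P : Subgroup G) from rfl, hP, Nat.card_zpowers, hz]
  obtain ⟨n, hn'⟩ := H19.exists_card_sylow p G
  obtain ⟨h3, h | ⟨m, hm, h⟩⟩ := H19.brauer43_of hperf P hc hn' (fun h => by
    have := Nat.mul_le_mul_right p h.le
    rw [hn'] at hn; nlinarith) (Or.inr ((Subgroup.centralizer_le (Set.singleton_subset_iff.2
      (hP.ge (Subgroup.mem_zpowers z)))).trans (hC.trans hP.symm).le))
  · exact Or.inl ⟨ZMod p, inferInstance, inferInstance, ZMod.card p, h3, h⟩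
  · have hm0 : m ≠ 0 := by rintro rfl; omega
    obtain ⟨F, _, _, hF⟩ := H19.exists_field_two_pow hm0
    obtain ⟨e⟩ := h F hF
    obtain ⟨e'⟩ := H19.nonempty_sl_equiv_psl_of_even (F := F) (hF ▸ even_iff_two_dvd.2 (dvd_pow_self 2 hm0))
    exact Or.inr ⟨m, F, _, _, hF, hm, h3, ⟨e.trans e'⟩⟩

end Cfsg.Agent.S0996
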