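import Mathlib
import Cfsg.Statements.S1001
import Cfsg.Agent.S0904
import Cfsg.Agent.S0144

set_option autoImplicit false
open Cfsg

namespace Cfsg.Agent.S1001

/-- In a finite simple group whose order has the form p * 3^a * 2^b with p prime, the centralizer of any element of order p is the cyclic group it generates. -/
theorem result {G : Type*} [Group G] [Finite G] [IsSimpleGroup G] (p a b : ℕ) (hp : p.Prime) (hG : Nat.card G = p * 3 ^ a * 2 ^ b) (x : G) (hx : orderOf x = p) : Subgroup.centralizer ({x} : Set G) = Subgroup.zpowers x := by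
  have hsolv : Group.IsSolvable G → Subgroup.centralizer ({x} : Set G) = Subgroup.zpowers x := by
    intro hs
    have hc : ∀ a b : G, a * b = b * a := IsSimpleGroup.comm_iff_isSolvable.mpr hs
    have : IsMulCommutative G := ⟨⟨hc⟩⟩
    have hq : (Nat.card G).Prime := Group.is_simple_iff_prime_card.mp inferInstance
    have hd : p ∣ Nat.card G := hx ▸ orderOf_dvd_natCard x
    have hpq : p = Nat.card G := (Nat.prime_dvd_prime_iff_eq hp hq).mp hd
    have htop : Subgroup.zpowers x = ⊤ := by
      rw [← Subgroup.card_eq_iff_eq_top, Nat.card_zpowers, hx, hpq]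
    rw [htop, eq_top_iff]
    intro g _
    rw [Subgroup.mem_centralizer_singleton_iff]
    exact hc g x
  by_cases h2 : p = 2
  · apply hsolv
    apply Cfsg.Agent.S0144.result 3 2 a (b + 1) Nat.prime_three Nat.prime_two
    rw [hG, h2]; ring
  by_cases h3 : p = 3
  · apply hsolv
    apply Cfsg.Agent.S0144.result 3 2 (a + 1) b Nat.prime_three Nat.prime_two
    rw [hG, h3]; ring
  haveI : Fact p.Prime := ⟨hp⟩
  have hP : IsPGroup p (Subgroup.zpowers x) := IsPGroup.of_card (n := 1) (by rw [Nat.card_zpowers, hx, pow_one])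
  have hidx : ¬ p ∣ (Subgroup.zpowers x).index := by
    have h1 := (Subgroup.zpowers x).card_mul_index
    rw [Nat.card_zpowers, hx, hG, mul_assoc] at h1
    have h4 : (Subgroup.zpowers x).index = 3 ^ a * 2 ^ b := Nat.eq_of_mul_eq_mul_left hp.pos h1
    rw [h4]
    intro hd
    rcases (Nat.Prime.dvd_mul hp).mp hd with hd | hd
    · exact h3 ((Nat.prime_dvd_prime_iff_eq hp Nat.prime_three).mp (hp.dvd_of_dvd_pow hd))
    · exact h2 ((Nat.prime_dvd_prime_iff_eq hp Nat.prime_two).mp (hp.dvd_of_dvd_pow hd))
  have key := Cfsg.Agent.S0904.result (G := G) 3 2 p a b Nat.prime_three Nat.prime_two (by norm_num)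
    (Ne.symm h3) (Ne.symm h2) (by rw [hG]; ring) (hP.toSylow hidx)
  have e : ((hP.toSylow hidx : Sylow p G) : Set G) = (Subgroup.zpowers x : Set G) := rfl
  rw [e] at key
  rw [← show (hP.toSylow hidx : Subgroup G) = Subgroup.zpowers x from rfl, ← key,
    Subgroup.zpowers_eq_closure, Subgroup.centralizer_closure]

end Cfsg.Agent.S1001
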