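import Mathlib
import Cfsg.Statements.S1004
import Cfsg.Agent.H05.G168

set_option autoImplicit false
open Cfsg

namespace Cfsg.Agent.S1004

/-- Let G be a simple group of order 168 and T a Sylow 2-subgroup. Then T is dihedral of order 8, T is its own normalizer, and T is the centralizer of any non-identity element of T that commutes with every element of T. -/
theorem result {G : Type*} [Group G] [Finite G] [IsSimpleGroup G] (h : Nat.card G = 168) (T : Sylow 2 G) : Nonempty (↥(T : Subgroup G) ≃* DihedralGroup 4) ∧ Subgroup.normalizer ((T : Subgroup G) : Set G) = T ∧ ∀ z : G, z ∈ (T : Subgroup G) → z ≠ 1 → (∀ t ∈ (T : Subgroup G), t * z = z * t) → Subgroup.centralizer ({z} : Set G) = T := by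
  obtain ⟨O1, O2, M1, M2, D⟩ := H05.G168.exists_dat h T
  refine ⟨D.eT, le_antisymm (fun g hg => D.nt g fun x hx => (Subgroup.mem_normalizer_iff.1 hg x).1 hx)
    Subgroup.le_normalizer, fun z hz h1 hc => le_antisymm (fun g hg => D.ct z hz h1 hc g
      (Subgroup.mem_centralizer_singleton_iff.1 hg)) fun t ht =>
      Subgroup.mem_centralizer_singleton_iff.2 (hc t ht)⟩

end Cfsg.Agent.S1004
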