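import Mathlib
import Cfsg.Statements.S1003
import Cfsg.Agent.S1004
import Cfsg.Agent.S1006
import Cfsg.Agent.H19.SylowCount

set_option autoImplicit false
open Cfsg

namespace Cfsg.Agent.S1003

theorem card_syl {G : Type*} [Group G] [Finite G] (h : Nat.card G = 168) {p : ℕ} (hp : p = 3 ∨ p = 7)
    (P : Sylow p G) : Nat.card (P : Subgroup G) = p := by
  rcases hp with rfl | rfl
  · haveI : Fact (Nat.Prime 3) := ⟨by norm_num⟩
    rw [P.card_eq_multiplicity, h, show Nat.factorization 168 3 = 1 from
      (Nat.factorization_eq_of_coprime_left (a := 3) (b := 56) (by norm_num) (by simp)).trans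
        (Nat.Prime.factorization_self (by norm_num))]
    rfl
  · haveI : Fact (Nat.Prime 7) := ⟨by norm_num⟩
    rw [P.card_eq_multiplicity, h, show Nat.factorization 168 7 = 1 from
      (Nat.factorization_eq_of_coprime_left (a := 7) (b := 24) (by norm_num) (by simp)).trans
        (Nat.Prime.factorization_self (by norm_num))]
    rfl

/-- A simple group of order 168 has exactly 21 Sylow 2-subgroups, 28 Sylow 3-subgroups and 8 Sylow 7-subgroups. -/
theorem result {G : Type*} [Group G] [Finite G] [IsSimpleGroup G] (h : Nat.card G = 168) : Nat.card (Sylow 2 G) = 21 ∧ Nat.card (Sylow 3 G) = 28 ∧ Nat.card (Sylow 7 G) = 8 := by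
  haveI : Fact (Nat.Prime 2) := ⟨by norm_num⟩
  haveI : Fact (Nat.Prime 3) := ⟨by norm_num⟩
  haveI : Fact (Nat.Prime 7) := ⟨by norm_num⟩
  obtain ⟨h3, -, -, -, h7, -⟩ := Cfsg.Agent.S1006.result h
  rw [H19.card_orderOf_eq_prime (card_syl h (Or.inl rfl) default)] at h3
  rw [H19.card_orderOf_eq_prime (card_syl h (Or.inr rfl) default)] at h7
  refine ⟨?_, by omega, by omega⟩
  obtain ⟨T⟩ : Nonempty (Sylow 2 G) := inferInstance
  obtain ⟨⟨e⟩, h2, -⟩ := Cfsg.Agent.S1004.result h T
  have h4 := (T : Subgroup G).card_mul_index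
  rw [Nat.card_congr e.toEquiv, DihedralGroup.nat_card, h] at h4
  rw [T.card_eq_index_normalizer]
  exact (congrArg Subgroup.index h2).trans (by omega)

end Cfsg.Agent.S1003
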