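import Mathlib
import Cfsg.Statements.S1007
import Cfsg.Agent.H05.G168
import Cfsg.Agent.H01.Basic
import Cfsg.Agent.H18.Basic

set_option autoImplicit false
open Cfsg

namespace Cfsg.Agent.S1007

open scoped Pointwise

variable {G : Type*} [Group G]

theorem eq_of_two [Finite G] {A B : Subgroup G} (hA : Nat.card A = 4) (hB : Nat.card B = 4) {x y : G}
    (h1 : x ≠ 1) (h2 : y ≠ 1) (h3 : x ≠ y) (xA : x ∈ A) (yA : y ∈ A) (xB : x ∈ B) (yB : y ∈ B) :
    A = B := by
  have h4 : 3 ≤ Nat.card (A ⊓ B : Subgroup G) := by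
    have := Nat.card_le_card_of_injective _ (H18.inj3 (a := (1 : (A ⊓ B : Subgroup G)))
      (b := ⟨x, xA, xB⟩) (c := ⟨y, yA, yB⟩) (fun e => h1 (congrArg Subtype.val e).symm)
      (fun e => h2 (congrArg Subtype.val e).symm) (fun e => h3 (congrArg Subtype.val e)))
    rwa [Nat.card_fin] at this
  have h5 := Subgroup.card_dvd_of_le (inf_le_left : A ⊓ B ≤ A)
  rw [hA] at h5
  have h6 : Nat.card (A ⊓ B : Subgroup G) = 4 := by
    have := Nat.le_of_dvd (by omega) h5
    interval_cases Nat.card (A ⊓ B : Subgroup G) <;> omega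
  exact (Subgroup.eq_of_le_of_card_ge inf_le_left (by omega)).symm.trans
    (Subgroup.eq_of_le_of_card_ge inf_le_right (by omega))

theorem elems {U : Subgroup G} (h : IsKleinFour U) : ∃ x ∈ U, ∃ y ∈ U, x ≠ 1 ∧ y ≠ 1 ∧ x ≠ y ∧
    x * x = 1 ∧ y * y = 1 ∧ x * y = y * x := by
  classical
  haveI : Finite U := Nat.finite_of_card_ne_zero (by rw [h.card_four]; norm_num)
  haveI := Fintype.ofFinite U
  obtain ⟨x, hx, y, hy, hxy⟩ := Finset.one_lt_card.1 (show 1 < ((Finset.univ : Finset U).erase 1).card by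
    rw [Finset.card_erase_of_mem (Finset.mem_univ _), Finset.card_univ, ← Nat.card_eq_fintype_card,
      h.card_four]; norm_num)
  exact ⟨x, x.2, y, y.2, fun e => (Finset.mem_erase.1 hx).1 (Subtype.ext e),
    fun e => (Finset.mem_erase.1 hy).1 (Subtype.ext e), fun e => hxy (Subtype.ext e),
    congrArg Subtype.val (IsKleinFour.mul_self x), congrArg Subtype.val (IsKleinFour.mul_self y),
    congrArg Subtype.val (mul_comm_of_exponent_two h.exponent_two x y)⟩

variable [Finite G] {T O1 O2 M1 M2 : Subgroup G} (D : H05.G168.Dat T O1 O2 M1 M2)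
include D

theorem klein_conj {U : Subgroup G} (h : IsKleinFour U) :
    ∃ g : G, U = MulAut.conj g • O1 ∨ U = MulAut.conj g • O2 := by
  obtain ⟨x, hx, y, hy, h1, h2, h3, h4, h5, h6⟩ := elems h
  obtain ⟨g, hg⟩ := D.cj x h4 y h5 h6
  refine ⟨g⁻¹, hg.imp (fun hg => ?_) fun hg => ?_⟩
  · exact eq_of_two h.card_four (by rw [H01.card_conj_smul, D.k1.card_four]) h1 h2 h3 hx hy
      (H01.mem_conj_smul_iff.2 (by simpa using hg.1)) (H01.mem_conj_smul_iff.2 (by simpa using hg.2))
  · exact eq_of_two h.card_four (by rw [H01.card_conj_smul, D.k2.card_four]) h1 h2 h3 hx hy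
      (H01.mem_conj_smul_iff.2 (by simpa using hg.1)) (H01.mem_conj_smul_iff.2 (by simpa using hg.2))

theorem norm_klein {U : Subgroup G} (h : IsKleinFour U) :
    ∃ g : G, Subgroup.normalizer (U : Set G) = MulAut.conj g • M1 ∨
      Subgroup.normalizer (U : Set G) = MulAut.conj g • M2 := by
  have key : ∀ O M : Subgroup G, (∀ g, g ∈ M ↔ ∀ x ∈ O, g * x * g⁻¹ ∈ O) → ∀ g : G,
      Subgroup.normalizer ((MulAut.conj g • O : Subgroup G) : Set G) = MulAut.conj g • M := by
    intro O M hM g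
    have : M = Subgroup.normalizer (O : Set G) := by
      ext x
      rw [hM]
      exact ⟨fun h => Subgroup.mem_normalizer_fintype h,
        fun h y hy => (Subgroup.mem_normalizer_iff.1 h y).1 hy⟩
    rw [this]
    exact (Subgroup.map_equiv_normalizer_eq O (MulAut.conj g)).symm
  obtain ⟨g, hg⟩ := klein_conj D h
  exact ⟨g, hg.imp (fun e => by rw [e]; exact key _ _ D.n1 g) fun e => by rw [e]; exact key _ _ D.n2 g⟩

omit D

/-- Let G be a simple group of order 168 and T a Sylow 2-subgroup. Then T contains exactly two subgroups that are Klein four-groups; they are not conjugate in G; and the normalizer of every Klein four-subgroup of G is isomorphic to the symmetric group of degree 4. -/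
theorem result {G : Type*} [Group G] [Finite G] [IsSimpleGroup G] (h : Nat.card G = 168) (T : Sylow 2 G) : Nat.card {U : Subgroup G // U ≤ (T : Subgroup G) ∧ IsKleinFour ↥U} = 2 ∧ (∀ U W : Subgroup G, U ≤ (T : Subgroup G) → W ≤ (T : Subgroup G) → IsKleinFour ↥U → IsKleinFour ↥W → U ≠ W → ∀ g : G, U.map (MulAut.conj g).toMonoidHom ≠ W) ∧ ∀ U : Subgroup G, IsKleinFour ↥U → Nonempty (↥(Subgroup.normalizer (U : Set G)) ≃* Equiv.Perm (Fin 4)) := by
  obtain ⟨O1, O2, M1, M2, D⟩ := H05.G168.exists_dat h T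
  have h1 : ∀ U : Subgroup G, U ≤ T → IsKleinFour U → U = O1 ∨ U = O2 := by
    intro U hU hk
    obtain ⟨x, hx, y, hy, h1, h2, h3, h4, h5, h6⟩ := elems hk
    exact (D.tk x (hU hx) h4 y (hU hy) h5 h6).imp
      (fun a => eq_of_two hk.card_four D.k1.card_four h1 h2 h3 hx hy a.1 a.2)
      (fun a => eq_of_two hk.card_four D.k2.card_four h1 h2 h3 hx hy a.1 a.2)
  have h2 : ∀ g : G, O1.map (MulAut.conj g).toMonoidHom ≠ O2 := fun g e => by
    obtain ⟨x, hx, hx'⟩ := D.nc g
    exact hx' (e ▸ ⟨x, hx, rfl⟩)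
  refine ⟨Nat.card_eq_two_iff.2 ⟨⟨O1, D.t1, D.k1⟩, ⟨O2, D.t2, D.k2⟩, fun e => ?_, ?_⟩, ?_, fun U hU => ?_⟩
  · obtain ⟨x, hx, hx'⟩ := D.nc 1
    have : O1 = O2 := congrArg Subtype.val e
    exact hx' (by simpa [← this] using hx)
  · rw [Set.eq_univ_iff_forall]
    rintro ⟨U, hU, hk⟩
    simpa using h1 U hU hk
  · intro U W hU hW kU kW hne g e
    rcases h1 U hU kU with rfl | rfl <;> rcases h1 W hW kW with rfl | rfl
    · exact hne rfl
    · exact h2 g e
    · obtain ⟨x, hx, hx'⟩ := D.nc g⁻¹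
      rw [← e] at hx
      obtain ⟨y, hy, rfl⟩ := hx
      exact hx' (by simpa [mul_assoc] using hy)
    · exact hne rfl
  · obtain ⟨g, e | e⟩ := norm_klein D hU
    · exact e ▸ D.e1.map ((MulAut.conj g).subgroupMap M1).symm.trans
    · exact e ▸ D.e2.map ((MulAut.conj g).subgroupMap M2).symm.trans

end Cfsg.Agent.S1007
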