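import Mathlib
import Cfsg.Statements.S1008
import Cfsg.Agent.S1003
import Cfsg.Agent.S1005
import Cfsg.Agent.S1007
import Cfsg.Agent.H05.Burnside
import Cfsg.Agent.H02.MinNormal
import Cfsg.Agent.H08.Counting
import Cfsg.Agent.H04.Basic

set_option autoImplicit false
open Cfsg

namespace Cfsg.Agent.S1008

open scoped Pointwise

/-- In a simple group of order 168 every maximal subgroup is either isomorphic to the symmetric group of degree 4 or non-abelian of order 21; the maximal subgroups of order 21 form one conjugacy class and those isomorphic to the symmetric group of degree 4 form exactly two conjugacy classes. -/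
theorem result {G : Type*} [Group G] [Finite G] [IsSimpleGroup G] (h : Nat.card G = 168) : (∀ M : Subgroup G, IsCoatom M → Nonempty (↥M ≃* Equiv.Perm (Fin 4)) ∨ (Nat.card ↥M = 21 ∧ ¬ IsMulCommutative ↥M)) ∧ (∀ M M' : Subgroup G, IsCoatom M → IsCoatom M' → Nat.card ↥M = 21 → Nat.card ↥M' = 21 → ∃ g : G, M' = M.map (MulAut.conj g).toMonoidHom) ∧ ∃ M₁ M₂ : Subgroup G, IsCoatom M₁ ∧ IsCoatom M₂ ∧ Nonempty (↥M₁ ≃* Equiv.Perm (Fin 4)) ∧ Nonempty (↥M₂ ≃* Equiv.Perm (Fin 4)) ∧ (∀ g : G, M₂ ≠ M₁.map (MulAut.conj g).toMonoidHom) ∧ ∀ M : Subgroup G, IsCoatom M → Nonempty (↥M ≃* Equiv.Perm (Fin 4)) → ∃ g : G, M = M₁.map (MulAut.conj g).toMonoidHom ∨ M = M₂.map (MulAut.conj g).toMonoidHom := by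
  classical
  haveI : Fact (Nat.Prime 7) := ⟨by norm_num⟩
  haveI : Fact (Nat.Prime 2) := ⟨by norm_num⟩
  obtain ⟨O1, O2, M1, M2, D⟩ := H05.G168.exists_dat h (default : Sylow 2 G)
  obtain ⟨ho, -, hc2⟩ := Cfsg.Agent.S1005.result h
  obtain ⟨-, hc3, -⟩ := Cfsg.Agent.S1006.result h
  have c24 : ∀ {M : Subgroup G}, Nonempty (M ≃* Equiv.Perm (Fin 4)) → Nat.card M = 24 := by
    rintro M ⟨e⟩
    rw [Nat.card_congr e.toEquiv, Nat.card_perm, Nat.card_fin]; rfl
  have co : ∀ {M : Subgroup G}, Nat.card M = 24 → IsCoatom M := by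
    intro M hM
    have := M.card_mul_index
    rw [hM] at this
    exact H04.isCoatom_of_index_prime (by rw [show M.index = 7 by omega]; norm_num)
  have c21 : ∀ P : Sylow 7 G, Nat.card (Subgroup.normalizer ((P : Subgroup G) : Set G)) = 21 := by
    intro P
    have h1 := (Subgroup.normalizer ((P : Subgroup G) : Set G)).card_mul_index
    have h2 := P.card_eq_index_normalizer
    rw [(Cfsg.Agent.S1003.result h).2.2] at h2
    rw [show (Subgroup.normalizer ((P : Subgroup G) : Set G)).index = 8 from h2.symm] at h1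
    omega
  have hle : ∀ {M : Subgroup G} (g : G), IsCoatom M → (∀ m ∈ M, g⁻¹ * m * g ∈ M1) →
      M = MulAut.conj g • M1 := fun g hM hm =>
    ((hM.le_iff.1 fun m hm' => H01.mem_conj_smul_iff.2 (hm m hm')).resolve_left
      (co (by rw [H01.card_conj_smul, c24 D.e1])).1).symm
  have main : ∀ M : Subgroup G, IsCoatom M → (∃ g : G, M = MulAut.conj g • M1 ∨ M = MulAut.conj g • M2) ∨
      ∃ P : Sylow 7 G, M = Subgroup.normalizer ((P : Subgroup G) : Set G) := by
    intro M hM
    have hi := M.card_mul_index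
    have h7 : 7 ≤ M.index := by
      by_contra hh
      have := (H08.card_dvd_factorial_index hM.1).trans (Nat.factorial_dvd_factorial (n := 6) (by omega))
      rw [h] at this
      exact absurd this (by decide)
    have hne : M ≠ ⊥ := by
      rintro rfl
      have := (co (c24 D.e1)).1
      have h2 := (hM.le_iff.1 (bot_le (a := M1))).resolve_left this
      have := c24 D.e1
      rw [h2, Subgroup.card_bot] at this
      omega
    haveI := (Subgroup.nontrivial_iff_ne_bot M).2 hne
    haveI : Group.IsSolvable M := H05.isSolvable_of_card_primeFactors_le_two M (by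
      have h1 : Nat.card M ≤ 24 := by nlinarith
      have h2 : Nat.card M ∣ 168 := h ▸ Dvd.intro _ hi
      generalize Nat.card M = n at h1 h2
      revert n
      decide +kernel)
    obtain ⟨N, hN, hN0, -, hcm, p, hp, hpN⟩ := H02.exists_minimal_normal_elementary (G := M)
    haveI := Fact.mk hp
    obtain ⟨K, hK⟩ : ∃ K, K = N.map M.subtype := ⟨_, rfl⟩
    have hK0 : K ≠ ⊥ := by rwa [hK, Ne, Subgroup.map_eq_bot_iff_of_injective _ M.subtype_injective]
    have hKp : ∀ x ∈ K, x ^ p = 1 := by
      rw [hK]; rintro _ ⟨y, hy, rfl⟩; exact congrArg Subtype.val (hpN y hy)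
    have hMK : M = Subgroup.normalizer (K : Set G) := by
      refine ((hM.le_iff.1 fun m hm => Subgroup.mem_normalizer_fintype ?_).resolve_left fun e => ?_).symm
      · rw [hK]
        rintro _ ⟨y, hy, rfl⟩
        exact ⟨_, hN.conj_mem y hy ⟨m, hm⟩, rfl⟩
      · rcases (Subgroup.normalizer_eq_top_iff.1 e).eq_bot_or_eq_top with e' | e'
        · exact hK0 e'
        · exact hM.1 (top_le_iff.1 (e' ▸ hK ▸ Subgroup.map_subtype_le _))
    have hMc : ∀ m ∈ M, ∀ x ∈ K, m * x * m⁻¹ ∈ K := fun m hm x hx =>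
      (Subgroup.mem_normalizer_iff.1 (hMK ▸ hm) x).1 hx
    have hKP : IsPGroup p K := fun x => ⟨1, Subtype.ext (by rw [pow_one]; exact hKp x x.2)⟩
    obtain ⟨P, hP⟩ := hKP.exists_le_sylow
    obtain ⟨⟨x, hx⟩, hx1⟩ := Subgroup.ne_bot_iff_exists_ne_one.1 hK0
    replace hx1 : x ≠ 1 := fun e => hx1 (Subtype.ext e)
    have hxo := orderOf_eq_prime (hKp x hx) hx1
    have hzp : Nat.card K = p → K = Subgroup.zpowers x := fun e =>
      (Subgroup.eq_of_le_of_card_ge (Subgroup.zpowers_le.2 hx) (by rw [Nat.card_zpowers, hxo, e])).symm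
    have hcard : p ≠ 2 → Nat.card K = p := by
      intro h2
      have h1 := Subgroup.card_le_of_le hP
      have h3 := Subgroup.card_le_of_le (Subgroup.zpowers_le.2 hx)
      rw [Nat.card_zpowers, hxo] at h3
      rw [Cfsg.Agent.S1003.card_syl h (by
        rcases ho x with e | e | e | e | e <;> rw [hxo] at e
        · exact absurd e hp.one_lt.ne'
        · exact absurd e h2
        · exact Or.inl e
        · exact absurd (e ▸ hp) (by decide)
        · exact Or.inr e)] at h1
      omega
    rcases ho x with e | e | e | e | e <;> rw [hxo] at e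
    · exact absurd e hp.one_lt.ne'
    · subst e
      obtain ⟨j, hj⟩ := hKP.exists_card_eq
      obtain ⟨⟨f⟩, -⟩ := Cfsg.Agent.S1004.result h P
      have h8 : Nat.card (P : Subgroup G) = 8 := by
        rw [Nat.card_congr f.toEquiv, DihedralGroup.nat_card]
      have h1 := Subgroup.card_le_of_le hP
      have h3 : j ≤ 3 := (Nat.pow_le_pow_iff_right (by omega : 1 < 2)).1 (by omega)
      interval_cases j
      · exact absurd (Subgroup.card_eq_one.1 hj) hK0
      · obtain ⟨z, z1, z2, hz⟩ := D.c2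
        obtain ⟨c, rfl⟩ := isConj_iff.1 (hc2 z x (orderOf_eq_prime (by rw [pow_two, z2]) z1) hxo)
        refine Or.inl ⟨c, Or.inl (hle c hM fun m hm => hz _ ?_)⟩
        have h4 := hMc m hm _ hx
        rw [hzp hj, mem_zpowers_iff_mem_range_orderOf, hxo, Finset.mem_image] at h4
        obtain ⟨i, hi, e⟩ := h4
        rw [Finset.mem_range] at hi
        interval_cases i
        · exact absurd (by simpa using e.symm) z1
        · rw [pow_one] at e
          calc c⁻¹ * m * c * z = c⁻¹ * (m * (c * z * c⁻¹) * m⁻¹) * m * c := by group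
            _ = _ := by rw [← e]; group
      · haveI := (Subgroup.nontrivial_iff_ne_bot K).2 hK0
        rw [hMK]
        exact Or.inl (Cfsg.Agent.S1007.norm_klein D ⟨hj, (Monoid.exponent_eq_prime_iff hp).2 fun g hg =>
          orderOf_eq_prime (Subtype.ext (hKp g g.2)) hg⟩)
      · exfalso
        have h4 : K = P := Subgroup.eq_of_le_of_card_ge hP (by omega)
        have h5 := hKp (f.symm (.r 1)) (h4 ▸ (f.symm (.r 1)).2)
        have h6 : f.symm (.r 1) ^ 2 = 1 := Subtype.ext h5
        rw [← map_pow, f.symm.map_eq_one_iff] at h6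
        exact absurd h6 (by decide)
    · subst e
      obtain ⟨z, z1, z2, hz⟩ := D.c3
      obtain ⟨c, rfl⟩ := isConj_iff.1 (hc3 z x (orderOf_eq_prime (by rw [pow_three', z2]) z1) hxo)
      refine Or.inl ⟨c, Or.inl (hle c hM fun m hm => hz _ ?_)⟩
      have h4 := hMc m hm _ hx
      rw [hzp (hcard (by omega)), mem_zpowers_iff_mem_range_orderOf, hxo, Finset.mem_image] at h4
      obtain ⟨i, hi, e⟩ := h4
      rw [Finset.mem_range] at hi
      have e' : c⁻¹ * m * c * z * (c⁻¹ * m * c)⁻¹ = z ^ i := by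
        calc _ = c⁻¹ * (m * (c * z * c⁻¹) * m⁻¹) * c := by group
          _ = _ := by rw [← e, conj_pow]; group
      interval_cases i
      · exact absurd (by simpa using e.symm) z1
      · exact Or.inl (by rw [e', pow_one])
      · exact Or.inr (by rw [e', pow_two])
    · exact absurd (e ▸ hp) (by decide)
    · subst e
      refine Or.inr ⟨P, ?_⟩
      rw [hMK, Subgroup.eq_of_le_of_card_ge hP (by
        rw [hcard (by omega), Cfsg.Agent.S1003.card_syl h (Or.inr rfl)])]
  refine ⟨fun M hM => ?_, fun M M' hM hM' c c' => ?_, M1, M2, co (c24 D.e1), co (c24 D.e2), D.e1, D.e2,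
    fun g e => ?_, fun M hM e => ?_⟩
  · rcases main M hM with ⟨g, rfl | rfl⟩ | ⟨P, rfl⟩
    · exact Or.inl (D.e1.map ((MulAut.conj g).subgroupMap M1).symm.trans)
    · exact Or.inl (D.e2.map ((MulAut.conj g).subgroupMap M2).symm.trans)
    · refine Or.inr ⟨c21 P, fun hc => ?_⟩
      haveI : Fact (Nat.Prime 3) := ⟨by norm_num⟩
      obtain ⟨a, ha⟩ := exists_prime_orderOf_dvd_card' 3 (by rw [c21 P]; norm_num)
      obtain ⟨b, hb⟩ := exists_prime_orderOf_dvd_card' 7 (by rw [c21 P]; norm_num)
      have := Commute.orderOf_mul_eq_mul_orderOf_of_coprime (hc.is_comm.comm a b) (by rw [ha, hb]; norm_num)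
      rw [← Subgroup.orderOf_coe, ha, hb] at this
      have := ho ((a * b : Subgroup.normalizer ((P : Subgroup G) : Set G)) : G)
      omega
  · have : ∀ M : Subgroup G, IsCoatom M → Nat.card M = 21 →
        ∃ P : Sylow 7 G, M = Subgroup.normalizer ((P : Subgroup G) : Set G) := fun M hM c => by
      rcases main M hM with ⟨g, rfl | rfl⟩ | h
      · rw [H01.card_conj_smul, c24 D.e1] at c; omega
      · rw [H01.card_conj_smul, c24 D.e2] at c; omega
      · exact h
    obtain ⟨P, rfl⟩ := this M hM c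
    obtain ⟨Q, rfl⟩ := this M' hM' c'
    obtain ⟨g, rfl⟩ := MulAction.exists_smul_eq G P Q
    exact ⟨g, (Subgroup.map_equiv_normalizer_eq (P : Subgroup G) (MulAut.conj g)).symm⟩
  · obtain ⟨x, hx, hx'⟩ := D.nm g
    exact hx' (e ▸ ⟨x, hx, rfl⟩)
  · rcases main M hM with h | ⟨P, rfl⟩
    · exact h
    · have := c24 e
      rw [c21] at this
      omega

end Cfsg.Agent.S1008
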