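import Mathlib
import Cfsg.Statements.S1009
import Cfsg.Agent.H19.SylowCount

set_option autoImplicit false
open Cfsg

namespace Cfsg.Agent.S1009

/-- Brodkey's Theorem: if a finite group has abelian Sylow p-subgroups, then there are two Sylow p-subgroups whose intersection equals the intersection of all Sylow p-subgroups. -/
theorem result {G : Type*} [Group G] [Finite G] (p : ℕ) [Fact p.Prime] (hab : ∀ P : Sylow p G, IsMulCommutative ↥(P : Subgroup G)) : ∃ P Q : Sylow p G, (P : Subgroup G) ⊓ (Q : Subgroup G) = ⨅ R : Sylow p G, (R : Subgroup G) := by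
  obtain ⟨⟨P, Q⟩, hmin⟩ := Finite.exists_min (fun x : Sylow p G × Sylow p G =>
    Nat.card ↥((x.1 : Subgroup G) ⊓ (x.2 : Subgroup G)))
  refine ⟨P, Q, le_antisymm (le_iInf fun S => ?_) (le_inf (iInf_le _ P) (iInf_le _ Q))⟩
  set D : Subgroup G := (P : Subgroup G) ⊓ (Q : Subgroup G) with hD
  set N : Subgroup G := Subgroup.centralizer (D : Set G) with hN
  have hPN : (P : Subgroup G) ≤ N := by
    intro x hx y hy
    have := hab P
    exact congrArg Subtype.val (mul_comm' (⟨y, hy.1⟩ : (P : Subgroup G)) ⟨x, hx⟩)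
  have hQN : (Q : Subgroup G) ≤ N := by
    intro x hx y hy
    have := hab Q
    exact congrArg Subtype.val (mul_comm' (⟨y, hy.2⟩ : (Q : Subgroup G)) ⟨x, hx⟩)
  have h1 : IsPGroup p ((S : Subgroup G).subgroupOf N) := S.2.comap_subtype
  obtain ⟨T, hT⟩ := h1.exists_le_sylow
  obtain ⟨n, hn⟩ := MulAction.exists_smul_eq N T (Q.subtype hQN)
  have hle : (P : Subgroup G) ⊓ (((n : G) • S : Sylow p G) : Subgroup G) ≤ D := by
    rintro x ⟨hxP, hxS⟩
    refine ⟨hxP, ?_⟩
    have hxN := hPN hxP
    have h2 : (⟨x, hxN⟩ : N) ∈ ((Q.subtype hQN : Sylow p N) : Subgroup N) := by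
      rw [← hn]
      obtain ⟨y, hy, hyx⟩ := hxS
      have hyx' : (n : G) * y * (n : G)⁻¹ = x := hyx
      have hyN : y ∈ N := by
        have : y = (n : G)⁻¹ * x * n := by rw [← hyx']; group
        rw [this]; exact N.mul_mem (N.mul_mem (N.inv_mem n.2) hxN) n.2
      exact ⟨⟨y, hyN⟩, hT hy, Subtype.ext hyx'⟩
    exact h2
  have heq := Subgroup.eq_of_le_of_card_ge hle (hmin (P, (n : G) • S))
  intro x hx
  have h3 : x ∈ (((n : G) • S : Sylow p G) : Subgroup G) := by
    have := hx; rw [← heq] at this; exact this.2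
  obtain ⟨y, hy, hyx⟩ := h3
  have hyx' : (n : G) * y * (n : G)⁻¹ = x := hyx
  have h4 : x * n = n * x := n.2 x hx
  have : y = x := by
    have : (n : G) * y = n * x := by rw [← h4, ← hyx']; group
    exact mul_left_cancel this
  exact this ▸ hy

end Cfsg.Agent.S1009
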