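import Mathlib
import Cfsg.Statements.S1010
import Cfsg.Agent.H19.Sing
import Cfsg.Agent.H19.Brauer43
import Cfsg.Agent.H27.SylowSmall

set_option autoImplicit false
open Cfsg

namespace Cfsg.Agent.S1010

/-- No finite group has exactly twenty-one Sylow 5-subgroups. -/
theorem result {G : Type*} [Group G] [Finite G] : Nat.card (Sylow 5 G) ≠ 21 := by
  intro h
  have : Fact (Nat.Prime 5) := ⟨by norm_num⟩
  obtain ⟨G, _, _, _, hG, hd, h⟩ := H27.exists_simple_card_sylow h (by norm_num) (by decide +kernel) fun d h1 h2 => by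
    have := Nat.le_of_dvd (by norm_num) h1
    interval_cases d <;> omega
  obtain ⟨P⟩ : Nonempty (Sylow 5 G) := inferInstance
  have hP := H27.card_eq_prime_of_card_sylow_lt_sq (H27.pCore_eq_bot_of_simple hG) hd (by omega) P
  have := Fintype.ofFinite G
  have := Fintype.ofFinite P
  obtain ⟨H, _, _, S, hS⟩ := H19.exists_dOne' P hP
  have hn : S.N.index = 21 := by rw [S.N_eq, hS, ← h, P.card_eq_index_normalizer]; rfl
  have he := S.two_le_index (H19.commutator_eq_top_of_simple hG)
  obtain ⟨X, Y, δ, ε, hD⟩ := S.exists_desc (H19.irrOne S.K)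
  have he' : S.K.index = 2 ∨ S.K.index = 4 := by
    have h1 : S.K.index ∣ 4 := Dvd.intro_left _ hD.cardY1
    have := Nat.le_of_dvd (by norm_num) h1
    interval_cases S.K.index <;> omega
  have hK : S.K = ⊥ := by
    obtain ⟨χ, h1, h2, h3⟩ := S.exists_not_dvd_deg (r := 7) (by norm_num)
    refine S.K_eq_bot_of_lt hG h1 h2 ?_
    obtain ⟨h4, h5⟩ := S.cases_Blk_one h1
    have h6 : charDegree (χ : G → ℂ) ∣ 7 * 12 := h4.trans (by rcases he' with e | e <;> rw [e, hn] <;> norm_num)
    have h7 := Nat.le_of_dvd (by norm_num) (((Nat.Prime.coprime_iff_not_dvd (by norm_num)).2 h3).symm.dvd_of_dvd_mul_left h6)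
    by_contra h8
    generalize charDegree (χ : G → ℂ) = d at *
    have : 10 ≤ d := by omega
    interval_cases d <;> rcases he' with e | e <;> rw [e, hn] at h4 <;> rw [e] at h5 <;> omega
  have hc : Nat.card G = 105 * S.K.index := by
    rw [← S.N.card_mul_index, S.card_N, hn, hK, Subgroup.index_bot]; ring
  rcases he' with e | e
  · have : Fact (Nat.Prime 7) := ⟨by norm_num⟩
    obtain ⟨-, h1 | ⟨m, h1, -⟩⟩ := H19.brauer43_big_simple (p := 7) hG (by omega) (by omega)
    · have := H19.card_of_psl (by norm_num) h1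
      omega
    · have : m < 3 := (Nat.pow_lt_pow_iff_right (a := 2) (by norm_num)).1 (by omega)
      interval_cases m <;> omega
  · obtain ⟨χ, h1, h2, h3⟩ := S.exists_not_dvd_deg (r := 2) (by norm_num)
    obtain ⟨h4, h5⟩ := S.cases_Blk_one h1
    have h6 := mt (H19.eq_irrOne_of_perfect (H19.commutator_eq_top_of_simple hG)) h2
    have h7 := Finset.single_le_sum (f := fun χ : IrrCharacter G => charDegree (χ : G → ℂ) ^ 2) (fun _ _ => Nat.zero_le _)
      (Finset.mem_univ χ)
    rw [H05.sum_charDegree_sq, hc, e] at h7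
    have h8 : charDegree (χ : G → ℂ) < 21 := lt_of_pow_lt_pow_left₀ 2 (by norm_num) (by omega)
    rw [e, hn] at h4
    rw [e] at h5
    generalize charDegree (χ : G → ℂ) = d at *
    interval_cases d <;> omega

end Cfsg.Agent.S1010
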