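import Mathlib
import Cfsg.Statements.S1013
import Cfsg.Agent.H19.SylowCount

set_option autoImplicit false
open Cfsg

namespace Cfsg.Agent.S1013

/-- Let G be a transitive permutation group of prime degree p having more than one Sylow p-subgroup, and suppose a Sylow p-subgroup P has prime index in its normalizer. Then G is simple. -/
theorem result {α : Type*} [Fintype α] [DecidableEq α] {p : ℕ} [Fact p.Prime] (hα : Fintype.card α = p) (G : Subgroup (Equiv.Perm α)) [MulAction.IsPretransitive ↥G α] (P : Sylow p ↥G) (hn : 1 < Nat.card (Sylow p ↥G)) (ht : (((P : Subgroup ↥G).subgroupOf (Subgroup.normalizer ((P : Subgroup ↥G) : Set ↥G))).index).Prime) : IsSimpleGroup ↥G := by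
  have hp : p.Prime := Fact.out
  have hprim : MulAction.IsPreprimitive G α :=
    MulAction.IsPreprimitive.of_prime_card (by rw [Nat.card_eq_fintype_card, hα]; exact hp)
  have hα2 : Nontrivial α := Fintype.one_lt_card_iff_nontrivial.mp (hα ▸ hp.one_lt)
  -- nontrivial normal subgroups have order divisible by p
  have hdiv : ∀ M : Subgroup G, M.Normal → M ≠ ⊥ → p ∣ Nat.card M := by
    intro M hM hM1
    have hq := hprim.isQuasiPreprimitive
    have ht : MulAction.IsPretransitive M α := by
      apply hq.isPretransitive_of_normal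
      intro h
      apply hM1
      rw [eq_bot_iff]
      intro x hx
      rw [Subgroup.mem_bot]
      apply Subtype.ext
      ext a
      have : a ∈ MulAction.fixedPoints M α := h ▸ Set.mem_univ a
      exact this ⟨x, hx⟩
    obtain ⟨a⟩ : Nonempty α := inferInstance
    have h1 := MulAction.index_stabilizer_of_transitive M a
    rw [Nat.card_eq_fintype_card, hα] at h1
    exact h1.symm.dvd.trans (Subgroup.index_dvd_card _)
  have hGcard : Nat.card G ∣ p.factorial := by
    have := Subgroup.card_subgroup_dvd_card G
    rwa [Nat.card_perm, Nat.card_eq_fintype_card (α := α), hα] at this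
  have hP : Nat.card (P : Subgroup G) ∣ p := by
    obtain ⟨k, hk⟩ := P.2.exists_card_eq
    have h1 : p ^ k ∣ p.factorial := hk.symm.dvd.trans ((Subgroup.card_subgroup_dvd_card _).trans hGcard)
    rw [hk]
    rcases Nat.lt_or_ge k 2 with h | h
    · interval_cases k <;> simp
    · exfalso
      have h2 : p * p ∣ p * (p - 1).factorial := by
        rw [Nat.mul_factorial_pred hp.ne_zero, ← sq]; exact (pow_dvd_pow p h).trans h1
      have h3 := (hp.dvd_factorial).mp (Nat.dvd_of_mul_dvd_mul_left hp.pos h2)
      have := hp.pos; omega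
  have hnn : ¬ (P : Subgroup G).Normal := by
    intro h
    have := P.unique_of_normal h
    rw [Nat.card_unique] at hn; exact lt_irrefl _ hn
  have hnt : Nontrivial G := by
    by_contra h
    rw [not_nontrivial_iff_subsingleton] at h
    apply hnn
    rw [Subsingleton.elim (P : Subgroup G) ⊥]; infer_instance
  refine ⟨fun M hM => ?_⟩
  by_contra hc
  push Not at hc
  have hpM := hdiv M hM hc.1
  obtain ⟨Q0⟩ : Nonempty (Sylow p M) := inferInstance
  have hPM : (P : Subgroup G) ≤ M := by
    obtain ⟨x, hx⟩ := exists_prime_orderOf_dvd_card' p hpM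
    have hx' : orderOf (x : G) = p := by rw [Subgroup.orderOf_coe, hx]
    have hPp : Nat.card (P : Subgroup G) = p :=
      Nat.dvd_antisymm hP (P.dvd_card_of_dvd_card (hpM.trans (Subgroup.card_subgroup_dvd_card _)))
    obtain ⟨Q, hQ⟩ := H19.exists_sylow_eq_zpowers hPp hx'
    obtain ⟨g, hg⟩ := MulAction.exists_smul_eq G Q P
    rw [← hg]
    rintro _ ⟨y, hy, rfl⟩
    have hy' : y ∈ M := by
      have : (Q : Subgroup G) ≤ M := by rw [hQ, Subgroup.zpowers_le]; exact x.2
      exact this hy
    exact hM.conj_mem y hy' g
  set N := Subgroup.normalizer ((P : Subgroup G) : Set G) with hN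
  have hsup : N ⊔ M = ⊤ := Sylow.normalizer_sup_eq_top' P hPM
  have hmul := Subgroup.relIndex_mul_relIndex (P : Subgroup G) (N ⊓ M) N
    (le_inf Subgroup.le_normalizer hPM) inf_le_left
  have ht' : ((P : Subgroup G).relIndex N).Prime := ht
  rw [← hmul, Nat.prime_mul_iff] at ht'
  rcases ht' with ⟨-, h⟩ | ⟨-, h⟩
  · apply hc.2
    rw [Subgroup.relIndex_eq_one, le_inf_iff] at h
    rw [← hsup, sup_eq_right.mpr h.2]
  · rw [Subgroup.relIndex_eq_one] at h
    let P' : Sylow p M := P.subtype hPM
    have hcyc : IsCyclic (P : Subgroup G) := isCyclic_of_card_dvd_prime hP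
    have hNC : Subgroup.normalizer (P' : Set M) ≤ Subgroup.centralizer (P' : Set M) := by
      intro x hx y hy
      have hx' : x ∈ Subgroup.normalizer (((P : Subgroup G).subgroupOf M : Subgroup M) : Set M) := hx
      rw [← Subgroup.subgroupOf_normalizer_eq hPM] at hx'
      have hxP : (x : G) ∈ (P : Subgroup G) := h ⟨hx', x.2⟩
      apply Subtype.ext
      exact (Subgroup.le_centralizer (P : Subgroup G) hxP) y hy
    have hcomp := MonoidHom.ker_transferSylow_isComplement' P' hNC
    have hnd := MonoidHom.not_dvd_card_ker_transferSylow P' hNC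
    set K := (MonoidHom.transferSylow P' hNC).ker with hK
    have hKi : K.index ∣ p := by
      rw [hcomp.symm.index_eq_card]
      exact (Nat.card_congr (Subgroup.subgroupOfEquivOfLe hPM).toEquiv).dvd.trans hP
    have hcop : (Nat.card K).Coprime K.index :=
      Nat.Coprime.coprime_dvd_right hKi ((Nat.Prime.coprime_iff_not_dvd hp).mpr hnd).symm
    have hchar : K.Characteristic := by
      rw [Subgroup.characteristic_iff_le_comap]
      intro φ x hx
      rw [Subgroup.mem_comap, ← QuotientGroup.eq_one_iff, ← orderOf_eq_one_iff]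
      refine Nat.eq_one_of_dvd_coprimes hcop ?_ (orderOf_dvd_natCard _)
      refine (orderOf_map_dvd (QuotientGroup.mk' K) _).trans ?_
      rw [show orderOf (φ.toMonoidHom x) = orderOf x from φ.orderOf_eq x]
      exact Subgroup.orderOf_dvd_natCard _ hx
    have hKn : (K.map M.subtype).Normal := inferInstance
    by_cases hK1 : K = ⊥
    · rw [hK1, Subgroup.isComplement'_bot_left] at hcomp
      have : M ≤ P := Subgroup.subgroupOf_eq_top.mp hcomp
      apply hnn
      rw [le_antisymm hPM this]; exact hM
    · have := hdiv _ hKn (by rwa [Ne, Subgroup.map_eq_bot_iff_of_injective _ M.subtype_injective])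
      rw [Subgroup.card_map_of_injective M.subtype_injective] at this
      exact hnd this

end Cfsg.Agent.S1013
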