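import Mathlib
import Cfsg.Statements.S1018
import Cfsg.Agent.H19.SylowCount

set_option autoImplicit false
open Cfsg

namespace Cfsg.Agent.S1018

/-- Let P be a Sylow p-subgroup of order p of a finite group G, and consider the action of G on the left cosets of the normalizer N of P. Then every element of order p fixes exactly one coset, and an element of N that does not centralize P fixes at most as many cosets as there are orbits of P. -/
theorem result {G : Type*} [Group G] [Finite G] (p : ℕ) [Fact p.Prime] (P : Sylow p G) (hP : Nat.card ↥(P : Subgroup G) = p) : (∀ y : G, orderOf y = p → Nat.card (MulAction.fixedBy (G ⧸ Subgroup.normalizer ((P : Subgroup G) : Set G)) y) = 1) ∧ ∀ x : G, x ∈ Subgroup.normalizer ((P : Subgroup G) : Set G) → x ∉ Subgroup.centralizer ((P : Subgroup G) : Set G) → Nat.card (MulAction.fixedBy (G ⧸ Subgroup.normalizer ((P : Subgroup G) : Set G)) x) ≤ Nat.card (MulAction.orbitRel.Quotient ↥(P : Subgroup G) (G ⧸ Subgroup.normalizer ((P : Subgroup G) : Set G))) := by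
  have hp : p.Prime := Fact.out
  set N := Subgroup.normalizer ((P : Subgroup G) : Set G) with hN
  -- g fixes the coset of c iff c⁻¹ g c ∈ N
  have hfix : ∀ g c : G, g • (c : G ⧸ N) = (c : G ⧸ N) ↔ c⁻¹ * g * c ∈ N := by
    intro g c
    rw [MulAction.Quotient.smul_mk, smul_eq_mul, eq_comm, QuotientGroup.eq, mul_assoc]
  have hord : ∀ y : G, orderOf y = p → y ∈ N → y ∈ (P : Subgroup G) := by
    intro y hy hyN
    have h1 := (H19.isPGroup_zpowers_of_orderOf hy).inf_normalizer_sylow P
    have h2 : y ∈ Subgroup.zpowers y ⊓ Subgroup.normalizer (P : Set G) := ⟨Subgroup.mem_zpowers y, hyN⟩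
    rw [h1] at h2; exact h2.2
  have hconj : ∀ y c : G, orderOf (c⁻¹ * y * c) = orderOf y := by
    intro y c
    simpa using (MulAut.conj c⁻¹).orderOf_eq y
  have huniq : ∀ y : G, orderOf y = p → ∀ a b : G ⧸ N, y • a = a → y • b = b → a = b := by
    intro y hy a b ha hb
    obtain ⟨c, rfl⟩ := QuotientGroup.mk_surjective a
    obtain ⟨d, rfl⟩ := QuotientGroup.mk_surjective b
    have hc := hord _ ((hconj y c).trans hy) ((hfix y c).mp ha)
    have hd := hord _ ((hconj y d).trans hy) ((hfix y d).mp hb)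
    have hy1 : ∀ c : G, c⁻¹ * y * c ≠ 1 := by
      intro c h
      have := hconj y c
      rw [h, orderOf_one, hy] at this; exact hp.one_lt.ne this
    have h1 := H19.zpowers_eq_sylow hP hc (hy1 c)
    have h2 := H19.zpowers_eq_sylow hP hd (hy1 d)
    rw [QuotientGroup.eq, ← inv_mem_iff, hN, Subgroup.mem_normalizer_iff_map_conj_eq]
    conv_lhs => rw [← h1]
    rw [MonoidHom.map_zpowers, ← h2]
    congr 1
    simp [mul_assoc]
  refine ⟨fun y hy => ?_, fun x hxN hxC => ?_⟩
  · rw [Nat.card_eq_one_iff_exists]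
    obtain ⟨Q, hQ⟩ := H19.exists_sylow_eq_zpowers hP hy
    obtain ⟨c, hc⟩ := MulAction.exists_smul_eq G P Q
    have hyQ : y ∈ (Q : Subgroup G) := hQ ▸ Subgroup.mem_zpowers y
    rw [← hc] at hyQ
    obtain ⟨z, hz, hzy⟩ := hyQ
    have hzy' : c * z * c⁻¹ = y := hzy
    have h1 : y • (c : G ⧸ N) = (c : G ⧸ N) := by
      rw [hfix, ← hzy']
      have : c⁻¹ * (c * z * c⁻¹) * c = z := by group
      rw [this]; exact Subgroup.le_normalizer hz
    exact ⟨⟨c, h1⟩, fun b => Subtype.ext (huniq y hy _ _ b.2 h1)⟩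
  · apply Nat.card_le_card_of_injective
      (fun a => (Quotient.mk'' a.1 : MulAction.orbitRel.Quotient (P : Subgroup G) (G ⧸ N)))
    rintro ⟨a, ha⟩ ⟨b, hb⟩ hab
    have hab' : a ∈ MulAction.orbit (P : Subgroup G) b := Quotient.exact' hab
    obtain ⟨u, rfl⟩ := hab'
    apply Subtype.ext
    change (u : G) • b = b
    have ha' : x • ((u : G) • b) = (u : G) • b := ha
    have hb' : x • b = b := hb
    by_cases hu : (u : G) = 1
    · rw [hu, one_smul]
    have hw : (u : G)⁻¹ * (x * u * x⁻¹) ∈ (P : Subgroup G) :=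
      mul_mem (inv_mem u.2) ((Subgroup.mem_normalizer_iff.mp hxN u).mp u.2)
    have hwb : ((u : G)⁻¹ * (x * u * x⁻¹)) • b = b := by
      have : x⁻¹ • b = b := by rw [inv_smul_eq_iff, hb']
      rw [mul_smul, mul_smul, mul_smul, this, ha', inv_smul_smul]
    by_cases hw1 : (u : G)⁻¹ * (x * u * x⁻¹) = 1
    · exfalso; apply hxC
      rw [← H19.zpowers_eq_sylow hP u.2 hu, Subgroup.zpowers_eq_closure, Subgroup.centralizer_closure,
        Subgroup.mem_centralizer_singleton_iff]
      have : x * u * x⁻¹ = u := by rw [inv_mul_eq_one] at hw1; exact hw1.symm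
      rw [mul_inv_eq_iff_eq_mul] at this; exact this
    · have h1 := H19.zpowers_eq_sylow hP hw hw1
      have h2 : (P : Subgroup G) ≤ MulAction.stabilizer G b := by
        rw [← h1, Subgroup.zpowers_le]; exact hwb
      exact h2 u.2

end Cfsg.Agent.S1018
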