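import Mathlib
import Cfsg.Statements.S1019
import Cfsg.Agent.H19.SylowCount

set_option autoImplicit false
open Cfsg

namespace Cfsg.Agent.S1019

/-- Let H be a subgroup of a finite group G and x an element of H. In the action of G on the left cosets of H, the number of cosets fixed by x, multiplied by the size of the conjugacy class of x, equals the index of H multiplied by the number of conjugates of x that lie in H. -/
theorem result {G : Type*} [Group G] [Finite G] (H : Subgroup G) (x : G) (hx : x ∈ H) : Nat.card (MulAction.fixedBy (G ⧸ H) x) * Nat.card {g : G // IsConj x g} = H.index * Nat.card {g : G // IsConj x g ∧ g ∈ H} := by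
  classical
  have := Fintype.ofFinite G
  have : Fintype (G ⧸ H) := Fintype.ofFinite _
  -- count the set A of g with g⁻¹ x g ∈ H in two ways
  let A := {g : G // g⁻¹ * x * g ∈ H}
  have h1 : Nat.card A = Nat.card H * Nat.card (MulAction.fixedBy (G ⧸ H) x) := by
    rw [← QuotientGroup.card_preimage_mk]
    apply Nat.card_congr
    apply Equiv.subtypeEquivRight
    intro g
    simp only [Set.mem_preimage, MulAction.mem_fixedBy, MulAction.Quotient.smul_mk, smul_eq_mul]
    rw [eq_comm, QuotientGroup.eq, mul_assoc]
  have h2 : Nat.card A = Nat.card {g : G // IsConj x g ∧ g ∈ H} *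
      Nat.card (Subgroup.centralizer ({x} : Set G)) := by
    let f : A → {g : G // IsConj x g ∧ g ∈ H} := fun a =>
      ⟨a.1⁻¹ * x * a.1, isConj_iff.mpr ⟨a.1⁻¹, by simp⟩, a.2⟩
    rw [Nat.card_congr (Equiv.sigmaFiberEquiv f).symm, Nat.card_sigma]
    have h3 : ∀ y, Nat.card {a // f a = y} = Nat.card (Subgroup.centralizer ({x} : Set G)) := by
      rintro ⟨y, hy, hyH⟩
      obtain ⟨c, rfl⟩ := isConj_iff.mp hy
      symm
      refine Nat.card_congr (Equiv.ofBijective (fun z => ⟨⟨z.1 * c⁻¹, ?_⟩, ?_⟩) ⟨?_, ?_⟩)
      · have hz := Subgroup.mem_centralizer_singleton_iff.mp z.2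
        have : (z.1 * c⁻¹)⁻¹ * x * (z.1 * c⁻¹) = c * x * c⁻¹ := by
          rw [mul_inv_rev, inv_inv, mul_assoc, mul_assoc, ← mul_assoc x, ← hz]; group
        rw [this]; exact hyH
      · have hz := Subgroup.mem_centralizer_singleton_iff.mp z.2
        apply Subtype.ext
        change (z.1 * c⁻¹)⁻¹ * x * (z.1 * c⁻¹) = c * x * c⁻¹
        rw [mul_inv_rev, inv_inv, mul_assoc, mul_assoc, ← mul_assoc x, ← hz]; group
      · intro a b hab
        have := congrArg (fun t => t.1.1) hab
        exact Subtype.ext (mul_right_cancel this)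
      · rintro ⟨⟨a, ha⟩, ha'⟩
        have h4 : a⁻¹ * x * a = c * x * c⁻¹ := congrArg Subtype.val ha'
        refine ⟨⟨a * c, ?_⟩, ?_⟩
        · rw [Subgroup.mem_centralizer_singleton_iff]
          have : x * a = a * (c * x * c⁻¹) := by rw [← h4]; group
          rw [← mul_assoc x, this]; group
        · apply Subtype.ext; apply Subtype.ext; simp
    rw [Finset.sum_congr rfl (fun y _ => h3 y), Finset.sum_const, Finset.card_univ, smul_eq_mul,
      ← Nat.card_eq_fintype_card]
  have h3 := H19.card_conj_mul_card_centralizer x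
  have h4 := H.index_mul_card
  have hpos : 0 < Nat.card H * Nat.card (Subgroup.centralizer ({x} : Set G)) :=
    Nat.mul_pos Nat.card_pos Nat.card_pos
  apply Nat.eq_of_mul_eq_mul_left hpos
  calc _ = (Nat.card H * Nat.card (MulAction.fixedBy (G ⧸ H) x)) *
        (Nat.card {g : G // IsConj x g} * Nat.card (Subgroup.centralizer ({x} : Set G))) := by ring
    _ = Nat.card A * Nat.card G := by rw [h1, h3]
    _ = _ := by rw [h2, ← h4]; ring

end Cfsg.Agent.S1019
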