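import Mathlib
import Cfsg.Statements.S1022
import Cfsg.Agent.H19.Sieve2

set_option autoImplicit false
open Cfsg

namespace Cfsg.Agent.S1022

/-- No finite simple group has order 459648 = 2^7 * 3^3 * 7 * 19. -/
theorem result {G : Type*} [Group G] [Finite G] [IsSimpleGroup G] : Nat.card G ≠ 459648 := by
  intro hn
  have hG : ¬ IsMulCommutative G := H19.not_comm_of_simple_card (by rw [hn]; norm_num)
  obtain ⟨σ, h1, h2⟩ := H19.sieve_deg hG (B := 678) (p := 19) (allow := fun _ _ => true) (qs := [2, 3, 7])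
    (sols := [(1008, 6, 108, [96, 96, -56, -56, -189])]) (by norm_num) hn (by norm_num) (by norm_num) (by norm_num)
    (by decide) (fun _ _ _ _ _ _ _ => rfl) (by decide +kernel)
  obtain rfl := List.mem_singleton.1 h1
  obtain ⟨σ, h3, h4⟩ := H19.sieve_deg hG (B := 678) (p := 7) (qs := [2, 3, 19])
    (sols := [(288, 6, 64, [64, -27, -27, -27, -48]), (288, 6, -27, [64, 64, -27, -27, -48]),
      (288, 6, -48, [64, 64, -27, -27, -27])]) (by norm_num) hn (by norm_num) (by norm_num) (by norm_num)
    (by decide) (H19.allow_of h2 _) (by decide +kernel)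
  obtain ⟨σ, h5, -⟩ := H19.sieve_deg hG (B := 678) (p := 19) (qs := [2, 3, 7]) (sols := []) (by norm_num) hn
    (by norm_num) (by norm_num) (by norm_num) (by decide) (H19.allow_of (p := 7) (L := [64, 27, 48])
      (fun M hM χ h h' => (by decide : ∀ σ ∈ _, ∀ d ∈ (σ.2.2.1 :: σ.2.2.2).map Int.natAbs, d ∈ [64, 27, 48]) σ h3 _
        (h4 M hM χ h h')) _) (by decide +kernel)
  simp at h5

end Cfsg.Agent.S1022
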