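import Cfsg.Statements.S1024
import Cfsg.Agent.H11.GoodAll
-- import your own Cfsg.Agent.* helpers here

set_option autoImplicit false
open Cfsg

namespace Cfsg.Agent.S1024
open H11 Cfsg.Lie

/-- `x_r(0) = 1`, and `x_r(t) = 1` forces `t = 0`: the map `t ↦ x_r(t)` is injective. -/
theorem result {F : Type*} [Field F] (D : Cfsg.Lie.ChevalleyDatum) (hD : D ∈ [Cfsg.Lie.chevG2, Cfsg.Lie.chevB2, Cfsg.Lie.chevD4, Cfsg.Lie.chevF4, Cfsg.Lie.chevE6, Cfsg.Lie.chevE7, Cfsg.Lie.chevE8]) (r : ℕ) (hr : r < D.nroots) (t : F) :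
    D.x F r t = 1 ↔ t = 0 := by
  have := good_of_mem hD
  obtain ⟨r, rfl⟩ : ∃ r' : Root D, (r' : ℕ) = r := ⟨⟨r, hr⟩, rfl⟩
  rw [x_val]
  refine ⟨fun h => ?_, fun h => by rw [h, xR_zero]⟩
  have h1 := congrFun (xR_e_rev r t) (Sum.inr r)
  rw [h] at h1
  simpa [eV_inr, ne_rev r] using h1

end Cfsg.Agent.S1024
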