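import Cfsg.Statements.S1026
import Cfsg.Agent.H11.StMat
-- import your own Cfsg.Agent.* helpers here

set_option autoImplicit false
open Cfsg

namespace Cfsg.Agent.S1026
open H11 Cfsg.Lie

/-- Every element of `U` has a unique expression `∏_{r ∈ Φ⁺} x_r(t_r)`, the product over the positive roots in increasing index order (the coefficient family `t`, supported on the positive roots, exists and is unique); and conversely every such ordered product is the matrix of an element of `U`. -/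
theorem result {F : Type*} [Field F] (D : Cfsg.Lie.ChevalleyDatum) (hD : D ∈ [Cfsg.Lie.chevG2, Cfsg.Lie.chevB2, Cfsg.Lie.chevD4, Cfsg.Lie.chevF4, Cfsg.Lie.chevE6, Cfsg.Lie.chevE7, Cfsg.Lie.chevE8]) :
    (∀ g : GL D.Idx F, g ∈ D.posUnipotent F →
      ∃! t : ℕ → F, (∀ r, ¬ D.IsPosRoot r → t r = 0) ∧
        (g : Matrix D.Idx D.Idx F) = D.wordMat F (D.posRoots.map fun r => (r, t r))) ∧
    (∀ t : ℕ → F, ∃ g : GL D.Idx F, g ∈ D.posUnipotent F ∧
      (g : Matrix D.Idx D.Idx F) = D.wordMat F (D.posRoots.map fun r => (r, t r))) := by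
  have := good_of_mem hD
  have := cert_of_mem hD
  classical
  rw [posUnipotent_eq, posRoots_eq]
  refine ⟨fun g hg => ?_, fun t => ⟨_, StSys.prodL_mem (fun r hr => mem_posL.1 hr) _, prodL_val _ t⟩⟩
  obtain ⟨t, rfl⟩ := StSys.exists_prodL closed_isPos StSys.pos_U reg_phiV (L := posL D) (fun r => mem_posL) nodup_posL hg
  let t0 : ℕ → F := fun r => if h : D.IsPosRoot r then t ⟨r, h.1⟩ else 0
  have h0 : ∀ r ∈ posL D, t r = t0 r := fun r hr => by simp [t0, isPosRoot_iff, mem_posL.1 hr]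
  refine ⟨t0, ⟨fun r hr => dif_neg hr, by rw [StSys.prodL_congr h0, prodL_val]⟩, fun t' ⟨h1, h2⟩ => ?_⟩
  rw [← prodL_val] at h2
  have h3 := StSys.prodL_inj' closed_isPos StSys.pos_U reg_phiV (fun r hr => mem_posL.1 hr) nodup_posL (Units.ext h2)
  ext r
  by_cases h : D.IsPosRoot r
  · have := h3 ⟨r, h.1⟩ (mem_posL.2 ((isPosRoot_iff ⟨r, h.1⟩).1 h))
    simp only [t0, dif_pos h, this]
  · simp only [t0, dif_neg h, h1 r h]

end Cfsg.Agent.S1026
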