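import Cfsg.Statements.S1030
import Cfsg.Agent.H11.StPres
-- import your own Cfsg.Agent.* helpers here

set_option autoImplicit false
open Cfsg

namespace Cfsg.Agent.S1030
open H11 Cfsg.Lie

/-- There is a homomorphism `SL₂(F) → GL` with image `⟨X_r, X_{-r}⟩` sending `[[1,t],[0,1]]` to `x_r(t)` and `[[1,0],[t,1]]` to `x_{-r}(t)`. -/
theorem result {F : Type*} [Field F] (D : Cfsg.Lie.ChevalleyDatum) (hD : D ∈ [Cfsg.Lie.chevG2, Cfsg.Lie.chevB2, Cfsg.Lie.chevD4, Cfsg.Lie.chevF4, Cfsg.Lie.chevE6, Cfsg.Lie.chevE7, Cfsg.Lie.chevE8]) (r : ℕ) (hr : r < D.nroots) :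
    ∃ φ : Matrix.SpecialLinearGroup (Fin 2) F →* GL D.Idx F,
      φ.range = D.rootSubgroup F r ⊔ D.rootSubgroup F (D.neg r) ∧
      ∀ (g : Matrix.SpecialLinearGroup (Fin 2) F) (t : F),
        ((g : Matrix (Fin 2) (Fin 2) F) = !![1, t; 0, 1] → ((φ g : GL D.Idx F) : Matrix D.Idx D.Idx F) = D.x F r t) ∧
        ((g : Matrix (Fin 2) (Fin 2) F) = !![1, 0; t, 1] → ((φ g : GL D.Idx F) : Matrix D.Idx D.Idx F) = D.x F (D.neg r) t) := by
  have := good_of_mem hD; have := cert_of_mem hD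
  obtain ⟨r, rfl⟩ : ∃ a : Root D, (a : ℕ) = r := ⟨⟨r, hr⟩, rfl⟩
  obtain ⟨φ, h1, h2⟩ := ((matSys D F).sl2Rel r).exists_hom (hMul_mat r)
  refine ⟨φ, ?_, fun g t => ⟨fun e => ?_, fun e => ?_⟩⟩
  · rw [neg_val, rootSubgroup_eq, rootSubgroup_eq]
    apply le_antisymm
    · rintro _ ⟨g, rfl⟩
      have := H12.sl2_induction (H := Subgroup.comap φ ((matSys D F).US {r} ⊔ (matSys D F).US {r.rev}))
        (fun t => Subgroup.mem_comap.2 (Subgroup.mem_sup_left (h1 t ▸ StSys.x_mem_US (Set.mem_singleton _) t)))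
        (fun t => Subgroup.mem_comap.2 (Subgroup.mem_sup_right (h2 t ▸ StSys.x_mem_US (Set.mem_singleton _) t)))
      exact Subgroup.mem_comap.1 (this ▸ Subgroup.mem_top g)
    · exact sup_le (StSys.US_le.2 (by rintro _ rfl t; exact ⟨_, h1 t⟩)) (StSys.US_le.2 (by rintro _ rfl t; exact ⟨_, h2 t⟩))
  · rw [show g = H12.upSL t from Subtype.ext e, h1, x_val]; rfl
  · rw [show g = H12.loSL t from Subtype.ext e, h2, neg_val, x_val]; rfl

end Cfsg.Agent.S1030
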