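import Cfsg.Statements.S1033
import Cfsg.Agent.H11.GoodAll
-- import your own Cfsg.Agent.* helpers here

set_option autoImplicit false
open Cfsg

namespace Cfsg.Agent.S1033
open H11 Cfsg.Lie

/-- `h_p(c)` (for a fundamental root `p = p_{i+1}` and `c ≠ 0`) is diagonal: it fixes each `h_{p_j}` and scales `e_s` by `c^{A_{p,s}}`. -/
theorem result {F : Type*} [Field F] (D : Cfsg.Lie.ChevalleyDatum) (hD : D ∈ [Cfsg.Lie.chevG2, Cfsg.Lie.chevB2, Cfsg.Lie.chevD4, Cfsg.Lie.chevF4, Cfsg.Lie.chevE6, Cfsg.Lie.chevE7, Cfsg.Lie.chevE8]) (i : ℕ) (hi : i < D.rank) (c : F) (hc : c ≠ 0) :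
    D.hMat F (D.simple i) c = Matrix.diagonal (Sum.elim (fun _ => (1 : F)) (fun s : Fin D.nroots => c ^ (D.cartan i s))) := by
  have := good_of_mem hD
  obtain ⟨i, rfl⟩ : ∃ r' : Node D, (r' : ℕ) = i := ⟨⟨i, hi⟩, rfl⟩
  rw [← sroot_val, hMat_eq, hF_eq_tor _ hc, tor]
  congr 2
  ext s
  rw [pair_sroot]; simp [wt]

end Cfsg.Agent.S1033
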