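import Cfsg.Statements.S1034
import Cfsg.Agent.H11.PoinAll
-- import your own Cfsg.Agent.* helpers here

set_option autoImplicit false
open Cfsg

namespace Cfsg.Agent.S1034
open H11 Cfsg.Lie

/-- Every element of `H` is a product `h_{p_1}(c_1) ⋯ h_{p_l}(c_l)` over the fundamental roots, with non-zero `c_i`. -/
theorem result {F : Type*} [Field F] (D : Cfsg.Lie.ChevalleyDatum) (hD : D ∈ [Cfsg.Lie.chevG2, Cfsg.Lie.chevB2, Cfsg.Lie.chevD4, Cfsg.Lie.chevF4, Cfsg.Lie.chevE6, Cfsg.Lie.chevE7, Cfsg.Lie.chevE8]) (g : GL D.Idx F) (hg : g ∈ D.diagonalSubgroup F) :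
    ∃ c : ℕ → F, (∀ i < D.rank, c i ≠ 0) ∧
      (g : Matrix D.Idx D.Idx F) = D.wordMat F ((List.range D.rank).flatMap fun i => D.hWord (D.simple i) (c i)) := by
  have := good_of_mem hD
  rw [diagonalSubgroup_eq, ← torHom_range] at hg
  obtain ⟨c, rfl⟩ := hg
  refine ⟨fun i => if h : i < D.rank then c ⟨i, h⟩ else 1, fun i hi => by simp [hi], ?_⟩
  have key : ∀ L : List (Node D), (((L.map fun i => torHom D F (Pi.mulSingle i (c i))).prod : GL D.Idx F) : Matrix D.Idx D.Idx F) =
      D.wordMat F ((L.map Fin.val).flatMap fun i => D.hWord (D.simple i) (if h : i < D.rank then (c ⟨i, h⟩ : F) else 1)) := by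
    intro L
    induction L with
    | nil => simp [ChevalleyDatum.wordMat]
    | cons i L ih =>
      rw [List.map_cons, List.prod_cons, Units.val_mul, ih, List.map_cons, List.flatMap_cons, ← wordN_eq_wordMat,
        ← wordN_eq_wordMat, wordN_append, torHom_single, matSys_h_val, dif_pos i.2]
      rfl
  rw [← List.map_coe_finRange_eq_range, ← key]
  have : (List.map (fun i => torHom D F (Pi.mulSingle i (c i))) (List.finRange D.rank)).prod = torHom D F c := by
    conv_rhs => rw [← Finset.univ_prod_mulSingle c, Fin.prod_univ_def, map_list_prod, List.map_map]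
    rfl
  rw [this]

end Cfsg.Agent.S1034
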