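import Cfsg.Statements.S1039
import Cfsg.Agent.H11.PoinAll
-- import your own Cfsg.Agent.* helpers here

set_option autoImplicit false
open Cfsg

namespace Cfsg.Agent.S1039
open H11 Cfsg.Lie

theorem aux {F : Type*} [Field F] {D : Cfsg.Lie.ChevalleyDatum} [H11.Good D] [H11.Cert D] {M : CoxeterMatrix (H11.Node D)}
    (h : ∃ cs : CoxeterSystem M (H11.Weyl D), ∀ i, cs.simple i = H11.sW i) :
    ∃ φ : ↥(D.monomialSubgroup F) →* M.Group, Function.Surjective φ ∧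
      φ.ker = (D.diagonalSubgroup F).subgroupOf (D.monomialSubgroup F) ∧
      ∀ (i : H11.Node D) (g : ↥(D.monomialSubgroup F)),
        ((g : GL D.Idx F) : Matrix D.Idx D.Idx F) = D.nMat F (D.simple i) 1 → φ g = M.simple i := by
  obtain ⟨cs, h⟩ := h
  rw [H11.monomialSubgroup_eq, H11.diagonalSubgroup_eq]
  refine ⟨cs.mulEquiv.toMonoidHom.comp (H11.matSys D F).π, cs.mulEquiv.surjective.comp H11.StSys.π_surjective, ?_, ?_⟩
  · rw [← H11.StSys.π_ker]; ext; simp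
  · rintro i ⟨g, hg⟩ e
    obtain rfl : g = (H11.matSys D F).n (H11.sroot i) 1 := H11.eq_n_iff.1 e
    rw [MonoidHom.comp_apply, H11.StSys.π_n_sroot, ← h]
    exact cs.mulEquiv.apply_symm_apply _

/-- `N/H ≅ W`: there is a surjective homomorphism from `N` onto the Coxeter group of the type (Mathlib's Coxeter matrix G₂, B₂, F₄, E₆, E₇, E₈, nodes numbered as the fundamental roots) with kernel `H`, mapping each `n_{p_i}` to the `i`-th simple reflection. -/
theorem result {F : Type*} [Field F]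
    (p : Cfsg.Lie.ChevalleyDatum × (Σ n : ℕ, CoxeterMatrix (Fin n)))
    (hp : p ∈ [(Cfsg.Lie.chevG2, ⟨2, CoxeterMatrix.G₂⟩), (Cfsg.Lie.chevB2, ⟨2, CoxeterMatrix.B 2⟩), (Cfsg.Lie.chevD4, ⟨4, Cfsg.Lie.coxeterD4⟩), (Cfsg.Lie.chevF4, ⟨4, CoxeterMatrix.F₄⟩),
      (Cfsg.Lie.chevE6, ⟨6, CoxeterMatrix.E₆⟩), (Cfsg.Lie.chevE7, ⟨7, CoxeterMatrix.E₇⟩), (Cfsg.Lie.chevE8, ⟨8, CoxeterMatrix.E₈⟩)]) :
    ∃ φ : ↥(p.1.monomialSubgroup F) →* p.2.2.Group, Function.Surjective φ ∧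
      φ.ker = (p.1.diagonalSubgroup F).subgroupOf (p.1.monomialSubgroup F) ∧
      ∀ (i : Fin p.2.1) (g : ↥(p.1.monomialSubgroup F)),
        ((g : GL p.1.Idx F) : Matrix p.1.Idx p.1.Idx F) = p.1.nMat F (p.1.simple i) 1 → φ g = p.2.2.simple i := by
  simp only [List.mem_cons, List.not_mem_nil, or_false] at hp
  rcases hp with rfl | rfl | rfl | rfl | rfl | rfl | rfl
  · exact aux coxG2
  · exact aux coxB2
  · exact aux coxD4
  · exact aux coxF4
  · exact aux coxE6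
  · exact aux coxE7
  · exact aux coxE8

end Cfsg.Agent.S1039
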