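import Cfsg.Statements.S1045
import Cfsg.Agent.H11.StMat
-- import your own Cfsg.Agent.* helpers here

set_option autoImplicit false
open Cfsg

namespace Cfsg.Agent.S1045
open H11 Cfsg.Lie

/-- For a fundamental root `p`, the subgroup `U_p` generated by the `X_s`, `s` positive and `s ≠ p`, is normalised by `X_p` and `X_{-p}`, and `U = U_p ⊔ X_p`. -/
theorem result {F : Type*} [Field F] (D : Cfsg.Lie.ChevalleyDatum) (hD : D ∈ [Cfsg.Lie.chevG2, Cfsg.Lie.chevB2, Cfsg.Lie.chevD4, Cfsg.Lie.chevF4, Cfsg.Lie.chevE6, Cfsg.Lie.chevE7, Cfsg.Lie.chevE8]) (i : ℕ) (hi : i < D.rank) :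
    D.rootSubgroup F (D.simple i) ⊔ D.rootSubgroup F (D.neg (D.simple i)) ≤
        Subgroup.normalizer (Subgroup.closure {g : GL D.Idx F | ∃ (s : ℕ) (t : F), D.IsPosRoot s ∧ s ≠ D.simple i ∧
          (g : Matrix D.Idx D.Idx F) = D.x F s t} : Set (GL D.Idx F)) ∧
      Subgroup.closure {g : GL D.Idx F | ∃ (s : ℕ) (t : F), D.IsPosRoot s ∧ s ≠ D.simple i ∧
          (g : Matrix D.Idx D.Idx F) = D.x F s t} ⊔ D.rootSubgroup F (D.simple i) = D.posUnipotent F := by
  have := good_of_mem hD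
  have := cert_of_mem hD
  obtain ⟨i, rfl⟩ : ∃ r' : Node D, (r' : ℕ) = i := ⟨⟨i, hi⟩, rfl⟩
  have e := closure_x_eq (D := D) (K := F) (fun r => D.IsPosRoot r ∧ r ≠ D.simple i) fun _ h => h.1.1
  simp only [and_assoc, isPosRoot_iff, ← sroot_val, ne_eq, Fin.val_inj] at e
  simp only [← sroot_val, ne_eq, neg_val, rootSubgroup_eq, posUnipotent_eq, e]
  constructor
  · rw [← StSys.US_union, ← StSys.UJ_single, StSys.US_le]
    intro r hr t
    exact StSys.x_mem_normalizer_UJ (Or.inr (inJ_singleton.2 hr)) t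
  · rw [← StSys.US_union, StSys.U]; congr 1
    ext r; by_cases h : r = sroot i <;> simp [h, isPos_sroot]

end Cfsg.Agent.S1045
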