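import Cfsg.Statements.S1075
import Mathlib
import Cfsg.Agent.H27.Ree3
import Cfsg.Agent.H27.L28
-- import your own Cfsg.Agent.* helpers here

set_option autoImplicit false
open Cfsg

namespace Cfsg.Agent.S1075

open scoped Pointwise commutatorElement

open H13 H14.PK H14.PK.TS H27.MG

/-- The derived subgroup of ²G₂(3) (θ = identity over the field with three elements) has order 504 = 1512/3 and is isomorphic to PSL₂ over the field with eight elements. -/
theorem result {L : Type*} [Field L] [Fintype L] (hL : Fintype.card L = 8) :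
    Nat.card ↥(commutator ↥(Cfsg.Lie.twistedG2 (ZMod 3) 1)) = 504 ∧
      Nonempty (↥(commutator ↥(Cfsg.Lie.twistedG2 (ZMod 3) 1)) ≃* Matrix.ProjectiveSpecialLinearGroup (Fin 2) L) := by
  obtain ⟨S, M⟩ := H27.Ree3.model
  obtain ⟨S', M'⟩ := H27.L28.model L hL
  have h := in_comm (Ts := [nat_lit 0x3e595d0a92328901ded32ee295870f6a00e, nat_lit 0x3d21535f31d340c70adb7ce49c216550483]) (cs := [([nat_lit 0, nat_lit 1], [nat_lit 1]), ([nat_lit 1, nat_lit 1, nat_lit 0, nat_lit 0], [nat_lit 0, nat_lit 1, nat_lit 1, nat_lit 0])]) M.mem (by decide +kernel)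
  have h' := fun t ht => (h t ht).top
  obtain ⟨e⟩ := (M'.regen (Ts := [nat_lit 0x57128346, nat_lit 0x275408613]) (pr := [[nat_lit 1, nat_lit 1, nat_lit 1, nat_lit 0, nat_lit 1, nat_lit 0, nat_lit 0, nat_lit 0],
   [nat_lit 1, nat_lit 2, nat_lit 2, nat_lit 1, nat_lit 2],
   [nat_lit 0, nat_lit 0, nat_lit 0, nat_lit 1],
   [nat_lit 0, nat_lit 0, nat_lit 0, nat_lit 0, nat_lit 0],
   [nat_lit 1, nat_lit 0, nat_lit 0, nat_lit 3, nat_lit 3, nat_lit 5, nat_lit 5, nat_lit 5],
   [nat_lit 1, nat_lit 1, nat_lit 4, nat_lit 4]]) (pr' := [[nat_lit 1, nat_lit 1, nat_lit 1, nat_lit 0],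
   [nat_lit 1, nat_lit 1, nat_lit 2],
   [nat_lit 1, nat_lit 1, nat_lit 1, nat_lit 1, nat_lit 1, nat_lit 0]]) (lv := [(nat_lit 0, [nat_lit 3]), (nat_lit 1, [nat_lit 2, nat_lit 1]), (nat_lit 2, [nat_lit 0])]) (by decide +kernel)).emb h' (w := 6)
    (Ps := [(nat_lit 0x57128346, nat_lit 0x3e595d0a92328901ded32ee295870f6a00e), (nat_lit 0x275408613, nat_lit 0x3d21535f31d340c70adb7ce49c216550483)]) rfl rfl (pr := [[0, 0, 1], [1, 2, 2], [0, 1]]) (pr' := [[nat_lit 0, nat_lit 0],
   [nat_lit 1, nat_lit 2, nat_lit 2, nat_lit 1],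
   [nat_lit 3, nat_lit 3, nat_lit 3, nat_lit 2, nat_lit 1],
   [nat_lit 1, nat_lit 0, nat_lit 0, nat_lit 1, nat_lit 0, nat_lit 0],
   [nat_lit 1, nat_lit 0, nat_lit 0, nat_lit 0, nat_lit 2]]) (lv := [(nat_lit 0, [nat_lit 5, nat_lit 6]), (nat_lit 1, [nat_lit 3]), (nat_lit 2, [nat_lit 0])])
    (ch := [(0, [nat_lit 0x248e28607de75c6da6585d65544d24503ce34c2ca2481c61440c2040, nat_lit 0x108957a32dd6cf4cd64c81f70e91a4942a16164495c0147042203106, nat_lit 0x1075978f8226a35895572df91871b4a145439328d3021c5100206043, nat_lit 0x1455c76245b4ca9186568cb3e140d68e25e31f497806045103008087, nat_lit 0x2166489d29a59170e5533e08d44096d835e5df48c2c3107046088005, nat_lit 0x1d6547135d82da29e3d02625613a091631b8d135f4800c10852061c4, nat_lit 0x1d71464d6172da88e40f48a6cc7967e08554634e42401851011c3202, nat_lit 0x174206e225161685969d91c5153127a33cb35338a7c00c40461c2148, nat_lit 0x1651561934b28c3a33d14d769b75e8217dc4229122440831c6008141]),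
  (1, [nat_lit 0x248e28607de75c6da6585d65544d24503ce34c2ca2481c61440c2040, nat_lit 0xe4d96c989c6152e03e34915162a435d6a17905cc7c80440c7185080, nat_lit 0x1e35c5522995db2d641126352089f4dd68c38f6219071421880c1100, nat_lit 0x2128f2df6558d45c969390d59130e79881b71d490888087181103140, nat_lit 0x1585a60a4143602645a278e8d33cc65148b6d77dd707045084203180, nat_lit 0x1c79552430f48b5d174d7d358966229881085a8db3810c51081821c0, nat_lit 0x1939b51f85024b62375390d81270a89758f31a4557851810870c4200, nat_lit 0x1b31a5e23d44d649f80a39e44d42172324b55891d6481411021c60c0]),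
  (2, [nat_lit 0x248e28607de75c6da6585d65544d24503ce34c2ca2481c61440c2040, nat_lit 0xc8902e471b45461268d7d382385e39759565d24f2871080c5086040, nat_lit 0x1d41724c5183a335e4997219222db55f4e06912963c4147083188040, nat_lit 0x115df29d8cd56265b79a50b31025881c86448e3d35850c4182207040, nat_lit 0xe7dc3d18998106986d28c975728d9142cc7955a14c30852061c4040, nat_lit 0x1571458e41a91748d61e88a45f3d932325d6e04cb8421831c8105040, nat_lit 0x205234d55d231f79935b40f39c59a7622916248492c6202107143040])])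
    (sl := [([nat_lit 0x108957a32dd6cf4cd64c81f70e91a4942a16164495c0147042203106, nat_lit 0x1075978f8226a35895572df91871b4a145439328d3021c5100206043], nat_lit 0x4000200050004000400030003000200020001000100000001000100000000ffffffff),
  ([nat_lit 0xe4d96c989c6152e03e34915162a435d6a17905cc7c80440c7185080, nat_lit 0x1e35c5522995db2d641126352089f4dd68c38f6219071421880c1100], nat_lit 0x30000000300010002000000020002000100000001000100000000ffffffff),
  ([nat_lit 0xc8902e471b45461268d7d382385e39759565d24f2871080c5086040], nat_lit 0xffffffff)]) (by decide +kernel) (by decide +kernel)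
  have hc := (Nat.card_congr e.symm.toEquiv).trans M'.card
  have := cl_normal M h' (pr := [[nat_lit 0, nat_lit 0],
   [nat_lit 1, nat_lit 2, nat_lit 2, nat_lit 1],
   [nat_lit 3, nat_lit 3, nat_lit 3, nat_lit 2, nat_lit 1],
   [nat_lit 1, nat_lit 0, nat_lit 0, nat_lit 1, nat_lit 0, nat_lit 0],
   [nat_lit 1, nat_lit 0, nat_lit 0, nat_lit 0, nat_lit 2],
   [nat_lit 0, nat_lit 3, nat_lit 1, nat_lit 5, nat_lit 6, nat_lit 6, nat_lit 6],
   [nat_lit 1, nat_lit 3, nat_lit 2, nat_lit 7, nat_lit 7, nat_lit 5, nat_lit 7],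
   [nat_lit 8, nat_lit 8, nat_lit 6, nat_lit 6],
   [nat_lit 6, nat_lit 4, nat_lit 7, nat_lit 9]]) (by decide +kernel)
  rw [comm_eq (by rw [index_of_card (p := 3) (by norm_num) hc M.card]; norm_num) (cl_le h)]
  exact ⟨hc, ⟨e.symm⟩⟩

end Cfsg.Agent.S1075
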