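import Cfsg.Statements.S1078
import Cfsg.Agent.H11.StPres
-- import your own Cfsg.Agent.* helpers here

set_option autoImplicit false
open Cfsg

namespace Cfsg.Agent.S1078
open H11 Cfsg.Lie

theorem aux {K : Type*} [Field K] {D : Cfsg.Lie.ChevalleyDatum} [H11.Good D] [H11.Cert D] (A : Matrix (H11.Node D) (H11.Node D) ℤ)
    (h : H11.cartanM D * A = 1) : Subgroup.center (D.SteinbergGroup K) = ⊥ := by
  rw [H11.StSys.center_eq_map H11.hMul_sg (H11.sgSys_grp D K), eq_bot_iff]
  rintro _ ⟨c, hc, rfl⟩
  have : c = 1 := by rw [← H11.mact_one c, ← h, H11.mact_mul, show H11.mact _ c = 1 from hc, map_one]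
  simp [this]

/-- For G₂, F₄, E₈ the presented group has trivial centre (the universal and adjoint groups coincide). -/
theorem result {K : Type*} [Field K] (D : Cfsg.Lie.ChevalleyDatum) (hD : D ∈ [Cfsg.Lie.chevG2, Cfsg.Lie.chevF4, Cfsg.Lie.chevE8]) :
    Subgroup.center (D.SteinbergGroup K) = ⊥ := by
  simp only [List.mem_cons, List.not_mem_nil, or_false] at hD
  rcases hD with rfl | rfl | rfl
  · exact aux (lmat 2 fastG2.cinv) (by decide +kernel)
  · exact aux (lmat 4 fastF4.cinv) (by decide +kernel)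
  · exact aux (lmat 8 fastE8.cinv) (by decide +kernel)

end Cfsg.Agent.S1078
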