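import Cfsg.Statements.S1080
import Cfsg.Agent.H11.StPres
-- import your own Cfsg.Agent.* helpers here

set_option autoImplicit false
open Cfsg

namespace Cfsg.Agent.S1080
open H11 Cfsg.Lie

/-- Field automorphisms: for every field automorphism `f` there is a group automorphism sending each `x_r(t)` to `x_r(f t)`. -/
theorem result {F : Type*} [Field F] (D : Cfsg.Lie.ChevalleyDatum) (hD : D ∈ [Cfsg.Lie.chevG2, Cfsg.Lie.chevB2, Cfsg.Lie.chevD4, Cfsg.Lie.chevF4, Cfsg.Lie.chevE6, Cfsg.Lie.chevE7, Cfsg.Lie.chevE8]) (f : F ≃+* F) :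
    ∃ α : ↥(D.group F) ≃* ↥(D.group F), ∀ (g : ↥(D.group F)) (r : ℕ) (t : F), r < D.nroots →
      ((g : GL D.Idx F) : Matrix D.Idx D.Idx F) = D.x F r t → ((α g : GL D.Idx F) : Matrix D.Idx D.Idx F) = D.x F r (f t) := by
  have := good_of_mem hD
  have hy : StRel fun (r : Root D) (t : F) => (grpSys D F).x r (f t) := by
    refine ⟨fun r t u => by rw [StSys.add, map_add], fun r s h1 h2 t u => ?_⟩
    rw [(grpSys D F).comm r s h1 h2]
    congr 1
    simp only [wordG, ChevalleyDatum.commWord, List.map_map]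
    congr 2; ext1 c
    simp only [Function.comp, xNat]; split_ifs <;> simp
  obtain ⟨α, hα⟩ := exists_chevAut hD hy fun r t => ⟨r, f.symm t, by simp⟩
  refine ⟨α, fun g r t hr e => ?_⟩
  rw [(eq_grpSys_x_iff (r := ⟨r, hr⟩)).1 e, hα]; exact grpSys_x_val _ _

end Cfsg.Agent.S1080
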