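import Cfsg.Statements.S1081
import Cfsg.Agent.H11.ChevAut
-- import your own Cfsg.Agent.* helpers here

set_option autoImplicit false
open Cfsg

namespace Cfsg.Agent.S1081
open H11 Cfsg.Lie

theorem H11.s1081 {F : Type*} [Field F] {D : Cfsg.Lie.ChevalleyDatum} [H11.Good D] {π : Equiv.Perm (H11.Node D)} {l : List ℕ}
    (h : H11.GrSL F π) (hL : ∀ i : H11.Node D, D.isLong (D.simple i) = false ∧ l.getD i 0 = π i) :
    ∃ α : ↥(D.group F) ≃* ↥(D.group F), ∀ (g : ↥(D.group F)) (i : ℕ) (t : F), i < D.rank →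
      (((g : GL D.Idx F) : Matrix D.Idx D.Idx F) = D.x F (D.simple i) t →
        ((α g : GL D.Idx F) : Matrix D.Idx D.Idx F) = D.x F (D.simple (l.getD i 0)) t) ∧
      (((g : GL D.Idx F) : Matrix D.Idx D.Idx F) = D.x F (D.neg (D.simple i)) t →
        ((α g : GL D.Idx F) : Matrix D.Idx D.Idx F) = D.x F (D.neg (D.simple (l.getD i 0))) t) := by
  obtain ⟨α, h, -⟩ := h
  refine ⟨α, fun g i t hi => ?_⟩
  have h1 := h ⟨i, hi⟩ t
  simp only [Cfsg.Lie.ChevalleyDatum.graphExp, (hL _).1, Bool.false_and, Bool.false_eq_true, if_false, pow_one] at h1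
  rw [show l.getD i 0 = _ from (hL ⟨i, hi⟩).2]
  exact ⟨H11.apply_iff.2 h1.1 g, by
    simpa only [← H11.neg_val, H11.sroot_val] using H11.apply_iff.2 h1.2 g⟩

/-- Graph automorphisms: for E₆ with ρ = (p₁ p₆)(p₃ p₅) and for D₄ with ρ the 3-cycle on the outer nodes there is a group automorphism sending `x_p(t) ↦ x_{ρ(p)}(t)` and `x_{-p}(t) ↦ x_{-ρ(p)}(t)` for every fundamental root `p`. -/
theorem result {F : Type*} [Field F] (p : Cfsg.Lie.ChevalleyDatum × List ℕ)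
    (hp : p ∈ [(Cfsg.Lie.chevE6, [5, 1, 4, 3, 2, 0]), (Cfsg.Lie.chevD4, [2, 1, 3, 0]), (Cfsg.Lie.chevD4, [3, 1, 0, 2])]) :
    ∃ α : ↥(p.1.group F) ≃* ↥(p.1.group F), ∀ (g : ↥(p.1.group F)) (i : ℕ) (t : F), i < p.1.rank →
      (((g : GL p.1.Idx F) : Matrix p.1.Idx p.1.Idx F) = p.1.x F (p.1.simple i) t →
        ((α g : GL p.1.Idx F) : Matrix p.1.Idx p.1.Idx F) = p.1.x F (p.1.simple (p.2.getD i 0)) t) ∧
      (((g : GL p.1.Idx F) : Matrix p.1.Idx p.1.Idx F) = p.1.x F (p.1.neg (p.1.simple i)) t →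
        ((α g : GL p.1.Idx F) : Matrix p.1.Idx p.1.Idx F) = p.1.x F (p.1.neg (p.1.simple (p.2.getD i 0))) t) := by
  simp only [List.mem_cons, List.not_mem_nil, or_false] at hp
  rcases hp with rfl | rfl | rfl
  · exact H11.s1081 (H11.grSL_E6 (π := H11.flipE6) (by unfold Cfsg.Lie.ChevalleyDatum.IsDiagramSymmetry; decide +kernel))
      (by decide +kernel)
  · exact H11.s1081 (H11.grSL_D4 (π := H11.symD4a) (by unfold Cfsg.Lie.ChevalleyDatum.IsDiagramSymmetry; decide +kernel))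
      (by decide +kernel)
  · exact H11.s1081 (H11.grSL_D4 (π := H11.symD4b) (by unfold Cfsg.Lie.ChevalleyDatum.IsDiagramSymmetry; decide +kernel))
      (by decide +kernel)

end Cfsg.Agent.S1081
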