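import Mathlib
import Cfsg.Statements.S1084
import Cfsg.Agent.H16.E6d

set_option autoImplicit false
open Cfsg

namespace Cfsg.Agent.S1084

/-- E₆ via the 27-dimensional cubic form: for a finite field with at least three elements, (isometries of the cubic form) / centre ≅ the Chevalley group E₆(F). -/
theorem result {F : Type*} [Field F] [Fintype F] (hF : 3 ≤ Fintype.card F) : Nonempty (Cfsg.Lie.E6 F ≃* ↥(Cfsg.Lie.chevE6.group F)) := by
  classical
  obtain ⟨a, ha⟩ : ∃ a : F, a ∉ ({0, 1} : Finset F) := by
    classical
    by_contra! H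
    have := Finset.card_le_card (show Finset.univ ⊆ ({0, 1} : Finset F) from fun a _ => H a)
    have h2 : ({0, 1} : Finset F).card ≤ 2 := Finset.card_le_two
    rw [Finset.card_univ] at this
    omega
  exact ⟨(H16.E6.exists_equiv ⟨a, by simpa using ha⟩).some.symm⟩

end Cfsg.Agent.S1084
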