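import Cfsg.Statements.S1093
import Cfsg.Agent.H11.PoinAll
-- import your own Cfsg.Agent.* helpers here

set_option autoImplicit false
open Cfsg

namespace Cfsg.Agent.S1093
open H11

/-- `|W(E₆)| = 51840`, `|W(E₇)| = 2903040`, `|W(E₈)| = 696729600` for Mathlib's presented Coxeter groups. -/
theorem result (p : (Σ n : ℕ, CoxeterMatrix (Fin n)) × ℕ)
    (hp : p ∈ [(⟨6, CoxeterMatrix.E₆⟩, 51840), (⟨7, CoxeterMatrix.E₇⟩, 2903040), (⟨8, CoxeterMatrix.E₈⟩, 696729600)]) :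
    Nat.card p.1.2.Group = p.2 := by
  simp only [List.mem_cons, List.not_mem_nil, or_false] at hp
  rcases hp with rfl | rfl | rfl <;> dsimp only
  · obtain ⟨cs, -⟩ := coxE6; rw [← Nat.card_congr cs.mulEquiv.toEquiv, card_WeylE6]
  · obtain ⟨cs, -⟩ := coxE7; rw [← Nat.card_congr cs.mulEquiv.toEquiv, card_WeylE7]
  · obtain ⟨cs, -⟩ := coxE8; rw [← Nat.card_congr cs.mulEquiv.toEquiv, card_WeylE8]

end Cfsg.Agent.S1093
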