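import Cfsg.Statements.S1094
import Cfsg.Agent.H11.PoinAll
-- import your own Cfsg.Agent.* helpers here

set_option autoImplicit false
open Cfsg

namespace Cfsg.Agent.S1094
open H11 Cfsg.Lie

theorem aux {n : ℕ} {M : CoxeterMatrix (Fin n)} {W : Type*} [Group W] {s : Fin n → W}
    (h : ∃ cs : CoxeterSystem M W, ∀ i, cs.simple i = s i) :
    orderOf ((List.finRange n).map M.simple).prod = orderOf (H11.wp s (List.finRange n)) := by
  obtain ⟨cs, h⟩ := h
  rw [← cs.mulEquiv.orderOf_eq (H11.wp _ _), H11.wp, map_list_prod, List.map_map]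
  congr 3
  ext i
  rw [Function.comp_apply, ← h]
  exact (cs.mulEquiv.apply_symm_apply _).symm

/-- The Coxeter element `s₁ s₂ ⋯ s_l` of the Coxeter group of type B₂, G₂, D₄, F₄, E₆, E₇, E₈ has order `h = 2N/l` = 4, 6, 6, 12, 12, 18, 30. -/
theorem result (p : (Σ n : ℕ, CoxeterMatrix (Fin n)) × ℕ)
    (hp : p ∈ [(⟨2, CoxeterMatrix.B 2⟩, 4), (⟨2, CoxeterMatrix.G₂⟩, 6), (⟨4, Cfsg.Lie.coxeterD4⟩, 6), (⟨4, CoxeterMatrix.F₄⟩, 12),
      (⟨6, CoxeterMatrix.E₆⟩, 12), (⟨7, CoxeterMatrix.E₇⟩, 18), (⟨8, CoxeterMatrix.E₈⟩, 30)]) :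
    orderOf ((List.finRange p.1.1).map p.1.2.simple).prod = p.2 := by
  simp only [List.mem_cons, List.not_mem_nil, or_false] at hp
  rcases hp with rfl | rfl | rfl | rfl | rfl | rfl | rfl <;> dsimp only
  · exact (aux coxB2).trans coxOrdB2
  · exact (aux coxG2).trans coxOrdG2
  · exact (aux coxD4).trans coxOrdD4
  · exact (aux coxF4).trans coxOrdF4
  · exact (aux coxE6).trans coxOrdE6
  · exact (aux coxE7).trans coxOrdE7
  · exact (aux coxE8).trans coxOrdE8

end Cfsg.Agent.S1094
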