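import Cfsg.Statements.S1095
import Cfsg.Agent.H11.GoodAll
-- import your own Cfsg.Agent.* helpers here

set_option autoImplicit false
open Cfsg

namespace Cfsg.Agent.S1095
open H11 Cfsg.Lie

/-- `n_p` (p = p_{i+1} fundamental) is the signed monomial matrix `h_{p_j} ↦ h_{p_j} - A_{p_j,p} h_p`, `e_s ↦ η_s e_{w_p(s)}`, with `η_s = ±1`, `η_p = η_{-p} = -1`, `η_s η_{w_p(s)} = (-1)^{A_{p,s}}`, `η_s η_{-s} = 1`. -/
theorem result {F : Type*} [Field F] (D : Cfsg.Lie.ChevalleyDatum) (hD : D ∈ [Cfsg.Lie.chevG2, Cfsg.Lie.chevB2, Cfsg.Lie.chevD4, Cfsg.Lie.chevF4, Cfsg.Lie.chevE6, Cfsg.Lie.chevE7, Cfsg.Lie.chevE8]) (i : ℕ) (hi : i < D.rank) :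
    ∃ η : ℕ → ℤ, (∀ s < D.nroots, η s = 1 ∨ η s = -1) ∧ η (D.simple i) = -1 ∧ η (D.neg (D.simple i)) = -1 ∧
      (∀ s < D.nroots, η s * η (D.reflectRoot i s) = (-1) ^ (D.cartan i s).natAbs ∧ η s * η (D.neg s) = 1) ∧
      D.nMat F (D.simple i) 1 = Matrix.of (fun (row col : D.Idx) =>
        Sum.elim
          (fun j' : Fin D.rank => Sum.elim
            (fun j : Fin D.rank => (if j' = j then (1 : F) else 0) - (if (j' : ℕ) = i then ((D.cartan j (D.simple i) : ℤ) : F) else 0))
            (fun _ => (0 : F)) col)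
          (fun s' : Fin D.nroots => Sum.elim
            (fun _ => (0 : F))
            (fun s : Fin D.nroots => if (s' : ℕ) = D.reflectRoot i s then ((η s : ℤ) : F) else 0) col)
          row) := by
  have := good_of_mem hD
  obtain ⟨i, rfl⟩ : ∃ r' : Node D, (r' : ℕ) = i := ⟨⟨i, hi⟩, rfl⟩
  refine ⟨fun s => if h : s < D.nroots then eta (sroot i) ⟨s, h⟩ else 1, fun s hs => ?_, ?_, ?_, fun s hs => ?_, ?_⟩
  · simp only [dif_pos hs]; exact eta_sq _ _
  · simp only [← sroot_val, Fin.is_lt, dif_pos, Fin.eta, eta_self]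
  · simp only [← sroot_val, neg_val, Fin.is_lt, dif_pos, Fin.eta, eta_self_rev]
  · obtain ⟨s, rfl⟩ : ∃ r' : Root D, (r' : ℕ) = s := ⟨⟨s, hs⟩, rfl⟩
    simp only [← refl_sroot_val, neg_val, Fin.is_lt, dif_pos, Fin.eta, eta_mul_rev, eta_mul_refl, pair_sroot,
      and_true]
    rfl
  · rw [← sroot_val, nMat_eq]
    ext row col
    rcases col with j | s
    · have h := congrFun (nF_hV (sroot i) (one_ne_zero (α := F)) (Pi.single j 1)) row
      rw [← single_inl, Matrix.mulVec_single_one] at h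
      rw [Matrix.col_apply] at h
      rw [h]
      rcases row with j' | s'
      · simp only [hV_inl, corR_sroot, Matrix.of_apply, Sum.elim_inl, Pi.sub_apply, Pi.smul_apply,
          Pi.single_apply, single_dotProduct, Fin.val_inj, wtR, wt, sroot_val]
        split_ifs <;> simp
      · simp
    · have h := congrFun (nF_e (sroot i) s (one_ne_zero (α := F))) row
      rw [mulVec_eV] at h
      rw [h]
      rcases row with j' | s'
      · simp
      · simp only [Pi.smul_apply, eV_inr, Matrix.of_apply, Sum.elim_inr, ← refl_sroot_val, Fin.val_inj, Fin.is_lt,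
          dif_pos, Fin.eta]
        split_ifs <;> simp

end Cfsg.Agent.S1095
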