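import Cfsg.Statements.S1097
import Cfsg.Agent.H11.StPres
-- import your own Cfsg.Agent.* helpers here

set_option autoImplicit false
open Cfsg

namespace Cfsg.Agent.S1097
open H11 Cfsg.Lie

/-- Any homomorphism from the presented group to the Chevalley group with `x̄_r(t) ↦ x_r(t)` has kernel contained in `H̄ = ⟨h̄_p(t) : p fundamental, t ≠ 0⟩`. -/
theorem result {K : Type*} [Field K] (D : Cfsg.Lie.ChevalleyDatum) (hD : D ∈ [Cfsg.Lie.chevG2, Cfsg.Lie.chevB2, Cfsg.Lie.chevD4, Cfsg.Lie.chevF4, Cfsg.Lie.chevE6, Cfsg.Lie.chevE7, Cfsg.Lie.chevE8]) (θ : D.SteinbergGroup K →* ↥(D.group K))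
    (hθ : ∀ (r : ℕ) (t : K), r < D.nroots → ((θ (D.stGen K r t) : GL D.Idx K) : Matrix D.Idx D.Idx K) = D.x K r t) :
    θ.ker ≤ Subgroup.closure {h | ∃ (i : ℕ) (t : K), i < D.rank ∧ t ≠ 0 ∧ h = PresentedGroup.mk (D.steinbergRels K) (D.stH (D.simple i) t)} := by
  have := good_of_mem hD; have := cert_of_mem hD
  have h1 : θ = (sgSys D K).θG (sgSys_grp D K) := StSys.hom_ext (sgSys_grp D K) fun r t => by
    rw [StSys.θG_x, ← stGen_eq]; exact eq_grpSys_x_iff.1 (hθ r t r.2)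
  rw [h1, StSys.θG_ker]
  intro g hg
  have h2 := StSys.mem_H_of_θ_eq_one (sgSys_grp D K ▸ trivial) hg
  rw [StSys.H_eq_closure] at h2
  refine Subgroup.closure_mono ?_ h2
  rintro _ ⟨i, c, hc, rfl⟩
  exact ⟨i, c, i.2, hc, (mk_stH (sroot i) c).symm⟩

end Cfsg.Agent.S1097
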