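import Cfsg.Statements.S1098
import Cfsg.Agent.H11.ChevAut
-- import your own Cfsg.Agent.* helpers here

set_option autoImplicit false
open Cfsg

namespace Cfsg.Agent.S1098
open H11 Cfsg.Lie

theorem H11.s1098 {F : Type*} [Field F] {D : Cfsg.Lie.ChevalleyDatum} [H11.Good D] {π : Equiv.Perm (H11.Node D)}
    {l : List (ℕ × ℕ)} {α : MulAut (D.group F)}
    (h : H11.IsGr α π) (hL : ∀ i : H11.Node D, l.getD i (0, 1) = ((π i).1, D.graphExp (ringChar F) i (π i))) :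
    ∃ α : ↥(D.group F) ≃* ↥(D.group F), ∀ (g : ↥(D.group F)) (i : ℕ) (t : F), i < D.rank →
      (((g : GL D.Idx F) : Matrix D.Idx D.Idx F) = D.x F (D.simple i) t →
        ((α g : GL D.Idx F) : Matrix D.Idx D.Idx F) = D.x F (D.simple (l.getD i (0, 1)).1) (t ^ (l.getD i (0, 1)).2)) ∧
      (((g : GL D.Idx F) : Matrix D.Idx D.Idx F) = D.x F (D.neg (D.simple i)) t →
        ((α g : GL D.Idx F) : Matrix D.Idx D.Idx F) =
          D.x F (D.neg (D.simple (l.getD i (0, 1)).1)) (t ^ (l.getD i (0, 1)).2)) := by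
  refine ⟨α, fun g i t hi => ?_⟩
  have h1 := h ⟨i, hi⟩ t
  rw [show l.getD i (0, 1) = _ from hL ⟨i, hi⟩]
  exact ⟨H11.apply_iff.2 h1.1 g, by
    simpa only [← H11.neg_val, H11.sroot_val] using H11.apply_iff.2 h1.2 g⟩

/-- Graph automorphisms in characteristic 2 (K perfect): for B₂ (a short, b long) `x_a(t) ↦ x_b(t²)`, `x_b(t) ↦ x_a(t)`, and for F₄ (p₁, p₂ short, p₃, p₄ long) `x_{p₁}(t) ↦ x_{p₄}(t²)`, `x_{p₂}(t) ↦ x_{p₃}(t²)`, `x_{p₃}(t) ↦ x_{p₂}(t)`, `x_{p₄}(t) ↦ x_{p₁}(t)`, likewise on the negatives, extend to an automorphism of the group. -/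
theorem result {K : Type*} [Field K] [CharP K 2] (hperf : ∀ x : K, ∃ y : K, y ^ 2 = x)
    (p : Cfsg.Lie.ChevalleyDatum × List (ℕ × ℕ))
    (hp : p ∈ [(Cfsg.Lie.chevB2, [(1, 2), (0, 1)]), (Cfsg.Lie.chevF4, [(3, 2), (2, 2), (1, 1), (0, 1)])]) :
    ∃ α : ↥(p.1.group K) ≃* ↥(p.1.group K), ∀ (g : ↥(p.1.group K)) (i : ℕ) (t : K), i < p.1.rank →
      (((g : GL p.1.Idx K) : Matrix p.1.Idx p.1.Idx K) = p.1.x K (p.1.simple i) t →
        ((α g : GL p.1.Idx K) : Matrix p.1.Idx p.1.Idx K) = p.1.x K (p.1.simple (p.2.getD i (0, 1)).1) (t ^ (p.2.getD i (0, 1)).2)) ∧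
      (((g : GL p.1.Idx K) : Matrix p.1.Idx p.1.Idx K) = p.1.x K (p.1.neg (p.1.simple i)) t →
        ((α g : GL p.1.Idx K) : Matrix p.1.Idx p.1.Idx K) = p.1.x K (p.1.neg (p.1.simple (p.2.getD i (0, 1)).1)) (t ^ (p.2.getD i (0, 1)).2)) := by
  simp only [List.mem_cons, List.not_mem_nil, or_false] at hp
  rcases hp with rfl | rfl
  · obtain ⟨α, h, -⟩ := H11.gr_B2 hperf
    exact H11.s1098 h (by rw [ringChar.eq K 2]; decide +kernel)
  · obtain ⟨α, h, -⟩ := H11.gr_F4 hperf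
    exact H11.s1098 h (by rw [ringChar.eq K 2]; decide +kernel)

end Cfsg.Agent.S1098
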