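import Cfsg.Statements.S1100
import Cfsg.Agent.H11.StMat
-- import your own Cfsg.Agent.* helpers here

set_option autoImplicit false
open Cfsg

namespace Cfsg.Agent.S1100
open H11 Cfsg.Lie

/-- Canonical form `g = b n_w u` (`b ∈ B`, `u ∈ U_w⁻ = ⟨X_r : r > 0, n_w X_r n_w⁻¹ ≤ V⟩`): such a decomposition exists for every element of the group; the coset `n_w H` is determined by `g`; and for a fixed representative `n_w` the factors `b`, `u` are unique. -/
theorem result {F : Type*} [Field F] (D : Cfsg.Lie.ChevalleyDatum) (hD : D ∈ [Cfsg.Lie.chevG2, Cfsg.Lie.chevB2, Cfsg.Lie.chevD4, Cfsg.Lie.chevF4, Cfsg.Lie.chevE6, Cfsg.Lie.chevE7, Cfsg.Lie.chevE8]) :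
    (∀ g ∈ D.group F, ∃ b ∈ D.borelSubgroup F, ∃ n ∈ D.monomialSubgroup F,
      ∃ u ∈ Subgroup.closure {x : GL D.Idx F | ∃ (r : ℕ) (t : F), D.IsPosRoot r ∧
            (D.rootSubgroup F r).map (MulAut.conj n).toMonoidHom ≤ D.negUnipotent F ∧ (x : Matrix D.Idx D.Idx F) = D.x F r t},
        g = b * n * u) ∧
    (∀ (b b' n n' u u' : GL D.Idx F), b ∈ D.borelSubgroup F → b' ∈ D.borelSubgroup F →
      n ∈ D.monomialSubgroup F → n' ∈ D.monomialSubgroup F →
      u ∈ Subgroup.closure {x : GL D.Idx F | ∃ (r : ℕ) (t : F), D.IsPosRoot r ∧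
            (D.rootSubgroup F r).map (MulAut.conj n).toMonoidHom ≤ D.negUnipotent F ∧ (x : Matrix D.Idx D.Idx F) = D.x F r t} →
      u' ∈ Subgroup.closure {x : GL D.Idx F | ∃ (r : ℕ) (t : F), D.IsPosRoot r ∧
            (D.rootSubgroup F r).map (MulAut.conj n').toMonoidHom ≤ D.negUnipotent F ∧ (x : Matrix D.Idx D.Idx F) = D.x F r t} →
      b * n * u = b' * n' * u' → n⁻¹ * n' ∈ D.diagonalSubgroup F ∧ (n = n' → b = b' ∧ u = u')) := by
  have := good_of_mem hD
  have := cert_of_mem hD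
  have key : ∀ (n : GL D.Idx F) (w : Equiv.Perm (Root D)), (matSys D F).Acts n w →
      Subgroup.closure {x : GL D.Idx F | ∃ (r : ℕ) (t : F), D.IsPosRoot r ∧
        (D.rootSubgroup F r).map (MulAut.conj n).toMonoidHom ≤ D.negUnipotent F ∧
        (x : Matrix D.Idx D.Idx F) = D.x F r t} = (matSys D F).US {r | IsPos r ∧ ¬ IsPos (w r)} := by
    intro n w h
    have e := closure_x_eq (D := D) (K := F) (fun r => D.IsPosRoot r ∧
      (D.rootSubgroup F r).map (MulAut.conj n).toMonoidHom ≤ D.negUnipotent F) fun _ h => h.1.1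
    simp only [and_assoc] at e
    rw [e]; congr 1; ext r
    simp only [Set.mem_ofPred_eq, isPosRoot_iff, rootSubgroup_eq, h.conj_US, negUnipotent_eq, Set.image_singleton,
      StSys.US_le, Set.mem_singleton_iff, forall_eq]
    exact and_congr_right fun _ => ⟨fun a => StSys.mem_of_x_mem_US closed_not_isPos StSys.pos_V one_ne_zero (a 1),
      fun a t => StSys.x_mem_V a t⟩
  rw [group_eq, borelSubgroup_eq, monomialSubgroup_eq, diagonalSubgroup_eq]
  constructor
  · intro g hg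
    obtain ⟨b, hb, m, u, hu, e⟩ := StSys.exists_bnu hg
    exact ⟨b, hb, m, m.2, u, (key m _ (StSys.acts_π m)).symm ▸ hu, e⟩
  · intro b b' n n' u u' hb hb' hn hn' hu hu' e
    rw [key n _ (StSys.acts_π ⟨n, hn⟩)] at hu
    rw [key n' _ (StSys.acts_π ⟨n', hn'⟩)] at hu'
    refine ⟨StSys.inv_mul_mem_H_of_bnb hb (StSys.U_le_B (StSys.US_mono (fun _ h => h.1) hu)) hb'
      (StSys.U_le_B (StSys.US_mono (fun _ h => h.1) hu')) hn hn' e, ?_⟩
    rintro rfl
    exact StSys.eq_of_bnu (StSys.acts_π ⟨n, hn⟩) hb hb' hu hu' e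

end Cfsg.Agent.S1100
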