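import Cfsg.Statements.S1101
import Cfsg.Agent.H11.TwG2
-- import your own Cfsg.Agent.* helpers here

set_option autoImplicit false
open Cfsg

namespace Cfsg.Agent.S1101
open H11 Cfsg.Lie

/-- For ²G₂ over `K` with `|K| = 3^(2m+1)`, `θ = 3^m`: `U¹ = G¹ ∩ U` consists exactly of the elements `x_a(t^θ) x_b(t) x_{a+b}(t^{θ+1}+u^θ) x_{2a+b}(t^{2θ+1}+v^θ) x_{3a+b}(u) x_{3a+2b}(v)`, `t, u, v ∈ K`, and it has `|K|³` elements. -/
theorem result {K : Type*} [Field K] [Fintype K] {m : ℕ} (hK : Fintype.card K = 3 ^ (2 * m + 1)) :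
    (∀ g : GL Cfsg.Lie.chevG2.Idx K, g ∈ Cfsg.Lie.chevG2.posUnipotent K ⊓ Cfsg.Lie.twistedG2 K (3 ^ m) ↔
      ∃ t u v : K, (g : Matrix Cfsg.Lie.chevG2.Idx Cfsg.Lie.chevG2.Idx K) = Cfsg.Lie.chevG2.wordMat K (Cfsg.Lie.reeWordU (3 ^ m) t u v)) ∧
    Nat.card ↥(Cfsg.Lie.chevG2.posUnipotent K ⊓ Cfsg.Lie.twistedG2 K (3 ^ m)) = (3 ^ (2 * m + 1)) ^ 3 := by
  obtain ⟨θ, F, σ, h⟩ := exists_ree hK
  have T := Ree.tw F h (grpSys_grp _ _)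
  have h0 : (grpSys chevG2 K).U = (grpSys chevG2 K).US (PosJ (orb flipG2 (nd _ 0))) :=
    congrArg (grpSys chevG2 K).US (Set.ext fun r => ⟨fun a => ((orbD_G2.pos _).1 r).1 (by revert r; decide), fun a => a.1⟩)
  refine ⟨fun g => ?_, by
    rw [twistedG2, card_inf_gen, ← grpSys_U, T.inf_eq le_rfl, h0, Ree.card_pos F h, Nat.card_eq_fintype_card, hK]⟩
  rw [twistedG2, inf_gen_eq, ← grpSys_U, T.inf_eq le_rfl, h0]
  constructor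
  · rintro ⟨g, hg, rfl⟩
    obtain ⟨w, h2, rfl⟩ := StSys.exists_posJ (orbD_G2.pos _) hg.1
    obtain ⟨a, rfl⟩ := Ree.exists_of_fix F h _ w h2 hg.2
    exact ⟨_, _, _, coe_wordG _⟩
  · rintro ⟨t, u, v, e⟩
    exact ⟨_, ⟨StSys.wordG_mem (L := PG2 (nd _ 0)) rfl fun r => ((orbD_G2.pos _).1 r).1, Ree.U_fix F h t u v⟩,
      Units.ext ((coe_wordG _).trans e.symm)⟩

end Cfsg.Agent.S1101
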