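import Cfsg.Statements.S1105
import Cfsg.Agent.H11.TwE6
-- import your own Cfsg.Agent.* helpers here

set_option autoImplicit false
open Cfsg

namespace Cfsg.Agent.S1105
open H11 Cfsg.Lie

/-- The normal core of `B¹ = G¹ ∩ B` in ²E₆(q) is trivial. -/
theorem result {K : Type*} [Field K] [Fintype K] {q : ℕ} (hq : IsPrimePow q) (hK : Fintype.card K = q ^ 2) :
    ((Cfsg.Lie.chevE6.borelSubgroup K ⊓ Cfsg.Lie.twistedE6 K q).subgroupOf (Cfsg.Lie.twistedE6 K q)).normalCore = ⊥ := by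
  obtain ⟨θ, F⟩ := exists_frF hq two_ne_zero hK
  obtain ⟨σ, h⟩ := exists_isTw_E6 θ
  rw [twistedE6, ← StSys.Tw.B_comap]
  exact (TE6.tw F h (grpSys_grp _ _)).core (Subgroup.inclusion_injective _)
    (inclusion_range_gen _) (grpSys_θ_injective _ _) ((TE6.wd F h).big' orbD_E6)

end Cfsg.Agent.S1105
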