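import Mathlib
import Cfsg.Statements.S1132
import Cfsg.Agent.H02.Suz2

set_option autoImplicit false
open Cfsg

namespace Cfsg.Agent.S1132

/-- In the rank-one set-up (`G` finite and doubly transitive on `Ω`, `t` an involution moving `a`, `Q` normal in `G_a` with `G_a = Q D`, `Q ⊓ D = 1` for the two-point stabiliser `D = G_a ⊓ G_{t • a}`, `|Q|` even, `|D|` odd), with the action faithful and `G` containing two distinct commuting involutions: a Sylow 2-subgroup of `Q` is abelian or a Suzuki 2-group. -/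
theorem result {G Ω : Type*} [Group G] [Finite G] [MulAction G Ω] [FaithfulSMul G Ω] {a : Ω} {t : G} {Q : Subgroup G}
    (hS : Cfsg.IsRankOneSetup G Ω a t Q)
    (h2 : ∃ x y : G, x ≠ 1 ∧ y ≠ 1 ∧ x ≠ y ∧ x * x = 1 ∧ y * y = 1 ∧ x * y = y * x)
    (S : Sylow 2 ↥Q) : IsMulCommutative (S : Subgroup ↥Q) ∨ Cfsg.IsSuzukiTwoGroup ↥(S : Subgroup ↥Q) := by
  have h := H02.Suz.R2.mk (H02.Suz.RO.of hS) h2
  have e : (S : Subgroup Q).map Q.subtype = H02.Suz.S2 Q :=
    BG.nil_hall_eq h.Q_nil (BG.isSylowIn_map Nat.prime_two S)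
  have e' : (S : Subgroup Q) ≃* H02.Suz.S2 Q :=
    ((S : Subgroup Q).equivMapOfInjective Q.subtype Q.subtype_injective).trans
      (MulEquiv.subgroupCongr e)
  by_cases hab : IsMulCommutative (H02.Suz.S2 Q)
  · exact Or.inl ⟨⟨fun x y => e'.injective (by rw [map_mul, map_mul, hab.is_comm.comm])⟩⟩
  · exact Or.inr (H02.Suz.suzuki_congr e'.symm (h.suzuki_of_not_ab hab))

end Cfsg.Agent.S1132
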