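import Mathlib
import Cfsg.Statements.S1141
import Cfsg.Agent.H18.SU3Aut

set_option autoImplicit false
open scoped Pointwise
open Cfsg

namespace Cfsg.Agent.S1141

open Subgroup H18.U3 in
theorem aux {F : Type*} [Field F] [Fintype F] {q : ℕ} [UF F q] [CharP F 2] (hq : 3 ≤ q) :
    IsSuzukiTwoGroup (Q F q) := by
  refine ⟨inferInstance, Q.isPGroup, ?_, ?_, ?_⟩
  · by_contra h
    push Not at h
    obtain ⟨x, hx⟩ := Q.exists_a (q := q) (1 : F)
    exact one_ne_zero (hx.symm.trans (Q.mem_center.1 (mem_center_iff.2 fun y => h y x)))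
  · obtain ⟨x, y, h1, h2, h3, h4, h5, -⟩ := exists_four (F := F) hq
    exact ⟨x, y, h3, h1, h4, h2, h5⟩
  · let L : Subgroup Fˣ := (barU * (MonoidHom.id Fˣ)⁻¹).ker
    have hL : ∀ k : Fˣ, k ∈ L ↔ bar (k : F) = k := fun k => by
      simp [L, mul_inv_eq_one, Units.ext_iff]
    refine ⟨L.map Q.scaleHom, isCyclic_of_surjective _ (Q.scaleHom.subgroupMap_surjective L), ?_⟩
    intro x y x1 x2 y1 y2
    have xa := Q.sq_eq_one.1 x2
    have ya := Q.sq_eq_one.1 y2
    have xb : x.b ≠ 0 := fun e => x1 (Q.ext xa e)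
    have yb : y.b ≠ 0 := fun e => y1 (Q.ext ya e)
    have xf := Q.fix_iff.1 (Q.tr_of_a xa)
    have yf := Q.fix_iff.1 (Q.tr_of_a ya)
    have sq_inj : ∀ a b : F, a * a = b * b → a = b := fun a b h => by
      have : (a - b) ^ 2 = 0 := by rw [sub_pow_char]; linear_combination h
      exact sub_eq_zero.1 (pow_eq_zero_iff two_ne_zero |>.1 this)
    obtain ⟨c, hc⟩ := (FiniteField.isSquare_of_char_two (ringChar.eq F 2) (y.b / x.b))
    have c0 : c ≠ 0 := by rintro rfl; simp [xb, yb] at hc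
    have cf : bar c = c := sq_inj _ _ (by rw [← map_mul, ← hc, map_div₀, xf, yf])
    refine ⟨⟨_, Units.mk0 c c0, (hL _).2 cf, rfl⟩, ?_, ?_⟩
    · change Q.scale _ x = y
      ext
      · simp [xa, ya]
      · simp only [Q.scale_b, Units.val_mk0, cf, ← hc]; field_simp
    · rintro ⟨_, k, hk, rfl⟩ h
      have h : (Q.scale k x).b = y.b := congrArg Q.b h
      rw [Q.scale_b, (hL k).1 hk] at h
      have : k = Units.mk0 c c0 := Units.ext (sq_inj _ _ (by
        rw [Units.val_mk0, ← hc, ← h]; field_simp))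
      subst this; rfl

theorem transport {P R : Type*} [Group P] [Group R] (e : P ≃* R) (h : IsSuzukiTwoGroup R) :
    IsSuzukiTwoGroup P := by
  obtain ⟨h1, h2, ⟨x, y, h3⟩, ⟨u, v, h4, h5, h6, h7, h8⟩, K, hK, h9⟩ := h
  let c := (MulAut.congr e).symm
  refine ⟨Finite.of_equiv _ e.symm.toEquiv, h2.of_equiv e.symm,
    ⟨e.symm x, e.symm y, fun h => h3 (e.symm.injective (by simpa using h))⟩,
    ⟨e.symm u, e.symm v, e.symm.injective.ne h4, by simpa using h5, by rw [← map_mul, h6, map_one],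
      by simpa using h7, by rw [← map_mul, h8, map_one]⟩,
    K.map c.toMonoidHom, isCyclic_of_surjective _ (c.toMonoidHom.subgroupMap_surjective K), ?_⟩
  intro x y x1 x2 y1 y2
  obtain ⟨k, hk, hu⟩ := h9 (e x) (e y) (by simpa using x1) (by rw [← map_mul, x2, map_one])
    (by simpa using y1) (by rw [← map_mul, y2, map_one])
  refine ⟨⟨_, k, k.2, rfl⟩, ?_, ?_⟩
  · change e.symm ((k : MulAut R) (e x)) = y
    rw [hk]; simp
  · rintro ⟨_, l, hl, rfl⟩ h
    have h : e.symm (l (e x)) = y := h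
    have := hu ⟨l, hl⟩ (by rw [← h]; simp)
    subst this; rfl

/-- Let `q = 2^n ≥ 4` and `|F| = q²`. A Sylow 2-subgroup `S` of `PSU₃(q)` has order `q³`, its centre has order `q`, and `S` is a Suzuki 2-group. -/
theorem result {F : Type*} [Field F] [Fintype F] {n : ℕ} (hn : 2 ≤ n)
    (hF : Fintype.card F = (2 ^ n) ^ 2) (S : Sylow 2 (Cfsg.PSU 3 F (2 ^ n))) :
    Nat.card S = (2 ^ n) ^ 3 ∧ Nat.card (Subgroup.center ↥(S : Subgroup (Cfsg.PSU 3 F (2 ^ n)))) = 2 ^ n ∧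
      Cfsg.IsSuzukiTwoGroup ↥(S : Subgroup (Cfsg.PSU 3 F (2 ^ n))) := by
  haveI : H18.U3.UF F (2 ^ n) := ⟨hF⟩
  haveI : CharP F 2 := H18.U3.charTwo
  have h4 : 2 ^ 2 ≤ 2 ^ n := Nat.pow_le_pow_right (by norm_num) hn
  obtain ⟨e⟩ := H18.U3.sylow_PSU S
  exact ⟨by rw [← H18.U3.Q.card (F := F)]; exact Nat.card_congr e.toEquiv,
    (Nat.card_congr (H10.centerEquiv e).toEquiv).trans H18.U3.Q.card_center,
    transport e (aux (by omega))⟩

end Cfsg.Agent.S1141
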