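import Cfsg.Statements.S1151
import Cfsg.Agent.H11.Ree4
-- import your own Cfsg.Agent.* helpers here

set_option autoImplicit false
open Cfsg

namespace Cfsg.Agent.S1151
open H11 Cfsg.Lie

/-- In the small Ree group ²G₂(q), q = 3^(2m+1), realised as G¹ inside the Chevalley group G₂ over the field with q elements (θ the 3^m-th power map), with H¹ = G¹ ∩ H and U¹ = G¹ ∩ U the intersections with the ambient diagonal and positive unipotent subgroups: `H¹` has exactly `(q - 1)/2` elements of odd order, and each non-identity one centralises no non-identity element of `U¹`. -/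
theorem result {K : Type*} [Field K] [Fintype K] {m : ℕ} (hK : Fintype.card K = 3 ^ (2 * m + 1)) :
    2 * Nat.card {h : ↥(Cfsg.Lie.chevG2.diagonalSubgroup K ⊓ Cfsg.Lie.twistedG2 K (3 ^ m)) // Odd (orderOf h)} = 3 ^ (2 * m + 1) - 1 ∧
      ∀ h ∈ (Cfsg.Lie.chevG2.diagonalSubgroup K ⊓ Cfsg.Lie.twistedG2 K (3 ^ m)), h ≠ 1 → Odd (orderOf h) →
        (Cfsg.Lie.chevG2.posUnipotent K ⊓ Cfsg.Lie.twistedG2 K (3 ^ m)) ⊓ Subgroup.centralizer {h} = ⊥ := by
  obtain ⟨k, n, a, T, A, -, G, -⟩ := Ree.exists_rg hK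
  have e := Subgroup.subgroupOfEquivOfLe (inf_le_right : chevG2.diagonalSubgroup K ⊓ twistedG2 K (3 ^ m) ≤ _)
  have h1 := e.isCyclic.1 G.b.cycH
  have h2 := (Nat.card_congr e.toEquiv).symm.trans (G.b.cardH.trans G.q0)
  refine ⟨?_, fun h hh h3 h4 => eq_bot_iff.2 fun u hu => congrArg Subtype.val (G.b.fpf ⟨h, hh.2⟩ hh (fun e => h3 (orderOf_eq_one_iff.1
    (Nat.eq_one_of_dvd_coprimes h4.coprime_two_left (orderOf_dvd_of_pow_eq_one (congrArg Subtype.val e)) dvd_rfl))) ⟨u, hu.1.2⟩ hu.1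
    (Subtype.ext (hu.2 h rfl)))⟩
  let _ := h1.commGroup
  rw [G.q0, ← Nat.gcd_eq_right (dvd_mul_left (ro k 0) 2), ← h2, ← IsCyclic.card_powMonoidHom_ker]
  exact congrArg _ (Nat.card_congr (Equiv.subtypeEquivRight fun x => ⟨fun h => orderOf_dvd_iff_pow_eq_one.1
    (h.coprime_two_right.dvd_of_dvd_mul_left (h2 ▸ orderOf_dvd_natCard x)), fun h => (odd_ro k 0).of_dvd_nat (orderOf_dvd_of_pow_eq_one h)⟩))

end Cfsg.Agent.S1151
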