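import Mathlib
import Cfsg.Statements.S3380
import Cfsg.Agent.H05.Roq

set_option autoImplicit false
open Cfsg

namespace Cfsg.Agent.S3380

/-- Let a finite p-group G act faithfully and irreducibly on a non-trivial finite vector space V over the field with q elements (q prime), and suppose G is not cyclic, generalized quaternion, dihedral or semidihedral. Then G has a subgroup H of index p and V is the direct sum of p subspaces, each invariant under H, on none of which H acts faithfully, and which every element of G outside H permutes in a single p-cycle. -/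
theorem result
    (q : ℕ) [Fact q.Prime] {V : Type*} [AddCommGroup V] [Module (ZMod q) V] [Finite V] [Nontrivial V]
    {G : Type*} [Group G] [Finite G] (p : ℕ) [Fact p.Prime] (hG : IsPGroup p G)
    (ρ : G →* (V ≃ₗ[ZMod q] V)) (hρ : Function.Injective ρ)
    (hirr : ∀ W : Submodule (ZMod q) V, (∀ g : G, ∀ w ∈ W, ρ g w ∈ W) → W = ⊥ ∨ W = ⊤)
    (hnc : ¬ IsCyclic G) (hnq : ∀ n : ℕ, ¬ Nonempty (G ≃* QuaternionGroup n))
    (hnd : ∀ n : ℕ, ¬ Nonempty (G ≃* DihedralGroup n)) (hnsd : ¬ Cfsg.IsQuasiDihedral G) :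
    ∃ (H : Subgroup G) (W : Fin p → Submodule (ZMod q) V), H.index = p ∧
      iSup W = ⊤ ∧ iSupIndep W ∧
      (∀ h ∈ H, ∀ i, ∀ w ∈ W i, ρ h w ∈ W i) ∧
      (∀ i, ∃ h ∈ H, h ≠ 1 ∧ ∀ w ∈ W i, ρ h w = w) ∧
      ∀ g : G, g ∉ H → ∃ σ : Equiv.Perm (Fin p), orderOf σ = p ∧ ∀ i, (W i).map (ρ g : V →ₗ[ZMod q] V) = W (σ i) := by
  obtain ⟨a, z, c, h⟩ := H05.Half.exists_roq hG hρ hirr hnc hnq hnd hnsd
  have hp : p.Prime := Fact.out
  haveI : NeZero p := ⟨hp.ne_zero⟩
  let e : Fin p ≃ ZMod p := (ZMod.finEquiv p).toEquiv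
  refine ⟨c.ker, fun i => H05.Half.Roq.W ρ a z (e i), h.index, ?_, ?_, ?_, ?_, ?_⟩
  · rw [← h.iSup_W hρ hirr]
    exact e.iSup_comp (g := H05.Half.Roq.W ρ a z)
  · exact (h.indep hρ hirr).comp e.injective
  · intro g hg i w hw
    have hg : c g = 1 := hg
    simpa [hg] using h.smul_mem g hw
  · intro i
    exact ⟨_, h.c_eq_one (e i), h.ne_one (e i), fun w hw => hw⟩
  · intro g hg
    have hg : (c g).toAdd ≠ 0 := hg
    refine ⟨e.permCongr.symm (Equiv.addRight (c g).toAdd), ?_, fun i => ?_⟩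
    · have : orderOf (e.permCongr.symm (Equiv.addRight (c g).toAdd)) =
          orderOf (Equiv.addRight (c g).toAdd) :=
        (MulEquiv.orderOf_eq e.permCongrHom.symm _)
      rw [this]
      apply orderOf_eq_prime
      · ext x
        simp
      · intro h1
        have := congrArg (fun σ : Equiv.Perm (ZMod p) => σ 0) h1
        exact hg (by simpa using this)
    · rw [h.map_W]
      simp

end Cfsg.Agent.S3380
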