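import Mathlib
import Cfsg.Statements.S3381
import Cfsg.Agent.H05.HalfLin

set_option autoImplicit false
open Cfsg

namespace Cfsg.Agent.S3381

open H05.Half in
theorem card_le {R V : Type*} [Ring R] [AddCommGroup V] [Module R V] [Finite V] (A B : Submodule R V)
    (h : Disjoint A B) : Nat.card A * Nat.card B ≤ Nat.card V := by
  rw [← Nat.card_prod]
  refine Nat.card_le_card_of_injective (fun x : A × B => (x.1 : V) + x.2) ?_
  rintro ⟨a, b⟩ ⟨a', b'⟩ e
  have e : (a : V) + b = a' + b' := e
  have h1 : (a : V) - a' = b' - b := by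
    rw [sub_eq_sub_iff_add_eq_add, e, add_comm]
  have h2 : (a : V) - a' = 0 :=
    (Submodule.disjoint_def.1 h) _ (A.sub_mem a.2 a'.2) (h1 ▸ B.sub_mem b'.2 b.2)
  have h3 : (a : V) = a' := sub_eq_zero.1 h2
  rw [h3] at e
  exact Prod.ext (Subtype.ext h3) (Subtype.ext (add_left_cancel e))

/-- Let G be a finite group acting faithfully and linearly on a non-trivial finite vector space V over the field with q elements (q prime) so that every non-zero vector has a stabilizer of order 2, and suppose G has a central involution. Then V has q^(2r) elements for some r and G contains exactly q^r + 1 non-central involutions. -/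
theorem result
    (q : ℕ) [Fact q.Prime] {V : Type*} [AddCommGroup V] [Module (ZMod q) V] [Finite V] [Nontrivial V]
    {G : Type*} [Group G] [Finite G] (ρ : G →* (V ≃ₗ[ZMod q] V)) (hρ : Function.Injective ρ)
    (hstab : ∀ v : V, v ≠ 0 → Nat.card {g : G // ρ g v = v} = 2)
    (z : G) (hz : orderOf z = 2) (hzc : z ∈ Subgroup.center G) :
    ∃ r : ℕ, Nat.card V = q ^ (2 * r) ∧
      Nat.card {g : G // orderOf g = 2 ∧ g ∉ Subgroup.center G} = q ^ r + 1 := by
  classical
  have hirr := H05.Half.lin_irr' ρ hρ (by norm_num : 1 < 2) hstab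
  have hz1 : z ≠ 1 := fun e => by rw [e, orderOf_one] at hz; omega
  have hz2 : z * z = 1 := by rw [← pow_two, ← hz, pow_orderOf_eq_one]
  have hneg := H05.Half.center_invol hρ hirr hzc hz1 hz2
  have hodd : ∀ v : V, v + v = 0 → v = 0 := fun v hv =>
    H05.Half.fixS_center hρ hirr hzc hz1 (by rw [hneg]; exact neg_eq_of_add_eq_zero_left hv)
  have h2 : (2 : ZMod q) ≠ 0 := by
    intro h
    obtain ⟨v, hv⟩ := exists_ne (0 : V)
    exact hv (hodd v (by rw [← two_smul (ZMod q), h, zero_smul]))
  let I := {g : G // orderOf g = 2 ∧ g ∉ Subgroup.center G}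
  -- the involution fixing a vector
  have huniq : ∀ v : V, v ≠ 0 → ∀ s t : G, s ≠ 1 → t ≠ 1 → ρ s v = v → ρ t v = v → s = t := by
    intro v hv s t hs ht h1 h2
    obtain ⟨y, -, hy⟩ := (Nat.card_eq_two_iff' (⟨1, by simp⟩ : {g : G // ρ g v = v})).1 (hstab v hv)
    have a := hy ⟨s, h1⟩ (fun e => hs (congrArg Subtype.val e))
    have b := hy ⟨t, h2⟩ (fun e => ht (congrArg Subtype.val e))
    exact congrArg Subtype.val (a.trans b.symm)
  have hne1 : ∀ t : I, (t : G) ≠ 1 := fun t e => t.2.2 (e ▸ Subgroup.one_mem _)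
  have hex : ∀ v : V, v ≠ 0 → ∃ t : I, ρ t v = v := by
    intro v hv
    obtain ⟨y, hy, -⟩ := (Nat.card_eq_two_iff' (⟨1, by simp⟩ : {g : G // ρ g v = v})).1 (hstab v hv)
    have hy1 : (y : G) ≠ 1 := fun e => hy (Subtype.ext e)
    have hyy : (y : G) * y = 1 := by
      by_contra h
      have := huniq v hv _ _ h hy1 (by rw [H05.Half.rho_mul, y.2, y.2]) y.2
      exact hy1 (by simpa using this)
    refine ⟨⟨y, orderOf_eq_prime (by rw [pow_two, hyy]) hy1, fun hc => hv ?_⟩, y.2⟩
    exact H05.Half.fixS_center hρ hirr hc hy1 y.2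
  have hsq : ∀ t : I, (t : G) * t = 1 := fun t => by
    have := pow_orderOf_eq_one (t : G)
    rwa [t.2.1, pow_two] at this
  let ng : I → I := fun t => ⟨z * t, orderOf_eq_prime (by
      rw [pow_two, mul_assoc, ← mul_assoc (t : G), Subgroup.mem_center_iff.1 hzc, mul_assoc z, hsq,
        mul_one, hz2]) (fun e => t.2.2 (by
      rw [eq_inv_of_mul_eq_one_right e]; exact Subgroup.inv_mem _ hzc)), fun h => t.2.2 (by
      simpa using Subgroup.mul_mem _ (Subgroup.inv_mem _ hzc) h)⟩
  have hng : ∀ (t : I) (v : V), ρ (ng t) v = - ρ t v := fun t v => by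
    show ρ (z * t) v = _
    rw [H05.Half.rho_mul, hneg]
  have hngng : ∀ t : I, ng (ng t) = t := fun t => Subtype.ext (by
    show z * (z * t) = t
    rw [← mul_assoc, hz2, one_mul])
  let a : I → ℕ := fun t => Nat.card (H05.Half.fixS ρ (t : G))
  have hdisj : ∀ s t : I, s ≠ t → Disjoint (H05.Half.fixS ρ (s : G)) (H05.Half.fixS ρ (t : G)) := by
    intro s t hst
    rw [Submodule.disjoint_def]
    intro v h1 h2
    by_contra hv
    exact hst (Subtype.ext (huniq v hv _ _ (hne1 s) (hne1 t) h1 h2))
  have hngne : ∀ t : I, t ≠ ng t := fun t e => hz1 (by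
    have : (t : G) = z * t := congrArg Subtype.val e
    simpa using this)
  have hprod : ∀ t : I, a t * a (ng t) = Nat.card V := by
    intro t
    have hc : IsCompl (H05.Half.fixS ρ (t : G)) (H05.Half.fixS ρ (ng t : G)) := by
      refine ⟨hdisj _ _ (hngne t), codisjoint_iff.2 (eq_top_iff.2 fun v _ => ?_)⟩
      have e : v = (2 : ZMod q)⁻¹ • (v + ρ t v) + (2 : ZMod q)⁻¹ • (v - ρ t v) := by
        rw [← smul_add, show v + ρ t v + (v - ρ t v) = (2 : ZMod q) • v by rw [two_smul]; abel,
          smul_smul, inv_mul_cancel₀ h2, one_smul]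
      have e2 : ρ t (ρ t v) = v := by rw [← H05.Half.rho_mul, hsq, map_one]; rfl
      rw [e]
      refine Submodule.add_mem_sup (Submodule.smul_mem _ _ ?_) (Submodule.smul_mem _ _ ?_)
      · rw [H05.Half.mem_fixS, map_add, e2, add_comm]
      · rw [H05.Half.mem_fixS, hng, map_sub, e2, neg_sub]
    rw [← Nat.card_prod]
    exact Nat.card_congr (Submodule.prodEquivOfIsCompl _ _ hc).toEquiv
  have hnb : ∀ t : I, ∃ v : V, v ≠ 0 ∧ ρ t v = v := by
    intro t
    by_contra hh
    push Not at hh
    have h1 : H05.Half.fixS ρ (t : G) = ⊥ := by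
      rw [eq_bot_iff]
      intro v hv
      by_contra h0
      exact hh v h0 hv
    apply H05.Half.fixS_ne_top hρ (hne1 (ng t))
    rw [eq_top_iff]
    intro v _
    have e2 : ρ t (ρ t v) = v := by rw [← H05.Half.rho_mul, hsq, map_one]; rfl
    have : ρ t v + v ∈ H05.Half.fixS ρ (t : G) := by
      rw [H05.Half.mem_fixS, map_add, e2, add_comm]
    rw [h1, Submodule.mem_bot] at this
    rw [H05.Half.mem_fixS, hng]
    exact neg_eq_of_add_eq_zero_right this
  have hpos : ∀ t : I, 0 < a t := fun t => Nat.card_pos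
  have hle : ∀ s t : I, s ≠ ng t → a s ≤ a t := by
    intro s t h
    have := card_le _ _ (hdisj s (ng t) h)
    rw [← hprod t] at this
    exact Nat.le_of_mul_le_mul_right this (hpos _)
  have hsqr : ∀ t : I, a t * a t = Nat.card V := by
    intro t
    obtain ⟨v, hv0, hv⟩ := hnb t
    obtain ⟨w, hw0, hw⟩ := hnb (ng t)
    have hw' : ρ t w = -w := by rw [hng] at hw; exact neg_eq_iff_eq_neg.1 hw
    have hvw : v + w ≠ 0 := by
      intro e
      have : w = -v := eq_neg_of_add_eq_zero_right e
      rw [this, map_neg, hv, neg_neg] at hw'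
      exact hv0 (hodd v (by nth_rewrite 1 [← hw']; simp))
    obtain ⟨s, hs⟩ := hex _ hvw
    have h1 : s ≠ t := by
      rintro rfl
      rw [map_add, hv, hw'] at hs
      exact hw0 (hodd w (by nth_rewrite 1 [← add_left_cancel hs]; simp))
    have h2 : s ≠ ng t := by
      rintro rfl
      rw [map_add, hw, hng, hv] at hs
      exact hv0 (hodd v (by nth_rewrite 1 [← add_right_cancel hs]; simp))
    have e1 : a s ≤ a t := hle s t h2
    have e2 : a s ≤ a (ng t) := hle s (ng t) (by rw [hngng]; exact h1)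
    have e3 : a t ≤ a s := hle t s (fun e => h2 (by rw [e, hngng]))
    have e4 : a (ng t) ≤ a s := hle (ng t) s (fun e => h1 (by rw [← hngng s, ← e, hngng]))
    rw [← hprod t]; congr 1; omega
  obtain ⟨v₀, hv₀⟩ := exists_ne (0 : V)
  obtain ⟨t₀, -⟩ := hex v₀ hv₀
  have hall : ∀ t : I, a t = a t₀ := fun t => Nat.mul_self_inj.1 ((hsqr t).trans (hsqr t₀).symm)
  have hq : a t₀ = q ^ Module.finrank (ZMod q) (H05.Half.fixS ρ (t₀ : G)) := by
    have := Module.natCard_eq_pow_finrank (K := ZMod q) (V := H05.Half.fixS ρ (t₀ : G))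
    rw [Nat.card_zmod] at this
    exact this
  refine ⟨Module.finrank (ZMod q) (H05.Half.fixS ρ (t₀ : G)), by rw [two_mul, pow_add, ← hq, hsqr], ?_⟩
  rw [← hq]
  letI : Fintype V := Fintype.ofFinite V
  letI : Fintype I := Fintype.ofFinite I
  let f : V → I := fun v => if h : v = 0 then t₀ else (hex v h).choose
  have hf : ∀ v : V, v ≠ 0 → ∀ t : I, f v = t ↔ ρ t v = v := by
    intro v hv t
    have h1 : ρ (f v) v = v := by
      simp only [f, dif_neg hv]
      exact (hex v hv).choose_spec
    exact ⟨fun e => e ▸ h1, fun e => Subtype.ext (huniq v hv _ _ (hne1 _) (hne1 _) h1 e)⟩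
  have hsum := Finset.card_eq_sum_card_fiberwise (f := f) (s := Finset.univ.erase (0 : V))
    (t := Finset.univ) (fun _ _ => Finset.mem_univ _)
  have hfib : ∀ t : I, ((Finset.univ.erase (0 : V)).filter (fun v => f v = t)).card = a t₀ - 1 := by
    intro t
    have : (Finset.univ.erase (0 : V)).filter (fun v => f v = t) =
        (Finset.univ.filter (fun v => v ∈ H05.Half.fixS ρ (t : G))).erase 0 := by
      ext v
      simp only [Finset.mem_filter, Finset.mem_erase, Finset.mem_univ, and_true, true_and,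
        H05.Half.mem_fixS]
      exact and_congr_right fun hv => hf v hv t
    rw [this, Finset.card_erase_of_mem (by simp), ← hall t]
    congr 1
    simp only [a]
    rw [Nat.card_eq_fintype_card, Fintype.card_subtype]
  rw [Finset.sum_congr rfl (fun t _ => hfib t), Finset.sum_const, Finset.card_univ, smul_eq_mul,
    Finset.card_erase_of_mem (Finset.mem_univ _), Finset.card_univ, ← Nat.card_eq_fintype_card,
    ← Nat.card_eq_fintype_card, ← hsqr t₀] at hsum
  have h1 : 1 < a t₀ := by
    by_contra h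
    have h3 : a t₀ = 1 := by have := hpos t₀; omega
    have := hsqr t₀
    rw [h3] at this
    have := Finite.one_lt_card (α := V)
    omega
  obtain ⟨b, hb⟩ : ∃ b, a t₀ = b + 1 := ⟨a t₀ - 1, by omega⟩
  show Nat.card I = _
  rw [hb] at hsum h1 ⊢
  have hb0 : 0 < b := by omega
  have : (b + 1 + 1) * b = Nat.card I * b := by
    have e : (b + 1) * (b + 1) - 1 = (b + 1 + 1) * b := by
      have : (b + 1) * (b + 1) = (b + 1 + 1) * b + 1 := by ring
      omega
    rw [← e, hsum]; simp
  exact (Nat.eq_of_mul_eq_mul_right hb0 this).symm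

end Cfsg.Agent.S3381
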