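import Mathlib
import Cfsg.Statements.S3370
import Cfsg.Agent.H05.Roq
import Cfsg.Agent.S3784
import Cfsg.Agent.S3380
import Cfsg.Agent.S3381

set_option autoImplicit false
open Cfsg

namespace Cfsg.Agent.S3370

theorem card_linEquiv {F W : Type*} [Field F] [Finite F] [AddCommGroup W] [Module F W]
    [FiniteDimensional F W] {k : ℕ} (hk : Module.finrank F W = k) :
    Nat.card (W ≃ₗ[F] W) = ∏ i : Fin k, (Nat.card F ^ k - Nat.card F ^ (i : ℕ)) := by
  subst hk
  have := Fintype.ofFinite F
  rw [Nat.card_eq_fintype_card (α := F), ← Matrix.card_GL_field]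
  exact Nat.card_congr ((LinearMap.GeneralLinearGroup.generalLinearEquiv F W).symm.trans
    (Matrix.GeneralLinearGroup.toLin' (Module.finBasis F W)).symm).toEquiv

theorem orb_stab {R V G : Type*} [Ring R] [AddCommGroup V] [Module R V] [Group G]
    (ρ : G →* (V ≃ₗ[R] V)) (v : V) :
    Nat.card {u : V | ∃ g : G, ρ g v = u} * Nat.card {g : G // ρ g v = v} = Nat.card G := by
  letI : MulAction G V := MulAction.compHom V ρ
  rw [← Nat.card_prod]
  exact Nat.card_congr (MulAction.orbitProdStabilizerEquivGroup G v)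

theorem quat_invol {n : ℕ} (hn : n ≠ 0) (x : QuaternionGroup n) (hx : x * x = 1) :
    x ∈ Subgroup.center (QuaternionGroup n) := by
  rw [Subgroup.mem_center_iff]
  rcases x with i | i
  · have h : i + i = 0 := by
      rw [QuaternionGroup.a_mul_a, QuaternionGroup.one_def] at hx
      exact QuaternionGroup.a.inj hx
    rintro (j | j)
    · simp [add_comm]
    · simp only [QuaternionGroup.xa_mul_a, QuaternionGroup.a_mul_xa]
      congr 1
      linear_combination h
  · exfalso
    have : NeZero n := ⟨hn⟩
    have := QuaternionGroup.orderOf_xa i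
    have h2 := orderOf_dvd_of_pow_eq_one (show QuaternionGroup.xa i ^ 2 = 1 by rw [pow_two, hx])
    rw [this] at h2
    omega

theorem zmod2 : ∀ j : ZMod 2, j = 0 ∨ j = 1 := by decide

theorem dih8 : Nat.card {g : DihedralGroup 8 // orderOf g = 2 ∧ g ∉ Subgroup.center (DihedralGroup 8)} = 8 := by
  have : ∀ g : DihedralGroup 8, (orderOf g = 2 ∧ g ∉ Subgroup.center (DihedralGroup 8)) ↔
      (g * g = 1 ∧ ¬ ∀ h, h * g = g * h) := by
    intro g
    rw [Subgroup.mem_center_iff]
    refine and_congr_left fun h => ⟨fun e => by rw [← pow_two, ← e, pow_orderOf_eq_one], fun e =>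
      orderOf_eq_prime (by rw [pow_two, e]) (by rintro rfl; simp at h)⟩
  rw [Nat.card_congr (Equiv.subtypeEquivRight this), Nat.card_eq_fintype_card]
  decide

/-- Let q be a prime, V a non-trivial finite vector space over the field with q elements, and G a non-trivial finite p-group (p prime) acting faithfully and linearly on V and transitively on the non-zero vectors. Then either q = 2 and G has prime order p = |V| − 1; or p = 2, V has q elements with q = 2^m + 1 and G is cyclic of order 2^m; or p = 2, q = 3, V has 9 elements and G is cyclic of order 8, quaternion of order 8, or semidihedral of order 16. -/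
theorem result (q : ℕ) [Fact q.Prime] {V : Type*} [AddCommGroup V] [Module (ZMod q) V] [Finite V] [Nontrivial V]
    {G : Type*} [Group G] [Finite G] [Nontrivial G] (p : ℕ) [Fact p.Prime] (hG : IsPGroup p G)
    (ρ : G →* (V ≃ₗ[ZMod q] V)) (hρ : Function.Injective ρ)
    (htrans : ∀ v w : V, v ≠ 0 → w ≠ 0 → ∃ g : G, ρ g v = w) :
    (q = 2 ∧ p = Nat.card V - 1 ∧ Nat.card G = p) ∨
    (p = 2 ∧ Nat.card V = q ∧ (∃ m : ℕ, q = 2 ^ m + 1 ∧ Nat.card G = 2 ^ m) ∧ IsCyclic G) ∨
    (p = 2 ∧ q = 3 ∧ Nat.card V = 9 ∧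
      ((IsCyclic G ∧ Nat.card G = 8) ∨ Nonempty (G ≃* QuaternionGroup 2) ∨ (Cfsg.IsQuasiDihedral G ∧ Nat.card G = 16))) := by
  classical
  have hp : p.Prime := Fact.out
  have hq : q.Prime := Fact.out
  have horb : ∀ v : V, v ≠ 0 → Nat.card {u : V | ∃ g : G, ρ g v = u} + 1 = Nat.card V := by
    intro v hv
    have : {u : V | ∃ g : G, ρ g v = u} = {0}ᶜ := by
      ext u
      constructor
      · rintro ⟨g, rfl⟩ h
        exact hv ((ρ g).map_eq_zero_iff.1 h)
      · exact fun h => htrans v u hv h
    have h2 := Set.ncard_add_ncard_compl ({0} : Set V)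
    rw [Set.ncard_singleton] at h2
    rw [this, Nat.card_coe_set_eq]; omega
  have hos : ∀ v : V, v ≠ 0 → (Nat.card V - 1) * Nat.card {g : G // ρ g v = v} = Nat.card G := by
    intro v hv
    rw [← orb_stab ρ v, ← horb v hv]; rfl
  obtain ⟨v₀, hv₀⟩ := exists_ne (0 : V)
  obtain ⟨N, hN⟩ := IsPGroup.iff_card.1 hG
  have hV : Nat.card V = q ^ Module.finrank (ZMod q) V := by
    have := Module.natCard_eq_pow_finrank (K := ZMod q) (V := V)
    rwa [Nat.card_zmod] at this
  have hV1 := Finite.one_lt_card (α := V)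
  obtain ⟨k, -, hk⟩ := (Nat.dvd_prime_pow hp).1 (hN ▸ Dvd.intro _ (hos v₀ hv₀))
  have hk1 : 1 ≤ k := by
    by_contra h
    have h0 : k = 0 := by omega
    rw [h0, pow_zero] at hk
    obtain ⟨g, hg⟩ := exists_ne (1 : G)
    apply hg
    apply hρ
    ext v
    by_cases hv : v = 0
    · simp [hv]
    · have := horb v hv
      have h1 : Nat.card {u : V | ∃ g : G, ρ g v = u} = 1 := by omega
      have := (Nat.card_eq_one_iff_unique.1 h1).1
      exact congrArg Subtype.val (Subsingleton.elim
        (⟨_, g, rfl⟩ : {u : V | ∃ g : G, ρ g v = u}) ⟨_, 1, rfl⟩)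
  have hn1 : 1 ≤ Module.finrank (ZMod q) V := Module.finrank_pos
  have hirr : ∀ W : Submodule (ZMod q) V, (∀ g : G, ∀ w ∈ W, ρ g w ∈ W) → W = ⊥ ∨ W = ⊤ := by
    intro W hW
    by_cases h : W = ⊥
    · exact Or.inl h
    right
    obtain ⟨w, hw, hw0⟩ := Submodule.exists_mem_ne_zero_of_ne_bot h
    rw [eq_top_iff]
    intro v _
    by_cases hv : v = 0
    · simp [hv]
    · obtain ⟨g, rfl⟩ := htrans w v hw0 hv
      exact hW g w hw
  have hdvd : Nat.card G ∣ Nat.card (V ≃ₗ[ZMod q] V) := Subgroup.card_dvd_of_injective ρ hρ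
  rcases Cfsg.Agent.S3784.result q p _ k hq hp hn1 hk1 (by omega) with
    ⟨h1, h2, -, -⟩ | ⟨h1, h2, -, h3⟩ | ⟨h1, h2⟩
  · left
    rw [h2, pow_one] at hk
    refine ⟨h1, hk.symm, ?_⟩
    rw [← hos v₀ hv₀, hk]
    letI : MulAction G V := MulAction.compHom V ρ
    have : MulAction.stabilizer G v₀ = ⊥ := by
      rw [eq_bot_iff]
      intro g hg
      rw [Subgroup.mem_bot]
      apply hρ
      ext w
      rw [map_one]
      show ρ g w = w
      by_cases hw : w = 0
      · simp [hw]
      by_cases hw' : w = v₀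
      · rw [hw']; exact hg
      obtain ⟨j, hj⟩ := (hG.to_subgroup (MulAction.stabilizer G v₀)).card_orbit w
      have hsub : MulAction.orbit (MulAction.stabilizer G v₀) w ⊆ ({0, v₀} : Set V)ᶜ := by
        rintro _ ⟨s, rfl⟩ (h | h)
        · exact hw ((ρ s).map_eq_zero_iff.1 h)
        · exact hw' ((ρ s).injective (Eq.trans h (Eq.symm s.2)))
      have h4 := Set.ncard_le_ncard hsub
      have h5 := Set.ncard_add_ncard_compl ({0, v₀} : Set V)
      rw [Set.ncard_pair hv₀.symm] at h5
      rw [← Nat.card_coe_set_eq, hj] at h4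
      have hj0 : j = 0 := by
        by_contra h
        have := Nat.le_self_pow h p
        omega
      rw [hj0, pow_zero] at hj
      have := (Nat.card_eq_one_iff_unique.1 hj).1
      exact congrArg Subtype.val (Subsingleton.elim
        (⟨_, ⟨g, hg⟩, rfl⟩ : MulAction.orbit (MulAction.stabilizer G v₀) w)
        ⟨w, MulAction.mem_orbit_self w⟩)
    have h6 : Nat.card {g : G // ρ g v₀ = v₀} = 1 := by
      show Nat.card (MulAction.stabilizer G v₀) = 1
      rw [this, Subgroup.card_bot]
    rw [h6, mul_one]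
  · right; left
    rw [h2, pow_one] at hV
    have hc := card_linEquiv (F := ZMod q) h2
    simp only [Finset.univ_unique, Finset.prod_singleton, Nat.card_zmod, pow_one, Fin.default_eq_zero,
      Fin.val_zero, pow_zero] at hc
    have hG' : Nat.card G = 2 ^ k := by
      apply Nat.dvd_antisymm
      · rw [hc] at hdvd
        rwa [show q - 1 = 2 ^ k by omega] at hdvd
      · rw [← h1, ← hk]; exact Dvd.intro _ (hos v₀ hv₀)
    refine ⟨h1, hV, ⟨k, h3, hG'⟩, ?_⟩
    have hcomm : ∀ a b : G, a * b = b * a := by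
      intro a b
      apply hρ
      obtain ⟨c, hc⟩ := (finrank_eq_one_iff_of_nonzero' v₀ hv₀).1 h2 (ρ a v₀)
      obtain ⟨d, hd⟩ := (finrank_eq_one_iff_of_nonzero' v₀ hv₀).1 h2 (ρ b v₀)
      ext v
      obtain ⟨e, rfl⟩ := (finrank_eq_one_iff_of_nonzero' v₀ hv₀).1 h2 v
      simp only [map_mul, LinearEquiv.mul_apply, map_smul, ← hc, ← hd, smul_smul]
      congr 1; ring
    have := H05.Half.center_cyclic hρ hirr
    have e : Subgroup.center G = ⊤ := by
      rw [eq_top_iff]; exact fun x _ => Subgroup.mem_center_iff.2 fun g => hcomm g x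
    rw [e] at this
    exact isCyclic_of_surjective _ Subgroup.topEquiv.surjective
  · right; right
    have hp2 : p = 2 := (Nat.prime_dvd_prime_iff_eq hp Nat.prime_two).1
      (hp.dvd_of_dvd_pow (n := 3) (by rw [show 2 ^ 3 = 8 by rfl, ← h2]; exact dvd_pow_self p (by omega)))
    have hq3 : q = 3 := (Nat.prime_dvd_prime_iff_eq hq Nat.prime_three).1
      (hq.dvd_of_dvd_pow (n := 2) (by rw [show 3 ^ 2 = 9 by rfl, ← h1]; exact dvd_pow_self q (by omega)))
    subst hp2 hq3
    have hn2 : Module.finrank (ZMod 3) V = 2 :=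
      Nat.pow_right_injective (by norm_num : 2 ≤ 3) (by simpa using h1)
    rw [h1] at hV
    refine ⟨rfl, rfl, hV, ?_⟩
    have hc := card_linEquiv (F := ZMod 3) hn2
    simp only [Fin.prod_univ_two, Nat.card_zmod] at hc
    have h48 : Nat.card G ∣ 48 := by rw [hc] at hdvd; exact hdvd
    have h16 : Nat.card G ∣ 16 := by
      rw [hN] at h48 ⊢
      exact (Nat.Coprime.pow_left N (show Nat.Coprime 2 3 by norm_num)).dvd_of_dvd_mul_right
        (show 2 ^ N ∣ 16 * 3 from h48)
    rw [hV] at hos
    have h8 : Nat.card G = 8 ∨ Nat.card G = 16 := by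
      have := hos v₀ hv₀
      have h3 := Nat.le_of_dvd (by norm_num) h16
      have h4 : 0 < Nat.card G := Nat.card_pos
      omega
    rcases h8 with h8 | h8
    · have hFC : H18.IsFC G := H18.IsFC.of_lin ρ fun v hv g hg => by
        have h1 : Nat.card {g : G // ρ g v = v} = 1 := by have := hos v hv; omega
        have := (Nat.card_eq_one_iff_unique.1 h1).1
        exact congrArg Subtype.val (Subsingleton.elim (⟨g, hg⟩ : {g : G // ρ g v = v}) ⟨1, by simp⟩)
      rcases hFC.cyc_or_quat_aux hG with h | ⟨-, n, ⟨e⟩⟩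
      · exact Or.inl ⟨h, h8⟩
      · right; left
        have : NeZero (2 ^ n) := ⟨by positivity⟩
        have h3 := Nat.card_congr e.toEquiv
        rw [h8, Nat.card_eq_fintype_card, QuaternionGroup.card] at h3
        have h4 : 2 ^ n = 2 := by omega
        exact ⟨h4 ▸ e⟩
    · right; right
      refine ⟨?_, h8⟩
      have hst : ∀ v : V, v ≠ 0 → Nat.card {g : G // ρ g v = v} = 2 := fun v hv => by
        have := hos v hv; omega
      obtain ⟨t, ht, -⟩ := (Nat.card_eq_two_iff' (⟨1, by simp⟩ : {g : G // ρ g v₀ = v₀})).1 (hst v₀ hv₀)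
      have ht1 : (t : G) ≠ 1 := fun e => ht (Subtype.ext e)
      have htc : (t : G) ∉ Subgroup.center G := fun h =>
        hv₀ (H05.Half.fixS_center hρ hirr h ht1 t.2)
      have htt : (t : G) * t = 1 := by
        obtain ⟨y, -, hy⟩ := (Nat.card_eq_two_iff' (⟨1, by simp⟩ : {g : G // ρ g v₀ = v₀})).1 (hst v₀ hv₀)
        by_contra h
        have a := hy ⟨(t : G) * t, by rw [H05.Half.rho_mul, t.2, t.2]⟩ (fun e => h (congrArg Subtype.val e))
        have b := hy t ht
        exact ht1 (by simpa using congrArg Subtype.val (a.trans b.symm))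
      by_contra hsd
      have hnc : ¬ IsCyclic G := fun h => htc (Subgroup.mem_center_iff.2 fun g =>
        (IsCyclic.commGroup (α := G)).mul_comm g t)
      have hnq : ∀ n : ℕ, ¬ Nonempty (G ≃* QuaternionGroup n) := by
        rintro n ⟨e⟩
        have hn : n ≠ 0 := by
          rintro rfl
          have : Finite (QuaternionGroup 0) := Finite.of_equiv _ e.toEquiv
          have : Finite ℤ := Finite.of_injective (QuaternionGroup.a (n := 0))
            (fun _ _ h => QuaternionGroup.a.inj h)
          exact not_finite ℤ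
        apply htc
        rw [Subgroup.mem_center_iff]
        intro g
        apply e.injective
        rw [map_mul, map_mul]
        exact Subgroup.mem_center_iff.1 (quat_invol hn (e t) (by rw [← map_mul, htt, map_one])) _
      have hnd : ∀ n : ℕ, ¬ Nonempty (G ≃* DihedralGroup n) := by
        rintro n ⟨e⟩
        have h3 := Nat.card_congr e.toEquiv
        rw [h8, DihedralGroup.nat_card] at h3
        have h4 : n = 8 := by omega
        subst h4
        have hcen : ∀ g : G, g ∈ Subgroup.center G ↔ e g ∈ Subgroup.center (DihedralGroup 8) := by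
          intro g
          simp only [Subgroup.mem_center_iff]
          constructor
          · intro h x
            obtain ⟨y, rfl⟩ := e.surjective x
            rw [← map_mul, ← map_mul, h]
          · intro h x
            apply e.injective
            rw [map_mul, map_mul, h]
        obtain ⟨r, hr1, hr2⟩ := Cfsg.Agent.S3381.result 3 ρ hρ hst (e.symm (DihedralGroup.r 4))
          (by rw [MulEquiv.orderOf_eq]; exact orderOf_eq_prime (by decide) (by decide))
          (by rw [hcen, e.apply_symm_apply, Subgroup.mem_center_iff]; decide)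
        have h5 : Nat.card {g : G // orderOf g = 2 ∧ g ∉ Subgroup.center G} = 8 := by
          rw [← dih8]
          exact Nat.card_congr (e.toEquiv.subtypeEquiv fun g => by
            rw [hcen, ← e.orderOf_eq]; rfl)
        rw [hV] at hr1
        have : r = 1 := by
          have := Nat.pow_right_injective (by norm_num : 2 ≤ 3) (show 3 ^ 2 = 3 ^ (2 * r) from hr1)
          omega
        rw [h5, this] at hr2
        omega
      obtain ⟨a, z, c, h⟩ := H05.Half.exists_roq hG hρ hirr hnc hnq hnd hsd
      have hW : ∀ i, H05.Half.Roq.W ρ a z (i : ZMod 2) ≠ ⊥ := by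
        intro i hi
        have : ∀ j, H05.Half.Roq.W ρ a z (j : ZMod 2) = ⊥ := by
          intro j
          obtain ⟨g, hg⟩ := h.surj (Multiplicative.ofAdd (j - i))
          have := h.map_W (ρ := ρ) g i
          rw [hi, hg, Submodule.map_bot] at this
          simpa using this.symm
        have h3 := h.iSup_W hρ hirr
        rw [iSup_eq_bot.2 this] at h3
        exact bot_ne_top h3
      obtain ⟨u, hu, hu0⟩ := Submodule.exists_mem_ne_zero_of_ne_bot (hW 0)
      obtain ⟨w, hw, hw0⟩ := Submodule.exists_mem_ne_zero_of_ne_bot (hW 1)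
      have huw : u + w ≠ 0 := fun e => hu0 (h.eq_zero hρ hirr zero_ne_one hu
        (by rw [eq_neg_of_add_eq_zero_left e]; exact Submodule.neg_mem _ hw))
      obtain ⟨g, hg⟩ := htrans u (u + w) hu0 huw
      have h3 := h.smul_mem g hu
      rw [hg] at h3
      rcases zmod2 ((0 : ZMod 2) + (c g).toAdd) with e | e <;> rw [e] at h3
      · exact hw0 (h.eq_zero hρ hirr zero_ne_one
          (by simpa using Submodule.sub_mem _ h3 hu) hw)
      · exact hu0 (h.eq_zero hρ hirr zero_ne_one hu
          (by simpa using Submodule.sub_mem _ h3 hw))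

end Cfsg.Agent.S3370
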