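import Mathlib
import Cfsg.Statements.S3371
import Cfsg.Agent.H05.Roq
import Cfsg.Agent.S3784
import Cfsg.Agent.S3370
import Cfsg.Agent.S3381
import Cfsg.Agent.H04.MaxClass

set_option autoImplicit false
open Cfsg

namespace Cfsg.Agent.S3371

section
open H05.Half H05.Half.Roq Subgroup

variable {G : Type*} [Group G] {q : ℕ} [hq : Fact q.Prime] {V : Type*} [AddCommGroup V]
  [Module (ZMod q) V]

/-- stabilizer of a vector -/
def st (ρ : G →* (V ≃ₗ[ZMod q] V)) (v : V) : Subgroup G where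
  carrier := {g | ρ g v = v}
  one_mem' := by simp
  mul_mem' := fun {a b} ha hb => by
    have ha : ρ a v = v := ha
    have hb : ρ b v = v := hb
    show ρ (a * b) v = v
    rw [rho_mul, hb, ha]
  inv_mem' := fun {a} ha => by
    have ha : ρ a v = v := ha
    show ρ a⁻¹ v = v
    rw [map_inv]
    exact (LinearEquiv.symm_apply_eq _).2 ha.symm

structure Hyp (ρ : G →* (V ≃ₗ[ZMod q] V)) (k : ℕ) : Prop where
  inj : Function.Injective ρ
  irr : ∀ W : Submodule (ZMod q) V, (∀ g : G, ∀ w ∈ W, ρ g w ∈ W) → W = ⊥ ∨ W = ⊤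
  stab : ∀ v : V, v ≠ 0 → Nat.card (st ρ v) = k

variable [Finite G] [Finite V] [Nontrivial V] {ρ : G →* (V ≃ₗ[ZMod q] V)} {k : ℕ}

section gen
variable {p : ℕ} [hp : Fact p.Prime] {a z : G} {c : G →* Multiplicative (ZMod p)} (H : Hyp ρ k)
  (h : Roq a z c)
include H h

theorem W_ne (i : ZMod p) : W ρ a z i ≠ ⊥ := by
  intro hi
  have : ∀ j : ZMod p, W ρ a z j = ⊥ := by
    intro j
    obtain ⟨g, hg⟩ := h.surj (Multiplicative.ofAdd (j - i))
    have := h.map_W (ρ := ρ) g i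
    rw [hi, hg, Submodule.map_bot] at this
    simpa using this.symm
  have h3 := h.iSup_W H.inj H.irr
  rw [iSup_eq_bot.2 this] at h3
  exact bot_ne_top h3

omit [Finite G] [Finite V] [Nontrivial V] in
theorem c_fix {i : ZMod p} {w : V} (hw : w ∈ W ρ a z i) (h0 : w ≠ 0) {g : G} (hg : ρ g w = w) :
    c g = 1 := by
  by_contra e
  have := h.smul_mem g hw
  rw [hg] at this
  exact h0 (h.eq_zero H.inj H.irr (fun e' => e (by simpa using e')) hw this)

omit [Finite G] [Finite V] [Nontrivial V] in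
theorem add_ne {i j : ZMod p} (hij : i ≠ j) {w u : V} (hw : w ∈ W ρ a z i) (h0 : w ≠ 0)
    (hu : u ∈ W ρ a z j) : w + u ≠ 0 := fun e => h0 (h.eq_zero H.inj H.irr hij hw
  (by rw [eq_neg_of_add_eq_zero_left e]; exact Submodule.neg_mem _ hu))

omit [Finite G] [Finite V] [Nontrivial V] in
theorem fix_add {i j : ZMod p} (hij : i ≠ j) {w u : V} (hw : w ∈ W ρ a z i) (hu : u ∈ W ρ a z j)
    {g : G} (hg : ρ g (w + u) = w + u) (hc : c g = 1) : ρ g w = w ∧ ρ g u = u := by
  have h1 : ρ g w ∈ W ρ a z i := by simpa [hc] using h.smul_mem g hw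
  have h2 : ρ g u ∈ W ρ a z j := by simpa [hc] using h.smul_mem g hu
  rw [map_add] at hg
  have e : ρ g w - w = u - ρ g u := by rw [sub_eq_sub_iff_add_eq_add, hg, add_comm]
  have := h.eq_zero H.inj H.irr hij (Submodule.sub_mem _ h1 hw) (e ▸ Submodule.sub_mem _ hu h2)
  exact ⟨sub_eq_zero.1 this, (sub_eq_zero.1 (e ▸ this)).symm⟩

omit [Finite V] [Nontrivial V] in
theorem exists_t {i j : ZMod p} (hij : i ≠ j) {w u : V} (hw : w ∈ W ρ a z i) (h0 : w ≠ 0)
    (hu : u ∈ W ρ a z j) (h1 : u ≠ 0) : ∃ t, ρ t (w + u) = w + u ∧ c t ≠ 1 := by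
  by_contra hh
  push Not at hh
  have hle : st ρ (w + u) ≤ st ρ w := fun g hg => (fix_add H h hij hw hu hg (hh g hg)).1
  have := eq_of_le_of_card_ge hle (by rw [H.stab _ h0, H.stab _ (add_ne H h hij hw h0 hu)])
  have h2 : a * z ^ i.val ∈ st ρ (w + u) := this ▸ hw
  exact h1 (h.eq_zero H.inj H.irr hij (fix_add H h hij hw hu h2 (h.c_eq_one i)).2 hu)

omit [Finite G] [Finite V] in
theorem shift {i j : ZMod p} (hij : i ≠ j) {w u : V} (hw : w ∈ W ρ a z i) (h0 : w ≠ 0)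
    (hu : u ∈ W ρ a z j) {t : G} (ht : ρ t (w + u) = w + u) (hc : c t ≠ 1) :
    j + (c t).toAdd = i := by
  by_contra e
  apply h0
  refine Submodule.disjoint_def.1 (h.indep H.inj H.irr i) w hw ?_
  have : w = ρ t w + ρ t u - u := by rw [← map_add, ht]; simp
  rw [this]
  refine Submodule.sub_mem _ (Submodule.add_mem _ ?_ ?_) ?_
  · exact Submodule.mem_iSup_of_mem _ (Submodule.mem_iSup_of_mem
      (fun e' => hc (by simpa using e')) (h.smul_mem t hw))
  · exact Submodule.mem_iSup_of_mem _ (Submodule.mem_iSup_of_mem e (h.smul_mem t hu))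
  · exact Submodule.mem_iSup_of_mem _ (Submodule.mem_iSup_of_mem hij.symm hu)

omit [Finite V] in
theorem exists_swap {i j : ZMod p} (hij : i ≠ j) {w u : V} (hw : w ∈ W ρ a z i) (h0 : w ≠ 0)
    (hu : u ∈ W ρ a z j) (h1 : u ≠ 0) : p = 2 ∧ ∃ t, c t ≠ 1 ∧ ρ t w = u ∧ ρ t u = w := by
  obtain ⟨t, ht, hc⟩ := exists_t H h hij hw h0 hu h1
  have e1 := shift H h hij hw h0 hu ht hc
  have e2 := shift H h hij.symm hu h1 hw (by rw [add_comm u, ht]) hc
  constructor
  · have : (2 : ZMod p) * (c t).toAdd = 0 := by linear_combination e1 + e2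
    rcases mul_eq_zero.1 this with e | e
    · exact (Nat.prime_dvd_prime_iff_eq hp.out Nat.prime_two).1
        ((ZMod.natCast_eq_zero_iff 2 p).1 (by exact_mod_cast e))
    · exact absurd e hc
  · have h2 := h.smul_mem t hw
    have h3 := h.smul_mem t hu
    rw [e2] at h2
    rw [e1] at h3
    rw [map_add] at ht
    have e : ρ t w - u = w - ρ t u := by rw [sub_eq_sub_iff_add_eq_add, ht]
    have := h.eq_zero H.inj H.irr hij (e ▸ Submodule.sub_mem _ hw h3) (Submodule.sub_mem _ h2 hu)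
    exact ⟨t, hc, sub_eq_zero.1 this, (sub_eq_zero.1 (e ▸ this)).symm⟩

end gen

section two
variable {a z : G} {c : G →* Multiplicative (ZMod 2)} (H : Hyp ρ k) (h : Roq a z c)
include H h

omit [Finite G] [Finite V] [Nontrivial V] in
theorem zneg (v : V) : ρ z v = -v :=
  center_invol H.inj H.irr h.cen (fun e => by have := h.ord; rw [e, orderOf_one] at this; omega)
    (by rw [← pow_two, h.zp]) v

omit [Finite G] [Finite V] [Nontrivial V] in
theorem odd' {v : V} (hv : -v = v) : v = 0 := h.z_fpf H.inj H.irr (by rw [zneg H h, hv])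

omit [Finite G] [Finite V] [Nontrivial V] in
theorem bneg {i j : ZMod 2} (hij : i ≠ j) {u : V} (hu : u ∈ W ρ a z j) :
    ρ (a * z ^ i.val) u = -u := by
  have e : j = i + 1 := by clear hu; revert i j; decide
  have hu : ρ (a * z ^ j.val) u = u := hu
  rw [e, pw_add h.ord, ZMod.val_one, pow_one, ← mul_assoc, rho_mul, zneg H h, map_neg] at hu
  exact neg_eq_iff_eq_neg.1 hu

omit [Finite V] in
theorem pm {i j : ZMod 2} (hij : i ≠ j) {w u : V} (hw : w ∈ W ρ a z i) (h0 : w ≠ 0)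
    (hu : u ∈ W ρ a z j) {g : G} (hg : ρ g w = w) : ρ g u = u ∨ ρ g u = -u := by
  by_cases h1 : u = 0
  · simp [h1]
  obtain ⟨t, ht, hc⟩ := exists_t H h hij hw h0 hu h1
  have e1 : st ρ u ⊓ st ρ w = c.ker ⊓ st ρ (w + u) := by
    apply le_antisymm
    · rintro g ⟨h2, h3⟩
      have h2 : ρ g u = u := h2
      have h3 : ρ g w = w := h3
      exact ⟨c_fix H h hw h0 h3, by show ρ g (w + u) = w + u; rw [map_add, h2, h3]⟩
    · rintro g ⟨h2, h3⟩
      exact (fix_add H h hij hw hu h3 h2).symm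
  have e2 : c.ker.relIndex (st ρ (w + u)) = 2 := by
    have h2 := relIndex_dvd_index_of_normal c.ker (st ρ (w + u))
    rw [h.index] at h2
    refine ((Nat.dvd_prime Nat.prime_two).1 h2).resolve_left fun e => hc ?_
    exact relIndex_eq_one.1 e ht
  have hk : ∀ A B : Subgroup G, Nat.card ↥(A ⊓ B) * A.relIndex B = Nat.card B := by
    intro A B
    rw [← inf_relIndex_right, relIndex, ← Nat.card_congr (subgroupOfEquivOfLe inf_le_right).toEquiv]
    exact card_mul_index _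
  have e3 : (st ρ u).relIndex (st ρ w) = 2 := by
    have a1 := hk (st ρ u) (st ρ w)
    have a2 := hk c.ker (st ρ (w + u))
    rw [e2, H.stab _ (add_ne H h hij hw h0 hu), ← e1, ← H.stab _ h0, ← a1] at a2
    exact (Nat.eq_of_mul_eq_mul_left Nat.card_pos a2).symm
  by_cases h2 : ρ g u = u
  · exact Or.inl h2
  right
  have h3 := (mul_mem_iff_of_index_two e3 (a := ⟨a * z ^ i.val, hw⟩) (b := ⟨g, hg⟩)).2
    ⟨fun e => absurd (odd' H h ((bneg H h hij hu).symm.trans e)) h1, fun e => absurd e h2⟩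
  have h3 : ρ (a * z ^ i.val * g) u = u := h3
  have h4 : ρ g u ∈ W ρ a z j := by simpa [c_fix H h hw h0 hg] using h.smul_mem g hu
  rw [rho_mul, bneg H h hij h4] at h3
  exact neg_eq_iff_eq_neg.1 h3

omit [Finite V] in
theorem pm' {i j : ZMod 2} (hij : i ≠ j) {w : V} (hw : w ∈ W ρ a z i) (h0 : w ≠ 0)
    {g : G} (hg : ρ g w = w) : (∀ u ∈ W ρ a z j, ρ g u = u) ∨ ∀ u ∈ W ρ a z j, ρ g u = -u := by
  by_contra hh
  push Not at hh
  obtain ⟨⟨u, hu, h1⟩, v, hv, h2⟩ := hh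
  have h3 := (pm H h hij hw h0 hu hg).resolve_left h1
  have h4 := (pm H h hij hw h0 hv hg).resolve_right h2
  rcases pm H h hij hw h0 (Submodule.add_mem _ hu hv) hg with e | e <;> rw [map_add, h3, h4] at e
  · exact h1 (h3.trans (add_right_cancel e))
  · rw [neg_add] at e
    exact h2 (h4.trans (add_left_cancel e))

theorem isCompl {i j : ZMod 2} (hij : i ≠ j) : IsCompl (W ρ a z i) (W ρ a z j) := by
  refine ⟨Submodule.disjoint_def.2 fun v h1 h2 => h.eq_zero H.inj H.irr hij h1 h2,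
    codisjoint_iff.2 (eq_top_iff.2 ?_)⟩
  rw [← h.iSup_W H.inj H.irr]
  refine iSup_le fun l => ?_
  have : l = i ∨ l = j := by revert i j l; decide
  rcases this with rfl | rfl
  · exact le_sup_left
  · exact le_sup_right

theorem stab_cases {i : ZMod 2} {w : V} (hw : w ∈ W ρ a z i) (h0 : w ≠ 0)
    {g : G} (hg : ρ g w = w) : g = 1 ∨ g = a * z ^ i.val := by
  have hij : i ≠ i + 1 := by simp
  have key : ∀ g : G, ρ g w = w → (∀ u ∈ W ρ a z (i + 1), ρ g u = u) → g = 1 := by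
    intro g hg h1
    obtain ⟨u, hu, hu0⟩ := Submodule.exists_mem_ne_zero_of_ne_bot (W_ne H h (i + 1))
    have h2 := (pm' H h hij.symm hu hu0 (h1 u hu)).resolve_right fun e =>
      h0 (odd' H h ((e w hw).symm.trans hg))
    by_contra e
    apply fixS_ne_top H.inj e
    rw [eq_top_iff, ← (isCompl H h hij).sup_eq_top]
    exact sup_le h2 h1
  rcases pm' H h hij hw h0 hg with e | e
  · exact Or.inl (key g hg e)
  · right
    have := key (a * z ^ i.val * g) (by rw [rho_mul, hg]; exact hw) fun u hu => by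
      rw [rho_mul, e u hu, map_neg, bneg H h hij hu, neg_neg]
    rw [← mul_one g, ← h.pow' i, pow_two, ← mul_assoc, mul_eq_one_comm.1 this, one_mul]

theorem card_V : Nat.card V = Nat.card (W ρ a z (0 : ZMod 2)) ^ 2 := by
  rw [← Nat.card_congr (Submodule.prodEquivOfIsCompl _ _
    (isCompl H h (i := 0) (j := 1) zero_ne_one)).toEquiv, Nat.card_prod, pow_two]
  congr 1
  obtain ⟨g, hg⟩ := h.surj (Multiplicative.ofAdd 1)
  have := h.map_W (ρ := ρ) g 0
  rw [hg] at this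
  simp only [toAdd_ofAdd, zero_add] at this
  rw [← this]
  exact (Nat.card_congr ((ρ g).submoduleMap _).toEquiv).symm

theorem card_W (hG : IsPGroup 2 G) : ∃ n, Nat.card (W ρ a z (0 : ZMod 2)) = 2 ^ n + 1 := by
  letI : MulAction G V := MulAction.compHom V ρ
  obtain ⟨w, hw, hw0⟩ := Submodule.exists_mem_ne_zero_of_ne_bot (W_ne H h 0)
  obtain ⟨u, hu, hu0⟩ := Submodule.exists_mem_ne_zero_of_ne_bot (W_ne H h 1)
  obtain ⟨n, hn⟩ := (hG.to_subgroup c.ker).card_orbit w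
  refine ⟨n, ?_⟩
  have : MulAction.orbit c.ker w = (W ρ a z (0 : ZMod 2) : Set V) \ {0} := by
    ext v
    constructor
    · rintro ⟨g, rfl⟩
      refine ⟨?_, fun e => hw0 ((ρ g).map_eq_zero_iff.1 e)⟩
      have hg : c g = 1 := g.2
      show ρ g w ∈ W ρ a z (0 : ZMod 2)
      simpa [hg] using h.smul_mem g hw
    · rintro ⟨hv, hv0⟩
      obtain ⟨-, s, hs, hs1, -⟩ := exists_swap H h zero_ne_one hw hw0 hu hu0
      obtain ⟨-, t, ht, -, ht1⟩ := exists_swap H h zero_ne_one hv hv0 hu hu0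
      refine ⟨⟨t * s, ?_⟩, ?_⟩
      · show c (t * s) = 1
        rw [map_mul]
        revert hs ht
        generalize c s = x
        generalize c t = y
        revert x y; decide
      · show ρ (t * s) w = v
        rw [rho_mul, hs1, ht1]
  rw [← hn, this, Nat.card_coe_set_eq, Set.ncard_sdiff_singleton_add_one (Submodule.zero_mem _)]
  rfl

theorem coords (h1 : Module.finrank (ZMod q) (W ρ a z (0 : ZMod 2)) = 1) :
    ∃ e : V ≃ₗ[ZMod q] (Fin 2 → ZMod q), ∀ f : (Fin 2 → ZMod q) ≃ₗ[ZMod q] (Fin 2 → ZMod q),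
        (∃ g : G, f = e.symm.trans ((ρ g).trans e)) ↔
        ∃ a s : ZMod q, a ≠ 0 ∧ (s = 1 ∨ s = -1) ∧
          ((∀ v, f v = ![a * v 0, s * a⁻¹ * v 1]) ∨ (∀ v, f v = ![s * a⁻¹ * v 1, a * v 0])) := by
  obtain ⟨w, hw, hw0⟩ := Submodule.exists_mem_ne_zero_of_ne_bot (W_ne H h 0)
  obtain ⟨u, hu, hu0⟩ := Submodule.exists_mem_ne_zero_of_ne_bot (W_ne H h 1)
  obtain ⟨-, σ, hσ, hσ1, hσ2⟩ := exists_swap H h zero_ne_one hw hw0 hu hu0
  have hne : ∀ x : Multiplicative (ZMod 2), x ≠ 1 → x.toAdd = 1 := by decide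
  have hW0 : ∀ v ∈ W ρ a z (0 : ZMod 2), ∃ α : ZMod q, α • w = v := by
    intro v hv
    obtain ⟨α, hα⟩ := (finrank_eq_one_iff_of_nonzero' (⟨w, hw⟩ : W ρ a z (0 : ZMod 2))
      (fun e => hw0 (congrArg Subtype.val e))).1 h1 ⟨v, hv⟩
    exact ⟨α, congrArg Subtype.val hα⟩
  have hW1 : ∀ v ∈ W ρ a z (1 : ZMod 2), ∃ α : ZMod q, α • u = v := by
    intro v hv
    have := h.smul_mem σ⁻¹ hv
    rw [hne _ (by simpa using hσ)] at this
    obtain ⟨α, hα⟩ := hW0 _ this
    refine ⟨α, ?_⟩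
    rw [← hσ1, ← map_smul, hα, ← rho_mul]; simp
  let φ : (Fin 2 → ZMod q) →ₗ[ZMod q] V :=
    (LinearMap.proj 0).smulRight w + (LinearMap.proj 1).smulRight u
  have hφ : ∀ v, φ v = v 0 • w + v 1 • u := fun v => rfl
  have hc := isCompl H h (i := 0) (j := 1) zero_ne_one
  have hbij : Function.Bijective φ := by
    constructor
    · rw [injective_iff_map_eq_zero]
      intro v hv
      rw [hφ] at hv
      have h2 : v 0 • w = 0 := Submodule.disjoint_def.1 hc.disjoint _ (Submodule.smul_mem _ _ hw)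
        (by rw [eq_neg_of_add_eq_zero_left hv]; exact Submodule.neg_mem _ (Submodule.smul_mem _ _ hu))
      rw [h2, zero_add] at hv
      ext i; fin_cases i
      · exact (smul_eq_zero.1 h2).resolve_right hw0
      · exact (smul_eq_zero.1 hv).resolve_right hu0
    · intro v
      have : v ∈ W ρ a z (0 : ZMod 2) ⊔ W ρ a z (1 : ZMod 2) := hc.sup_eq_top ▸ Submodule.mem_top
      obtain ⟨x, hx, y, hy, rfl⟩ := Submodule.mem_sup.1 this
      obtain ⟨α, rfl⟩ := hW0 x hx
      obtain ⟨β, rfl⟩ := hW1 y hy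
      exact ⟨![α, β], rfl⟩
  let e := LinearEquiv.ofBijective φ hbij
  have hf : ∀ (f : (Fin 2 → ZMod q) ≃ₗ[ZMod q] (Fin 2 → ZMod q)) (g : G),
      f = e.trans ((ρ g).trans e.symm) ↔ ∀ v, φ (f v) = ρ g (φ v) := by
    intro f g
    constructor
    · rintro rfl v
      exact e.apply_symm_apply _
    · intro hh
      ext1 v
      exact (e.symm_apply_eq.2 (hh v).symm).symm
  have hau : ρ a u = -u := by simpa using bneg H h (i := 0) (j := 1) zero_ne_one hu
  have haw : ρ a w = w := by simpa [W] using hw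
  have ht : ∀ α : ZMod q, α ≠ 0 → ∃ t, ρ t w = α • u ∧ ρ t u = α⁻¹ • w := by
    intro α hα
    obtain ⟨-, t, -, h2, h3⟩ := exists_swap H h zero_ne_one hw hw0 (Submodule.smul_mem _ α hu)
      (smul_ne_zero hα hu0)
    refine ⟨t, h2, ?_⟩
    rw [← h3, map_smul, smul_smul, inv_mul_cancel₀ hα, one_smul]
  have hA : ∀ g : G, c g ≠ 1 → ∃ α s : ZMod q, α ≠ 0 ∧ (s = 1 ∨ s = -1) ∧ ρ g w = α • u ∧
      ρ g u = (s * α⁻¹) • w := by
    intro g hg
    have := h.smul_mem g hw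
    rw [hne _ hg, zero_add] at this
    obtain ⟨α, hα⟩ := hW1 _ this
    have hα0 : α ≠ 0 := by
      rintro rfl
      exact hw0 ((ρ g).map_eq_zero_iff.1 (by rw [← hα, zero_smul]))
    obtain ⟨t, h2, h3⟩ := ht α hα0
    have h4 : ρ (t⁻¹ * g) w = w := by
      rw [rho_mul, ← hα, ← h2, ← rho_mul]; simp
    rcases stab_cases H h hw hw0 h4 with e | e
    · exact ⟨α, 1, hα0, Or.inl rfl, hα.symm, by rw [← inv_mul_eq_one.1 e, h3, one_mul]⟩
    · refine ⟨α, -1, hα0, Or.inr rfl, hα.symm, ?_⟩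
      rw [inv_mul_eq_iff_eq_mul.1 e, ZMod.val_zero, pow_zero, mul_one, rho_mul, hau, map_neg, h3]
      simp
  have hA' : ∀ α s : ZMod q, α ≠ 0 → (s = 1 ∨ s = -1) → ∃ g : G, ρ g w = α • u ∧
      ρ g u = (s * α⁻¹) • w := by
    intro α s hα hs
    obtain ⟨t, h2, h3⟩ := ht α hα
    rcases hs with rfl | rfl
    · exact ⟨t, h2, by rw [h3, one_mul]⟩
    · exact ⟨t * a, by rw [rho_mul, haw, h2], by rw [rho_mul, hau, map_neg, h3]; simp⟩
  refine ⟨e.symm, fun f => ?_⟩
  rw [LinearEquiv.symm_symm]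
  simp only [hf]
  constructor
  · rintro ⟨g, hg⟩
    by_cases hcg : c g = 1
    · obtain ⟨α, s, h2, h3, h4, h5⟩ := hA (σ * g) (by simpa [hcg] using hσ)
      refine ⟨α, s, h2, h3, Or.inl fun v => hbij.1 ?_⟩
      rw [rho_mul, ← hσ1, ← map_smul] at h4
      rw [rho_mul, ← hσ2, ← map_smul] at h5
      rw [hg, hφ, hφ, map_add, map_smul, map_smul, (ρ σ).injective h4, (ρ σ).injective h5,
        smul_smul, smul_smul]
      simp [mul_comm]
    · obtain ⟨α, s, h2, h3, h4, h5⟩ := hA g hcg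
      refine ⟨α, s, h2, h3, Or.inr fun v => hbij.1 ?_⟩
      rw [hg, hφ, hφ, map_add, map_smul, map_smul, h4, h5, smul_smul, smul_smul, add_comm]
      simp [mul_comm]
  · rintro ⟨α, s, h2, h3, h4⟩
    obtain ⟨g, h5, h6⟩ := hA' α s h2 h3
    rcases h4 with h4 | h4
    · refine ⟨σ * g, fun v => ?_⟩
      rw [h4, hφ, hφ, map_add, map_smul, map_smul, rho_mul, rho_mul, h5, h6, map_smul, map_smul,
        hσ1, hσ2, smul_smul, smul_smul]
      simp [mul_comm]
    · refine ⟨g, fun v => ?_⟩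
      rw [h4, hφ, hφ, map_add, map_smul, map_smul, h5, h6, smul_smul, smul_smul, add_comm]
      simp [mul_comm]

end two

theorem count {G : Type*} [Group G] {m : ℕ} {a b : G} (h : H04.DSQ m a b) (K : Subgroup G)
    (hK : K ≤ zpowers a) (hb : ∀ i : ℤ, (b * a ^ i) ^ 2 = 1 ↔ a ^ i ∈ K) :
    Nat.card {g : G // orderOf g = 2 ∧ g ∉ center G} = Nat.card K := by
  haveI := h.finite
  symm
  refine Nat.card_congr (Equiv.ofBijective (fun x => ⟨b * x, ?_⟩) ⟨fun x y e => ?_, fun x => ?_⟩)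
  · obtain ⟨i, hi⟩ := hK x.2
    have hn : b * x ∉ zpowers a := fun e => h.notMem (by simpa using mul_mem e (inv_mem (hK x.2)))
    refine ⟨orderOf_eq_prime ?_ (fun e => hn (e ▸ one_mem _)), fun e => hn ?_⟩
    · have hi : a ^ i = x := hi
      rw [← hi, hb, hi]; exact x.2
    · rw [h.center_eq] at e
      exact zpowers_le.2 (pow_mem (mem_zpowers a) _) e
  · exact Subtype.ext (mul_left_cancel (congrArg Subtype.val e))
  · obtain ⟨x, h1, h2⟩ := x
    have h3 : x ^ 2 = 1 := by rw [← h1, pow_orderOf_eq_one]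
    rcases h.cases x with ⟨i, rfl⟩ | ⟨i, rfl⟩
    · exfalso
      apply h2
      rw [h.center_eq]
      rw [← zpow_natCast, ← zpow_mul, ← zpow_zero a, h.zpow_eq] at h3
      refine H04.zpow_mem_zpowers_pow ?_
      obtain ⟨j, hj⟩ := h3
      refine ⟨j, ?_⟩
      push_cast at hj ⊢
      have : i * 2 = (2 ^ (m + 1) * j) * 2 := by rw [← sub_zero (i * 2), hj]; ring
      exact mul_right_cancel₀ two_ne_zero this
    · exact ⟨⟨a ^ i, (hb i).1 h3⟩, rfl⟩

end

/-- Let q be a prime, V a non-trivial finite vector space over the field with q elements, and G a finite p-group (p prime) acting faithfully and linearly on V such that all G-orbits on the non-zero vectors have the same size. Then one of the following holds: G is cyclic or generalized quaternion and acts semiregularly on the non-zero vectors; or V has q² elements with q = 2^m − 1 and G is dihedral of order 2^(m+1) or semidihedral of order 2^(m+2); or V has q² elements with q = 2^m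 + 1 and, in suitable coordinates V = F_q², G is exactly the group of maps (x, y) ↦ (a x, ± a⁻¹ y) and (x, y) ↦ (± a⁻¹ y, a x) with a ≠ 0; or V has 81 elements (q = 3) and G is a 2-group. -/
theorem result (q : ℕ) [Fact q.Prime] {V : Type*} [AddCommGroup V] [Module (ZMod q) V] [Finite V] [Nontrivial V]
    {G : Type*} [Group G] [Finite G] (p : ℕ) [Fact p.Prime] (hG : IsPGroup p G)
    (ρ : G →* (V ≃ₗ[ZMod q] V)) (hρ : Function.Injective ρ)
    (hhalf : ∀ v w : V, v ≠ 0 → w ≠ 0 → Nat.card {u : V | ∃ g : G, ρ g v = u} = Nat.card {u : V | ∃ g : G, ρ g w = u}) :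
    ((IsCyclic G ∨ ∃ n : ℕ, Nonempty (G ≃* QuaternionGroup n)) ∧ ∀ v : V, v ≠ 0 → ∀ g : G, ρ g v = v → g = 1) ∨
    (Nat.card V = q ^ 2 ∧ ∃ m : ℕ, q = 2 ^ m - 1 ∧
      (Nonempty (G ≃* DihedralGroup (2 ^ m)) ∨ (Cfsg.IsQuasiDihedral G ∧ Nat.card G = 2 ^ (m + 2)))) ∨
    (Nat.card V = q ^ 2 ∧ (∃ m : ℕ, q = 2 ^ m + 1) ∧
      ∃ e : V ≃ₗ[ZMod q] (Fin 2 → ZMod q), ∀ f : (Fin 2 → ZMod q) ≃ₗ[ZMod q] (Fin 2 → ZMod q),
        (∃ g : G, f = e.symm.trans ((ρ g).trans e)) ↔
        ∃ a s : ZMod q, a ≠ 0 ∧ (s = 1 ∨ s = -1) ∧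
          ((∀ v, f v = ![a * v 0, s * a⁻¹ * v 1]) ∨ (∀ v, f v = ![s * a⁻¹ * v 1, a * v 0]))) ∨
    (Nat.card V = 81 ∧ q = 3 ∧ p = 2) := by
  classical
  have hp : p.Prime := Fact.out
  have hq : q.Prime := Fact.out
  obtain ⟨v₀, hv₀⟩ := exists_ne (0 : V)
  have hst : ∀ v : V, v ≠ 0 → Nat.card {g : G // ρ g v = v} = Nat.card {g : G // ρ g v₀ = v₀} := by
    intro v hv
    have e := (Cfsg.Agent.S3370.orb_stab ρ v).trans (Cfsg.Agent.S3370.orb_stab ρ v₀).symm
    rw [hhalf v v₀ hv hv₀] at e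
    have : Nonempty {u : V | ∃ g : G, ρ g v₀ = u} := ⟨⟨_, 1, rfl⟩⟩
    exact Nat.eq_of_mul_eq_mul_left Nat.card_pos e
  set k := Nat.card {g : G // ρ g v₀ = v₀} with hk
  have : Nonempty {g : G // ρ g v₀ = v₀} := ⟨⟨1, by simp⟩⟩
  have hk0 : 0 < k := Nat.card_pos
  by_cases hk1 : k = 1
  · left
    have hs : ∀ v : V, v ≠ 0 → ∀ g : G, ρ g v = v → g = 1 := fun v hv g hg => by
      have := (Nat.card_eq_one_iff_unique.1 ((hst v hv).trans hk1)).1
      exact congrArg Subtype.val (Subsingleton.elim (⟨g, hg⟩ : {g : G // ρ g v = v}) ⟨1, by simp⟩)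
    refine ⟨?_, hs⟩
    rcases (H18.IsFC.of_lin ρ hs).cyc_or_quat_aux hG with h | ⟨-, n, h⟩
    · exact Or.inl h
    · exact Or.inr ⟨_, h⟩
  right
  have hirr := H05.Half.lin_irr' ρ hρ (by omega : 1 < k) hst
  have H : Hyp ρ k := ⟨hρ, hirr, hst⟩
  by_cases hB : ∃ B : Subgroup G, B.Normal ∧ IsMulCommutative B ∧ ¬ IsCyclic B
  · right
    obtain ⟨B, hB, h1, h2⟩ := hB
    obtain ⟨A, -, hA, hE, hc⟩ := H04.exists_normal_elemAb_sq_of_comm hG h1 h2
    obtain ⟨a, z, c, -, -, h⟩ := H05.Half.exists_roq_of_elem hG (H05.Half.center_cyclic hρ hirr) hE hc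
    obtain ⟨w, hw, hw0⟩ := Submodule.exists_mem_ne_zero_of_ne_bot (W_ne H h 0)
    obtain ⟨u, hu, hu0⟩ := Submodule.exists_mem_ne_zero_of_ne_bot (W_ne H h 1)
    obtain rfl := (exists_swap H h zero_ne_one hw hw0 hu hu0).1
    obtain ⟨n, hn⟩ := card_W H h hG
    have hV := card_V H h
    have hW := Module.natCard_eq_pow_finrank (K := ZMod q) (V := H05.Half.Roq.W ρ a z (0 : ZMod 2))
    rw [Nat.card_zmod] at hW
    have hq2 : q ≠ 2 := by
      rintro rfl
      exact H05.Half.char_ne (ρ := ρ) h.zp (fun v hv => h.z_fpf hρ hirr hv) rfl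
    have hr : 1 ≤ Module.finrank (ZMod q) (H05.Half.Roq.W ρ a z (0 : ZMod 2)) := by
      have : Nontrivial (H05.Half.Roq.W ρ a z (0 : ZMod 2)) :=
        Submodule.nontrivial_iff_ne_bot.2 (W_ne H h 0)
      exact Module.finrank_pos
    have hn1 : 1 ≤ n := by
      by_contra e
      have e : n = 0 := by omega
      rw [hW, e] at hn
      exact hq2 ((Nat.prime_dvd_prime_iff_eq hq Nat.prime_two).1
        (by rw [show (2 : ℕ) = 2 ^ 0 + 1 by rfl, ← hn]; exact dvd_pow_self q (by omega)))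
    rcases Cfsg.Agent.S3784.result q 2 _ n hq Nat.prime_two hr hn1 (hW.symm.trans hn) with
      ⟨h1, -⟩ | ⟨-, h2, -, h3⟩ | ⟨h1, h2⟩
    · exact absurd h1 hq2
    · left
      exact ⟨by rw [hV, hW, h2, pow_one], ⟨n, h3⟩, coords H h h2⟩
    · right
      refine ⟨by rw [hV, hW, h1]; rfl, ?_, rfl⟩
      exact (Nat.prime_dvd_prime_iff_eq hq Nat.prime_three).1
        (hq.dvd_of_dvd_pow (n := 2) (by rw [show 3 ^ 2 = 9 by rfl, ← h1]; exact dvd_pow_self q (by omega)))
  left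
  push Not at hB
  have hcen : ∀ v : V, v ≠ 0 → ∀ g ∈ Subgroup.center G, ρ g v = v → g = 1 := fun v hv g hg h => by
    by_contra e
    exact hv (H05.Half.fixS_center hρ hirr hg e h)
  rcases H04.isCyclic_or_isDSQ_of_normal hG hB with h | ⟨rfl, m, a, b, h⟩
  · exfalso
    apply hk1
    rw [hk, Nat.card_eq_one_iff_unique]
    refine ⟨⟨fun x y => Subtype.ext ?_⟩, this⟩
    have hc : ∀ g : G, g ∈ Subgroup.center G := fun g => Subgroup.mem_center_iff.2 fun x =>
      (IsCyclic.commGroup (α := G)).mul_comm x g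
    rw [hcen v₀ hv₀ x (hc _) x.2, hcen v₀ hv₀ y (hc _) y.2]
  have hz1 : a ^ 2 ^ (m + 1) ≠ 1 := h.pow_ne_one le_rfl
  have hzc : a ^ 2 ^ (m + 1) ∈ Subgroup.center G := h.center_eq ▸ Subgroup.mem_zpowers _
  have hk2 : k = 2 := by
    have h1 : st ρ v₀ ⊓ Subgroup.zpowers a = ⊥ := by
      by_contra e
      exact hz1 (hcen v₀ hv₀ _ hzc (h.center_le e hzc))
    haveI := h.normal
    have h2 := Subgroup.relIndex_dvd_index_of_normal (Subgroup.zpowers a) (st ρ v₀)
    rw [h.index, ← Subgroup.inf_relIndex_right, inf_comm, h1, Subgroup.relIndex_bot_left] at h2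
    exact ((Nat.dvd_prime Nat.prime_two).1 h2).resolve_left hk1
  obtain ⟨r, hr1, hr2⟩ := Cfsg.Agent.S3381.result q ρ hρ (fun v hv => (hst v hv).trans hk2) _
    (orderOf_eq_prime (h.sq_eq_one_of_mem_center hzc) hz1) hzc
  have hr0 : 1 ≤ r := by
    by_contra e
    have e : r = 0 := by omega
    have := Finite.one_lt_card (α := V)
    rw [hr1, e] at this
    simp at this
  have key : ∀ j, q ^ r + 1 = 2 ^ (j + 1) → r = 1 ∧ q = 2 ^ (j + 1) - 1 := by
    intro j hj
    rcases Cfsg.Agent.S3784.result 2 q (j + 1) r Nat.prime_two hq (by omega) hr0 hj.symm with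
      ⟨-, h1, -, h2⟩ | ⟨-, -, -, h1⟩ | ⟨h1, -⟩
    · exact ⟨h1, by omega⟩
    · have : 2 ≤ 2 ^ r := Nat.le_self_pow (show r ≠ 0 by omega) 2
      omega
    · rw [pow_succ] at h1; omega
  rcases h.rel with ⟨h1, h2⟩ | ⟨h1, h2⟩ | ⟨h0, h1, h2⟩
  · have := count h (Subgroup.zpowers a) le_rfl fun i => by
      rw [H04.mul_zpow_sq (k := -1) (by simpa using h2), h1]
      simp
    rw [this, Nat.card_zpowers, h.ord] at hr2
    obtain ⟨e1, e2⟩ := key (m + 1) hr2.symm
    obtain ⟨e⟩ := H08.nonempty_closure_equiv_dihedral (by positivity) h.ord (by rw [← pow_two, h1])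
      h2 h.notMem
    exact ⟨by rw [hr1, e1], m + 2, e2, Or.inl
      ⟨(Subgroup.topEquiv.symm.trans (MulEquiv.subgroupCongr h.closure_eq.symm)).trans e⟩⟩
  · exfalso
    have h3 : IsEmpty {g : G // orderOf g = 2 ∧ g ∉ Subgroup.center G} := by
      obtain ⟨e⟩ := h.iso_quaternion h1 h2
      refine ⟨fun ⟨x, hx1, hx2⟩ => hx2 ?_⟩
      rw [Subgroup.mem_center_iff]
      intro g
      apply e.injective
      rw [map_mul, map_mul]
      exact Subgroup.mem_center_iff.1 (Cfsg.Agent.S3370.quat_invol (by positivity) (e x)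
        (by rw [← map_mul, ← pow_two, show x ^ 2 = 1 by rw [← hx1, pow_orderOf_eq_one], map_one])) _
    rw [Nat.card_of_isEmpty] at hr2
    omega
  · have := count h (Subgroup.zpowers (a ^ 2)) (Subgroup.zpowers_le.2 (pow_mem (Subgroup.mem_zpowers a) _))
      fun i => by
      rw [H04.mul_zpow_sq (k := 2 ^ (m + 1) - 1) (by
        rw [h2, ← zpow_natCast, Nat.cast_sub Nat.one_le_two_pow]; push_cast; rfl), h1, mul_one,
        ← zpow_add, ← zpow_zero a, h.zpow_eq]
      constructor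
      · rintro ⟨j, hj⟩
        refine H04.zpow_mem_zpowers_pow ⟨j, ?_⟩
        have : 2 ^ (m + 1) * i = 2 ^ (m + 1) * (2 * j) := by linear_combination hj
        exact_mod_cast mul_left_cancel₀ (by positivity) this
      · rintro ⟨j, hj⟩
        have hj : (a ^ 2) ^ j = a ^ i := hj
        rw [← zpow_natCast, ← zpow_mul, h.zpow_eq] at hj
        obtain ⟨l, hl⟩ := hj
        refine ⟨j - 2 ^ (m + 1) * l, ?_⟩
        push_cast at hl
        linear_combination (-2 ^ (m + 1)) * hl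
    have ho := h.orderOf_pow (k := 1) (by omega)
    rw [pow_one] at ho
    rw [this, Nat.card_zpowers, ho] at hr2
    obtain ⟨e1, e2⟩ := key m hr2.symm
    exact ⟨by rw [hr1, e1], m + 1, e2, Or.inr
      ⟨⟨m + 2, by omega, h.card, a, b, h.ord, h.orderOf_b h1, h2⟩, h.card⟩⟩

end Cfsg.Agent.S3371
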