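import Mathlib
import Cfsg.Statements.S1160
import Cfsg.Agent.S3371

set_option autoImplicit false
open Cfsg

namespace Cfsg.Agent.S1160

theorem exists_rho (P E : Type*) [Group P] [AddCommGroup E] [DistribMulAction P E] (q : ℕ) [Fact q.Prime]
    [Module (ZMod q) E] : ∃ ρ : P →* (E ≃ₗ[ZMod q] E), ∀ g x, ρ g x = g • x :=
  haveI : SMulCommClass P (ZMod q) E := ⟨fun g c x => ZMod.map_smul (DistribSMul.toAddMonoidHom E g) c x⟩
  ⟨DistribMulAction.toModuleAut (ZMod q) E, fun _ _ => rfl⟩

/-- Let `p ≠ 2` be prime and `P` a finite `p`-group acting faithfully by additive automorphisms on a finite elementary abelian `q`-group `E` (`q` prime), such that `|P_a|` is the same for all `a ≠ 0`. Then `P` is cyclic and every non-identity element of `P` fixes only `0`. -/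
theorem result {P E : Type*} [Group P] [Finite P]
    [AddCommGroup E] [Finite E] [DistribMulAction P E] [FaithfulSMul P E]
    {p q : ℕ} [Fact p.Prime] (hp2 : p ≠ 2) (hP : IsPGroup p P) (hq : q.Prime) (hE : ∀ e : E, q • e = 0)
    (hconst : ∀ a b : E, a ≠ 0 → b ≠ 0 →
      Nat.card (MulAction.stabilizer P a) = Nat.card (MulAction.stabilizer P b)) :
    IsCyclic P ∧ ∀ g : P, g ≠ 1 → ∀ a : E, g • a = a → a = 0 := by
  have hp : p.Prime := Fact.out
  have two : ∀ g : P, g * g = 1 → g = 1 := fun g hg => by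
    by_contra c
    obtain ⟨k, hk⟩ := IsPGroup.iff_orderOf.1 hP g
    have o : orderOf g = 2 := orderOf_eq_prime (by rw [pow_two, hg]) c
    rcases k with _ | k
    · simp [o] at hk
    · exact hp2 ((Nat.prime_dvd_prime_iff_eq hp Nat.prime_two).1 (o ▸ hk ▸ dvd_pow_self p k.succ_ne_zero))
  rcases subsingleton_or_nontrivial E with hE1 | hE1
  · have : Subsingleton P := ⟨fun a b => FaithfulSMul.eq_of_smul_eq_smul (α := E) fun e => Subsingleton.elim _ _⟩
    exact ⟨inferInstance, fun g _ a _ => Subsingleton.elim _ _⟩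
  have := Fact.mk hq
  have : NeZero q := ⟨hq.ne_zero⟩
  obtain ⟨inst⟩ : Nonempty (Module (ZMod q) E) := ⟨AddCommGroup.zmodModule hE⟩
  obtain ⟨ρ, hρ⟩ := exists_rho P E q
  have inj : Function.Injective ρ := fun a b h =>
    FaithfulSMul.eq_of_smul_eq_smul (α := E) fun e => by rw [← hρ, ← hρ, h]
  have orb : ∀ v : E, Nat.card {u : E | ∃ g : P, ρ g v = u} * Nat.card (MulAction.stabilizer P v) = Nat.card P :=
    fun v => by
      simp only [hρ]
      rw [← Nat.card_prod]
      exact Nat.card_congr (MulAction.orbitProdStabilizerEquivGroup P v)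
  rcases Cfsg.Agent.S3371.result q p hP ρ inj (fun v w hv hw => Nat.eq_of_mul_eq_mul_right
    (Nat.card_pos (α := MulAction.stabilizer P v)) (by rw [orb, hconst v w hv hw, orb])) with
    ⟨h1, h2⟩ | ⟨-, m, -, ⟨⟨e⟩⟩ | ⟨-, h⟩⟩ | ⟨-, -, e, h⟩ | h
  · refine ⟨h1.resolve_right ?_, fun g hg a ha => by_contra fun c => hg (h2 a c g ((hρ g a).trans ha))⟩
    rintro ⟨n, ⟨e⟩⟩
    have e1 := two (e.symm (QuaternionGroup.xa 0 ^ 2)) (by
      rw [← map_mul, ← pow_add, QuaternionGroup.xa_pow_four, map_one])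
    have e2 := two (e.symm (QuaternionGroup.xa 0)) (by rw [← map_mul, ← pow_two, e1])
    rw [map_eq_one_iff _ e.symm.injective] at e2
    cases e2
  · have e2 := two (e.symm (DihedralGroup.sr 0)) (by rw [← map_mul, DihedralGroup.sr_mul_self, map_one])
    rw [map_eq_one_iff _ e.symm.injective] at e2
    cases e2
  · obtain ⟨g, hg⟩ := exists_prime_orderOf_dvd_card' (G := P) 2 (by rw [h]; exact dvd_pow_self 2 (by omega))
    have := two g (by rw [← pow_two, ← hg, pow_orderOf_eq_one])
    simp [this] at hg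
  · let f : (Fin 2 → ZMod q) ≃ₗ[ZMod q] (Fin 2 → ZMod q) := LinearEquiv.funCongrLeft (ZMod q) (ZMod q) (Equiv.swap 0 1)
    have hf : ∀ v, f v = ![v 1, v 0] := fun v => by
      ext i; fin_cases i <;> rfl
    obtain ⟨g, hg⟩ :=
      (h f).2 ⟨1, 1, one_ne_zero, Or.inl rfl, Or.inr fun v => by simp [hf]⟩
    have k : ∀ x, e (g • x) = f (e x) := fun x => by rw [hg]; simp [hρ]
    have := two g (FaithfulSMul.eq_of_smul_eq_smul (α := E) fun x => e.injective (by
      rw [mul_smul, k, k, one_smul, hf, hf]; ext i; fin_cases i <;> rfl))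
    have e3 := congrFun (k (e.symm ![1, 0])) 0
    simp [this, hf] at e3
  · exact absurd h.2.2 hp2

end Cfsg.Agent.S1160
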