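import Mathlib
import Cfsg.Statements.S1161
import Cfsg.Agent.S0205
import Cfsg.Agent.H04.Amb
import Cfsg.Agent.H04.ElemAb
import Cfsg.Agent.H02.Fitting
import Cfsg.Agent.H02.MinNormal

set_option autoImplicit false
open Cfsg

namespace Cfsg.Agent.S1161

open Subgroup MulAction

section
variable {D E : Type*} [Group D] [Finite D] [AddCommGroup E] [DistribMulAction D E]

theorem card_stab_eq (htrans : ∀ a b : E, a ≠ 0 → b ≠ 0 → ∃ d : D, d • a = b)
    (N : Subgroup D) [hN : N.Normal] {a b : E} (ha : a ≠ 0) (hb : b ≠ 0) :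
    Nat.card (N ⊓ stabilizer D a : Subgroup D) ≤ Nat.card (N ⊓ stabilizer D b : Subgroup D) := by
  obtain ⟨d, rfl⟩ := htrans a b ha hb
  refine Nat.card_le_card_of_injective
    (fun x => ⟨d * x.1 * d⁻¹, hN.conj_mem _ x.2.1 d, ?_⟩) ?_
  · have h : x.1 • a = a := x.2.2
    show (d * x.1 * d⁻¹) • (d • a) = d • a
    rw [mul_smul, mul_smul, inv_smul_smul, h]
  · intro x y h
    have h' := congrArg Subtype.val h
    simp only [mul_left_inj, mul_right_inj] at h'
    exact Subtype.ext h'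

theorem stab_le (htrans : ∀ a b : E, a ≠ 0 → b ≠ 0 → ∃ d : D, d • a = b)
    (N : Subgroup D) [hN : N.Normal] {a b : E} (ha : a ≠ 0) (hb : b ≠ 0)
    (h : ∀ g ∈ N, g • a = a → g • b = b) : ∀ g ∈ N, g • b = b → g • a = a := by
  have h1 : (N ⊓ stabilizer D a : Subgroup D) ≤ N ⊓ stabilizer D b := fun g hg =>
    ⟨hg.1, h g hg.1 hg.2⟩
  have h2 := eq_of_le_of_card_ge h1 (card_stab_eq htrans N hb ha)
  intro g hg hgb
  have : g ∈ (N ⊓ stabilizer D b : Subgroup D) := ⟨hg, hgb⟩
  rw [← h2] at this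
  exact this.2

theorem fpf_of_comm [FaithfulSMul D E] (htrans : ∀ a b : E, a ≠ 0 → b ≠ 0 → ∃ d : D, d • a = b)
    (A : Subgroup D) [A.Normal] (hA : ∀ x ∈ A, ∀ y ∈ A, x * y = y * x) :
    ∀ g ∈ A, g ≠ 1 → ∀ a : E, g • a = a → a = 0 := by
  intro g hg hg1 a hga
  by_contra ha
  have hb : ∃ b : E, g • b ≠ b := by
    by_contra hn
    push Not at hn
    exact hg1 (FaithfulSMul.eq_of_smul_eq_smul (α := E) fun b => by rw [hn, one_smul])
  obtain ⟨b, hb⟩ := hb
  have hb0 : b ≠ 0 := by rintro rfl; exact hb (smul_zero g)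
  have hc : a + b ≠ 0 := by
    intro h
    have : b = -a := by rw [eq_neg_iff_add_eq_zero, add_comm, h]
    rw [this, smul_neg, hga] at hb
    exact hb rfl
  have key : ∀ h ∈ A, h • (a + b) = a + b → h • a = a := by
    intro h hh hc'
    by_contra hne
    have hw : h • a - a ≠ 0 := sub_ne_zero.2 hne
    have hw2 : h • a - a = b - h • b := by
      rw [smul_add] at hc'
      rw [sub_eq_sub_iff_add_eq_add, hc', add_comm]
    have h1 : g • (h • a - a) = h • a - a := by
      rw [smul_sub, ← mul_smul, hA g hg h hh, mul_smul, hga]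
    refine hb (stab_le htrans A hb0 hw (fun k hk hkb => ?_) g hg h1)
    rw [hw2, smul_sub, ← mul_smul, hA k hk h hh, mul_smul, hkb]
  have h3 := stab_le htrans A hc ha key g hg hga
  rw [smul_add, hga] at h3
  exact hb (add_left_cancel h3)

/-- norm map -/
def nm (p : ℕ) (t : D) (v : E) : E := ∑ i ∈ Finset.range p, t ^ i • v

omit [Finite D] in
theorem nm_fix {p : ℕ} {t : D} (ht : t ^ p = 1) (v : E) : t • nm p t v = nm p t v := by
  unfold nm
  rw [Finset.smul_sum]
  have h1 := Finset.sum_range_succ (fun i => t ^ i • v) p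
  have h2 := Finset.sum_range_succ' (fun i => t ^ i • v) p
  rw [h1, ht, pow_zero] at h2
  rw [add_right_cancel h2]
  refine Finset.sum_congr rfl fun i _ => ?_
  rw [← mul_smul, pow_succ']

omit [Finite D] in
theorem nm_of_fix {p : ℕ} {t : D} {v : E} (h : t • v = v) : nm p t v = p • v := by
  unfold nm
  have : ∀ i : ℕ, t ^ i • v = v := fun i => by
    induction i with
    | zero => simp
    | succ i ih => rw [pow_succ, mul_smul, h, ih]
  simp [this]

omit [Finite D] in
theorem nm_conj (p : ℕ) (g t : D) (v : E) : g • nm p t v = nm p (g * t * g⁻¹) (g • v) := by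
  unfold nm
  rw [Finset.smul_sum]
  refine Finset.sum_congr rfl fun i _ => ?_
  rw [conj_pow, mul_smul, mul_smul, inv_smul_smul]

omit [Finite D] in
theorem nm_add (p : ℕ) (t : D) (v w : E) : nm p t (v + w) = nm p t v + nm p t w := by
  unfold nm
  simp [smul_add, Finset.sum_add_distrib]

omit [Finite D] in
theorem nm_sum {p : ℕ} (hp : 0 < p) {x y : D} (hxy : Commute x y) (v : E)
    (hy : ∀ j, 0 < j → j < p → nm p (y ^ j) v = 0) :
    ∑ i ∈ Finset.range p, nm p (x * y ^ i) v = p • v := by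
  have h1 : ∀ i, nm p (x * y ^ i) v = ∑ j ∈ Finset.range p, x ^ j • ((y ^ j) ^ i • v) := by
    intro i
    unfold nm
    refine Finset.sum_congr rfl fun j _ => ?_
    rw [(hxy.pow_right i).mul_pow, mul_smul, ← pow_mul, ← pow_mul, mul_comm i j]
  simp only [h1]
  rw [Finset.sum_comm]
  have h2 : ∀ j, ∑ i ∈ Finset.range p, x ^ j • ((y ^ j) ^ i • v) = x ^ j • nm p (y ^ j) v := by
    intro j
    unfold nm
    rw [Finset.smul_sum]
  simp only [h2]
  rw [Finset.sum_eq_single 0]
  · rw [pow_zero, pow_zero, one_smul, nm_of_fix (one_smul _ _)]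
  · intro j hj hj0
    rw [hy j (Nat.pos_of_ne_zero hj0) (Finset.mem_range.1 hj), smul_zero]
  · intro h
    exact absurd (Finset.mem_range.2 hp) h

theorem exists_central {p : ℕ} [Fact p.Prime] {P T : Subgroup D} (hP : IsPGroup p P) (hT : T ≤ P)
    (hn : P ≤ normalizer (T : Set D)) (h0 : T ≠ ⊥) :
    ∃ z ∈ T, z ≠ 1 ∧ z ∈ P ⊓ centralizer (P : Set D) := by
  haveI := hP.isNilpotent
  haveI : (T.subgroupOf P).Normal := (normal_subgroupOf_iff_le_normalizer hT).2 hn
  have h1 : T.subgroupOf P ≠ ⊥ := by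
    intro h
    rw [subgroupOf_eq_bot] at h
    exact h0 (by simpa [inf_eq_left.2 hT] using h.eq_bot)
  obtain ⟨z, hz, hz1, hzc⟩ := H04.exists_mem_center_of_normal (T.subgroupOf P) h1
  refine ⟨z, hz, fun h => hz1 (Subtype.ext h), z.2, fun y hy => ?_⟩
  exact congrArg Subtype.val (mem_center_iff.1 hzc ⟨y, hy⟩)

theorem cyc [Finite E] [Nontrivial E] [FaithfulSMul D E] (hodd : Odd (Nat.card D)) {q : ℕ}
    (hq : q.Prime) (hE : ∀ e : E, q • e = 0)
    (htrans : ∀ a b : E, a ≠ 0 → b ≠ 0 → ∃ d : D, d • a = b) {p : ℕ} [hp : Fact p.Prime]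
    (P : Subgroup D) [P.Normal] (hP : IsPGroup p P) : IsCyclic P := by
  by_contra hnc
  have hp2 : p ≠ 2 := by
    rintro rfl
    obtain ⟨n, hn⟩ := IsPGroup.iff_card.1 hP
    rcases n with _ | n
    · haveI : Subsingleton P := (Nat.card_eq_one_iff_unique.1 (by simpa using hn)).1
      exact hnc inferInstance
    · have h2 : 2 ∣ Nat.card D := (hn ▸ dvd_pow_self 2 (Nat.succ_ne_zero n)).trans P.card_subgroup_dvd_card
      exact (Nat.not_even_iff_odd.2 hodd) (even_iff_two_dvd.2 h2)
  obtain ⟨R, hRP, hPR, ⟨hRc, hRe⟩, hR⟩ := H04.exists_normal_elemAb_sq' hp2 hP le_rfl le_normalizer hnc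
  have hcomm : ∀ x ∈ R, ∀ y ∈ R, Commute x y := fun x hx y hy =>
    congrArg Subtype.val (hRc.1.1 ⟨x, hx⟩ ⟨y, hy⟩)
  have hZ := fpf_of_comm htrans (P ⊓ centralizer (P : Set D)) fun x hx y hy => hy.2 x hx.1
  have hR0 : R ≠ ⊥ := by
    rintro rfl
    rw [card_bot] at hR
    exact (one_lt_pow₀ hp.out.one_lt two_ne_zero).ne hR
  obtain ⟨z, hzR, hz1, hzc⟩ := exists_central hP hRP hPR hR0
  have hord : ∀ t ∈ R, t ≠ 1 → orderOf t = p := fun t ht ht1 =>
    orderOf_eq_prime (hRe t ht) ht1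
  by_cases hpq : p = q
  · subst hpq
    obtain ⟨e, he⟩ := exists_ne (0 : E)
    have h1 : p ∣ Nat.card E := by
      rw [← addOrderOf_eq_prime (hE e) he]; exact addOrderOf_dvd_natCard e
    have h2 : IsPGroup p (zpowers z) := hP.to_le ((zpowers_le.2 hzR).trans hRP)
    obtain ⟨b, hb, hb0⟩ := h2.exists_fixed_point_of_prime_dvd_card_of_fixed_point E h1
      (a := 0) (fun g => smul_zero g)
    exact hb0 (hZ z hzc hz1 b (hb ⟨z, mem_zpowers z⟩)).symm
  have hcanc : ∀ e : E, p • e = 0 → e = 0 := by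
    intro e he
    have h1 : addOrderOf e ∣ Nat.gcd p q :=
      Nat.dvd_gcd (addOrderOf_dvd_of_nsmul_eq_zero he) (addOrderOf_dvd_of_nsmul_eq_zero (hE e))
    rw [(Nat.coprime_primes hp.out hq).2 hpq, Nat.dvd_one] at h1
    exact AddMonoid.addOrderOf_eq_one_iff.1 h1
  have hcanc' : ∀ e f : E, p • e = p • f → e = f := fun e f h =>
    sub_eq_zero.1 (hcanc _ (by rw [smul_sub, h, sub_self]))
  have gen : ∀ t ∈ R, t ≠ 1 → ∀ u ∈ R, u ∉ zpowers t → ∀ w : E, t • w = w → u • w = w → w = 0 := by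
    intro t ht ht1 u hu hut w h1 h2
    have h3 : zpowers t < R ⊓ stabilizer D w :=
      lt_of_le_of_ne (zpowers_le.2 ⟨ht, h1⟩) fun h => hut (h ▸ ⟨hu, h2⟩)
    have h4 : Nat.card (R ⊓ stabilizer D w : Subgroup D) ∣ p ^ 2 := hR ▸ card_dvd_of_le inf_le_left
    obtain ⟨k, hk, hk'⟩ := (Nat.dvd_prime_pow hp.out).1 h4
    have h5 : p < p ^ k := by
      rw [← hk', ← hord t ht ht1, ← Nat.card_zpowers]
      exact lt_of_le_of_ne (card_le_of_le h3.le) fun h => h3.ne (eq_of_le_of_card_ge h3.le h.ge)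
    have h6 : k = 2 := by
      have : 1 < k := (Nat.pow_lt_pow_iff_right hp.out.one_lt).1 (by simpa using h5)
      omega
    have h7 : R ⊓ stabilizer D w = R := eq_of_le_of_card_ge inf_le_left (by rw [hk', h6, hR])
    have h8 : z ∈ R ⊓ stabilizer D w := h7.symm ▸ hzR
    exact hZ z hzc hz1 w h8.2
  obtain ⟨x, hxR, hxz⟩ : ∃ x ∈ R, x ∉ zpowers z := by
    by_contra hn
    push Not at hn
    have h1 : Nat.card R ≤ Nat.card (zpowers z) := card_le_of_le hn
    rw [hR, Nat.card_zpowers, hord z hzR hz1] at h1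
    have := hp.out.one_lt
    nlinarith
  obtain ⟨t, htR, ht1, a, ha, hta⟩ : ∃ t ∈ R, t ≠ 1 ∧ ∃ a : E, a ≠ 0 ∧ t • a = a := by
    by_contra hn
    push Not at hn
    obtain ⟨v, hv⟩ := exists_ne (0 : E)
    have h0 : ∀ t ∈ R, t ≠ 1 → nm p t v = 0 := fun t ht ht1 => by
      by_contra h
      exact hn t ht ht1 _ h (nm_fix (hRe t ht) v)
    have h1 := nm_sum hp.out.pos (hcomm x hxR z hzR) v fun j hj hjp =>
      h0 _ (R.pow_mem hzR j) (pow_ne_one_of_lt_orderOf hj.ne' (by rwa [hord z hzR hz1]))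
    rw [Finset.sum_eq_zero] at h1
    · exact hv (hcanc v h1.symm)
    · intro i _
      refine h0 _ (R.mul_mem hxR (R.pow_mem hzR i)) fun h => hxz ?_
      rw [mul_eq_one_iff_eq_inv] at h
      rw [h]
      exact inv_mem (pow_mem (mem_zpowers z) i)
  have hconj : ∀ g ∈ P, ∀ u ∈ R, g * u * g⁻¹ ∈ R := fun g hg u hu =>
    (mem_normalizer_iff.1 (hPR hg) u).1 hu
  have fixz : ∀ (u : D) (w : E), u • w = w → ∀ k ∈ zpowers u, k • w = w := fun u w h k hk =>
    (zpowers_le.2 (show u ∈ stabilizer D w from h) hk :)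
  obtain ⟨g, hg, hs⟩ : ∃ g ∈ P, g * t * g⁻¹ ∉ zpowers t := by
    by_contra hn
    push Not at hn
    have h1 : P ≤ normalizer (zpowers t : Set D) := by
      intro g hg
      refine mem_normalizer_fintype fun k hk => ?_
      obtain ⟨n, rfl⟩ := mem_zpowers_iff.1 hk
      rw [← conj_zpow]
      exact zpow_mem (hn g hg) n
    obtain ⟨z', h2, h3, h4⟩ := exists_central hP ((zpowers_le.2 htR).trans hRP) h1
      (by simpa using ht1)
    exact ha (hZ z' h4 h3 a (fixz t a hta z' h2))
  set s := g * t * g⁻¹ with hsdef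
  have hsR : s ∈ R := hconj g hg t htR
  have hs1 : s ≠ 1 := fun h => hs (h ▸ one_mem _)
  have hb : g • a ≠ 0 := fun h => ha (by simpa using congrArg (g⁻¹ • ·) h)
  have hsb : s • (g • a) = g • a := by rw [hsdef, mul_smul, mul_smul, inv_smul_smul, hta]
  generalize g • a = b at hb hsb
  have htb : t • b ≠ b := fun h => hb (gen t htR ht1 s hsR hs b h hsb)
  have hc : a + b ≠ 0 := by
    intro h
    have : b = -a := by rw [eq_neg_iff_add_eq_zero, add_comm, h]
    exact htb (by rw [this, smul_neg, hta])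
  have nm0 : ∀ t ∈ R, t ≠ 1 → ∀ u ∈ R, ∀ w : E, t • w = w → u • w ≠ w → nm p u w = 0 := by
    intro t ht ht1 u hu w hw huw
    refine gen t ht ht1 u hu (fun h => huw (fixz t w hw u h)) _ ?_ (nm_fix (hRe u hu) w)
    rw [nm_conj, hw, (hcomm t ht u hu).eq, mul_inv_cancel_right]
  have key : ∀ h ∈ P, h • (a + b) = a + b → h • a = a := by
    intro h hh hc'
    have h1 : nm p t (a + b) = p • a := by
      rw [nm_add, nm_of_fix hta, nm0 s hsR hs1 t htR b hsb htb, add_zero]
    have h2 := nm_conj p h t (a + b)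
    rw [h1, hc', nm_add, smul_comm] at h2
    have hu := hconj h hh t htR
    have hu1 : h * t * h⁻¹ ≠ 1 := fun e => ht1 (by simpa using e)
    generalize h * t * h⁻¹ = u at h2 hu hu1
    by_cases h3 : u • a = a
    · have h4 : u • b ≠ b := by
        intro h4
        by_cases h5 : t ∈ zpowers u
        · exact htb (fixz u b h4 t h5)
        · exact ha (gen u hu hu1 t htR h5 a h3 hta)
      rw [nm_of_fix h3, nm0 s hsR hs1 u hu b hsb h4, add_zero] at h2
      exact hcanc' _ _ h2
    · rw [nm0 t htR ht1 u hu a hta h3, zero_add] at h2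
      by_cases h4 : u • b = b
      · rw [nm_of_fix h4] at h2
        have h5 := hcanc' _ _ h2
        have h6 : h • b = a := by
          rw [smul_add, h5, add_comm] at hc'
          exact add_right_cancel hc'
        have h7 : (h ^ 2) • a = a := by rw [sq, mul_smul, h5, h6]
        refine fixz _ a h7 h ?_
        have h8 : (orderOf h).Coprime 2 :=
          Nat.Coprime.coprime_dvd_left (orderOf_dvd_natCard h) ((Nat.coprime_two_right).mpr hodd)
        exact mem_zpowers_pow_iff.2 h8.symm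
      · rw [nm0 s hsR hs1 u hu b hsb h4] at h2
        have h5 := hcanc _ h2
        exact absurd (by simpa using congrArg (h⁻¹ • ·) h5) ha
  have h3 := stab_le htrans P hc ha key t (hRP htR) hta
  rw [smul_add, hta] at h3
  exact htb (add_left_cancel h3)

end

/-- Let `D` be a finite group of odd order acting faithfully by additive automorphisms on a finite elementary abelian `q`-group `E ≠ 0` (`q` prime), transitively on `E ∖ {0}`. Then the Fitting subgroup `F(D)` is cyclic, its non-identity elements fix only `0`, and `D/F(D)` is abelian (the derived subgroup lies in `F(D)`). -/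
theorem result {D E : Type*} [Group D] [Finite D]
    [AddCommGroup E] [Finite E] [Nontrivial E] [DistribMulAction D E] [FaithfulSMul D E]
    (hodd : Odd (Nat.card D)) {q : ℕ} (hq : q.Prime) (hE : ∀ e : E, q • e = 0)
    (htrans : ∀ a b : E, a ≠ 0 → b ≠ 0 → ∃ d : D, d • a = b) :
    IsCyclic ↥(Cfsg.fittingSubgroup D) ∧
      (∀ g ∈ Cfsg.fittingSubgroup D, g ≠ 1 → ∀ a : E, g • a = a → a = 0) ∧
      commutator D ≤ Cfsg.fittingSubgroup D := by
  haveI := S0205.result hodd
  haveI : IsZGroup (fittingSubgroup D) := ⟨fun p hp S => by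
    haveI := Fact.mk hp
    have h1 : (S : Subgroup (fittingSubgroup D)).map (fittingSubgroup D).subtype ≤ pCore p D :=
      H02.le_pCore_of_le_fitting hp (S.isPGroup'.map _) (Subgroup.map_subtype_le _)
    haveI := cyc hodd hq hE htrans (pCore p D) (H02.pCore_isPGroup p D)
    haveI := Subgroup.isCyclic_of_le h1
    exact isCyclic_of_surjective _
      (Subgroup.equivMapOfInjective _ _ (fittingSubgroup D).subtype_injective).symm.surjective⟩
  have hc : IsCyclic (fittingSubgroup D) := inferInstance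
  refine ⟨hc, fpf_of_comm htrans _ fun x hx y hy => ?_, ?_⟩
  · letI := hc.commGroup
    exact congrArg Subtype.val (mul_comm (⟨x, hx⟩ : fittingSubgroup D) ⟨y, hy⟩)
  · exact (H04.commutator_le_centralizer_of_isCyclic hc (by rw [Subgroup.normalizer_eq_top])
      (by rw [Subgroup.normalizer_eq_top])).trans (H02.centralizer_fitting_le D)

end Cfsg.Agent.S1161
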