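import Mathlib
import Cfsg.Statements.S1167
import Cfsg.Agent.S0738
import Cfsg.Agent.S0885
import Cfsg.Agent.S0741
import Cfsg.Agent.S0740

set_option autoImplicit false
open Cfsg

namespace Cfsg.Agent.S1167

/-- Let `G` be a finite simple Zassenhaus group on `Ω`, `U` a normal subgroup of `G_a` regular on `Ω` minus `a` which is an abelian 2-group, and `v` an involution with `v • a ≠ a`. Then there is a unique `u₀ ∈ U`, `u₀ ≠ 1`, with `v u₀ v = u₀ v u₀`. -/
theorem result {G Ω : Type*} [Group G] [Finite G] [MulAction G Ω] [Finite Ω]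
    (hZ : Cfsg.IsZassenhausGroup G Ω) [IsSimpleGroup G] {a : Ω}
    (U : Subgroup G) (hUle : U ≤ MulAction.stabilizer G a)
    (hUn : ∀ h ∈ MulAction.stabilizer G a, ∀ u ∈ U, h * u * h⁻¹ ∈ U)
    (hreg : ∀ c d : Ω, c ≠ a → d ≠ a → ∃! u : U, (u : G) • c = d)
    (hU2 : IsPGroup 2 U) (hUab : ∀ u ∈ U, ∀ u' ∈ U, u * u' = u' * u)
    (v : G) (hv1 : v ≠ 1) (hv2 : v * v = 1) (hva : v • a ≠ a) :
    ∃! u₀ : G, u₀ ∈ U ∧ u₀ ≠ 1 ∧ v * u₀ * v = u₀ * v * u₀ := by
  classical
  letI := Fintype.ofFinite Ω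
  have hab : a ≠ v • a := hva.symm
  have hva2 : v • (v • a) = a := by rw [← mul_smul, hv2, one_smul]
  set b := v • a with hb
  have hUa : ∀ u ∈ U, u • a = a := fun u hu => hUle hu
  have hne : ∀ u ∈ U, ∀ c : Ω, c ≠ a → u • c ≠ a := fun u hu c hc h =>
    hc (by rw [← hUa u hu] at h; exact smul_left_cancel u h)
  have hcard : Nat.card U + 1 = Fintype.card Ω := by
    have e : U ≃ {c : Ω // c ≠ a} := Equiv.ofBijective (fun u => ⟨(u : G) • b, hne u u.2 b hva⟩) ⟨?_, ?_⟩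
    · rw [Nat.card_congr e, Nat.card_eq_fintype_card, Fintype.card_subtype_compl, Fintype.card_subtype_eq]
      have : 0 < Fintype.card Ω := Fintype.card_pos_iff.2 ⟨a⟩
      omega
    · intro u u' h
      exact (hreg b ((u : G) • b) hva (hne u u.2 b hva)).unique rfl (congrArg Subtype.val h).symm
    · rintro ⟨c, hc⟩
      obtain ⟨u, hu, -⟩ := hreg b c hva hc
      exact ⟨u, Subtype.ext hu⟩
  have hfix : ∀ u ∈ U, u ≠ 1 → ∀ c : Ω, u • c = c → c = a := by
    intro u hu hu1 c hc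
    by_contra hca
    have := (hreg c c hca hca).unique (y₁ := ⟨u, hu⟩) (y₂ := 1) hc (one_smul _ _)
    exact hu1 (congrArg Subtype.val this)
  have hd : Fintype.card Ω - 2 ≤
      2 * Nat.card ↥(MulAction.stabilizer G a ⊓ MulAction.stabilizer G b) := by
    rcases Nat.even_or_odd (Nat.card ↥(MulAction.stabilizer G a ⊓ MulAction.stabilizer G b)) with h | h
    · exact S0741.result hZ hab h
    · rcases S0885.result hZ hab (Nat.card U) _ hcard.symm rfl h U hUle hcard hfix with h1 | ⟨-, ⟨x, y, hxy⟩, -⟩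
      · omega
      · exact absurd (Subtype.ext (hUab x x.2 y y.2)) hxy
  obtain ⟨-, p, f, hp, hpU, -⟩ := S0738.result hZ hab hd U hUle
    ⟨fun n hn g => hUn g g.2 n hn⟩ hreg
  have hU1 : Nat.card U ≠ 1 := by
    intro h1
    obtain ⟨hf, -, -, ⟨g, hg1, x, y, hxy, hx, hy⟩, -⟩ := hZ
    refine hg1 (hf.eq_of_smul_eq_smul fun c => ?_)
    rw [one_smul]
    have h2 : Fintype.card Ω = 2 := by omega
    by_cases hcx : c = x
    · rw [hcx, hx]
    · by_cases hcy : c = y
      · rw [hcy, hy]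
      · have h3 : ({c, x, y} : Finset Ω).card ≤ 2 := h2 ▸ Finset.card_le_univ _
        rw [Finset.card_eq_three.2 ⟨c, x, y, hcx, hcy, hxy, rfl⟩] at h3
        omega
  obtain ⟨n, hn⟩ := IsPGroup.iff_card.1 hU2
  have hodd : Odd (Fintype.card Ω) := by
    rw [← hcard, hn]
    rcases n with _ | n
    · exact absurd hn hU1
    · exact Even.add_one (by rw [pow_succ]; exact even_two.mul_left _)
  have hsq : ∀ u ∈ U, u * u = 1 := by
    intro u hu
    by_cases hu1 : u = 1
    · rw [hu1, one_mul]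
    have h1 : orderOf u = p := by
      haveI := Fact.mk hp
      exact orderOf_eq_prime (hpU u hu) hu1
    have h2 : p ∣ 2 ^ n := h1 ▸ hn ▸ U.orderOf_dvd_natCard hu
    have h3 : p = 2 := (Nat.prime_dvd_prime_iff_eq hp Nat.prime_two).1 (hp.dvd_of_dvd_pow h2)
    rw [← sq, ← h3]
    exact hpU u hu
  have hvo : orderOf v = 2 := orderOf_eq_prime (by rw [sq, hv2]) hv1
  have h1 := ((S0740.result hZ hab).2.1 v hvo rfl hva2).1 hodd
  obtain ⟨hsub, ⟨⟨c, hc⟩⟩⟩ := Nat.card_eq_one_iff_unique.1 h1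
  have hc' : v • c = c := hc
  have hca : c ≠ a := by rintro rfl; exact hva hc'
  have hcb : c ≠ b := by
    intro h
    rw [h, hva2] at hc'
    exact hab hc'
  obtain ⟨u, hu, huniq⟩ := hreg b c hva hca
  have hu' : (u : G) • c = b := by rw [← hu, ← mul_smul, hsq u u.2, one_smul]
  refine ⟨u, ⟨u.2, fun h => hcb (by rw [← hu, h, one_smul]), ?_⟩, ?_⟩
  · have h3 := hZ.2.2.1 (((u : G) * v * u)⁻¹ * (v * u * v)) a b c hab hcb.symm hca.symm ?_ ?_ ?_
    · exact (inv_mul_eq_one.1 h3).symm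
    · rw [mul_smul, inv_smul_eq_iff]
      simp only [mul_smul]
      rw [← hb, hu, hc', hUa u u.2, ← hb, hu]
    · rw [mul_smul, inv_smul_eq_iff]
      simp only [mul_smul]
      rw [hva2, hUa u u.2, ← hb, hu, hc', hu']
    · rw [mul_smul, inv_smul_eq_iff]
      simp only [mul_smul]
      rw [hc', hu', hva2, hUa u u.2]
  · rintro w ⟨hw, -, hw2⟩
    have h3 := congrArg (· • a) hw2
    simp only [mul_smul] at h3
    rw [hUa w hw, ← hb] at h3
    have h4 : (⟨w • b, h3⟩ : MulAction.fixedBy Ω v) = ⟨c, hc⟩ := Subsingleton.elim _ _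
    exact congrArg Subtype.val (huniq ⟨w, hw⟩ (congrArg Subtype.val h4))

end Cfsg.Agent.S1167
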