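import Mathlib
import Cfsg.Statements.S1168
import Cfsg.Agent.H12.LinPoly

set_option autoImplicit false
open Cfsg

namespace Cfsg.Agent.S1168

open H12.LP

/-- For a finite field `F` of characteristic 2: if `q : F → F` is quadratic over the prime field, i.e. `(x, y) ↦ q (x + y) + q x + q y` is additive in each variable, then `q x = Σ c_{σ,τ} σ(x) τ(x)` for some coefficients indexed by pairs of field automorphisms. -/
theorem result {F : Type*} [Field F] [Fintype F] [CharP F 2]
    (q : F → F)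
    (hq : ∀ x y z : F, q (x + y + z) + q (x + y) + q (x + z) + q (y + z) + q x + q y + q z = 0) :
    ∃ (s : Finset ((F ≃+* F) × (F ≃+* F))) (c : (F ≃+* F) × (F ≃+* F) → F),
      ∀ x : F, q x = ∑ p ∈ s, c p * (p.1 x * p.2 x) := by
  classical
  have q0 : q 0 = 0 := by have := hq 0 0 0; simp only [add_zero] at this; grind
  let B : F →+ F →+ F := AddMonoidHom.mk' (fun x => AddMonoidHom.mk' (fun y => q (x + y) + q x + q y) fun y z => by
      have := hq x y z
      rw [← add_assoc]
      grind) fun x y => by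
    ext z
    have := hq x y z
    simp only [AddMonoidHom.mk'_apply, AddMonoidHom.add_apply]
    grind
  have hB : ∀ x y, B x y = q (x + y) + q x + q y := fun _ _ => rfl
  obtain ⟨M, hM⟩ := exists_sum₂ B
  obtain ⟨h1, h2⟩ := quad_zero (M := M) fun x => by
    rw [← hM, hB, CharTwo.add_self_eq_zero, q0]; grind
  letI : LinearOrder (F ≃+* F) := LinearOrder.lift' (Fintype.equivFin _) (Fintype.equivFin _).injective
  let N : (F ≃+* F) → (F ≃+* F) → F := fun φ ψ => if φ < ψ then M φ ψ else 0
  have hN : ∀ φ ψ, M φ ψ = N φ ψ + N ψ φ := fun φ ψ => by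
    rcases lt_trichotomy φ ψ with h | rfl | h
    · simp [N, h, h.not_gt]
    · simp [N, h2]
    · simp [N, h, h.not_gt, h1 φ]
  let f : F →+ F := AddMonoidHom.mk' (fun x => q x + ∑ φ, ∑ ψ, N φ ψ * (φ x * ψ x)) fun x y => by
    have e1 := hM x y
    have e2 : ∑ φ, ∑ ψ, N ψ φ * (φ x * ψ y) = ∑ φ, ∑ ψ, N φ ψ * (φ y * ψ x) := by
      rw [Finset.sum_comm]
      simp only [mul_comm]
    simp only [hB, hN, add_mul, Finset.sum_add_distrib, e2] at e1
    simp only [map_add, mul_add, add_mul, Finset.sum_add_distrib]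
    grind
  obtain ⟨d, hd⟩ := exists_sum f
  let σ := (frobeniusEquiv F 2).symm
  refine ⟨Finset.univ, fun p => N p.1 p.2 + if p.1 = p.2 then d (p.1 * σ⁻¹) else 0, fun x => ?_⟩
  have e1 : q x + ∑ φ, ∑ ψ, N φ ψ * (φ x * ψ x) = _ :=
    (hd x).trans (Equiv.sum_comp (Equiv.mulRight σ⁻¹) _).symm
  have e2 : ∀ φ : F ≃+* F, (φ * σ⁻¹) x = φ x * φ x := fun φ => by
    change φ (x ^ 2) = _
    rw [map_pow, sq]
  simp only [Equiv.coe_mulRight, e2] at e1
  simp only [add_mul, Finset.sum_add_distrib, Fintype.sum_prod_type, ite_mul, zero_mul, Finset.sum_ite_eq,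
    Finset.mem_univ, if_true]
  rw [← e1]
  grind

end Cfsg.Agent.S1168
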