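import Mathlib
import Cfsg.Statements.S1176
import Cfsg.Agent.H08.Isolated

set_option autoImplicit false
open Cfsg

namespace Cfsg.Agent.S1176

/-- Let x₀ be an involution of the finite group G and D its conjugacy class. Assume (a) for each x ∈ D the subgroup W(x) generated by the members of D commuting with x is a 2-group of nilpotency class at most 2, and (b) the product of two distinct commuting members of D again lies in D. Then for all x, y ∈ D, if xy has even order greater than 2, its order is 4. -/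
theorem result {G : Type*} [Group G] [Finite G] (x₀ : G) (hx₀ : orderOf x₀ = 2) (ha : ∀ x : G, IsConj x₀ x → IsPGroup 2 ↥(Subgroup.closure {y : G | IsConj x₀ y ∧ Commute y x}) ∧ ⁅⁅Subgroup.closure {y : G | IsConj x₀ y ∧ Commute y x}, Subgroup.closure {y : G | IsConj x₀ y ∧ Commute y x}⁆, Subgroup.closure {y : G | IsConj x₀ y ∧ Commute y x}⁆ = ⊥) (hb : ∀ x y : G, IsConj x₀ x → IsConj x₀ y → x ≠ y → Commute x y → IsConj x₀ (x * y)) (x y : G) (hx : IsConj x₀ x) (hy : IsConj x₀ y) (heven : Even (orderOf (x * y))) (hgt : 2 < orderOf (x * y)) : orderOf (x * y) = 4 := by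
  have hx2 : orderOf x = 2 := by rw [← H08.orderOf_eq_of_isConj hx, hx₀]
  have hy2 : orderOf y = 2 := by rw [← H08.orderOf_eq_of_isConj hy, hx₀]
  have hx1 := H08.mul_self_of_orderOf hx2
  have hy1 := H08.mul_self_of_orderOf hy2
  have c1 := H08.commute_half_pow_left hx1 hy1 heven
  have c2 := H08.commute_half_pow_right hx1 hy1 heven
  have hz := H08.half_pow_invol heven
  have h1 : IsConj x₀ ((x * y) ^ (orderOf (x * y) / 2) * x) := by
    rcases H08.conj_mul_half_pow hx1 hy1 heven with ⟨-, k, hk, -⟩ | ⟨-, ⟨k, hk⟩, -⟩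
    · exact hk ▸ hx.trans (H08.isConj_conj _ _)
    · exact hk ▸ hy.trans (H08.isConj_conj _ _)
  set z := (x * y) ^ (orderOf (x * y) / 2)
  have h2 := hb _ _ h1 hx (fun h => H08.ne_one_of_orderOf hz (mul_eq_right.1 h))
    (c1.mul_left (Commute.refl x))
  rw [mul_assoc, hx1, mul_one] at h2
  have h3 := (ha z h2).2
  set W := Subgroup.closure {y : G | IsConj x₀ y ∧ Commute y z}
  have hxW : x ∈ W := Subgroup.subset_closure ⟨hx, c1.symm⟩
  have hyW : y ∈ W := Subgroup.subset_closure ⟨hy, c2.symm⟩
  have h4 := Subgroup.commutator_mem_commutator (Subgroup.commutator_mem_commutator hxW hyW) hxW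
  rw [h3, Subgroup.mem_bot, commutatorElement_eq_one_iff_commute, commutatorElement_def,
    H08.inv_eq_of_orderOf hx2, H08.inv_eq_of_orderOf hy2, mul_assoc (x * y)] at h4
  have h5 := H08.conj_zpow_of_inv (H08.conj_mul_left hx1 hy1) 2
  rw [zpow_neg, zpow_two, ← h4.eq, mul_inv_cancel_right] at h5
  have h6 : (x * y) ^ 4 = 1 := by
    rw [show 4 = 2 + 2 from rfl, pow_add, sq]; nth_rewrite 2 [h5]; exact mul_inv_cancel _
  have h7 := Nat.le_of_dvd (by norm_num) (orderOf_dvd_of_pow_eq_one h6)
  rw [Nat.even_iff] at heven; omega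

end Cfsg.Agent.S1176
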