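import Mathlib
import Cfsg.Statements.S1177
import Cfsg.Agent.H08.Isolated

set_option autoImplicit false
open Cfsg

namespace Cfsg.Agent.S1177

/-- Let A be a nontrivial elementary abelian 2-subgroup of a finite group G which is a T.I. set (each conjugate of A meets A trivially or equals A) and which does not commute elementwise with any conjugate of A other than A itself. Then for every a ∈ A, a ≠ 1, every conjugate of A contained in C_G(a) is equal to A (A is weakly closed in C_G(a)). -/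
theorem result {G : Type*} [Group G] [Finite G] (A : Subgroup G) (hA : Cfsg.IsElementaryAbelian 2 A) (hA1 : A ≠ ⊥) (hTI : ∀ g : G, A.map (MulAut.conj g).toMonoidHom ⊓ A = ⊥ ∨ A.map (MulAut.conj g).toMonoidHom = A) (hb : ∀ g : G, (∀ a ∈ A, ∀ b ∈ A.map (MulAut.conj g).toMonoidHom, a * b = b * a) → A.map (MulAut.conj g).toMonoidHom = A) (a : G) (ha : a ∈ A) (ha1 : a ≠ 1) (g : G) (hg : A.map (MulAut.conj g).toMonoidHom ≤ Subgroup.centralizer ({a} : Set G)) : A.map (MulAut.conj g).toMonoidHom = A := by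
  by_contra hne
  set B := A.map (MulAut.conj g).toMonoidHom with hB
  have hAB : B ⊓ A = ⊥ := (hTI g).resolve_right hne
  have hBN : ∀ b ∈ B, ∀ x ∈ A, b * x * b⁻¹ ∈ A := by
    intro b hb' x hx
    have : A.map (MulAut.conj b).toMonoidHom = A := (hTI b).resolve_left fun h => by
      have h1 : a ∈ A.map (MulAut.conj b).toMonoidHom ⊓ A :=
        ⟨H08.mem_centralizer_singleton'.1 (hg hb') ▸ H08.conj_mem_map_conj b ha, ha⟩
      rw [h] at h1; exact ha1 h1
    rw [← this]; exact H08.conj_mem_map_conj b hx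
  have hAN : ∀ x ∈ A, ∀ b ∈ B, b ≠ 1 → Commute x b → ∀ c ∈ B, x * c = c * x := by
    intro x hx b hb' hb1 hc c hcB
    have : A.map (MulAut.conj (g⁻¹ * x * g)).toMonoidHom = A := (hTI _).resolve_left fun h => by
      have hb2 := H08.mem_map_conj.1 hb'
      have h1 : g⁻¹ * b * g ∈ A.map (MulAut.conj (g⁻¹ * x * g)).toMonoidHom ⊓ A := by
        refine ⟨H08.mem_map_conj.2 ?_, hb2⟩
        convert hb2 using 1
        calc _ = g⁻¹ * (x⁻¹ * (b * x)) * g := by group
          _ = _ := by rw [← hc.eq]; group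
      rw [h, Subgroup.mem_bot] at h1
      apply hb1
      calc b = g * (g⁻¹ * b * g) * g⁻¹ := by group
        _ = 1 := by rw [h1]; group
    have h2 : x * c * x⁻¹ ∈ B := by
      rw [H08.mem_map_conj, ← this]
      convert H08.conj_mem_map_conj (g⁻¹ * x * g) (H08.mem_map_conj.1 hcB) using 1; group
    have h3 : x * c * x⁻¹ * c⁻¹ ∈ B ⊓ A := by
      refine Subgroup.mem_inf.2 ⟨mul_mem h2 (inv_mem hcB), ?_⟩
      have := mul_mem hx (hBN c hcB _ (inv_mem hx))
      simpa [mul_assoc] using this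
    rw [hAB, Subgroup.mem_bot, mul_inv_eq_one, mul_inv_eq_iff_eq_mul] at h3
    exact h3
  refine hne (hb g fun x hx => ?_)
  by_contra hx0
  let f : B → A := fun b => ⟨b * x * (b : G)⁻¹ * x⁻¹, mul_mem (hBN b b.2 x hx) (inv_mem hx)⟩
  have hf : Function.Injective f := by
    intro b c hbc
    have h1 : (b : G) * x * (b : G)⁻¹ = c * x * (c : G)⁻¹ := mul_right_cancel (Subtype.mk.inj hbc)
    by_contra hne2
    refine hx0 (hAN x hx ((c : G)⁻¹ * b) (mul_mem (inv_mem c.2) b.2)
      (fun h => hne2 (Subtype.ext (inv_mul_eq_one.1 h).symm)) ?_)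
    rw [Commute, SemiconjBy]
    calc x * ((c : G)⁻¹ * b) = (c : G)⁻¹ * (c * x * (c : G)⁻¹) * b := by group
      _ = _ := by rw [← h1]; group
  obtain ⟨b, hb2⟩ := (Nat.bijective_iff_injective_and_card f).2 ⟨hf, H08.card_map_conj A g⟩ |>.2 ⟨x, hx⟩
  have h4 : (b : G) * x * (b : G)⁻¹ * x⁻¹ = x := Subtype.mk.inj hb2
  rw [mul_inv_eq_iff_eq_mul, ← sq, hA.2 x hx] at h4
  have hx1 : x = 1 := by simpa using h4
  exact hx0 (by simp [hx1])

end Cfsg.Agent.S1177
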