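import Mathlib
import Cfsg.Statements.S1181
import Cfsg.Agent.H08.Isolated

set_option autoImplicit false
open Cfsg

namespace Cfsg.Agent.S1181

/-- Let z be an isolated involution of the finite group G and N a normal subgroup with z ∉ N. Then the centralizer of zN in G/N is the image of C_G(z), and zN is an isolated involution of G/N. -/
theorem result {G : Type*} [Group G] [Finite G] (z : G) (hz : Cfsg.IsIsolatedInvolution z) (N : Subgroup G) [N.Normal] (hzN : z ∉ N) : Subgroup.centralizer ({(QuotientGroup.mk z : G ⧸ N)} : Set (G ⧸ N)) = (Subgroup.centralizer ({z} : Set G)).map (QuotientGroup.mk' N) ∧ Cfsg.IsIsolatedInvolution (QuotientGroup.mk z : G ⧸ N) := by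
  refine ⟨le_antisymm (fun x hx => ?_) ?_, H08.Iso.quotient hz N hzN⟩
  · obtain ⟨g, rfl⟩ := QuotientGroup.mk_surjective x
    have h1 := H08.mem_centralizer_singleton'.1 hx
    have h2 : g * z * g⁻¹ * z ∈ N := by
      rw [← QuotientGroup.eq_one_iff, QuotientGroup.mk_mul, QuotientGroup.mk_mul, QuotientGroup.mk_mul,
        QuotientGroup.mk_inv, h1, ← QuotientGroup.mk_mul, H08.Iso.mul_self hz, QuotientGroup.mk_one]
    obtain ⟨n, hn, e⟩ := H08.Iso.exists_conj_mem hz (H08.isConj_conj g z) (IsConj.refl z) h2
    refine ⟨n * g, H08.mem_centralizer_singleton'.2 (by rw [← e]; nth_rewrite 1 [e]; group), ?_⟩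
    rw [map_mul, show (QuotientGroup.mk' N) n = 1 from (QuotientGroup.eq_one_iff n).2 hn, one_mul]; rfl
  · rintro _ ⟨c, hc, rfl⟩
    exact H08.mem_centralizer_singleton_commute.2
      ((H08.mem_centralizer_singleton_commute.1 hc).map (QuotientGroup.mk' N))

end Cfsg.Agent.S1181
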