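import Mathlib
import Cfsg.Statements.S1242
import Cfsg.Agent.H03.Focal

set_option autoImplicit false
open Cfsg

namespace Cfsg.Agent.S1242

/-- Let G be a finite group, p a prime and H a subgroup of index prime to p such that any two elements of H of p-power order that are conjugate in G are conjugate in H. Then (O^p(G)·G') ∩ H = O^p(H)·H', where O^p denotes the subgroup generated by the elements of order prime to p. -/
theorem result {G : Type*} [Group G] [Finite G] {p : ℕ} [Fact p.Prime] (H : Subgroup G) (hidx : Nat.Coprime p H.index) (hfus : ∀ g ∈ H, (∃ k : ℕ, orderOf g = p ^ k) → ∀ a : G, a * g * a⁻¹ ∈ H → ∃ h ∈ H, h * g * h⁻¹ = a * g * a⁻¹) : (Cfsg.pResidual p G ⊔ commutator G) ⊓ H = (Cfsg.pResidual p ↥H ⊔ commutator ↥H).map H.subtype := by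
  refine le_antisymm ?_ (le_inf ?_ (Subgroup.map_subtype_le _))
  swap
  · rw [Subgroup.map_sup]
    refine sup_le_sup (H03.pResidual_map_le _) ?_
    rw [Subgroup.map_subtype_commutator]
    exact H03.commutator_le_commutator' _ _
  set K := pResidual p H ⊔ commutator H
  have hc : IsMulCommutative (H ⧸ K) :=
    Subgroup.Normal.quotient_commutative_iff_commutator_le.2 le_sup_right
  have hp : IsPGroup p (H ⧸ K) := (H03.pResidual_le_iff K).1 le_sup_left
  rintro x ⟨hx, hxH⟩
  refine ⟨⟨x, hxH⟩, ?_, rfl⟩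
  obtain ⟨u, s, hu, hs, ⟨n, hn⟩, hs2, rfl⟩ := H03.exists_pPart_mul (p := p) x
  have huH : u ∈ H := Subgroup.zpowers_le.2 hxH hu
  have hsH : s ∈ H := Subgroup.zpowers_le.2 hxH hs
  have hsK : (⟨s, hsH⟩ : H) ∈ K :=
    Subgroup.mem_sup_left (H03.mem_pResidual_of_coprime (by rwa [Subgroup.orderOf_mk]))
  refine mul_mem (a := (⟨u, huH⟩ : H)) (b := ⟨s, hsH⟩) ?_ hsK
  open scoped IsMulCommutative in
  have h1 := H03.transfer_eq_pow_of_forall (QuotientGroup.mk' K) u
    (QuotientGroup.mk' K ⟨u, huH⟩) (fun k a hk => by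
      obtain ⟨h, hh, e⟩ := hfus (u ^ k) (pow_mem huH k) (by
        obtain ⟨i, -, hi⟩ := (Nat.dvd_prime_pow Fact.out).1 (hn ▸ orderOf_pow_dvd (x := u) k)
        exact ⟨i, hi⟩) a⁻¹ (by simpa using hk)
      have : (⟨a⁻¹ * u ^ k * a, hk⟩ : H) = ⟨h, hh⟩ * ⟨u, huH⟩ ^ k * (⟨h, hh⟩ : H)⁻¹ :=
        Subtype.ext (by simpa using e.symm)
      rw [this, map_mul, map_mul, map_inv, map_pow, mul_inv_cancel_comm])
  open scoped IsMulCommutative in
  have h2 : pResidual p G ⊔ commutator G ≤ (MonoidHom.transfer (QuotientGroup.mk' K)).ker :=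
    sup_le (H03.pResidual_le_ker_of_isPGroup _ hp) (Abelianization.commutator_subset_ker _)
  have h3 := h2 (mul_mem hx (inv_mem (Subgroup.mem_sup_left (H03.mem_pResidual_of_coprime hs2))))
  rw [mul_inv_cancel_right, MonoidHom.mem_ker, h1, ← map_pow] at h3
  exact H03.mem_of_pow_mem_of_coprime ((QuotientGroup.eq_one_iff _).1 h3)
    (by rw [Subgroup.orderOf_mk, hn]; exact hidx.pow_left n)

end Cfsg.Agent.S1242
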