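import Mathlib
import Cfsg.Statements.S1183
import Cfsg.Agent.H08.Isolated
import Cfsg.Agent.S1242

set_option autoImplicit false
open Cfsg

namespace Cfsg.Agent.S1183

/-- Let z be an isolated involution of the finite group G and C = C_G(z). Then the subgroup of G generated by its elements of odd order is all of G if and only if the subgroup of C generated by its elements of odd order is all of C. -/
theorem result {G : Type*} [Group G] [Finite G] (z : G) (hz : Cfsg.IsIsolatedInvolution z) : Cfsg.pResidual 2 G = ⊤ ↔ Cfsg.pResidual 2 ↥(Subgroup.centralizer ({z} : Set G)) = ⊤ := by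
  have hodd := H08.Iso.odd_index_centralizer hz
  have hnd : ¬ 2 ∣ (Subgroup.centralizer ({z} : Set G)).index := by
    rw [← even_iff_two_dvd, Nat.not_even_iff_odd]; exact hodd
  constructor
  · intro h
    have h1 := S1242.result (p := 2) (Subgroup.centralizer ({z} : Set G))
      ((Nat.Prime.coprime_iff_not_dvd Nat.prime_two).2 hnd) (fun g hg _ a ha => by
        obtain ⟨c, -, hc, e⟩ := H08.Iso.control_fusion hz (H := ⊤) (Subgroup.le_normalizer (Subgroup.mem_top z))
          (H08.mem_centralizer_singleton_commute.1 hg) (H08.mem_centralizer_singleton_commute.1 ha)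
          (Subgroup.mem_top a)
        exact ⟨c, H08.mem_centralizer_singleton_commute.2 hc, e⟩)
    rw [h, top_sup_eq, top_inf_eq] at h1
    set C := Subgroup.centralizer ({z} : Set G)
    have h2 : pResidual 2 C ⊔ commutator C = ⊤ := by
      apply Subgroup.map_injective C.subtype_injective
      rw [← h1, ← MonoidHom.range_eq_map, Subgroup.range_subtype]
    rw [H03.pResidual_eq_top_iff]
    intro hd
    have h3 : pResidual 2 (Abelianization C) = ⊤ := by
      have h4 := congrArg (Subgroup.map (Abelianization.of (G := C))) h2
      have hs : Function.Surjective (Abelianization.of (G := C)) := QuotientGroup.mk'_surjective _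
      rw [Subgroup.map_sup, Subgroup.map_top_of_surjective _ hs,
        H03.pResidual_map_of_surjective _ hs,
        (Subgroup.map_eq_bot_iff _).2 (Abelianization.ker_of C).ge, sup_bot_eq] at h4
      exact h4
    rw [H03.pResidual_eq_top_iff, commutator_eq_bot, Subgroup.index_bot] at h3
    exact h3 hd
  · intro h
    have h1 := H03.pResidual_sup_of_not_dvd_index (p := 2) _ hnd
    have h2 := H03.pResidual_map_le (p := 2) (Subgroup.centralizer ({z} : Set G)).subtype
    rw [h, ← MonoidHom.range_eq_map, Subgroup.range_subtype] at h2
    rwa [sup_eq_left.2 h2] at h1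

end Cfsg.Agent.S1183
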