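import Mathlib
import Cfsg.Statements.S1185
import Cfsg.Agent.H08.Isolated

set_option autoImplicit false
open Cfsg

namespace Cfsg.Agent.S1185

/-- Let z be an isolated involution of the finite group G with centralizer C. Then for every g ∈ G there is exactly one element k in the coset gC that has odd order and is inverted by z. -/
theorem result {G : Type*} [Group G] [Finite G] (z : G) (hz : Cfsg.IsIsolatedInvolution z) (g : G) : ∃! k : G, (Odd (orderOf k) ∧ z * k * z⁻¹ = k⁻¹) ∧ g⁻¹ * k ∈ Subgroup.centralizer ({z} : Set G) := by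
  obtain ⟨k, -, h1, h2, h3⟩ := H08.Iso.exists_inverted hz (H08.isConj_conj g z)
  refine ⟨k, ⟨⟨h1, h2⟩, H08.mem_centralizer_singleton'.2 ?_⟩, ?_⟩
  · calc _ = g⁻¹ * (k * z * k⁻¹) * g := by group
      _ = z := by rw [h3]; group
  · rintro l ⟨⟨l1, l2⟩, l3⟩
    have h4 : l * z * l⁻¹ = k * z * k⁻¹ := by
      rw [h3]
      nth_rewrite 2 [← H08.mem_centralizer_singleton'.1 l3]; group
    rw [H08.Iso.conj_eq_of_inverted l2, H08.Iso.conj_eq_of_inverted h2] at h4
    exact H08.eq_of_sq_eq_of_odd l1 h1 (mul_right_cancel h4)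

end Cfsg.Agent.S1185
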