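import Mathlib
import Cfsg.Statements.S1186
import Cfsg.Agent.H08.Isolated
import Cfsg.Agent.S0213

set_option autoImplicit false
open Cfsg

namespace Cfsg.Agent.S1186

/-- Let z be an isolated involution of the finite group G, C = C_G(z), K the set of elements of odd order inverted by z, and s an involution of C. Then |G| = |C| · |C_K(sz)| · |C_K(s)|. -/
theorem result {G : Type*} [Group G] [Finite G] (z : G) (hz : Cfsg.IsIsolatedInvolution z) (s : G) (hs : orderOf s = 2) (hsz : Commute s z) : Nat.card G = Nat.card (Subgroup.centralizer ({z} : Set G)) * Nat.card {k : G // Odd (orderOf k) ∧ z * k * z⁻¹ = k⁻¹ ∧ Commute k (s * z)} * Nat.card {k : G // Odd (orderOf k) ∧ z * k * z⁻¹ = k⁻¹ ∧ Commute k s} := by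
  classical
  have := Fintype.ofFinite G
  rw [H08.Iso.card_inverted hz hsz, H08.Iso.card_inverted hz (hsz.mul_left (Commute.refl z)),
    ← H08.card_isConj_mul_card_centralizer z, mul_comm, mul_assoc]
  congr 1
  by_cases hsz' : s = z
  · subst hsz'
    rw [H08.Iso.mul_self hz]
    have h1 : Nat.card {t : G // IsConj s t ∧ Commute t s} = 1 :=
      Nat.card_eq_one_iff_exists.2 ⟨⟨s, IsConj.refl s, Commute.refl s⟩,
        fun t => Subtype.ext (H08.Iso.eq_of_commute hz t.2.1 t.2.2.symm)⟩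
    rw [h1, mul_one]
    exact Nat.card_congr (Equiv.subtypeEquivRight fun t => by simp)
  have hnc : ∀ t, IsConj z t → ¬ IsConj s t := fun t ht h =>
    hsz' (H08.Iso.eq_of_commute hz (ht.trans h.symm) hsz.symm)
  have hs1 := H08.mul_self_of_orderOf hs
  have hex : ∀ t : {t : G // IsConj z t}, ∃ a : {a : G // IsConj z a ∧ Commute a s},
      Commute t.1 (s * a.1) := by
    rintro ⟨t, ht⟩
    have ht1 := H08.Iso.mul_self_of_isConj hz ht
    have hev := H08.even_orderOf_mul_of_not_isConj hs1 ht1 (hnc t ht)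
    have c1 := H08.commute_half_pow_left hs1 ht1 hev
    have c2 := H08.commute_half_pow_right hs1 ht1 hev
    rcases H08.conj_mul_half_pow hs1 ht1 hev with ⟨-, k, -, hk⟩ | ⟨-, ⟨k, hk⟩, -⟩
    · have h1 := (H08.Iso.conj hz ht).2 ((s * t) ^ k) (by
        rw [hk]; exact c2.symm.mul_right (Commute.refl t))
      rw [hk, mul_eq_right] at h1
      exact absurd h1 (H08.ne_one_of_orderOf (H08.half_pow_invol hev))
    · refine ⟨⟨_, hk ▸ ht.trans (H08.isConj_conj _ _), c1.mul_left (Commute.refl s)⟩, ?_⟩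
      simp only
      rw [c1.eq, ← mul_assoc, hs1, one_mul]
      exact c2.symm
  have huniq : ∀ t a : G, IsConj z t → IsConj z a → Commute a s → Commute t (s * a) →
      s * a ∈ Subgroup.zpowers (s * t) ∧ orderOf (s * a) = 2 := by
    intro t a ht ha c1 c2
    have ha1 := H08.Iso.mul_self_of_isConj hz ha
    have h2 : orderOf (s * a) = 2 := H08.orderOf_eq_two_iff'.2
      ⟨by rw [c1.mul_mul_mul_comm, hs1, ha1, one_mul], fun h => hnc a ha (by
        rw [eq_inv_of_mul_eq_one_left h, inv_eq_of_mul_eq_one_right ha1])⟩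
    refine ⟨?_, h2⟩
    obtain ⟨m, hm⟩ := H08.Iso.odd_orderOf_mul hz ha ht
    have c3 : Commute (s * a) (a * t) := ((c1.symm.mul_left (Commute.refl a))).mul_right c2.symm
    have e : s * t = (s * a) * (a * t) := by rw [mul_assoc, ← mul_assoc a, ha1, one_mul]
    refine ⟨(2 * m + 1 : ℕ), ?_⟩
    simp only [zpow_natCast]
    rw [e, c3.mul_pow, ← hm, pow_orderOf_eq_one, mul_one, hm, pow_succ, pow_mul, ← h2,
      pow_orderOf_eq_one, one_pow, one_mul]
  choose f hf using hex
  have e : {t : G // IsConj z t} ≃ Σ a : {a : G // IsConj z a ∧ Commute a s},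
      {t : G // IsConj z t ∧ Commute t (s * a.1)} := by
    refine ⟨fun t => ⟨f t, t.1, t.2, hf t⟩, fun x => ⟨x.2.1, x.2.2.1⟩, fun t => rfl, ?_⟩
    rintro ⟨⟨a, ha, c1⟩, t, ht, c2⟩
    have h1 := huniq t a ht ha c1 c2
    have h2 := huniq t _ ht (f ⟨t, ht⟩).2.1 (f ⟨t, ht⟩).2.2 (hf ⟨t, ht⟩)
    have : f ⟨t, ht⟩ = ⟨a, ha, c1⟩ :=
      Subtype.ext (mul_left_cancel (S0213.eq_of_invols_zpowers h2.1 h1.1 h2.2 h1.2))
    simp only
    congr 1
    exact (Subtype.heq_iff_coe_eq (by rw [this]; simp)).2 rfl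
  rw [Nat.card_congr e, Nat.card_sigma, mul_comm, Nat.card_eq_fintype_card
    (α := {a : G // IsConj z a ∧ Commute a s}), ← smul_eq_mul, ← Finset.card_univ, ← Finset.sum_const]
  refine Finset.sum_congr rfl fun a _ => ?_
  obtain ⟨c, hc, e⟩ := H08.Iso.exists_conj_mem hz (IsConj.refl z) a.2.1
    (H := Subgroup.centralizer ({s} : Set G)) (H08.mem_centralizer_singleton_commute.2
      (hsz.symm.mul_left a.2.2))
  have e2 : s * a.1 = c * (s * z) * c⁻¹ := by
    rw [← e]; nth_rewrite 1 [← H08.mem_centralizer_singleton'.1 hc]; group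
  rw [e2]
  refine Nat.card_congr ⟨fun t => ⟨c⁻¹ * t.1 * c⁻¹⁻¹, t.2.1.trans (H08.isConj_conj _ _), ?_⟩,
    fun t => ⟨c * t.1 * c⁻¹, t.2.1.trans (H08.isConj_conj _ _), ?_⟩, ?_, ?_⟩
  · have := t.2.2.map (MulAut.conj c⁻¹)
    simp only [MulAut.conj_apply] at this
    convert this using 1; group
  · simpa using t.2.2.map (MulAut.conj c)
  · intro t; ext; simp [mul_assoc]
  · intro t; ext; simp [mul_assoc]

end Cfsg.Agent.S1186
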