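import Mathlib
import Cfsg.Statements.S1187
import Cfsg.Agent.H08.IsoElt

set_option autoImplicit false
open Cfsg

namespace Cfsg.Agent.S1187

/-- Let z be an isolated involution of the finite group G and p a prime. If Q is a p-subgroup normalized by z that is maximal among p-subgroups normalized by z, then Q is a Sylow p-subgroup of G. -/
theorem result {G : Type*} [Group G] [Finite G] (z : G) (hz : Cfsg.IsIsolatedInvolution z) {p : ℕ} [Fact p.Prime] (Q : Subgroup G) (hQ : IsPGroup p Q) (hzQ : z ∈ Subgroup.normalizer (Q : Set G)) (hmax : ∀ R : Subgroup G, IsPGroup p R → z ∈ Subgroup.normalizer (R : Set G) → Q ≤ R → R = Q) : ∃ P : Sylow p G, (P : Subgroup G) = Q := by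
  have hp := H08.isPGroup_zpowers_of_orderOf hz.1
  exact H08.InZ.sylow_of_maximal hp hQ hzQ
    (H08.zstar_elt (H08.IsoP.subgroup hz.2 hzQ) (H08.isPGroup_zpowers_mk hzQ hp)) hmax

end Cfsg.Agent.S1187
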