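import Mathlib
import Cfsg.Statements.S1224
import Cfsg.Agent.H08.StronglyEmbedded

set_option autoImplicit false
open Cfsg

namespace Cfsg.Agent.S1224

/-- Let H be a strongly embedded subgroup of the finite group G and x ≠ y two cosets in G/H. Then the number of involutions i of G with i • x = y equals the number of involutions lying in H. -/
theorem result {G : Type*} [Group G] [Finite G] (H : Subgroup G) (hH : Cfsg.IsStronglyEmbedded H) (x y : G ⧸ H) (hxy : x ≠ y) : Nat.card {i : G // orderOf i = 2 ∧ i • x = y} = Nat.card {t : G // orderOf t = 2 ∧ t ∈ H} := by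
  obtain ⟨a, rfl⟩ := QuotientGroup.mk_surjective x
  obtain ⟨b, rfl⟩ := QuotientGroup.mk_surjective y
  have hab : a⁻¹ * b ∉ H := fun h => hxy (QuotientGroup.eq.2 h)
  have key : ∀ i : G, i • (a : G ⧸ H) = b ↔ b⁻¹ * i * a ∈ H := by
    intro i
    rw [eq_comm, MulAction.Quotient.smul_mk, QuotientGroup.eq, smul_eq_mul, mul_assoc]
  obtain ⟨t, ht, ht2⟩ := H08.SE.exists_invol hH
  have hK := H08.SE.conj hH a
  have ht0 : a * t * a⁻¹ ∈ H.map (MulAut.conj a).toMonoidHom := H08.conj_mem_map_conj a ht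
  have ht02 : orderOf (a * t * a⁻¹) = 2 := by rw [H08.orderOf_conj', ht2]
  have hnot : ∀ s ∈ H, orderOf s = 2 → b * s * b⁻¹ ∉ H.map (MulAut.conj a).toMonoidHom := by
    intro s hs hs2 h
    refine hab (H08.SE.mem_of_conj_mem hH hs hs2 ?_)
    convert H08.mem_map_conj.1 h using 1; group
  refine Nat.card_eq_of_bijective (fun i => ⟨(b⁻¹ * i.1 * a) * t * (b⁻¹ * i.1 * a)⁻¹,
    by rw [H08.orderOf_conj', ht2], mul_mem (mul_mem ((key _).1 i.2.2) ht) (inv_mem ((key _).1 i.2.2))⟩) ⟨?_, ?_⟩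
  · rintro ⟨i, hi, hi'⟩ ⟨j, hj, hj'⟩ hij
    have hij := Subtype.mk.inj hij
    simp only at hij
    have hi3 := (key _).1 hi'
    refine Subtype.ext (H08.SE.swap_unique hK ht0 ht02
      (hnot _ (mul_mem (mul_mem hi3 ht) (inv_mem hi3)) (by rw [H08.orderOf_conj', ht2]))
      (H08.mul_self_of_orderOf hi) (H08.mul_self_of_orderOf hj) (by simp only; group) ?_)
    rw [hij]; simp only; group
  · rintro ⟨s, hs2, hs⟩
    obtain ⟨w, -, hw2, hw⟩ := H08.SE.exists_swap hK ht0 ht02 (hnot s hs hs2)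
      (by rw [H08.orderOf_conj', hs2])
    have e : (b⁻¹ * w * a) * t * (b⁻¹ * w * a)⁻¹ = s := by
      calc _ = b⁻¹ * (w * (a * t * a⁻¹) * w⁻¹) * b := by group
        _ = s := by rw [hw]; group
    exact ⟨⟨w, hw2, (key w).2 (H08.SE.mem_of_conj_mem hH ht ht2 (e ▸ hs))⟩, Subtype.ext e⟩

end Cfsg.Agent.S1224
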