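import Mathlib
import Cfsg.Statements.S1228
import Cfsg.Agent.H08.ElemCIT

set_option autoImplicit false
open Cfsg

namespace Cfsg.Agent.S1228

/-- Let G be a finite group with a Sylow 2-subgroup T that is neither cyclic nor normal, such that the centralizer of every involution is an elementary abelian 2-group; put H = N_G(T), let u be an involution outside H and D = H ∩ uHu⁻¹. Then N_G(D) = D ⊔ ⟨u⟩, and a coset gH is fixed by every element of D exactly when gH = H or gH = uH. -/
theorem result {G : Type*} [Group G] [Finite G] (T : Sylow 2 G) (hnc : ¬ IsCyclic (T : Subgroup G)) (hnn : ¬ (T : Subgroup G).Normal) (hC : ∀ t : G, orderOf t = 2 → IsMulCommutative (Subgroup.centralizer ({t} : Set G)) ∧ ∀ c ∈ Subgroup.centralizer ({t} : Set G), c ^ 2 = 1) (u : G) (hu : orderOf u = 2) (huH : u ∉ Subgroup.normalizer ((T : Subgroup G) : Set G)) : Subgroup.normalizer ((Subgroup.normalizer ((T : Subgroup G) : Set G) ⊓ (Subgroup.normalizer ((T : Subgroup G) : Set G)).map (MulAut.conj u).toMonoidHom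 : Subgroup G) : Set G) = (Subgroup.normalizer ((T : Subgroup G) : Set G) ⊓ (Subgroup.normalizer ((T : Subgroup G) : Set G)).map (MulAut.conj u).toMonoidHom) ⊔ Subgroup.zpowers u ∧ ∀ g : G, ((∀ d ∈ Subgroup.normalizer ((T : Subgroup G) : Set G) ⊓ (Subgroup.normalizer ((T : Subgroup G) : Set G)).map (MulAut.conj u).toMonoidHom, d • (QuotientGroup.mk g : G ⧸ Subgroup.normalizer ((T : Subgroup G) : Set G)) = QuotientGroup.mk g) ↔ (QuotientGroup.mk g : G ⧸ Subgroup.normalizer ((T : Subgroup G) : Set G)) = QuotientGroup.mk 1 ∨ (QuotientGroup.mk g : G ⧸ Subgroup.normalizer ((T : Subgroup G) : Set G)) = QuotientGroup.mk u) := by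
  have h : H08.ECIT T := ⟨hnc, hnn, hC⟩
  obtain ⟨d, hd, hd1⟩ := h.exists_ne_one_inf hu huH
  have hu1 : ((1 : G) : G ⧸ Subgroup.normalizer ((T : Subgroup G) : Set G)) ≠ u := fun e =>
    huH (by simpa using QuotientGroup.eq.1 e)
  have key : ∀ x : G ⧸ Subgroup.normalizer ((T : Subgroup G) : Set G), (∀ d ∈ Subgroup.normalizer ((T : Subgroup G) : Set G) ⊓ (Subgroup.normalizer ((T : Subgroup G) : Set G)).map (MulAut.conj u).toMonoidHom, d • x = x) ↔ (x = (1 : G) ∨ x = u) := by
    intro x
    constructor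
    · intro hx
      by_contra hc
      push Not at hc
      exact hd1 (h.eq_one_of_fix_three hu1 hc.1.symm hc.2.symm (H08.ECIT.mem_inf_iff.1 hd).1
        (H08.ECIT.mem_inf_iff.1 hd).2 (hx d hd))
    · rintro (rfl | rfl) e he
      · exact (H08.ECIT.mem_inf_iff.1 he).1
      · exact (H08.ECIT.mem_inf_iff.1 he).2
  refine ⟨le_antisymm (fun n hn => ?_) (sup_le Subgroup.le_normalizer (Subgroup.zpowers_le.2 ?_)), fun g => key _⟩
  · have h1 : ∀ x : G ⧸ Subgroup.normalizer ((T : Subgroup G) : Set G), (x = (1 : G) ∨ x = u) →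
        (n • x = (1 : G) ∨ n • x = u) := by
      intro x hx
      rw [← key] at hx ⊢
      intro e he
      have := hx (n⁻¹ * e * n⁻¹⁻¹) ((Subgroup.mem_normalizer_iff.1 (inv_mem hn) e).1 he)
      rwa [inv_inv, mul_smul, mul_smul, inv_smul_eq_iff] at this
    have hu2 : u • ((1 : G) : G ⧸ Subgroup.normalizer ((T : Subgroup G) : Set G)) = u := by
      rw [MulAction.Quotient.smul_mk, smul_eq_mul, mul_one]
    have hu3 : u • (u : G ⧸ Subgroup.normalizer ((T : Subgroup G) : Set G)) = (1 : G) := by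
      rw [MulAction.Quotient.smul_mk, smul_eq_mul, H08.mul_self_of_orderOf hu]
    have hne : n • ((1 : G) : G ⧸ Subgroup.normalizer ((T : Subgroup G) : Set G)) ≠
      n • (u : G ⧸ Subgroup.normalizer ((T : Subgroup G) : Set G)) := fun e => hu1 (MulAction.injective n e)
    rcases h1 _ (Or.inl rfl) with a | a <;> rcases h1 _ (Or.inr rfl) with b | b
    · exact absurd (a.trans b.symm) hne
    · exact Subgroup.mem_sup_left (H08.ECIT.mem_inf_iff.2 ⟨a, b⟩)
    · have : u * n ∈ _ := H08.ECIT.mem_inf_iff.2 ⟨by rw [mul_smul, a, hu3], by rw [mul_smul, b, hu2]⟩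
      have h2 : n = u⁻¹ * (u * n) := by group
      rw [h2]
      exact mul_mem (Subgroup.mem_sup_right (inv_mem (Subgroup.mem_zpowers u))) (Subgroup.mem_sup_left this)
    · exact absurd (a.trans b.symm) hne
  · refine Subgroup.mem_normalizer_fintype fun e he => ?_
    rw [h.inverts hu huH he]
    exact inv_mem he

end Cfsg.Agent.S1228
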