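import Mathlib
import Cfsg.Statements.S1231
import Cfsg.Agent.H08.StronglyEmbedded

set_option autoImplicit false
open Cfsg

namespace Cfsg.Agent.S1231

/-- Let H be a subgroup of the finite group G, p a prime, k ≥ 1, and P a Sylow p-subgroup of H whose p-rank is at least k. Then N_G(X) ≤ H for every subgroup X of P of p-rank at least k if and only if H ∩ gHg⁻¹ has p-rank less than k for every g ∉ H. -/
theorem result {G : Type*} [Group G] [Finite G] {p : ℕ} [Fact p.Prime] (k : ℕ) (hk : 1 ≤ k) (H : Subgroup G) (P : Sylow p ↥H) (hP : ¬ Cfsg.PRankLE p (k - 1) ↥(P : Subgroup ↥H)) : (∀ X : Subgroup G, X ≤ (P : Subgroup ↥H).map H.subtype → ¬ Cfsg.PRankLE p (k - 1) ↥X → Subgroup.normalizer (X : Set G) ≤ H) ↔ (∀ g : G, g ∉ H → Cfsg.PRankLE p (k - 1) ↥(H ⊓ H.map (MulAut.conj g).toMonoidHom)) := by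
  have hup : ∀ X Y : Subgroup G, ¬ PRankLE p (k - 1) X → X ≤ Y → ¬ PRankLE p (k - 1) Y := by
    intro X Y hX hXY
    obtain ⟨A, h0, h⟩ := H08.not_pRankLE_iff.1 hX
    exact H08.not_pRankLE_iff.2 ⟨A, h0.trans hXY, h⟩
  have hconj : ∀ (X : Subgroup G) (g : G), ¬ PRankLE p (k - 1) X →
      ¬ PRankLE p (k - 1) (X.map (MulAut.conj g).toMonoidHom) := by
    intro X g hX
    obtain ⟨A, h0, h1, h2, h3⟩ := H08.not_pRankLE_iff.1 hX
    refine H08.not_pRankLE_iff.2 ⟨A.map (MulAut.conj g).toMonoidHom, Subgroup.map_mono h0,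
      inferInstance, ?_, by rwa [H08.card_map_conj]⟩
    rintro _ ⟨a, ha, rfl⟩
    rw [← map_pow, h2 a ha, map_one]
  constructor
  · intro h g hg
    by_contra hcon
    obtain ⟨A, h0, h1, h2, h3⟩ := H08.not_pRankLE_iff.1 hcon
    refine hg (inv_mem_iff.1 (H08.mem_of_normalizer_le (p := p) (fun X => ¬ PRankLE p (k - 1) X) hup hconj
      (fun X hXH hX hX1 => ?_) (H04.isPGroup_subgroup_of_pow_eq_one h2)
      (H08.not_pRankLE_iff.2 ⟨A, le_rfl, h1, h2, h3⟩) (h0.trans inf_le_left)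
      (fun x hx => by simpa using H08.mem_map_conj.1 (h0 hx).2)))
    obtain ⟨a, ha, hc⟩ := H08.exists_conj_le_sylow_of_le P hX hXH
    have := h (X.map (MulAut.conj a).toMonoidHom) (by rintro _ ⟨x, hx, rfl⟩; exact hc x hx)
      (hconj X a hX1)
    intro n hn
    have h3 : a * n * a⁻¹ ∈ H := this (by
      rw [← H08.map_conj_eq_iff, H08.map_conj_map_conj, inv_mul_cancel_right,
        ← H08.map_conj_map_conj, H08.map_conj_eq_iff.2 hn])
    simpa [mul_assoc] using mul_mem (mul_mem (inv_mem ha) h3) ha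
  · intro h X hX hX1 n hn
    by_contra hnH
    have hXH := hX.trans (Subgroup.map_subtype_le _)
    refine hup X _ hX1 (le_inf hXH ?_) (h n hnH)
    rw [← H08.map_conj_eq_iff.2 hn]
    exact Subgroup.map_mono hXH

end Cfsg.Agent.S1231
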