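import Mathlib
import Cfsg.Statements.S1233
import Cfsg.Agent.H04.HEe

set_option autoImplicit false
open Cfsg

namespace Cfsg.Agent.S1233

/-- Let S be a finite 2-group and Q a subgroup of order 32 generated by two elementwise-commuting subgroups Q₁, Q₂ each isomorphic to the quaternion group of order 8 (so Q = Q₁ ∗ Q₂). If C_S(Q) ≤ Q, then every section of S has 2-rank at most 4. -/
theorem result {S : Type*} [Group S] [Finite S] (hS : IsPGroup 2 S) (Q Q₁ Q₂ : Subgroup S) (e₁ : Q₁ ≃* QuaternionGroup 2) (e₂ : Q₂ ≃* QuaternionGroup 2) (hcomm : ∀ a ∈ Q₁, ∀ b ∈ Q₂, a * b = b * a) (hQ : Q₁ ⊔ Q₂ = Q) (hQ32 : Nat.card Q = 32) (hC : Subgroup.centralizer (Q : Set S) ≤ Q) : Cfsg.SectionalPRankLE 2 4 S := by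
  classical
  open QuaternionGroup in
  have key : ∀ (P : Subgroup S) (e : P ≃* QuaternionGroup 2), ∃ i ∈ P, ∃ j ∈ P, i * i = j * j ∧ i * i * (i * i) = 1 ∧ i * i ≠ 1 ∧
      i * j * i⁻¹ = i * i * j ∧ (∀ a ∈ P, ∀ b ∈ P, H04.HE.Rz (i * i) (a * b * a⁻¹) b) ∧
      (∀ T : Subgroup S, i ∈ T → j ∈ T → P ≤ T) ∧ (∀ c ∈ P, c ≠ 1 → (∀ a ∈ P, a * c = c * a) → c = i * i) ∧ Nat.card P = 8 := by
    intro P e
    let f : QuaternionGroup 2 →* S := P.subtype.comp e.symm.toMonoidHom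
    have hf : Function.Injective f := P.subtype_injective.comp e.symm.injective
    have fm : ∀ x, f x ∈ P := fun x => (e.symm x).2
    have fs : ∀ c ∈ P, ∃ x, f x = c := fun c hc => ⟨e ⟨c, hc⟩, by simp [f]⟩
    refine ⟨f (a 1), fm _, f (xa 0), fm _, ?_, ?_, ?_, ?_, fun u hu v hv => ?_, fun T h1 h2 c hc => ?_, fun c hc c1 hcc => ?_, ?_⟩
    · rw [← map_mul, ← map_mul]; exact congrArg f (by decide)
    · rw [← map_mul, ← map_mul, ← map_one f]; exact congrArg f (by decide)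
    · rw [← map_mul, ← map_one f]; exact fun k => absurd (hf k) (by decide)
    · rw [← map_inv, ← map_mul, ← map_mul, ← map_mul, ← map_mul]; exact congrArg f (by decide)
    · obtain ⟨x, rfl⟩ := fs u hu
      obtain ⟨y, rfl⟩ := fs v hv
      have : ∀ x y : QuaternionGroup 2, x * y * x⁻¹ = y ∨ x * y * x⁻¹ = a 1 * a 1 * y := by decide
      exact (this x y).imp (fun k => by rw [← map_inv, ← map_mul, ← map_mul, k]) fun k => by
        rw [← map_inv, ← map_mul, ← map_mul, k, map_mul, map_mul]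
    · obtain ⟨x, rfl⟩ := fs c hc
      have : ∀ x : QuaternionGroup 2, ∃ m : Fin 4, ∃ n : Fin 2, x = a 1 ^ (m : ℕ) * xa 0 ^ (n : ℕ) := by decide
      obtain ⟨m, n, rfl⟩ := this x
      rw [map_mul, map_pow, map_pow]
      exact T.mul_mem (T.pow_mem h1 _) (T.pow_mem h2 _)
    · obtain ⟨x, rfl⟩ := fs c hc
      have : ∀ x : QuaternionGroup 2, x ≠ 1 → (∀ y, y * x = x * y) → x = a 1 * a 1 := by decide
      rw [this x (fun k => c1 (by rw [k, map_one])) fun y => hf (by rw [map_mul, map_mul]; exact hcc _ (fm y)), map_mul]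
    · rw [Nat.card_congr e.toEquiv, Nat.card_eq_fintype_card, QuaternionGroup.card]
  obtain ⟨i, hi, j, hj, a1, a2, a3, a4, a5, a6, a7, a8⟩ := key Q₁ e₁
  obtain ⟨k, hk, l, hl, b1, b2, b3, b4, b5, b6, b7, b8⟩ := key Q₂ e₂
  have hn : Q₂ ≤ Subgroup.normalizer (Q₁ : Set S) := BG.le_norm_iff.2 fun b hb a ha => by rw [← hcomm a ha b hb]; simpa using ha
  have e := BG.card_sup_mul hn
  rw [hQ, hQ32, a8, b8] at e
  obtain ⟨⟨c, hc⟩, c1⟩ := Subgroup.ne_bot_iff_exists_ne_one.1 (show Q₁ ⊓ Q₂ ≠ ⊥ from fun k => by rw [k] at e; simp at e)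
  have c1' : c ≠ 1 := fun k => c1 (Subtype.ext k)
  have ez : k * k = i * i := (b7 c hc.2 c1' fun a ha => (hcomm c hc.1 a ha).symm).symm.trans (a7 c hc.1 c1' fun a ha => hcomm a ha c hc.2)
  have l1 : Q₁ ≤ Q := hQ ▸ le_sup_left
  have l2 : Q₂ ≤ Q := hQ ▸ le_sup_right
  refine H04.HE.QQ.main (Q := Q) (z := i * i) ⟨hS, l1 hi, l1 hj, l2 hk, l2 hl, rfl, a1.symm, ez, b1.symm.trans ez, a2, a3, a4, ez ▸ b4,
    hcomm _ hi _ hk, hcomm _ hi _ hl, hcomm _ hj _ hk, hcomm _ hj _ hl, fun u hu v hv => ?_,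
    fun T h1 h2 h3 h4 => hQ ▸ sup_le (a6 T h1 h2) (b6 T h3 h4), hQ32, hC⟩
  obtain ⟨u1, hu1, u2, hu2, rfl⟩ := (BG.mem_sup_norm hn).1 (hQ ▸ hu)
  obtain ⟨v1, hv1, v2, hv2, rfl⟩ := (BG.mem_sup_norm hn).1 (hQ ▸ hv)
  have m := Q₂.mul_mem (Q₂.mul_mem hu2 hv2) (Q₂.inv_mem hu2)
  rw [show u1 * u2 * (v1 * v2) * (u1 * u2)⁻¹ = u1 * (u2 * v1) * (v2 * u2⁻¹) * u1⁻¹ by group, ← hcomm v1 hv1 u2 hu2,
    show u1 * (v1 * u2) * (v2 * u2⁻¹) * u1⁻¹ = u1 * v1 * (u2 * v2 * u2⁻¹ * u1⁻¹) by group, ← hcomm _ (Q₁.inv_mem hu1) _ m, ← mul_assoc]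
  exact (a5 u1 hu1 v1 hv1).mul a2 (by rw [← ez]; exact hcomm v1 hv1 _ (Q₂.mul_mem hk hk)) (ez ▸ b5 u2 hu2 v2 hv2)

end Cfsg.Agent.S1233
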