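import Mathlib
import Cfsg.Statements.S1234
import Cfsg.Agent.H04.HEd

set_option autoImplicit false
open Cfsg

namespace Cfsg.Agent.S1234

/-- Let S be a finite 2-group and Q ≤ S a subgroup of order 32 having an elementary abelian subgroup E of order 16 and an involution s ∉ E whose centralizer in E has order 4 (so Q ≅ (Z₂ × Z₂) ≀ Z₂). If C_S(Z(Q)) = Q, then every section of S has 2-rank at most 4. -/
theorem result {S : Type*} [Group S] [Finite S] (hS : IsPGroup 2 S) (Q E : Subgroup S) (hEQ : E ≤ Q) (hE : Cfsg.IsElementaryAbelian 2 E) (hE16 : Nat.card E = 16) (hQ32 : Nat.card Q = 32) (s : S) (hsQ : s ∈ Q) (hsE : s ∉ E) (hs : orderOf s = 2) (hfix : Nat.card ↥(E ⊓ Subgroup.centralizer ({s} : Set S)) = 4) (hC : Subgroup.centralizer (((Subgroup.center Q).map Q.subtype : Subgroup S) : Set S) = Q) : Cfsg.SectionalPRankLE 2 4 S := by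
  classical
  have ss : s * s = 1 := by rw [← sq, ← hs, pow_orderOf_eq_one]
  have ec : ∀ a ∈ E, ∀ b ∈ E, a * b = b * a := fun a ha b hb => congrArg Subtype.val (hE.1.is_comm.comm (⟨a, ha⟩ : E) ⟨b, hb⟩)
  have i2 : ∀ x ∈ Q, x ∉ E → x * s ∈ E := fun x hx k => H04.HE.eight hEQ (by omega) hx hsQ k hsE
  set B := E ⊓ Subgroup.centralizer ({s} : Set S) with hB
  have bs : ∀ b ∈ B, b * s = s * b := fun b hb => BG.mem_cent1.1 hb.2
  let A : Subgroup S := B ⊔ Subgroup.zpowers s
  have hn : s ∈ Subgroup.normalizer (B : Set S) := by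
    rw [Subgroup.mem_normalizer_iff]
    intro b
    refine ⟨fun hb => by rw [← bs b hb]; simpa using hb, fun hb => ?_⟩
    have := bs _ hb
    have e : s * b * s⁻¹ = b := by
      have h2 : s * b = s * (s * b * s⁻¹) := by rw [← this]; group
      exact (mul_left_cancel h2).symm
    rwa [e] at hb
  have := Fact.mk Nat.prime_two
  have cA : Nat.card A = 8 := by
    rw [H04.card_sup_zpowers (p := 2) B hn (fun k => hsE k.1) (by rw [sq, ss]; exact B.one_mem), hfix]
  have mA : ∀ x ∈ Q, x * s = s * x → x ∈ A := fun x hx e => by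
    by_cases k : x ∈ E
    · exact Subgroup.mem_sup_left ⟨k, BG.mem_cent1.2 e⟩
    · have : x * s ∈ B := ⟨i2 x hx k, BG.mem_cent1.2 (by rw [← mul_assoc, ← e])⟩
      simpa using A.mul_mem (Subgroup.mem_sup_left this) (A.inv_mem (Subgroup.mem_sup_right (Subgroup.mem_zpowers s)))
  have AC : A ≤ Q ⊓ Subgroup.centralizer ({s} : Set S) :=
    sup_le (inf_le_inf_right _ hEQ) (Subgroup.zpowers_le.2 ⟨hsQ, BG.mem_cent1.2 rfl⟩)
  refine H04.HE.harada (A := A) hS (fun a ha => ?_) cA fun x hx => mA x ?_ ?_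
  · by_cases k : a ∈ E
    · rw [← sq]; exact hE.2 a k
    · have h1 := hE.2 _ (i2 a (AC ha).1 k)
      have c : Commute a s := BG.mem_cent1.1 (AC ha).2
      rwa [c.mul_pow, sq s, ss, mul_one, sq] at h1
  · rw [← hC]
    rintro _ ⟨z, hz, rfl⟩
    exact hx _ (mA z z.2 (congrArg Subtype.val (Subgroup.mem_center_iff.1 hz ⟨s, hsQ⟩)).symm)
  · exact (hx s (Subgroup.mem_sup_right (Subgroup.mem_zpowers s))).symm

end Cfsg.Agent.S1234
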