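import Mathlib
import Cfsg.Statements.S1235
import Cfsg.Agent.H01.SR1
import Cfsg.Agent.H22.Components

set_option autoImplicit false
open Cfsg

namespace Cfsg.Agent.S1235

/-- Let G be a finite group, x an involution and T ≤ G a Sylow 2-subgroup of C_G(x) (T ≤ C_G(x) with |C_G(x) : T| odd) which is the internal direct product of a subgroup D that is dihedral (of order ≥ 4) or quasi-dihedral and a Klein four-subgroup B. Suppose that for every involution b ∈ B, T ≤ C_G(b) with |C_G(b) : T| odd. Then every section of G has 2-rank at most 4. -/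
theorem result {G : Type*} [Group G] [Finite G] (x : G) (hx : orderOf x = 2) (T D B : Subgroup G) (hT : IsPGroup 2 T) (hTx : T ≤ Subgroup.centralizer ({x} : Set G)) (hTxi : Odd (T.relIndex (Subgroup.centralizer ({x} : Set G)))) (hprod : Cfsg.IsInternalDirectProduct D B T) (hD : (∃ m : ℕ, 2 ≤ m ∧ Nonempty (D ≃* DihedralGroup m)) ∨ Cfsg.IsQuasiDihedral D) (hB : IsKleinFour B) (hTb : ∀ b ∈ B, orderOf b = 2 → T ≤ Subgroup.centralizer ({b} : Set G) ∧ Odd (T.relIndex (Subgroup.centralizer ({b} : Set G)))) : Cfsg.SectionalPRankLE 2 4 G := by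
    open Subgroup BG H01.SR in
    obtain ⟨h1, h2, h3, h4, h5⟩ := hprod
    obtain ⟨S, hS, hle⟩ := sylow_superset Nat.prime_two hT (le_top : T ≤ ⊤)
    have pS := hS.pg Nat.prime_two
    have bsq : ∀ b ∈ B, b * b = 1 := fun b hb => by
      simpa [hB.exponent_two, sq] using congrArg Subtype.val (Monoid.pow_exponent_eq_one (⟨b, hb⟩ : B))
    have o2 : ∀ b ∈ B, b ≠ 1 → orderOf b = 2 := fun b hb b1 => orderOf_eq_prime (by rw [sq, bsq b hb]) b1
    have hc : ∀ b ∈ B, b ≠ 1 → S ⊓ C_[b] ≤ T := fun b hb b1 =>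
      let ⟨k1, k2⟩ := hTb b hb (o2 b hb b1)
      ((isSylowIn_mk Nat.prime_two k1 hT k2.not_two_dvd_nat).eq_of_pg Nat.prime_two (pg_le pS inf_le_left) (le_inf hle k1)
        inf_le_right).le
    have DB : D ≤ C_(B) := le_cent_iff.2 h3
    have cT : Nat.card T = Nat.card D * 4 := by
      rw [← h5, card_sup_of_disj (le_norm_of_cent (cent_symm DB)) h4, hB.card_four]
    refine of_sylow hS fun H K hH e => ?_
    by_cases ab : IsMulCommutative D
    · obtain ⟨m, hm, ⟨f⟩⟩ := hD.resolve_right fun k => let ⟨_, _, _, _, k, _⟩ := H04.isDSQ_of_isQuasiDihedral k; k.not_comm ab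
      have c : ∀ a b : DihedralGroup m, a * b = b * a := fun a b =>
        f.symm.injective (by rw [map_mul, map_mul]; exact ab.is_comm.comm _ _)
      obtain rfl : m = 2 := by
        have := c (.r 1) (.sr 0)
        simp only [DihedralGroup.r_mul_sr, DihedralGroup.sr_mul_r, DihedralGroup.sr.injEq, zero_sub, zero_add] at this
        have k : ((2 : ℕ) : ZMod m) = 0 := by push_cast; linear_combination -this
        exact le_antisymm (Nat.le_of_dvd (by norm_num) ((ZMod.natCast_eq_zero_iff 2 m).1 k)) hm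
      have dsq : ∀ d ∈ D, d * d = 1 := fun d hd => congrArg Subtype.val (f.injective (a₁ := ⟨d, hd⟩ * ⟨d, hd⟩) (a₂ := 1) (by
        rw [map_mul, map_one]; generalize f ⟨d, hd⟩ = y; revert y; decide))
      refine St.main ⟨pS, hle, by rw [cT, Nat.card_congr f.toEquiv, DihedralGroup.nat_card], fun t ht => ?_, h2,
        hB.card_four, hc⟩ hH e
      obtain ⟨d, hd, b, hb, rfl⟩ := (mem_sup_norm (le_norm_of_cent (cent_symm DB))).1 (h5.ge ht)
      rw [mul_assoc, ← mul_assoc b, ← h3 d hd b hb, mul_assoc, bsq b hb, mul_one, dsq d hd]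
    obtain ⟨m, a, b, k⟩ : H04.IsDSQ D := hD.elim (fun ⟨_, _, ⟨f⟩⟩ => H04.isDSQ_of_equiv_dihedral (pg_le hT h1) ab f)
      fun k => let ⟨m, a, b, _, k, _⟩ := H04.isDSQ_of_isQuasiDihedral k; ⟨m, a, b, k⟩
    have cZ : Nat.card (D ⊓ C_(D) : Subgroup G) = 2 := by
      rw [← H22.map_center_subtype, card_map_of_injective D.subtype_injective, k.card_center]
    have BT : B ≤ T ⊓ C_(T) := le_inf h2 (h5 ▸ le_cent_sup (cent_symm DB) (el_comm bsq))
    have zT : T ⊓ C_(T) ≤ B ⊔ D ⊓ C_(D) := fun t ht => by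
      obtain ⟨d, hd, b, hb, rfl⟩ := (mem_sup_norm (le_norm_of_cent (cent_symm DB))).1 (h5.ge ht.1)
      exact mul_mem (mem_sup_right ⟨hd, (mul_mem_cancel_right (cent_symm DB hb)).1 (cent_anti h1 ht.2)⟩) (mem_sup_left hb)
    have c8 : Nat.card (T ⊓ C_(T) : Subgroup G) ≤ 8 := (card_le zT).trans ((Nat.le_of_dvd (Nat.mul_pos (card_pos _) (card_pos _))
      (card_sup_dvd (le_norm_of_cent (inf_le_left.trans DB)))).trans (by rw [hB.card_four, cZ]))
    have TS : T = S := nil_eq_of_norm_le (pg_nil Nat.prime_two pS) hle fun g hg => by_contra fun g1 => by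
      have := Fact.mk Nat.prime_two
      obtain ⟨j, j1, j2⟩ := H04.exists_pow_notMem_pow_mem (p := 2) pS (T.subgroupOf S) (x := ⟨g, hg.1⟩) g1
      have m1 : g ^ 2 ^ j ∈ S ⊓ N_(T) := pow_mem hg _
      change g ^ 2 ^ j ∉ T at j1
      change (g ^ 2 ^ j) ^ 2 ∈ T at j2
      generalize g ^ 2 ^ j = y at m1 j1 j2
      have l2 : cj y B ≤ T ⊓ C_(T) := cj_le_of_mem_norm BT (norm_inf le_rfl (norm_cent le_rfl) m1.2)
      have a1 := card_sup_mul (K := B) (H := cj y B) (le_norm_of_cent (l2.trans (inf_le_right.trans (cent_anti h2))))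
      have a2 := card_le (sup_le BT l2)
      rw [card_cj, hB.card_four] at a1
      have n0 : B ⊓ cj y B ≠ ⊥ := fun e => by rw [e, card_bot] at a1; omega
      have hn : y ∈ N_(B ⊓ cj y B) := cj_eq_self_iff.1 (by
        rw [cj_inf, cj_cj, ← sq, cj_of_mem_cent (cent_symm (BT.trans inf_le_right) j2), inf_comm])
      obtain ⟨z, hz, z1⟩ := exists_mem_ne_one (pg_fix_ne_bot Nat.prime_two (pg_le pS (zpowers_le.2 m1.1))
        (pg_le hT (inf_le_left.trans h2)) (zpowers_le.2 hn) n0)
      exact j1 (hc z hz.1.1 z1 ⟨m1.1, mem_cent1.2 (mem_cent.1 hz.2 y (mem_zpowers y))⟩)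
    subst TS
    have i1 : D.relIndex H ≤ 4 := (idx_mono hH).trans (by
      have := card_mul_relIndex h1
      rw [cT, Nat.mul_left_cancel_iff (card_pos D)] at this
      exact this.le)
    have i2 : (zpowers (a : G)).relIndex (D ⊓ H) ≤ 2 := (idx_mono inf_le_left).trans (by
      rw [← k.index, relIndex, show (zpowers (a : G)).subgroupOf D = zpowers a by
        rw [← D.coe_subtype, ← MonoidHom.map_zpowers, subgroupOf, comap_map_eq_self_of_injective D.subtype_injective]])
    have i3 : K.relIndex (zpowers (a : G) ⊓ (D ⊓ H)) ≤ 2 := cyc (Subgroup.isCyclic_of_le inf_le_left) fun x hx => e.sq x hx.2.2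
    exact (step K D H).trans ((Nat.mul_le_mul ((step K _ _).trans (Nat.mul_le_mul i3 i2)) i1).trans (by norm_num))

end Cfsg.Agent.S1235
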