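import Mathlib
import Cfsg.Statements.S1239
import Cfsg.Agent.H08.Wr

set_option autoImplicit false
open Cfsg

namespace Cfsg.Agent.S1239

open Subgroup H08

/-- Let X be a finite group whose Sylow 2-subgroup S is quasi-dihedral or wreathed, and suppose some involution of S is isolated in X. Then the product of the largest normal odd-order subgroup O(X) with the centre of S is normal in X. -/
theorem result {X : Type*} [Group X] [Finite X] (S : Sylow 2 X) (hS : Cfsg.IsQuasiDihedral (S : Subgroup X) ∨ Cfsg.IsWreathed (S : Subgroup X)) (z : X) (hzS : z ∈ S) (hz : Cfsg.IsIsolatedInvolution z) : (Cfsg.oddCore X ⊔ (Subgroup.center (S : Subgroup X)).map (S : Subgroup X).subtype).Normal := by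
  have hz' : ∀ v ∈ (S : Subgroup X), v * z = z * v := fun v hv =>
    IsoP.commute_of_mem_normalizer hz.2 S.isPGroup' hzS (le_normalizer hv)
  obtain ⟨c, hc, h0⟩ : ∃ c, (center (S : Subgroup X)).map (S : Subgroup X).subtype = zpowers c ∧
      ∀ g, g * c * g⁻¹ ∈ (S : Subgroup X) → g * c * g⁻¹ = c := by
    rcases hS with hS | hS
    · obtain ⟨a, b, z', m, h⟩ := exists_sd hS
      obtain rfl := (eq_of_mem_zpowers_invol h.hz (h.center_eq ▸ mem_map_center.2 ⟨hzS, hz'⟩)).resolve_left
        (ne_one_of_orderOf hz.1)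
      exact ⟨_, h.center_eq, fun g hg => hz.2 g (hz' _ hg).symm⟩
    obtain ⟨U, a, b, t, c, p, w, m, h⟩ := exists_wr hS
    obtain rfl := (h.eq_w (h.center_eq ▸ mem_map_center.2 ⟨hzS, hz'⟩) (mul_self_of_orderOf hz.1)).resolve_left
      (ne_one_of_orderOf hz.1)
    exact ⟨_, h.center_eq, fun g => h.conj_eq_of_Z (h.U_iff.resolve_right fun ⟨_, k, _, e⟩ => h.w_ne_p
      ((hz.2 k (e ▸ h.commU h.w_mem' h.p_mem)).symm.trans e)).2 (mem_zpowers c)⟩
  have h2 := isPGroup_zpowers_of_mem S.isPGroup' (mem_map_center.1 (hc.ge (mem_zpowers c))).1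
  have h3 := inZStar_iff.1 (zstar_elt (IsoP.of_sylow S h2 h0) h2)
  have h4 : (zpowers (c : X ⧸ Cfsg.oddCore X)).Normal := ⟨fun u hu g => by
    rwa [mem_center_iff.1 (zpowers_le.2 h3 hu) g, mul_inv_cancel_right]⟩
  have h5 := h4.comap (QuotientGroup.mk' _)
  rwa [← QuotientGroup.mk'_apply, ← MonoidHom.map_zpowers, comap_map_eq, QuotientGroup.ker_mk', sup_comm, ← hc] at h5

end Cfsg.Agent.S1239
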