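import Mathlib
import Cfsg.Statements.S1241
import Cfsg.Agent.H03.Focal

set_option autoImplicit false
open Cfsg

namespace Cfsg.Agent.S1241

/-- Let G be a finite group, p a prime, H a subgroup of index prime to p, K a subgroup of H normal in H with H/K commutative, and g ∈ H ∖ K an element of p-power order such that for all integers m and all a ∈ G with a g^m a⁻¹ ∈ H one has a g^m a⁻¹ ∈ g^m K. Then g ∉ G'. -/
theorem result {G : Type*} [Group G] [Finite G] {p : ℕ} [Fact p.Prime] (H K : Subgroup G) (hHK : K ≤ H) (hKn : (K.subgroupOf H).Normal) (hab : ∀ x ∈ H, ∀ y ∈ H, x * y * x⁻¹ * y⁻¹ ∈ K) (hidx : Nat.Coprime p H.index) (g : G) (hgH : g ∈ H) (hgK : g ∉ K) (hgp : ∃ k : ℕ, orderOf g = p ^ k) (hctrl : ∀ (m : ℤ) (a : G), a * g ^ m * a⁻¹ ∈ H → (a * g ^ m * a⁻¹) * (g ^ m)⁻¹ ∈ K) : g ∉ commutator G := by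
  intro hg
  have hc : IsMulCommutative (H ⧸ K.subgroupOf H) :=
    Subgroup.Normal.quotient_commutative_iff_commutator_le.2 (by
      rw [commutator_def, Subgroup.commutator_le]
      intro x _ y _
      exact hab x x.2 y y.2)
  open scoped IsMulCommutative in
  have h1 := H03.transfer_eq_pow_of_forall (QuotientGroup.mk' (K.subgroupOf H)) g
    (QuotientGroup.mk' (K.subgroupOf H) ⟨g, hgH⟩) (fun k a hk => by
      rw [← map_pow, QuotientGroup.mk'_apply, QuotientGroup.mk'_apply, QuotientGroup.eq_iff_div_mem,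
        Subgroup.mem_subgroupOf, div_eq_mul_inv]
      have := hctrl k a⁻¹ (by simpa using hk)
      simpa using this)
  open scoped IsMulCommutative in
  rw [H03.map_eq_one_of_mem_commutator _ hg, ← map_pow] at h1
  have h2 : g ^ H.index ∈ K := (QuotientGroup.eq_one_iff (N := K.subgroupOf H) ((⟨g, hgH⟩ : H) ^ H.index)).1 h1.symm
  obtain ⟨k, hk⟩ := hgp
  exact hgK (H03.mem_of_pow_mem_of_coprime h2 (hk ▸ hidx.pow_left k))

end Cfsg.Agent.S1241
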