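import Mathlib
import Cfsg.Statements.S1243
import Cfsg.Agent.H08.Isolated
import Cfsg.Agent.H03.Fusion

set_option autoImplicit false
open Cfsg

namespace Cfsg.Agent.S1243

/-- Let T be a Sylow p-subgroup of the finite group G and W ≤ T a subgroup weakly closed in T. If d and g d g⁻¹ both centralize W, then g d g⁻¹ = h d h⁻¹ for some h ∈ N_G(W). -/
theorem result {G : Type*} [Group G] [Finite G] {p : ℕ} [Fact p.Prime] (T : Sylow p G) (W : Subgroup G) (hW : Cfsg.IsWeaklyClosed W (T : Subgroup G)) (d g : G) (hd : d ∈ Subgroup.centralizer (W : Set G)) (hgd : g * d * g⁻¹ ∈ Subgroup.centralizer (W : Set G)) : ∃ h ∈ Subgroup.normalizer (W : Set G), h * d * h⁻¹ = g * d * g⁻¹ := by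
  obtain ⟨c, hc, hn⟩ := H03.IsWC.exists_mul_mem_normalizer hW (C := Subgroup.centralizer ({d} : Set G))
    (fun w hw => Subgroup.mem_centralizer_singleton_iff.2 (hd w hw)) (g := g) (fun w hw => by
      rw [H08.mem_centralizer_singleton']
      have := hgd w hw
      calc _ = g⁻¹ * (w * (g * d * g⁻¹)) * w⁻¹ * g := by group
        _ = d := by rw [this]; group)
  refine ⟨g * c, hn, ?_⟩
  nth_rewrite 2 [← H08.mem_centralizer_singleton'.1 hc]; group

end Cfsg.Agent.S1243
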