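import Mathlib
import Cfsg.Statements.S1246
import Cfsg.Agent.H22.Local
import Cfsg.Agent.BG.Api

set_option autoImplicit false
open Cfsg

namespace Cfsg.Agent.S1246

open H22 BG in
theorem opE_sub {G : Type*} [Group G] [Finite G] {p : ℕ} [Fact p.Prime] {N : Subgroup G} (H : Subgroup N) :
    (opE p H).map N.subtype = opE p (H.map N.subtype) := by
  rw [opE, Subgroup.map_sup, pLay_map_of_injective _ N.subtype_injective, H02.pPrimeCoreOf_map_subtype]

open H22 BG in
theorem step {G : Type*} [Group G] [Finite G] {p : ℕ} [Fact p.Prime] {V W : Subgroup G} (hVW : V ≤ W)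
    (hW : IsPGroup p W) (hn : W ≤ N_(V)) (h : opE p C_(V) = ⊥) : opE p C_(W) = ⊥ := by
  have hV : IsPGroup p V := pg_le hW hVW
  have h1 : opE p N_(V) = ⊥ := by rw [opE_normalizer_eq hV, h]
  have h2 := fstar_eq_pCore_iff_opE.2 h1
  have h3 := fstar_centralizer_eq_pCore h2 (P := W.subgroupOf N_(V)) (hW.comap_subtype)
  rw [fstar_eq_pCore_iff_opE] at h3
  have h4 := opE_sub (p := p) (Subgroup.centralizer (W.subgroupOf N_(V) : Set N_(V)))
  rw [h3, Subgroup.map_bot, map_centralizer_subtype, Subgroup.subgroupOf_map_subtype, inf_eq_left.2 hn,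
    inf_eq_right.2 ((cent_anti hVW).trans (cent_le_norm V))] at h4
  exact h4.symm

open H22 BG in
theorem aux {G : Type*} [Group G] [Finite G] {p : ℕ} [hp : Fact p.Prime] {U : Subgroup G} (hU : IsPGroup p U) (n : ℕ) :
    ∀ V : Subgroup G, V ≤ U → Nat.card U - Nat.card V ≤ n → opE p C_(V) = ⊥ → opE p C_(U) = ⊥ := by
  induction n with
  | zero =>
    intro V hV hc h
    rwa [← eq_of_le_of_card_le hV (by omega)]
  | succ n ih =>
    intro V hV hc h
    rcases hV.eq_or_lt with e | e
    · rwa [← e]
    have h1 := nil_lt_norm (pg_nil hp.out hU) e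
    have h2 := card_lt h1
    exact ih _ inf_le_left (by omega) (step h1.le (pg_le hU inf_le_left) inf_le_right h)

/-- Let V ≤ U be p-subgroups of the finite group G. If the generalized Fitting subgroup of C_G(V) is a p-group, then so is that of C_G(U). -/
theorem result {G : Type*} [Group G] [Finite G] {p : ℕ} [Fact p.Prime] (U V : Subgroup G) (hVU : V ≤ U) (hU : IsPGroup p U) (hV : IsPGroup p ↥(Cfsg.generalizedFittingSubgroup ↥(Subgroup.centralizer (V : Set G)))) : IsPGroup p ↥(Cfsg.generalizedFittingSubgroup ↥(Subgroup.centralizer (U : Set G))) := by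
  have h1 : generalizedFittingSubgroup (Subgroup.centralizer (V : Set G)) = pCore p _ :=
    le_antisymm (by have := H22.fstar_normal (G := Subgroup.centralizer (V : Set G)); exact H02.le_pCore hV)
      H22.pCore_le_fstar
  have h2 := aux hU _ V hVU le_rfl (H22.fstar_eq_pCore_iff_opE.1 h1)
  rw [H22.fstar_eq_pCore_iff_opE.2 h2]
  exact H02.pCore_isPGroup _ _

end Cfsg.Agent.S1246
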