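import Mathlib
import Cfsg.Statements.S1247
import Cfsg.Agent.H23.Infect
import Cfsg.Agent.H03.Focal

set_option autoImplicit false
open Cfsg

namespace Cfsg.Agent.S1247

open H22 BG H23 in
theorem infY {G : Type*} [Group G] [Finite G] {A S B : Subgroup G} (hSF : S ≤ fstarOf A)
    (hSsn : (S.subgroupOf (fstarOf A)).IsSubnormal) (hSC : fstarOf A ⊓ C_(S) ≤ S) (hSB : S ≤ B) :
    InfY A B (S ⊓ fittingOf A) := by
  have hEF : layerOf A ≤ fstarOf A := by rw [fstarOf_eq]; exact le_sup_left
  have hFF : fittingOf A ≤ fstarOf A := by rw [fstarOf_eq]; exact le_sup_right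
  have hE : layerOf A ≤ S := by
    refine (layerOf_le_layerOf_of_le (fstarOf_le A) hEF).trans (map_layer_subtype_le_iff.2 fun L hL hc => ?_)
    rcases comp_le_or_comm_of_subnormal hc hSsn with h | h
    · intro x hx
      exact h (show (⟨x, hL hx⟩ : fstarOf A) ∈ L.subgroupOf _ from hx)
    · refine (le_inf hL ?_).trans hSC
      exact le_centralizer_of_subgroupOf hL hSF (comm_eq_bot.1 h)
  refine ⟨hE.trans hSB, inf_le_right, inf_le_left.trans hSB, le_inf ?_ inf_le_left⟩
  have h1 : S = layerOf A ⊔ (S ⊓ fittingOf A) := by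
    rw [← dedekind hE (Or.inl (le_norm_of_cent (cent_symm (layer_cent_fit A)))), ← fstarOf_eq, inf_eq_left.2 hSF]
  refine le_trans (le_inf (inf_le_left.trans hFF) ?_) hSC
  conv_rhs => rw [h1]
  exact le_cent_sup (inf_le_left.trans (cent_symm (layer_cent_fit A))) inf_le_right

open H22 BG H23 in
theorem cent_fit {G : Type*} [Group G] [Finite G] {A B Y : Subgroup G} {p : ℕ} (h : InfY A B Y) (hA : Prim A)
    (hp : p.Prime) (h0 : piCoreOf {p} A ≠ ⊥) : piCoreOf {p}ᶜ (fittingOf A) ≤ C_(piCoreOf {p} B) := by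
  set N := piCoreOf {p}ᶜ (fittingOf A) with hN
  by_cases hb : N = ⊥
  · rw [hb]; exact bot_le
  obtain ⟨q, hq, hd⟩ := exists_prime_dvd_card hb
  have hqp : p ≠ q := by
    rintro rfl
    exact pcore_not_dvd hp _ hd
  have h1 : piCoreOf {q} A ≠ ⊥ := by
    rw [← pcore_fit hq]
    exact nil_pcore_ne_bot (fit_nil A) hq rfl (hd.trans (card_dvd (pcore_le _ _)))
  have h2 := Inf.le_of_two ⟨Y, h⟩ hA hp hq hqp h0 h1
  have h3 := h.cent_p' hA hp h0
  have hY := nil_of_le_fit h.fit
  refine cent_symm (H01.le_centralizer_of_self_centralizing_fixed (nil_of_le (fit_nil A) (pcore_le _ _))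
    (h2.trans (norm_pcore _ (le_norm_fit A))) (pg_coprime hp (pcore_pg hp B) (pcore_not_dvd hp _))
    (nil_pcore_mono _ (fit_nil A) h.fit) h3 ?_)
  refine le_trans ?_ h3
  refine nil_le_pcore hY ((pcore_isPi _ _).inf_left _) (le_trans (le_inf (inf_le_left.trans (pcore_le _ _)) ?_) h.cent)
  conv_rhs => rw [← (nil_dprod {p} hY).sup]
  exact le_cent_sup (inf_le_left.trans ((pcore_cent_compl' {p} _).trans
    (cent_anti (nil_pcore_mono _ (fit_nil A) h.fit)))) inf_le_right

/-- Let G be a non-abelian finite simple group, A a maximal subgroup, F = F*(A) its generalized Fitting subgroup (viewed in G), and S ≤ F a subgroup subnormal in F with C_F(S) ≤ S. Let B be any subgroup of G containing S. Then (a) for every prime q not dividing |F(A)|, O_q(B) ∩ A = 1; and (b) for every prime p dividing |F(A)|, O_p(B) commutes elementwise with the subgroup of F generated by its elements of order prime to p. -/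
theorem result {G : Type*} [Group G] [Finite G] [IsSimpleGroup G] (hna : ¬ IsMulCommutative G) (A : Subgroup G) (hA : IsCoatom A) (S : Subgroup G) (hSF : S ≤ (Cfsg.generalizedFittingSubgroup ↥A).map A.subtype) (hSsn : (S.subgroupOf ((Cfsg.generalizedFittingSubgroup ↥A).map A.subtype)).IsSubnormal) (hSC : (Cfsg.generalizedFittingSubgroup ↥A).map A.subtype ⊓ Subgroup.centralizer (S : Set G) ≤ S) (B : Subgroup G) (hSB : S ≤ B) : (∀ q : ℕ, q.Prime → ¬ q ∣ Nat.card (Cfsg.fittingSubgroup ↥A) → (Cfsg.pCore q ↥B).map B.subtype ⊓ A = ⊥) ∧ (∀ p : ℕ, p.Prime → p ∣ Nat.card (Cfsg.fittingSubgroup ↥A) → ∀ x ∈ (Cfsg.pCore p ↥B).map B.subtype, ∀ y ∈ (Cfsg.pResidual p ↥(Cfsg.generalizedFittingSubgroup ↥A)).map ((Cfsg.generalizedFittingSubgroup ↥A).subtype) , x * (A.subtype y) = (A.subtype y) * x) := by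
  have hI := infY hSF hSsn hSC hSB
  have hP := H23.prim_of_coatom hA
  constructor
  · intro q hq hd
    have := H23.Inf.disj ⟨_, hI⟩ hq (by by_contra h; exact hd ((H23.pcore_ne_bot_iff hq).1 h))
    rwa [H02.piCoreOf_singleton hq, H02.pCoreOf_eq] at this
  · intro p hp hd x hx y hy
    have h0 := (H23.pcore_ne_bot_iff hp).2 hd
    have h1 := cent_fit hI hP hp h0
    have h2 := hI.cent_lay hP hp h0
    rw [← H02.pCoreOf_eq, ← H02.piCoreOf_singleton hp] at hx
    obtain ⟨y, hy, rfl⟩ := hy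
    have key : pResidual p (generalizedFittingSubgroup A) ≤
        ((Subgroup.centralizer {x}).comap A.subtype).comap (generalizedFittingSubgroup A).subtype := by
      rw [pResidual, Subgroup.closure_le]
      intro z hz
      have hz' : (orderOf ((z : A) : G)).Coprime p := by
        rw [Subgroup.orderOf_coe, Subgroup.orderOf_coe]; exact hz
      have hm : ((z : A) : G) ∈ H22.fstarOf A := ⟨z, z.2, rfl⟩
      rw [H22.fstarOf_eq, ← (BG.nil_dprod' {p} (BG.fit_nil A)).sup, ← sup_assoc] at hm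
      have hc : piCoreOf {p} (fittingOf A) ≤ Subgroup.centralizer
          ((H22.layerOf A ⊔ piCoreOf {p}ᶜ (fittingOf A) : Subgroup G) : Set G) :=
        BG.le_cent_sup ((BG.pcore_le _ _).trans (BG.cent_symm (H23.layer_cent_fit A))) (BG.pcore_cent_compl _ _)
      obtain ⟨k, hk, a, ha, e⟩ := (BG.mem_sup_norm (BG.le_norm_of_cent hc)).1 hm
      have hka : k * a = a * k := BG.mem_cent.1 (hc ha) k hk
      obtain ⟨n, hn⟩ := BG.pg_card hp (BG.pcore_pg hp (fittingOf A))
      have han : a ^ p ^ n = 1 := by rw [← hn]; exact BG.pow_card_eq_one ha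
      have hk' : k ∈ Subgroup.centralizer {x} := BG.cent_le_cent1 hx (sup_le h2 h1 hk)
      have h3 : ((z : A) : G) ^ p ^ n ∈ Subgroup.centralizer {x} := by
        rw [← e, Commute.mul_pow hka, han, mul_one]; exact pow_mem hk' _
      exact H03.mem_of_pow_mem_of_coprime (x := ((z : A) : G)) h3 (hz'.pow_right n)
    exact (BG.mem_cent1.1 (key hy)).symm

end Cfsg.Agent.S1247
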