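import Mathlib
import Cfsg.Statements.S1254
import Cfsg.Agent.H08.Dih2

set_option autoImplicit false
open Cfsg

namespace Cfsg.Agent.S1254

open Subgroup H08

/-- Let X be a finite group whose Sylow 2-subgroup S is dihedral (of order at least 4). Then X has a normal 2-complement if and only if, for every Klein four-subgroup U ≤ S, the normalizer N_X(U) is generated by C_X(U) and N_S(U). -/
theorem result {X : Type*} [Group X] [Finite X] (S : Sylow 2 X) (m : ℕ) (hm : 2 ≤ m) (eS : (S : Subgroup X) ≃* DihedralGroup m) : Cfsg.HasNormalPComplement 2 X ↔ ∀ U : Subgroup X, U ≤ S → IsKleinFour U → Subgroup.normalizer (U : Set X) = Subgroup.centralizer (U : Set X) ⊔ ((S : Subgroup X) ⊓ Subgroup.normalizer (U : Set X)) := by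
  obtain ⟨σ, τ, t, k, rfl, h⟩ := exists_dih S.2 hm eS
  refine ⟨fun hX U hU hK => le_antisymm (fun g hg => ?_) (sup_le (centralizer_le_normalizer _) inf_le_right),
    fun hX => H03.hasNPC_of_local S fun D hD _ g hg ho => ?_⟩
  · obtain ⟨v, hv, h1⟩ := H03.HasNPC.exists_conj_sylow hX S g
    have h2 : ∀ x ∈ U, v * x * v⁻¹ = g * x * g⁻¹ := fun x hx =>
      h1 x (hU hx) (hU (H03.conj_mem_of_mem_normalizer hg hx))
    have h3 : v ∈ normalizer (U : Set X) := H03.mem_normalizer_of_conj_le fun x hx =>
      h2 x hx ▸ H03.conj_mem_of_mem_normalizer hg hx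
    rw [← mul_inv_cancel_left v g]
    refine mul_mem (mem_sup_right ⟨hv, h3⟩) (mem_sup_left fun x hx => ?_)
    calc _ = v⁻¹ * (v * x * v⁻¹) * g := by group
      _ = _ := by rw [h2 x hx]; group
  by_cases hK : IsKleinFour D
  swap
  · exact h.centralizes hD hK hg ho
  have h2 : IsPGroup 2 D.normalizerMonoidHom.range := by
    have h3 : D.normalizerMonoidHom.range = ((S : Subgroup X).subgroupOf _).map D.normalizerMonoidHom := by
      rw [← sup_bot_eq (map _ _), ← (Subgroup.map_eq_bot_iff _).2 (le_refl D.normalizerMonoidHom.ker), ← Subgroup.map_sup,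
        normalizerMonoidHom_ker, MonoidHom.range_eq_map, ← inf_subgroupOf_right (S : Subgroup X),
        ← subgroupOf_sup inf_le_right (centralizer_le_normalizer _), sup_comm, ← hX D hD hK, subgroupOf_self]
    exact h3 ▸ (S.2.comap_subtype).map _
  have h4 := H03.eq_one_of_isPGroup_of_coprime h2 (g := ⟨_, ⟨g, hg⟩, rfl⟩) (ho.coprime_dvd_left (by
    rw [← orderOf_coe]; exact (orderOf_map_dvd _ _).trans (by rw [← orderOf_coe])))
  have h5 := congrArg Subtype.val h4
  rwa [OneMemClass.coe_one, ← MonoidHom.mem_ker, normalizerMonoidHom_ker] at h5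

end Cfsg.Agent.S1254
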