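import Mathlib
import Cfsg.Statements.S1255
import Cfsg.Agent.H08.Dih2

set_option autoImplicit false
open Cfsg

namespace Cfsg.Agent.S1255

open Subgroup H08

/-- Let X be a finite group whose Sylow 2-subgroup S is dihedral of order 2m ≥ 4. Then X has no subgroup of index 2 and no isolated involution if and only if either all involutions of X are conjugate, or for every Klein four-subgroup U ≤ S the index |N_X(U) : C_X(U)| equals 3 when |S| = 4 and equals 6 when |S| > 4. -/
theorem result {X : Type*} [Group X] [Finite X] (S : Sylow 2 X) (m : ℕ) (hm : 2 ≤ m) (eS : (S : Subgroup X) ≃* DihedralGroup m) : ((∀ H : Subgroup X, H.index ≠ 2) ∧ (∀ z : X, ¬ Cfsg.IsIsolatedInvolution z)) ↔ ((∀ a b : X, orderOf a = 2 → orderOf b = 2 → IsConj a b) ∨ (∀ U : Subgroup X, U ≤ S → IsKleinFour U → (Subgroup.centralizer (U : Set X)).relIndex (Subgroup.normalizer (U : Set X)) = (if Nat.card S = 4 then 3 else 6))) := by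
  obtain ⟨σ, τ, t, k, rfl, h⟩ := exists_dih S.2 hm eS
  refine ⟨fun h1 => Or.inl fun a b ha hb => (h.isConj_t h1.1 ha).symm.trans (h.isConj_t h1.1 hb), fun h1 => ?_⟩
  have h2 : ∀ a : X, orderOf a = 2 → IsConj t a := by
    refine h1.elim (fun h1 a => h1 t a h.ht) fun h1 a ha => ?_
    have hc : Nat.card S = 2 ^ (k + 2) := h.card
    by_cases h0 : k = 0
    · subst h0
      refine (one_class_of_not_hasNPC S h.card fun hX => ?_).2 t a h.ht ha
      have h3 := h.eq_klein h.τ_mem h.nm ▸ h.isKleinFour h.τ_mem h.nm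
      have h4 := h1 S le_rfl h3
      rw [if_pos (show Nat.card S = 4 from hc), relIndex_eq_one.2 fun g hg => ?_] at h4
      · omega
      obtain ⟨v, hv, h5⟩ := H03.HasNPC.exists_conj_sylow hX S g
      intro x hx
      rw [eq_comm, ← mul_inv_eq_iff_eq_mul, ← h5 x hx (H03.conj_mem_of_mem_normalizer hg hx),
        (commute_of_mem_klein h3 hv hx).eq, mul_inv_cancel_right]
    obtain ⟨g, hg⟩ := exists_conj_mem_sylow S (isPGroup_zpowers_of_orderOf ha)
    refine IsConj.trans ?_ (isConj_conj g a).symm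
    by_cases hg' : g * a * g⁻¹ ∈ zpowers σ
    · rw [invol_eq_of_isCyclic (by rw [orderOf_conj', ha]) h.ht hg' h.t_mem]
    obtain ⟨n, hn, hnt⟩ := h.exists_sqrt h0
    have h5 := h1 _ ((closure_le _).2 (by rintro _ (rfl | rfl); exacts [h.le h.t_mem, hg])) (h.isKleinFour hg hg')
    rw [if_neg (by
      rw [hc, show 4 = 2 ^ 2 from rfl, Nat.pow_right_inj one_lt_two]; omega)] at h5
    rcases (three_klein h.ht (h.ord_not hg hg') (fun e => hg' (e ▸ h.t_mem)) (h.comm_t hg).symm
      (by rw [h.comm_t (h.le hn), mul_inv_cancel_right]) (hnt ▸ h.conj_not' hg hg' hn) rfl).2 with e | ⟨-, v, -, e⟩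
    · omega
    · exact e ▸ isConj_conj v t
  refine ⟨fun H hH => ?_, fun z hz => h.nm ?_⟩
  · have := normal_of_index_eq_two hH
    have h3 : ∀ a : X, orderOf a = 2 → (a ∈ H ↔ t ∈ H) := fun a ha => by
      obtain ⟨g, rfl⟩ := isConj_iff.1 (h2 a ha)
      exact ⟨fun e => by simpa [mul_assoc] using this.conj_mem _ e g⁻¹, fun e => this.conj_mem _ e g⟩
    have h4 : ∀ a ∈ zpowers σ, orderOf (a * τ) = 2 := fun a ha => h.ord_not (mul_mem (h.le ha) h.τ_mem)
      (by simpa [Subgroup.mul_mem_cancel_left _ ha] using h.nm)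
    have h5 : t ∈ H := by
      have := (mul_mem_iff_of_index_two hH (a := t * τ) (b := τ)).2 ((h3 _ (h4 t h.t_mem)).trans (h3 _ h.ord_τ).symm)
      rwa [mul_assoc, h.sq, mul_one] at this
    refine not_le_of_index_two S hH (h.eq_closure.trans_le ((closure_le _).2 ?_))
    rintro _ (rfl | rfl)
    · exact (Subgroup.mul_mem_cancel_right _ ((h3 _ h.ord_τ).2 h5)).1 ((h3 _ (h4 _ (mem_zpowers _))).2 h5)
    · exact (h3 _ h.ord_τ).2 h5
  · rw [Iso.eq_of_commute (Iso.conj hz (h2 z hz.1).symm) (h2 τ h.ord_τ) (h.comm_t h.τ_mem).symm]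
    exact h.t_mem

end Cfsg.Agent.S1255
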