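import Mathlib
import Cfsg.Statements.S1256
import Cfsg.Agent.H08.Dih2

set_option autoImplicit false
open Cfsg

namespace Cfsg.Agent.S1256

open Subgroup H08

/-- Let X be a finite group whose Sylow 2-subgroup S is dihedral of order 2m ≥ 4. If |S| = 4, any two Klein four-subgroups of X are conjugate; if |S| > 4, there are Klein four-subgroups U₁, U₂ of X that are not conjugate, and every Klein four-subgroup of X is conjugate to U₁ or to U₂. -/
theorem result {X : Type*} [Group X] [Finite X] (S : Sylow 2 X) (m : ℕ) (hm : 2 ≤ m) (eS : (S : Subgroup X) ≃* DihedralGroup m) : (Nat.card S = 4 → ∀ U V : Subgroup X, IsKleinFour U → IsKleinFour V → (∃ x : X, U.map (MulAut.conj x).toMonoidHom = V)) ∧ (4 < Nat.card S → ∃ U₁ U₂ : Subgroup X, IsKleinFour U₁ ∧ IsKleinFour U₂ ∧ ¬ (∃ x : X, U₁.map (MulAut.conj x).toMonoidHom = U₂) ∧ ∀ V : Subgroup X, IsKleinFour V → (∃ x : X, V.map (MulAut.conj x).toMonoidHom = U₁) ∨ (∃ x : X, V.map (MulAut.conj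 x).toMonoidHom = U₂)) := by
  obtain ⟨σ, τ, t, k, rfl, h⟩ := exists_dih S.2 hm eS
  have hc : Nat.card S = 2 ^ (k + 2) := h.card
  have key : ∀ V : Subgroup X, IsKleinFour V → ∃ g : X, V.map (MulAut.conj g).toMonoidHom ≤ S := fun V hV => by
    obtain ⟨g, hg⟩ := exists_conj_le_sylow S (isPGroup_of_isKleinFour hV)
    exact ⟨g, by rintro _ ⟨x, hx, rfl⟩; exact hg x hx⟩
  have h1 : σ * τ ∉ zpowers σ := by simpa [Subgroup.mul_mem_cancel_left] using h.nm
  refine ⟨fun h4 U V hU hV => ?_, fun h4 => ⟨_, _, h.isKleinFour h.τ_mem h.nm,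
    h.isKleinFour (mul_mem h.σ_mem h.τ_mem) h1, fun ⟨g, e⟩ => h.not_conj_klein (by rintro rfl; omega) g e,
      fun V hV => ?_⟩⟩
  · obtain ⟨a, ha⟩ := key U hU
    obtain ⟨b, hb⟩ := key V hV
    have e1 := eq_of_le_of_card_ge ha (by rw [card_map_conj, hU.card_four]; exact h4.le)
    have e2 := eq_of_le_of_card_ge hb (by rw [card_map_conj, hV.card_four]; exact h4.le)
    exact ⟨b⁻¹ * a, by rw [← map_conj_map_conj, e1, ← e2, map_conj_map_conj, inv_mul_cancel, map_conj_one]⟩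
  obtain ⟨g, hg⟩ := key V hV
  obtain ⟨x, hx, hx', e⟩ := h.klein_eq hg (isKleinFour_map_conj hV g)
  obtain ⟨i, hi⟩ := h.mul_mem_of_not hx hx' h.τ_mem h.nm
  have h2 : ∀ j : ℤ, V.map (MulAut.conj (σ ^ j * g)).toMonoidHom = closure {t, σ ^ (2 * j + i) * τ} := fun j => by
    rw [← map_conj_map_conj, e, MonoidHom.map_closure, Set.image_pair]
    congr 2
    · exact mul_inv_eq_iff_eq_mul.2 (h.comm_t (zpow_mem h.σ_mem j))
    · refine congrArg _ ((h.conj_not' hx hx' (zpow_mem_zpowers σ j)).trans ?_)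
      simp only at hi
      simp [zpow_add, two_mul, hi, mul_assoc, h.sq]
  obtain ⟨j, rfl | rfl⟩ := Int.even_or_odd' i
  · exact Or.inl ⟨_, (h2 (-j)).trans (by simp)⟩
  · exact Or.inr ⟨_, (h2 (-j)).trans (by simp)⟩

end Cfsg.Agent.S1256
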