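import Mathlib
import Cfsg.Statements.S1271
import Cfsg.Agent.H22.KBal

set_option autoImplicit false
open Cfsg

namespace Cfsg.Agent.S1271

open BG H22

/-- Let G be finite with O_{p'}(G) = 1. Suppose that for every component L of G and every subgroup H ≥ L in which L is normal, the quotient H / C_H(L) is balanced for the prime p. Then G is balanced for p. -/
theorem result {G : Type*} [Group G] [Finite G] (p : ℕ) [Fact p.Prime] (hO : Cfsg.pPrimeCore p G = ⊥) (h : ∀ L : Subgroup G, Cfsg.IsComponent L → ∀ H : Subgroup G, L ≤ H → (L.subgroupOf H).Normal → ∀ [((Subgroup.centralizer (L : Set G)).subgroupOf H).Normal], Cfsg.IsBalancedFor p (↥H ⧸ (Subgroup.centralizer (L : Set G)).subgroupOf H)) : Cfsg.IsBalancedFor p G := by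
  have hp : p.Prime := Fact.out
  intro x hx
  rw [hO, le_bot_iff]
  refine eq_bot_of_centralizes hO (hp.coprime_iff_not_dvd.2 (cpc_not_dvd x)).symm
    (cent_symm (layer_le_iff.2 fun L hL => ?_)) (cpc_le_cent_pCore hx)
  by_cases h1 : ⁅L, Subgroup.zpowers x⁆ ≠ L
  · exact comm_eq_bot.1 (comp_comm_core_of_comm_ne hO hx hL h1)
  have h2 : x ∈ N_(L) := not_not.1 h1 ▸ right_le_norm_comm L _ (Subgroup.mem_zpowers x)
  have h3 : x ∉ C_(L) := fun h => comp_ne_bot hL (by rw [← not_not.1 h1, comm_eq_bot, cent_zpowers]; exact le_cent1_iff.2 h)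
  set Y := L ⊔ (C_[x] ⊓ N_(L))
  have hY : Y ≤ N_(L) := sup_le (le_norm L) inf_le_right
  have hn : (C_(L).subgroupOf Y).Normal := Subgroup.normal_subgroupOf_of_le_normalizer (norm_cent hY)
  have h4 := map_cpc_le hO hL hx le_rfl ⟨mem_cent1_self x, h2⟩ (QuotientGroup.mk'_surjective (C_(L).subgroupOf Y))
    (QuotientGroup.ker_mk' _)
  have h5 := h4.trans (h L hL Y le_sup_left ((Subgroup.normal_subgroupOf_iff_le_normalizer le_sup_left).2 hY) _
    (orderOf_eq_prime (by
      rw [← map_pow]; exact (congrArg _ (Subtype.ext (hx ▸ pow_orderOf_eq_one x))).trans (map_one _))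
      fun e => h3 (Subgroup.mem_subgroupOf.1 ((QuotientGroup.eq_one_iff _).1 e))))
  have hL' := comp_subgroupOf hL (le_sup_left : L ≤ Y)
  set W := (pPrimeCore p (Y ⧸ C_(L).subgroupOf Y)).comap (QuotientGroup.mk' _)
  rcases comp_le_or_comm_of_normalizes hL' (le_normalizer_of_normal' W _) with h6 | h6
  · exfalso
    have h7 : (L.subgroupOf Y).map (QuotientGroup.mk' (C_(L).subgroupOf Y)) ≠ ⊥ := fun e =>
      comp_not_le_centralizer hL fun l hl => map_mk'_eq_bot_iff.1 e (x := ⟨l, Subgroup.mem_sup_left hl⟩) hl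
    have h8 := (pc_top.2 (pcomp_of_comp_of_dvd (p := p) hL' (by
      rw [Nat.card_congr (Subgroup.subgroupOfEquivOfLe le_sup_left).toEquiv]; exact comp_dvd_card hO hL))).map _ h7
    exact H02.not_dvd_card_pPrimeCore hp (h8.dvd.trans (card_dvd (Subgroup.map_le_iff_le_comap.2 h6)))
  · intro l hl d hd
    have hd' : d ∈ C_[x] ⊓ N_(L) := ⟨cpc_le x hd, core_centralizer_le_normalizer_comp hO hx hL hd⟩
    exact congrArg Subtype.val (comm_eq_bot.1 h6 (x := ⟨l, Subgroup.mem_sup_left hl⟩) hl ⟨d, Subgroup.mem_sup_right hd'⟩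
      (Subgroup.map_le_iff_le_comap.1 h5 (x := ⟨d, Subgroup.mem_sup_right hd'⟩) ⟨hd, hd'⟩))

end Cfsg.Agent.S1271
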