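import Mathlib
import Cfsg.Statements.S1278
import Cfsg.Agent.H22.PComp

set_option autoImplicit false
open Cfsg

namespace Cfsg.Agent.S1278

/-- Let K ≠ L be 2-components of the finite group X. Then ⁅K, L⁆ ≤ O(K) ⊓ O(L), and if K is quasisimple then ⁅K, L⁆ = 1. -/
theorem result {X : Type*} [Group X] [Finite X] (K L : Subgroup X) (hK : Cfsg.IsPComponent 2 K) (hL : Cfsg.IsPComponent 2 L) (hne : K ≠ L) : ⁅K, L⁆ ≤ ((Cfsg.oddCore ↥K).map K.subtype) ⊓ ((Cfsg.oddCore ↥L).map L.subtype) ∧ (Cfsg.IsQuasisimple ↥K → ⁅K, L⁆ = ⊥) := by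
  have h := H22.pcomp_comm_of_ne hK hL hne
  refine ⟨le_inf ?_ ?_, fun hq => ?_⟩
  · exact (le_inf (h.trans inf_le_right) (h.trans (inf_le_left.trans inf_le_left))).trans
      (H02.pPrimeCore_inf_le_pPrimeCoreOf K)
  · exact (le_inf (h.trans inf_le_right) (h.trans (inf_le_left.trans inf_le_right))).trans
      (H02.pPrimeCore_inf_le_pPrimeCoreOf L)
  · exact (H22.comp_le_or_comm_of_subnormal ⟨hK.1, hq⟩ hL.1).resolve_left
      fun h1 => hne (H22.pcomp_eq_of_le hK hL h1)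

end Cfsg.Agent.S1278
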