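import Mathlib
import Cfsg.Statements.S1280
import Cfsg.Agent.H22.SigBasic

set_option autoImplicit false
open Cfsg

namespace Cfsg.Agent.S1280

open BG Cfsg H22

/-- Let θ be a solvable A-signalizer functor (A a noncyclic elementary abelian p-subgroup of the finite group G), and X, Y members of its family with Y ≤ N_G(X). Then X ⊔ Y (= XY) is again in the family. -/
theorem result {G : Type*} [Group G] [Finite G] (p : ℕ) [Fact p.Prime] (A : Subgroup G) (hA : Cfsg.IsElementaryAbelian p A) (hA2 : p ^ 2 ≤ Nat.card ↥A) (θ : G → Subgroup G) (hθ : Cfsg.IsSolvableSignalizerFunctor p A θ) (X Y : Subgroup G) (hX : X ∈ Cfsg.signalizerFamily p A θ) (hY : Y ∈ Cfsg.signalizerFamily p A θ) (hn : Y ≤ Subgroup.normalizer (X : Set G)) : X ⊔ Y ∈ Cfsg.signalizerFamily p A θ := by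
  exact mem_iff.1 ((mem_iff.2 hX).sup (SF.of Fact.out hA hθ) (mem_iff.2 hY) hn)

end Cfsg.Agent.S1280
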