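import Mathlib
import Cfsg.Statements.S1281
import Cfsg.Agent.H22.SigBasic
import Cfsg.Agent.H22.Local

set_option autoImplicit false
open Cfsg

namespace Cfsg.Agent.S1281

open BG Cfsg H22

/-- Let θ be a solvable A-signalizer functor on the finite group G (A a noncyclic elementary abelian p-subgroup) and N a normal subgroup of order prime to p. Then for all non-identity a, b ∈ A, the image of θ a in G / N meets the centralizer of the image of b inside the image of θ b. -/
theorem result {G : Type*} [Group G] [Finite G] (p : ℕ) [Fact p.Prime] (A : Subgroup G) (hA : Cfsg.IsElementaryAbelian p A) (hA2 : p ^ 2 ≤ Nat.card ↥A) (θ : G → Subgroup G) (hθ : Cfsg.IsSolvableSignalizerFunctor p A θ) (N : Subgroup G) [N.Normal] (hN : ¬ p ∣ Nat.card ↥N) (a b : G) (ha : a ∈ A) (ha1 : a ≠ 1) (hb : b ∈ A) (hb1 : b ≠ 1) : (θ a).map (QuotientGroup.mk' N) ⊓ Subgroup.centralizer {QuotientGroup.mk' N b} ≤ (θ b).map (QuotientGroup.mk' N) := by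
  have hp : p.Prime := Fact.out
  have h := SF.of hp hA hθ
  have hz : Subgroup.zpowers b ≤ A := by simpa using hb
  rintro _ ⟨⟨x, hx, rfl⟩, hc⟩
  have hnN : ∀ X : Subgroup G, X ≤ N_(N) := fun X => Subgroup.le_normalizer_of_normal
  have h1 := coprime_cent_prod (A := Subgroup.zpowers b) (H := N) (K := θ a) (hnN _) (hz.trans (h.inv a ha ha1)) (hnN _)
    (pg_coprime hp (pg_le hA.pg hz) (not_dvd_of_le hN inf_le_left)) (Or.inl (h.solA hz))
  have h2 : x ∈ N ⊔ ((N ⊔ θ a) ⊓ C_(Subgroup.zpowers b)) := by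
    refine mem_sup_cent_of_coprime (hnN _) le_sup_left (pg_coprime hp (pg_le hA.pg hz) hN) (Or.inl (h.solA hz))
      ((le_sup_right : _ ≤ N ⊔ θ a) hx) fun y hy => ?_
    have h3 : QuotientGroup.mk' N y ∈ Subgroup.zpowers (QuotientGroup.mk' N b) := by
      rw [← MonoidHom.map_zpowers]; exact ⟨y, hy, rfl⟩
    have h4 := mem_cent1.1 (cent1_le_of_mem_zpowers h3 hc)
    rw [← QuotientGroup.eq_one_iff, ← QuotientGroup.mk'_apply, map_commutatorElement, commutatorElement_eq_one_iff_mul_comm]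
    exact h4
  rw [h1, cent_zpowers] at h2
  have h5 : N ⊔ (N ⊓ C_[b] ⊔ θ a ⊓ C_[b]) ≤ N ⊔ θ b :=
    sup_le le_sup_left (sup_le (inf_le_left.trans le_sup_left) ((h.bal a ha ha1 b hb hb1).trans le_sup_right))
  obtain ⟨n, hn, y, hy, rfl⟩ := (mem_sup_norm (hnN _)).1 (h5 h2)
  refine ⟨y, hy, ?_⟩
  rw [map_mul, QuotientGroup.mk'_apply N n, (QuotientGroup.eq_one_iff n).2 hn, one_mul]

end Cfsg.Agent.S1281
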