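import Mathlib
import Cfsg.Statements.S1286
import Cfsg.Agent.BG.Api4

set_option autoImplicit false
open Cfsg

namespace Cfsg.Agent.S1286

open Equiv

/-- ambient group -/
abbrev XX := Perm (Fin 5)
/-- first involution -/
def a : XX := swap 3 4
/-- second involution -/
def b : XX := swap 0 1
/-- first 3-cycle -/
def x : XX := swap 0 1 * swap 1 2
/-- second 3-cycle -/
def y : XX := swap 2 3 * swap 3 4

/-- the four-group -/
def AA : Subgroup XX where
  carrier := ({1, a, b, a * b} : Finset XX)
  one_mem' := by simp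
  mul_mem' := by
    intro u v hu hv
    simp only [Finset.coe_insert, Finset.coe_singleton, Set.mem_insert_iff, Set.mem_singleton_iff] at hu hv ⊢
    rcases hu with rfl | rfl | rfl | rfl <;> rcases hv with rfl | rfl | rfl | rfl <;> decide
  inv_mem' := by
    intro u hu
    simp only [Finset.coe_insert, Finset.coe_singleton, Set.mem_insert_iff, Set.mem_singleton_iff] at hu ⊢
    rcases hu with rfl | rfl | rfl | rfl <;> decide

theorem mem_AA {u : XX} : u ∈ AA ↔ u = 1 ∨ u = a ∨ u = b ∨ u = a * b := by
  change u ∈ (({1, a, b, a * b} : Finset XX) : Set XX) ↔ _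
  simp

theorem mem_z {z u : XX} (h : z ^ 3 = 1) : u ∈ Subgroup.zpowers z ↔ u = 1 ∨ u = z ∨ u = z ^ 2 := by
  constructor
  · rintro ⟨k, rfl⟩
    have h3 : z ^ (3 : ℤ) = 1 := by exact_mod_cast h
    have : z ^ k = z ^ (k % 3) := by
      conv_lhs => rw [← Int.mul_ediv_add_emod k 3, zpow_add, zpow_mul, h3, one_zpow, one_mul]
    simp only [this]
    have h0 : 0 ≤ k % 3 := Int.emod_nonneg _ (by norm_num)
    have h1 : k % 3 < 3 := Int.emod_lt_of_pos _ (by norm_num)
    generalize k % 3 = j at *
    interval_cases j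
    · simp
    · simp
    · right; right; exact_mod_cast rfl
  · rintro (rfl | rfl | rfl)
    · exact one_mem _
    · exact Subgroup.mem_zpowers _
    · exact pow_mem (Subgroup.mem_zpowers _) _

/-- the functor -/
def th (g : XX) : Subgroup XX := if g = a then Subgroup.zpowers x else if g = b then Subgroup.zpowers y else ⊥

theorem th_a : th a = Subgroup.zpowers x := if_pos rfl
theorem th_b : th b = Subgroup.zpowers y := by rw [th, if_neg (by decide), if_pos rfl]
theorem th_ab : th (a * b) = ⊥ := by rw [th, if_neg (by decide), if_neg (by decide)]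
theorem hx : x ^ 3 = 1 := by decide
theorem hy : y ^ 3 = 1 := by decide
theorem ox : orderOf x = 3 := haveI : Fact (Nat.Prime 3) := ⟨by norm_num⟩; orderOf_eq_prime hx (by decide)
theorem oy : orderOf y = 3 := haveI : Fact (Nat.Prime 3) := ⟨by norm_num⟩; orderOf_eq_prime hy (by decide)

/-- There exist a finite group X, an elementary abelian subgroup A of order 4 and a solvable A-signalizer functor θ on X for the prime 2 which is not complete. -/
theorem result : ∃ (X : Type) (_ : Group X) (_ : Finite X) (A : Subgroup X) (θ : X → Subgroup X), Cfsg.IsElementaryAbelian 2 A ∧ Nat.card ↥A = 4 ∧ Cfsg.IsSolvableSignalizerFunctor 2 A θ ∧ ¬ Cfsg.IsCompleteSignalizerFunctor 2 A θ := by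
  refine ⟨XX, inferInstance, inferInstance, AA, th, ⟨⟨⟨?_⟩⟩, ?_⟩, ?_, ⟨⟨?_, ?_, ?_, ?_⟩, ?_⟩, ?_⟩
  · rintro ⟨u, hu⟩ ⟨v, hv⟩
    apply Subtype.ext
    change u * v = v * u
    rw [mem_AA] at hu hv
    rcases hu with rfl | rfl | rfl | rfl <;> rcases hv with rfl | rfl | rfl | rfl <;> decide
  · intro u hu
    rw [mem_AA] at hu
    rcases hu with rfl | rfl | rfl | rfl <;> decide
  · change Nat.card (({1, a, b, a * b} : Finset XX) : Set XX) = 4
    rw [Nat.card_coe_set_eq, Set.ncard_coe_finset]
    decide
  · intro u hu h1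
    rcases mem_AA.1 hu with rfl | rfl | rfl | rfl
    · exact (h1 rfl).elim
    · rw [th_a, Subgroup.zpowers_le, Subgroup.mem_centralizer_singleton_iff]; decide
    · rw [th_b, Subgroup.zpowers_le, Subgroup.mem_centralizer_singleton_iff]; decide
    · rw [th_ab]; exact bot_le
  · intro u hu h1
    rcases mem_AA.1 hu with rfl | rfl | rfl | rfl
    · exact (h1 rfl).elim
    · rw [th_a, Nat.card_zpowers, ox]; decide
    · rw [th_b, Nat.card_zpowers, oy]; decide
    · rw [th_ab, Subgroup.card_bot]; decide
  · intro u hu h1 v hv w hw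
    rcases mem_AA.1 hu with rfl | rfl | rfl | rfl
    · exact (h1 rfl).elim
    · rw [th_a, mem_z hx] at hw ⊢
      rcases mem_AA.1 hv with rfl | rfl | rfl | rfl <;> rcases hw with rfl | rfl | rfl <;> decide
    · rw [th_b, mem_z hy] at hw ⊢
      rcases mem_AA.1 hv with rfl | rfl | rfl | rfl <;> rcases hw with rfl | rfl | rfl <;> decide
    · rw [th_ab, Subgroup.mem_bot] at hw ⊢
      rw [hw, mul_one, mul_inv_cancel]
  · intro u hu h1 v hv h2 w hw
    by_cases huv : u = v
    · exact huv ▸ hw.1
    suffices w = 1 by rw [this]; exact one_mem _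
    obtain ⟨hw1, hw2⟩ := Subgroup.mem_inf.1 hw
    rw [Subgroup.mem_centralizer_singleton_iff] at hw2
    rcases mem_AA.1 hu with rfl | rfl | rfl | rfl
    · exact (h1 rfl).elim
    · rw [th_a, mem_z hx] at hw1
      rcases mem_AA.1 hv with rfl | rfl | rfl | rfl <;> rcases hw1 with rfl | rfl | rfl <;> revert hw2 huv h2 <;> decide
    · rw [th_b, mem_z hy] at hw1
      rcases mem_AA.1 hv with rfl | rfl | rfl | rfl <;> rcases hw1 with rfl | rfl | rfl <;> revert hw2 huv h2 <;> decide
    · rwa [th_ab, Subgroup.mem_bot] at hw1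
  · intro u hu h1
    rcases mem_AA.1 hu with rfl | rfl | rfl | rfl
    · exact (h1 rfl).elim
    · rw [th_a]; infer_instance
    · rw [th_b]; infer_instance
    · rw [th_ab]; infer_instance
  · rintro ⟨-, Y, -, h2, h3⟩
    have h4 : x ∈ Y := by
      have := h3 a (mem_AA.2 (by simp)) (by decide)
      rw [th_a] at this
      exact (this.ge (Subgroup.mem_zpowers _)).1
    have h5 : y ∈ Y := by
      have := h3 b (mem_AA.2 (by simp)) (by decide)
      rw [th_b] at this
      exact (this.ge (Subgroup.mem_zpowers _)).1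
    have h6 : orderOf (x * (y * x * y⁻¹)) = 2 := orderOf_eq_prime (by decide) (by decide)
    exact h2 (h6 ▸ Y.orderOf_dvd_natCard (mul_mem h4 (mul_mem (mul_mem h5 h4) (inv_mem h5))))

end Cfsg.Agent.S1286
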