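import Mathlib
import Cfsg.Statements.S1287
import Cfsg.Agent.H22.SigF1

set_option autoImplicit false
open scoped Pointwise
open Cfsg

namespace Cfsg.Agent.S1287

open BG H22

/-- Let A be a noncyclic elementary abelian p-subgroup of a finite group H normalizing a subgroup K of order prime to p, and X, Y ≤ K subgroups normalized by A with C_K(a) = C_X(a) C_Y(a) (as sets) for every non-identity a ∈ A, where X is also normalized by C_K(A). Then K = XY as sets. -/
theorem result {H : Type*} [Group H] [Finite H] (p : ℕ) [Fact p.Prime] (A K X Y : Subgroup H) (hA : Cfsg.IsElementaryAbelian p A) (hA2 : p ^ 2 ≤ Nat.card ↥A) (hK : ¬ p ∣ Nat.card ↥K) (hAK : A ≤ Subgroup.normalizer (K : Set H)) (hX : X ≤ K) (hY : Y ≤ K) (hAX : A ≤ Subgroup.normalizer (X : Set H)) (hAY : A ≤ Subgroup.normalizer (Y : Set H)) (hCX : K ⊓ Subgroup.centralizer (A : Set H) ≤ Subgroup.normalizer (X : Set H)) (hfac : ∀ a ∈ A, a ≠ 1 → ((K ⊓ Subgroup.centralizer {a} : Subgroup H) : Set H) = ((X ⊓ Subgroup.centralizer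 {a} : Subgroup H) : Set H) * ((Y ⊓ Subgroup.centralizer {a} : Subgroup H) : Set H)) : (K : Set H) = (X : Set H) * (Y : Set H) := by
    have hp : p.Prime := Fact.out
    obtain ⟨B, hB⟩ := exists_isElem_le hp hA hA2
    have h := pl hp hB hK (hB.le.trans hAK) hX (hB.le.trans hAX) (hB.le.trans hAY) fun b hb hc g hg => by
      obtain ⟨a, ha, h1⟩ := exists_mem_ne_one (pt_ne_bot hp hc)
      have e := cent1_eq_of_prime (hc ▸ hp) ha h1
      have h2 : g ∈ ((K ⊓ Subgroup.centralizer {a} : Subgroup H) : Set H) := by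
        change g ∈ K ⊓ C_[a]; rwa [e]
      rw [hfac a (hB.le (hb ha)) h1] at h2
      obtain ⟨x, hx, y, hy, rfl⟩ := h2
      refine ⟨x, ?_, y, hy.1, rfl⟩
      rw [← e]; exact hx
    refine Set.Subset.antisymm (fun g hg => ?_) ?_
    · obtain ⟨x, hx, y, hy, rfl⟩ := h g hg
      exact ⟨x, hx, y, hy, rfl⟩
    · rintro _ ⟨x, hx, y, hy, rfl⟩
      exact K.mul_mem (hX hx) (hY hy)

end Cfsg.Agent.S1287
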