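import Mathlib
import Cfsg.Statements.S1288
import Cfsg.Agent.H22.SigF2

set_option autoImplicit false
open Cfsg

namespace Cfsg.Agent.S1288

open BG H22

/-- Let A be a noncyclic elementary abelian p-subgroup of a finite group H normalizing a solvable subgroup K of order prime to p, q a prime dividing |K|, and U ≤ K a subgroup of order prime to q such that ⁅U, C_K(B)⁆ has order prime to q for every subgroup B of index p in A. Then U ≤ O_{q'}(K). -/
theorem result {H : Type*} [Group H] [Finite H] (p : ℕ) [Fact p.Prime] (A K : Subgroup H) (hA : Cfsg.IsElementaryAbelian p A) (hA2 : p ^ 2 ≤ Nat.card ↥A) (hK : ¬ p ∣ Nat.card ↥K) (hKs : Group.IsSolvable ↥K) (hAK : A ≤ Subgroup.normalizer (K : Set H)) (q : ℕ) [Fact q.Prime] (hqK : q ∣ Nat.card ↥K) (U : Subgroup H) (hU : U ≤ K) (hUq : ¬ q ∣ Nat.card ↥U) (hcomm : ∀ B : Subgroup H, B ≤ A → B.relIndex A = p → ¬ q ∣ Nat.card ↥⁅U, K ⊓ Subgroup.centralizer (B : Set H)⁆) : U ≤ (Cfsg.pPrimeCore q ↥K).map K.subtype := by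
  have hp : p.Prime := Fact.out
  have hq : q.Prime := Fact.out
  change U ≤ H02.pPrimeCoreOf q K
  rw [p'coreOf_eq hq]
  obtain ⟨n, hn⟩ := hA.exists_isElem hp
  obtain ⟨n, rfl⟩ : ∃ m, n = m + 1 := by
    rcases n with _ | n
    · rw [hn.card, pow_zero] at hA2
      exact absurd hA2 (Nat.one_lt_pow (by omega) hp.one_lt).not_ge
    · exact ⟨n, rfl⟩
  have hF := norm_ppcore q hAK
  have dF := not_dvd_of_le hK (ppcore_le q K)
  obtain ⟨Q, hQ, hQA⟩ := coprime_sylow_exists hq (Or.inl (sol_of_abelian hA.abelian)) hF (coprime_of_elem hp hA dF)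
  have l1 := hQ.le.trans (ppcore_le q K)
  have nK : K ≤ N_(piCoreOf {q}ᶜ K) := le_norm_pcore _ _
  refine le_p'core_of_quo hq hKs hU hUq ?_
  rw [← quo_sylow_ppcore hq hQ]
  refine cent_symm ((quo_le_iff (l1.trans nK)).2 (gen_hyp hp hn hQA (not_dvd_of_le hK l1) fun B hB => ?_))
  rw [← quo_le_iff (inf_le_left.trans (l1.trans nK))]
  refine cent_symm ((quo_le_cent_iff (hU.trans nK) (inf_le_left.trans (l1.trans nK))).2 (H02.le_p'core_of_le_ppcore hq ?_ ?_))
  · exact (comm_mono le_rfl (inf_le_left.trans hQ.le)).trans (comm_le_right (hU.trans (norm_ppcore q (le_norm K))))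
  · refine not_dvd_of_le (hcomm B hB.le ?_) (comm_mono le_rfl (inf_le_inf_right _ l1))
    have := card_mul_relIndex hB.le
    rw [hB.card, hn.card, pow_succ] at this
    exact Nat.eq_of_mul_eq_mul_left (Nat.pow_pos hp.pos) this

end Cfsg.Agent.S1288
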