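import Mathlib
import Cfsg.Statements.S1299
import Cfsg.Agent.H22.SFT
import Cfsg.Agent.H22.KBal

set_option autoImplicit false
open Cfsg

namespace Cfsg.Agent.S1299

open BG H22

section
variable {G : Type*} [Group G]

/-- the closure attached to a subgroup `D` of `A` -/
def W (p k : ℕ) (A D : Subgroup G) : Subgroup G :=
  ⨆ B : {B : Subgroup G // B ≤ A ∧ Nat.card ↥B = p ^ k}, Cfsg.signalizerDelta p (B : Subgroup G) ⊓ C_(D)

variable {p k : ℕ} {A D E : Subgroup G}

theorem W_anti (h : D ≤ E) : W p k A E ≤ W p k A D := iSup_mono fun _ => inf_le_inf_left _ (cent_anti h)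

theorem W_le_cent : W p k A D ≤ C_(D) := iSup_le fun _ => inf_le_right

variable [Finite G] [hp : Fact p.Prime]

theorem norm_W (hA : Cfsg.IsElementaryAbelian p A) (hD : D ≤ A) : A ≤ N_(W p k A D) :=
  H01.le_normalizer_iSup fun B => norm_inf ((le_cent_mono (abelian_iff.1 hA.abelian) le_rfl B.2.1).trans (cent_le_norm_delta _))
    (norm_cent ((le_cent_mono (abelian_iff.1 hA.abelian) le_rfl hD).trans (cent_le_norm _)))

theorem W_le (hbal : Cfsg.IsKBalanced p k G) (hA : Cfsg.IsElementaryAbelian p A) (hD : D ≤ A) {b : G} (hb : b ∈ D)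
    (h1 : b ≠ 1) : W p k A D ≤ Cfsg.centralizerPPrimeCore p b :=
  iSup_le fun B => (inf_le_inf_left _ (cent_le_cent1 hb)).trans
    (hbal B (hA.of_le B.2.1) B.2.2 b (hA.orderOf hp.out (hD hb) h1)
      fun a ha => (abelian_iff.1 hA.abelian (hD hb) a (B.2.1 ha)))

theorem good (hk : 1 ≤ k) (hbal : Cfsg.IsKBalanced p k G) (hA : Cfsg.IsElementaryAbelian p A)
    (hAk : p ^ (k + 2) ≤ Nat.card A) (hsolv : ∀ a ∈ A, a ≠ 1 → Group.IsSolvable ↥(Cfsg.centralizerPPrimeCore p a))
    (D : Subgroup G) : D ≤ A → D ≠ ⊥ → ∀ D₁, D ≤ D₁ → D₁ ≤ A → W p k A D ⊓ C_(D₁) ≤ W p k A D₁ := by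
  induction D using WellFoundedGT.induction with
  | ind D ih =>
  intro hD h0 D₁ h1 h2
  have hpp := hp.out
  by_cases hc : p ^ k ≤ Nat.card D
  · obtain ⟨B, hB⟩ := exists_isElem_le hpp (hA.of_le hD) hc
    refine le_trans (inf_le_inf_right _ ((le_delta_iff.2 fun b hb hb1 => W_le hbal hA hD hb hb1).trans
      (delta_anti hB.le))) (le_iSup_of_le ⟨B, hB.le.trans hD, hB.card⟩ le_rfl)
  obtain ⟨E, hE⟩ := hA.exists_compl hpp hD
  have hEA := hE.le_right
  have hEe := hA.of_le hEA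
  have h3 : p ^ 3 ≤ Nat.card E := by
    obtain ⟨m, hm⟩ := (hA.of_le hD).exists_isElem hpp
    rw [hE.card, hm.card] at hAk
    rw [hm.card, not_le, Nat.pow_lt_pow_iff_right hpp.one_lt] at hc
    by_contra h
    have h4 : p ^ m * Nat.card E < p ^ m * p ^ 3 := Nat.mul_lt_mul_of_pos_left (not_le.1 h) (pow_pos hpp.pos _)
    rw [← pow_add] at h4
    have := (Nat.pow_lt_pow_iff_right hpp.one_lt).1 (hAk.trans_lt h4)
    omega
  have hlt : ∀ e ∈ E, e ≠ 1 → D < D ⊔ Subgroup.zpowers e := fun e he h4 => left_lt_sup.2 fun h => h4 (by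
    have : e ∈ D ⊓ E := ⟨h (Subgroup.mem_zpowers e), he⟩
    rwa [hE.disj] at this)
  have hle : ∀ e ∈ E, D ⊔ Subgroup.zpowers e ≤ A := fun e he => sup_le hD (Subgroup.zpowers_le.2 (hEA he))
  have hme : ∀ e : G, e ∈ D ⊔ Subgroup.zpowers e := fun e => Subgroup.mem_sup_right (Subgroup.mem_zpowers e)
  have hne : ∀ e ∈ E, D ⊔ Subgroup.zpowers e ≠ ⊥ := fun e _ h => h0 (le_bot_iff.1 (h ▸ le_sup_left))
  have sf : SF p E fun e => W p k A (D ⊔ Subgroup.zpowers e) :=
    { prime := hpp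
      elem := hEe
      le_cent := fun e _ _ => W_le_cent.trans (cent_le_cent1 (hme e))
      nd := fun e he h4 => not_dvd_of_le (cpc_not_dvd e) (W_le hbal hA (hle e he) (hme e) h4)
      inv := fun e he _ => hEA.trans (norm_W hA (hle e he))
      bal := fun e he h4 f hf _ => by
        refine le_trans ?_ ((ih _ (hlt e he h4) (hle e he) (hne e he) (D ⊔ Subgroup.zpowers e ⊔ Subgroup.zpowers f)
          le_sup_left (sup_le (hle e he) (Subgroup.zpowers_le.2 (hEA hf)))).trans
          (W_anti (sup_le_sup_right le_sup_left _)))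
        rw [cent_sup _ (Subgroup.zpowers f), cent_zpowers]
        exact le_inf inf_le_left (inf_le_inf_right _ W_le_cent)
      sol := fun e he h4 => sol_of_le (hsolv e (hEA he) h4) (W_le hbal hA (hle e he) (hme e) h4) }
  obtain ⟨X, hX, hX'⟩ := sf.cpl h3
  have hWX : W p k A D ≤ X := iSup_le fun B =>
    gen_elts hpp hEe ((Nat.pow_le_pow_right hpp.pos (by norm_num)).trans h3)
      (hEA.trans (norm_inf ((le_cent_mono (abelian_iff.1 hA.abelian) le_rfl B.2.1).trans (cent_le_norm_delta _))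
        (norm_cent ((le_cent_mono (abelian_iff.1 hA.abelian) le_rfl hD).trans (cent_le_norm _)))))
      (not_dvd_of_le (delta_not_dvd (ne_bot_of_card_pow hk B.2.2)) inf_le_left) fun e he h4 =>
      le_trans (le_iSup_of_le B (by rw [cent_sup, cent_zpowers, inf_assoc])) (hX' e he h4)
  by_cases h4 : D₁ ⊓ E = ⊥
  · have : D₁ = D := by
      have h5 := (hE.symm.modl h1).sup
      rw [inf_comm E, h4, bot_sup_eq, inf_eq_right.2 h2] at h5
      exact h5.symm
    rw [this]; exact inf_le_left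
  obtain ⟨e, he, h5⟩ := exists_mem_ne_one h4
  refine le_trans ?_ (ih _ (hlt e he.2 h5) (hle e he.2) (hne e he.2) D₁
    (sup_le h1 (Subgroup.zpowers_le.2 he.1)) h2)
  exact le_inf ((inf_le_inf hWX (cent_le_cent1 he.1)).trans (hX.fix e he.2 h5)) inf_le_right
end

/-- Let G be finite and k-balanced for the prime p (k ≥ 1), A an elementary abelian p-subgroup of order at least p^(k+2) such that O_{p'}(C_G(a)) is solvable for every non-identity a ∈ A. For a ∈ A put θ a = the subgroup generated by the Δ_G(D) ∩ C_G(a) over the subgroups D ≤ A of order p^k. Then θ is an A-signalizer functor. -/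
theorem result {G : Type*} [Group G] [Finite G] (p k : ℕ) [Fact p.Prime] (hk : 1 ≤ k) (hbal : Cfsg.IsKBalanced p k G) (A : Subgroup G) (hA : Cfsg.IsElementaryAbelian p A) (hAk : p ^ (k + 2) ≤ Nat.card ↥A) (hsolv : ∀ a ∈ A, a ≠ 1 → Group.IsSolvable ↥(Cfsg.centralizerPPrimeCore p a)) : Cfsg.IsSignalizerFunctor p A (fun a => ⨆ D : {D : Subgroup G // D ≤ A ∧ Nat.card ↥D = p ^ k}, Cfsg.signalizerDelta p (D : Subgroup G) ⊓ Subgroup.centralizer {a}) := by
  have hW : ∀ a : G, (⨆ D : {D : Subgroup G // D ≤ A ∧ Nat.card ↥D = p ^ k},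
      Cfsg.signalizerDelta p (D : Subgroup G) ⊓ Subgroup.centralizer {a}) = W p k A (Subgroup.zpowers a) := fun a => by
    rw [W, cent_zpowers]
  simp only [hW]
  have hz : ∀ a ∈ A, Subgroup.zpowers a ≤ A := fun a ha => Subgroup.zpowers_le.2 ha
  refine ⟨fun a _ _ => W_le_cent.trans (cent_zpowers a).le,
    fun a ha h1 => not_dvd_of_le (cpc_not_dvd a) (W_le hbal hA (hz a ha) (Subgroup.mem_zpowers a) h1),
    fun a ha _ b hb x hx => (Subgroup.mem_normalizer_iff.1 (norm_W hA (hz a ha) hb) x).1 hx, fun a ha h1 b hb _ => ?_⟩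
  refine le_trans ?_ ((good hk hbal hA hAk hsolv _ (hz a ha) (by simpa using h1)
    (Subgroup.zpowers a ⊔ Subgroup.zpowers b) le_sup_left (sup_le (hz a ha) (hz b hb))).trans (W_anti le_sup_right))
  rw [cent_sup, cent_zpowers b]
  exact le_inf inf_le_left (inf_le_inf_right _ W_le_cent)

end Cfsg.Agent.S1299
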