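import Mathlib
import Cfsg.Statements.S1302
import Cfsg.Agent.H17.Constr
import Cfsg.Agent.H24.Baer
import Cfsg.Agent.BG.Api3

set_option autoImplicit false
open Cfsg

namespace Cfsg.Agent.S1302

open BG Subgroup
open scoped commutatorElement

/-- Let X be a finite p-constrained group, p an odd prime, and A an abelian p-subgroup of X containing every element of order p of C_X(A). Then every subgroup of X of order prime to p that is normalized by A lies in O_{p'}(X). -/
theorem result {X : Type*} [Group X] [Finite X] (p : ℕ) [Fact p.Prime] (hp : p ≠ 2) (hX : Cfsg.IsPConstrained p X) (A : Subgroup X) (hA : IsMulCommutative ↥A) (hAp : IsPGroup p ↥A) (hΩ : ∀ x ∈ Subgroup.centralizer (A : Set X), orderOf x = p → x ∈ A) (Q : Subgroup X) (hQ : ¬ p ∣ Nat.card ↥Q) (hAQ : A ≤ Subgroup.normalizer (Q : Set X)) : Q ≤ Cfsg.pPrimeCore p X := by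
  classical
  have hpp : p.Prime := Fact.out
  set f := QuotientGroup.mk' (Cfsg.pPrimeCore p X) with hf
  have hs : Function.Surjective f := QuotientGroup.mk'_surjective _
  have hk := H17.coprime_ker_mk' (G := X) (p := p)
  have hQc : (Nat.card Q).Coprime p := ((Nat.Prime.coprime_iff_not_dvd hpp).2 hQ).symm
  have hQ' : (Nat.card (Q.map f)).Coprime p := hQc.coprime_dvd_left (card_map_dvd _ _)
  have hAQ' : A.map f ≤ normalizer (Q.map f : Set _) := (map_mono hAQ).trans (le_normalizer_map f)
  have hG := H02.pCore_isPGroup p (X ⧸ Cfsg.pPrimeCore p X)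
  have hdis : Q.map f ⊓ Cfsg.pCore p (X ⧸ Cfsg.pPrimeCore p X) = ⊥ := by
    rw [eq_bot_iff]
    intro x hx
    exact H26.eq_one_of_mem_pGroup hG hx.2 (hQ'.coprime_dvd_left (orderOf_dvd_natCard _ hx.1))
  have key := H24.bender_PQ_omega hp (hAp.map f) hQ' hAQ' hG (le_top.trans (normalizer_eq_top _).ge)
    (le_top.trans (normalizer_eq_top _).ge) (fun x hxG hxC hxp => by
      rw [← H17.centralizer_map_of_coprime_ker hs hk hAp] at hxC
      obtain ⟨c, hc, rfl⟩ := hxC
      have h1 : c ^ p ∈ f.ker := by rw [MonoidHom.mem_ker, map_pow, hxp]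
      have h2 : (orderOf (c ^ p)).Coprime p := hk.coprime_dvd_left (orderOf_dvd_natCard _ h1)
      obtain ⟨k, hk1, hk2⟩ := Nat.chineseRemainder h2 0 1
      have h3 : (c ^ k) ^ p = 1 := by
        rw [← pow_mul, mul_comm, pow_mul]
        exact orderOf_dvd_iff_pow_eq_one.1 ((Nat.modEq_zero_iff_dvd).1 hk1)
      have h4 : f (c ^ k) = f c := by
        rw [map_pow]
        have := pow_eq_pow_of_modEq hk2 hxp
        rwa [pow_one] at this
      have h5 : f c ∈ A.map f := by
        rw [← h4]
        refine mem_map_of_mem _ ?_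
        by_cases h : c ^ k = 1
        · rw [h]; exact one_mem _
        · exact hΩ _ (pow_mem hc k) (orderOf_eq_prime h3 h)
      intro q hq
      have h6 : q * f c * q⁻¹ * (f c)⁻¹ ∈ Q.map f ⊓ Cfsg.pCore p (X ⧸ Cfsg.pPrimeCore p X) := by
        refine ⟨?_, Subgroup.mul_mem _ (Subgroup.Normal.conj_mem inferInstance _ hxG q) (Subgroup.inv_mem _ hxG)⟩
        have := (mem_normalizer_iff.1 (hAQ' h5) q⁻¹).1 ((Q.map f).inv_mem hq)
        have h7 := (Q.map f).mul_mem hq this
        simpa [mul_assoc] using h7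
      rw [hdis, mem_bot] at h6
      rw [mul_inv_eq_one, mul_inv_eq_iff_eq_mul] at h6
      exact h6)
  have h8 : Q.map f ≤ Cfsg.pCore p (X ⧸ Cfsg.pPrimeCore p X) := key.trans (H17.isPConstrained_iff_quot.1 hX)
  have h9 : Q.map f = ⊥ := by rw [← hdis]; exact (inf_eq_left.2 h8).symm
  rw [Subgroup.map_eq_bot_iff, QuotientGroup.ker_mk'] at h9
  exact h9

end Cfsg.Agent.S1302
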