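import Mathlib
import Cfsg.Statements.S1303
import Cfsg.Agent.H17.Constr
import Cfsg.Agent.S0144
import Cfsg.Agent.BG.Api4

set_option autoImplicit false
open Cfsg

namespace Cfsg.Agent.S1303

/-- the group -/
abbrev GG := Matrix.SpecialLinearGroup (Fin 2) (ZMod 3)

theorem card_sl : Nat.card GG = 24 := by
  rw [Nat.card_eq_fintype_card]; decide +kernel

/-- a unipotent element -/
def u : GG := ⟨!![1, 1; 0, 1], by decide⟩

theorem ou : orderOf u = 3 := haveI : Fact (Nat.Prime 3) := ⟨by norm_num⟩; orderOf_eq_prime (by decide) (by decide)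

theorem key : ∀ g : GG, g ^ 3 = 1 → g ≠ 1 → ∃ h : GG, (g * (h * g * h⁻¹)⁻¹) ^ 3 ≠ 1 := by decide +kernel

theorem inv : ∀ t : GG, t ^ 2 = 1 → ∀ g : GG, g * t = t * g := by decide +kernel

theorem core : Cfsg.pPrimeCore 2 GG = ⊥ := by
  have h1 := H02.pPrimeCore_coprime 2 GG
  have h2 : Nat.card (Cfsg.pPrimeCore 2 GG) ∣ 2 ^ 3 * 3 := by
    have := Subgroup.card_subgroup_dvd_card (Cfsg.pPrimeCore 2 GG)
    rwa [card_sl] at this
  have h3 := (h1.pow_right 3).dvd_of_dvd_mul_left h2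
  have h4 : ∀ g ∈ Cfsg.pPrimeCore 2 GG, g ^ 3 = 1 := fun g hg =>
    orderOf_dvd_iff_pow_eq_one.1 ((Subgroup.orderOf_dvd_natCard _ hg).trans h3)
  rw [eq_bot_iff]
  intro g hg
  by_contra h
  obtain ⟨k, hk⟩ := key g (h4 g hg) h
  exact hk (h4 _ (mul_mem hg (inv_mem (Subgroup.Normal.conj_mem inferInstance g hg k))))

/-- The group X = SL(2, 3): it is 2-constrained, O_{2'}(X) = 1, its centre A = Z(X) contains every involution of X = C_X(A), and X has a subgroup of order 3 (normalized by A) not contained in O_{2'}(X). -/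
theorem result : Cfsg.IsPConstrained 2 (Matrix.SpecialLinearGroup (Fin 2) (ZMod 3)) ∧ Cfsg.pPrimeCore 2 (Matrix.SpecialLinearGroup (Fin 2) (ZMod 3)) = ⊥ ∧ (∀ t : Matrix.SpecialLinearGroup (Fin 2) (ZMod 3), orderOf t = 2 → t ∈ Subgroup.center (Matrix.SpecialLinearGroup (Fin 2) (ZMod 3))) ∧ ∃ Q : Subgroup (Matrix.SpecialLinearGroup (Fin 2) (ZMod 3)), Nat.card ↥Q = 3 ∧ ¬ (Q ≤ Cfsg.pPrimeCore 2 (Matrix.SpecialLinearGroup (Fin 2) (ZMod 3))) := by
  have hs : Group.IsSolvable GG := Cfsg.Agent.S0144.result 2 3 3 1 Nat.prime_two Nat.prime_three (by rw [card_sl]; norm_num)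
  refine ⟨H17.isPConstrained_of_solvable, core, fun t ht => Subgroup.mem_center_iff.2 (inv t (orderOf_dvd_iff_pow_eq_one.1 ht.dvd)),
    Subgroup.zpowers u, by rw [Nat.card_zpowers, ou], ?_⟩
  rw [core, le_bot_iff, Subgroup.zpowers_eq_bot]
  decide

end Cfsg.Agent.S1303
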