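import Mathlib
import Cfsg.Statements.S1305
import Cfsg.Agent.H22.BProp
import Cfsg.Agent.H22.KBal

set_option autoImplicit false
open Cfsg

namespace Cfsg.Agent.S1305

open BG H22
open scoped commutatorElement

theorem diag {X : Type*} [Group X] [Finite X] {L K B : Subgroup X} {a : X} (hL : Cfsg.IsComponent L) (ha : a * a = 1)
    (hn : a ∉ N_(L)) (hK : ⁅K, K⁆ = K) (hKL : K ≤ orb L (Subgroup.zpowers a)) (hKa : K ≤ C_[a]) (hLK : ⁅L, K⁆ ≠ ⊥)
    (hc : Nat.card L ≤ Nat.card K) (hr : ¬ Cfsg.PRankLE 2 1 K) (hB : Cfsg.IsElementaryAbelian 2 B) (haB : a ∈ B)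
    (hBK : B ≤ C_(K)) :
    Nat.card L = Nat.card K ∧ ∃ E ≤ C_(L), Cfsg.IsElementaryAbelian 2 E ∧ Nat.card B < Nat.card E := by
  have hai : a⁻¹ = a := inv_eq_of_mul_eq_one_right ha
  have hL' : Cfsg.IsComponent (cj a L) := comp_conj hL a
  have hne : L ≠ cj a L := fun h => hn (cj_eq_self_iff.1 h.symm)
  have hcm : L ≤ C_(cj a L) := comm_eq_bot.1 (comp_comm_of_ne hL hL' hne)
  have hc' : cj a L ≤ C_(L) := cent_symm hcm
  have hcc : cj a (cj a L) = L := by rw [cj_cj, ha, cj_one]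
  have hM : K ≤ L ⊔ cj a L := hKL.trans (sSup_le (by
    rintro _ ⟨s, hs, rfl⟩
    rcases mem_zpowers_two ha hs with rfl | rfl
    · rw [cj_one]; exact le_sup_left
    · exact le_sup_right))
  have hmem : ∀ l ∈ L, a * l * a⁻¹ ∈ cj a L := fun l hl => conj_mem_cj _ hl
  let π : L →* X :=
    { toFun := fun l => l * (a * l * a⁻¹)
      map_one' := by simp
      map_mul' := fun x y => by
        have := hcm y.2 _ (hmem x x.2)
        simp only [Subgroup.coe_mul]
        calc (x : X) * y * (a * (x * y) * a⁻¹) = x * (y * (a * x * a⁻¹)) * (a * y * a⁻¹) := by group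
          _ = _ := by rw [← this]; group }
  have hπle : π.range ≤ L ⊔ cj a L := by
    rintro _ ⟨l, rfl⟩
    exact mul_mem (Subgroup.mem_sup_left l.2) (Subgroup.mem_sup_right (hmem l l.2))
  have hZ : L ⊓ cj a L ≤ C_(L ⊔ cj a L) := le_cent_sup (inf_le_right.trans hc') (inf_le_left.trans hcm)
  have hKπ : K ≤ π.range := by
    refine le_of_perfect_of_sol hK (R := L ⊓ cj a L) (fun x hx => ?_) (((hZ.trans (cent_anti hπle))).trans (cent_le_norm _))
      (sol_of_abelian (abelian_iff.2 (hZ.trans (cent_anti (inf_le_left.trans le_sup_left)))))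
    obtain ⟨l, hl, m, hm, rfl⟩ := (mem_sup_norm (hc'.trans (cent_le_norm _))).1 (hM hx)
    have h1 : a * m * a⁻¹ ∈ L := hcc ▸ conj_mem_cj _ hm
    have h2 : l * m = (a * m * a⁻¹) * (a * l * a⁻¹) := by
      rw [← hcm h1 _ (hmem l hl)]
      calc l * m = a * (l * m) * a⁻¹ := by rw [← mem_cent1.1 (hKa hx), mul_inv_cancel_right]
        _ = _ := by group
    have h3 : m * (a * l * a⁻¹)⁻¹ = l⁻¹ * (a * m * a⁻¹) := by
      rw [mul_inv_eq_iff_eq_mul, mul_assoc, ← h2, inv_mul_cancel_left]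
    have h4 : (a * l * a⁻¹)⁻¹ * m ∈ L ⊓ cj a L := by
      have h5 : m * (a * l * a⁻¹)⁻¹ ∈ L ⊓ cj a L :=
        Subgroup.mem_inf.2 ⟨h3 ▸ mul_mem (inv_mem hl) h1, mul_mem hm (inv_mem (hmem l hl))⟩
      have h6 := hZ h5 m (Subgroup.mem_sup_right hm)
      rwa [show (a * l * a⁻¹)⁻¹ * m = m * (a * l * a⁻¹)⁻¹ from mul_left_cancel (a := m) (by rw [h6, mul_assoc m _ m])]
    have : l * m = π ⟨l, hl⟩ * ((a * l * a⁻¹)⁻¹ * m) := by change _ = l * (a * l * a⁻¹) * _; group
    rw [this]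
    exact mul_mem (Subgroup.mem_sup_left ⟨_, rfl⟩) (Subgroup.mem_sup_right h4)
  have hcr : Nat.card π.range ≤ Nat.card L :=
    Nat.card_le_card_of_surjective _ π.rangeRestrict_surjective
  have hKe : K = π.range := eq_of_le_of_card_le hKπ (hcr.trans hc)
  have hce : Nat.card L = Nat.card π.range := le_antisymm (hKe ▸ hc) hcr
  have hb : Function.Bijective π.rangeRestrict :=
    π.rangeRestrict_surjective.bijective_of_nat_card_le hce.le
  have hπ : Function.Injective π := fun x y h => hb.1 (Subtype.ext h)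
  refine ⟨hKe ▸ hce, ?_⟩
  have hBa : B ≤ C_[a] := le_cent1_iff.2 (abelian_iff.1 hB.abelian haB)
  have h0 : B ⊓ N_(L) ≤ C_(L) := fun x hx l hl => by
    have h1 : x * l * x⁻¹ ∈ L := (Subgroup.mem_normalizer_iff.1 hx.2 l).1 hl
    have h2 : π ⟨l, hl⟩ * x = x * π ⟨l, hl⟩ := hBK hx.1 _ (hKe ▸ ⟨_, rfl⟩)
    have h3 : π ⟨_, h1⟩ = π ⟨l, hl⟩ := by
      have h4 : Commute x a := mem_cent1.1 (hBa hx.1)
      calc π ⟨_, h1⟩ = x * l * x⁻¹ * (a * (x * l * x⁻¹) * a⁻¹) := rfl
        _ = x * l * (x⁻¹ * a * x) * l * (x⁻¹ * a⁻¹) := by group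
        _ = x * (l * (a * l * a⁻¹)) * x⁻¹ := by
          rw [h4.inv_left.eq, inv_mul_cancel_right, h4.inv_inv.eq]; group
        _ = _ := by change x * π ⟨l, hl⟩ * x⁻¹ = _; rw [← h2, mul_inv_cancel_right]
    exact (mul_inv_eq_iff_eq_mul.1 (congrArg Subtype.val (hπ h3))).symm
  have h1 : B ≤ (B ⊓ N_(L)) ⊔ Subgroup.zpowers a := fun x hx => by
    by_cases h : cj x L = L
    · exact Subgroup.mem_sup_left ⟨hx, cj_eq_self_iff.1 h⟩
    by_cases h' : cj x L = cj a L
    · have : x = a * (a⁻¹ * x) := by group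
      rw [this]
      exact mul_mem (Subgroup.mem_sup_right (Subgroup.mem_zpowers a))
        (Subgroup.mem_sup_left (Subgroup.mem_inf.2 ⟨mul_mem (inv_mem haB) hx, cj_eq_cj_iff.1 h'⟩))
    refine (hLK ?_).elim
    have h2 : cj x L ≤ C_(cj x K) := by
      rw [cj_of_mem_cent (hBK hx)]
      exact (le_cent_sup (comm_eq_bot.1 (comp_comm_of_ne (comp_conj hL x) hL h))
        (comm_eq_bot.1 (comp_comm_of_ne (comp_conj hL x) hL' h'))).trans (cent_anti hM)
    rw [← cj_cent, cj_le_iff, cj_cj, inv_mul_cancel, cj_one] at h2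
    exact comm_eq_bot.2 h2
  have h2 : Nat.card B ≤ Nat.card ↥(B ⊓ N_(L)) * 2 := by
    refine (card_le h1).trans ((Nat.le_of_dvd (Nat.mul_pos Nat.card_pos Nat.card_pos) (card_sup_dvd ((le_cent_of_abelian hB.abelian
      (Subgroup.zpowers_le.2 haB) inf_le_left).trans (cent_le_norm _)))).trans (Nat.mul_le_mul_left _ ?_))
    rw [Nat.card_zpowers]
    exact orderOf_le_of_pow_eq_one two_pos (by rw [pow_two, ha])
  obtain ⟨V, hV⟩ := (not_pRankLE_iff Nat.prime_two).1 hr
  have hVL : IsElem 2 2 (((V.comap π)).map L.subtype) L := by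
    have hVr : V ≤ π.range := hKe ▸ hV.le
    have e : (V.comap π).map π = V := Subgroup.map_comap_eq_self hVr
    refine ⟨Subgroup.map_subtype_le _, elemAb_map ⟨⟨⟨fun x y => Subtype.ext (hπ ?_)⟩⟩, fun x hx => hπ ?_⟩ _, ?_⟩
    · simp only [Subgroup.coe_mul, map_mul]
      exact hV.le_cent y.2 _ x.2
    · rw [map_pow, map_one]; exact hV.elemAb.pow hx
    · rw [Subgroup.card_map_of_injective L.subtype_injective, ← hV.card, ← Subgroup.card_map_of_injective hπ, e]
  have hW := hVL.cj a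
  set W := cj a ((V.comap π).map L.subtype)
  have h3 : B ⊓ N_(L) ≤ C_(cj a L) := by
    have := cj_mono a h0
    rwa [cj_cent, cj_of_mem_cent (le_cent_of_abelian hB.abelian le_rfl inf_le_left haB)] at this
  have h4 : (B ⊓ N_(L)) ⊓ W = ⊥ := by
    rw [eq_bot_iff]
    intro z hz
    have h5 : a * z * a⁻¹ = z := by rw [← mem_cent1.1 (hBa hz.1.1), mul_inv_cancel_right]
    have h6 : z ∈ L := by rw [← h5, ← hcc]; exact conj_mem_cj _ (hW.le hz.2)
    have h7 : π ⟨z, h6⟩ = π 1 := by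
      rw [map_one]; change z * (a * z * a⁻¹) = 1
      rw [h5, ← pow_two]; exact hB.pow hz.1.1
    exact congrArg Subtype.val (hπ h7)
  have h5 := h3.trans (cent_anti hW.le)
  refine ⟨(B ⊓ N_(L)) ⊔ W, sup_le h0 (hW.le.trans hc'), (hB.of_le inf_le_left).sup hW.elemAb h5, ?_⟩
  rw [card_sup_of_disj ((cent_symm h5).trans (cent_le_norm _)) h4, hW.card]
  have : 0 < Nat.card ↥(B ⊓ N_(L)) := Nat.card_pos
  omega

/-- Let G be a finite group of component type with the B-property and no nontrivial normal subgroup of odd order. Let a be an involution and K a component of C_G(a) such that (a) |K| is maximal among the orders of components of centralizers of involutions of G, (b) subject to (a) the 2-rank of the centralizer of K in C_G(a) is as large as possible, and (c) K has 2-rank at least 2. If B is an elementary abelian 2-subgroup of that centralizer of the largest possible order, then K is a component of C_G(b) for every non-identity b ∈ B. -/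
theorem result {G : Type*} [Group G] [Finite G] (hO : Cfsg.oddCore G = ⊥) (hB : Cfsg.HasBProperty G) (hct : Cfsg.IsComponentType G) (a : G) (ha : orderOf a = 2) (K : Subgroup G) (hKa : K ≤ Subgroup.centralizer ({a} : Set G)) (hK : Cfsg.IsComponent (K.subgroupOf (Subgroup.centralizer ({a} : Set G)))) (hmax : ∀ y : G, orderOf y = 2 → ∀ K' : Subgroup G, K' ≤ Subgroup.centralizer ({y} : Set G) → Cfsg.IsComponent (K'.subgroupOf (Subgroup.centralizer ({y} : Set G))) → Nat.card ↥K' ≤ Nat.card ↥K ∧ (Nat.card ↥K' = Nat.card ↥K → ∀ k : ℕ, Cfsg.PRankLE 2 k ↥(Subgroup.centralizer ({a} : Set G) ⊓ Subgroup.centralizer (K : Set G)) → Cfsg.PRankLE 2 k ↥(Subgroup.centralizer ({y} : Set G) ⊓ Subgroup.centralizer (K' : Set G)))) (hrk : ¬ Cfsg.PRankLE 2 1 ↥K) (B : Subgroup G) (hBle : B ≤ Subgroup.centralizer ({a} : Set G) ⊓ Subgroup.centralizer (K : Set G)) (hBel : Cfsg.IsElementaryAbelian 2 B) (hBmax : ∀ B' : Subgroup G, B' ≤ Subgroup.centralizer ({a} : Set G)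 ⊓ Subgroup.centralizer (K : Set G) → Cfsg.IsElementaryAbelian 2 B' → Nat.card ↥B' ≤ Nat.card ↥B) (b : G) (hb : b ∈ B) (hb1 : b ≠ 1) : K ≤ Subgroup.centralizer ({b} : Set G) ∧ Cfsg.IsComponent (K.subgroupOf (Subgroup.centralizer ({b} : Set G))) := by
  have hKb : K ≤ C_[b] := le_cent1_iff.2 (hBle hb).2
  refine ⟨hKb, ?_⟩
  have hb2 := hBel.orderOf Nat.prime_two hb hb1
  have haK : a ∈ C_(K) := le_cent1_iff.1 hKa
  have haB : a ∈ B := by
    have h1 : B ≤ C_(Subgroup.zpowers a) := by rw [cent_zpowers]; exact hBle.trans inf_le_left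
    have h2 := hBmax (B ⊔ Subgroup.zpowers a) (sup_le hBle (Subgroup.zpowers_le.2 ⟨mem_cent1_self a, haK⟩))
      (hBel.sup (elemAb_zpowers (by rw [pow_two, mul_self_of_two ha])) h1)
    exact (eq_of_le_of_card_le le_sup_left h2).ge (Subgroup.mem_sup_right (Subgroup.mem_zpowers a))
  have hBb : B ≤ C_[b] := le_cent1_iff.2 (abelian_iff.1 hBel.abelian hb)
  set H := C_[b] with hH
  set a' : H := ⟨a, hBb haB⟩
  have ha' : orderOf a' = 2 := by rw [← Subgroup.orderOf_coe]; exact ha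
  have h1 : PC 2 K (C_[a] ⊓ H) := (pc_two_of_comp hKa hK).sub (le_inf hKa hKb) inf_le_left
  have h2 := (pc_subgroupOf hKb inf_le_right).2 h1
  have e1 : (C_[a] ⊓ H).subgroupOf H = C_[a'] := by
    ext g
    simp only [Subgroup.mem_subgroupOf, Subgroup.mem_inf, mem_cent1, g.2, and_true]
    exact ⟨fun h => Subtype.ext h, fun h => congrArg Subtype.val h⟩
  rw [e1] at h2
  have hE : K.subgroupOf H ≤ Cfsg.layer H := (h2.le_pLayer_two ha').trans (pLayer_le_iff.2 fun M hM => by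
    have h3 : PC 2 (M.map H.subtype) H := ⟨Subgroup.map_subtype_le _, by
      rwa [Subgroup.subgroupOf, Subgroup.comap_map_eq_self_of_injective (Subgroup.subtype_injective _)]⟩
    exact le_layer ⟨hM.1, (qs_map_iff_of_injective H.subtype_injective).1 (h3.qs_of_B hB hO hb2)⟩)
  obtain ⟨L, hL, hLK, hKL⟩ := PC.exists_orb (T := Subgroup.zpowers a') (by rwa [cent_zpowers]) hE
  have hL' : Cfsg.IsComponent ((L.map H.subtype).subgroupOf H) := by
    rwa [Subgroup.subgroupOf, Subgroup.comap_map_eq_self_of_injective (Subgroup.subtype_injective _)]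
  obtain ⟨m1, m2⟩ := hmax b hb2 (L.map H.subtype) (Subgroup.map_subtype_le _) hL'
  rw [Subgroup.card_map_of_injective H.subtype_injective, ← H02.card_subgroupOf_of_le hKb] at m1 m2
  by_cases hn : a' ∈ N_(L)
  · rw [orb_eq (Subgroup.zpowers_le.2 hn)] at hKL
    rwa [eq_of_le_of_card_le hKL m1]
  exfalso
  obtain ⟨c1, E, hEL, hEe, hc⟩ := diag hL (mul_self_of_two ha') hn h2.perfect hKL h2.1 hLK m1
    (fun h => hrk (by
      rw [pRankLE_iff] at h ⊢
      intro V hV hVe
      rw [← H02.card_subgroupOf_of_le (hV.trans hKb)]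
      exact h _ (Subgroup.subgroupOf_mono _ hV) (elemAb_subgroupOf hVe _)))
    (elemAb_subgroupOf hBel H) (show a' ∈ B.subgroupOf H from haB)
    (fun x hx y hy => Subtype.ext ((hBle hx).2 y hy))
  obtain ⟨k, hk⟩ := hBel.exists_isElem Nat.prime_two
  have h3 := m2 c1 k (pRankLE_iff.2 fun V hV hVe => hk.card ▸ hBmax V hV hVe)
  have h4 := h3.card_le (elemAb_map hEe H.subtype) (le_inf (Subgroup.map_subtype_le _) (by
    rintro _ ⟨x, hx, rfl⟩ _ ⟨y, hy, rfl⟩
    exact congrArg Subtype.val (hEL hx y hy)))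
  rw [Subgroup.card_map_of_injective H.subtype_injective, ← hk.card] at h4
  rw [H02.card_subgroupOf_of_le hBb] at hc
  omega

end Cfsg.Agent.S1305
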