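import Mathlib
import Cfsg.Statements.S1306
import Cfsg.Agent.H22.Two

set_option autoImplicit false
open Cfsg

namespace Cfsg.Agent.S1306

open BG H22

/-- Let G be finite, x an involution and L ≤ C_G(x) a component of C_G(x). Suppose L is a component of C_G(y) for every involution y ∈ C_G(L), and ⁅L, g L g⁻¹⁆ ≠ 1 whenever g L g⁻¹ ≠ L. Then L is a standard subgroup of G. -/
theorem result {G : Type*} [Group G] [Finite G] (x : G) (hx : orderOf x = 2) (L : Subgroup G) (hLx : L ≤ Subgroup.centralizer ({x} : Set G)) (hL : Cfsg.IsComponent (L.subgroupOf (Subgroup.centralizer ({x} : Set G)))) (hne : ∀ y : G, orderOf y = 2 → y ∈ Subgroup.centralizer (L : Set G) → L ≤ Subgroup.centralizer ({y} : Set G) ∧ Cfsg.IsComponent (L.subgroupOf (Subgroup.centralizer ({y} : Set G)))) (hnc : ∀ g : G, L.map (MulAut.conj g).toMonoidHom ≠ L → ⁅L, L.map (MulAut.conj g).toMonoidHom⁆ ≠ ⊥) : Cfsg.IsStandardSubgroup L := by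
  have hqs : IsQuasisimple L := (qs_subgroupOf_iff hLx).1 hL.2
  have key : ∀ g : G, ∀ y : G, orderOf y = 2 → y ∈ C_(L) → y ∈ C_(cj g L) → g ∈ N_(L) := by
    intro g y hy h1 h2
    have h3 : g⁻¹ * y * g ∈ C_(L) := by rw [← cj_cent] at h2; exact mem_cj.1 h2
    have hy' : orderOf (g⁻¹ * y * g) = 2 := by
      have := orderOf_conj g⁻¹ y
      rw [inv_inv] at this; rw [this, hy]
    obtain ⟨a1, a2⟩ := hne y hy h1
    obtain ⟨b1, b2⟩ := hne _ hy' h3
    have b3 := comp_cj_in b1 b2 g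
    have b4 := cj_mono g b1
    have e : cj g C_[g⁻¹ * y * g] = C_[y] := by rw [cj_cent1]; congr 2; group
    rw [e] at b3 b4
    by_contra hg
    rcases comp_eq_or_comm_in a1 b4 a2 b3 with h | h
    · exact hg (cj_eq_self_iff.1 h.symm)
    · exact hnc g (fun h' => hg (cj_eq_self_iff.1 h')) h
  have hxC : x ∈ C_(L) := le_cent1_iff.1 hLx
  refine ⟨hqs, ⟨?_, fun g hg => ?_⟩, hnc, le_antisymm (norm_le_norm_cent L) fun g hg => ?_⟩
  · exact even_iff_two_dvd.2 (hx ▸ orderOf_dvd_card hxC)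
  · refine Nat.odd_iff.2 (Nat.two_dvd_ne_zero.1 fun hd => hg ?_)
    obtain ⟨y, hy, hy2⟩ := exists_orderOf_eq_prime Nat.prime_two hd
    exact norm_le_norm_cent L (key g y hy2 hy.1 (by rw [← cj_cent]; exact hy.2))
  · exact key g x hx hxC (by rw [← cj_cent, cj_of_mem_norm hg]; exact hxC)

end Cfsg.Agent.S1306
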