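import Mathlib
import Cfsg.Statements.S1307
import Cfsg.Agent.H22.Two
import Cfsg.Agent.H08.RankOne

set_option autoImplicit false
open Cfsg

namespace Cfsg.Agent.S1307

open BG H22
open scoped commutatorElement

/-- Let G be finite, x an involution and L ≤ C_G(x) a component of C_G(x) of even order and 2-rank 1, such that L is a component of C_G(y) for every involution y ∈ C_G(L). Then some involution of L is a classical involution of G. -/
theorem result {G : Type*} [Group G] [Finite G] (x : G) (hx : orderOf x = 2) (L : Subgroup G) (hLx : L ≤ Subgroup.centralizer ({x} : Set G)) (hL : Cfsg.IsComponent (L.subgroupOf (Subgroup.centralizer ({x} : Set G)))) (heven : Even (Nat.card ↥L)) (hrk : Cfsg.PRankLE 2 1 ↥L) (hne : ∀ y : G, orderOf y = 2 → y ∈ Subgroup.centralizer (L : Set G) → L ≤ Subgroup.centralizer ({y} : Set G) ∧ Cfsg.IsComponent (L.subgroupOf (Subgroup.centralizer ({y} : Set G)))) : ∃ t ∈ L, Cfsg.IsClassicalInvolution t := by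
  have hqs : IsQuasisimple L := (qs_subgroupOf_iff hLx).1 hL.2
  obtain ⟨S⟩ : Nonempty (Sylow 2 L) := inferInstance
  have hu : ∀ a b : L, orderOf a = 2 → orderOf b = 2 → Commute a b → a = b := fun a b ha hb hab => by
    by_contra hne'
    have h4 := four_isElem ha hb hne' hab
    have := hrk _ h4.abelian (fun a ha => h4.elemAb.pow ha)
    rw [h4.card] at this
    omega
  have hS := H08.unique_invol_sylow S.2 hu
  have h2 := even_iff_two_dvd.1 heven
  obtain ⟨z, hz⟩ := exists_prime_orderOf_dvd_card' (G := L) 2 h2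
  have hO : oddCore L ≤ Subgroup.center L := (qs_normal hqs _).resolve_left fun h => by
    have := H02.not_dvd_card_pPrimeCore (G := L) Nat.prime_two
    change ¬ 2 ∣ Nat.card (oddCore L) at this
    rw [h, Subgroup.card_top] at this
    exact this h2
  have hzZ : (⊤ : Subgroup L) ≤ C_(Subgroup.zpowers z) := by
    rw [← qs_perfect' (qs_top_iff.2 hqs)]
    refine der_le_cent_of_comm ?_
    rw [comm_comm]
    refine Subgroup.commutator_le.2 fun a ha g _ => ?_
    rcases mem_zpowers_two (mul_self_of_two hz) ha with rfl | rfl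
    · simp
    · exact fun y _ => Subgroup.mem_center_iff.1 (hO (H08.rankOne S hS hz g)) y
  have hzC : (z : G) ∈ C_(L) := fun g hg =>
    congrArg Subtype.val (hzZ (Subgroup.mem_top ⟨g, hg⟩) z (Subgroup.mem_zpowers z)).symm
  have hz' : orderOf (z : G) = 2 := by rw [Subgroup.orderOf_coe, hz]
  obtain ⟨h1, h3⟩ := hne z hz' hzC
  refine ⟨z, z.2, hz', L, h1, z.2, h3.1, S, ?_⟩
  refine (H08.cyclic_or_quaternion S.2 hS).resolve_left fun hc => ?_
  obtain ⟨P, N, hN, hNP⟩ := H08.hasNPC_of_isCyclic S
  have hNodd : ¬ 2 ∣ Nat.card N := by rw [← hNP.index_eq_card]; exact P.not_dvd_index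
  have hsol : Group.IsSolvable ↥(N ⊔ (P : Subgroup L)) :=
    sol_sup (pg_sol Nat.prime_two P.2) (sol_of_odd' hNodd) (le_normalizer_of_normal' _ _)
  rw [hNP.sup_eq_top] at hsol
  exact qs_not_solvable (qs_top_iff.2 hqs) hsol

end Cfsg.Agent.S1307
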