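import Mathlib
import Cfsg.Statements.S1328
import Cfsg.Agent.H22.KBal

set_option autoImplicit false
open Cfsg

namespace Cfsg.Agent.S1328

open BG H22

/-- Let G be finite, H ≤ G with O(H) = 1, t an involution of G normalizing H, and Y a nontrivial subgroup of O(C_H(t)). Then some component E of H is normalized by t and by Y and centralized by neither t nor Y. -/
theorem result {G : Type*} [Group G] [Finite G] (H : Subgroup G) (hO : Cfsg.oddCore ↥H = ⊥) (t : G) (ht : orderOf t = 2) (htH : t ∈ Subgroup.normalizer (H : Set G)) (Y : Subgroup G) (hY1 : Y ≠ ⊥) (hY : Y ≤ (Cfsg.oddCore ↥(H ⊓ Subgroup.centralizer ({t} : Set G))).map (H ⊓ Subgroup.centralizer ({t} : Set G)).subtype) : ∃ E : Subgroup ↥H, Cfsg.IsComponent E ∧ (E.map H.subtype).map (MulAut.conj t).toMonoidHom = E.map H.subtype ∧ Y ≤ Subgroup.normalizer ((E.map H.subtype : Subgroup G) : Set G) ∧ ¬ (t ∈ Subgroup.centralizer ((E.map H.subtype : Subgroup G) : Set G)) ∧ ¬ (Y ≤ Subgroup.centralizer ((E.map H.subtype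 : Subgroup G) : Set G)) := by
  have hZ := isPGroup_zpowers_of_orderOf ht
  have hn : Subgroup.zpowers t ≤ N_(H) := by simpa using htH
  set X := H ⊔ Subgroup.zpowers t
  have hX : X ≤ N_(H) := sup_le_norm_left hn
  have hO' : pPrimeCore 2 X = ⊥ := by
    have h1 : piCoreOf {2}ᶜ X ≤ H := Subgroup.relIndex_eq_one.1 (Nat.eq_one_of_dvd_coprimes
      (pg_coprime Nat.prime_two hZ (pcore_not_dvd Nat.prime_two X))
      ((relIndex_dvd_of_norm (pcore_le _ _) hX).trans (relIndex_sup hn ▸ relIndex_dvd_card H _)) (relIndex_dvd_card H _))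
    have h2 : piCoreOf {2}ᶜ X ≤ piCoreOf {2}ᶜ H := le_pcore_of_le le_sup_left le_rfl h1
    rw [← p'coreOf_eq Nat.prime_two, ← p'coreOf_eq Nat.prime_two, H02.pPrimeCoreOf, H02.pPrimeCoreOf, show pPrimeCore 2 H = ⊥ from hO, Subgroup.map_bot,
      le_bot_iff] at h2
    exact (Subgroup.map_eq_bot_iff_of_injective _ X.subtype_injective).1 h2
  let t' : X := ⟨t, Subgroup.mem_sup_right (Subgroup.mem_zpowers t)⟩
  have ht' : orderOf t' = 2 := (Subgroup.orderOf_mk _ _).trans ht
  have hY' : Y ≤ piCoreOf {2}ᶜ (H ⊓ C_[t]) := hY.trans (p'coreOf_eq Nat.prime_two _).le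
  have hYH : Y ≤ H := hY'.trans ((pcore_le _ _).trans inf_le_left)
  have hYX : Y ≤ X := hYH.trans le_sup_left
  have h1 : Y.subgroupOf X ≤ centralizerPPrimeCore 2 t' := by
    rw [← Subgroup.map_le_map_iff_of_injective X.subtype_injective, cpc_eq Nat.prime_two, pcore_map_subtype,
      ← cent_zpowers t', map_centralizer_subtype, MonoidHom.map_zpowers, cent_zpowers, Subgroup.map_subgroupOf_eq_of_le hYX]
    exact hY'.trans (pcore_le_of_norm _ (inf_le_inf_right _ le_sup_left) (norm_inf (inf_le_left.trans hX) (norm_of_le inf_le_right)))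
  obtain ⟨L, hL, hLY⟩ : ∃ L : Subgroup X, IsComponent L ∧ ¬ L ≤ C_(Y.subgroupOf X) := by
    by_contra! h
    have := eq_bot_of_centralizes hO' (Nat.prime_two.coprime_iff_not_dvd.2 (not_dvd_of_le (cpc_not_dvd t') h1)).symm
      (cent_symm (layer_le_iff.2 h)) (h1.trans (cpc_le_cent_pCore ht'))
    exact hY1 (by rw [← Subgroup.map_subgroupOf_eq_of_le hYX, this, Subgroup.map_bot])
  have h2 : ⁅L, Subgroup.zpowers t'⁆ = L := by_contra fun h =>
    hLY ((comm_eq_bot.1 (comp_comm_core_of_comm_ne hO' ht' hL h)).trans (cent_anti h1))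
  set E := L.map X.subtype
  have eL : E.subgroupOf X = L := Subgroup.comap_map_eq_self_of_injective X.subtype_injective _
  have hE : ⁅E, E⁆ = E := by rw [← Subgroup.map_commutator, comp_perfect hL]
  have hEH : E ≤ H := le_of_perfect_of_sol hE (Subgroup.map_subtype_le _) hn (pg_sol Nat.prime_two hZ)
  have h3 : ⁅E, Subgroup.zpowers t⁆ = E := by
    have := congrArg (Subgroup.map X.subtype) h2
    rwa [Subgroup.map_commutator, MonoidHom.map_zpowers] at this
  refine ⟨E.subgroupOf H, comp_sub_in (eL ▸ hL) hEH le_sup_left, ?_⟩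
  rw [Subgroup.map_subgroupOf_eq_of_le hEH]
  refine ⟨cj_of_mem_norm (h3 ▸ right_le_norm_comm E _ (Subgroup.mem_zpowers t)), ?_, fun h => comp_ne_bot hL ?_, fun h => hLY ?_⟩
  · have := map_le_normalizer_map X.subtype (h1.trans (core_centralizer_le_normalizer_comp hO' ht' hL))
    rwa [Subgroup.map_subgroupOf_eq_of_le hYX] at this
  · rw [← Subgroup.map_eq_bot_iff_of_injective _ X.subtype_injective]
    exact h3.symm.trans (comm_eq_bot.2 (cent_zpowers t ▸ le_cent1_iff.2 h))
  · exact fun l hl y hy => Subtype.ext (h hy l ⟨l, hl, rfl⟩).symm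

end Cfsg.Agent.S1328
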