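import Cfsg.Statements.S1329
import Cfsg.Agent.H25.PR1

set_option autoImplicit false
open Cfsg

namespace Cfsg.Agent.S1329

/-- Let A be an abelian 2-subgroup of the finite group G, B ≤ A, and Y a subgroup of odd order normalized by A with ⁅Y, A⁆ = Y. Then Y ∩ C_G(B) is generated by the subgroups Y ∩ C_G(B) ∩ ⁅Y ∩ C_G(B₀), A⁆, B₀ ranging over the subgroups of B with B / B₀ cyclic. -/
theorem result {G : Type*} [Group G] [Finite G] (A B Y : Subgroup G) (hA2 : IsPGroup 2 ↥A) (hAc : IsMulCommutative ↥A) (hB : B ≤ A) (hYodd : Odd (Nat.card ↥Y)) (hAY : A ≤ Subgroup.normalizer (Y : Set G)) (hYA : ⁅Y, A⁆ = Y) : Y ⊓ Subgroup.centralizer (B : Set G) = ⨆ B₀ : {B₀ : Subgroup G // B₀ ≤ B ∧ ∀ [(B₀.subgroupOf B).Normal], IsCyclic (↥B ⧸ B₀.subgroupOf B)}, Y ⊓ Subgroup.centralizer (B : Set G) ⊓ ⁅Y ⊓ Subgroup.centralizer ((B₀ : Subgroup G) : Set G), A⁆ := by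
  have hb := BG.abelian_of_le hAc hB
  have h2 : ¬ 2 ∣ Nat.card Y := Nat.two_dvd_ne_zero.2 (Nat.odd_iff.1 hYodd)
  refine le_antisymm ?_ (iSup_le fun _ => inf_le_left)
  refine le_trans (inf_le_inf_right _ hYA.ge) (H25.PR.gen_cocyc hAc hB hAY (BG.pg_coprime Nat.prime_two hA2 h2)
    (H23.GW.ft h2) fun D hD ⟨a, ha, hDa⟩ => ?_)
  refine le_trans ?_ (le_iSup _ ⟨D, hD, fun {_} => ?_⟩)
  · refine le_inf (inf_le_inf_right _ ((BG.comm_le_left (BG.norm_inf hAY (BG.norm_cent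
      (BG.le_norm_of_abelian hAc (hD.trans hB))))).trans inf_le_left)) inf_le_left
  · refine ⟨⟨QuotientGroup.mk ⟨a, ha⟩, fun x => ?_⟩⟩
    obtain ⟨⟨x, hx⟩, rfl⟩ := QuotientGroup.mk_surjective x
    have hx' : x ∈ D ⊔ Subgroup.zpowers a := hDa ▸ hx
    obtain ⟨d, hd, _, ⟨k, rfl⟩, rfl⟩ := (BG.mem_sup_norm ((Subgroup.zpowers_le.2 ha).trans
      (BG.le_norm_of_abelian hb hD))).1 hx'
    refine ⟨k, ?_⟩
    have e : (⟨d * a ^ k, hx⟩ : B) = ⟨d, hD hd⟩ * ⟨a, ha⟩ ^ k := Subtype.ext (by simp)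
    simp only
    rw [e, QuotientGroup.mk_mul, QuotientGroup.mk_zpow,
      (QuotientGroup.eq_one_iff (⟨d, hD hd⟩ : B)).2 (Subgroup.mem_subgroupOf.2 hd), one_mul]

end Cfsg.Agent.S1329
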