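import Mathlib
import Cfsg.Statements.S1331
import Cfsg.Agent.H22.SigBasic

set_option autoImplicit false
open Cfsg

namespace Cfsg.Agent.S1331

open BG Cfsg H22

/-- Let θ be a solvable A-signalizer functor on the finite group G for the prime p, A elementary abelian of rank at least 3, X a member of the family of θ, and B ≤ A with |B| ≥ p². Then X is generated by the subgroups X ∩ ⋂_{d ∈ D, d ≠ 1} θ d, D ranging over the subgroups of index p in B. -/
theorem result {G : Type*} [Group G] [Finite G] (p : ℕ) [Fact p.Prime] (A : Subgroup G) (hA : Cfsg.IsElementaryAbelian p A) (hA3 : p ^ 3 ≤ Nat.card ↥A) (θ : G → Subgroup G) (hθ : Cfsg.IsSolvableSignalizerFunctor p A θ) (X : Subgroup G) (hX : X ∈ Cfsg.signalizerFamily p A θ) (B : Subgroup G) (hB : B ≤ A) (hB2 : p ^ 2 ≤ Nat.card ↥B) : X = ⨆ D : {D : Subgroup G // D ≤ B ∧ D.relIndex B = p}, X ⊓ Cfsg.signalizerInf (D : Subgroup G) θ := by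
  have hp : p.Prime := Fact.out
  have hX' := mem_iff.2 hX
  refine le_antisymm ?_ (iSup_le fun D => inf_le_left)
  obtain ⟨n, hn⟩ := (hA.of_le hB).exists_isElem hp
  obtain ⟨m, rfl⟩ : ∃ m, n = m + 1 := by
    refine Nat.exists_eq_succ_of_ne_zero ?_
    rintro rfl
    have := Nat.one_lt_pow (n := 2) (by omega) hp.one_lt
    rw [hn.card, pow_zero] at hB2; omega
  refine gen_hyp hp hn (hB.trans hX'.inv) hX'.nd fun D hD => ?_
  have h1 : D.relIndex B = p := by
    have := card_mul_relIndex hD.le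
    rw [hD.card, hn.card, pow_succ] at this
    exact Nat.eq_of_mul_eq_mul_left (Nat.pow_pos hp.pos) this
  exact le_trans (le_inf inf_le_left (hX'.inf_cent_le (hD.le.trans hB)))
    (le_iSup (fun D : {D : Subgroup G // D ≤ B ∧ D.relIndex B = p} => X ⊓ signalizerInf (D : Subgroup G) θ) ⟨D, hD.le, h1⟩)

end Cfsg.Agent.S1331
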