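import Mathlib
import Cfsg.Statements.S1336
import Cfsg.Agent.H26.SPE
import Cfsg.Agent.BG.Api4

set_option autoImplicit false
open Cfsg

namespace Cfsg.Agent.S1336

open H26

section
variable {G : Type*} [Group G] {p : ℕ}

/-- vertices -/
def V (p : ℕ) (A : Subgroup G) : Prop := Cfsg.IsElementaryAbelian p A ∧ p ^ 1 ≤ Nat.card A

/-- connectedness -/
def R (p : ℕ) : Subgroup G → Subgroup G → Prop :=
  Relation.ReflTransGen (fun A B : Subgroup G => Cfsg.IsElementaryAbelian p A ∧ p ^ 1 ≤ Nat.card ↥A ∧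
    Cfsg.IsElementaryAbelian p B ∧ p ^ 1 ≤ Nat.card ↥B ∧ ∀ a ∈ A, ∀ b ∈ B, a * b = b * a)

theorem R.symm {A B : Subgroup G} (h : R p A B) : R p B A := by
  induction h with
  | refl => exact Relation.ReflTransGen.refl
  | tail _ h2 ih =>
    obtain ⟨a, b, c, d, e⟩ := h2
    exact Relation.ReflTransGen.head ⟨c, d, a, b, fun x hx y hy => (e y hy x hx).symm⟩ ih

theorem R.trans {A B C : Subgroup G} (h : R p A B) (h' : R p B C) : R p A C := Relation.ReflTransGen.trans h h'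

theorem V.cj {A : Subgroup G} (h : V p A) (g : G) : V p cj(g, A) := ⟨BG.Cfsg.IsElementaryAbelian.cj h.1 g, by rw [card_cj]; exact h.2⟩

theorem R.cj {A B : Subgroup G} (h : R p A B) (g : G) : R p cj(g, A) cj(g, B) := by
  induction h with
  | refl => exact Relation.ReflTransGen.refl
  | tail _ h2 ih =>
    obtain ⟨a, b, c, d, e⟩ := h2
    refine ih.tail ⟨BG.Cfsg.IsElementaryAbelian.cj a g, by rwa [card_cj], BG.Cfsg.IsElementaryAbelian.cj c g, by rwa [card_cj], ?_⟩
    rintro _ ⟨x, hx, rfl⟩ _ ⟨y, hy, rfl⟩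
    rw [← map_mul, e x hx y hy, map_mul]

theorem V.of_ne [Finite G] [hp : Fact p.Prime] {A : Subgroup G} (h : Cfsg.IsElementaryAbelian p A) (h1 : A ≠ ⊥) :
    V p A := ⟨h, by rw [pow_one]; exact Nat.le_of_dvd Nat.card_pos (dvd_card_of_isPGroup (BG.Cfsg.IsElementaryAbelian.pg h) h1 le_rfl)⟩

theorem V.ne [hp : Fact p.Prime] {A : Subgroup G} (h : V p A) : A ≠ ⊥ := by
  rintro rfl
  have := h.2
  rw [Subgroup.card_bot, pow_one] at this
  exact hp.out.one_lt.not_ge this

theorem r_of_le [Finite G] [hp : Fact p.Prime] {A B P : Subgroup G} (hP : IsPGroup p P) (hA : V p A) (hB : V p B)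
    (h1 : A ≤ P) (h2 : B ≤ P) : R p A B := by
  have hne : P ≠ ⊥ := fun h => hA.ne (le_bot_iff.1 (h ▸ h1))
  have hZ := V.of_ne (BG.omega_center_elemAb p P) (BG.omega_center_ne_bot hp.out hP hne)
  have hc := BG.omega_center_le_cent p P
  exact (Relation.ReflTransGen.single ⟨hA.1, hA.2, hZ.1, hZ.2, fun a ha b hb => hc hb a (h1 ha)⟩).tail
    ⟨hZ.1, hZ.2, hB.1, hB.2, fun a ha b hb => (hc ha b (h2 hb)).symm⟩

theorem v_zpowers [hp : Fact p.Prime] {x : G} (h : orderOf x = p) : V p (Subgroup.zpowers x) :=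
  ⟨BG.elemAb_zpowers (h ▸ pow_orderOf_eq_one x), by rw [Nat.card_zpowers, h, pow_one]⟩
end

/-- Let G be finite and p prime. Then G has a proper subgroup H with p ∣ |H| and p ∤ |H ∩ gHg⁻¹| for every g ∉ H (a strongly p-embedded subgroup) if and only if G is not 1-connected for p. -/
theorem result {G : Type*} [Group G] [Finite G] (p : ℕ) [Fact p.Prime] : (∃ H : Subgroup G, H ≠ ⊤ ∧ p ∣ Nat.card ↥H ∧ ∀ g : G, g ∉ H → ¬ p ∣ Nat.card ↥(H ⊓ H.map (MulAut.conj g).toMonoidHom)) ↔ ¬ Cfsg.IsKConnected p 1 G := by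
  constructor
  · rintro ⟨H, h1, h2, h3⟩ hc
    have hS : SPE p H := ⟨h1, exists_mem_orderOf_eq h2, fun x hx h4 g hg => by
      by_contra h5
      exact h3 g h5 (dvd_card_of_orderOf (x := g * x * g⁻¹) ⟨hg, conj_mem_cj hx⟩ (by rwa [orderOf_conj]))⟩
    obtain ⟨x, hx, h4⟩ := hS.ex
    refine h1 (eq_top_iff.2 fun g _ => hS.mem x hx h4 g ?_)
    have hv := v_zpowers h4
    have hv' := v_zpowers ((orderOf_conj g x).trans h4)
    have key : ∀ B, R p (Subgroup.zpowers x) B → B ≤ H := by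
      intro B hB
      induction hB with
      | refl => exact Subgroup.zpowers_le.2 hx
      | tail _ h5 ih =>
        obtain ⟨a, b, -, -, e⟩ := h5
        obtain ⟨y, hy, h6⟩ := exists_mem_orderOf_eq_of_ne_bot (BG.Cfsg.IsElementaryAbelian.pg a) (V.ne ⟨a, b⟩)
        exact fun z hz => hS.centralizer_le (ih hy) h6
          (Subgroup.mem_centralizer_singleton_iff.2 (e y hy z hz).symm)
    exact key _ (hc _ _ hv.1 hv.2 hv'.1 hv'.2) (Subgroup.mem_zpowers _)
  · intro hc
    simp only [Cfsg.IsKConnected, not_forall] at hc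
    obtain ⟨E, E', a, b, c, d, e⟩ := hc
    have hE : V p E := ⟨a, b⟩
    have hE' : V p E' := ⟨c, d⟩
    let H : Subgroup G :=
      { carrier := {g | R p E cj(g, E)}
        one_mem' := by change R p E cj(1, E); rw [cj_one]; exact Relation.ReflTransGen.refl
        mul_mem' := fun {x y} hx hy => by
          change R p E cj(x * y, E); rw [← cj_cj]; exact R.trans hx (R.cj hy x)
        inv_mem' := fun {x} hx => by
          have := R.cj hx x⁻¹
          rw [cj_inv_cj] at this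
          exact this.symm }
    obtain ⟨T, hT, hET⟩ : ∃ T, IsSyl p T ⊤ ∧ E ≤ T := by
      obtain ⟨T, hT⟩ := exists_isSyl p (⊤ : Subgroup G)
      obtain ⟨g, hg, h⟩ := hT.exists_le_cj (BG.Cfsg.IsElementaryAbelian.pg a) le_top
      exact ⟨_, hT.cj_of_mem hg, h⟩
    have hne : H ≠ ⊤ := fun h => by
      obtain ⟨g, -, h1⟩ := hT.exists_cj_le (BG.Cfsg.IsElementaryAbelian.pg c) le_top
      have h2 := (r_of_le hT.pg hE (hE'.cj g) hET h1).cj g⁻¹
      rw [cj_inv_cj] at h2
      exact e (R.trans (show g⁻¹ ∈ H from h ▸ Subgroup.mem_top _) h2)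
    have hS : SPE p H := spe_of_isSyl hne hT (fun h => hE.ne (le_bot_iff.1 (h ▸ hET))) fun A hA h1 n hn => by
      obtain ⟨y, hy, h2⟩ := exists_mem_orderOf_eq_of_ne_bot (hT.pg.to_le hA) h1
      have hv := v_zpowers h2
      have h3 : Subgroup.zpowers y ≤ A := Subgroup.zpowers_le.2 hy
      exact R.trans (r_of_le hT.pg hE (hv.cj n) hET ((cj_le_of_le_of_mem_normalizer h3 hn).trans hA))
        ((r_of_le hT.pg hv hE (h3.trans hA) hET).cj n)
    refine ⟨H, hne, hS.dvd, fun g hg h => hg ?_⟩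
    obtain ⟨_, ⟨h1, y, hy, rfl⟩, h2⟩ := exists_mem_orderOf_eq h
    exact hS.mem y hy ((orderOf_conj g y).symm.trans h2) g h1

end Cfsg.Agent.S1336
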