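import Mathlib
import Cfsg.Statements.S1337
import Cfsg.Agent.H22.Conn

set_option autoImplicit false
open Cfsg

namespace Cfsg.Agent.S1337

open BG H22

/-- Let P be a finite p-group of p-rank greater than 2. Then P has a normal elementary abelian subgroup U of order p², and for every elementary abelian X ≤ P with |X| ≥ p²: X is joined to U by a chain of pairwise commuting elementary abelian subgroups of order ≥ p² if and only if C_P(X) has p-rank greater than 2. -/
theorem result {P : Type*} [Group P] [Finite P] (p : ℕ) [Fact p.Prime] (hP : IsPGroup p P) (hrk : ¬ Cfsg.PRankLE p 2 P) : ∃ U : Subgroup P, U.Normal ∧ Cfsg.IsElementaryAbelian p U ∧ Nat.card ↥U = p ^ 2 ∧ ∀ X : Subgroup P, Cfsg.IsElementaryAbelian p X → p ^ 2 ≤ Nat.card ↥X → (Relation.ReflTransGen (fun A B : Subgroup P => Cfsg.IsElementaryAbelian p A ∧ p ^ 2 ≤ Nat.card ↥A ∧ Cfsg.IsElementaryAbelian p B ∧ p ^ 2 ≤ Nat.card ↥B ∧ ∀ a ∈ A, ∀ b ∈ B, a * b = b * a) X U ↔ ¬ Cfsg.PRankLE p 2 ↥(Subgroup.centralizer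 (X : Set P))) := by
  have hp : p.Prime := Fact.out
  obtain ⟨U, hU, hn⟩ := exists_normal_e2_top hp hP hrk
  have hP' : IsPGroup p (⊤ : Subgroup P) := hP.to_subgroup ⊤
  refine ⟨U, hn, hU.elemAb, hU.card, fun X hX hc => ⟨fun h => ?_, fun h => ?_⟩⟩
  · clear hX hc
    induction h using Relation.ReflTransGen.head_induction_on with
    | refl =>
      obtain ⟨E, -, h2, h3, h4⟩ := e2_le_e3 hp hP' hU (le_normalizer_of_normal' _ _) (pRankLE_top.not.2 hrk)
      exact not_rank_of_le hp h2 h3 (le_cent_of_abelian h2.abelian le_rfl h4)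
    | @head A B h1 _ ih =>
      by_cases e : A = B
      · exact e ▸ ih
      · have hc := le_cent_iff.2 h1.2.2.2.2
        exact not_rank_of_le hp (h1.1.sup h1.2.2.1 hc) (cube_le_sup hp h1.1 h1.2.2.1 hc h1.2.1 h1.2.2.2.1 e)
          (sup_le (abelian_iff.1 h1.1.abelian) (cent_symm hc))
  · obtain ⟨E, hE⟩ := (not_pRankLE_iff hp).1 h
    obtain ⟨B, hB, hBU⟩ := exists_cent_e hp hP' hU (le_normalizer_of_normal' _ _) hE.top
    exact .head ⟨hX, hc, hB.elemAb, hB.card.ge, le_cent_iff.1 (cent_symm (hB.le.trans hE.le))⟩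
      (.single ⟨hB.elemAb, hB.card.ge, hU.elemAb, hU.card.ge, le_cent_iff.1 hBU⟩)

end Cfsg.Agent.S1337
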