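import Mathlib
import Cfsg.Statements.S1338
import Cfsg.Agent.H22.SigW
import Cfsg.Agent.S1337
import Cfsg.Agent.S0122

set_option autoImplicit false
open Cfsg

namespace Cfsg.Agent.S1338

open BG H22

/-- A finite 3-group of 3-rank at least 4 is 2-connected for the prime 3: its commuting graph on elementary abelian subgroups of order ≥ 9 is connected. -/
theorem result {P : Type*} [Group P] [Finite P] (hP : IsPGroup 3 P) (hrk : ¬ Cfsg.PRankLE 3 3 P) : Cfsg.IsKConnected 3 2 P := by
  have hp := Nat.prime_three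
  have := Fact.mk hp
  obtain ⟨U, -, hU, hUc, h⟩ := S1337.result 3 hP fun h => hrk (pRankLE_mono hp h (by norm_num))
  obtain ⟨E, hE⟩ := (not_pRankLE_iff hp).1 (pRankLE_top.not.2 hrk)
  obtain ⟨A, hAn, hA, hAc⟩ := S0122.result (by norm_num) hP E hE.elemAb hE.card
  have key : ∀ X : Subgroup P, IsElementaryAbelian 3 X → 3 ^ 2 ≤ Nat.card X → ¬ PRankLE 3 2 C_(X) := fun X hX hc => by
    rcases hc.eq_or_lt with e | e
    · obtain ⟨F, -, h2, h3, h4⟩ := e2_le_e3_of_big hp hA (by rw [hAc]; norm_num) (⟨le_rfl, hX, e.symm⟩ : IsElem 3 2 X X)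
        (le_normalizer_of_normal' _ _)
      exact not_rank_of_le hp h2 h3 (le_cent_of_abelian h2.abelian le_rfl h4)
    · exact not_rank_of_le hp hX (H04.pow_succ_le_of_lt_card hX.pg e) (abelian_iff.1 hX.abelian)
  intro X Y hX hX2 hY hY2
  refine ((h X hX hX2).2 (key X hX hX2)).trans ?_
  have h1 := (h Y hY hY2).2 (key Y hY hY2)
  clear hY hY2
  induction h1 using Relation.ReflTransGen.head_induction_on with
  | refl => exact .refl
  | head h _ ih => exact ih.tail ⟨h.2.2.1, h.2.2.2.1, h.1, h.2.1, fun a ha b hb => (h.2.2.2.2 b hb a ha).symm⟩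

end Cfsg.Agent.S1338
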