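import Mathlib
import Cfsg.Statements.S1343
import Cfsg.Agent.H22.ExtL

set_option autoImplicit false
open Cfsg

namespace Cfsg.Agent.S1343

open BG H22

/-- Let X be finite. Then L*_{2'}(X) = L_{2'}(X) ⊔ F for some subgroup F of odd order normalized by a Sylow 2-subgroup of X. -/
theorem result {X : Type*} [Group X] [Finite X] : ∃ F : Subgroup X, Odd (Nat.card ↥F) ∧ (∃ S : Sylow 2 X, (S : Subgroup X) ≤ Subgroup.normalizer (F : Set X)) ∧ Cfsg.extendedTwoLayer X = Cfsg.pLayer 2 X ⊔ F := by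
  obtain ⟨S⟩ : Nonempty (Sylow 2 X) := inferInstance
  have := pLayer_normal (G := X) (p := 2)
  have := ppcore_normal (G := X) (p := 2)
  have hT : IsSylowIn 2 ((S : Subgroup X) ⊓ (pLayer 2 X ⊔ pPrimePCore 2 X)) _ :=
    (isSylowIn_top Nat.prime_two S).inf_normal le_top (le_normalizer_of_normal' _ _)
  refine ⟨oddCore X ⊔ piCoreOf {2}ᶜ C_((S : Subgroup X) ⊓ (pLayer 2 X ⊔ pPrimePCore 2 X)), ?_, ⟨S, ?_⟩, ?_⟩
  · exact Nat.odd_iff.2 (Nat.two_dvd_ne_zero.1 (not_dvd_sup Nat.prime_two (H02.not_dvd_card_pPrimeCore Nat.prime_two)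
      (pcore_not_dvd Nat.prime_two _) (le_normalizer_of_normal' _ _)))
  · exact norm_sup (le_normalizer_of_normal' _ _) (norm_pcore _ (norm_cent (le_norm_inf (le_normalizer_of_normal' _ _))))
  · rw [ext_eq_of_sylow hT, sup_assoc]

end Cfsg.Agent.S1343
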