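import Mathlib
import Cfsg.Statements.S1344
import Cfsg.Agent.H22.ExtL

set_option autoImplicit false
open Cfsg

namespace Cfsg.Agent.S1344

open BG H22

/-- Let K be a 2-component of the finite group X. Then K ≤ L*_{2'}(X) and K is normal in L*_{2'}(X). -/
theorem result {X : Type*} [Group X] [Finite X] (K : Subgroup X) (hK : Cfsg.IsPComponent 2 K) : K ≤ Cfsg.extendedTwoLayer X ∧ (K.subgroupOf (Cfsg.extendedTwoLayer X)).Normal := by
  have h : K ≤ extendedTwoLayer X := (le_pLayer hK).trans (le_sup_left.trans le_sup_left)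
  refine ⟨h, (Subgroup.normal_subgroupOf_iff_le_normalizer h).2 ?_⟩
  obtain ⟨T, hT⟩ := sylow_exists Nat.prime_two (pLayer 2 X ⊔ pPrimePCore 2 X)
  rw [ext_eq_of_sylow hT]
  exact sup_le (sup_le (pLayer_le_normalizer hK) (core_le_normalizer_pcomp hK))
    ((core_le_opE _).trans (opE_cent_le_norm_pcomp (hT.pg Nat.prime_two) hK))

end Cfsg.Agent.S1344
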