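import Mathlib
import Cfsg.Statements.S1346
import Cfsg.Agent.H22.ExtL

set_option autoImplicit false
open Cfsg

namespace Cfsg.Agent.S1346

open BG H22

/-- Let G be a finite group all of whose 2-local subgroups have known non-abelian composition factors, and x, y commuting involutions. Then the extended 2-layer of L*_{2'}(C_G(x)) ∩ C_G(y) (as a group) is contained in L*_{2'}(C_G(y)). -/
theorem result {G : Type*} [Group G] [Finite G] (hK : ∀ T : Subgroup G, IsPGroup 2 ↥T → T ≠ ⊥ → Cfsg.IsCompositionKGroup ↥(Subgroup.normalizer (T : Set G))) (x y : G) (hx : orderOf x = 2) (hy : orderOf y = 2) (hxy : x * y = y * x) : (Cfsg.extendedTwoLayer ↥((Cfsg.extendedTwoLayer ↥(Subgroup.centralizer ({x} : Set G))).map (Subgroup.centralizer ({x} : Set G)).subtype ⊓ Subgroup.centralizer ({y} : Set G))).map ((Cfsg.extendedTwoLayer ↥(Subgroup.centralizer ({x} : Set G))).map (Subgroup.centralizer ({x} : Set G)).subtype ⊓ Subgroup.centralizer ({y} : Set G)).subtype ≤ (Cfsg.extendedTwoLayer ↥(Subgroup.centralizer ({y} : Set G))).map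 (Subgroup.centralizer ({y} : Set G)).subtype := by
  set E := (extendedTwoLayer C_[x]).map (C_[x] : Subgroup G).subtype
  have hE : E ≤ C_[x] := Subgroup.map_subtype_le _
  have hEn : C_[x] ≤ N_(E) := by
    have := ext_normal (G := (C_[x] : Subgroup G))
    have e : E.subgroupOf C_[x] = _ := Subgroup.comap_map_eq_self_of_injective (Subgroup.subtype_injective _) _
    exact (Subgroup.normal_subgroupOf_iff_le_normalizer hE).1 (e ▸ this)
  have hZ := isPGroup_zpowers_of_orderOf hx
  have hxy' : Subgroup.zpowers x ≤ C_[y] := by simpa using mem_cent1.2 hxy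
  have hle : E ⊓ C_[y] ≤ C_[y] ⊓ C_(Subgroup.zpowers x) := by rw [cent_zpowers]; exact le_inf inf_le_right (inf_le_left.trans hE)
  have hn : C_[y] ⊓ C_(Subgroup.zpowers x) ≤ N_(E ⊓ C_[y]) := by
    rw [cent_zpowers]; exact norm_inf (inf_le_right.trans hEn) (norm_of_le inf_le_left)
  refine ext_le_in ?_ fun T hT hT2 => ?_
  · exact (pLay_le_pLay_of_subnormal hle ((Subgroup.normal_subgroupOf_iff_le_normalizer hle).2 hn).isSubnormal).trans
      ((lbal_in_two hZ hxy').trans (Subgroup.map_mono (le_sup_left.trans le_sup_left)))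
  · have hTx : T ≤ C_(Subgroup.zpowers x) := hT.trans (hle.trans inf_le_right)
    refine le_trans (pcore_le_of_norm _ ?_ ?_) (core_le_ext_in (pg_sup hZ hT2 (le_norm_of_cent hTx)) (sup_le hxy' (hT.trans inf_le_right)))
    · rw [cent_sup, ← inf_assoc]; exact inf_le_inf_right _ hle
    · rw [cent_sup, ← inf_assoc]; exact norm_inf (inf_le_left.trans hn) (norm_of_le inf_le_right)

end Cfsg.Agent.S1346
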