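import Mathlib
import Cfsg.Statements.S1347
import Cfsg.Agent.H22.Two

set_option autoImplicit false
open Cfsg

namespace Cfsg.Agent.S1347

open BG H22
open scoped commutatorElement

theorem simple_of_qs {G : Type*} [Group G] {L : Subgroup G} (hL : Cfsg.IsQuasisimple L) (h : L ⊓ C_(L) = ⊥) :
    IsSimpleGroup L := by
  have := qs_nontrivial hL
  refine ⟨fun N hN => (qs_normal hL N).symm.imp_left fun h1 => ?_⟩
  apply Subgroup.map_injective L.subtype_injective
  rw [Subgroup.map_bot, eq_bot_iff, ← h]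
  exact le_inf (Subgroup.map_subtype_le _) ((le_center_iff_map N).1 h1)

/-- Let A be a standard subgroup of the finite group G with O(G) = 1, and t an involution of C_G(A). Then (i) A is normal in G; or (ii) there is a non-abelian simple subgroup X ≅ A with X and tXt⁻¹ commuting, meeting trivially and generating E(G), and C_G(A) = ⟨t⟩; or (iii) A ≤ E(G) and E(G) is non-abelian simple. -/
theorem result {G : Type*} [Group G] [Finite G] (A : Subgroup G) (hA : Cfsg.IsStandardSubgroup A) (hO : Cfsg.oddCore G = ⊥) (t : G) (ht : orderOf t = 2) (htA : t ∈ Subgroup.centralizer (A : Set G)) : A.Normal ∨ (∃ X : Subgroup G, IsSimpleGroup ↥X ∧ ¬ IsMulCommutative ↥X ∧ Nonempty (↥X ≃* ↥A) ∧ (∀ a ∈ X, ∀ b ∈ X.map (MulAut.conj t).toMonoidHom, a * b = b * a) ∧ X ⊓ X.map (MulAut.conj t).toMonoidHom = ⊥ ∧ X ⊔ X.map (MulAut.conj t).toMonoidHom = Cfsg.layer G ∧ Subgroup.centralizer (A : Set G) = Subgroup.zpowers t) ∨ (A ≤ Cfsg.layer G ∧ IsSimpleGroup ↥(Cfsg.layer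 G) ∧ ¬ IsMulCommutative ↥(Cfsg.layer G)) := by
  have hO' : Cfsg.pPrimeCore 2 G = ⊥ := hO
  have hPC : PC 2 A C_(Subgroup.zpowers t) := by rw [cent_zpowers]; exact std_pc hA ht htA
  have hAE : A ≤ Cfsg.layer G := pLayer_eq_layer hO' ▸ (std_pc hA ht htA).le_pLayer_two ht
  obtain ⟨L, hL, hLA, hAM⟩ := hPC.exists_orb hAE
  set M := orb L (Subgroup.zpowers t) with hM
  have hME : M ≤ Cfsg.layer G := orb_le_layer hL _
  have hEM : Cfsg.layer G ≤ N_(M) := by
    have := layer_le_normalizer_compsIn M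
    rwa [hM, compsIn_orb hL] at this
  have hMs : M.IsSubnormal := subnormal_of_le_normalizer (Subgroup.Normal.isSubnormal layer_normal) hME hEM
  by_cases hn : M ≤ N_(A)
  · have hc : Cfsg.IsComponent A := ⟨subnormal_of_le_normalizer hMs hAM hn, hA.1⟩
    refine Or.inl (normal_of_top_le_normalizer fun g _ => mem_normalizer_iff_map_conj.2 ?_)
    by_contra h
    exact hA.2.2.1 g h (comp_comm_of_ne hc (comp_conj hc g) (Ne.symm h))
  right
  have key : ∀ U : Subgroup G, U ≤ C_(M) → ¬ 2 ∣ Nat.card U := fun U hU hd => by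
    obtain ⟨s, hs, h2⟩ := exists_orderOf_eq_prime Nat.prime_two hd
    exact hn ((le_cent1_iff.2 (hU hs)).trans (std_cent_le hA h2 (cent_anti hAM (hU hs))))
  have hE : Cfsg.layer G = M := le_antisymm (layer_le_iff.2 fun K hK =>
    (comp_le_or_comm_of_subnormal hK hMs).resolve_right fun h =>
      key K (comm_eq_bot.1 h) (two_dvd_of_not_sol (comp_not_solvable hK))) hME
  have hF : Cfsg.fittingSubgroup G = ⊥ := by
    have h1 := key _ (hE ▸ fitting_le_centralizer_layer)
    rw [eq_bot_iff, ← hO']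
    exact H02.le_pPrimeCore ((Nat.Prime.coprime_iff_not_dvd Nat.prime_two).2 h1).symm
  have hZ : ∀ K : Subgroup G, Cfsg.IsComponent K → K ⊓ C_(K) = ⊥ := fun K hK => by
    rw [eq_bot_iff, ← hF]; exact inf_centralizer_le_fitting hK.1
  have hLs := simple_of_qs hL.2 (hZ L hL)
  by_cases htL : t ∈ N_(L)
  · have h1 : Cfsg.layer G = L := hE.trans (orb_eq (Subgroup.zpowers_le.2 htL))
    exact Or.inr ⟨hAE, h1 ▸ hLs, h1 ▸ qs_not_comm hL.2⟩
  left
  have htt := mul_self_of_two ht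
  have hti := inv_of_two ht
  have hL' : Cfsg.IsComponent (cj t L) := comp_conj hL t
  have hne : L ≠ cj t L := fun h => htL (cj_eq_self_iff.1 h.symm)
  have hc : L ≤ C_(cj t L) := comm_eq_bot.1 (comp_comm_of_ne hL hL' hne)
  have hc' : cj t L ≤ C_(L) := cent_symm hc
  have hd : L ⊓ cj t L = ⊥ := by rw [eq_bot_iff, ← hZ L hL]; exact inf_le_inf_left _ hc'
  have hcc : cj t (cj t L) = L := by rw [cj_cj, htt, cj_one]
  have hM2 : L ⊔ cj t L = M := by
    refine le_antisymm (sup_le (le_orb _ _) (le_sSup ⟨t, Subgroup.mem_zpowers t, rfl⟩)) (sSup_le ?_)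
    rintro _ ⟨s, hs, rfl⟩
    rcases mem_zpowers_two htt hs with rfl | rfl
    · rw [cj_one]; exact le_sup_left
    · exact le_sup_right
  have uniq : ∀ a ∈ L, ∀ b ∈ cj t L, ∀ a' ∈ L, ∀ b' ∈ cj t L, a * b = a' * b' → a = a' ∧ b = b' := by
    intro a ha b hb a' ha' b' hb' h
    have h1 : a'⁻¹ * a = b' * b⁻¹ := by rw [inv_mul_eq_iff_eq_mul, ← mul_assoc, ← h, mul_inv_cancel_right]
    have h2 : a'⁻¹ * a ∈ L ⊓ cj t L := Subgroup.mem_inf.2 ⟨mul_mem (inv_mem ha') ha, h1 ▸ mul_mem hb' (inv_mem hb)⟩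
    rw [hd, Subgroup.mem_bot] at h2
    exact ⟨(inv_mul_eq_one.1 h2).symm, (mul_inv_eq_one.1 (h1 ▸ h2)).symm⟩
  have hmem : ∀ l ∈ L, t * l * t⁻¹ ∈ cj t L := fun l hl => conj_mem_cj _ hl
  let π : L →* G :=
    { toFun := fun l => l * (t * l * t⁻¹)
      map_one' := by simp
      map_mul' := fun a b => by
        have := hc b.2 _ (hmem a a.2)
        simp only [Subgroup.coe_mul]
        calc (a : G) * b * (t * (a * b) * t⁻¹) = a * (b * (t * a * t⁻¹)) * (t * b * t⁻¹) := by group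
          _ = _ := by rw [← this]; group }
  have hπ : Function.Injective π := (injective_iff_map_eq_one π).2 fun l hl =>
    Subtype.ext (uniq _ l.2 _ (hmem l l.2) 1 (one_mem _) 1 (one_mem _) (by rw [mul_one]; exact hl)).1
  have hAπ : A ≤ π.range := fun x hx => by
    obtain ⟨a, ha, b, hb, rfl⟩ := (mem_sup_norm (hc'.trans (cent_le_norm _))).1 (hM2 ▸ hAM hx : x ∈ L ⊔ cj t L)
    have h1 : t * b * t⁻¹ ∈ L := hcc ▸ conj_mem_cj _ hb
    have h2 : a * b = (t * b * t⁻¹) * (t * a * t⁻¹) := by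
      rw [← hc h1 _ (hmem a ha)]
      calc a * b = t * (a * b) * t⁻¹ := by rw [← htA _ hx, mul_inv_cancel_right]
        _ = _ := by group
    exact ⟨⟨a, ha⟩, by change a * (t * a * t⁻¹) = _; rw [← (uniq _ ha _ hb _ h1 _ (hmem a ha) h2).2]⟩
  have hπt : π.range ≤ C_[t] := by
    rintro _ ⟨l, rfl⟩
    refine mem_cent1.2 ?_
    change l * (t * l * t⁻¹) * t = t * (l * (t * l * t⁻¹))
    rw [← hc l.2 _ (hmem l l.2), hti]
    simp only [mul_assoc, ← mul_assoc t t, htt, one_mul, mul_one]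
    have := hc l.2 _ (hmem l l.2)
    rw [hti] at this
    calc t * (l * (t * (l * t))) = t * (l * (t * l * t)) := by group
      _ = t * (t * l * t * l) := by rw [← this]
      _ = _ := by simp only [← mul_assoc, htt, one_mul]
  have hA' : π.range = A := by
    have hs : IsSimpleGroup π.range := (MonoidHom.ofInjective hπ).symm.isSimpleGroup
    have hnm : (A.subgroupOf π.range).Normal :=
      (Subgroup.normal_subgroupOf_iff_le_normalizer hAπ).2 (hπt.trans (std_cent_le hA ht htA))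
    rcases hnm.eq_bot_or_eq_top with h | h
    · rw [Subgroup.subgroupOf_eq_bot, disjoint_iff, inf_eq_left.2 hAπ] at h
      exact (hPC.ne_bot h).elim
    · exact le_antisymm (Subgroup.subgroupOf_eq_top.1 h) hAπ
  have hK : ∀ K : Subgroup G, Cfsg.IsComponent K → K = L ∨ K = cj t L := fun K hK => by
    by_contra! h
    refine comp_not_le_centralizer hK (le_trans ?_ (cent_anti ((le_layer hK).trans (hE.trans hM2.symm).le)))
    exact le_cent_sup (comm_eq_bot.1 (comp_comm_of_ne hK hL h.1)) (comm_eq_bot.1 (comp_comm_of_ne hK hL' h.2))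
  have triv : ∀ x ∈ C_(A), x ∈ N_(L) → x = 1 := fun x hx hxL => by
    have hx' : cj x (cj t L) = cj t L := (hK _ (comp_conj hL' x)).resolve_left fun h =>
      hne (cj_inj.1 ((cj_of_mem_norm hxL).trans (Eq.symm h)))
    have h1 : ∀ l ∈ L, x * l * x⁻¹ = l ∧ x * (t * l * t⁻¹) * x⁻¹ = t * l * t⁻¹ := fun l hl => by
      refine uniq _ (cj_of_mem_norm hxL ▸ conj_mem_cj _ hl) _ (hx' ▸ conj_mem_cj _ (hmem l hl)) _ hl _ (hmem l hl) ?_
      have h2 : l * (t * l * t⁻¹) * x = x * (l * (t * l * t⁻¹)) := hx _ (hA' ▸ ⟨⟨l, hl⟩, rfl⟩)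
      calc _ = x * (l * (t * l * t⁻¹)) * x⁻¹ := by group
        _ = _ := by rw [← h2, mul_inv_cancel_right]
    have h3 : x ∈ C_(Cfsg.generalizedFittingSubgroup G) := by
      rw [fstar_def, hF, sup_bot_eq, hE, ← hM2, cent_sup]
      refine ⟨fun l hl => (mul_inv_eq_iff_eq_mul.1 (h1 l hl).1).symm, ?_⟩
      rintro _ ⟨l, hl, rfl⟩
      exact (mul_inv_eq_iff_eq_mul.1 (h1 l hl).2).symm
    have := centralizer_fstar_le_fitting h3
    rwa [hF] at this
  refine ⟨L, hLs, qs_not_comm hL.2, ⟨(MonoidHom.ofInjective hπ).trans (MulEquiv.subgroupCongr hA')⟩,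
    fun a ha b hb => (hc ha b hb).symm, hd, hM2.trans hE.symm,
    le_antisymm (fun x hx => ?_) (Subgroup.zpowers_le.2 htA)⟩
  rcases hK _ (comp_conj hL x) with h | h
  · rw [triv x hx (cj_eq_self_iff.1 h)]; exact one_mem _
  · have := triv (t⁻¹ * x) (mul_mem (inv_mem htA) hx) (cj_eq_cj_iff.1 h)
    rw [← inv_mul_eq_one.1 this]; exact Subgroup.mem_zpowers t

end Cfsg.Agent.S1347
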