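import Mathlib
import Cfsg.Statements.S1348
import Cfsg.Agent.H09.Invol
import Cfsg.Agent.H09.SL2Basic
import Cfsg.Agent.H01.Coprime

set_option autoImplicit false
open Cfsg

namespace Cfsg.Agent.S1348

open H09 Matrix Subgroup in

/-- Let F be a finite field of odd order, n ≥ 7 odd, and t ∈ SL(n, F) the diagonal matrix with entries −1, …, −1, 1. Then E(C(t)) is a standard subgroup of SL(n, F). -/
theorem result {F : Type*} [Field F] [Fintype F] [DecidableEq F] (hF : Odd (Fintype.card F)) (n : ℕ) (hn : 7 ≤ n) (hodd : Odd n) (t : Matrix.SpecialLinearGroup (Fin n) F) (ht : (t : Matrix (Fin n) (Fin n) F) = Matrix.diagonal (fun i : Fin n => if (i : ℕ) + 1 = n then (1 : F) else -1)) : Cfsg.IsStandardSubgroup ((Cfsg.layer ↥(Subgroup.centralizer ({t} : Set (Matrix.SpecialLinearGroup (Fin n) F)))).map (Subgroup.centralizer ({t} : Set (Matrix.SpecialLinearGroup (Fin n) F))).subtype) := by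
  obtain ⟨k, rfl⟩ : ∃ k, n = k + 1 := ⟨n - 1, by omega⟩
  have h2 : (2 : F) ≠ 0 := two_ne_zero_of_odd_card hF
  obtain ⟨ψ, h4, h5, rfl⟩ := exists_gl_hom_of_invol h2 (s := t)
    (glReindex (R := F) (finSumFinEquiv (m := k) (n := 1)))
    (fun g => Units.ext (det_reindexAlgEquiv F _ _ _)) (Units.ext (by
      refine Eq.trans ?_ ht.symm
      ext i j
      obtain ⟨i, rfl⟩ := finSumFinEquiv.surjective i
      obtain ⟨j, rfl⟩ := finSumFinEquiv.surjective j
      change fromBlocks _ _ _ _ (finSumFinEquiv.symm _) (finSumFinEquiv.symm _) = _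
      rw [Equiv.symm_apply_apply, Equiv.symm_apply_apply]
      rcases i with i | i <;> rcases j with j | j <;>
        simp [diagonal_apply, one_apply, Fin.ext_iff, apply_ite, i.2.ne] <;> omega))
  have hq := qs_SL (F := F) (n := k) (by omega) (by omega)
  have h6 : (layer (centralizer {ψ (-1)})).map (centralizer {ψ (-1)}).subtype =
      SpecialLinearGroup.toGL.range.map ψ := by
    rw [← layer_GL (by omega) (by omega), ← H22.layer_map_equiv ((MonoidHom.ofInjective h4).trans
      (MulEquiv.subgroupCongr h5)), Subgroup.map_map]; rfl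
  have h7 : (-1 : GL (Fin k) F) ∈ SpecialLinearGroup.toGL.range := by
    rw [range_toGL_eq_ker_det]
    exact Units.ext (by simpa [det_neg] using (Nat.odd_add_one.1 hodd |> Nat.not_odd_iff_even.1).neg_one_pow)
  rw [h6]
  set L := SpecialLinearGroup.toGL.range.map ψ
  have h8 : centralizer (L : Set _) = (center _).map ψ := by
    refine le_antisymm (fun g hg => ?_) ?_
    · obtain ⟨g, rfl⟩ := h5.ge (mem_centralizer_singleton_iff.2 (hg _ ⟨_, h7, rfl⟩).symm)
      exact ⟨g, centralizer_range_toGL.le fun s hs => h4 (by simpa using hg _ ⟨s, hs, rfl⟩), rfl⟩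
    · rintro _ ⟨g, hg, rfl⟩ _ ⟨s, -, rfl⟩
      rw [← map_mul, mem_center_iff.1 hg, map_mul]
  have h9 : ∀ x ∈ centralizer (L : Set _), orderOf x = 2 → x = ψ (-1) := by
    rw [h8]
    rintro _ ⟨g, hg, rfl⟩ h
    obtain ⟨c, rfl⟩ := GeneralLinearGroup.center_eq_range_scalar.le hg
    have : Nonempty (Fin k) := ⟨⟨0, by omega⟩⟩
    rw [orderOf_injective _ h4, orderOf_injective _ scalar_injective] at h
    rcases sq_eq_one_iff.1 (show (c : F) ^ 2 = 1 from
      congrArg Units.val (h ▸ pow_orderOf_eq_one c)) with h0 | h0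
    · simp [show c = 1 from Units.ext h0] at h
    · rw [show c = -1 from Units.ext h0]; congr 1; exact Units.ext (by simp [← diagonal_neg])
  have h10 : orderOf (ψ (-1)) = 2 := (orderOf_injective _ h4 _).trans (orderOf_eq_prime (by simp)
    fun h => h2 (by
      have := congrArg (fun g : GL (Fin k) F => g.1 ⟨0, by omega⟩ ⟨0, by omega⟩) h
      simp at this; linear_combination -this))
  have h11 : ψ (-1) ∈ centralizer (L : Set _) := h8.ge ⟨_, mem_center_iff.2 (by simp), rfl⟩
  have h12 : centralizer {ψ (-1)} ≤ normalizer (L : Set _) := by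
    rw [← h5, MonoidHom.range_eq_map]
    refine le_trans (map_mono ?_) (le_normalizer_map ψ)
    rw [range_toGL_eq_ker_det]; exact le_normalizer_of_normal
  have hL : IsQuasisimple L := (H22.qs_map_iff_of_injective h4).2
    (H22.qs_of_equiv hq (MonoidHom.ofInjective SpecialLinearGroup.toGL_injective))
  refine ⟨hL, ⟨even_iff_two_dvd.2 (h10 ▸ orderOf_dvd_natCard _ h11), fun g hg =>
    Nat.not_even_iff_odd.1 fun h => hg ?_⟩, fun g _ h => ?_,
    le_antisymm (H01.le_normalizer_centralizer le_rfl) fun g hg => h12 ?_⟩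
  · obtain ⟨⟨_, h13, x, h14, rfl⟩, hx⟩ := exists_prime_orderOf_dvd_card' 2 (even_iff_two_dvd.1 h)
    rw [← orderOf_coe] at hx
    have := h9 _ h13 hx
    rw [h9 x h14 ((MulAut.conj g).orderOf_eq x ▸ hx)] at this
    exact (H01.le_normalizer_centralizer le_rfl) (h12 (mem_centralizer_singleton_iff.2
      (mul_inv_eq_iff_eq_mul.1 this)))
  · rw [commutator_comm, commutator_eq_bot_iff_le_centralizer, h8] at h
    refine H22.qs_not_comm ((H22.qs_map_iff_of_injective (f := (MulAut.conj g).toMonoidHom)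
      (MulAut.conj g).injective).2 hL)
      ⟨⟨fun a b => Subtype.ext ?_⟩⟩
    obtain ⟨x, hx, h1⟩ := h a.2
    obtain ⟨y, -, h3⟩ := h b.2
    rw [coe_mul, coe_mul, ← h1, ← h3, ← map_mul, ← map_mul, mem_center_iff.1 hx]
  · exact mem_centralizer_singleton_iff.2 (mul_inv_eq_iff_eq_mul.1 (h9 _
      ((mem_normalizer_iff.1 hg _).1 h11) (((MulAut.conj g).orderOf_eq _).trans h10)))

end Cfsg.Agent.S1348
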