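import Mathlib
import Cfsg.Statements.S1441
import Cfsg.Agent.H01.Coprime2

set_option autoImplicit false
open Cfsg

namespace Cfsg.Agent.S1441

/-- Let G be a finite group, H a solvable subgroup and A a subgroup normalizing H. Suppose there is a chain H = H₀ ≥ H₁ ≥ ⋯ ≥ H_n = 1 of subgroups normal in H and normalized by A such that A acts trivially on each factor H_{i-1}/H_i (that is, [H_{i-1}, A] ≤ H_i). Then every prime dividing the index of C_A(H) in A divides the order of H. -/
theorem result {G : Type*} [Group G] [Finite G] (H A : Subgroup G) (hH : Group.IsSolvable H) (hA : (A ≤ Subgroup.normalizer (H : Set G)))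
    (n : ℕ) (c : Fin (n + 1) → Subgroup G) (hc0 : c 0 = H) (hcn : c (Fin.last n) = ⊥) (hanti : Antitone c)
    (hcN : ∀ i, H ≤ Subgroup.normalizer ((c i : Subgroup G) : Set G)) (hcA : ∀ i, A ≤ Subgroup.normalizer ((c i : Subgroup G) : Set G))
    (htriv : ∀ i : Fin n, ⁅c i.castSucc, A⁆ ≤ c i.succ) :
    ∀ p : ℕ, p.Prime → p ∣ (A ⊓ Subgroup.centralizer (H : Set G)).relIndex A → p ∣ Nat.card H := by
  intro p hp hd
  by_contra hnd
  have := Fact.mk hp
  obtain ⟨S⟩ : Nonempty (Sylow p A) := inferInstance
  obtain ⟨h1, h2, h3⟩ := H01.sylow_map_subtype_spec S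
  set P := (S : Subgroup A).map A.subtype
  have hcop : (Nat.card P).Coprime (Nat.card H) := by
    obtain ⟨k, hk⟩ := h2.exists_card_eq
    rw [hk]
    exact Nat.Coprime.pow_left _ (hp.coprime_iff_not_dvd.mpr hnd)
  let c' : ℕ → Subgroup G := fun i => if h : i < n + 1 then c ⟨i, h⟩ else ⊥
  have h4 := H01.le_centralizer_of_chain hcop n c' (fun i => by
      simp only [c']
      split_ifs with h
      · exact hc0 ▸ hanti (Fin.zero_le _)
      · exact bot_le) (by simp only [c', lt_add_one, dif_pos]; exact hcn) (fun i hi => by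
      simp only [c', dif_pos (show i < n + 1 by omega), dif_pos (show i + 1 < n + 1 by omega)]
      exact (Subgroup.commutator_mono le_rfl h1).trans (htriv ⟨i, hi⟩))
  have h5 : c' 0 = H := by simp only [c', Nat.zero_lt_succ, dif_pos]; exact hc0
  rw [h5] at h4
  exact h3 (hd.trans (Subgroup.relIndex_dvd_of_le_left A (le_inf h1 h4)))

end Cfsg.Agent.S1441
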