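import Mathlib
import Cfsg.Statements.S1448
import Cfsg.Agent.H04.BG4

set_option autoImplicit false
open Cfsg

namespace Cfsg.Agent.S1448

/-- Let G be a finite group, p an odd prime, R a nontrivial p-subgroup with no elementary abelian subgroup of order p ^ 3, and A a subgroup of odd order coprime to p normalizing R with [R, A] = R. Then 3 < p, and either R is abelian or R is generated by two elementwise-commuting subgroups R₁, R₂ with R₁ non-abelian of order p ^ 3 and exponent p, R₂ cyclic, and the elements of R₂ of order dividing p generating exactly [R₁, R₁]. -/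
theorem result {G : Type*} [Group G] [Finite G] (p : ℕ) [Fact p.Prime] (hp : p ≠ 2) (R A : Subgroup G) (hR : IsPGroup p R) (hR1 : R ≠ ⊥) (hr : Cfsg.PRankLE p 2 R)
    (hA : (A ≤ Subgroup.normalizer (R : Set G))) (hcop : (Nat.card A).Coprime p) (hAodd : Odd (Nat.card A)) (hRA : ⁅R, A⁆ = R) :
    3 < p ∧ (IsMulCommutative R ∨ ∃ R₁ R₂ : Subgroup G, R₁ ⊔ R₂ = R ∧ (∀ a ∈ R₁, ∀ b ∈ R₂, a * b = b * a) ∧
        ¬ IsMulCommutative R₁ ∧ Nat.card R₁ = p ^ 3 ∧ Monoid.exponent R₁ = p ∧ IsCyclic R₂ ∧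
        Subgroup.closure {x : G | x ∈ R₂ ∧ x ^ p = 1} = ⁅R₁, R₁⁆) := by
  obtain ⟨h1, h2⟩ := H04.blackburn hp hR hR1 hr hA
    ((Nat.Prime.coprime_iff_not_dvd Fact.out).mp hcop.symm) hAodd hRA
  refine ⟨h1, h2.imp_right ?_⟩
  rintro ⟨S, C, h3, h4, h5, h6, h7, h8, h9⟩
  refine ⟨S, C, h3, fun a ha b hb => h4 hb a ha, h5, h6, ?_, h8, ?_⟩
  · haveI : Nontrivial S := (Subgroup.nontrivial_iff_ne_bot S).mpr
      (BG.ne_bot_of_card Fact.out (by omega) h6)
    refine ((Nat.dvd_prime Fact.out).mp (Monoid.exponent_dvd_of_forall_pow_eq_one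
      fun x => Subtype.ext (h7 x x.2))).resolve_left ?_
    exact Monoid.one_lt_exponent.ne'
  · exact h9.trans (H04.center_of_card_cube h6 h5).1.symm

end Cfsg.Agent.S1448
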