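import Mathlib
import Cfsg.Statements.S1454
import Cfsg.Agent.H04.BG5
import Cfsg.Agent.H02.PCore

set_option autoImplicit false
open Cfsg

namespace Cfsg.Agent.S1454

/-- Let G be a finite group, p an odd prime, R a narrow p-subgroup and A a solvable subgroup of odd order normalizing R with A ∩ C_G(R) = 1. Then [A, A] ≤ O_p(A) and the index of O_p(A) in A is coprime to p; if R has an elementary abelian subgroup of order p ^ 3 then the order of every element of A of order coprime to p divides p − 1; and if the order of A is a prime not dividing p(p − 1), then 2·#A divides p + 1, and if in addition [R, A] = R and R is non-abelian then #R = p ^ 3. -/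
theorem result {G : Type*} [Group G] [Finite G] (p : ℕ) [Fact p.Prime] (hp : p ≠ 2) (R A : Subgroup G) (hR : IsPGroup p R) (hRn : Cfsg.IsNarrow p R)
    (hA : (A ≤ Subgroup.normalizer (R : Set G))) (hAs : Group.IsSolvable A) (hAodd : Odd (Nat.card A)) (hfaith : A ⊓ Subgroup.centralizer (R : Set G) = ⊥) :
    (commutator ↥A ≤ Cfsg.pCore p ↥A ∧ ((Cfsg.pCore p ↥A).index).Coprime p) ∧
      (¬ Cfsg.PRankLE p 2 R → ∀ a ∈ A, (orderOf a).Coprime p → orderOf a ∣ p - 1) ∧
      ((Nat.card A).Prime → ¬ Nat.card A ∣ p * (p - 1) →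
        2 * Nat.card A ∣ p + 1 ∧ (⁅R, A⁆ = R → ¬ IsMulCommutative R → Nat.card R = p ^ 3)) := by
  refine ⟨?_, fun hr a ha hc => ?_, fun hq hd => H04.aut_narrow_c hp hR hRn hA hq hAodd
    (fun h => BG.ne_bot_of_prime hq (BG.eq_bot_mono hfaith (le_inf le_rfl h))) hd⟩
  · obtain ⟨B, -, h1, h2, ⟨k, h3⟩, h4, h5⟩ := H04.aut_narrow_a hp hR hRn hA hAs hAodd
    rw [hfaith, Subgroup.relIndex_bot_left] at h3
    haveI := Subgroup.normal_subgroupOf_of_le_normalizer h2
    have h6 : B.subgroupOf A ≤ Cfsg.pCore p A :=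
      H02.le_pCore (IsPGroup.of_card (by rw [H04.card_subgroupOf h1, h3]))
    refine ⟨le_trans ?_ h6, ?_⟩
    · rw [← Subgroup.map_le_map_iff_of_injective A.subtype_injective, H04.map_subtype_commutator',
        Subgroup.map_subgroupOf_eq_of_le h1]
      exact h4
    · exact ((Nat.Prime.coprime_iff_not_dvd Fact.out).mpr
        fun h => h5 (h.trans (Subgroup.index_dvd_of_le h6))).symm
  · have h1 := H04.aut_narrow_b hp hR hRn hr (hA ha)
      ((Nat.Prime.coprime_iff_not_dvd Fact.out).mp hc.symm)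
    exact orderOf_dvd_of_pow_eq_one (BG.eq_one_of_mem_of_disj hfaith (pow_mem ha _) h1)

end Cfsg.Agent.S1454
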