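import Mathlib
import Cfsg.Statements.S1459
import Cfsg.Agent.H01.BG6

set_option autoImplicit false
open Cfsg

namespace Cfsg.Agent.S1459

/-- Let G be a finite solvable group. (a) If H is a normal subgroup of order coprime to its index, K is a complement to H, and H ≤ G', then H = [H, K] and H ∩ C_G(K) ≤ [H, H]. (b) If G' is nilpotent and has prime index in G, then the order of G' is coprime to its index and G' = [G, K] (the subgroup generated by commutators of elements of G with elements of K) for every complement K of G'. -/
theorem result {G : Type*} [Group G] [Finite G] [Group.IsSolvable G] :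
    (∀ (H K : Subgroup G), H.Normal → (Nat.card H).Coprime H.index → Subgroup.IsComplement' H K → H ≤ commutator G →
        H = ⁅H, K⁆ ∧ H ⊓ Subgroup.centralizer (K : Set G) ≤ ⁅H, H⁆) ∧
      (Group.IsNilpotent ↥(commutator G) → (commutator G).index.Prime →
        (Nat.card ↥(commutator G)).Coprime (commutator G).index ∧
        ∀ K : Subgroup G, Subgroup.IsComplement' (commutator G) K → commutator G = ⁅(⊤ : Subgroup G), K⁆) := by
    have key : ∀ (H K : Subgroup G), H.Normal → (Nat.card H).Coprime H.index →
        Subgroup.IsComplement' H K → H ≤ commutator G →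
        H = ⁅H, K⁆ ∧ H ⊓ Subgroup.centralizer (K : Set G) ≤ ⁅H, H⁆ := by
      intro H K hH hcop hc hle
      have := H01.coprime_der1_sdprod (X := ⊤) ⟨hc.sup_eq_top, H01.le_normalizer_of_normal _ _,
        hc.disjoint.eq_bot⟩ (hc.symm.index_eq_card ▸ hcop) inferInstance hle
      exact ⟨this.1.symm, this.2⟩
    refine ⟨key, fun hn hp => ?_⟩
    have h1 := H01.coprime_commutator_of_prime_index hn hp
    refine ⟨h1, fun K hK => le_antisymm ?_ (Subgroup.commutator_mono le_rfl le_top)⟩
    exact (key _ K inferInstance h1 hK le_rfl).1.le.trans (Subgroup.commutator_mono le_top le_rfl)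

end Cfsg.Agent.S1459
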