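import Mathlib
import Cfsg.Statements.S1463
import Cfsg.Agent.H17.Dickson2
import Cfsg.Agent.H09.SLBasic

set_option autoImplicit false
open scoped MatrixGroups
open Cfsg

namespace Cfsg.Agent.S1463

open Matrix MulAction H09 H17
open scoped MatrixGroups

theorem upper_00 {F : Type*} [Field F] {x : SL(2, F)} (h10 : x 1 0 = 0) (ht : tr x = 2) : x 0 0 = 1 := by
  have hd := upper_det h10
  simp only [tr] at ht
  have : (x 0 0 - 1) ^ 2 = 0 := by linear_combination x 0 0 * ht - hd
  exact sub_eq_zero.1 ((pow_eq_zero_iff two_ne_zero).1 this)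

theorem exists_fixed {F : Type*} [Field F] {x : SL(2, F)} (ht : tr x = 2) : ∃ z : P1 F, x • z = z := by
  by_cases h : x 1 0 = 0
  · exact ⟨pInf, sl_smul_pInf_eq_pInf.2 h⟩
  · refine ⟨pt ((x 0 0 - 1) / x 1 0), sl_smul_pt_eq_pt.2 ?_⟩
    have hd := SL2.det_eq x
    simp only [tr] at ht
    field_simp
    linear_combination -hd + (1 : F) * ht

theorem common_fixed {F : Type*} [Field F] {x y : SL(2, F)} (hx1 : x ≠ 1) (hx : tr x = 2) (hy : tr y = 2)
    (hxy : tr (x * y) = 2) {z : P1 F} (hz : x • z = z) : y • z = z := by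
  obtain ⟨g, rfl, hg⟩ := exists_conj_upper hz
  have htr : ∀ w : SL(2, F), tr (g⁻¹ * w * g) = tr w := fun w => by simpa using tr_conj g⁻¹ w
  have e := eq_up hg (upper_00 hg (by rw [htr, hx]))
  have h1 : (g⁻¹ * x * g) 0 1 ≠ 0 := fun h => hx1 (by
    rw [h, up_zero] at e; rw [show x = g * (g⁻¹ * x * g) * g⁻¹ by group, e]; group)
  have h2 : tr (up ((g⁻¹ * x * g) 0 1) * (g⁻¹ * y * g)) = 2 := by
    rw [← e, ← hxy, ← htr (x * y)]; congr 1; group
  rw [← htr] at hy
  generalize (g⁻¹ * x * g) 0 1 = α at h1 h2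
  have h3 : (g⁻¹ * y * g) 1 0 = 0 := by
    generalize g⁻¹ * y * g = w at hy h2
    simp only [tr, SL2.mul_apply, up_00, up_01, up_10, up_11] at h2 hy
    exact (mul_eq_zero.1 (show α * w 1 0 = 0 by linear_combination h2 - hy)).resolve_left h1
  rwa [← sl_smul_pInf_eq_pInf, mul_smul, mul_smul, inv_smul_eq_iff] at h3

theorem fixed_unique {F : Type*} [Field F] {x : SL(2, F)} (hx1 : x ≠ 1) (hx : tr x = 2) {z z' : P1 F}
    (hz : x • z = z) (hz' : x • z' = z') : z' = z := by
  obtain ⟨g, rfl, hg⟩ := exists_conj_upper hz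
  have htr : ∀ w : SL(2, F), tr (g⁻¹ * w * g) = tr w := fun w => by simpa using tr_conj g⁻¹ w
  have e := eq_up hg (upper_00 hg (by rw [htr, hx]))
  have h1 : (g⁻¹ * x * g) 0 1 ≠ 0 := fun h => hx1 (by
    rw [h, up_zero] at e; rw [show x = g * (g⁻¹ * x * g) * g⁻¹ by group, e]; group)
  have h2 : (g⁻¹ * x * g) • (g⁻¹ • z') = g⁻¹ • z' := by rw [mul_smul, mul_smul, smul_inv_smul, hz']
  rw [← inv_smul_eq_iff]
  rcases P1.cases (g⁻¹ • z') with h | ⟨t, h⟩
  · exact h
  · rw [h, e, sl_smul_pt_eq_pt] at h2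
    simp only [up_00, up_01, up_10, up_11] at h2
    exact absurd (by linear_combination h2) h1

/-- Let F be a field of odd characteristic p and H a finite subgroup of odd order of GL(2, F) that leaves no 1-dimensional subspace of F² invariant. Then p does not divide the order of H. -/
theorem result {F : Type*} [Field F] (p : ℕ) [Fact p.Prime] [CharP F p] (hp : p ≠ 2)
    (H : Subgroup (GL (Fin 2) F)) [Finite H] (hodd : Odd (Nat.card H))
    (hirr : ∀ v : Fin 2 → F, v ≠ 0 → ∃ g ∈ H, (g : Matrix (Fin 2) (Fin 2) F).mulVec v ∉ Submodule.span F {v}) :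
    ¬ p ∣ Nat.card H := by
  intro hdvd
  have hpp : p.Prime := Fact.out
  set f : SL(2, F) →* GL (Fin 2) F := SpecialLinearGroup.toGL with hf
  have hfi : Function.Injective f := SpecialLinearGroup.toGL_injective
  set H₀ : Subgroup SL(2, F) := H.comap f with hH₀
  have hfin : Finite H₀ := Finite.of_injective (fun y => (⟨f y, y.2⟩ : H))
    (fun a b h => Subtype.ext (hfi (congrArg Subtype.val h)))
  have hSL : ∀ y : GL (Fin 2) F, GeneralLinearGroup.det y = 1 → ∃ y₀, f y₀ = y := by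
    intro y hy
    have : y ∈ f.range := by rw [hf, range_toGL_eq_ker_det]; exact hy
    exact this
  obtain ⟨x, hx⟩ := exists_prime_orderOf_dvd_card' p hdvd
  have hxp : (x : GL (Fin 2) F) ^ p = 1 := by
    have := pow_orderOf_eq_one x
    rw [hx] at this
    exact congrArg Subtype.val this
  obtain ⟨x₀, hx₀⟩ := hSL x (by
    apply Units.ext
    have h1 : ((GeneralLinearGroup.det (x : GL (Fin 2) F) : Fˣ) : F) ^ p = 1 := by
      rw [← Units.val_pow_eq_pow_val, ← map_pow, hxp, map_one, Units.val_one]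
    have h2 := sub_pow_char (p := p) ((GeneralLinearGroup.det (x : GL (Fin 2) F) : Fˣ) : F) 1
    rw [h1, one_pow, sub_self] at h2
    exact sub_eq_zero.1 (pow_eq_zero_iff hpp.ne_zero |>.1 h2))
  have hx1 : x₀ ≠ 1 := by
    rintro rfl
    rw [map_one] at hx₀
    rw [show x = 1 from Subtype.ext hx₀.symm, orderOf_one] at hx
    exact hpp.one_lt.ne hx
  by_cases hS : 1 < Nat.card (Sylow p H₀)
  · obtain ⟨ψ, hψ, hle⟩ := exists_sl2_of_sylow p hp H₀ hS
    have h2 : orderOf (⟨f (ψ (-1)), hle ⟨-1, rfl⟩⟩ : H) = 2 := by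
      apply orderOf_eq_prime
      · apply Subtype.ext
        simp only [Subgroup.coe_pow, OneMemClass.coe_one]
        rw [← map_pow, ← map_pow, neg_one_sq, map_one, map_one]
      · intro h
        have h3 : f (ψ (-1)) = f (ψ 1) := by rw [map_one, map_one]; exact congrArg Subtype.val h
        exact SL2.neg_one_ne_one (two_ne_zero_of_charP' _ p hp) (hψ (hfi h3))
    have h4 := orderOf_dvd_natCard (⟨f (ψ (-1)), hle ⟨-1, rfl⟩⟩ : H)
    rw [h2] at h4
    exact (Nat.not_even_iff_odd.2 hodd) (even_iff_two_dvd.2 h4)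
  · have hsub : Subsingleton (Sylow p H₀) := Finite.card_le_one_iff_subsingleton.1 (not_lt.1 hS)
    obtain ⟨P⟩ := (inferInstance : Nonempty (Sylow p H₀))
    have hmem : ∀ y : H₀, (y : SL(2, F)) ^ p = 1 → y ∈ (P : Subgroup H₀) := by
      intro y hy
      have h1 : IsPGroup p (Subgroup.zpowers y) := by
        rintro ⟨_, n, rfl⟩
        refine ⟨1, Subtype.ext (Subtype.ext ?_)⟩
        simp only [pow_one, Subgroup.coe_pow, Subgroup.coe_zpow, OneMemClass.coe_one]
        rw [← _root_.zpow_natCast, ← _root_.zpow_mul, mul_comm, _root_.zpow_mul, _root_.zpow_natCast, hy,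
          _root_.one_zpow]
      obtain ⟨Q, hQ⟩ := h1.exists_le_sylow
      rw [Subsingleton.elim P Q]
      exact hQ (Subgroup.mem_zpowers y)
    have htr : ∀ y ∈ (P : Subgroup H₀), tr (y : SL(2, F)) = 2 := by
      intro y hy
      obtain ⟨n, hn⟩ := P.isPGroup' ⟨y, hy⟩
      exact tr_eq_two_of_pow p (n := n) (congrArg (fun z : P => ((z : H₀) : SL(2, F))) hn)
    have hxH : x₀ ∈ H₀ := by show f x₀ ∈ H; rw [hx₀]; exact x.2
    have hxP := hmem ⟨x₀, hxH⟩ (hfi (by rw [map_pow, hx₀, hxp, map_one]))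
    obtain ⟨z, hz⟩ := exists_fixed (htr _ hxP)
    obtain ⟨g, hg, hgv⟩ := hirr z.rep z.rep_nonzero
    obtain ⟨y, hy⟩ := hSL (g * x * g⁻¹) (by
      rw [map_mul, map_mul, mul_right_comm, ← map_mul, mul_inv_cancel, map_one, one_mul, ← hx₀]
      have h5 : f x₀ ∈ f.range := ⟨x₀, rfl⟩
      rw [hf, range_toGL_eq_ker_det] at h5
      exact h5)
    have hyH : y ∈ H₀ := by show f y ∈ H; rw [hy]; exact H.mul_mem (H.mul_mem hg x.2) (H.inv_mem hg)
    have hyP := hmem ⟨y, hyH⟩ (hfi (by rw [map_pow, hy, conj_pow, hxp, map_one]; group))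
    have h1 := common_fixed hx1 (htr _ hxP) (htr _ hyP) (htr _ (Subgroup.mul_mem _ hxP hyP)) hz
    have hy1 : y ≠ 1 := by
      rintro rfl
      rw [map_one, eq_comm, conj_eq_one_iff, ← hx₀] at hy
      exact hx1 (hfi (hy.trans f.map_one.symm))
    have h2 : y • (g • z) = g • z := by
      rw [← toGL_smul, ← hf, hy, mul_smul, mul_smul, inv_smul_smul, ← hx₀, hf, toGL_smul, hz]
    have h3 := fixed_unique hy1 (htr _ hyP) h1 h2
    apply hgv
    rw [← z.mk_rep, Projectivization.smul_mk, Projectivization.mk_eq_mk_iff'] at h3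
    obtain ⟨a, ha⟩ := h3
    rw [Submodule.mem_span_singleton]
    exact ⟨a, ha⟩

end Cfsg.Agent.S1463
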