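import Mathlib
import Cfsg.Statements.S1466
import Cfsg.Agent.H17.OddSolv

set_option autoImplicit false
open Cfsg

namespace Cfsg.Agent.S1466

/-- Let p be a prime and R a nontrivial finite p-group. Then for every i > 0, Z(R) ≤ C_R(L_i(R)) ≤ L_i(R); likewise Z(R) ≤ C_R(L_*(R)) ≤ L_*(R) and Z(R) ≤ C_R(L(R)) ≤ L(R); and L(R) ≠ 1, L_*(R) ≠ 1. -/
theorem result {R : Type*} [Group R] [Finite R] (p : ℕ) [Fact p.Prime] (hR : IsPGroup p R) [Nontrivial R] :
    (∀ i : ℕ, 0 < i → Subgroup.center R ≤ Subgroup.centralizer ((Cfsg.puigSeq R i : Subgroup R) : Set R) ∧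
        Subgroup.centralizer ((Cfsg.puigSeq R i : Subgroup R) : Set R) ≤ Cfsg.puigSeq R i) ∧
      (Subgroup.center R ≤ Subgroup.centralizer ((Cfsg.puigLower R : Subgroup R) : Set R) ∧ Subgroup.centralizer ((Cfsg.puigLower R : Subgroup R) : Set R) ≤ Cfsg.puigLower R) ∧
      (Subgroup.center R ≤ Subgroup.centralizer ((Cfsg.puigSubgroup R : Subgroup R) : Set R) ∧ Subgroup.centralizer ((Cfsg.puigSubgroup R : Subgroup R) : Set R) ≤ Cfsg.puigSubgroup R) ∧
      Cfsg.puigSubgroup R ≠ ⊥ ∧ Cfsg.puigLower R ≠ ⊥ := by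
  have hT : IsPGroup p (⊤ : Subgroup R) := hR.to_subgroup ⊤
  have hz : ∀ X : Subgroup R, Subgroup.center R ≤ Subgroup.centralizer (X : Set R) :=
    fun X => Subgroup.center_le_centralizer _
  have hU : Subgroup.centralizer ((Cfsg.puigSubgroup R : Subgroup R) : Set R) ≤ Cfsg.puigSubgroup R := by
    have := H17.centralizer_pUp_le hT
    rwa [H17.pUp_top, top_inf_eq] at this
  have hL : Subgroup.centralizer ((Cfsg.puigLower R : Subgroup R) : Set R) ≤ Cfsg.puigLower R := by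
    have := H17.centralizer_pLow_le hT
    rwa [H17.pLow_top, top_inf_eq] at this
  have hne : Subgroup.center R ≠ ⊥ := by
    haveI := hR.center_nontrivial
    exact (Subgroup.nontrivial_iff_ne_bot _).1 inferInstance
  refine ⟨fun i hi => ⟨hz _, ?_⟩, ⟨hz _, hL⟩, ⟨hz _, hU⟩, fun h => hne ?_, fun h => hne ?_⟩
  · obtain ⟨j, rfl⟩ : ∃ j, i = j + 1 := ⟨i - 1, by omega⟩
    have := H17.centralizer_pSeq_le hT j
    rwa [H17.pSeq_top, top_inf_eq] at this
  · exact le_bot_iff.1 (h ▸ (hz _).trans hU)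
  · exact le_bot_iff.1 (h ▸ (hz _).trans hL)

end Cfsg.Agent.S1466
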