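import Cfsg.Statements.S1474
import Cfsg.Agent.H24.CN
-- import your own Cfsg.Agent.* helpers here

set_option autoImplicit false
open Cfsg

namespace Cfsg.Agent.S1474

open BG Subgroup H24.CN

/-- Let G be a finite group in which every non-identity element has nilpotent centralizer, not itself nilpotent, and having a nontrivial normal Sylow p-subgroup for some prime p. Let H be the largest normal nilpotent Hall subgroup of G. Then H is a nontrivial proper normal subgroup with a complement E that is a Frobenius complement in G (no non-identity element of E centralizes a non-identity element of H), and G/H is nilpotent. -/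
theorem result {G : Type*} [Group G] [Finite G] (hCN : Cfsg.IsCNGroup G) (hnn : ¬ Group.IsNilpotent G) (p : ℕ) [Fact p.Prime] (P : Sylow p G)
    (hP1 : (P : Subgroup G) ≠ ⊥) (hPn : (P : Subgroup G).Normal) :
    Cfsg.fittingHall G ≠ ⊥ ∧ Cfsg.fittingHall G ≠ ⊤ ∧
      (∃ E : Subgroup G, Subgroup.IsComplement' (Cfsg.fittingHall G) E ∧ Cfsg.IsFrobeniusComplement E ∧
        ∀ e ∈ E, e ≠ 1 → Cfsg.fittingHall G ⊓ Subgroup.centralizer ({e} : Set G) = ⊥) ∧
      Group.IsNilpotent (G ⧸ Cfsg.fittingHall G) := by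
  have h0 := ne_bot_mono hP1 (sylow_le_fh Fact.out (isSylowIn_top Fact.out P) le_normalizer_of_normal)
  obtain ⟨E, hE⟩ := frob hCN hnn h0
  have h1 := fh_nil (⊤ : Subgroup G)
  rw [← fh_top] at h0 hE h1
  have hc := isCompl hE.sd
  refine ⟨h0, fun e => hnn (nil_top (e ▸ h1)), ⟨E, hc, (H02.isFrob_iff_fpf hc h0 hE.compl_ne).2 hE.reg, hE.reg⟩, ?_⟩
  have := nil_compl hCN hE
  refine Group.nilpotent_of_surjective ((QuotientGroup.mk' _).comp E.subtype) fun x => ?_
  obtain ⟨x, rfl⟩ := QuotientGroup.mk'_surjective _ x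
  obtain ⟨a, ha, k, hk, rfl⟩ := hE.sd.mem'.1 (mem_top x)
  exact ⟨⟨a, ha⟩, by simp [hk]⟩

end Cfsg.Agent.S1474
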