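import Cfsg.Statements.S1475
import Cfsg.Agent.H24.CN
-- import your own Cfsg.Agent.* helpers here

set_option autoImplicit false
open Cfsg

namespace Cfsg.Agent.S1475

open BG Subgroup H24.CN

/-- Let G be a finite solvable group such that the order of every element is a prime power (1 included). Then at most two distinct primes divide the order of G. -/
theorem result {G : Type*} [Group G] [Finite G] [Group.IsSolvable G] (h : ∀ g : G, IsPrimePow (orderOf g) ∨ g = 1) :
    (Nat.card G).primeFactors.card ≤ 2 := by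
  by_contra! h3
  obtain ⟨p, hp, -⟩ := Finset.exists_mem_ne (h3.trans' (by omega) : 1 < _) 0
  obtain ⟨q, hq, hqp⟩ := Finset.exists_mem_ne (h3.trans' (by omega) : 1 < _) p
  have hm : H16.NoMix {p} G := fun g p q hp hq h1 h2 h3 h4 => (h g).elim (fun e => by
    obtain ⟨r, k, hr, -, e⟩ := (isPrimePow_nat_iff _).1 e
    rw [← e] at h3 h4
    exact h2 (((Nat.prime_dvd_prime_iff_eq hq hr).1 (hq.dvd_of_dvd_pow h4)).trans ((Nat.prime_dvd_prime_iff_eq hp hr).1
      (hp.dvd_of_dvd_pow h3)).symm ▸ h1)) fun e => hp.one_lt.ne' (by simpa [e] using h3)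
  have key : ∀ a b : ℕ, ¬ (Nat.card G).primeFactors ⊆ {a} ∪ {b} := fun a b e =>
    h3.not_ge ((Finset.card_le_card e).trans ((Finset.card_union_le _ _).trans (by simp)))
  have h1 : ∀ {K : Subgroup G}, Group.IsNilpotent K → K ≠ ⊥ → ∃ p, (Nat.card K).primeFactors ⊆ {p} := fun a b =>
    one_prime h (nil_center_ne_bot a b)
  obtain ⟨K, C, hF⟩ | ⟨H, B, C, hF⟩ := hm.frob_or_twoFrob inferInstance ⟨p, Nat.prime_of_mem_primeFactors hp, rfl,
    Nat.dvd_of_mem_primeFactors hp⟩ ⟨q, Nat.prime_of_mem_primeFactors hq, hqp, Nat.dvd_of_mem_primeFactors hq⟩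
  · obtain ⟨a, ha⟩ := h1 (H02.isNilpotent_of_fpf_subgroup hF.sd.norm hF.compl_ne hF.reg) hF.ker_ne
    obtain ⟨⟨z, hz⟩, z1⟩ := ne_bot_iff_exists_ne_one.1 (H02.center_ne_bot_of_fpf hF.compl_ne hF.ker_ne hF.sd.norm hF.reg)
    obtain ⟨b, hb⟩ := one_prime h (X := C) fun e => z1 (Subtype.ext (Subtype.ext (e.le ⟨z.2, fun c hc =>
      congrArg Subtype.val (mem_center_iff.1 hz ⟨c, hc⟩)⟩)))
    refine key a b ?_
    rw [← card_top, hF.sd.card, Nat.primeFactors_mul Nat.card_pos.ne' Nat.card_pos.ne']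
    exact Finset.union_subset_union ha hb
  · obtain ⟨a, ha⟩ := h1 hF.nil_H hF.frob1.ker_ne
    obtain ⟨b, hb⟩ := h1 (nil_of_abelian (abelian_of_cyclic hF.cyclic_B)) hF.frob2.ker_ne
    refine key a b ?_
    have := hF.normal
    rw [← card_top, ← hF.sup, card_sup_of_disj le_normalizer_of_normal hF.disj, hF.frob2.sd.card,
      Nat.primeFactors_mul Nat.card_pos.ne' (Nat.mul_pos Nat.card_pos Nat.card_pos).ne', Nat.primeFactors_mul Nat.card_pos.ne' Nat.card_pos.ne']
    refine Finset.union_subset (ha.trans Finset.subset_union_left) (Finset.union_subset (hb.trans Finset.subset_union_right) fun r hr => ?_)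
    obtain ⟨s, s1, s2⟩ := exists_prime_dvd_card hF.frob1.ker_ne
    by_cases e : s = r
    · exact Finset.mem_union_left _ (ha (Nat.mem_primeFactors.2 ⟨e ▸ s1, e ▸ s2, Nat.card_pos.ne'⟩))
    obtain ⟨g, hg⟩ := hF.exists_order s1 (Nat.prime_of_mem_primeFactors hr) e s2 (Nat.dvd_of_mem_primeFactors hr)
    obtain e' | e' := h g
    · obtain ⟨u, k, hu, -, e'⟩ := (isPrimePow_nat_iff _).1 e'
      rw [hg] at e'
      exact (e (((Nat.prime_dvd_prime_iff_eq s1 hu).1 (s1.dvd_of_dvd_pow (e' ▸ dvd_mul_right _ _))).trans ((Nat.prime_dvd_prime_iff_eq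
        (Nat.prime_of_mem_primeFactors hr) hu).1 ((Nat.prime_of_mem_primeFactors hr).dvd_of_dvd_pow (e' ▸ dvd_mul_left _ _))).symm)).elim
    · rw [e', orderOf_one] at hg; exact (s1.one_lt.ne' (Nat.eq_one_of_mul_eq_one_right hg.symm)).elim

end Cfsg.Agent.S1475
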