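import Cfsg.Statements.S1477
import Cfsg.Agent.H24.CN
-- import your own Cfsg.Agent.* helpers here

set_option autoImplicit false
open Cfsg

namespace Cfsg.Agent.S1477

open BG Subgroup H24.CN

/-- Let G be a finite group in which every non-identity element has nilpotent centralizer, and H a nilpotent subgroup not properly contained in any nilpotent subgroup. Then the order of H is coprime to its index; if the order of H is not a prime power then H ∩ gHg⁻¹ = 1 whenever gHg⁻¹ ≠ H; and if H ∩ gHg⁻¹ = 1 whenever gHg⁻¹ ≠ H, then C_G(x) ≤ H for every non-identity x ∈ H. -/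
theorem result {G : Type*} [Group G] [Finite G] (hCN : Cfsg.IsCNGroup G) (H : Subgroup G) (hH : Group.IsNilpotent H)
    (hmax : ∀ L : Subgroup G, Group.IsNilpotent L → H ≤ L → L = H) :
    (Nat.card H).Coprime H.index ∧
      (¬ IsPrimePow (Nat.card H) → Nat.card H ≠ 1 → ∀ g : G, H.map (MulAut.conj g).toMonoidHom ≠ H → H ⊓ H.map (MulAut.conj g).toMonoidHom = ⊥) ∧
      ((∀ g : G, H.map (MulAut.conj g).toMonoidHom ≠ H → H ⊓ H.map (MulAut.conj g).toMonoidHom = ⊥) → ∀ x ∈ H, x ≠ 1 → Subgroup.centralizer ({x} : Set G) ≤ H) := by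
  have h1 : ∀ p : ℕ, p.Prime → p ∣ Nat.card H → IsSylowIn p (piCoreOf {p} H) ⊤ := fun p hp hd => by
    obtain ⟨P, a, b⟩ := sylow_superset hp (pcore_pg hp H) le_top
    have c := cent hCN hp (a.pg hp) (pcore_not_dvd hp H) (ne_bot_mono (nil_pcore_ne_bot (π := {p}) hH hp rfl hd) (le_inf b (pcore_cent_compl _ _)))
    have d := hmax _ (nil_sup_of_cent (nil_of_le hH (pcore_le _ _)) (pg_nil hp (a.pg hp)) c)
      ((nil_dprod' {p} hH).sup.ge.trans (sup_le_sup_left b _))
    exact le_antisymm (nil_le_pcore hH (isPi_of_pg (π := {p}) hp (a.pg hp) rfl) (le_sup_right.trans d.le)) b ▸ a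
  have h2 : ∀ Z, Z ≠ ⊥ → H ≤ C_(Z) → C_(Z) = H := fun Z a b => hmax _ (nil_of_cent hCN a le_rfl) b
  refine ⟨coprime_of_forall fun p hp a b => (h1 p hp a).not_dvd' hp ((relIndex_top_right (G := G) H ▸ b).trans
    (relIndex_dvd_of_le_left _ (pcore_le _ _))), fun h3 h4 g hg => by_contra fun e => hg ?_, fun h3 x hx x1 => ?_⟩
  · change cj g H = H
    obtain ⟨X, x1, x2⟩ := exists_prime_card_le e
    obtain ⟨q, q1, q2, q3⟩ : ∃ q : ℕ, q.Prime ∧ q ∣ Nat.card H ∧ q ≠ Nat.card X := by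
      by_contra! e
      obtain ⟨n, hn⟩ := pg_card x2 ((isPi_singleton x2).1 e)
      exact h3 ((isPrimePow_nat_iff _).2 ⟨_, n, x2, Nat.pos_of_ne_zero fun e => h4 (by simpa [e] using hn), hn.symm⟩)
    have hn := nil_of_cent hCN (ne_bot_of_prime x2) le_rfl
    have a := h1 q q1 q2
    have b := a.cj_of_norm (g := g) (le_norm _ (mem_top g))
    have c : ∀ {K : Subgroup G}, Group.IsNilpotent K → X ≤ K → piCoreOf {q} K ≤ C_(X) := fun a b =>
      nil_cent_of_coprime a (pcore_le _ _) b (pg_coprime_ne q1 x2 (pcore_pg q1 _) (pg_of_card_eq rfl) q3)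
    rw [← pcore_cj] at b
    have hH' : Group.IsNilpotent (cj g H) := Group.nilpotent_of_surjective _ ((MulAut.conj g).toMonoidHom.subgroupMap_surjective H)
    have d := (nil_hall_eq hn (a.sub (c hH (x1.trans inf_le_left)) le_top)).trans (nil_hall_eq hn (b.sub (c hH' (x1.trans inf_le_right)) le_top)).symm
    have f : ∀ {K : Subgroup G}, Group.IsNilpotent K → K ≤ C_(piCoreOf {q} K ⊓ C_(piCoreOf {q} K)) := fun {K} a =>
      (nil_dprod {q} a).sup.ge.trans (sup_le (cent_symm inf_le_right) ((nil_dprod {q} a).cent.trans (cent_anti inf_le_left)))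
    exact eq_of_le_of_card_le ((f hH').trans_eq (d ▸ h2 _ (pg_center_ne_bot q1 (pcore_pg q1 H) (nil_pcore_ne_bot hH q1 rfl q2)) (f hH))) (card_cj g H).ge
  · have hn : C_[x] ≤ N_(H) := fun g hg => cj_eq_self_iff.1 (by_contra fun e => x1 ((h3 g e).le ⟨hx, x, hx, by
      simp [mem_cent1.1 hg]⟩))
    refine le_of_sylows fun q hq _ => ?_
    obtain ⟨Q, hQ⟩ := sylow_exists hq C_[x]
    refine ⟨Q, hQ, ?_⟩
    by_cases e : q ∣ Nat.card H
    · exact (((h1 q hq e).le_of_norm_pg' hq (hQ.pg hq) le_top ((hQ.le.trans hn).trans (norm_le_norm_pcore _ _)))).trans (pcore_le _ _)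
    obtain ⟨X, x2, x3⟩ := exists_prime_card_le (zpowers_ne_bot x1)
    have x4 := x2.trans (zpowers_le.2 hx)
    have a := cent hCN x3 (pcore_pg x3 H) (pg_not_dvd x3 hq (hQ.pg hq) fun e' => e (e' ▸ card_dvd x4)) (ne_bot_mono (ne_bot_of_prime x3)
      (le_inf (nil_le_pcore hH (isPi_of_pg x3 (pg_of_card_eq rfl) rfl) x4) (x2.trans (zpowers_le.2 (le_cent1_iff.1 hQ.le)))))
    exact (a.trans (cent_anti inf_le_left)).trans_eq (h2 _ (nil_meet_center hH (pcore_le _ _) (le_norm_pcore _ _)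
      (nil_pcore_ne_bot hH x3 rfl (card_dvd x4))) (cent_symm inf_le_right))

end Cfsg.Agent.S1477
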