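import Cfsg.Statements.S1480
import Cfsg.Agent.S1302
import Cfsg.Agent.H02.BG7a
import Cfsg.Agent.BG.Api
-- import your own Cfsg.Agent.* helpers here

set_option autoImplicit false
open Cfsg

namespace Cfsg.Agent.S1480

open BG Subgroup
open scoped commutatorElement Pointwise

theorem two {X : Type*} [Group X] [Finite X] (p : ℕ) [Fact p.Prime] (hX : IsPConstrained p X)
    (hc : ∀ S : Sylow p X, ∀ a ∈ S, ∀ b ∈ S, ∀ c ∈ S, c * ⁅a, b⁆ = ⁅a, b⁆ * c) (A : Subgroup X) (hAp : IsPGroup p A)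
    (hΩ : ∀ x ∈ C_(A), IsPGroup p (zpowers x) → x ∈ A) (Q : Subgroup X) (hQc : (Nat.card Q).Coprime p) (hAQ : A ≤ N_(Q)) :
    Q ≤ pPrimeCore p X := by
  set f := QuotientGroup.mk' (pPrimeCore p X) with hf
  have hs : Function.Surjective f := QuotientGroup.mk'_surjective _
  have hk := H17.coprime_ker_mk' (G := X) (p := p)
  have hQ' : (Nat.card (Q.map f)).Coprime p := hQc.coprime_dvd_left (card_map_dvd _ _)
  have hAQ' : A.map f ≤ normalizer (Q.map f : Set _) := (map_mono hAQ).trans (le_normalizer_map f)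
  have hG := H02.pCore_isPGroup p (X ⧸ pPrimeCore p X)
  have hR := H17.isPConstrained_iff_quot.1 hX
  have hA' := hAp.map f
  have hΩ' : ∀ x ∈ pCore p (X ⧸ pPrimeCore p X), x ∈ C_(A.map f) → x ∈ A.map f := fun x hxG hxC => by
    rw [← H17.centralizer_map_of_coprime_ker hs hk hAp] at hxC
    obtain ⟨c, hc, rfl⟩ := hxC
    obtain ⟨a, ha⟩ := hG ⟨_, hxG⟩
    replace ha : f c ^ p ^ a = 1 := congrArg Subtype.val ha
    have h2 : (orderOf (c ^ p ^ a)).Coprime (p ^ a) :=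
      (hk.coprime_dvd_left (orderOf_dvd_natCard _ (show c ^ p ^ a ∈ f.ker by rw [MonoidHom.mem_ker, map_pow, ha]))).pow_right _
    obtain ⟨k, hk1, hk2⟩ := Nat.chineseRemainder h2 0 1
    refine ⟨c ^ k, hΩ _ (pow_mem hc k) fun ⟨_, n, rfl⟩ => ⟨a, Subtype.ext ?_⟩, by simpa using pow_eq_pow_of_modEq hk2 ha⟩
    have h3 : (c ^ k) ^ p ^ a = 1 := by
      rw [← pow_mul, mul_comm, pow_mul]; exact orderOf_dvd_iff_pow_eq_one.1 ((Nat.modEq_zero_iff_dvd).1 hk1)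
    simp only [SubmonoidClass.coe_pow, OneMemClass.coe_one]
    rw [← zpow_natCast, ← zpow_mul, mul_comm, zpow_mul, zpow_natCast, h3, one_zpow]
  have h2 : ∀ r ∈ pCore p (X ⧸ pPrimeCore p X), ∀ a ∈ A.map f, ⁅r, a⁆ ∈ C_(A.map f) := fun r hr a ha b hb => by
    obtain ⟨S, hS⟩ := (IsPGroup.to_sup_of_normal_right hA' hG).exists_le_sylow
    obtain ⟨T, rfl⟩ := Sylow.mapSurjective_surjective hs p S
    obtain ⟨r, r1, rfl⟩ := hS (mem_sup_right hr)
    obtain ⟨a, a1, rfl⟩ := hS (mem_sup_left ha)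
    obtain ⟨b, b1, rfl⟩ := hS (mem_sup_left hb)
    rw [← map_commutatorElement, ← map_mul, hc T r r1 a a1 b b1, map_mul]
  suffices Q.map f = ⊥ by rwa [Subgroup.map_eq_bot_iff, QuotientGroup.ker_mk'] at this
  have hn : (pCore p (X ⧸ pPrimeCore p X)).Normal := inferInstance
  generalize pCore p (X ⧸ pPrimeCore p X) = R at *
  generalize A.map f = B at *
  generalize Q.map f = K at *
  have hdis : ∀ x ∈ K, x ∈ R → x = 1 := fun x h1 h2 => H26.eq_one_of_mem_pGroup hG h2 (hQ'.coprime_dvd_left (orderOf_dvd_natCard _ h1))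
  have hKB : ∀ k ∈ K, ∀ b ∈ B, ⁅k, b⁆ ∈ K := fun k h1 b h2 => by
    simpa [commutatorElement_def, mul_assoc] using K.mul_mem h1 ((mem_normalizer_iff.1 (hAQ' h2) k⁻¹).1 (K.inv_mem h1))
  have h3 : R ⊓ C_(B) ≤ C_(K) := fun x ⟨x1, x2⟩ k h1 => commutatorElement_eq_one_iff_mul_comm.1 (hdis _ (hKB k h1 x (hΩ' x x1 x2))
    (R.mul_mem (hn.conj_mem _ x1 k) (R.inv_mem x1)))
  have hRB : ⁅R, B⁆ ≤ R ⊓ C_(B) := le_inf (commutator_le_left R B) (commutator_le.2 h2)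
  have h4 : ⁅K, B⁆ ≤ C_(R) := by
    refine H01.le_centralizer_of_commutator_le (N := R ⊓ C_(B)) (H01.coprime_card_of_isPGroup (hG.to_le inf_le_left)
      (hQ'.coprime_dvd_left (card_dvd_of_le (commutator_le.2 hKB)))) ?_ (le_centralizer_iff.1 (h3.trans (centralizer_le (commutator_le.2 hKB))))
    have h5 : R ⊓ C_(B) ≤ C_(B) := inf_le_right
    rw [le_centralizer_iff] at h3 h5
    rw [commutator_le] at hRB
    generalize R ⊓ C_(B) = Z at *
    have h6 : ∀ g ∈ C_(Z), ∀ z ∈ Z, g * z * g⁻¹ ∈ Z := fun g hg z hz => by simpa [← hg z hz] using hz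
    let M : Subgroup _ := ⟨⟨⟨{g | g ∈ C_(Z) ∧ ∀ r ∈ R, ⁅r, g⁆ ∈ Z}, fun {a b} ha hb => ⟨mul_mem ha.1 hb.1, fun r hr => by
      simpa [commutatorElement_def, mul_assoc] using mul_mem (ha.2 r hr) (h6 _ ha.1 _ (hb.2 r hr))⟩⟩, one_mem _, by simp⟩,
      fun {a} ha => ⟨inv_mem ha.1, fun r hr => by
        simpa [commutatorElement_def, mul_assoc] using h6 _ (inv_mem ha.1) _ (inv_mem (ha.2 r hr))⟩⟩
    have h7 : B ≤ M := fun b hb => ⟨h5 hb, fun r hr => hRB r hr b hb⟩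
    exact commutator_le.2 fun r hr g hg => ((commutator_le (H₃ := M)).2 (fun k h1 b h2 => M.mul_mem
      ⟨mul_mem (mul_mem (h3 h1) (h5 h2)) (inv_mem (h3 h1)), fun r hr => by
        simpa [commutatorElement_def, mul_assoc] using h6 _ (h3 h1) _ (hRB _ (hn.conj_mem' r hr k) b h2)⟩ (M.inv_mem (h7 h2))) hg).2 r hr
  have h5 : K ≤ C_(R) := H01.thompson_PxQ hA' hQ' hG (fun b h1 k h2 => commutatorElement_eq_one_iff_mul_comm.1
    (hdis _ (hKB k h2 b h1) (hR (h4 (commutator_mem_commutator h2 h1))))) (by simp [normalizer_eq_top]) (by simp [normalizer_eq_top]) h3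
  exact eq_bot_iff.2 fun k h => hdis k h (hR (h5 h))

theorem core {G : Type*} [Group G] [Finite G] (p : ℕ) [Fact p.Prime]
    (h2 : p = 2 → ∀ S : Sylow p G, Group.IsNilpotent (S : Subgroup G) ∧ Group.nilpotencyClass (S : Subgroup G) ≤ 2)
    {E : Subgroup G} (hEp : IsPGroup p E) (hEc : IsMulCommutative E) (hEfull : ∀ x ∈ C_(E), IsPGroup p (zpowers x) → x ∈ E)
    {X : Subgroup G} (hX : IsPConstrained p X) (hEX : E ≤ X) {Y : Subgroup G} (hY : Y ≤ X) (hc : (Nat.card Y).Coprime p) (hn : E ≤ N_(Y)) :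
    Y ≤ piCoreOf (primesNotDvd p) X := by
  have h1 : ∀ x ∈ C_(E.subgroupOf X), IsPGroup p (zpowers x) → x ∈ E.subgroupOf X := fun x hx h => hEfull _
    (fun e he => congrArg Subtype.val (hx ⟨e, hEX he⟩ he)) (by have := h.map X.subtype; rwa [MonoidHom.map_zpowers] at this)
  have h3 : (Nat.card (Y.subgroupOf X)).Coprime p := by rwa [Nat.card_congr (subgroupOfEquivOfLe hY).toEquiv]
  have h4 : E.subgroupOf X ≤ N_(Y.subgroupOf X) := fun e he => mem_normalizer_iff.2 fun y => mem_normalizer_iff.1 (hn he) y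
  have : Y.subgroupOf X ≤ pPrimeCore p X := by
    by_cases hp : p = 2
    · refine two p hX (fun S a ha b hb c hc => ?_) _ (hEp.comap_subtype) h1 _ h3 h4
      obtain ⟨T, hT⟩ := (S.isPGroup'.map X.subtype).exists_le_sylow
      obtain ⟨h5, h6⟩ := h2 hp T
      have h7 := Subgroup.lowerCentralSeries_eq_bot_iff_nilpotencyClass_le.2 h6
      have h8 : ⁅⁅(⟨a, hT ⟨a, ha, rfl⟩⟩ : T), (⟨b, hT ⟨b, hb, rfl⟩⟩ : T)⁆, (⟨c, hT ⟨c, hc, rfl⟩⟩ : T)⁆ = 1 :=
        h7.le (commutator_mem_commutator (commutator_mem_commutator (mem_top _) (mem_top _)) (mem_top _))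
      exact Subtype.ext (congrArg Subtype.val (commutatorElement_eq_one_iff_mul_comm.1 h8)).symm
    · exact S1302.result p hp hX _ ⟨⟨fun a b => Subtype.ext (Subtype.ext (abelian_iff.1 hEc b.2 _ a.2))⟩⟩ hEp.comap_subtype (fun x hx h => h1 x hx (IsPGroup.of_card (n := 1) (by simpa))) _
        ((Nat.Prime.coprime_iff_not_dvd Fact.out).1 h3.symm) h4
  refine (map_subgroupOf_eq_of_le hY).ge.trans (map_mono (this.trans (le_sSup ⟨inferInstance, ?_⟩)))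
  exact H02.isPi_primesNotDvd_iff.2 (H02.pPrimeCore_coprime p X)

/-- Let G be a finite group and p a prime such that the normalizer of every nontrivial p-subgroup of G is p-constrained; if p = 2 assume also that the Sylow 2-subgroups of G have nilpotency class at most 2. Let E be an abelian p-subgroup containing an elementary abelian subgroup of order p ^ 3 and containing every element of p-power order of C_G(E). Then for every prime q ≠ p, any two maximal E-invariant q-subgroups of G are conjugate by an element of O_{p'}(C_G(E)). -/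
theorem result {G : Type*} [Group G] [Finite G] (p : ℕ) [Fact p.Prime]
    (hloc : ∀ T : Subgroup G, IsPGroup p T → T ≠ ⊥ → Cfsg.IsPConstrained p ↥(Subgroup.normalizer (T : Set G)))
    (h2 : p = 2 → ∀ S : Sylow p G, Group.IsNilpotent (S : Subgroup G) ∧ Group.nilpotencyClass (S : Subgroup G) ≤ 2)
    (E : Subgroup G) (hEp : IsPGroup p E) (hEc : IsMulCommutative E) (hE3 : ¬ Cfsg.PRankLE p 2 E)
    (hEfull : ∀ x ∈ Subgroup.centralizer (E : Set G), IsPGroup p (Subgroup.zpowers x) → x ∈ E)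
    (q : ℕ) [Fact q.Prime] (hqp : q ≠ p) :
    ∀ Q₁ ∈ Cfsg.maxInvSubgroups ⊤ E {q}, ∀ Q₂ ∈ Cfsg.maxInvSubgroups ⊤ E {q},
        ∃ k ∈ Cfsg.piCoreOf (Cfsg.primesNotDvd p) (Subgroup.centralizer (E : Set G)), Q₂ = Q₁.map (MulAut.conj k).toMonoidHom := by
  have hq : q.Prime := Fact.out
  have hcq : ∀ {Q : Subgroup G}, IsPGroup q Q → (Nat.card Q).Coprime p := fun h =>
    H01.coprime_card_of_isPGroup (p := q) h ((Nat.coprime_primes Fact.out hq).2 hqp.symm) |>.symm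
  have hcE : ∀ {Q B : Subgroup G}, (Nat.card Q).Coprime p → B ≤ E → (Nat.card B).Coprime (Nat.card Q) := fun h hB =>
    (H01.coprime_card_of_isPGroup (hEp.to_le hB) h).symm
  obtain ⟨B, hB, hc, he, hlt⟩ : ∃ B ≤ E, IsMulCommutative B ∧ (∀ b ∈ B, b ^ p = 1) ∧ p ^ 2 < Nat.card B := by
    unfold PRankLE at hE3
    push Not at hE3
    obtain ⟨B, h1, h2, h3⟩ := hE3
    refine ⟨B.map E.subtype, map_subtype_le B, inferInstance, ?_, by rwa [H02.card_map_subtype]⟩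
    rintro _ ⟨b, hb, rfl⟩
    rw [← map_pow, h2 b hb, map_one]
  have hE0 : E ≠ ⊥ := by
    rintro rfl
    rw [le_bot_iff.1 hB, card_bot] at hlt
    exact (Nat.one_le_pow _ _ (Fact.out : p.Prime).pos).not_gt hlt
  intro Q₁ h₁ Q₂ h₂
  change ∃ k ∈ _, Q₂ = cj k Q₁
  induction hn : Nat.card G - Nat.card ↥(Q₁ ⊓ Q₂) using Nat.strong_induction_on generalizing Q₁ Q₂ with
  | _ n ih =>
  by_cases hq12 : Q₂ = Q₁
  · exact ⟨1, one_mem _, by rw [cj_one, hq12]⟩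
  have hp₁ := H02.inv_isPGroup hq h₁.1
  have hp₂ := H02.inv_isPGroup hq h₂.1
  have := hp₁.isNilpotent
  have := hp₂.isNilpotent
  have hD : E ≤ N_(Q₁ ⊓ Q₂) := norm_inf h₁.1.2.2 h₂.1.2.2
  have hl₁ := H02.lt_inf_normalizer_of_lt_nilpotent (inf_lt_left.2 fun h => hq12 (h₁.2 _ h₂.1 h))
  have hl₂ := H02.lt_inf_normalizer_of_lt_nilpotent (inf_lt_right.2 fun h => hq12 (h₂.2 _ h₁.1 h).symm)
  have hN := fun {Q} (h : Q ∈ maxInvSubgroups ⊤ E {q}) => norm_inf h.1.2.2 (H01.le_normalizer_normalizer hD)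
  obtain ⟨C, hC, ⟨b, hb, hCb⟩, hC1⟩ : ∃ C ≤ B, (∃ a ∈ B, C ⊔ zpowers a = B) ∧ ¬ Q₁ ⊓ N_(Q₁ ⊓ Q₂) ⊓ C_(C) ≤ Q₁ ⊓ Q₂ := by
    by_contra! e
    exact hl₁.not_ge (H01.le_of_cocyclic_centralizer_le (hB.trans (hN h₁)) (hcE (hcq (hp₁.to_le inf_le_left)) hB) e)
  have hCc : IsMulCommutative C := abelian_of_le hc hC
  have hnc : ¬ IsCyclic C := by
    refine H02.not_cyclic_of_lt_card Fact.out (fun x hx => he x (hC hx)) ?_
    have h1 := card_sup_dvd (K := C) (H := Subgroup.zpowers b) ((Subgroup.zpowers_le.2 hb).trans (le_norm_of_abelian hc hC))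
    rw [hCb, card_zpowers] at h1
    have h2 := Nat.le_of_dvd (Nat.mul_pos (card_pos C) (orderOf_pos b)) h1
    have h3 := Nat.le_of_dvd (Fact.out : p.Prime).pos (orderOf_dvd_of_pow_eq_one (he b hb))
    by_contra h4
    have h5 := Nat.mul_le_mul (not_lt.1 h4) h3
    rw [pow_two] at hlt
    omega
  obtain ⟨z, hz, hz1, hz2⟩ : ∃ z ∈ C, z ≠ 1 ∧ ¬ Q₂ ⊓ N_(Q₁ ⊓ Q₂) ⊓ C_[z] ≤ Q₁ ⊓ Q₂ := by
    by_contra! e
    exact hl₂.not_ge (H01.le_of_centralizer_le_of_not_isCyclic hnc ((hC.trans hB).trans (hN h₂))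
      (hcE (hcq (hp₂.to_le inf_le_left)) (hC.trans hB)) e)
  have hzE := hB (hC hz)
  have hEz : E ≤ C_[z] := le_cent1_iff.2 (abelian_iff.1 hEc hzE)
  have hX : C_[z] ≤ N_(zpowers z) := cent_zpowers z ▸ cent_le_norm _
  set O := piCoreOf (primesNotDvd p) N_(zpowers z) ⊓ N_(Q₁ ⊓ Q₂) ⊔ Q₁ ⊓ Q₂ with hO
  have hAO : E ≤ N_(O) := norm_sup (norm_inf ((hEz.trans hX).trans (H02.le_normalizer_piCoreOf _)) (H01.le_normalizer_normalizer hD)) hD
  have hOc : (Nat.card O).Coprime p := by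
    rw [hO, sup_comm]
    exact (Nat.Coprime.mul_left (hcq (hp₁.to_le inf_le_left)) ((H02.isPi_primesNotDvd_iff.1 (H02.piCoreOf_isPi _)).coprime_dvd_left
      (card_dvd inf_le_left))).coprime_dvd_left (card_sup_dvd inf_le_right)
  have hcop := hcE hOc le_rfl
  have hsol : Group.IsSolvable E ∨ Group.IsSolvable O := Or.inl (sol_of_abelian hEc)
  have key : ∀ {Q : Subgroup G}, Q ∈ maxInvSubgroups ⊤ E {q} → Q₁ ⊓ Q₂ ≤ Q → ¬ Q ⊓ N_(Q₁ ⊓ Q₂) ⊓ C_[z] ≤ Q₁ ⊓ Q₂ →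
      Q₁ ⊓ Q₂ < O ⊓ Q ∧ ∃ R : Subgroup G, O ⊓ Q ≤ R ∧ R ≤ O ∧ IsPGroup q R ∧ ¬ q ∣ R.relIndex O ∧ E ≤ N_(R) := fun {Q} hQ a b =>
    ⟨lt_of_le_not_ge (le_inf le_sup_right a) fun e => b (le_trans (le_inf (le_sup_of_le_left (le_inf
      (core p h2 hEp hEc hEfull (hloc _ (hEp.to_le (zpowers_le.2 hzE)) (zpowers_ne_bot hz1)) (hEz.trans hX) (inf_le_right.trans hX)
        (hcq ((H02.inv_isPGroup hq hQ.1).to_le (inf_le_left.trans inf_le_left))) (norm_inf (hN hQ) (norm_of_le hEz)))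
      (inf_le_left.trans inf_le_right))) (inf_le_left.trans inf_le_left)) e),
    H01.exists_invariant_sylow_le hAO hcop hsol inf_le_left ((H02.inv_isPGroup hq hQ.1).to_le inf_le_right) (norm_inf hAO hQ.1.2.2)⟩
  obtain ⟨l1, R₁, a1, a2, a3, a4, a5⟩ := key h₁ inf_le_left fun e => hC1 ((inf_le_inf_left _ (cent_le_cent1 hz)).trans e)
  obtain ⟨l2, R₂, b1, b2, b3, b4, b5⟩ := key h₂ inf_le_right hz2
  obtain ⟨c, hc, hcR⟩ := H01.invariant_sylow_conj hAO hcop hsol a2 a3 a4 b2 b3 b4 a5 b5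
  rw [← cj_eq_smul] at hcR
  obtain ⟨Q₃, h₃, hR₃⟩ := H02.exists_maxInv_ge (H02.inv_of_isPGroup hq b3 b5)
  have hcK : c ∈ piCoreOf (primesNotDvd p) C_(E) :=
    (le_inf (core p h2 hEp hEc hEfull (hloc _ hEp hE0) (le_norm E) (inf_le_right.trans (cent_le_norm E))
      (hOc.coprime_dvd_left (card_dvd inf_le_left)) (le_norm_of_cent (cent_symm inf_le_right))) inf_le_right).trans
        (H02.piCoreOf_inf_le (cent_le_norm E)) hc
  have h₁' := H02.maxInv_cj (cent_le_norm E hc.2) h₁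
  have c1 := card_lt l1
  have c2 := card_lt l2
  have c3 := card_le (le_inf (cj_mono c inf_le_right) ((cj_mono c a1).trans (hcR.le.trans hR₃)) : cj c (O ⊓ Q₁) ≤ cj c Q₁ ⊓ Q₃)
  have c4 := card_le (le_inf (b1.trans hR₃) inf_le_right : O ⊓ Q₂ ≤ Q₃ ⊓ Q₂)
  rw [card_cj] at c3
  have c5 : Nat.card ↥(cj c Q₁ ⊓ Q₃) ≤ Nat.card G := Subgroup.card_le_card_group _
  have c6 : Nat.card ↥(Q₃ ⊓ Q₂) ≤ Nat.card G := Subgroup.card_le_card_group _
  obtain ⟨k, hk, ek⟩ := ih _ (by omega) _ h₁' _ h₃ rfl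
  obtain ⟨l, hl, el⟩ := ih _ (by omega) _ h₃ _ h₂ rfl
  exact ⟨l * (k * c), mul_mem hl (mul_mem hk hcK), by rw [el, ek, cj_cj, cj_cj, mul_assoc]⟩

end Cfsg.Agent.S1480
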