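import Cfsg.Statements.S1481
import Cfsg.Agent.BG.Api
import Cfsg.Agent.H01.BG1
-- import your own Cfsg.Agent.* helpers here

set_option autoImplicit false
open Cfsg

namespace Cfsg.Agent.S1481

open BG Subgroup

/-- Let G be a finite group and H a local subgroup (the normalizer of a nontrivial subgroup of prime-power order) not properly contained in any local subgroup; let F = F(H), suppose at least two primes divide #F, put X = H ∩ C_G(F), let M ≤ F with F ∩ C_G(M) ≤ M, and let R be a solvable subgroup normalized by M and by X. Then for every prime q not dividing #F there is exactly one maximal M-invariant q-subgroup of R, and it is a Sylow q-subgroup of the largest normal subgroup of R of order coprime to #F. -/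
theorem result {G : Type*} [Group G] [Finite G] (H : Subgroup G) (hH : Cfsg.IsLocalSubgroup H) (hHmax : ∀ L : Subgroup G, Cfsg.IsLocalSubgroup L → H ≤ L → L = H)
    (hF2 : 2 ≤ (Nat.card (Cfsg.fittingOf H)).primeFactors.card)
    (M : Subgroup G) (hM : M ≤ Cfsg.fittingOf H) (hCM : Cfsg.fittingOf H ⊓ Subgroup.centralizer (M : Set G) ≤ M)
    (R : Subgroup G) (hR : Group.IsSolvable R) (hMR : M ≤ Subgroup.normalizer (R : Set G))
    (hXR : H ⊓ Subgroup.centralizer (Cfsg.fittingOf H : Set G) ≤ Subgroup.normalizer (R : Set G))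
    (q : ℕ) [Fact q.Prime] (hq : ¬ q ∣ Nat.card (Cfsg.fittingOf H)) :
    ∃! Q : Subgroup G, Q ∈ Cfsg.maxInvSubgroups R M {q} ∧
      (∀ Q' : Subgroup G, Q' ∈ Cfsg.maxInvSubgroups R M {q} →
        Q' ≤ Cfsg.piCoreOf (Cfsg.primesNotDvd (Nat.card (Cfsg.fittingOf H))) R ∧
        ¬ q ∣ Q'.relIndex (Cfsg.piCoreOf (Cfsg.primesNotDvd (Nat.card (Cfsg.fittingOf H))) R)) := by
  have hqq : q.Prime := Fact.out
  have hFn := fit_nil H
  have hHF := le_norm_fit H
  have hFH := fit_le H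
  have hZ : ∀ p : ℕ, p.Prime → p ∣ Nat.card (fittingOf H) → ∃ Z : Subgroup G, IsPGroup p Z ∧ Z ≤ M ∧ Z ≤ C_(fittingOf H) ∧ N_(Z) = H := fun p hp hd =>
    have a : H ≤ N_(piCoreOf {p} (fittingOf H) ⊓ C_(fittingOf H)) := norm_inf (norm_pcore _ hHF) (H01.le_normalizer_centralizer hHF)
    have b := (pcore_pg hp (fittingOf H)).to_le (inf_le_left (b := C_(fittingOf H)))
    ⟨_, b, le_trans (le_inf (inf_le_left.trans (pcore_le _ _)) (inf_le_right.trans (cent_anti hM))) hCM, inf_le_right,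
      hHmax _ ⟨p, _, hp, b, nil_meet_center hFn (pcore_le _ _) (le_norm_pcore _ _) (nil_pcore_ne_bot hFn hp rfl hd), rfl⟩ a⟩
  have key : ∀ Y ≤ R, (Nat.card Y).Coprime (Nat.card (fittingOf H)) → M ≤ N_(Y) → Y ≤ H → Y = ⊥ := fun Y h1 h2 h3 h4 => by
    have h5 : M ≤ C_(Y) := comm_eq_bot.1 (eq_bot_iff.2 ((le_inf (comm_le_right h3) ((comm_mono hM le_rfl).trans
      (comm_le_left (h4.trans hHF)))).trans (BG.inf_eq_bot_of_coprime h2).le))
    have h6 := H01.le_centralizer_of_self_centralizing_fixed hFn (h4.trans hHF) h2 hM h5 (hCM.trans h5)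
    have h7 : fittingOf (H ⊓ C_(fittingOf H) ⊓ R) ≤ fittingOf H := (fit_le_of_norm inf_le_left (norm_inf (le_norm _) hXR)).trans
      (fit_le_of_norm inf_le_left (norm_inf (le_norm _) (H01.le_normalizer_centralizer hHF)))
    have h8 := (le_inf (le_inf (le_inf h4 h6) h1) (h6.trans (cent_anti h7))).trans (fit_cent_le (sol_of_le hR inf_le_right))
    exact eq_bot_iff.2 ((le_inf le_rfl (h8.trans h7)).trans (BG.inf_eq_bot_of_coprime h2).le)
  have main : ∀ Q ≤ R, IsPGroup q Q → M ≤ N_(Q) → Q ≤ piCoreOf (primesNotDvd (Nat.card (fittingOf H))) R := fun Q h1 h2 h3 => by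
    have h4 : ∀ p : ℕ, p.Prime → p ∣ Nat.card (fittingOf H) → Q ≤ piCoreOf {p}ᶜ R := fun p hp hd => by
      obtain ⟨r, r1, r2⟩ := Finset.exists_mem_ne hF2 p
      obtain ⟨Z, z1, z2, z3, z4⟩ := hZ p hp hd
      obtain ⟨W, w1, w2, w3, w4⟩ := hZ r (Nat.prime_of_mem_primeFactors r1) (Nat.dvd_of_mem_primeFactors r1)
      have := Fact.mk hp
      have hc := pg_coprime hqq h2 hq
      have h5 := key (Q ⊓ C_(W)) (inf_le_left.trans h1) (coprime_mono hc inf_le_left le_rfl)
        (norm_inf h3 (H01.le_normalizer_centralizer (w4 ▸ hM.trans hFH))) (w4 ▸ inf_le_right.trans (cent_le_norm W))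
      have h6 := coprime_comm_eq_of_cent_bot (w2.trans h3) (coprime_mono hc.symm (w2.trans hM) le_rfl) (.inl (sol_of_le inferInstance (w2.trans hM))) h5
      have h7 : W ≤ piCoreOf {p}ᶜ (R ⊔ M) := (le_pcore_of_le (K := H) (z4 ▸ inf_le_right.trans (cent_le_norm Z))
        (le_pcore_p' hp (pg_not_dvd hp (Nat.prime_of_mem_primeFactors r1) w1 r2.symm) (w2.trans (hM.trans hFH)) w4.ge)
        (le_inf (w2.trans le_sup_right) (w3.trans (cent_anti (z2.trans hM))))).trans
        (H01.piCoreOf_centralizer_le (sol_sup (sol_of_le inferInstance hM) hR hMR) (z2.trans le_sup_right) z1)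
      exact le_pcore_of_le (K := R ⊔ M) le_sup_left (h6.ge.trans ((comm_mono le_rfl h7).trans
        (comm_le_right ((h1.trans le_sup_left).trans (le_norm_pcore _ _))))) h1
    refine le_trans ?_ (le_pcore (K := R ⊓ ⨅ p ∈ (Nat.card (fittingOf H)).primeFactors, piCoreOf {p}ᶜ R) (isPi_primesNotDvd.2
      (coprime_of_forall fun p hp a b => pcore_not_dvd hp R (a.trans (card_dvd (inf_le_right.trans
        (iInf₂_le p (Nat.mem_primeFactors.2 ⟨hp, b, Nat.card_pos.ne'⟩))))))) inf_le_left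
      (norm_inf (le_norm R) (H01.le_normalizer_of_conj_mem fun a ha k hk => mem_iInf.2 fun p => mem_iInf.2 fun hp =>
        H01.conj_mem_of_le_normalizer (le_norm_pcore _ _) ha (mem_iInf.1 (mem_iInf.1 hk p) hp))))
    exact le_inf h1 (le_iInf₂ fun p hp => h4 p (Nat.prime_of_mem_primeFactors hp) (Nat.dvd_of_mem_primeFactors hp))
  have hK := isPi_primesNotDvd.1 (pcore_isPi (primesNotDvd (Nat.card (fittingOf H))) R)
  have hKR := pcore_le (primesNotDvd (Nat.card (fittingOf H))) R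
  have hMK := norm_pcore (primesNotDvd (Nat.card (fittingOf H))) hMR
  generalize piCoreOf (primesNotDvd (Nat.card (fittingOf H))) R = K at *
  have hc := coprime_mono hK.symm hM le_rfl
  have syl : ∀ Q ∈ maxInvSubgroups R M {q}, IsSylowIn q Q K := fun Q hQ => by
    obtain ⟨P, a, b, c⟩ := coprime_sylow_superset hqq (.inr (sol_of_le hR hKR)) hMK hc (maxInv_pg hqq hQ)
      (main Q hQ.1.1 (maxInv_pg hqq hQ) (maxInv_norm hQ)) (maxInv_norm hQ)
    exact maxInv_max hQ ((H01.isSylowIn_iff'.1 a).1.trans hKR) ((isPi_singleton hqq).2 (H01.isSylowIn_iff'.1 a).2.1) b c ▸ a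
  obtain ⟨Q, hQ, -⟩ := exists_maxInv_ge (H := R) (A := M) (π := {q}) bot_le ((isPi_singleton hqq).2 pg_bot) le_norm_bot
  refine ⟨Q, ⟨hQ, fun Q' h => ⟨(H01.isSylowIn_iff'.1 (syl Q' h)).1, (H01.isSylowIn_iff'.1 (syl Q' h)).2.2⟩⟩, fun Q' h => ?_⟩
  obtain ⟨c, c1, rfl⟩ := coprime_sylow_trans hqq (.inr (sol_of_le hR hKR)) hMK hc (syl Q hQ) (syl Q' h.1) (maxInv_norm hQ) (maxInv_norm h.1)
  obtain ⟨p, p1, -⟩ := Finset.exists_mem_ne hF2 0
  obtain ⟨Z, -, z2, -, z4⟩ := hZ p (Nat.prime_of_mem_primeFactors p1) (Nat.dvd_of_mem_primeFactors p1)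
  rw [key _ (inf_le_left.trans hKR) (coprime_mono hK inf_le_left le_rfl) (le_norm_of_cent (cent_symm inf_le_right))
    (z4 ▸ inf_le_right.trans ((cent_anti z2).trans (cent_le_norm Z))), mem_bot] at c1
  rw [c1, cj_one]

end Cfsg.Agent.S1481
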