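import Mathlib
import Cfsg.Statements.S1482
import Cfsg.Agent.H01.BG8

set_option autoImplicit false
open Cfsg

namespace Cfsg.Agent.S1482

/-- Let G be a minimal simple group of odd order, H a maximal subgroup whose Fitting subgroup F has at least two prime divisors, and M a subgroup of F containing the centre of F such that the only M-invariant subgroup of G of order coprime to #F is the trivial one. Then H is the only maximal subgroup of G containing M. -/
theorem result {G : Type*} [Group G] [Finite G] (hG : Cfsg.IsMinSimpleOddOrder G) (H : Subgroup G) (hH : IsCoatom H) (hF2 : 2 ≤ (Nat.card (Cfsg.fittingOf H)).primeFactors.card)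
    (M : Subgroup G) (hM : M ≤ Cfsg.fittingOf H) (hZM : Cfsg.fittingOf H ⊓ Subgroup.centralizer (Cfsg.fittingOf H : Set G) ≤ M)
    (hinv : ∀ Y ∈ Cfsg.invSubgroups ⊤ M (Cfsg.primesNotDvd (Nat.card (Cfsg.fittingOf H))), Y = ⊥) :
    ∀ L : Subgroup G, IsCoatom L → M ≤ L → L = H := by
    intro L hL hML
    refine H01.bender_max hG hH hL (hZM.trans hML) (fun q => ?_) fun q hq hd => ?_
    · obtain ⟨r, hr, hne⟩ := Finset.exists_mem_ne (s := (Nat.card (Cfsg.fittingOf H)).primeFactors)
        hF2 q
      exact ⟨r, Nat.prime_of_mem_primeFactors hr, hne, Nat.dvd_of_mem_primeFactors hr⟩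
    · by_contra hn
      refine H01.pcore_ne_bot_of_dvd_fit hq hd (hinv _ ⟨le_top, fun r hr hd' => ⟨hr, ?_⟩,
        hML.trans (BG.le_norm_pcore _ L)⟩)
      rwa [show r = q from BG.pcore_isPi _ L r hr hd']

end Cfsg.Agent.S1482
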