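import Mathlib
import Cfsg.Agent.H25.PF1
import Cfsg.Statements.S1486

set_option autoImplicit false
open Cfsg

open H05 H25 Cfsg

namespace Cfsg.Agent.S1486

/-- Let H be a normal subgroup of the finite group G and θ, φ irreducible characters of H. If φ is a G-conjugate of θ then the functions induced from θ and φ coincide; if φ is not a G-conjugate of θ then the induced functions are orthogonal. -/
theorem result {G : Type*} [Group G] [Fintype G] (H : Subgroup G) [hN : H.Normal] (θ φ : H → ℂ) (hθ : Cfsg.IsIrrCharacter H θ) (hφ : Cfsg.IsIrrCharacter H φ) : ((∃ g : G, φ = fun h : H => θ ⟨g * h * g⁻¹, hN.conj_mem h h.2 g⟩) → Cfsg.indFun H φ = Cfsg.indFun H θ) ∧ ((¬ ∃ g : G, φ = fun h : H => θ ⟨g * h * g⁻¹, hN.conj_mem h h.2 g⟩) → Cfsg.classInner (Cfsg.indFun H φ) (Cfsg.indFun H θ) = 0) := by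
  refine ⟨?_, fun h => ?_⟩
  · rintro ⟨g, rfl⟩; exact H06.indFun_conjFun H g θ
  · exact ind_orth hφ hθ fun e => h (by
      obtain ⟨g, hg⟩ := (H06.indFun_eq_iff_conj H hθ hφ).1 e.symm
      exact ⟨g, hg.symm⟩)

end Cfsg.Agent.S1486
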