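import Mathlib
import Cfsg.Agent.H25.PF1
import Cfsg.Statements.S1493

set_option autoImplicit false
open Cfsg

open H05 H25 Cfsg

namespace Cfsg.Agent.S1493

/-- Let G be a finite group of order a * b with a and b coprime, let k be coprime to a, and let χ be a character of G. Then there is a character χ' of G such that χ'(g) = χ(g ^ k) whenever the order of g divides a and χ'(g) = χ(g) whenever the order of g is coprime to a; moreover χ' is irreducible if χ is. -/
theorem result {G : Type*} [Group G] [Finite G] (a b k : ℕ) (hab : Nat.card G = a * b) (hcop : Nat.Coprime a b) (hk : Nat.Coprime k a) (χ : G → ℂ) (hχ : Cfsg.IsCharacter G χ) : ∃ χ' : G → ℂ, Cfsg.IsCharacter G χ' ∧ (Cfsg.IsIrrCharacter G χ → Cfsg.IsIrrCharacter G χ') ∧ (∀ g : G, orderOf g ∣ a → χ' g = χ (g ^ k)) ∧ (∀ g : G, Nat.Coprime (orderOf g) a → χ' g = χ g) := by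
  have := Fintype.ofFinite G
  obtain ⟨σ, h1, h2⟩ := exists_gal_pow (Nat.card G) Nat.card_pos.ne' hk
  refine ⟨galFun σ.toRingHom χ, hχ.galois _, fun h => irr_gal h _, fun g hg => ?_, fun g hg => ?_⟩
  · refine vc_gal_apply_of_fix hχ.isGeneralizedCharacter σ.toRingHom g k fun z hz => h1 z ?_
    obtain ⟨c, rfl⟩ := hg
    rw [pow_mul, hz, one_pow]
  · have := vc_gal_apply_of_fix hχ.isGeneralizedCharacter σ.toRingHom g 1 fun z hz => by
      simpa using h2 z _ (orderOf_dvd_natCard g) hg hz
    simpa using this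

end Cfsg.Agent.S1493
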