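import Mathlib
import Cfsg.Agent.H25.PF1
import Cfsg.Statements.S1494

set_option autoImplicit false
open Cfsg

open H05 H25 Cfsg

namespace Cfsg.Agent.S1494

/-- Let χ be a generalized character of the finite group G, p a prime, x an element of order p and y an element commuting with x. Then χ(x * y) − χ(y) = (1 − ε) * ω for some algebraic integer ω, where ε = exp(2πi/p). -/
theorem result {G : Type*} [Group G] [Finite G] (χ : G → ℂ) (hχ : Cfsg.IsGeneralizedCharacter G χ) (p : ℕ) (hp : p.Prime) (x y : G) (hx : orderOf x = p) (hxy : x * y = y * x) : ∃ ω : ℂ, IsIntegral ℤ ω ∧ χ (x * y) - χ y = (1 - Complex.exp (2 * Real.pi * Complex.I / p)) * ω := by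
  have := Fintype.ofFinite G
  exact vc_mul_sub_cong hχ hp.ne_zero (Complex.isPrimitiveRoot_exp p hp.ne_zero)
    (by rw [← hx, pow_orderOf_eq_one]) hxy

end Cfsg.Agent.S1494
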