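import Mathlib
import Cfsg.Agent.H25.PF2
import Cfsg.Statements.S1497

set_option autoImplicit false
open Cfsg

open H05 H25 Cfsg

namespace Cfsg.Agent.S1497

/-- Let A be a nonempty subset of the finite group G not containing 1 and L a subgroup. Then A is a TI-subset whose normaliser is L if and only if the Dade hypothesis holds for A, L and the constant choice H(a) = ⊥. -/
theorem result {G : Type*} [Group G] [Finite G] (A : Set G) (hA : A.Nonempty) (h1 : (1 : G) ∉ A) (L : Subgroup G) : (Cfsg.IsTISubset A ∧ Subgroup.normalizer A = L) ↔ Cfsg.DadeHypothesis A L (fun _ => ⊥) := by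
  have := Fintype.ofFinite G
  constructor
  · rintro ⟨h, rfl⟩
    have key : ∀ a ∈ A, ∀ g : G, g * a * g⁻¹ ∈ A → g ∈ Subgroup.normalizer A := fun a ha g hg =>
      by_contra fun hn => h1 (h g hn a ha hg ▸ ha)
    exact dadeHyp_of_ti h1 (fun a ha => key a ha a (by simpa using ha))
      (fun x hx a ha => (Subgroup.mem_set_normalizer_iff.1 hx a).1 ha) key
  · intro hD
    have key : ∀ a ∈ A, ∀ g : G, g * a * g⁻¹ ∈ A → g ∈ L := by
      intro a ha g hg
      obtain ⟨x, hx, e⟩ := hD.fusion a ha g hg
      have h2 : x⁻¹ * g ∈ Subgroup.centralizer ({a} : Set G) := by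
        rw [Subgroup.mem_centralizer_singleton_iff]
        calc _ = x⁻¹ * (g * a * g⁻¹) * g := by group
          _ = _ := by rw [← e]; group
      rw [← hD.sup_eq a ha, bot_sup_eq] at h2
      simpa using L.mul_mem hx h2.1
    have hN : Subgroup.normalizer A = L := by
      refine le_antisymm (fun g hg => ?_) fun g hg => Subgroup.mem_set_normalizer_iff.2 fun a =>
        ⟨hD.conj_mem g hg a, fun h => by simpa [mul_assoc] using hD.conj_mem _ (L.inv_mem hg) _ h⟩
      obtain ⟨a, ha⟩ := hA
      exact key a ha g ((Subgroup.mem_set_normalizer_iff.1 hg a).1 ha)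
    exact ⟨fun g hg a ha h => absurd (hN ▸ key a ha g h) hg, hN⟩

end Cfsg.Agent.S1497
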