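import Mathlib
import Cfsg.Statements.S1504
import Cfsg.Agent.H05.Basic
import Cfsg.Agent.H25.PF3_Bridge

set_option autoImplicit false
open Cfsg

open H05 H25

namespace Cfsg.Agent.S1504

/-- Let W₁, W₂ be subgroups of a finite group with W₁ ⊓ W₂ = ⊥ whose elements commute, and W = W₁ ⊔ W₂. For linear characters φ, ψ of W with φ trivial on W₂ and ψ trivial on W₁, the function (1 − φ)(1 − ψ) vanishes on W₁ ∪ W₂; and the family of these functions, indexed by pairs (φ, ψ) with φ ≠ 1 ≠ ψ, is linearly independent over ℂ. -/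
theorem result {G : Type*} [Group G] [Finite G] (W₁ W₂ : Subgroup G) (hdisj : W₁ ⊓ W₂ = ⊥) (hcomm : ∀ a ∈ W₁, ∀ b ∈ W₂, a * b = b * a) : (∀ φ ψ : ↥(W₁ ⊔ W₂) →* ℂˣ, (∀ w : ↥(W₁ ⊔ W₂), (w : G) ∈ W₂ → φ w = 1) → (∀ w : ↥(W₁ ⊔ W₂), (w : G) ∈ W₁ → ψ w = 1) → ∀ w : ↥(W₁ ⊔ W₂), ((w : G) ∈ W₁ ∨ (w : G) ∈ W₂) → (1 - (φ w : ℂ) - (ψ w : ℂ) + (φ w : ℂ) * (ψ w : ℂ)) = 0) ∧ LinearIndependent ℂ (fun p : {p : (↥(W₁ ⊔ W₂) →* ℂˣ) × (↥(W₁ ⊔ W₂) →* ℂˣ) // p.1 ≠ 1 ∧ p.2 ≠ 1 ∧ (∀ w : ↥(W₁ ⊔ W₂), (w : G) ∈ W₂ → p.1 w = 1) ∧ (∀ w : ↥(W₁ ⊔ W₂), (w : G) ∈ W₁ → p.2 w = 1)} => fun w : ↥(W₁ ⊔ W₂) => 1 - (p.1.1 w : ℂ) - (p.1.2 w : ℂ) + (p.1.1 w : ℂ) * (p.1.2 w : ℂ)) := by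
  classical
  refine ⟨fun φ ψ h1 h2 w hw => ?_, ?_⟩
  · rcases hw with hw | hw
    · rw [h2 w hw]; simp
    · rw [h1 w hw]; simp
  · have li := linearIndependent_monoidHom ↥(W₁ ⊔ W₂) ℂ
    obtain ⟨e, he⟩ := PF3.exists_equiv_sup hdisj hcomm
    rw [linearIndependent_iff']
    intro s g hs p hp
    let := Fintype.ofFinite ↥(W₁ ⊔ W₂)
    have key := congrArg (fun φ => Cfsg.classInner φ (PF3.lc (p.1.1 * p.1.2))) hs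
    simp only [ip_zero_left, ip_sum_left, ip_smul_left] at key
    have a : ∀ q : {p : (↥(W₁ ⊔ W₂) →* ℂˣ) × (↥(W₁ ⊔ W₂) →* ℂˣ) // p.1 ≠ 1 ∧ p.2 ≠ 1 ∧ (∀ w : ↥(W₁ ⊔ W₂), (w : G) ∈ W₂ → p.1 w = 1) ∧ (∀ w : ↥(W₁ ⊔ W₂), (w : G) ∈ W₁ → p.2 w = 1)},
        PF3.resR q.1.1 = 1 ∧ PF3.resL q.1.2 = 1 ∧ PF3.resL q.1.1 ≠ 1 ∧ PF3.resR q.1.2 ≠ 1 := fun q => by
      have a := PF3.resR_eq_one_iff.2 q.2.2.2.1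
      have b := PF3.resL_eq_one_iff.2 q.2.2.2.2
      exact ⟨a, b, fun r => q.2.1 ((PF3.res_ext he).2 ⟨r, a⟩), fun r => q.2.2.1 ((PF3.res_ext he).2 ⟨b, r⟩)⟩
    have ip : ∀ q : {p : (↥(W₁ ⊔ W₂) →* ℂˣ) × (↥(W₁ ⊔ W₂) →* ℂˣ) // p.1 ≠ 1 ∧ p.2 ≠ 1 ∧ (∀ w : ↥(W₁ ⊔ W₂), (w : G) ∈ W₂ → p.1 w = 1) ∧ (∀ w : ↥(W₁ ⊔ W₂), (w : G) ∈ W₁ → p.2 w = 1)},
        Cfsg.classInner (fun w : ↥(W₁ ⊔ W₂) => 1 - (q.1.1 w : ℂ) - (q.1.2 w : ℂ) + (q.1.1 w : ℂ) * (q.1.2 w : ℂ))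
          (PF3.lc (p.1.1 * p.1.2)) = if q = p then 1 else 0 := fun q => by
      have : (fun w : ↥(W₁ ⊔ W₂) => 1 - (q.1.1 w : ℂ) - (q.1.2 w : ℂ) + (q.1.1 w : ℂ) * (q.1.2 w : ℂ)) =
          PF3.lc 1 - PF3.lc q.1.1 - PF3.lc q.1.2 + PF3.lc (q.1.1 * q.1.2) := by funext w; simp
      rw [this, ip_add_left, ip_sub_left, ip_sub_left, PF3.ip_lc, PF3.ip_lc, PF3.ip_lc, PF3.ip_lc]
      obtain ⟨a1, a2, a3, a4⟩ := a p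
      obtain ⟨b1, b2, b3, b4⟩ := a q
      simp only [PF3.res_ext he (ω' := p.1.1 * p.1.2), PF3.resL_mul, PF3.resR_mul, a1, a2, b1, b2,
        PF3.dual_mul_one, PF3.dual_one_mul, PF3.resL_one, PF3.resR_one, a3.symm, a4.symm, false_and,
        and_false, if_false, sub_zero, zero_add]
      congr 1
      refine propext ⟨fun r => Subtype.ext (Prod.ext ((PF3.res_ext he).2 ⟨r.1, by rw [a1, b1]⟩)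
        ((PF3.res_ext he).2 ⟨by rw [a2, b2], r.2⟩)), fun r => by rw [r]; exact ⟨rfl, rfl⟩⟩
    simp only [ip] at key
    simpa [hp] using key

end Cfsg.Agent.S1504
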