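import Mathlib
import Cfsg.Statements.S1505
import Cfsg.Agent.H05.Basic
import Cfsg.Agent.H25.PF3_Bridge

set_option autoImplicit false
open Cfsg

namespace Cfsg.Agent.S1505

open Classical in
/-- Let W₁, W₂ ≤ G form a self-normalising cyclic subgroup W = W₁ ⊔ W₂. For nontrivial linear characters φ, φ' of W trivial on W₂ and ψ, ψ' trivial on W₁, put α = (1 − φ)(1 − ψ) and α' = (1 − φ')(1 − ψ'). Then the function induced from α to G has inner product 1 with the principal character, and the inner product of the functions induced from α and α' is 1 + a + b + ab where a = 1 if φ = φ' (else 0) and b = 1 if ψ = ψ' (else 0). -/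
theorem result {G : Type*} [Group G] [Fintype G] (W₁ W₂ : Subgroup G) (hW : Cfsg.IsSelfNormalizingCyclic W₁ W₂) (φ φ' ψ ψ' : ↥(W₁ ⊔ W₂) →* ℂˣ) (hφ : φ ≠ 1) (hφ' : φ' ≠ 1) (hψ : ψ ≠ 1) (hψ' : ψ' ≠ 1) (hφ₂ : ∀ w : ↥(W₁ ⊔ W₂), (w : G) ∈ W₂ → φ w = 1 ∧ φ' w = 1) (hψ₁ : ∀ w : ↥(W₁ ⊔ W₂), (w : G) ∈ W₁ → ψ w = 1 ∧ ψ' w = 1) : Cfsg.classInner (Cfsg.indFun (W₁ ⊔ W₂) (fun w => 1 - (φ w : ℂ) - (ψ w : ℂ) + (φ w : ℂ) * (ψ w : ℂ))) (fun _ => 1) = 1 ∧ Cfsg.classInner (Cfsg.indFun (W₁ ⊔ W₂) (fun w => 1 - (φ w : ℂ) - (ψ w : ℂ) + (φ w : ℂ) * (ψ w : ℂ))) (Cfsg.indFun (W₁ ⊔ W₂) (fun w => 1 - (φ' w : ℂ) - (ψ' w : ℂ) + (φ' w : ℂ) * (ψ' w : ℂ))) = 1 + (if φ = φ' then 1 else 0) + (if ψ = ψ' then 1 else 0) + (if φ = φ' then 1 else 0) * (if ψ = ψ' then 1 else 0) := by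
  open H05 H25 in
  obtain ⟨e, he⟩ := PF3.exists_equiv_sup hW.2.2.1 hW.2.2.2.1
  obtain ⟨c1, c2, -⟩ := PF3.coprime_of_selfNormalizing hW
  have a1 := PF3.resR_eq_one_iff.2 fun w hw => (hφ₂ w hw).1
  have a2 := PF3.resR_eq_one_iff.2 fun w hw => (hφ₂ w hw).2
  have b1 := PF3.resL_eq_one_iff.2 fun w hw => (hψ₁ w hw).1
  have b2 := PF3.resL_eq_one_iff.2 fun w hw => (hψ₁ w hw).2
  have n1 : PF3.resL φ ≠ 1 := fun r => hφ ((PF3.res_ext he).2 ⟨r, a1⟩)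
  have n2 : PF3.resL φ' ≠ 1 := fun r => hφ' ((PF3.res_ext he).2 ⟨r, a2⟩)
  have m1 : PF3.resR ψ ≠ 1 := fun r => hψ ((PF3.res_ext he).2 ⟨b1, r⟩)
  have m2 : PF3.resR ψ' ≠ 1 := fun r => hψ' ((PF3.res_ext he).2 ⟨b2, r⟩)
  rw [PF3.alph_eq he a1 b1, PF3.alph_eq he a2 b2]
  let D : PF3.WData W₁.subtype W₂.subtype := ⟨_, e, he⟩
  constructor
  · have := D.ip_ind isClassFunction_one (PF3.alph (PF3.resL φ) (PF3.resR ψ))
    rw [PF3.res_one, PF3.ip_one_alph n1 m1] at this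
    rw [← conj_ip]
    exact (congrArg (starRingEnd ℂ) this).trans (map_one _)
  · refine (D.ip_ind_ind _ fun x y r => PF3.ti_of_selfNormalizing hW x (PF3.alph_ne_zero r).1 y
      (PF3.alph_ne_zero r).2).trans ?_
    rw [PF3.ip_alph n1 n2 m1 m2]
    simp only [PF3.res_ext he (ω := φ), PF3.res_ext he (ω := ψ), a1, a2, b1, b2, and_true, true_and]

end Cfsg.Agent.S1505
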