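import Mathlib
import Cfsg.Statements.S1506
import Cfsg.Agent.H05.Basic
import Cfsg.Agent.H25.PF3_Bridge

set_option autoImplicit false
open Cfsg

open H05 H25

namespace Cfsg.Agent.S1506

/-- Let W₁, W₂ ≤ G form a self-normalising cyclic subgroup W = W₁ ⊔ W₂ and χ an orthonormal family of irreducible characters of G up to sign, indexed by the linear characters ω of W, with χ_1 = 1, χ_ω = ω on W outside W₁ ∪ W₂, and the induction identity for (1 − φ)(1 − ψ). Let θ be a class function of G vanishing at every element of W outside W₁ ∪ W₂. For linear characters φ, φ' of W trivial on W₂ and ψ, ψ' trivial on W₁, the inner products a(ω) = ⟨θ, χ ω⟩ satisfy a(φψ) + a(φ'ψ') = a(φψ') + a(φ'ψ). -/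
theorem result {G : Type*} [Group G] [Fintype G] (W₁ W₂ : Subgroup G) (hW : Cfsg.IsSelfNormalizingCyclic W₁ W₂) (χ : (↥(W₁ ⊔ W₂) →* ℂˣ) → (G → ℂ)) (hχ : Cfsg.IsCyclicTIFamily W₁ W₂ χ) (θ : G → ℂ) (hθ : Cfsg.IsClassFunction G θ) (hθV : ∀ w : ↥(W₁ ⊔ W₂), (w : G) ∉ W₁ → (w : G) ∉ W₂ → θ w = 0) (φ φ' ψ ψ' : ↥(W₁ ⊔ W₂) →* ℂˣ) (hφ₂ : ∀ w : ↥(W₁ ⊔ W₂), (w : G) ∈ W₂ → φ w = 1 ∧ φ' w = 1) (hψ₁ : ∀ w : ↥(W₁ ⊔ W₂), (w : G) ∈ W₁ → ψ w = 1 ∧ ψ' w = 1) : Cfsg.classInner θ (χ (φ * ψ)) + Cfsg.classInner θ (χ (φ' * ψ')) = Cfsg.classInner θ (χ (φ * ψ')) + Cfsg.classInner θ (χ (φ' * ψ)) := by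
  obtain ⟨e, he⟩ := PF3.exists_equiv_sup hW.2.2.1 hW.2.2.2.1
  have a1 := PF3.resR_eq_one_iff.2 fun w hw => (hφ₂ w hw).1
  have a2 := PF3.resR_eq_one_iff.2 fun w hw => (hφ₂ w hw).2
  have b1 := PF3.resL_eq_one_iff.2 fun w hw => (hψ₁ w hw).1
  have b2 := PF3.resL_eq_one_iff.2 fun w hw => (hψ₁ w hw).2
  rw [PF3.eq_mul_of_res he a1 b1, PF3.eq_mul_of_res he a2 b2, PF3.eq_mul_of_res he a1 b2,
    PF3.eq_mul_of_res he a2 b1]
  refine (PF3.cycTI_of_isFamily hW he hχ).rect' hθ (fun x hx y hy => ?_) _ _ _ _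
  obtain ⟨n1, n2⟩ := PF3.notMem_of_ne_one hW.2.2.1 hx hy
  have := hθV (e (x, y)) (by rwa [he]) (by rwa [he])
  rwa [he] at this

end Cfsg.Agent.S1506
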