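import Mathlib
import Cfsg.Statements.S1507
import Cfsg.Agent.H05.Basic
import Cfsg.Agent.H25.PF3_Bridge

set_option autoImplicit false
open Cfsg

namespace Cfsg.Agent.S1507

open Classical in
/-- Let W₁, W₂ ≤ G form a self-normalising cyclic subgroup W = W₁ ⊔ W₂ of odd order with Nat.card W₁ < Nat.card W₂, and χ an orthonormal family of irreducible characters of G up to sign, indexed by the linear characters ω of W, with χ_1 = 1, χ_ω = ω on W outside W₁ ∪ W₂, and the induction identity for (1 − φ)(1 − ψ). Let θ be a class function of G vanishing on W outside W₁ ∪ W₂, and suppose fewer than 2 · Nat.card W₁ linear characters ω of W have ⟨θ, χ ω⟩ ≠ 0. Then one of: all ⟨θ, χ ω⟩ vanish; or there are ψ₀ and a with ⟨θ, χ ω⟩ = a when ω ψ₀⁻¹ is trivial on W₂ and 0 otherwise; or there are φ₀ and a with ⟨θ, χ ω⟩ = a when ω φ₀⁻¹ is trivial on W₁ and 0 otherwise.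 -/
theorem result {G : Type*} [Group G] [Fintype G] (W₁ W₂ : Subgroup G) (hW : Cfsg.IsSelfNormalizingCyclic W₁ W₂) (hodd : Odd (Nat.card ↥(W₁ ⊔ W₂))) (χ : (↥(W₁ ⊔ W₂) →* ℂˣ) → (G → ℂ)) (hχ : Cfsg.IsCyclicTIFamily W₁ W₂ χ) (hlt : Nat.card W₁ < Nat.card W₂) (θ : G → ℂ) (hθ : Cfsg.IsClassFunction G θ) (hθV : ∀ w : ↥(W₁ ⊔ W₂), (w : G) ∉ W₁ → (w : G) ∉ W₂ → θ w = 0) (hfew : Nat.card {ω : ↥(W₁ ⊔ W₂) →* ℂˣ // Cfsg.classInner θ (χ ω) ≠ 0} < 2 * Nat.card W₁) : (∀ ω, Cfsg.classInner θ (χ ω) = 0) ∨ (∃ (ψ₀ : ↥(W₁ ⊔ W₂) →* ℂˣ) (a : ℂ), ∀ ω, Cfsg.classInner θ (χ ω) = if (∀ w : ↥(W₁ ⊔ W₂), (w : G) ∈ W₂ → (ω * ψ₀⁻¹) w = 1) then a else 0) ∨ (∃ (φ₀ : ↥(W₁ ⊔ W₂) →* ℂˣ) (a : ℂ), ∀ ω, Cfsg.classInner θ (χ ω) = if (∀ w : ↥(W₁ ⊔ W₂), (w : G) ∈ W₁ → (ω * φ₀⁻¹) w = 1) then a else 0) := by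
  open H05 H25 in
  obtain ⟨e, he⟩ := PF3.exists_equiv_sup hW.2.2.1 hW.2.2.2.1
  by_cases h0 : ∀ ω, Cfsg.classInner θ (χ ω) = 0
  · exact Or.inl h0
  right
  push Not at h0
  obtain ⟨ω₀, h0⟩ := h0
  rw [← PF3.omW_res he ω₀] at h0
  have hV : ∀ x : W₁, x ≠ 1 → ∀ y : W₂, y ≠ 1 → θ (W₁.subtype x * W₂.subtype y) = 0 := fun x hx y hy => by
    obtain ⟨n1, n2⟩ := PF3.notMem_of_ne_one hW.2.2.1 hx hy
    have := hθV (e (x, y)) (by rwa [he]) (by rwa [he])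
    rwa [he] at this
  have hNC : cycNC (fun i j => χ (PF3.omW e i j)) θ < 2 * min (Nat.card W₁) (Nat.card W₂) := by
    rw [min_eq_left hlt.le, cycNC]
    refine lt_of_eq_of_lt (Nat.card_congr ((PF3.omEquiv he).subtypeEquiv fun p => Iff.rfl)) hfew
  rcases (PF3.cycTI_of_isFamily hW he hχ).small_NC (cycHyp_of_selfNormalizing hW hodd) hθ hV hNC h0 with
    ⟨r1, r2⟩ | ⟨r1, r2⟩
  · refine Or.inl ⟨ω₀, Cfsg.classInner θ (χ (PF3.omW e (PF3.resL ω₀) (PF3.resR ω₀))), fun ω => ?_⟩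
    conv_lhs => rw [← PF3.omW_res he ω]
    split_ifs with r <;> rw [← PF3.resR_eq_one_iff, PF3.resR_mul, PF3.resR_inv] at r
    · rw [(mul_inv_eq_one (a := PF3.resR ω)).1 r]; exact r1 _
    · exact r2 _ _ fun t => r (mul_inv_eq_one.2 t)
  · refine Or.inr ⟨ω₀, Cfsg.classInner θ (χ (PF3.omW e (PF3.resL ω₀) (PF3.resR ω₀))), fun ω => ?_⟩
    conv_lhs => rw [← PF3.omW_res he ω]
    split_ifs with r <;> rw [← PF3.resL_eq_one_iff, PF3.resL_mul, PF3.resL_inv] at r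
    · rw [(mul_inv_eq_one (a := PF3.resL ω)).1 r]; exact r1 _
    · exact r2 _ _ fun t => r (mul_inv_eq_one.2 t)

end Cfsg.Agent.S1507
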