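import Mathlib
import Cfsg.Statements.S1511
import Cfsg.Agent.H05.Basic
import Cfsg.Agent.H25.PF4_b

set_option autoImplicit false
open Cfsg

open H05 H25

namespace Cfsg.Agent.S1511

/-- Let L be a finite group with K normal with complement W₁ ≠ 1 a cyclic Hall subgroup, and W₂ ≠ 1 a cyclic subgroup of K equal to C_K(x) for every non-identity x ∈ W₁, with W₁W₂ of odd order. Then there are a map μ from the linear characters of W = W₁ ⊔ W₂ to irreducible characters of L, injective, and a sign δ(ω) ∈ {1, −1} depending only on the values of ω on W₂, such that: for ω, ω' agreeing on W₂, the function induced to L from ω − ω' equals δ(ω) • (μ ω − μ ω'); μ ω x = δ(ω) ω x for x ∈ W outside W₂; every irreducible character of L not of the form μ ω vanishes on W outside W₂; and μ ω 1 − δ(ω) is an integer multiple of Nat.card W₁. -/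
theorem result {L : Type*} [Group L] [Fintype L] (K W₁ W₂ : Subgroup L) [hK : K.Normal] (hKW₁ : K ⊓ W₁ = ⊥) (hKW₁' : K ⊔ W₁ = ⊤) (hW₁ : W₁ ≠ ⊥) (hW₁c : IsCyclic W₁) (hHall : Nat.Coprime (Nat.card W₁) W₁.index) (hW₂ : W₂ ≠ ⊥) (hW₂c : IsCyclic W₂) (hW₂K : W₂ ≤ K) (hC : ∀ x ∈ W₁, x ≠ 1 → K ⊓ Subgroup.centralizer ({x} : Set L) = W₂) (hodd : Odd (Nat.card ↥(W₁ ⊔ W₂))) : ∃ (μ : (↥(W₁ ⊔ W₂) →* ℂˣ) → (L → ℂ)) (δ : (↥(W₁ ⊔ W₂) →* ℂˣ) → ℂ), Function.Injective μ ∧ (∀ ω, Cfsg.IsIrrCharacter L (μ ω)) ∧ (∀ ω, δ ω = 1 ∨ δ ω = -1) ∧ (∀ ω ω' : ↥(W₁ ⊔ W₂) →* ℂˣ, (∀ w : ↥(W₁ ⊔ W₂), (w : L) ∈ W₂ → ω w = ω' w) → δ ω = δ ω' ∧ Cfsg.indFun (W₁ ⊔ W₂) (fun w => (ω w : ℂ) - (ω' w : ℂ)) = δ ω • (μ ω - μ ω')) ∧ (∀ ω, ∀ w : ↥(W₁ ⊔ W₂), (w : L) ∉ W₂ → μ ω w = δ ω * (ω w : ℂ)) ∧ (∀ θ : L → ℂ, Cfsg.IsIrrCharacter L θ → (∀ ω, θ ≠ μ ω) → ∀ w : ↥(W₁ ⊔ W₂), (w : L) ∉ W₂ → θ w =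 0) ∧ (∀ ω, ∃ n : ℤ, μ ω 1 - δ ω = n * (Nat.card W₁ : ℂ)) := by
  have h := PF4.primeHyp_of_subgroups hKW₁ hKW₁' hW₁ hW₁c hHall hW₂ hW₂c hW₂K hC hodd
  obtain ⟨e, he⟩ := PF3.exists_equiv_sup h.inf_eq_bot h.comm'
  refine ⟨fun ω => pmu W₁.subtype W₂.subtype (PF3.resL ω) (PF3.resR ω),
    fun ω => pdelta W₁.subtype W₂.subtype (PF3.resR ω), fun ω ω' r => (PF3.res_ext he).2 (h.pmu_inj r),
    fun ω => h.pmu_irr _ _, fun ω => ?_, fun ω ω' r => ?_, fun ω w hw => ?_, fun θ hθ hne w hw => ?_,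
    fun ω => ?_⟩
  · rcases PrimeHyp.pdelta_eq (f₁ := W₁.subtype) (f₂ := W₂.subtype) (PF3.resR ω) with r | r <;> simp [r]
  · have r' := PF3.resR_eq_iff.2 r
    refine ⟨by simp only [r'], ?_⟩
    have := h.ind_sub ⟨_, e, he⟩ (PF3.resL ω) (PF3.resL ω') (PF3.resR ω)
    rw [PrimeHyp.eta_eq, PrimeHyp.eta_eq, ← smul_sub] at this
    simp only [← r']
    refine Eq.trans ?_ this
    show _ = Cfsg.indFun _ _
    congr 1
    funext w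
    obtain ⟨⟨x, y⟩, rfl⟩ := e.surjective w
    simp [PF3.apply_e he, r']
  · obtain ⟨⟨x, y⟩, rfl⟩ := e.surjective w
    rw [PF3.apply_e he, he, Units.val_mul]
    exact h.pmu_val _ _ ((PF3.ne_one_of_notMem he).2 hw) y
  · refine h.vanish_of_ne_pmu hθ (fun i j r => hne (PF3.omW e i j) ?_) _ fun hk => ?_
    · simpa only [PF3.resL_omW he, PF3.resR_omW he] using r
    · obtain ⟨⟨x, y⟩, rfl⟩ := e.surjective w
      rw [he] at hk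
      exact h.notMem ((PF3.ne_one_of_notMem he).2 hw) y hk
  · obtain ⟨n, hn⟩ := h.pmu_one_mod (PF3.resL ω) (PF3.resR ω)
    exact ⟨n, by simp only [hn]; ring⟩

end Cfsg.Agent.S1511
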