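import Mathlib
import Cfsg.Statements.S1513
import Cfsg.Agent.H05.Basic
import Cfsg.Agent.H25.PF4_b

set_option autoImplicit false
open Cfsg

open H05 H25

namespace Cfsg.Agent.S1513

/-- Let L be a finite group with K normal with complement W₁ ≠ 1 a cyclic Hall subgroup, and W₂ ≠ 1 a cyclic subgroup of K equal to C_K(x) for every non-identity x ∈ W₁, with W₁W₂ of odd order. For an irreducible character θ of K: if θ is not fixed under conjugation by some element of W₁, then the function induced from θ to L is an irreducible character of L; and the irreducible characters of K fixed by all of W₁ are exactly Nat.card W₂ in number, each inducing to the sum of Nat.card W₁ pairwise distinct irreducible characters of L. -/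
theorem result {L : Type*} [Group L] [Fintype L] (K W₁ W₂ : Subgroup L) [hK : K.Normal] (hKW₁ : K ⊓ W₁ = ⊥) (hKW₁' : K ⊔ W₁ = ⊤) (hW₁ : W₁ ≠ ⊥) (hW₁c : IsCyclic W₁) (hHall : Nat.Coprime (Nat.card W₁) W₁.index) (hW₂ : W₂ ≠ ⊥) (hW₂c : IsCyclic W₂) (hW₂K : W₂ ≤ K) (hC : ∀ x ∈ W₁, x ≠ 1 → K ⊓ Subgroup.centralizer ({x} : Set L) = W₂) (hodd : Odd (Nat.card ↥(W₁ ⊔ W₂))) : (∀ θ : K → ℂ, Cfsg.IsIrrCharacter K θ → (∃ x ∈ W₁, (fun k : K => θ ⟨x * k * x⁻¹, hK.conj_mem (k : L) k.2 x⟩) ≠ θ) → Cfsg.IsIrrCharacter L (Cfsg.indFun K θ)) ∧ Nat.card {θ : Cfsg.IrrCharacter K // ∀ x ∈ W₁, (fun k : K => (θ : K → ℂ) ⟨x * k * x⁻¹, hK.conj_mem (k : L) k.2 x⟩) = θ} = Nat.card W₂ ∧ (∀ θ : K → ℂ, Cfsg.IsIrrCharacter K θ → (∀ x ∈ W₁, (fun k : K => θ ⟨x * k * x⁻¹, hK.conj_mem (k : L) k.2 x⟩) = θ) → ∃ C : Finset (L → ℂ), C.card = Nat.card W₁ ∧ (∀ μ ∈ C, Cfsg.IsIrrCharacter L μ) ∧ Cfsg.indFun K θ = ∑ μ ∈ C, μ)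 := by
  classical
  have h := PF4.primeHyp_of_subgroups hKW₁ hKW₁' hW₁ hW₁c hHall hW₂ hW₂c hW₂K hC hodd
  have := h.nt₁
  obtain ⟨x₀, hx₀⟩ := exists_ne (1 : W₁)
  refine ⟨fun θ hθ ⟨x, _, hne⟩ => ?_, ?_, fun θ hθ hf => ?_⟩
  · rcases h.ind_irr_or_pres hθ with ⟨j, rfl⟩ | r
    · exact absurd (h.conjFun_pres x j) hne
    · exact r.1
  · rw [← card_dual _ hW₂c]
    refine (Nat.card_congr (Equiv.ofBijective (fun j : Dual W₂ => (⟨⟨_, h.pres_irr j⟩,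
      fun x _ => h.conjFun_pres x j⟩ : {θ : Cfsg.IrrCharacter K // ∀ x ∈ W₁,
        (fun k : K => (θ : K → ℂ) ⟨x * k * x⁻¹, hK.conj_mem (k : L) k.2 x⟩) = θ})) ⟨fun j k e => ?_, fun θ => ?_⟩)).symm
    · exact h.pres_inj (congrArg (fun t => t.1.1) e)
    · obtain ⟨j, e⟩ := h.eq_pres_of_fixed θ.1.2 hx₀ (θ.2 x₀ x₀.2)
      exact ⟨j, Subtype.ext (Subtype.ext e.symm)⟩
  · obtain ⟨j, rfl⟩ := h.eq_pres_of_fixed hθ hx₀ (hf x₀ x₀.2)
    have inj : Function.Injective fun i => pmu W₁.subtype W₂.subtype i j := fun a b r => (h.pmu_inj r).1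
    refine ⟨Finset.univ.image fun i => pmu W₁.subtype W₂.subtype i j, ?_, fun μ hμ => ?_, ?_⟩
    · rw [Finset.card_image_of_injective _ inj, Finset.card_univ, ← Nat.card_eq_fintype_card, card_dual _ hW₁c]
    · obtain ⟨i, -, rfl⟩ := Finset.mem_image.1 hμ
      exact h.pmu_irr i j
    · rw [Finset.sum_image inj.injOn, h.ind_pres, pcol]

end Cfsg.Agent.S1513
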