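import Mathlib
import Cfsg.Agent.H25.PF5
import Cfsg.Statements.S1515

set_option autoImplicit false
open Cfsg

open H05 H25 Cfsg

namespace Cfsg.Agent.S1515

/-- Let (S, τ, R) be a coherence system from L to G, χ ∈ S, and ψ an integer combination of S with ⟨χ, ψ⟩ = ⟨conj χ, ψ⟩ = 0. Let τ₁ be a linear isometry on the integer combinations of χ − ψ and χ − conj χ, with virtual-character values, agreeing with τ on integer multiples of χ − conj χ. Then the sum over α ∈ R χ of the squared absolute values of ⟨τ₁(χ − ψ), α⟩ is at least ⟨χ, χ⟩; and if ⟨τ₁(χ − ψ), τ₁(χ − ψ)⟩ minus that sum is at least ⟨ψ, ψ⟩, then the sum equals ⟨χ, χ⟩ and every ⟨τ₁(χ − ψ), α⟩ with α ∈ R χ is 0 or 1. -/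
theorem result {L : Type*} [Group L] [Fintype L] {G : Type*} [Group G] [Fintype G] (S : Set (L → ℂ)) (τ : (L → ℂ) → (G → ℂ)) (R : (L → ℂ) → Finset (G → ℂ)) (hS : Cfsg.IsCoherenceSystem S τ R) (χ : L → ℂ) (hχ : χ ∈ S) (ψ : L → ℂ) (hψ : ψ ∈ Cfsg.zspan S) (h1 : Cfsg.classInner χ ψ = 0) (h2 : Cfsg.classInner (Cfsg.conjFun χ) ψ = 0) (τ₁ : (L → ℂ) → (G → ℂ)) (hτ₁ : Cfsg.IsLinearIsometryOn (Cfsg.zspan {χ - ψ, χ - Cfsg.conjFun χ}) τ₁) (hagree : ∀ n : ℤ, τ₁ (n • (χ - Cfsg.conjFun χ)) = τ (n • (χ - Cfsg.conjFun χ))) : (Cfsg.classInner χ χ).re ≤ ∑ α ∈ R χ, ‖Cfsg.classInner (τ₁ (χ - ψ)) α‖ ^ 2 ∧ ((Cfsg.classInner ψ ψ).re ≤ (Cfsg.classInner (τ₁ (χ - ψ)) (τ₁ (χ - ψ))).re - ∑ α ∈ R χ, ‖Cfsg.classInner (τ₁ (χ - ψ)) α‖ ^ 2 → (∑ α ∈ R χ, ‖Cfsg.classInner (τ₁ (χ - ψ)) α‖ ^ 2 = (Cfsg.classInner χ χ).re ∧ ∀ α ∈ R χ, Cfsg.classInner (τ₁ (χ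 - ψ)) α = 0 ∨ Cfsg.classInner (τ₁ (χ - ψ)) α = 1)) := by
  classical
  obtain ⟨τ', h, e⟩ := subCoh_of_system hS
  have m1 : χ - ψ ∈ zspan {χ - ψ, χ - conjFun χ} := mem_zspan (by simp)
  have m2 : χ - conjFun χ ∈ zspan {χ - ψ, χ - conjFun χ} := mem_zspan (by simp)
  have e1 := hagree 1
  rw [one_smul, ← e _ (h.sub_conj_mem hχ) (ch_sub_conj_one (h.isCh χ hχ))] at e1
  obtain ⟨a, b⟩ := h.norm hχ (hτ₁.2.2.2 _ m1) (by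
    rw [← e1, hτ₁.2.2.1 _ m1 _ m2]
    simp [ip_sub_left, ip_sub_right, ip_eq_zero_symm h1, ip_eq_zero_symm h2, h.ip_conj hχ])
  refine ⟨a, fun hle => ?_⟩
  have e2 : nsq (χ - ψ) = nsq χ + nsq ψ := nsq_sub_of_orth h1
  rw [hτ₁.2.2.1 _ m1 _ m1] at hle
  change nsq ψ ≤ nsq (χ - ψ) - _ at hle
  have hle' : ∑ α ∈ R χ, ‖⟪τ₁ (χ - ψ), α⟫‖ ^ 2 ≤ nsq χ := by linarith
  refine ⟨le_antisymm hle' a, fun α hα => ?_⟩
  obtain ⟨E, hE, -, e3⟩ := b hle'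
  have e4 := ip_sum_smul_orth (R χ) (fun α => α) (fun α => ⟪τ₁ (χ - ψ), α⟫) (h.R_orth χ hχ) hα
  rw [e3, (h.R_sirr χ hχ α hα).ip_self, mul_one, ip_sum_left] at e4
  rw [← e4]
  by_cases hαE : α ∈ E
  · right
    rw [Finset.sum_eq_single α (fun β hβ hne => h.R_orth χ hχ β (hE hβ) α hα hne) (fun h => absurd hαE h),
      (h.R_sirr χ hχ α hα).ip_self]
  · left
    exact Finset.sum_eq_zero fun β hβ => h.R_orth χ hχ β (hE hβ) α hα fun e => hαE (e ▸ hβ)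

end Cfsg.Agent.S1515
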