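import Mathlib
import Cfsg.Statements.S1524
import Cfsg.Agent.H25.PF6e
import Cfsg.Agent.H06.FrobGroup

set_option autoImplicit false
open Cfsg

open H05 H25 Cfsg

namespace Cfsg.Agent.S1524

/-- Let G be a finite group and H ≤ L subgroups with L of odd order, H ≠ ⊥ nilpotent and normal in L with a nontrivial complement W₁ in L (H ⊓ W₁ = ⊥, H ⊔ W₁ = L) acting on H without non-identity fixed points (L is a Frobenius group with kernel H), and suppose the underlying set of H is a TI-subset of G whose normaliser is L. Let S be the set of functions on L induced from the non-principal irreducible characters of H. Then (S, L minus 1, induction to G) is coherent. -/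
theorem result {G : Type*} [Group G] [Fintype G] (H L W₁ : Subgroup G) [Fintype L] (hodd : Odd (Nat.card L)) (hHL : H ≤ L) (hW₁L : W₁ ≤ L) (hH1 : H ≠ ⊥) (hW1 : W₁ ≠ ⊥) (hnil : Group.IsNilpotent H) (hHn : ∀ x ∈ L, ∀ h ∈ H, x * h * x⁻¹ ∈ H) (hinf : H ⊓ W₁ = ⊥) (hsup : H ⊔ W₁ = L) (hfpf : ∀ w ∈ W₁, w ≠ 1 → ∀ h ∈ H, w * h = h * w → h = 1) (hTI : Cfsg.IsTISubset (H : Set G)) (hN : Subgroup.normalizer (H : Set G) = L) : Cfsg.IsCoherent (Cfsg.inducedIrrAbove (H.subgroupOf L) ⊥) {1}ᶜ (fun α : L → ℂ => Cfsg.indFun L α) := by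
  obtain rfl : ‹Fintype L› = fintypeSubgroup L := Subsingleton.elim _ _
  have hn : (H.subgroupOf L).Normal := ⟨fun h hh x => hHn x x.2 h hh⟩
  have hnil' : Group.IsNilpotent (H.subgroupOf L) :=
    (Group.isNilpotent_congr (Subgroup.subgroupOfEquivOfLe hHL)).2 hnil
  have hH1' : H.subgroupOf L ≠ ⊥ := by
    rw [Ne, Subgroup.subgroupOf_eq_bot, disjoint_iff, inf_eq_left.2 hHL]; exact hH1
  have hfrob : ∀ h ∈ H.subgroupOf L, h ≠ 1 → ∀ x : L, Commute x h → x ∈ H.subgroupOf L := by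
    intro h hh h1 x hx
    refine H06.frob_centralizer_le_kernel (H.subgroupOf L) (W₁.subgroupOf L)
      (by rw [← Subgroup.subgroupOf_sup hHL hW₁L, hsup, Subgroup.subgroupOf_self])
      (fun w hw hw1 k hk e => Subtype.ext
        (hfpf w hw (fun e => hw1 (Subtype.ext e)) k hk (congrArg Subtype.val e))) hh h1
      (Subgroup.mem_centralizer_singleton_iff.2 hx)
  rw [← coe_sInd_self]
  obtain ⟨φ, hφ⟩ := sInd_nonempty (K := H.subgroupOf L) (H := H.subgroupOf L) (M := ⊥) le_rfl bot_le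
    (by simpa using hH1')
  refine isCoherent_of_coh (PF6.frobenius L _ hodd hnil' hH1' (fun h hh h1 g h' hh' e => ?_) hfrob)
    (fun _ _ _ => rfl) ⟨φ - conjFun φ, zspan_sub (mem_zspan hφ) (mem_zspan (sInd_conj hφ)),
      ch_sub_conj_one (sInd_isCh hφ), sub_ne_zero.2 (sInd_conj_ne hodd hφ).symm⟩
  by_contra hg
  exact h1 (Subtype.ext (hTI g (hN ▸ hg) h hh (e ▸ hh')))

end Cfsg.Agent.S1524
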