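import Mathlib
import Cfsg.Agent.H25.PF2
import Cfsg.Statements.S1525

set_option autoImplicit false
open Cfsg

open H05 H25 Cfsg

namespace Cfsg.Agent.S1525

/-- Under the Dade hypothesis for (A, L, H), let χ be a class function of G and let ψ be a function on L whose value at each a ∈ A is the average of χ over the coset a·H(a). Then (1/|G|) Σ |χ g|² over the elements g of G conjugate into some coset a·H(a) with a ∈ A is at least (1/|L|) Σ_{a ∈ A ∩ L} |ψ a|². -/
theorem result {G : Type*} [Group G] [Fintype G] (A : Set G) (L : Subgroup G) [Fintype L] (H : G → Subgroup G) (hD : Cfsg.DadeHypothesis A L H) (χ : G → ℂ) (hχ : Cfsg.IsClassFunction G χ) (ψ : L → ℂ) (hψ : ∀ a : L, (a : G) ∈ A → ψ a = (Nat.card (H a) : ℂ)⁻¹ * ∑ᶠ u ∈ (H a : Set G), χ (a * u)) : (Nat.card L : ℝ)⁻¹ * ∑ᶠ a ∈ {a : L | (a : G) ∈ A}, ‖ψ a‖ ^ 2 ≤ (Nat.card G : ℝ)⁻¹ * ∑ᶠ g ∈ {g : G | ∃ a ∈ A, ∃ u ∈ H a, ∃ x : G, x * g * x⁻¹ = a * u}, ‖χ g‖ ^ 2 := by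
  obtain rfl : ‹Fintype L› = fintypeSubgroup L := Subsingleton.elim _ _
  classical
  have h := nsq_rho_le hD hχ
  rw [nsq_eq] at h
  rw [finsum_mem_eq_finite_toFinset_sum _ (Set.toFinite _), finsum_mem_eq_finite_toFinset_sum _ (Set.toFinite _)]
  convert h using 2
  · symm
    rw [← Finset.sum_filter_add_sum_filter_not _ (fun a : L => (a : G) ∈ A), Finset.sum_eq_zero
      (s := Finset.filter (fun a : L => ¬ (a : G) ∈ A) _) fun a ha => by
        rw [rho_suppIn χ a (Finset.mem_filter.1 ha).2]; simp, add_zero]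
    refine Finset.sum_congr (by ext; simp) fun a ha => ?_
    have ha : (a : G) ∈ A := by simpa using ha
    rw [hψ a ha, rho_apply χ ha, ← finsum_eq_sum_of_fintype,
      ← finsum_set_coe_eq_finsum_mem (f := fun u => χ (a * u))]
    rfl
  · exact Finset.sum_congr (by ext; simp only [Set.Finite.mem_toFinset, Finset.mem_filter, Finset.mem_univ, true_and]; rfl) fun _ _ => rfl

end Cfsg.Agent.S1525
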