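import Mathlib
import Cfsg.Statements.S1526
import Cfsg.Agent.H25.PF7c
import Cfsg.Agent.H02.Thompson

set_option autoImplicit false
open Cfsg

namespace Cfsg.Agent.S1526

theorem frob_nilpotent {L : Type*} [Group L] [Fintype L] {H : Subgroup L} [H.Normal] (hH : H ≠ ⊤)
    (hfrob : ∀ h ∈ H, h ≠ 1 → ∀ x : L, Commute x h → x ∈ H) : Group.IsNilpotent H := by
  obtain ⟨p, hp, hpd⟩ := Nat.exists_prime_and_dvd (n := H.index) (by rwa [Ne, Subgroup.index_eq_one])
  have := Fact.mk hp
  obtain ⟨a, ha⟩ := exists_prime_orderOf_dvd_card' p (hpd.trans H.index_dvd_card)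
  have haH : a ∉ H := fun h => by
    have h1 : p ∣ Nat.card H := ha ▸ Subgroup.orderOf_dvd_natCard H h
    have h2 := (Nat.dvd_sub h1 (hpd.trans (H25.pf7_frob_dvd hfrob)))
    rw [Nat.sub_sub_self Nat.card_pos] at h2
    exact hp.one_lt.ne' (Nat.dvd_one.mp h2)
  refine H02.isNilpotent_of_fpf hp (by rw [Subgroup.normalizer_eq_top]; trivial)
    (ha ▸ pow_orderOf_eq_one a) (H02.fpf_iff.mpr fun k hk h => ?_)
  by_contra hk1
  exact haH (hfrob k hk hk1 a h)



/-- Let G be a finite group of odd order and (L i, H i), i in a finite index type with at least two elements, pairs of subgroups with H i a nontrivial proper normal subgroup of L i such that every non-identity element of H i has its centraliser within L i contained in H i (L i is a Frobenius group with kernel H i), the orders of the H i pairwise coprime, and the underlying set of each H i a TI-subset of G with normaliser L i. If every non-identity element of G is conjugate to an element of some H i, we reach a contradiction. -/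
theorem result {G : Type*} [Group G] [Finite G] (hodd : Odd (Nat.card G)) {ι : Type*} [Fintype ι] (hι : 2 ≤ Fintype.card ι) (L H : ι → Subgroup G) (hHL : ∀ i, H i < L i) (hH1 : ∀ i, H i ≠ ⊥) (hHn : ∀ i, ∀ x ∈ L i, ∀ h ∈ H i, x * h * x⁻¹ ∈ H i) (hfrob : ∀ i, ∀ h ∈ H i, h ≠ 1 → L i ⊓ Subgroup.centralizer ({h} : Set G) ≤ H i) (hcop : ∀ i j, i ≠ j → Nat.Coprime (Nat.card (H i)) (Nat.card (H j))) (hTI : ∀ i, Cfsg.IsTISubset (H i : Set G) ∧ Subgroup.normalizer (H i : Set G) = L i) (hcover : ∀ g : G, g ≠ 1 → ∃ i, ∃ x : G, x * g * x⁻¹ ∈ H i) : False := by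
  let _ := Fintype.ofFinite G
  have : Nonempty ι := Fintype.card_pos_iff.mp (by omega)
  refine H25.no_coherent_frobenius_partition hodd L H hHL hH1 hHn (fun i => ?_) hfrob hcop
    (fun i h hh h1 g hg => ?_) hcover
  · let _ := Fintype.ofFinite (L i)
    have hn : ((H i).subgroupOf (L i)).Normal := ⟨fun h hh x => hHn i x x.2 h hh⟩
    have := frob_nilpotent (H := (H i).subgroupOf (L i))
      (fun h => (hHL i).not_ge (Subgroup.subgroupOf_eq_top.mp h)) (fun h hh h1 x hx =>
        hfrob i h hh (fun e => h1 (Subtype.ext e)) ⟨x.2, Subgroup.mem_centralizer_singleton_iff.mpr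
          (congrArg Subtype.val hx)⟩)
    exact Group.nilpotent_of_mulEquiv (Subgroup.subgroupOfEquivOfLe (hHL i).le)
  · by_contra hgL
    exact h1 ((hTI i).1 g (by rwa [(hTI i).2]) h hh hg)

end Cfsg.Agent.S1526
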