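import Mathlib
import Cfsg.Statements.S1527
import Cfsg.Agent.H25.PF2

set_option autoImplicit false
open Cfsg
open H25 Cfsg

namespace Cfsg.Agent.S1527

/-- Let G be a finite group and H i (i in a finite index type) subgroups of pairwise coprime orders, each of whose underlying sets is a TI-subset of G, such that every non-identity element of G is conjugate to an element of some H i. Then Nat.card G − 1 = Σ_i [G : N_G(H i)] · (Nat.card (H i) − 1). -/
theorem result {G : Type*} [Group G] [Finite G] {ι : Type*} [Fintype ι] (H : ι → Subgroup G) (hcop : ∀ i j, i ≠ j → Nat.Coprime (Nat.card (H i)) (Nat.card (H j))) (hTI : ∀ i, Cfsg.IsTISubset (H i : Set G)) (hcover : ∀ g : G, g ≠ 1 → ∃ i, ∃ x : G, x * g * x⁻¹ ∈ H i) : Nat.card G - 1 = ∑ i, (Subgroup.normalizer (H i : Set G)).index * (Nat.card (H i) - 1) := by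
  classical
  let _ := Fintype.ofFinite G
  have hD : ∀ i, DadeHypothesis ((H i : Set G) \ {1}) (Subgroup.normalizer (H i : Set G))
      (fun _ => ⊥) := fun i =>
    dadeHyp_of_ti (by simp) (fun a ha => Subgroup.le_normalizer ha.1)
      (fun x hx a ha => ⟨(Subgroup.mem_normalizer_iff.mp hx a).mp ha.1, by simpa using ha.2⟩)
      (fun a ha g hg => by
        by_contra hgL
        exact ha.2 (hTI i g hgL a ha.1 hg.1))
  have hcard : ∀ i, Nat.card (dadeSupp ((H i : Set G) \ {1}) (fun _ => ⊥)) =
      (Subgroup.normalizer (H i : Set G)).index * (Nat.card (H i) - 1) := fun i => by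
    have h1 := card_dadeSupp (hD i)
    have h2 : Nat.card ((H i : Set G) \ {1} : Set G) = Nat.card (H i) - 1 := by
      rw [Nat.card_coe_set_eq, Set.ncard_diff_singleton_of_mem (H i).one_mem]
      rfl
    have h3 : (0 : ℝ) < Nat.card (Subgroup.normalizer (H i : Set G)) := by
      exact_mod_cast Nat.card_pos
    have h4 : (0 : ℝ) < Nat.card G := by exact_mod_cast Nat.card_pos
    rw [h2, div_eq_div_iff h4.ne' h3.ne', ← (Subgroup.normalizer (H i : Set G)).index_mul_card,
      Nat.cast_mul, ← mul_assoc] at h1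
    have h5 := mul_right_cancel₀ h3.ne' h1
    rw [mul_comm]
    exact_mod_cast h5
  have hdisj : ∀ i j, i ≠ j → Disjoint (dadeSupp ((H i : Set G) \ {1}) (fun _ => ⊥))
      (dadeSupp ((H j : Set G) \ {1}) (fun _ => ⊥)) := fun i j hij => by
    rw [Set.disjoint_left]
    rintro g ⟨a, ha, u, hu, x, hx⟩ ⟨b, hb, v, hv, y, hy⟩
    rw [Subgroup.mem_bot] at hu hv
    rw [hu, mul_one] at hx
    rw [hv, mul_one] at hy
    have h1 : orderOf a = orderOf g := by
      rw [← hx]; exact (MulAut.conj x).orderOf_eq g
    have h2 : orderOf b = orderOf g := by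
      rw [← hy]; exact (MulAut.conj y).orderOf_eq g
    apply ha.2
    rw [Set.mem_singleton_iff, ← orderOf_eq_one_iff]
    exact Nat.eq_one_of_dvd_coprimes (hcop i j hij) (Subgroup.orderOf_dvd_natCard _ ha.1)
      (by rw [h1, ← h2]; exact Subgroup.orderOf_dvd_natCard _ hb.1)
  have h1 : (Finset.univ.erase (1 : G)) = Finset.univ.biUnion fun i =>
      (dadeSupp ((H i : Set G) \ {1}) (fun _ => ⊥)).toFinset := by
    ext g
    simp only [Finset.mem_erase, Finset.mem_univ, and_true, Finset.mem_biUnion, Set.mem_toFinset,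
      true_and]
    constructor
    · intro hg
      obtain ⟨i, x, hx⟩ := hcover g hg
      exact ⟨i, _, ⟨hx, by simpa using hg⟩, 1, Subgroup.one_mem _, x, (mul_one _).symm⟩
    · rintro ⟨i, hi⟩ rfl
      exact one_not_mem_dadeSupp (hD i) hi
  have h2 := congrArg Finset.card h1
  rw [Finset.card_erase_of_mem (Finset.mem_univ _), Finset.card_univ, Finset.card_biUnion
    (fun i _ j _ hij => Set.disjoint_toFinset.mpr (hdisj i j hij))] at h2
  rw [Nat.card_eq_fintype_card, h2]
  refine Finset.sum_congr rfl fun i _ => ?_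
  rw [← hcard, Nat.card_eq_card_toFinset]

end Cfsg.Agent.S1527
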