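import Mathlib
import Cfsg.Agent.H25.PF5c
import Cfsg.Statements.S1529

set_option autoImplicit false
open Cfsg

open H05 H25 Cfsg

namespace Cfsg.Agent.S1529

/-- Let N be a subgroup of the finite group G, S a set of irreducible characters of N with at least two members, and τ₁ a linear isometry on the integer combinations of S with virtual-character values such that τ₁ α vanishes at 1 whenever α ∈ ℤ[S] does. Then there is ε ∈ {1, −1} such that ε • τ₁ χ is an irreducible character of G for every χ ∈ S, and distinct members of S give distinct characters. -/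
theorem result {G : Type*} [Group G] [Fintype G] (N : Subgroup G) [Fintype N] (S : Set (N → ℂ)) (hirr : ∀ χ ∈ S, Cfsg.IsIrrCharacter N χ) (htwo : ∃ χ ∈ S, ∃ ψ ∈ S, χ ≠ ψ) (τ₁ : (N → ℂ) → (G → ℂ)) (hτ₁ : Cfsg.IsLinearIsometryOn (Cfsg.zspan S) τ₁) (h0 : ∀ α ∈ Cfsg.zspan S, α 1 = 0 → τ₁ α 1 = 0) : ∃ ε : ℂ, (ε = 1 ∨ ε = -1) ∧ (∀ χ ∈ S, Cfsg.IsIrrCharacter G (ε • τ₁ χ)) ∧ (∀ χ ∈ S, ∀ ψ ∈ S, τ₁ χ = τ₁ ψ → χ = ψ) := by
  obtain ⟨ν, hν⟩ := exists_linear_of_isometry hτ₁.2.2.1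
  obtain ⟨ν', h1, h2⟩ := cohWith_of_isometry (τ := ν) hτ₁ (fun _ _ => rfl) fun α a _ => hν α a
  obtain ⟨ε, hε, h3⟩ := coh_common_sign hirr (fun α a b => by rw [hν α a, h0 α a b]) h1
  refine ⟨ε, by rcases hε with rfl | rfl <;> simp, fun χ hχ => h2 χ (mem_zspan hχ) ▸ h3 χ hχ,
    fun χ hχ ψ hψ e => (hirr χ hχ).eq_of_classInner_ne_zero (hirr ψ hψ) ?_⟩
  rw [← hτ₁.2.2.1 χ (mem_zspan hχ) ψ (mem_zspan hψ), e, hτ₁.2.2.1 ψ (mem_zspan hψ) ψ (mem_zspan hψ),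
    (hirr ψ hψ).classInner_self]
  exact one_ne_zero

end Cfsg.Agent.S1529
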