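import Mathlib
import Cfsg.Agent.H25.PF5c
import Cfsg.Statements.S1531

set_option autoImplicit false
open Cfsg

open H05 H25 Cfsg

namespace Cfsg.Agent.S1531

/-- Let N be a subgroup of the finite group G, S a set of irreducible characters of N, and α a linear isometry on the integer combinations of S vanishing at 1 with values virtual characters of G vanishing at 1. Let X, Y ⊆ S be disjoint, each with at least two members, and σ, τ linear isometries on ℤ[X], ℤ[Y] into virtual characters agreeing with α on the members vanishing at 1. Then ⟨σ χ, τ η⟩ = 0 for χ ∈ X, η ∈ Y; and if for some χ₀ ∈ X, η₀ ∈ Y with degrees c = χ₀ 1, e = η₀ 1 one has α (c • η₀ − e • χ₀) = c • τ η₀ − e • σ χ₀, then (X ∪ Y, N minus 1, α) is coherent. -/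
theorem result {G : Type*} [Group G] [Fintype G] (N : Subgroup G) [Fintype N] (S X Y : Set (N → ℂ)) (hirr : ∀ ξ ∈ S, Cfsg.IsIrrCharacter N ξ) (hXS : X ⊆ S) (hYS : Y ⊆ S) (hXY : Disjoint X Y) (hX2 : ∃ a ∈ X, ∃ b ∈ X, a ≠ b) (hY2 : ∃ a ∈ Y, ∃ b ∈ Y, a ≠ b) (α : (N → ℂ) → (G → ℂ)) (hα : Cfsg.IsLinearIsometryOn (Cfsg.zspanOn S {1}ᶜ) α) (hα1 : ∀ θ ∈ Cfsg.zspanOn S {1}ᶜ, α θ 1 = 0) (σ τ : (N → ℂ) → (G → ℂ)) (hσ : Cfsg.IsLinearIsometryOn (Cfsg.zspan X) σ) (hσα : ∀ θ ∈ Cfsg.zspanOn X {1}ᶜ, σ θ = α θ) (hτ : Cfsg.IsLinearIsometryOn (Cfsg.zspan Y) τ) (hτα : ∀ θ ∈ Cfsg.zspanOn Y {1}ᶜ, τ θ = α θ) : (∀ χ ∈ X, ∀ η ∈ Y, Cfsg.classInner (σ χ) (τ η) = 0) ∧ ((∃ χ₀ ∈ X, ∃ η₀ ∈ Y, α (χ₀ 1 • η₀ - η₀ 1 • χ₀) = χ₀ 1 • τ η₀ - η₀ 1 • σ χ₀) → Cfsg.IsCoherent (X ∪ Y) {1}ᶜ α) := by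
  obtain ⟨α', e, h1, h2⟩ := exists_linear_of_isometryOn hα
  obtain ⟨ν₁, a1, a2⟩ := cohWith_of_isometry (τ := α') hσ hσα fun θ a b => e θ (zspan_mono hXS a) b
  obtain ⟨ν₂, b1, b2⟩ := cohWith_of_isometry (τ := α') hτ hτα fun θ a b => e θ (zspan_mono hYS a) b
  have h3 : ∀ θ ∈ zspan S, θ 1 = 0 → α' θ 1 = 0 := fun θ a b => e θ a b ▸ hα1 θ (mem_zspanOn_one.2 ⟨a, b⟩)
  have ho := fun χ (hχ : χ ∈ X) η (hη : η ∈ Y) => coh_irr_orth hirr h3 h1 hXS hYS hXY hX2 hY2 a1 b1 hχ hη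
  refine ⟨fun χ hχ η hη => by rw [← a2 χ (mem_zspan hχ), ← b2 η (mem_zspan hη), ho χ hχ η hη], ?_⟩
  rintro ⟨χ, hχ, η, hη, he⟩
  have hU : Y ∪ X ⊆ S := Set.union_subset hYS hXS
  obtain ⟨c, hc⟩ := (hirr χ (hXS hχ)).isCharacter.exists_degree
  obtain ⟨d, hd⟩ := (hirr η (hYS hη)).isCharacter.exists_degree
  obtain ⟨ν, h4, -⟩ := coh_union (τ := α') (fun ξ h => ⟨(hirr ξ (hU h)).isCharacter, (hirr ξ (hU h)).ne_zero⟩)
    (fun ξ h φ h' => (hirr ξ (hU h)).classInner_of_ne (hirr φ (hU h'))) hXY.symm b1 a1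
    (fun η hη χ hχ => ip_eq_zero_symm (ho χ hχ η hη)) hη hχ (hirr χ (hXS hχ)).apply_one_ne_zero
    (mul_comm _ _) (by
      rw [a2 χ (mem_zspan hχ), b2 η (mem_zspan hη), ← he]
      refine e _ ?_ (by simp [mul_comm])
      rw [hc, hd]
      exact zspan_sub (zspan_natCast_smul (mem_zspan (hYS hη)) _) (zspan_natCast_smul (mem_zspan (hXS hχ)) _))
  rw [Set.union_comm]
  exact isCoherent_of_coh ⟨ν, h4⟩ (fun θ a b => e θ (zspan_mono hU a) b)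
    (exists_zspan_ne_zero (fun ξ h => (hirr ξ (hU h)).isCharacter) (Or.inl hη) (Or.inr hχ)
      (hirr η (hYS hη)).ne_zero (hirr χ (hXS hχ)).ne_zero ((hirr χ (hXS hχ)).classInner_of_ne (hirr η (hYS hη))
      fun e => Set.disjoint_left.1 hXY hχ (e ▸ hη)))

end Cfsg.Agent.S1531
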