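import Mathlib
import Cfsg.Statements.S1532
import Cfsg.Agent.H25.PF6f

set_option autoImplicit false
open Cfsg

open H05 H25 Cfsg

namespace Cfsg.Agent.S1532

/-- Let G be a finite group, p an odd prime and P a Sylow p-subgroup that is non-abelian, whose underlying set is a TI-subset of G, with P properly contained in its set normaliser N and C_G(x) ≤ P for every non-identity x ∈ P. Let Z be a nontrivial subgroup of the centre of P normalised by N. Then the set of irreducible characters χ of N with χ z ≠ χ 1 for some z ∈ Z is coherent for the map induced by induction from N to G. -/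
theorem result {G : Type*} [Group G] [Fintype G] (p : ℕ) [Fact p.Prime] (hp : p ≠ 2) (P : Sylow p G) (hna : ¬ IsMulCommutative (P : Subgroup G)) (hTI : Cfsg.IsTISubset ((P : Subgroup G) : Set G)) (hlt : (P : Subgroup G) < Subgroup.normalizer ((P : Subgroup G) : Set G)) (hC : ∀ k ∈ (P : Subgroup G), k ≠ 1 → Subgroup.centralizer ({k} : Set G) ≤ (P : Subgroup G)) [Fintype ↥(Subgroup.normalizer ((P : Subgroup G) : Set G))] (Z : Subgroup G) (hZ1 : Z ≠ ⊥) (hZP : ∀ z ∈ Z, z ∈ (P : Subgroup G) ∧ ∀ y ∈ (P : Subgroup G), z * y = y * z) (hZn : ∀ x ∈ Subgroup.normalizer ((P : Subgroup G) : Set G), ∀ z ∈ Z, x * z * x⁻¹ ∈ Z) : Cfsg.IsCoherent {χ : ↥(Subgroup.normalizer ((P : Subgroup G) : Set G)) → ℂ | Cfsg.IsIrrCharacter ↥(Subgroup.normalizer ((P : Subgroup G) : Set G)) χ ∧ ∃ z : ↥(Subgroup.normalizer ((P : Subgroup G) : Set G)), (z : G) ∈ Z ∧ χ z ≠ χ 1} {1}ᶜ (fun α => Cfsg.indFun (Subgroup.normalizer ((P : Subgroup G) : Set G)) α) := by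
  obtain rfl : ‹Fintype ↥(Subgroup.normalizer ((P : Subgroup G) : Set G))› = fintypeSubgroup _ :=
    Subsingleton.elim _ _
  have hp' : p.Prime := Fact.out
  have hK1 : (P : Subgroup G) ≠ ⊥ := fun e => hZ1 (eq_bot_iff.2 fun z hz => e ▸ (hZP z hz).1)
  obtain ⟨h1, hti, hfrob⟩ := PF6.amb_hyp (P : Subgroup G) hK1 hTI hC
  have hle : (P : Subgroup G) ≤ Subgroup.normalizer ((P : Subgroup G) : Set G) := Subgroup.le_normalizer
  have hnil' := (Group.isNilpotent_congr (Subgroup.subgroupOfEquivOfLe hle)).2 P.isPGroup'.isNilpotent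
  have hcard := Nat.card_congr (Subgroup.subgroupOfEquivOfLe hle).toEquiv
  have hZ : (Z.subgroupOf (Subgroup.normalizer ((P : Subgroup G) : Set G))).Normal :=
    ⟨fun z hz x => hZn x x.2 z hz⟩
  have hZP' : Z ≤ P := fun z hz => (hZP z hz).1
  rw [PF6.amb_set_eq hZP' hfrob]
  have hodd : Odd (Nat.card (Subgroup.normalizer ((P : Subgroup G) : Set G))) := by
    obtain ⟨m, hm⟩ := P.isPGroup'.exists_card_eq
    rw [← ((P : Subgroup G).subgroupOf _).card_mul_index, Nat.odd_mul, hcard, hm]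
    refine ⟨(hp'.odd_of_ne_two hp).pow, ?_⟩
    rw [← Nat.not_even_iff_odd, even_iff_two_dvd]
    refine fun h => hna ⟨⟨fun a b => Subtype.ext ?_⟩⟩
    exact congrArg (Subgroup.normalizer ((P : Subgroup G) : Set G)).subtype (Subgroup.commutator_eq_bot_iff_le_centralizer.1 (PF6.frob_comm_of_even hfrob h)
      (x := ⟨b, hle b.2⟩) b.2 ⟨a, hle a.2⟩ a.2)
  obtain ⟨φ, hφ⟩ := sInd_nonempty (K := (P : Subgroup G).subgroupOf (Subgroup.normalizer ((P : Subgroup G) : Set G)))
    (H := Z.subgroupOf _) (M := ⊥) (fun _ h => hZP' h) bot_le (by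
      rw [le_bot_iff, Subgroup.subgroupOf_eq_bot, disjoint_iff, inf_eq_left.2 (hZP'.trans hle)]; exact hZ1)
  exact isCoherent_of_coh ((PF6.frobenius _ _ hodd hnil' h1 hti hfrob).mono (sInd_mono (fun _ h => hZP' h) le_rfl))
    (fun _ _ _ => rfl) ⟨φ - conjFun φ, zspan_sub (mem_zspan hφ) (mem_zspan (sInd_conj hφ)),
      ch_sub_conj_one (sInd_isCh hφ), sub_ne_zero.2 (sInd_conj_ne hodd hφ).symm⟩

end Cfsg.Agent.S1532
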