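import Mathlib
import Cfsg.Statements.S1533
import Cfsg.Agent.H25.PF6f

set_option autoImplicit false
open Cfsg

open H05 H25 Cfsg

namespace Cfsg.Agent.S1533

/-- Let G be a finite group, p an odd prime, and P a nontrivial Sylow p-subgroup whose underlying set is a TI-subset of G, with P properly contained in its set normaliser N and C_G(x) ≤ P for every non-identity x ∈ P. Let S be the set of irreducible characters χ of N with χ x ≠ χ 1 for some x ∈ P. Then either S has exactly one member, P is elementary abelian and Nat.card P = [N:P] + 1; or (S, N minus 1, induction to G) is coherent. -/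
theorem result {G : Type*} [Group G] [Fintype G] (p : ℕ) [Fact p.Prime] (hp : p ≠ 2) (P : Sylow p G) (hP1 : (P : Subgroup G) ≠ ⊥) (hTI : Cfsg.IsTISubset ((P : Subgroup G) : Set G)) (hlt : (P : Subgroup G) < Subgroup.normalizer ((P : Subgroup G) : Set G)) (hC : ∀ k ∈ (P : Subgroup G), k ≠ 1 → Subgroup.centralizer ({k} : Set G) ≤ (P : Subgroup G)) [Fintype ↥(Subgroup.normalizer ((P : Subgroup G) : Set G))] : (Nat.card {χ : ↥(Subgroup.normalizer ((P : Subgroup G) : Set G)) → ℂ // Cfsg.IsIrrCharacter ↥(Subgroup.normalizer ((P : Subgroup G) : Set G)) χ ∧ ∃ x : ↥(Subgroup.normalizer ((P : Subgroup G) : Set G)), (x : G) ∈ (P : Subgroup G) ∧ χ x ≠ χ 1} = 1 ∧ Cfsg.IsElementaryAbelian p (P : Subgroup G) ∧ Nat.card (P : Subgroup G) = ((P : Subgroup G).subgroupOf (Subgroup.normalizer ((P : Subgroup G) : Set G))).index + 1) ∨ Cfsg.IsCoherent {χ : ↥(Subgroup.normalizer ((P : Subgroup G) : Set G)) → ℂ | Cfsg.IsIrrCharacter ↥(Subgroup.normalizer ((P : Subgroup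 G) : Set G)) χ ∧ ∃ x : ↥(Subgroup.normalizer ((P : Subgroup G) : Set G)), (x : G) ∈ (P : Subgroup G) ∧ χ x ≠ χ 1} {1}ᶜ (fun α => Cfsg.indFun (Subgroup.normalizer ((P : Subgroup G) : Set G)) α) := by
  obtain rfl : ‹Fintype ↥(Subgroup.normalizer ((P : Subgroup G) : Set G))› = fintypeSubgroup _ :=
    Subsingleton.elim _ _
  have hp' : p.Prime := Fact.out
  obtain ⟨m, hm⟩ := P.isPGroup'.exists_card_eq
  rcases PF6.amb_trichotomy (P : Subgroup G) hP1 P.isPGroup'.isNilpotent hTI hC with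
    ⟨h1, h2, q, hq, hd, h3⟩ | ⟨⟨k, hk⟩, -⟩ | h
  · obtain rfl : q = p := (Nat.prime_dvd_prime_iff_eq hq hp').1 (hq.dvd_of_dvd_pow (hm ▸ hd))
    exact Or.inl ⟨h1, h3, h2⟩
  · have hm0 : m ≠ 0 := by rintro rfl; exact hP1 (Subgroup.card_eq_one.1 hm)
    exact absurd ((Nat.prime_dvd_prime_iff_eq hp' Nat.prime_two).1
      (hp'.dvd_of_dvd_pow (hk ▸ hm ▸ dvd_pow_self p hm0))) hp
  · exact Or.inr h

end Cfsg.Agent.S1533
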