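import Mathlib
import Cfsg.Statements.S1534
import Cfsg.Agent.H25.PF6f

set_option autoImplicit false
open Cfsg

open H05 H25 Cfsg

namespace Cfsg.Agent.S1534

/-- Let G be a finite group and K a nontrivial nilpotent subgroup whose underlying set is a TI-subset of G, properly contained in its set normaliser N, with C_G(k) ≤ K for every non-identity k ∈ K; let e be the index of K in N and S the set of irreducible characters χ of N with χ k ≠ χ 1 for some k ∈ K. Then one of: S has exactly one member, Nat.card K = e + 1 and K is an elementary abelian p-group for some prime p; or K is a Sylow 2-subgroup of G (Nat.card K is the largest power of 2 dividing Nat.card G) and [K : [K,K]] < 4e²; or (S, N minus 1, induction to G) is coherent. -/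
theorem result {G : Type*} [Group G] [Fintype G] (K : Subgroup G) (hK1 : K ≠ ⊥) (hnil : Group.IsNilpotent K) (hTI : Cfsg.IsTISubset (K : Set G)) (hlt : K < Subgroup.normalizer (K : Set G)) (hC : ∀ k ∈ K, k ≠ 1 → Subgroup.centralizer ({k} : Set G) ≤ K) [Fintype ↥(Subgroup.normalizer (K : Set G))] : (Nat.card {χ : ↥(Subgroup.normalizer (K : Set G)) → ℂ // Cfsg.IsIrrCharacter ↥(Subgroup.normalizer (K : Set G)) χ ∧ ∃ k : ↥(Subgroup.normalizer (K : Set G)), (k : G) ∈ K ∧ χ k ≠ χ 1} = 1 ∧ Nat.card K = (K.subgroupOf (Subgroup.normalizer (K : Set G))).index + 1 ∧ ∃ p : ℕ, p.Prime ∧ Cfsg.IsElementaryAbelian p K) ∨ (Nat.card K = 2 ^ (Nat.card G).factorization 2 ∧ (⁅K, K⁆.subgroupOf K).index < 4 * (K.subgroupOf (Subgroup.normalizer (K : Set G))).index ^ 2) ∨ Cfsg.IsCoherent {χ : ↥(Subgroup.normalizer (K : Set G)) → ℂ | Cfsg.IsIrrCharacter ↥(Subgroup.normalizer (K : Set G)) χ ∧ ∃ k : ↥(Subgroup.normalizer (K : Set G)), (k : G) ∈ K ∧ χ k ≠ χ 1} {1}ᶜ (fun α => Cfsg.indFun (Subgroup.normalizer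 (K : Set G)) α) := by
  obtain rfl : ‹Fintype ↥(Subgroup.normalizer (K : Set G))› = fintypeSubgroup _ := Subsingleton.elim _ _
  rcases PF6.amb_trichotomy K hK1 hnil hTI hC with ⟨h1, h2, q, hq, -, h3⟩ | ⟨⟨k, hk⟩, h⟩ | h
  · exact Or.inl ⟨h1, h2, q, hq, h3⟩
  · refine Or.inr (Or.inl ?_)
    obtain ⟨-, -, hfrob⟩ := PF6.amb_hyp K hK1 hTI hC
    have hcard := Nat.card_congr (Subgroup.subgroupOfEquivOfLe (Subgroup.le_normalizer (H := K))).toEquiv
    have hk0 : k ≠ 0 := by rintro rfl; exact hK1 (Subgroup.card_eq_one.1 hk)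
    have hcop := PF6.frob_coprime hfrob
    rw [hcard, hk, Nat.coprime_pow_right_iff (Nat.pos_of_ne_zero hk0), Nat.coprime_comm,
      Nat.prime_two.coprime_iff_not_dvd] at hcop
    have hP : IsPGroup 2 K := IsPGroup.of_card hk
    refine ⟨(hP.toSylow (H06.not_dvd_index_of_normalizer hP hcop)).card_eq_multiplicity, ?_⟩
    obtain ⟨a, -, ha⟩ := (Nat.dvd_prime_pow Nat.prime_two).1 (hk ▸ Subgroup.relIndex_dvd_card ⁅K, K⁆ K)
    change ⁅K, K⁆.relIndex K < _
    have h1 : (K.subgroupOf (Subgroup.normalizer (K : Set G))).index ≠ 1 := by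
      rw [Ne, Subgroup.index_eq_one, Subgroup.subgroupOf_eq_top]; exact hlt.not_ge
    generalize (K.subgroupOf (Subgroup.normalizer (K : Set G))).index = e at *
    rw [ha] at h ⊢
    have he : 0 < e := Nat.pos_of_ne_zero (by rintro rfl; simp at hcop)
    rcases h.eq_or_lt with h2 | h2
    · rcases a with _ | a
      · have : 0 < e ^ 2 := by positivity
        omega
      · rw [pow_succ] at h2; omega
    · refine lt_of_le_of_ne (by omega) fun h3 => h1 ?_
      have : e ∣ 2 ^ a := h3 ▸ Dvd.intro_left (4 * e) (by ring)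
      obtain ⟨b, -, rfl⟩ := (Nat.dvd_prime_pow Nat.prime_two).1 this
      rcases b with _ | b
      · rfl
      · exact absurd (dvd_pow_self 2 (by omega)) hcop
  · exact Or.inr (Or.inr h)

end Cfsg.Agent.S1534
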