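import Mathlib
import Cfsg.Statements.S1535
import Cfsg.Agent.H25.PF6f
import Cfsg.Agent.H02.Thompson

set_option autoImplicit false
open Cfsg

open H05 H25 Cfsg

namespace Cfsg.Agent.S1535

/-- Let N be a finite group with a proper nontrivial normal subgroup H such that every element commuting with a non-identity element of H lies in H (N is a Frobenius group with kernel H); let e be the index of H and suppose Nat.card H ≠ e + 1. Let S be the set of irreducible characters χ of N with χ h ≠ χ 1 for some h ∈ H, and τ a linear isometry on the integer combinations of S vanishing at 1, with values virtual characters of a finite group G vanishing at 1. Then (S, N minus 1, τ) is coherent, or there is a prime p with Nat.card H a power of p, H non-abelian and [H : [H,H]] ≤ 4e² + 1. -/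
theorem result {N : Type*} [Group N] [Fintype N] {G : Type*} [Group G] [Fintype G] (H : Subgroup N) [H.Normal] (hH1 : H ≠ ⊥) (hH2 : H ≠ ⊤) (hC : ∀ h ∈ H, h ≠ 1 → Subgroup.centralizer ({h} : Set N) ≤ H) (he : Nat.card H ≠ H.index + 1) (τ : (N → ℂ) → (G → ℂ)) (hτ : Cfsg.IsLinearIsometryOn (Cfsg.zspanOn {χ : N → ℂ | Cfsg.IsIrrCharacter N χ ∧ ∃ h ∈ H, χ h ≠ χ 1} {1}ᶜ) τ) (hτ1 : ∀ α ∈ Cfsg.zspanOn {χ : N → ℂ | Cfsg.IsIrrCharacter N χ ∧ ∃ h ∈ H, χ h ≠ χ 1} {1}ᶜ, τ α 1 = 0) : Cfsg.IsCoherent {χ : N → ℂ | Cfsg.IsIrrCharacter N χ ∧ ∃ h ∈ H, χ h ≠ χ 1} {1}ᶜ τ ∨ ∃ p : ℕ, p.Prime ∧ (∃ m : ℕ, Nat.card H = p ^ m) ∧ ¬ IsMulCommutative H ∧ (⁅H, H⁆.subgroupOf H).index ≤ 4 * H.index ^ 2 + 1 := by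
  have hfrob : ∀ h ∈ H, h ≠ 1 → ∀ x : N, Commute x h → x ∈ H := fun h hh h1 x hx =>
    hC h hh h1 (Subgroup.mem_centralizer_singleton_iff.2 hx)
  have hnil : Group.IsNilpotent H := by
    obtain ⟨p, hp, hd⟩ := Nat.exists_prime_and_dvd (n := H.index) (by rwa [Ne, Subgroup.index_eq_one])
    have := Fact.mk hp
    obtain ⟨a, ha⟩ := exists_prime_orderOf_dvd_card' (G := N) p (hd.trans H.index_dvd_card)
    have haH : a ∉ H := fun h => hp.one_lt.ne' (Nat.eq_one_of_dvd_coprimes (PF6.frob_coprime hfrob) hd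
      (ha ▸ H.orderOf_dvd_natCard h))
    refine H02.isNilpotent_of_fpf hp (a := a) (by rw [Subgroup.normalizer_eq_top]; trivial)
      (ha ▸ pow_orderOf_eq_one a) (H02.fpf_iff.2 fun k hk e => ?_)
    by_contra h1
    exact haH (hfrob k hk h1 a e)
  rw [← PF6.sInd_eq_irr le_rfl (PF6.frob_sInd_irr hfrob)] at hτ hτ1 ⊢
  obtain ⟨τ', e, h1, h2⟩ := exists_linear_of_isometryOn hτ
  by_cases hn : Coh (sInd H H ⊥ : Set (N → ℂ)) τ'
  · exact Or.inl (isCoherent_of_coh hn e (PF6.frob_nontrivial hnil hH1 hfrob he))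
  · obtain ⟨⟨p, m, hp, hm⟩, h3, h4⟩ := PF6.feit hnil hH1 hfrob ⟨fun _ => sInd_isCh, fun _ => sInd_ne_zero, h1, h2,
      fun α a b => e α a b ▸ hτ1 α (mem_zspanOn_one.2 ⟨a, b⟩), fun _ a _ b => sInd_orth a b⟩ hn
    refine Or.inr ⟨p, hp, ⟨m, hm⟩, fun hc => h3 ?_, h4⟩
    rw [Subgroup.commutator_eq_bot_iff_le_centralizer]
    exact fun x hx y hy => congrArg Subtype.val (hc.1.1 ⟨y, hy⟩ ⟨x, hx⟩)

end Cfsg.Agent.S1535
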