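import Mathlib
import Cfsg.Agent.H25.Defs
import Cfsg.Agent.H06.BrauerPerm
import Cfsg.Agent.H01.Coprime2
import Cfsg.Statements.S1536

set_option autoImplicit false
open Cfsg

open H05 H25 Cfsg

namespace Cfsg.Agent.S1536

/-- Let H be a normal subgroup of the finite group M whose order is coprime to its index. For x ∈ M: some non-principal irreducible character of H is unchanged under h ↦ θ(x h x⁻¹) if and only if some non-identity element of H commutes with x. -/
theorem result {M : Type*} [Group M] [Finite M] (H : Subgroup M) [hN : H.Normal] (hHall : Nat.Coprime (Nat.card H) H.index) (x : M) : (∃ θ : H → ℂ, Cfsg.IsIrrCharacter H θ ∧ θ ≠ (fun _ => 1) ∧ (fun h : H => θ ⟨x * h * x⁻¹, hN.conj_mem h h.2 x⟩) = θ) ↔ ∃ h ∈ H, h ≠ 1 ∧ x * h = h * x := by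
  constructor
  · rintro ⟨θ, hθ, hθ1, hfix⟩
    by_cases hx : x ^ H.index = 1
    swap
    · exact ⟨_, H.pow_index_mem x, hx, ((Commute.refl x).pow_right _).eq⟩
    by_contra hno
    push Not at hno
    refine hθ1 (H06.eq_one_of_conjFun_eq H x (fun n hn y hy e => ?_) hθ hfix)
    have hcop : (Nat.card (Subgroup.zpowers x)).Coprime (Nat.card H) := by
      rw [Nat.card_zpowers]
      exact Nat.Coprime.coprime_dvd_left (orderOf_dvd_of_pow_eq_one hx) hHall.symm
    have hpow : ∀ m : ℕ, ∃ k ∈ H, x ^ m * n * (x ^ m)⁻¹ = k * n * k⁻¹ := by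
      intro m
      induction m with
      | zero => exact ⟨1, H.one_mem, by simp⟩
      | succ m ih =>
        obtain ⟨k, hk, e'⟩ := ih
        refine ⟨x * k * x⁻¹ * y⁻¹, H.mul_mem (hN.conj_mem k hk x) (H.inv_mem hy), ?_⟩
        have e2 : x * n * x⁻¹ = y⁻¹ * n * y := by
          calc x * n * x⁻¹ = y⁻¹ * (y * x * n) * x⁻¹ := by group
            _ = y⁻¹ * n * y := by rw [e]; group
        calc x ^ (m + 1) * n * (x ^ (m + 1))⁻¹ = x * (x ^ m * n * (x ^ m)⁻¹) * x⁻¹ := by
              rw [pow_succ']; group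
          _ = x * k * x⁻¹ * (x * n * x⁻¹) * (x * k * x⁻¹)⁻¹ := by rw [e']; group
          _ = _ := by rw [e2]; group
    obtain ⟨k, hk, hfixk⟩ := @H01.glauberman_fixed M _ _ M (MulAction.compHom M (MulAut.conj (G := M)))
      (Subgroup.zpowers x) H (H01.le_normalizer_of_normal _ _) hcop
      (Or.inl (H01.isSolvable_of_isMulCommutative _)) n (by
        intro a ha
        obtain ⟨m, rfl⟩ := (mem_powers_iff_mem_zpowers.2 ha)
        exact hpow m)
    have e3 : x * (k * n * k⁻¹) * x⁻¹ = k * n * k⁻¹ := hfixk x (Subgroup.mem_zpowers x)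
    by_contra hn1
    refine hno _ (hN.conj_mem n hn k) (by simpa using hn1) ?_
    rw [mul_inv_eq_iff_eq_mul] at e3
    exact e3
  · rintro ⟨h, hh, h1, e⟩
    have key := H06.brauer_perm_aut (MulAut.conjNormal x : MulAut H)
    by_contra hno
    push Not at hno
    have hle : Nat.card {χ : IrrCharacter H // (χ : H → ℂ) ∘ (MulAut.conjNormal x : MulAut H) = χ} ≤ 1 := by
      refine Finite.card_le_one_iff_subsingleton.2 ⟨fun a b => ?_⟩
      have ha : (a.1 : H → ℂ) = fun _ => 1 := by
        by_contra h'; exact hno _ a.1.2 h' a.2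
      have hb : (b.1 : H → ℂ) = fun _ => 1 := by
        by_contra h'; exact hno _ b.1.2 h' b.2
      exact Subtype.ext (Subtype.ext (ha.trans hb.symm))
    rw [← key] at hle
    have hs := Finite.card_le_one_iff_subsingleton.1 hle
    have f1 : ConjClasses.map (MulAut.conjNormal x : MulAut H).toMonoidHom (ConjClasses.mk 1) =
        ConjClasses.mk 1 := congrArg ConjClasses.mk (map_one _)
    have f2 : ConjClasses.map (MulAut.conjNormal x : MulAut H).toMonoidHom (ConjClasses.mk ⟨h, hh⟩) =
        ConjClasses.mk ⟨h, hh⟩ := congrArg ConjClasses.mk (Subtype.ext (by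
          show x * h * x⁻¹ = h
          rw [e]; group))
    have := congrArg Subtype.val (hs.elim ⟨_, f1⟩ ⟨_, f2⟩)
    have h2 := ConjClasses.mk_eq_mk_iff_isConj.1 this
    exact h1 (congrArg Subtype.val (isConj_one_right.1 h2))

end Cfsg.Agent.S1536
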