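import Mathlib
import Cfsg.Statements.S1559
import Cfsg.Agent.H13.M24Rank

set_option autoImplicit false
open scoped Pointwise
open Cfsg

namespace Cfsg.Agent.S1559

open H13 MulAction

/-- A trio stabiliser has five orbits on the 3795 trios, of sizes 1, 42, 56, 1008, 2688; and the stabiliser is a maximal proper subgroup. -/
theorem result (T : Finset (Finset Cfsg.GolayPt)) (hT : T ∈ Cfsg.trios) : ∃ X₁ ∈ Cfsg.trios, ∃ X₂ ∈ Cfsg.trios, ∃ X₃ ∈ Cfsg.trios, ∃ X₄ ∈ Cfsg.trios, (MulAction.orbit ↥(MulAction.stabilizer Cfsg.M24 T) X₁).ncard = 42 ∧ (MulAction.orbit ↥(MulAction.stabilizer Cfsg.M24 T) X₂).ncard = 56 ∧ (MulAction.orbit ↥(MulAction.stabilizer Cfsg.M24 T) X₃).ncard = 1008 ∧ (MulAction.orbit ↥(MulAction.stabilizer Cfsg.M24 T) X₄).ncard = 2688 ∧ Cfsg.trios = {T} ∪ MulAction.orbit ↥(MulAction.stabilizer Cfsg.M24 T) X₁ ∪ MulAction.orbit ↥(MulAction.stabilizer Cfsg.M24 T) X₂ ∪ MulAction.orbit ↥(MulAction.stabilizer Cfsg.M24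 T) X₃ ∪ MulAction.orbit ↥(MulAction.stabilizer Cfsg.M24 T) X₄ ∧ IsCoatom (MulAction.stabilizer Cfsg.M24 T) := by
  obtain ⟨g, rfl⟩ := exists_Tri hT
  have O := ((rkTri.congr stTri_eq.symm rfl).cj g (smul_tri_iff g)).congr (cj_stabilizer g _) rfl
  refine ⟨_, O.mem (j := 1) (by decide), _, O.mem (j := 2) (by decide), _, O.mem (j := 3) (by decide), _, O.mem (j := 4) (by decide), O.card 1 (by decide), O.card 2 (by decide), O.card 3 (by decide), O.card 4 (by decide), ?_, cj_stabilizer g bTri ▸ isCoatom_cj g coatomTri⟩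
  have h := O.union5 rfl
  rw [O.orbit_eq_singleton (j := 0) (by decide) rfl] at h
  rw [← bTri_eq]; exact h

end Cfsg.Agent.S1559
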