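import Mathlib
import Cfsg.Statements.S1560
import Cfsg.Agent.H14.Sextet

set_option autoImplicit false
open scoped Pointwise
open Cfsg

namespace Cfsg.Agent.S1560

/-- Intersection numbers of dodecads: a dodecad meets every other dodecad in 0, 4, 6 or 8 points, meeting 495 of them in 4 points, 1584 in 6 points and 495 in 8 points. -/
theorem result (d : Finset Cfsg.GolayPt) (hd : d ∈ Cfsg.dodecads) : (∀ d' ∈ Cfsg.dodecads, d' ≠ d → (d ∩ d').card = 0 ∨ (d ∩ d').card = 4 ∨ (d ∩ d').card = 6 ∨ (d ∩ d').card = 8) ∧ {d' : Finset Cfsg.GolayPt | d' ∈ Cfsg.dodecads ∧ (d ∩ d').card = 4}.ncard = 495 ∧ {d' : Finset Cfsg.GolayPt | d' ∈ Cfsg.dodecads ∧ (d ∩ d').card = 6}.ncard = 1584 ∧ {d' : Finset Cfsg.GolayPt | d' ∈ Cfsg.dodecads ∧ (d ∩ d').card = 8}.ncard = 495 := by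
  have e : ∀ m, {o : Finset GolayPt | o ∈ dodecads ∧ (d ∩ o).card = m}.ncard = H14.cntI 12 m d := by
    intro m; unfold H14.cntI; congr 1; ext o
    simp only [Set.mem_ofPred_eq, H14.mem_dodecads, and_assoc]
  refine ⟨fun d' hd' hne => ?_, ?_⟩
  · have h1 := H14.card_symmDiff_add d d'
    have h2 := H14.Code_card (H14.Code_symmDiff hd.1 hd'.1)
    have h3 : ¬ (symmDiff d d').card < 8 := fun h =>
      hne (H14.Code_eq_of_symmDiff_lt (H14.Code_symmDiff hd.1 hd'.1) h).symm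
    rw [hd.2, hd'.2] at h1
    omega
  · simp only [e, H14.cntI_dodecad hd, H14.cntI_toSet]
    decide +kernel

end Cfsg.Agent.S1560
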