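import Mathlib
import Cfsg.Statements.S1562
import Cfsg.Agent.H13.M24Pts

set_option autoImplicit false
open scoped Pointwise
open Cfsg

namespace Cfsg.Agent.S1562

open H13 MulAction

set_option synthInstance.maxSize 4000

theorem inv (g : M24) (c x : Finset GolayPt) : (∃ o ∈ octads, g • c ∪ g • x ⊆ o) ↔ ∃ o ∈ octads, c ∪ x ⊆ o :=
  smul_ex_oct g fun o => by rw [smul_un, smul_sub]

/-- Orbits of a triad stabiliser on the triads disjoint from it: the 210 triads inside a common octad with it form one orbit and the remaining 1120 another. -/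
theorem result (T : Finset Cfsg.GolayPt) (hT : T.card = 3) : {U : Finset Cfsg.GolayPt | U.card = 3 ∧ Disjoint T U ∧ (∃ o ∈ Cfsg.octads, T ∪ U ⊆ o)}.ncard = 210 ∧ {U : Finset Cfsg.GolayPt | U.card = 3 ∧ Disjoint T U ∧ ¬ (∃ o ∈ Cfsg.octads, T ∪ U ⊆ o)}.ncard = 1120 ∧ ∀ U U' : Finset Cfsg.GolayPt, U.card = 3 → U'.card = 3 → Disjoint T U → Disjoint T U' → ((∃ o ∈ Cfsg.octads, T ∪ U ⊆ o) ↔ (∃ o ∈ Cfsg.octads, T ∪ U' ⊆ o)) → ∃ g : Equiv.Perm Cfsg.GolayPt, g ∈ Cfsg.M24 ∧ g • T = T ∧ g • U = U' := by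
  have hg := exists_Triad hT
  refine ⟨rkTriad.rel_ncard fixTriad (smul_card_iff 3) hg (fun c x => Disjoint c x ∧ ∃ o ∈ octads, c ∪ x ⊆ o) (fun g c x h => by simpa only [smul_disj, inv] using h)
      (by decide +kernel),
    rkTriad.rel_ncard fixTriad (smul_card_iff 3) hg (fun c x => Disjoint c x ∧ ¬ ∃ o ∈ octads, c ∪ x ⊆ o) (fun g c x h => by simpa only [smul_disj, inv] using h)
      (by decide +kernel), fun y z hy hz py pz e => ?_⟩
  obtain ⟨g, h1, h2⟩ := rkTriad.rel_smul fixTriad (smul_card_iff 3) hg (fun c x => Disjoint c x) (fun g c x h => by simpa only [smul_disj, inv] using h)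
    (fun c x => decide (∃ o ∈ octads, c ∪ x ⊆ o)) (fun g c x => decide_eq_decide.2 (inv g c x)) (by decide +kernel)
    hy hz py pz (decide_eq_decide.2 e)
  exact ⟨g, g.2, h1, h2⟩

end Cfsg.Agent.S1562
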