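import Mathlib
import Cfsg.Statements.S1568
import Cfsg.Agent.H14.LeechCount

set_option autoImplicit false
open Cfsg

namespace Cfsg.Agent.S1568

/-- Shape census of the lattice vectors of sum of squares 48 (customary norm 6): the four families (2^12, 0^12), (±3^3, ±1^21), (±4, ±2^8, 0^15) and (±5, ±1^23) have 5275648, 8290304, 3108864 and 98304 members. -/
theorem result : {x : Cfsg.GolayPt → ℤ | x ∈ Cfsg.leechLattice ∧ Cfsg.sqNorm x = 48 ∧ ∀ i, x i = 0 ∨ x i = 2 ∨ x i = -2}.ncard = 5275648 ∧ {x : Cfsg.GolayPt → ℤ | x ∈ Cfsg.leechLattice ∧ Cfsg.sqNorm x = 48 ∧ ∃ i j k, i ≠ j ∧ j ≠ k ∧ i ≠ k ∧ |x i| = 3 ∧ |x j| = 3 ∧ |x k| = 3}.ncard = 8290304 ∧ {x : Cfsg.GolayPt → ℤ | x ∈ Cfsg.leechLattice ∧ Cfsg.sqNorm x = 48 ∧ ∃ i, |x i| = 4}.ncard = 3108864 ∧ {x : Cfsg.GolayPt → ℤ | x ∈ Cfsg.leechLattice ∧ Cfsg.sqNorm x = 48 ∧ ∃ i, |x i| = 5}.ncard = 98304 := by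
  have key : ∀ (R : ℤ → Bool) (p : (Cfsg.GolayPt → ℤ) → Prop), (∀ x, ¬ p x ↔ ∀ i, R (x i) = true) →
      {x : Cfsg.GolayPt → ℤ | x ∈ Cfsg.leechLattice ∧ Cfsg.sqNorm x = 48 ∧ p x}.ncard =
        16773120 - H14.cntLeech R 48 := by
    intro R p hp
    rw [← H14.ncard_leech_norm R (by norm_num), ← H14.ncard_48, ← Set.ncard_sdiff (by exact fun x hx => ⟨hx.1, hx.2.1⟩)
      (by exact (H14.finite_sqNorm_le 48).subset fun x hx => hx.2.1.le)]
    congr 1; ext x
    simp only [Set.mem_ofPred_eq, Set.mem_sdiff, ← hp, Nat.cast_ofNat]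
    tauto
  refine ⟨?_, ?_, ?_, ?_⟩
  · have := H14.ncard_leech_norm (fun a => decide (a = 0 ∨ a = 2 ∨ a = -2)) (N := 48) (by norm_num)
    simp only [decide_eq_true_eq, Nat.cast_ofNat] at this
    rw [this]; decide +kernel
  · have := H14.ncard_leech_norm (fun a => decide (|a| = 1 ∨ |a| = 3)) (N := 48) (by norm_num)
    simp only [decide_eq_true_eq, Nat.cast_ofNat] at this
    rw [show 8290304 = H14.cntLeech (fun a => decide (|a| = 1 ∨ |a| = 3)) 48 by decide +kernel, ← this]
    congr 1; ext x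
    simp only [Set.mem_ofPred_eq]
    refine and_congr_right fun hx => and_congr_right fun hn => ?_
    have hs : ∑ i, (x i ^ 2 - 1) = 24 := by
      rw [Finset.sum_sub_distrib, H14.sum_const24]; unfold Cfsg.sqNorm at hn; omega
    constructor
    · rintro ⟨i, j, k, hij, hjk, hik, hi, hj, hk⟩ p
      have hodd : ∀ q, x q % 2 = 1 := fun q => by
        have h1 := (H14.mem_leech.1 hx).1 q
        have h2 := (H14.mem_leech.1 hx).1 i
        rcases abs_eq (by norm_num : (0 : ℤ) ≤ 3) |>.1 hi with a | a <;> omega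
      have hge : ∀ q, 0 ≤ x q ^ 2 - 1 := fun q => by
        have : x q ≠ 0 := by have := hodd q; omega
        have := (one_le_sq_iff_one_le_abs _).2 (Int.one_le_abs this); omega
      by_cases hp : p ∈ ({i, j, k} : Finset _)
      · simp only [Finset.mem_insert, Finset.mem_singleton] at hp
        rcases hp with rfl | rfl | rfl <;> simp [*]
      · have := Finset.sum_le_sum_of_subset_of_nonneg (f := fun q => x q ^ 2 - 1)
          (Finset.subset_univ (insert p {i, j, k})) fun q _ _ => hge q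
        rw [Finset.sum_insert hp, Finset.sum_insert (by simp [hij, hik]), Finset.sum_pair hjk, hs, ← sq_abs (x i),
          ← sq_abs (x j), ← sq_abs (x k), hi, hj, hk] at this
        have := hge p
        exact Or.inl ((sq_eq_sq₀ (abs_nonneg _) zero_le_one).1 (by rw [sq_abs]; omega))
    · intro h
      have : ∑ i, (x i ^ 2 - 1) = ∑ i, 8 * H14.iZ (Finset.univ.filter fun i => |x i| = 3) i := by
        refine Finset.sum_congr rfl fun i _ => ?_
        rw [← sq_abs]
        rcases h i with a | a <;> simp [H14.iZ, a]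
      rw [← Finset.mul_sum, H14.sum_iZ, hs] at this
      obtain ⟨i, j, k, hij, hik, hjk, e⟩ := (Finset.card_eq_three (s := Finset.univ.filter fun i => |x i| = 3)).1 (by omega)
      have hm : ∀ q ∈ ({i, j, k} : Finset _), |x q| = 3 := fun q hq => by
        rw [← e] at hq; exact (Finset.mem_filter.1 hq).2
      exact ⟨i, j, k, hij, hjk, hik, hm _ (by simp), hm _ (by simp), hm _ (by simp)⟩
  · rw [key (fun a => decide (|a| ≠ 4)) _ (by simp)]; decide +kernel
  · rw [key (fun a => decide (|a| ≠ 5)) _ (by simp)]; decide +kernel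

end Cfsg.Agent.S1568
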