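import Mathlib
import Cfsg.Statements.S1584
import Cfsg.Agent.H14.Conf

set_option autoImplicit false
open Cfsg

namespace Cfsg.Agent.S1584

/-- The Higman–Sims group acts with rank 3 and subdegrees 1, 22, 77 on its 100 points, the orbits of a point stabiliser being distinguished by customary inner product 1 with the fixed point. -/
theorem result (v w x : ↥Cfsg.leechLattice) (hv : Cfsg.sqNorm (v : Cfsg.GolayPt → ℤ) = 48) (hw : Cfsg.sqNorm (w : Cfsg.GolayPt → ℤ) = 48) (hvw : Cfsg.dotInt (v : Cfsg.GolayPt → ℤ) (w : Cfsg.GolayPt → ℤ) = -32) (hx : x ∈ {x : ↥Cfsg.leechLattice | Cfsg.sqNorm (x : Cfsg.GolayPt → ℤ) = 32 ∧ Cfsg.dotInt (v : Cfsg.GolayPt → ℤ) (x : Cfsg.GolayPt → ℤ) = 24 ∧ Cfsg.dotInt (w : Cfsg.GolayPt → ℤ) (x : Cfsg.GolayPt → ℤ) = -24}) : {y : ↥Cfsg.leechLattice | y ∈ {x : ↥Cfsg.leechLattice | Cfsg.sqNorm (x :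 Cfsg.GolayPt → ℤ) = 32 ∧ Cfsg.dotInt (v : Cfsg.GolayPt → ℤ) (x : Cfsg.GolayPt → ℤ) = 24 ∧ Cfsg.dotInt (w : Cfsg.GolayPt → ℤ) (x : Cfsg.GolayPt → ℤ) = -24} ∧ Cfsg.dotInt (x : Cfsg.GolayPt → ℤ) (y : Cfsg.GolayPt → ℤ) = 8}.ncard = 22 ∧ {y : ↥Cfsg.leechLattice | y ∈ {x : ↥Cfsg.leechLattice | Cfsg.sqNorm (x : Cfsg.GolayPt → ℤ) = 32 ∧ Cfsg.dotInt (v : Cfsg.GolayPt → ℤ) (x : Cfsg.GolayPt → ℤ) = 24 ∧ Cfsg.dotInt (w : Cfsg.GolayPt → ℤ) (x : Cfsg.GolayPt → ℤ) = -24} ∧ y ≠ x ∧ Cfsg.dotInt (x : Cfsg.GolayPt → ℤ) (y : Cfsg.GolayPt → ℤ) ≠ 8}.ncard = 77 ∧ ∀ y ∈ {x : ↥Cfsg.leechLattice | Cfsg.sqNorm (x : Cfsg.GolayPt → ℤ) = 32 ∧ Cfsg.dotInt (v : Cfsg.GolayPt → ℤ) (x : Cfsg.GolayPt → ℤ) = 24 ∧ Cfsg.dotInt (w : Cfsg.GolayPt → ℤ) (x : Cfsg.GolayPt → ℤ) = -24}, ∀ y' ∈ {x : ↥Cfsg.leechLattice | Cfsg.sqNorm (x : Cfsg.GolayPt → ℤ) = 32 ∧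 Cfsg.dotInt (v : Cfsg.GolayPt → ℤ) (x : Cfsg.GolayPt → ℤ) = 24 ∧ Cfsg.dotInt (w : Cfsg.GolayPt → ℤ) (x : Cfsg.GolayPt → ℤ) = -24}, y ≠ x → y' ≠ x → (Cfsg.dotInt (x : Cfsg.GolayPt → ℤ) (y : Cfsg.GolayPt → ℤ) = 8 ↔ Cfsg.dotInt (x : Cfsg.GolayPt → ℤ) (y' : Cfsg.GolayPt → ℤ) = 8) → ∃ g : ↥Cfsg.Co0, g • v = v ∧ g • w = w ∧ g • x = x ∧ g • y = y' := by
  obtain ⟨g, e1, e2, e3, h⟩ := H14.conf100' hv hw hvw hx
  have key : ∀ y, g • y ∈ H14.O100 → (y ≠ x ∧ Cfsg.dotInt (x : H14.V) y ≠ 8 ↔ Cfsg.dotInt (x : H14.V) y = 16) := by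
    intro y hy
    have h1 := H14.orb100.2.1 _ hy
    rw [← H14.dot_of_smul e3] at h1
    simp only [List.mem_cons, List.not_mem_nil, or_false] at h1
    refine ⟨fun ⟨a, b⟩ => ?_, fun a => ⟨?_, by omega⟩⟩
    · refine (h1.resolve_left fun c => a ?_).resolve_right b
      exact H14.eq_of_dot_eq_norm (((h y).2 hy).1.trans hx.1.symm) (c.trans hx.1.symm)
    · rintro rfl
      rw [H14.dotInt_self, hx.1] at a
      exact absurd a (by decide)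
  refine ⟨(H14.ncard_of_iff g fun y => ?_).trans (H14.cnt100 2 (by norm_num)),
    (H14.ncard_of_iff g fun y => ?_).trans (H14.cnt100 1 (by norm_num)), fun y hy y' hy' a a' hd => ?_⟩
  · exact and_congr (h y) (by rw [H14.dot_of_smul e3]; rfl)
  · refine (and_congr_left' (h y)).trans (and_congr_right fun hy => (key y hy).trans ?_)
    rw [← H14.dot_of_smul e3]; rfl
  · obtain ⟨k, hk, e⟩ := H14.orb100.2.2 _ ((h y).1 hy) _ ((h y').1 hy') (by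
      rw [← H14.dot_of_smul e3, ← H14.dot_of_smul e3]
      by_cases c : Cfsg.dotInt (x : H14.V) y = 8
      · rw [c, hd.1 c]
      · rw [(key y ((h y).1 hy)).1 ⟨a, c⟩, (key y' ((h y').1 hy')).1 ⟨a', fun d => c (hd.2 d)⟩])
    exact ⟨_, H14.conj_smul_eq (by rw [e1, hk.1.1]), H14.conj_smul_eq (by rw [e2, H14.GH_fix hk.1]),
      H14.conj_smul_eq (by rw [e3, hk.2]), H14.conj_smul_eq e⟩

end Cfsg.Agent.S1584
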