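import Mathlib
import Cfsg.Statements.S1591
import Cfsg.Agent.H14.Tern

set_option autoImplicit false
open Cfsg

namespace Cfsg.Agent.S1591

/-- Any two words of the length-12 ternary code have dot product zero. -/
theorem result (x y : Cfsg.ArrayPt → ZMod 3) (hx : x ∈ Cfsg.ternaryGolayCode) (hy : y ∈ Cfsg.ternaryGolayCode) : ∑ p, x p * y p = 0 := by
  have k : ∀ b : H14.Tern.T6, b = (1, 0, 0, 0, 0, 0) ∨ b = (0, 1, 0, 0, 0, 0) ∨ b = (0, 0, 1, 0, 0, 0) ∨ b = (0, 0, 0, 1, 0, 0) ∨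
      b = (0, 0, 0, 0, 1, 0) ∨ b = (0, 0, 0, 0, 0, 1) → ∑ p, x p * H14.Tern.w b p = 0 := by
    revert x
    refine H14.Tern.forall_mem fun a => ?_
    rintro _ (rfl | rfl | rfl | rfl | rfl | rfl) <;> revert a <;> decide +kernel
  have e : ∀ p, y p = y (0, 0) * H14.Tern.w (1, 0, 0, 0, 0, 0) p + y (0, 1) * H14.Tern.w (0, 1, 0, 0, 0, 0) p +
      y (0, 2) * H14.Tern.w (0, 0, 1, 0, 0, 0) p + y (1, 0) * H14.Tern.w (0, 0, 0, 1, 0, 0) p +
      y (1, 1) * H14.Tern.w (0, 0, 0, 0, 1, 0) p + y (2, 0) * H14.Tern.w (0, 0, 0, 0, 0, 1) p := by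
    revert y
    refine H14.Tern.forall_mem ?_
    decide +kernel
  rw [Finset.sum_congr rfl fun p _ => congrArg (x p * ·) (e p)]
  simp only [mul_add, mul_left_comm (x _), Finset.sum_add_distrib, ← Finset.mul_sum]
  simp [k]

end Cfsg.Agent.S1591
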