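import Mathlib
import Cfsg.Statements.S1596
import Cfsg.Agent.H14.Quart

set_option autoImplicit false
open scoped Pointwise
open Cfsg

namespace Cfsg.Agent.S1596

/-- A quartet of a dodecad is determined by any two of its triples: two disjoint triples uniting to a hexad extend to exactly one quartet. -/
theorem result (d : Finset Cfsg.GolayPt) (hd : d ∈ Cfsg.dodecads) (t u : Finset Cfsg.GolayPt) (ht : t.card = 3) (hu : u.card = 3) (htu : Disjoint t u) (hh : t ∪ u ∈ Cfsg.hexadsOn d) : ∃! Q : Finset (Finset Cfsg.GolayPt), Q ∈ Cfsg.quartets d ∧ t ∈ Q ∧ u ∈ Q := by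
  obtain ⟨g, rfl, rfl, rfl⟩ := H14.triple_trans hd ht htu hh
  refine ⟨g • H14.toSS H14.Q0, ⟨H14.smul_quartet g H14.Q0_mem, Finset.smul_mem_smul_finset (H14.mem_toSS.2 ⟨_, by decide, rfl⟩),
    Finset.smul_mem_smul_finset (H14.mem_toSS.2 ⟨_, by decide, rfl⟩)⟩, fun Q hQ => ?_⟩
  rw [← H14.Q0_unique (Q := g⁻¹ • Q) ((H14.smul_quartet_iff g).1 (by rw [smul_inv_smul]; exact hQ.1))
    (Finset.mem_inv_smul_finset_iff.2 hQ.2.1) (Finset.mem_inv_smul_finset_iff.2 hQ.2.2), smul_inv_smul]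

end Cfsg.Agent.S1596
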