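import Mathlib
import Cfsg.Statements.S1599
import Cfsg.Agent.H14.Quart

set_option autoImplicit false
open scoped Pointwise
open Cfsg

namespace Cfsg.Agent.S1599

open H14 PK PK.TS

theorem orb {L : List ℕ} {ch : Ch} {n : ℕ} (h : S24.Full (stS [] [0x5335f] [Q0] ⊓ stS [] [] [L]) ch) (e : n * chN ch = 432) :
    (MulAction.orbit (stS [] [0x5335f] [Q0]) (toSS L)).ncard = n := by
  have := H13.ncard_orbit_mul_card (stS [] [0x5335f] [Q0]) (toSS L)
  rw [card_q0, ← e, ← h.card, show stS [] [] [L] = MulAction.stabilizer M24 (toSS L) by ext; simp [mem_stS]] at this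
  exact Nat.eq_of_mul_eq_mul_right Nat.card_pos this

def x0 : List ℕ := [0x141, 0x1018, 0x12004, 0x40202]
def c0 : Ch := [(0, [nat_lit 0xbdab49ca307b9ac5a928398a418820, nat_lit 0x751f3b42265950caa9a93cae418041, nat_lit 0x2cd76a1a32add2c7a90d3c1c418402, nat_lit 0x2d2b3b254d7dc4c59c208a1c41c246, nat_lit 0x74eb6a04e27960c5c646502e41b528, nat_lit 0x2d9f4988e05dcccac612505c41a1a9, nat_lit 0xbd173b00e1aba4c7c4d0508a41a50d, nat_lit 0x759749a149a942c79c028b6e41c8d0, nat_lit 0xbcdf6a35485b80ca9c418a4a419a12]),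
  (1, [nat_lit 0xbdab49ca307b9ac5a928398a418820, nat_lit 0x2ceb4b36295ba4c79e06522e418440]),
  (2, [nat_lit 0xbdab49ca307b9ac5a928398a418820]),
  (3, [nat_lit 0xbdab49ca307b9ac5a928398a418820, nat_lit 0xb5eae2a62d7d20359e465226460820]),
  (4, [nat_lit 0xbdab49ca307b9ac5a928398a418820]),
  (6, [nat_lit 0xbdab49ca307b9ac5a928398a418820]),
  (5, [nat_lit 0xbdab49ca307b9ac5a928398a418820])]
theorem o0 : (MulAction.orbit (stS [] [0x5335f] [Q0]) (toSS x0)).ncard = 12 :=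
  orb (full_inf_stS q0_full (ch' := c0) (fun l hl t ht => in_stS (allCh_iff.1 (by decide +kernel : allCh _ c0 = true) l hl t ht))
    (by decide +kernel)) (by decide +kernel)
theorem m0 : toSS x0 ∈ Cfsg.quartets (toSet 0x5335f) := quaOk_spec (by decide +kernel)

def x1 : List ℕ := [0x103, 0x2204, 0x11040, 0x40018]
def c1 : Ch := [(0, [nat_lit 0xbdab49ca307b9ac5a928398a418820, nat_lit 0xbd8af730e4a4db25a92888eb030801, nat_lit 0x9d9d75a229a9602a28d23b5e00b083, nat_lit 0xa59ebba22d2d4c29aa123a5c103064, nat_lit 0x75a775a0e92d4827a86c8b68104a06, nat_lit 0xadaf49c8f073c2c2a80289963221a9, nat_lit 0x2d973a48e67b80caa8228c2e41a12d, nat_lit 0x75a85a8a21bac887a86c382696c8d0]),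
  (1, [nat_lit 0xbdab49ca307b9ac5a928398a418820]),
  (2, [nat_lit 0xbdab49ca307b9ac5a928398a418820]),
  (3, [nat_lit 0xbdab49ca307b9ac5a928398a418820, nat_lit 0x5daae7b0e39d132ba9a8890a680820]),
  (4, [nat_lit 0xbdab49ca307b9ac5a928398a418820]),
  (6, [nat_lit 0xbdab49ca307b9ac5a928398a418820]),
  (5, [nat_lit 0xbdab49ca307b9ac5a928398a418820])]
theorem o1 : (MulAction.orbit (stS [] [0x5335f] [Q0]) (toSS x1)).ncard = 27 :=
  orb (full_inf_stS q0_full (ch' := c1) (fun l hl t ht => in_stS (allCh_iff.1 (by decide +kernel : allCh _ c1 = true) l hl t ht))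
    (by decide +kernel)) (by decide +kernel)
theorem m1 : toSS x1 ∈ Cfsg.quartets (toSet 0x5335f) := quaOk_spec (by decide +kernel)

def x2 : List ℕ := [0x16, 0x2108, 0x11040, 0x40201]
def c2 : Ch := [(0, [nat_lit 0xbdab49ca307b9ac5a928398a418820, nat_lit 0xadaf49c8f073c2c2a80289963221a9, nat_lit 0xadece2a54da3c2399c028a16c21a12]),
  (1, [nat_lit 0xbdab49ca307b9ac5a928398a418820]),
  (2, [nat_lit 0xbdab49ca307b9ac5a928398a418820]),
  (3, [nat_lit 0xbdab49ca307b9ac5a928398a418820, nat_lit 0xb5eae2a62d7d20359e465226460820]),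
  (4, [nat_lit 0xbdab49ca307b9ac5a928398a418820]),
  (6, [nat_lit 0xbdab49ca307b9ac5a928398a418820]),
  (5, [nat_lit 0xbdab49ca307b9ac5a928398a418820])]
theorem o2 : (MulAction.orbit (stS [] [0x5335f] [Q0]) (toSS x2)).ncard = 72 :=
  orb (full_inf_stS q0_full (ch' := c2) (fun l hl t ht => in_stS (allCh_iff.1 (by decide +kernel : allCh _ c2 = true) l hl t ht))
    (by decide +kernel)) (by decide +kernel)
theorem m2 : toSS x2 ∈ Cfsg.quartets (toSet 0x5335f) := quaOk_spec (by decide +kernel)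

def x3 : List ℕ := [0x141, 0x1204, 0x200a, 0x50010]
def c3 : Ch := [(0, [nat_lit 0xbdab49ca307b9ac5a928398a418820, nat_lit 0x9baa5bc8f07d8435a82089a8463528]),
  (1, [nat_lit 0xbdab49ca307b9ac5a928398a418820, nat_lit 0x996aebc2325d1237a9a839ac460440]),
  (2, [nat_lit 0xbdab49ca307b9ac5a928398a418820]),
  (3, [nat_lit 0xbdab49ca307b9ac5a928398a418820]),
  (4, [nat_lit 0xbdab49ca307b9ac5a928398a418820]),
  (6, [nat_lit 0xbdab49ca307b9ac5a928398a418820]),
  (5, [nat_lit 0xbdab49ca307b9ac5a928398a418820])]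
theorem o3 : (MulAction.orbit (stS [] [0x5335f] [Q0]) (toSS x3)).ncard = 108 :=
  orb (full_inf_stS q0_full (ch' := c3) (fun l hl t ht => in_stS (allCh_iff.1 (by decide +kernel : allCh _ c3 = true) l hl t ht))
    (by decide +kernel)) (by decide +kernel)
theorem m3 : toSS x3 ∈ Cfsg.quartets (toSet 0x5335f) := quaOk_spec (by decide +kernel)

/-- A quartet stabiliser has five orbits on the quartets of its dodecad, of sizes 1, 12, 27, 72, 108. -/
theorem result (d : Finset Cfsg.GolayPt) (hd : d ∈ Cfsg.dodecads) (Q : Finset (Finset Cfsg.GolayPt)) (hQ : Q ∈ Cfsg.quartets d) : ∃ X₁ ∈ Cfsg.quartets d, ∃ X₂ ∈ Cfsg.quartets d, ∃ X₃ ∈ Cfsg.quartets d, ∃ X₄ ∈ Cfsg.quartets d, (MulAction.orbit ↥(MulAction.stabilizer Cfsg.M24 d ⊓ MulAction.stabilizer Cfsg.M24 Q) X₁).ncard = 12 ∧ (MulAction.orbit ↥(MulAction.stabilizer Cfsg.M24 d ⊓ MulAction.stabilizer Cfsg.M24 Q) X₂).ncard = 27 ∧ (MulAction.orbit ↥(MulAction.stabilizer Cfsg.M24 d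 ⊓ MulAction.stabilizer Cfsg.M24 Q) X₃).ncard = 72 ∧ (MulAction.orbit ↥(MulAction.stabilizer Cfsg.M24 d ⊓ MulAction.stabilizer Cfsg.M24 Q) X₄).ncard = 108 ∧ Cfsg.quartets d = {Q} ∪ MulAction.orbit ↥(MulAction.stabilizer Cfsg.M24 d ⊓ MulAction.stabilizer Cfsg.M24 Q) X₁ ∪ MulAction.orbit ↥(MulAction.stabilizer Cfsg.M24 d ⊓ MulAction.stabilizer Cfsg.M24 Q) X₂ ∪ MulAction.orbit ↥(MulAction.stabilizer Cfsg.M24 d ⊓ MulAction.stabilizer Cfsg.M24 Q) X₃ ∪ MulAction.orbit ↥(MulAction.stabilizer Cfsg.M24 d ⊓ MulAction.stabilizer Cfsg.M24 Q) X₄ := by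
  obtain ⟨g, rfl, rfl⟩ := quartet_trans hd hQ
  rw [← H13.cj_stabilizer, ← H13.cj_stabilizer, ← H13.cj_inf, ← q0_eq]
  have e : ∀ x : Finset (Finset GolayPt), (MulAction.orbit (H13.cj g (stS [] [0x5335f] [Q0])) (g • x)).ncard =
      (MulAction.orbit (stS [] [0x5335f] [Q0]) x).ncard := fun x => by
    rw [H13.orbit_cj, Set.ncard_image_of_injective _ (MulAction.injective g)]
  have e0 : MulAction.orbit (H13.cj g (stS [] [0x5335f] [Q0])) (g • toSS Q0) = {g • toSS Q0} := by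
    refine Set.eq_singleton_iff_unique_mem.2 ⟨MulAction.mem_orbit_self _, ?_⟩
    rintro _ ⟨x, rfl⟩
    exact (H13.cj_stabilizer g (toSS Q0)).le (x.2.2.2 Q0 (by simp))
  refine ⟨_, smul_quartet g m0, _, smul_quartet g m1, _, smul_quartet g m2, _, smul_quartet g m3, (e _).trans o0,
    (e _).trans o1, (e _).trans o2, (e _).trans o3, ?_⟩
  rw [← e0]
  refine cover5 (Set.toFinite _) (fun x hx => ?_) (by rw [e0, Set.ncard_singleton]) ((e _).trans o0) ((e _).trans o1)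
    ((e _).trans o2) ((e _).trans o3) (by rw [ncard_quartets hd]; norm_num)
  rintro _ ⟨k, rfl⟩
  have h1 : (k : M24) • g • toSet 0x5335f = g • toSet 0x5335f := (H13.cj_stabilizer g _).le (k.2.2.1 _ (by simp))
  rw [← h1]
  refine smul_quartet k ?_
  simp only [List.mem_cons, List.not_mem_nil, or_false] at hx
  rcases hx with rfl | rfl | rfl | rfl | rfl
  exacts [hQ, smul_quartet g m0, smul_quartet g m1, smul_quartet g m2, smul_quartet g m3]

end Cfsg.Agent.S1599
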