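import Mathlib
import Cfsg.Statements.S1606
import Cfsg.Agent.H14.Over2
import Cfsg.Agent.H13.M24Pts
import Cfsg.Agent.H14.M9

set_option autoImplicit false
open scoped Pointwise
open Cfsg

namespace Cfsg.Agent.S1606

open H14 PK PK.TS Finset MulAction
open scoped Pointwise

section

def s5 : ℕ := nat_lit 0xbd5d68b0e49ad10a2a46285e968860

def gs : List ℕ := [nat_lit 0xbd6717b56939461b52507314831040, nat_lit 0xbced48a4a653d033ada1732a414240, nat_lit 0xbd8eba19e2ac4885152373270905a0, nat_lit 0xbc6b63c9e154ccd2d1035c1c911180, nat_lit 0xbd2cb7a66c2d4727288d8a0f0088c0, nat_lit 0xbd5d68b0e49ad10a2a46285e968860, nat_lit 0xbcd51a89e42ba4ca1da3b256809a00, nat_lit 0xbd2aa74ac6895813bc899b56240e00, nat_lit 0xbd22e5a0a2b4e0d51c81ac9ec49860, nat_lit 0xbc6742b6ac5a82271d1278ec481920, nat_lit 0xbb9f6a8e225964154d88a10e9834c0, nat_lit 0xbaaaf2ca8db2c309c444730e34a0c0, nat_lit 0xbba279a2922bda3ad9845c1460a440, nat_lit 0xb9e367a1d0a2862594cc9b6a920640,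 nat_lit 0xbd0af386b09c4c85b892b25436b040, nat_lit 0xbcdc7a3150b14815d5a278e264c900]

def rs : List (ℕ × ℕ) := [(nat_lit 0xbdab49ca307b9ac5a928398a418820, 0x149f), (nat_lit 0xb82d5a4e5183dcd62d4941cc520c41, 0x293e), (nat_lit 0x78e754d8d0a49cd22051586e551d80, 0x3da1), (nat_lit 0x64ab782c768d1a79988f7090a2a420, 0x46e3), (nat_lit 0x6ced78b080955c8a1cb078d2b32841, 0x8dc6), (nat_lit 0xb8820b56939460f7358b5250731483, 0xa4f8), (nat_lit 0xb8c4105ab49ca307b9ac5a928398a4, 0x149f0), (nat_lit 0x7b047b4925a5e6e81815535045c461, 0x24c5a), (nat_lit 0x50883ad1378024f645165cccd71ca1, 0x2e8a2), (nat_lit 0x8246eb048b6a2ea33e923d5932c440, 0xa84a5), (nat_lit 0x449e919e936860aa96d15b1d711880, 0x800c75), (nat_lit 0x4ce0a222b470a2bb1812635f719ca1, 0x8018ea), (nat_lit 0x648543be765952871ab11920dba820, 0x80254b), (nat_lit 0x5522b2a6d578e4c01c336ba17220c2, 0x8031d4), (nat_lit 0x6cc75442806194979ed22162ebac41, 0x804a96), (nat_lit 0x6828e4304191aaf1a896846773ad25,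 0x818ea0), (nat_lit 0x30c2f25aa8650538dd495b60571e40, 0x8c48a1)]

def tri : List (ℕ × ℕ × ℕ) := [(nat_lit 0xbdab49ca307b9ac5a928398a418820, nat_lit 0xbd56aa41c32cc8d7c64c39ac20a120, nat_lit 0xb9dd52b263544287d8cda117212600)]

theorem inN {L : List ℕ} (e : H13.allL (fun T => H13.band (ok24 T) (siftC 5 24 n55Ch T)) L = true) :
    ∀ t ∈ L, S24.In (N11 ⊓ stS [23] [] []) t := fun t ht =>
  (H13.band_eq_true.1 (H13.allL_iff.1 e t ht)).elim fun a b => In.of_siftC n55_full.mem (in24 a) b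

/-- the test for an involution -/
noncomputable def tst (T : ℕ) : Bool := H13.bor (bn (fixL 5 [23, 0] T)) (H13.bor (Nat.beq T (H13.idv 5 24)) (H13.bor
  (H13.band (Nat.beq (pm T 0x5335e) 0x5335e) (H13.anyL (fun a => Nat.beq (tm 5 24 (cjT 5 24 a.1 T) (tm 5 24 (cjT 5 24 a.2.1 T)
    (cjT 5 24 a.2.2 T))) t11) tri)) (H13.anyL (fun u => ordOk 5 24 (tw 5 24 [T, t11, s5] u) 7) [[1, 2, 1, 2, 1, 0], [2, 2, 1, 2, 0], [2, 2, 2, 0, 1, 1], [2, 1, 0, 2, 2, 2], [1, 1, 1, 0, 2]])))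

variable {H : Subgroup M24} (h1 : N11 ⊓ stS [23] [] [] ≤ H) (h2 : H ≤ stS [23, 0] [] []) (h3 : Nat.card H = 7920)
include h1 h2 h3

theorem A (y : M24) (c : tst (S24.tb y) = true) (hy : y ∈ H) (n : y ≠ 1) : y • toSet 0x5335e = toSet 0x5335e ∧
    ∃ a ∈ H, ∃ b ∈ H, ∃ c ∈ H, S24.el t11 = a * y * a⁻¹ * (b * y * b⁻¹ * (c * y * c⁻¹)) := by
  simp only [tst, H13.bor_eq_true, H13.band_eq_true, H13.anyL_iff, bn_iff, Nat.beq_eq] at c
  have iy : S24.In H (S24.tb y) := in_tb.2 hy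
  rcases c with c | c | ⟨c, a, ha, d⟩ | ⟨u, -, c⟩
  · exact (c (H13.allL_iff.2 fun b hb => Nat.beq_eq ▸ (SP_fix (by revert b; decide)).1 ((h2 hy).1 b hb))).elim
  · exact (n (S24.tb_inj (c.trans S24.tb_one.symm))).elim
  · have i := inN (L := tri.flatMap fun a => [a.1, a.2.1, a.2.2]) (by decide +kernel)
    have i1 := (i a.1 (List.mem_flatMap.2 ⟨a, ha, by simp⟩)).mono h1
    have i2 := (i a.2.1 (List.mem_flatMap.2 ⟨a, ha, by simp⟩)).mono h1
    have i3 := (i a.2.2 (List.mem_flatMap.2 ⟨a, ha, by simp⟩)).mono h1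
    refine ⟨(SP_smul y _).trans (congrArg _ c), _, i1.el_mem, _, i2.el_mem, _, i3.el_mem, ?_⟩
    rw [← d, (i1.cj iy).el_tm ((i2.cj iy).mul (i3.cj iy)), (i2.cj iy).el_tm (i3.cj iy), i1.el_cjT iy, i2.el_cjT iy, i3.el_cjT iy,
      el_tb]
  · exact absurd (h3 ▸ dvd_of_ord (by norm_num) (In.tw (List.forall_mem_cons.2 ⟨iy, fun t ht =>
      (inN (by decide +kernel) t ht).mono h1⟩) u) c) (by norm_num)

theorem B {y : M24} (hy : y ∈ H) (o : orderOf y = 2) : ∃ k ∈ N11 ⊓ stS [23] [] [], tst (S24.tb (k * y * k⁻¹)) = true := by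
  have f := (card_fix2 y.2 ((Subgroup.orderOf_coe y).trans o)).resolve_right fun c => fixS_eq_empty.1 c _ ((h2 hy).1 23 (by simp))
  obtain ⟨k, hk, r, hr, e⟩ := oct_descent (gs := gs) (rs := rs.map (·.2)) (inN (by decide +kernel)) (by decide +kernel) _ f
  obtain ⟨r, hr', rfl⟩ := List.mem_map.1 hr
  refine ⟨k, hk, all_ptw (g := r.1) (Q := fun x => tst (S24.tb x) = true) (fun _ => id) (H13.allL_iff.1 (by decide +kernel :
    H13.allL (fun r => H13.band (H13.band (ok24 r.1) (Nat.beq (pm r.1 0x149f) r.2))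
      (eallT 5 24 (fun T => H13.force (cjT 5 24 r.1 T) tst) e0Ch)) rs = true) r hr') _ ?_⟩
  rw [← e, ← cj_ptw]
  exact H13.conj_mem_cj.2 (mem_ptw.2 fun p hp => mem_fixS.1 hp)

theorem C {y : M24} (hy : y ∈ H) (o : orderOf y = 2) : y • toSet 0x5335e = toSet 0x5335e := by
  obtain ⟨k, hk, e⟩ := B h1 h2 h3 hy o
  have a := (A h1 h2 h3 _ e (H.mul_mem (H.mul_mem (h1 hk) hy) (H.inv_mem (h1 hk))) fun c => by
    simp [conj_eq_one_iff.1 c] at o).1
  have b : k⁻¹ • toSet 0x5335e = _ := le_stabS n55_full (by decide +kernel) (inv_mem hk)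
  rwa [mul_smul, b, mul_smul, ← eq_inv_smul_iff, b] at a

theorem D : False := by
  have := Fact.mk Nat.prime_two
  obtain ⟨⟨y, hy⟩, o⟩ := exists_prime_orderOf_dvd_card' (G := H) 2 (by rw [h3]; norm_num)
  rw [← Subgroup.orderOf_coe] at o
  obtain ⟨k, hk, e⟩ := B h1 h2 h3 hy o
  have m := H.mul_mem (H.mul_mem (h1 hk) hy) (H.inv_mem (h1 hk))
  obtain ⟨-, a, ha, b, hb, c, hc, d⟩ := A h1 h2 h3 _ e m fun c => by simp [conj_eq_one_iff.1 c] at o
  have l : H ≤ stabilizer M24 (toSet 0x5335f) ⊓ stabilizer M24 (pt 0) := fun h hh => by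
    have e1 : h • toSet 0x5335e = toSet (pm (S24.tb h) 0x5335e) := SP_smul h _
    have k1 : ∀ g ∈ H, (g * (k * y * k⁻¹) * g⁻¹) • h • toSet 0x5335e = h • toSet 0x5335e := fun g hg => by
      have := C h1 h2 h3 (y := (h⁻¹ * g * k) * y * (h⁻¹ * g * k)⁻¹) (H.mul_mem (H.mul_mem (H.mul_mem (H.mul_mem (H.inv_mem hh) hg)
        (h1 hk)) hy) (H.inv_mem (H.mul_mem (H.mul_mem (H.inv_mem hh) hg) (h1 hk))))
        (((MulAut.conj (h⁻¹ * g * k)).orderOf_eq y).trans o)
      simpa [mul_smul, inv_smul_eq_iff] using this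
    have k2 : Subgroup.zpowers (S24.el t11) ≤ stabilizer M24 (toSet (pm (S24.tb h) 0x5335e)) := Subgroup.zpowers_le.2 (by
      rw [mem_stabilizer_iff, ← e1, d, mul_smul, mul_smul (b * _ * _), k1 c hc, k1 b hb, k1 a ha])
    have i : ∀ t ∈ (List.range 11).map (tp 5 24 t11), S24.In (Subgroup.zpowers (S24.el t11)) t := fun t ht => by
      obtain ⟨j, -, rfl⟩ := List.mem_map.1 ht
      exact (in11'.of_el (Subgroup.mem_zpowers _)).pow j
    have lt : pm (S24.tb h) 0x5335e < 2 ^ 24 := (SP_tab h).pm_lt _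
    have cd : pc (pm (S24.tb h) 0x5335e) = 11 := by
      rw [← card_toSet lt, ← e1, card_smul_finset]; decide +kernel
    have z : ∀ i ∈ [23, 0], pm (S24.tb h) 0x5335e &&& 2 ^ i = 0 := fun i hi => and_pt_zero (by revert i; decide) (by
      rw [← e1, ← (h2 hh).1 i hi, smul_mem_smul_finset_iff]; revert i; decide +kernel)
    have a1 := orb_split (O := 0x5335e) (by norm_num) k2 (trans_on (b := 1) i (by norm_num) (by decide +kernel))
    have a2 := orb_split (O := 0x7acca0) (by norm_num) k2 (trans_on (b := 5) i (by norm_num) (by decide +kernel))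
    have e2 : h • toSet 0x5335f = insert (pt 0) (toSet (pm (S24.tb h) 0x5335e)) := by
      rw [show toSet 0x5335f = insert (pt 0) (toSet 0x5335e) by decide +kernel, smul_finset_insert, e1, (h2 hh).1 0 (by simp)]
    have e3 : h • toSet 0x5335f ∈ dodecads := smul_dodecad h.2 dodec0_mem
    generalize pm (S24.tb h) 0x5335e = m at *
    have b : m = m &&& 0x5335e ||| m &&& 0x7acca0 ||| m &&& 2 ^ 23 ||| m &&& 2 ^ 0 := by
      simp only [← Nat.and_or_distrib_left]
      exact ((Nat.and_two_pow_sub_one_eq_mod m 24).trans (Nat.mod_eq_of_lt lt)).symm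
    rw [z 23 (by simp), z 0 (by simp)] at b
    refine ⟨e2.trans ?_, (h2 hh).1 0 (by simp)⟩
    rw [e2] at e3
    rcases a1 with a1 | a1 <;> rcases a2 with a2 | a2 <;> rw [a1, a2] at b <;> subst b
    exacts [absurd cd (by decide +kernel), by decide +kernel, absurd e3 (by open H13 in decide +kernel), absurd cd (by decide +kernel)]
  have i : S24.In (stS [0] [0x5335f] []) (nat_lit 0x750b6aa66259c838aa50bb1e16a0c0) := in_stS (by decide +kernel)
  have := (h2 ((Subgroup.eq_of_le_of_card_ge l (by rw [h3, card_stab_dodecad_pt dodec0_mem (by decide +kernel)])).ge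
    ⟨i.el_mem.2.1 _ (by simp), i.el_mem.1 _ (by simp)⟩)).1 23 (by simp)
  exact absurd ((el24_pt i (by norm_num)).symm.trans this) (by decide +kernel)

omit h1 h3 in
theorem E (h : Nat.card H = 7920 ∨ Nat.card H = 2112) : False := by
  obtain ⟨k, hk, e⟩ := exists_cj_le' (K := Subgroup.zpowers (S24.el t11)) (k := 1) (m := 40320) (p := 11) (by norm_num)
    (Subgroup.zpowers_le.2 (in_stS (by decide +kernel)).el_mem) h2 (by rw [Nat.card_zpowers, ord11]; rfl)
    (by rw [show stS [23, 0] [] [] = stabilizer M24 (pt 23) ⊓ stabilizer M24 (pt 0) by ext; simp [mem_stS]]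
        exact card_stab_pt2 (by decide)) (by norm_num) (by rcases h with h | h <;> rw [h] <;> norm_num)
  rw [← H13.card_cj k] at h
  have l := cj_le_of_mem hk h2
  generalize H13.cj k H = L at *
  have m := e (Subgroup.mem_zpowers _)
  obtain ⟨j, a, b⟩ := sylow_cnt (by norm_num) m ord11 (by rcases h with h | h <;> rw [h] <;> norm_num)
  have l' : L ⊓ N11 ≤ N11 ⊓ stS [23] [] [] := le_inf inf_le_right fun g hg => ⟨by simpa using (l hg.1).1 23 (by simp), by simp⟩
  have e1 : Nat.card ↥(L ⊓ N11) ∣ 55 := card_N55 ▸ Subgroup.card_dvd_of_le l'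
  have e2 : 11 ∣ Nat.card ↥(L ⊓ N11) :=
    ord11 ▸ Subgroup.orderOf_dvd_natCard _ ⟨m, Subgroup.le_normalizer (Subgroup.mem_zpowers _)⟩
  have e4 : Nat.card ↥(L ⊓ N11) = 11 ∨ Nat.card ↥(L ⊓ N11) = 55 := by
    have := Nat.le_of_dvd (by norm_num) e1
    generalize Nat.card ↥(L ⊓ N11) = c at *
    interval_cases c <;> simp at e1 e2 ⊢
  change _ = Nat.card ↥(L ⊓ N11) * j at a
  have : Nat.card L = 7920 ∧ Nat.card ↥(L ⊓ N11) = 55 := by
    rcases e4 with c | c <;> rw [c] at a <;> omega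
  exact D ((Subgroup.eq_of_le_of_card_ge l' (by rw [card_N55, this.2])).ge.trans inf_le_left) l this.1

end

/-- The stabiliser of two points in the group of the length-24 code has no subgroups of index 56 or 210. -/
theorem result (p q : Cfsg.GolayPt) (hpq : p ≠ q) (H : Subgroup ↥(MulAction.stabilizer Cfsg.M24 p ⊓ MulAction.stabilizer Cfsg.M24 q)) : H.index ≠ 56 ∧ H.index ≠ 210 := by
  obtain ⟨g, e⟩ : ∃ g : M24, g • (pt 23, pt 0) = (p, q) := H13.ex_pt2 hpq
  obtain ⟨rfl, rfl⟩ := Prod.ext_iff.1 e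
  have l : H13.cj g⁻¹ (H.map (Subgroup.subtype _)) ≤ stS [23, 0] [] [] := fun y hy => by
    have := Subgroup.map_subtype_le H hy
    simpa [mem_stS, mul_smul] using this
  exact ⟨fun c => E l (.inl ((H13.card_cj _ _).trans (card_map_of_index c (by norm_num) (card_stab_pt2 hpq)))),
    fun c => E l (.inr ((H13.card_cj _ _).trans (card_map_of_index c (by norm_num) (card_stab_pt2 hpq))))⟩

end Cfsg.Agent.S1606
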