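import Mathlib
import Cfsg.Statements.S1610
import Cfsg.Agent.H14.Hexa

set_option autoImplicit false
open Cfsg

namespace Cfsg.Agent.S1610

/-- The hexacode has 64 words, minimum weight 4, and weight distribution 0^1 4^45 6^18. -/
theorem result (F : Type*) [Field F] [Fintype F] [DecidableEq F] (hF : Fintype.card F = 4) (ω : F) (hω : ω ^ 2 + ω + 1 = 0) : Nat.card ↥(Cfsg.hexacode F ω) = 64 ∧ (∀ x ∈ Cfsg.hexacode F ω, x ≠ 0 → (Finset.univ.filter fun i => x i ≠ 0).card = 4 ∨ (Finset.univ.filter fun i => x i ≠ 0).card = 6) ∧ {x : Fin 6 → F | x ∈ Cfsg.hexacode F ω ∧ (Finset.univ.filter fun i => x i ≠ 0).card = 4}.ncard = 45 ∧ {x : Fin 6 → F | x ∈ Cfsg.hexacode F ω ∧ (Finset.univ.filter fun i => x i ≠ 0).card = 6}.ncard = 18 := by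
  obtain ⟨e, he⟩ := H14.Hexa.exists_e hF hω
  refine ⟨?_, fun x hx h => ?_, (H14.Hexa.ncard_eq he 4).trans (by decide +kernel), (H14.Hexa.ncard_eq he 6).trans (by decide +kernel)⟩
  · rw [← Nat.card_congr (Equiv.ofBijective (fun a => (⟨_, (H14.Hexa.mem_iff he).2 ⟨a, rfl⟩⟩ : hexacode F ω))
      ⟨fun _ _ c => H14.Hexa.wd_inj (e.injective.comp_left (Subtype.mk.inj c)),
        fun x => ((H14.Hexa.mem_iff he).1 x.2).imp fun _ c => Subtype.ext c.symm⟩), Nat.card_eq_fintype_card]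
    rfl
  · obtain ⟨a, rfl⟩ := (H14.Hexa.mem_iff he).1 hx
    have := ((by decide +kernel : ∀ a, H14.Hexa.wd a = 0 ∨ (Finset.univ.filter fun i => H14.Hexa.wd a i ≠ 0).card = 4 ∨
      (Finset.univ.filter fun i => H14.Hexa.wd a i ≠ 0).card = 6) a).resolve_left fun c => h (by rw [c]; funext i; simp)
    simpa using this

end Cfsg.Agent.S1610
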