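import Mathlib
import Cfsg.Statements.S1611
import Cfsg.Agent.H14.Hexa

set_option autoImplicit false
open Cfsg

namespace Cfsg.Agent.S1611

/-- The monomial automorphism group of the hexacode has order 1080: its diagonal part is the scalars and its permutation parts form the alternating group of degree 6. -/
theorem result (F : Type*) [Field F] [Fintype F] [DecidableEq F] (hF : Fintype.card F = 4) (ω : F) (hω : ω ^ 2 + ω + 1 = 0) : Nat.card {f : Equiv.Perm (Fin 6) × (Fin 6 → Fˣ) // (∀ x ∈ Cfsg.hexacode F ω, Cfsg.monomialMap f.1 f.2 x ∈ Cfsg.hexacode F ω)} = 1080 ∧ (∀ c : Fin 6 → Fˣ, (∀ x ∈ Cfsg.hexacode F ω, Cfsg.monomialMap 1 c x ∈ Cfsg.hexacode F ω) → ∀ i j, c i = c j) ∧ {σ : Equiv.Perm (Fin 6) | ∃ c : Fin 6 → Fˣ, (∀ x ∈ Cfsg.hexacode F ω, Cfsg.monomialMap σ c x ∈ Cfsg.hexacode F ω)} = (alternatingGroup (Fin 6) : Set (Equiv.Perm (Fin 6))) := by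
  obtain ⟨e, he⟩ := H14.Hexa.exists_e hF hω
  refine ⟨(H14.card_MV (0 : Fin 6) (H14.Hexa.diag he)).trans ?_, H14.Hexa.diag he, congrArg SetLike.coe (H14.Hexa.MP_eq he)⟩
  rw [H14.Hexa.MP_eq he, H14.Hexa.card_alt, Nat.card_units, Nat.card_eq_fintype_card, hF]

end Cfsg.Agent.S1611
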