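import Mathlib
import Cfsg.Statements.S1612
import Cfsg.Agent.H29.Primitive

set_option autoImplicit false
open Cfsg

namespace Cfsg.Agent.S1612

/-- In a 3-transposition group (no solvable normal subgroup, perfect derived group), the normaliser of a commuting set of transpositions of maximum size contains a Sylow 2-subgroup and is doubly transitive on the set. -/
theorem result {G : Type*} [Group G] [Finite G] (hsol : ∀ N : Subgroup G, N.Normal → Group.IsSolvable ↥N → N = ⊥) (hperf : ⁅commutator G, commutator G⁆ = commutator G) {D : Set G} (hD : Cfsg.IsThreeTranspositionClass D) {E : Set G} (hE : E ⊆ D) (hc : ∀ a ∈ E, ∀ b ∈ E, Commute a b) (hmax : ∀ E' : Set G, E' ⊆ D → (∀ a ∈ E', ∀ b ∈ E', Commute a b) → E'.ncard ≤ E.ncard) : (∃ P : Sylow 2 G, (P : Subgroup G) ≤ Subgroup.normalizer E) ∧ ∀ a ∈ E, ∀ b ∈ E, ∀ c ∈ E, ∀ d ∈ E, a ≠ b → c ≠ d → ∃ g ∈ Subgroup.normalizer E, g * a * g⁻¹ = c ∧ g * b * g⁻¹ = d := by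
  have hP := H29.prim_of_fischer hsol hperf hD
  have hT := hP.ti
  have key : ∀ (E' : Set G) (P : Subgroup G), E' ⊆ D → E'.ncard = E.ncard → IsPGroup 2 P → E' ⊆ P →
      ∀ x, x ∈ E' ↔ x ∈ D ∧ x ∈ P := by
    intro E' P h1 h2 h3 h4
    have := Set.eq_of_subset_of_ncard_le (s := E') (t := {x | x ∈ D ∧ x ∈ P}) (fun x hx => ⟨h1 hx, h4 hx⟩)
      (h2 ▸ hmax _ (fun _ h => h.1) fun a ha b hb => by
        by_contra h
        have := H29.eq_of_orderOf_of_mem_pGroup Nat.prime_two Nat.prime_three h3 (mul_mem ha.2 hb.2)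
          (H29.tts_orderOf_mul hD.1 ha.1 hb.1 h)
        omega)
    exact fun x => Set.ext_iff.1 this x
  have hE2 := H29.isPGroup_two_closure_of_commute (fun a ha => H29.tts_sq hD.1 (hE ha)) hc
  constructor
  · obtain ⟨P, hP'⟩ := hE2.exists_le_sylow
    have h := key E P hE rfl P.isPGroup' fun x hx => hP' (Subgroup.subset_closure hx)
    refine ⟨P, fun g hg x => ?_⟩
    rw [h, h]
    exact ⟨fun hx => ⟨hT.conj g x hx.1, mul_mem (mul_mem hg hx.2) (inv_mem hg)⟩, fun hx =>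
      ⟨by simpa [mul_assoc] using hT.conj' g hx.1, by
        simpa [mul_assoc] using mul_mem (mul_mem (inv_mem hg) hx.2) hg⟩⟩
  · intro a ha b hb c hc' d hd hab hcd
    obtain ⟨g1, rfl⟩ := H29.class_conj hD (hE ha) (hE hc')
    obtain ⟨g2, hg2, rfl⟩ := hP.conj_of_commute (hE hc') (a := g1 * b * g1⁻¹)
      ⟨hT.conj g1 b (hE hb), fun h => hab ((H29.conj_inj g1).1 h).symm,
        (H29.commute_conj_iff g1).2 (hc a ha b hb)⟩ ⟨hE hd, hcd.symm, hc _ hc' d hd⟩
    have hg2' := H29.conj_eq_of_commute (H29.commute_of_mem_closure_perp (H29.closure_dperp_le D _ hg2))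
    obtain ⟨g, e1, e2⟩ : ∃ g : G, g * a * g⁻¹ = g1 * a * g1⁻¹ ∧ g * b * g⁻¹ = g2 * (g1 * b * g1⁻¹) * g2⁻¹ :=
      ⟨g2 * g1, by rw [← hg2']; group, by group⟩
    rw [← e1] at hc' ⊢
    rw [← e2] at hd ⊢
    let C := Subgroup.centralizer ({g * a * g⁻¹, g * b * g⁻¹} : Set G)
    let E' := (fun x => g * x * g⁻¹) '' E
    have hE' : E' ⊆ D := by rintro _ ⟨x, hx, rfl⟩; exact hT.conj g x (hE hx)
    have hE'c : E'.ncard = E.ncard := Set.ncard_image_of_injective E fun x y h => (H29.conj_inj g).1 h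
    have hE'2 := H29.isPGroup_two_closure_of_commute (fun a ha => H29.tts_sq hD.1 (hE' ha)) (by
      rintro _ ⟨x, hx, rfl⟩ _ ⟨y, hy, rfl⟩; exact (H29.commute_conj_iff g).2 (hc x hx y hy))
    have m1 : ∀ x ∈ E, x ∈ C := by
      rintro x hx _ (rfl | rfl)
      exacts [hc _ hc' x hx, hc _ hd x hx]
    have m2 : ∀ x ∈ E', x ∈ C := by
      rintro _ ⟨x, hx, rfl⟩ _ (rfl | rfl)
      exacts [(H29.commute_conj_iff g).2 (hc _ ha x hx), (H29.commute_conj_iff g).2 (hc _ hb x hx)]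
    obtain ⟨P, hP1⟩ := (hE2.comap_subtype (K := C)).exists_le_sylow
    obtain ⟨Q, hQ1⟩ := (hE'2.comap_subtype (K := C)).exists_le_sylow
    obtain ⟨k, rfl⟩ := MulAction.exists_smul_eq C Q P
    have h1 := key E _ hE rfl ((k • Q).isPGroup'.map C.subtype) fun x hx =>
      ⟨⟨x, m1 x hx⟩, hP1 (Subgroup.subset_closure hx), rfl⟩
    have h2 := key E' _ hE' hE'c (Q.isPGroup'.map C.subtype) fun x hx =>
      ⟨⟨x, m2 x hx⟩, hQ1 (Subgroup.subset_closure hx), rfl⟩
    have h3 : ∀ x ∈ E, (k : G) * g * x * ((k : G) * g)⁻¹ ∈ E := by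
      intro x hx
      obtain ⟨y, hy, e⟩ := ((h2 _).1 ⟨x, hx, rfl⟩).2
      refine (h1 _).2 ⟨hT.conj _ x (hE hx), k * y * k⁻¹, ?_, ?_⟩
      · exact Subgroup.smul_mem_pointwise_smul y (MulAut.conj k) Q hy
      · change (k : G) * y * (k : G)⁻¹ = _
        rw [show (y : G) = g * x * g⁻¹ from e]; group
    refine ⟨k * g, ?_, ?_, ?_⟩
    · exact Subgroup.mem_normalizer_fintype h3
    · have := k.2 (g * a * g⁻¹) (by simp)
      calc _ = (k : G) * (g * a * g⁻¹) * (k : G)⁻¹ := by group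
        _ = _ := by rw [← this]; group
    · have := k.2 (g * b * g⁻¹) (by simp)
      calc _ = (k : G) * (g * b * g⁻¹) * (k : G)⁻¹ := by group
        _ = _ := by rw [← this]; group

end Cfsg.Agent.S1612
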