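import Cfsg.Statements.S1619
import Cfsg.Agent.H15.J2
import Cfsg.Agent.H10.Bridge
-- import your own Cfsg.Agent.* helpers here

set_option autoImplicit false
open Quaternion
open Cfsg

namespace Cfsg.Agent.S1619

/-- The icosian reflection group has order 1209600 with centre {±1}; the Hall–Janko group has order 604800 = 2^7·3^3·5^2·7. -/
theorem result : Nat.card ↥Cfsg.Spor.twoJ2 = 1209600 ∧ Nat.card ↥(Subgroup.center ↥Cfsg.Spor.twoJ2) = 2 ∧ (∃ z ∈ Subgroup.center ↥Cfsg.Spor.twoJ2, ∀ x : ↥Cfsg.Spor.icoLeech, (((z : Equiv.Perm ↥Cfsg.Spor.icoLeech) x : ↥Cfsg.Spor.icoLeech) : Fin 3 → ℍ[ℝ]) = -(x : Fin 3 → ℍ[ℝ])) ∧ Nat.card Cfsg.Spor.J2 = 604800 := by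
  open H15 H15.J2 H15.Ico in
  refine ⟨(Nat.card_congr eqv.toEquiv).trans card_M,
    (Nat.card_congr (H10.centerEquiv eqv).toEquiv).trans cov.card_center, ?_, card_J2⟩
  have c (x : Spor.icoLeech) := comb_mem x x (natCast_mem Spor.icosians 2)
  have e (x : Spor.icoLeech) : (fun t => x.1 t - ((2 : ℕ) : ℍ[ℝ]) * x.1 t) = -x.1 := funext fun t => by
    simp [two_mul]
  let n : Equiv.Perm Spor.icoLeech := Function.Involutive.toPerm (fun x => ⟨-x.1, e x ▸ c x⟩) fun x => by simp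
  have hn (x : Spor.icoLeech) : (n x).1 = -x.1 := rfl
  have o := H15.nthD_prop SM.ok_one (L6 VV hh).ok 0
  have z : (SM.gen lc6 0).1.1 = -1 :=
    (congrArg Units.val ((S VV hh).coe_sub o.2)).trans ((VV.sem_coe h1 hh o.1).trans (by decide +kernel))
  have k := eq_one (f := n * (eqv.symm (SM.gen lc6 0)).1) (Iso.mul_mem (fun x y => by simp [hn, Spor.qip])
    (two_le (Subtype.prop _))) fun x => by
      have a := eqv_spec (eqv.symm (SM.gen lc6 0)) x
      rw [MulEquiv.apply_symm_apply, z, Matrix.neg_mulVec, Matrix.one_mulVec] at a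
      rw [← neg_neg (pi1 x), ← a, Equiv.Perm.mul_apply]
      generalize (eqv.symm (SM.gen lc6 0)).1 x = y
      funext i
      rw [pi1, crd_eq (p := (crd y i.1).sm (-1)) (by simp [hn, E_sm, E_crd]), pr_sm]
      simp [pi1]
  refine ⟨_, (mem_center (SM.gen lc6 0)).2 (Subgroup.mem_center_iff.2 fun y => Subtype.ext (Units.ext ?_)), fun x => ?_⟩
  · simp [z]
  · exact neg_eq_iff_eq_neg.1 (congrArg Subtype.val (Equiv.congr_fun k x))

end Cfsg.Agent.S1619
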