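import Cfsg.Statements.S1621
import Cfsg.Agent.H15.J2B
-- import your own Cfsg.Agent.* helpers here

set_option autoImplicit false
open Quaternion
open Cfsg

namespace Cfsg.Agent.S1621

/-- The icosian Leech lattice has 37800 minimal vectors giving 315 distinct reflections. -/
theorem result : {r : Fin 3 → ℍ[ℝ] | r ∈ Cfsg.Spor.icoLeech ∧ Cfsg.Spor.qip r r = 4}.ncard = 37800 ∧ {f : Equiv.Perm ↥Cfsg.Spor.icoLeech | Cfsg.Spor.IsIcoReflection f}.ncard = 315 := by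
  open H15 H15.J2 in
  refine ⟨?_, ?_⟩
  · rw [← orb.2, ← Set.ncard_image_of_injective _ Subtype.val_injective]
    congr 1; ext r
    exact ⟨fun h => ⟨⟨r, h.1⟩, h.2, rfl⟩, by rintro ⟨x, h, rfl⟩; exact ⟨x.2, h⟩⟩
  · rw [← ncard_mf, ← Set.ncard_image_of_injective _ (Subtype.val_injective.comp eqv.symm.injective)]
    congr 1; ext f
    refine ⟨fun h => ?_, ?_⟩
    · obtain ⟨k, hk, rfl⟩ := conj_rf h
      exact ⟨_, isConj_iff.2 ⟨eqv ⟨k, rf_le hk⟩, rfl⟩, by simp [← eqv_rf]⟩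
    · rintro ⟨_, h, rfl⟩
      obtain ⟨k, rfl⟩ := isConj_iff.1 h
      have h := Ico.two_le (eqv.symm k).2
      obtain ⟨f, hf⟩ := Ico.exists_R ((h _ _).trans (rv_norm 0))
      rw [← (rf_spec 0).conj h hf] at hf
      exact ⟨(eqv.symm k).1 (rv 0), by simpa [← eqv_rf, Ico.IsR] using hf⟩

end Cfsg.Agent.S1621
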