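import Mathlib
import Cfsg.Agent.L.J2U
-- Template for statement S1624 (row 1624; see /opt/grader/pristine/manifest.json for weights).
-- Copy to Cfsg/Agent/S1624.lean and replace the sorry. The statement below is byte-identical to the frozen
-- statement Cfsg.CfsgFrozen.S1624 (Cfsg/Statements/S1624.lean; the theorem Cfsg.j2_subgroup_index_100_psu33);
-- the grader kernel-checks Cfsg.Agent.S1624.result against that frozen type. Keep the theorem IN THIS FILE
-- (a `result` declared elsewhere and merely imported here is not credited); helpers may live anywhere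
-- under Cfsg/Agent/.
import Cfsg.Statements.S1624
-- import your own Cfsg.Agent.* helpers here

set_option autoImplicit false
open Quaternion
open Cfsg

namespace Cfsg.Agent.S1624

/-- The Hall–Janko group contains PSU(3, 3) with index 100 and acts on the 100 cosets with rank 3 and subdegrees 1, 36, 63. -/
theorem result : ∃ H : Subgroup Cfsg.Spor.J2, H.index = 100 ∧ (∃ (F : Type) (_ : Field F) (_ : Fintype F), Fintype.card F = 9 ∧ Nonempty (↥H ≃* Cfsg.PSU 3 F 3)) ∧ ∃ c₁ c₂ : Cfsg.Spor.J2 ⧸ H, (MulAction.orbit ↥H c₁).ncard = 36 ∧ (MulAction.orbit ↥H c₂).ncard = 63 := by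
  have := Fact.mk Nat.prime_three
  have := Fintype.ofFinite (GaloisField 3 2)
  have hF : Fintype.card (GaloisField 3 2) = 9 := by rw [← Nat.card_eq_fintype_card, GaloisField.card 3 2 (by decide)]; rfl
  exact ⟨L.J2P.HU, L.J2P.HU_index, ⟨_, _, _, hF, L.J2P.HU_iso _ hF⟩, L.J2P.HU_orb⟩

end Cfsg.Agent.S1624
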