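import Cfsg.Statements.S1626
import Cfsg.Agent.H15.J3
import Cfsg.Agent.H15.J3Ae
-- import your own Cfsg.Agent.* helpers here

set_option autoImplicit false
open scoped MatrixGroups
open Matrix
open Cfsg

namespace Cfsg.Agent.S1626

open H15 H15.J3 in
theorem tz : ∀ r k, entQ 9 (H13.get 18 (nthD one bc 0) (e9 k)) (e9 r) = if r = k then 2 else 0 := by decide +kernel

open H15 H15.J3 in
theorem tb : (∀ z, entQ 9 (H13.get 18 oa_0.v 0) (e9 z) = if z = 0 then 1 else 0) ∧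
    (∀ z, entQ 9 (H13.get 18 v5_0.v 0) (e9 z) < 4) ∧
    Odd (Finset.univ.filter fun z => entQ 9 (H13.get 18 v5_0.v 0) (e9 z) ≠ 0).card ∧ oa_0.d = 69768 ∧
    v5_0.d = 61560 ∧ ob_0.d = 130815 ∧ 150698880 ≤ oa_0.d * (oa.map VL.d).prod ∧
    150698880 ≤ v5_0.d * ([v5_1, v5_2].map VL.d).prod := by decide +kernel

/-- Orbits of the triple cover of the third Janko group on lines of its 9-space over the field with 4 elements: the line through the first basis vector has exactly 23256 images, and the isotropic lines (nonzero v with Σ v_z³ = 0) form a single orbit. -/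
theorem result (F : Type) [Field F] [Fintype F] (hF : Fintype.card F = 4) (ω : F) (hω : ω ^ 2 + ω + 1 = 0) : {L : Submodule F (Cfsg.Spor.F9 → F) | ∃ g ∈ Cfsg.Spor.threeJ3 F ω, L = F ∙ ((g : Matrix Cfsg.Spor.F9 Cfsg.Spor.F9 F) *ᵥ (Pi.single (0 : Cfsg.Spor.F9) (1 : F) : Cfsg.Spor.F9 → F))}.ncard = 23256 ∧ ∀ v w : Cfsg.Spor.F9 → F, v ≠ 0 → w ≠ 0 → ∑ z, (v z) ^ 3 = 0 → ∑ z, (w z) ^ 3 = 0 → ∃ g ∈ Cfsg.Spor.threeJ3 F ω, ∃ c : F, c ≠ 0 ∧ (g : Matrix Cfsg.Spor.F9 Cfsg.Spor.F9 F) *ᵥ v = c • w := by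
  open H15 H15.J3 MulAction in
  have t := two_eq hF
  have u := fun x : Cfsg.Spor.threeJ3 F ω => unitary e9 t hω ((three_eq t hω).le x.2)
  have z : ∀ c : F, c ≠ 0 → ∃ x : Cfsg.Spor.threeJ3 F ω, ∀ v : Spor.F9 → F, x • v = c • v := by
    have o := H15.nthD_prop (H15.J3.S _ (hh e9 t hω)).ok_one (h0 _ _) 0
    have m : (g _ (hh e9 t hω) 0).1 = ω • 1 := ((VV e9 t hω).sem_coe h1 _ o).trans (by
      ext r k; rw [mat_apply, tz, apply_ite (castQ ω), c0, c2]; simp [one_apply])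
    have y : ∀ v : Spor.F9 → F, (⟨_, (three_eq t hω).ge (mem_mdl _ (i := 0) (by decide))⟩ : Spor.threeJ3 F ω) • v =
        ω • v := fun v => by
      show (g _ (hh e9 t hω) 0).1 *ᵥ v = _
      rw [m, smul_mulVec, one_mulVec]
    intro c hc
    have := FiniteField.pow_card_sub_one_eq_one c hc
    rw [hF] at this
    have : (c - 1) * ((c - ω) * (c - ω * ω)) = 0 := by
      linear_combination this + (-c ^ 2 + ω * c + 1 - ω) * hω
    simp only [mul_eq_zero, sub_eq_zero] at this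
    rcases this with rfl | rfl | rfl
    exacts [⟨1, fun v => by simp⟩, ⟨_, y⟩, ⟨_ * _, fun v => by rw [mul_smul, y, y, smul_smul]⟩]
  have := fin5 _ (hh e9 t hω)
  obtain ⟨t1, t2, t3, t4, t5, t6, t7, t8⟩ := tb
  have a1 := (VV e9 t hω).card_orbit_eq h1 (hh e9 t hω) (L5 _ _).ok oa_c ((card5 _ _).trans_le t7)
  have a2 := (VV e9 t hω).card_orbit_eq h1 (hh e9 t hω) (L5 _ _).ok vc5 ((card5 _ _).trans_le t8)
  have a3 := (VV e9 t hω).le_orbit h1 (hh e9 t hω) (L5 _ _).ok ob_c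
  have e1 : (VV e9 t hω).vec (H13.get 18 oa_0.v 0) = Pi.single 0 1 := funext fun z => by
    rw [Pi.single_apply, ← c1 (ω := ω), ← c0 (ω := ω), ← apply_ite, ← t1]; rfl
  have e2 : ∑ z, (VV e9 t hω).vec (H13.get 18 v5_0.v 0) z ^ 3 = 1 := by
    have : CharP F 2 := CharTwo.of_one_ne_zero_of_two_eq_zero one_ne_zero (by rw [← t]; norm_num)
    rw [← (CharTwo.natCast_eq_ite _).trans (if_neg (Nat.not_even_iff_odd.2 t3)), Finset.card_filter, Nat.cast_sum]
    refine Finset.sum_congr rfl fun z _ => ?_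
    have := t2 z
    show castQ ω (entQ 9 _ (e9 z)) ^ 3 = _
    interval_cases entQ 9 (H13.get 18 v5_0.v 0) (e9 z) <;> simp [c0, c1, c2, c3 t hω]
    · linear_combination (ω - 1) * hω
    · linear_combination (ω - 1) * (ω ^ 3 + 1) * hω
  rw [← three_eq t hω] at a1 a2 a3
  rw [e1, t4] at a1
  rw [t5] at a2
  rw [t6] at a3
  generalize (VV e9 t hω).vec (H13.get 18 v5_0.v 0) = v2 at a2 e2
  generalize (VV e9 t hω).vec (H13.get 18 ob_0.v 0) = v3 at a3
  replace a1 : (orbit (Spor.threeJ3 F ω) (Pi.single 0 1 : Spor.F9 → F)).ncard = 69768 := a1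
  replace a2 : (orbit (Spor.threeJ3 F ω) v2).ncard = 61560 := a2
  replace a3 : 130815 ≤ (orbit (Spor.threeJ3 F ω) v3).ncard := a3
  have a0 : (orbit (Spor.threeJ3 F ω) (0 : Spor.F9 → F)).ncard = 1 := by simp [orbit]
  have dj : ∀ {a b : Spor.F9 → F}, (orbit (Spor.threeJ3 F ω) a).ncard ≠ (orbit (Spor.threeJ3 F ω) b).ncard →
      Disjoint (orbit (Spor.threeJ3 F ω) a) (orbit (Spor.threeJ3 F ω) b) := fun h =>
    (orbit.eq_or_disjoint _ _).resolve_left fun e => h (by rw [e])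
  have N : ∀ {a b : Spor.F9 → F}, a ∈ orbit (Spor.threeJ3 F ω) b → ∑ z, a z ^ 3 = ∑ z, b z ^ 3 := by
    rintro _ b ⟨x, rfl⟩
    have := u x b b
    simp only [← pow_succ'] at this
    exact this
  constructor
  · have := ncard_lines (F := F) (O := orbit (Spor.threeJ3 F ω) (Pi.single 0 1 : Spor.F9 → F)) (Set.toFinite _)
      (fun h => Set.disjoint_left.1 (dj (b := 0) (by omega)) h (mem_orbit_self _)) fun c hc v hv => by
        obtain ⟨x, hx⟩ := z c hc
        exact hx v ▸ mem_orbit_of_mem_orbit _ hv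
    rw [a1, Nat.card_eq_fintype_card, hF] at this
    refine Eq.trans (congrArg _ (Set.ext fun L => ?_)) (Nat.eq_of_mul_eq_mul_right (by decide) this)
    exact ⟨fun ⟨x, hx, e⟩ => ⟨_, ⟨⟨x, hx⟩, rfl⟩, e.symm⟩, fun ⟨_, ⟨x, rfl⟩, e⟩ => ⟨x, x.2, e.symm⟩⟩
  · have U : orbit (Spor.threeJ3 F ω) (0 : Spor.F9 → F) ∪ orbit (Spor.threeJ3 F ω) (Pi.single 0 1) ∪ orbit (Spor.threeJ3 F ω) v2 ∪
        orbit (Spor.threeJ3 F ω) v3 = Set.univ := by
      refine Set.eq_of_subset_of_ncard_le (Set.subset_univ _) ?_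
      rw [Set.ncard_union_eq (by simp only [Set.disjoint_union_left]; refine ⟨⟨dj ?_, dj ?_⟩, dj ?_⟩ <;> omega),
        Set.ncard_union_eq (by simp only [Set.disjoint_union_left]; refine ⟨dj ?_, dj ?_⟩ <;> omega),
        Set.ncard_union_eq (dj (by omega)), Set.ncard_univ, Nat.card_eq_fintype_card, Fintype.card_fun, hF, a0, a1, a2]
      simp; omega
    have key : ∀ v : Spor.F9 → F, v ≠ 0 → ∑ z, v z ^ 3 = 0 → v ∈ orbit (Spor.threeJ3 F ω) v3 := fun v h0 hv => by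
      rcases U.ge (Set.mem_univ v) with ((h | h) | h) | h
      · exact absurd (by simpa [orbit] using h) h0
      · simpa [hv, Pi.single_apply] using N h
      · exact absurd (hv.symm.trans ((N h).trans e2)) zero_ne_one
      · exact h
    intro v w v0 w0 hv hw
    obtain ⟨x, hx⟩ := (orbit_eq_iff.2 (key v v0 hv)).ge (key w w0 hw)
    exact ⟨x, x.2, 1, one_ne_zero, by rw [one_smul]; exact hx⟩

end Cfsg.Agent.S1626
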