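import Mathlib
import Cfsg.Statements.S1635
import Cfsg.Agent.H14.Sextet

set_option autoImplicit false
open Cfsg

namespace Cfsg.Agent.S1635

open H14 in
theorem sub_mem_iff (w v : GolayPt → ZMod 2) :
    w - v ∈ golayCode ↔ symmDiff (support₂ w) (support₂ v) ∈ Code := by
  rw [mem_Code_iff_ind, ind_symmDiff, ind_support, ind_support]
  have : w - v = w + v := by
    ext p; exact CharTwo.sub_eq_add _ _
  rw [this]

open H14 in
theorem ncard_eq (w : GolayPt → ZMod 2) :
    {v : GolayPt → ZMod 2 | hammingNorm v ≤ 4 ∧ w - v ∈ golayCode}.ncard =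
      {u : Finset GolayPt | u.card ≤ 4 ∧ symmDiff (support₂ w) u ∈ Code}.ncard := by
  rw [← Set.ncard_image_of_injective _ (f := ind) (fun a b h => ind_inj h)]
  congr 1; ext v
  simp only [Set.mem_ofPred_eq, Set.mem_image, sub_mem_iff, hammingNorm_eq_card]
  exact ⟨fun h => ⟨_, h, ind_support v⟩, by rintro ⟨u, h, rfl⟩; rwa [support_ind]⟩

/-- Coset leaders of the length-24 code: a coset contains a unique word of weight ≤ 3, or else exactly six words of weight 4 and none lighter. -/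
theorem result (w : Cfsg.GolayPt → ZMod 2) : ({v : Cfsg.GolayPt → ZMod 2 | hammingNorm v ≤ 4 ∧ w - v ∈ Cfsg.golayCode}.ncard = 1 ∧ ∃ v : Cfsg.GolayPt → ZMod 2, hammingNorm v ≤ 3 ∧ w - v ∈ Cfsg.golayCode) ∨ ({v : Cfsg.GolayPt → ZMod 2 | hammingNorm v ≤ 4 ∧ w - v ∈ Cfsg.golayCode}.ncard = 6 ∧ ∀ v : Cfsg.GolayPt → ZMod 2, w - v ∈ Cfsg.golayCode → hammingNorm v ≤ 4 → hammingNorm v = 4) := by
  obtain ⟨u, hu, hC⟩ := H14.exists_leader none (support₂ w)
  have key : ∀ u', symmDiff (support₂ w) u' ∈ H14.Code → u.card + u'.card < 8 → u = u' := by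
    intro u' h' hlt
    have := H14.card_symmDiff_add u u'
    exact H14.Code_eq_of_symmDiff_lt (H14.symmDiff_trans_mem hC h') (by omega)
  rw [ncard_eq]
  rcases hu with hu | ⟨hu, -⟩
  · left
    refine ⟨Set.ncard_eq_one.2 ⟨u, ?_⟩, H14.ind u, by rwa [H14.hammingNorm_ind],
      by rwa [sub_mem_iff, H14.support_ind]⟩
    ext u'
    exact ⟨fun h => (key u' h.2 (by have := h.1; omega)).symm, by rintro rfl; exact ⟨by omega, hC⟩⟩
  · right
    have k4 : ∀ u', symmDiff (support₂ w) u' ∈ H14.Code → u'.card ≤ 4 → u'.card = 4 := by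
      intro u' h' h4
      by_contra hne
      have := key u' h' (by omega)
      rw [← this] at hne; exact hne hu
    refine ⟨?_, fun v hv h4 => ?_⟩
    · rw [← H14.card_sextetOf hu, ← Set.ncard_coe_finset]
      congr 1; ext u'
      simp only [Set.mem_ofPred_eq, Finset.mem_coe, H14.mem_sextetOf]
      constructor
      · rintro ⟨h1, h2⟩; exact ⟨k4 u' h2 h1, H14.symmDiff_trans_mem hC h2⟩
      · rintro ⟨h1, h2⟩
        exact ⟨h1.le, H14.symmDiff_trans_mem (by rwa [symmDiff_comm]) h2⟩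
    · rw [H14.hammingNorm_eq_card] at *
      exact k4 _ ((sub_mem_iff _ _).1 hv) h4

end Cfsg.Agent.S1635
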