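import Mathlib
import Cfsg.Statements.S1637
import Cfsg.Agent.H14.Punct

set_option autoImplicit false
open Cfsg

namespace Cfsg.Agent.S1637

/-- The punctured length-23 code is a perfect 3-error-correcting code: each word of length 23 is within distance 3 of exactly one codeword. -/
theorem result (u : ZMod 23 → ZMod 2) : ∃! c : ZMod 23 → ZMod 2, c ∈ {u : ZMod 23 → ZMod 2 | ∃ w ∈ Cfsg.golayCode, ∀ x : ZMod 23, u x = w (some x)} ∧ hammingDist u c ≤ 3 := by
  let w : Finset GolayPt := support₂ fun p => p.elim 0 u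
  have hw : H14.res w = u := by ext x; simp [H14.res, w]
  obtain ⟨l, hl, hC⟩ := H14.exists_leader none w
  refine ⟨H14.res (symmDiff w l), ⟨(H14.mem_punct_iff _).2 ⟨_, hC, rfl⟩, ?_⟩, ?_⟩
  · rw [← hw, H14.hammingDist_res, symmDiff_symmDiff_cancel_left]
    rcases hl with hl | hl
    · exact (Finset.card_erase_le).trans hl
    · rw [Finset.card_erase_of_mem hl.2, hl.1]
  · rintro c ⟨hc, hd⟩
    obtain ⟨s, hs, rfl⟩ := (H14.mem_punct_iff c).1 hc
    have h3 : hammingDist u (H14.res (symmDiff w l)) ≤ 3 := by
      rw [← hw, H14.hammingDist_res, symmDiff_symmDiff_cancel_left]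
      rcases hl with hl | hl
      · exact (Finset.card_erase_le).trans hl
      · rw [Finset.card_erase_of_mem hl.2, hl.1]
    have := hammingDist_triangle_left (H14.res s) (H14.res (symmDiff w l)) u
    rw [H14.hammingDist_res] at this
    rw [H14.eq_of_erase_lt hs hC (by omega)]

end Cfsg.Agent.S1637
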