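import Mathlib
import Cfsg.Statements.S1641
import Cfsg.Agent.H14.Conf

set_option autoImplicit false
open Cfsg

namespace Cfsg.Agent.S1641

/-- The third Conway group acts on the 11178 cosets of the Higman–Sims group with rank 5 and subdegrees 1, 352, 1100, 4125, 5600. -/
theorem result (u x : ↥Cfsg.leechLattice) (hu : Cfsg.sqNorm (u : Cfsg.GolayPt → ℤ) = 48) (hx : x ∈ {x : ↥Cfsg.leechLattice | Cfsg.sqNorm (x : Cfsg.GolayPt → ℤ) = 32 ∧ Cfsg.dotInt (u : Cfsg.GolayPt → ℤ) (x : Cfsg.GolayPt → ℤ) = -16}) : ∃ y₁ ∈ {x : ↥Cfsg.leechLattice | Cfsg.sqNorm (x : Cfsg.GolayPt → ℤ) = 32 ∧ Cfsg.dotInt (u : Cfsg.GolayPt → ℤ) (x : Cfsg.GolayPt → ℤ) = -16}, ∃ y₂ ∈ {x : ↥Cfsg.leechLattice | Cfsg.sqNorm (x : Cfsg.GolayPt → ℤ) = 32 ∧ Cfsg.dotInt (u : Cfsg.GolayPt → ℤ) (x : Cfsg.GolayPt → ℤ) = -16}, ∃ y₃ ∈ {x : ↥Cfsg.leechLattice | Cfsg.sqNorm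 (x : Cfsg.GolayPt → ℤ) = 32 ∧ Cfsg.dotInt (u : Cfsg.GolayPt → ℤ) (x : Cfsg.GolayPt → ℤ) = -16}, ∃ y₄ ∈ {x : ↥Cfsg.leechLattice | Cfsg.sqNorm (x : Cfsg.GolayPt → ℤ) = 32 ∧ Cfsg.dotInt (u : Cfsg.GolayPt → ℤ) (x : Cfsg.GolayPt → ℤ) = -16}, (MulAction.orbit ↥(MulAction.stabilizer ↥Cfsg.Co0 u ⊓ MulAction.stabilizer ↥Cfsg.Co0 x) y₁).ncard = 352 ∧ (MulAction.orbit ↥(MulAction.stabilizer ↥Cfsg.Co0 u ⊓ MulAction.stabilizer ↥Cfsg.Co0 x) y₂).ncard = 1100 ∧ (MulAction.orbit ↥(MulAction.stabilizer ↥Cfsg.Co0 u ⊓ MulAction.stabilizer ↥Cfsg.Co0 x) y₃).ncard = 4125 ∧ (MulAction.orbit ↥(MulAction.stabilizer ↥Cfsg.Co0 u ⊓ MulAction.stabilizer ↥Cfsg.Co0 x) y₄).ncard = 5600 ∧ {x : ↥Cfsg.leechLattice | Cfsg.sqNorm (x : Cfsg.GolayPt → ℤ) = 32 ∧ Cfsg.dotInt (u : Cfsg.GolayPt → ℤ) (x : Cfsg.GolayPt → ℤ) = -16} = {x} ∪ MulAction.orbit ↥(MulAction.stabilizer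 ↥Cfsg.Co0 u ⊓ MulAction.stabilizer ↥Cfsg.Co0 x) y₁ ∪ MulAction.orbit ↥(MulAction.stabilizer ↥Cfsg.Co0 u ⊓ MulAction.stabilizer ↥Cfsg.Co0 x) y₂ ∪ MulAction.orbit ↥(MulAction.stabilizer ↥Cfsg.Co0 u ⊓ MulAction.stabilizer ↥Cfsg.Co0 x) y₃ ∪ MulAction.orbit ↥(MulAction.stabilizer ↥Cfsg.Co0 u ⊓ MulAction.stabilizer ↥Cfsg.Co0 x) y₄ := by
  obtain ⟨g, e1, e3, h⟩ := H14.conf11178' hu hx
  have hK : ∀ k, k ∈ MulAction.stabilizer Cfsg.Co0 u ⊓ MulAction.stabilizer Cfsg.Co0 x ↔ g * k * g⁻¹ ∈ H14.GH := fun k => by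
    simp only [Subgroup.mem_inf, H14.mem_stab_of_smul e1, H14.mem_stab_of_smul e3]
  have key := fun j hj => H14.exists_orbit_card hK inf_le_right (fun g hg => H14.inv11178 g hg.1) H14.orb11178.2.2
    (H14.cnt11178 j hj)
  obtain ⟨y1, a1, b1, c1⟩ := key 4 (by norm_num) (by decide)
  obtain ⟨y2, a2, b2, c2⟩ := key 1 (by norm_num) (by decide)
  obtain ⟨y3, a3, b3, c3⟩ := key 3 (by norm_num) (by decide)
  obtain ⟨y4, a4, b4, c4⟩ := key 2 (by norm_num) (by decide)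
  refine ⟨y1, (h _).2 a1, y2, (h _).2 a2, y3, (h _).2 a3, y4, (h _).2 a4, b1, b2, b3, b4, ?_⟩
  ext z
  simp only [Set.mem_union, Set.mem_singleton_iff, c1, c2, c3, c4]
  refine (h z).trans ⟨fun hz => ?_, ?_⟩
  · have h1 := H14.orb11178.2.1 _ hz
    simp only [List.mem_cons, List.not_mem_nil, or_false] at h1
    rcases h1 with a | a | a | a | a
    · refine Or.inl (Or.inl (Or.inl (Or.inl ?_)))
      rw [← H14.dot_of_smul e3] at a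
      exact H14.eq_of_dot_eq_norm (((h z).2 hz).1.trans hx.1.symm) (a.trans hx.1.symm)
    · exact Or.inl (Or.inl (Or.inr ⟨hz, a⟩))
    · exact Or.inr ⟨hz, a⟩
    · exact Or.inl (Or.inr ⟨hz, a⟩)
    · exact Or.inl (Or.inl (Or.inl (Or.inr ⟨hz, a⟩)))
  · rintro ((((rfl | a) | a) | a) | a)
    exacts [(h _).1 hx, a.1, a.1, a.1, a.1]

end Cfsg.Agent.S1641
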