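import Mathlib
import Cfsg.Statements.S1642
import Cfsg.Agent.H14.Conf

set_option autoImplicit false
open Cfsg

namespace Cfsg.Agent.S1642

/-- Some involution of the Higman–Sims group acts without fixed points on its 100 points. -/
theorem result (v w : ↥Cfsg.leechLattice) (hv : Cfsg.sqNorm (v : Cfsg.GolayPt → ℤ) = 48) (hw : Cfsg.sqNorm (w : Cfsg.GolayPt → ℤ) = 48) (hvw : Cfsg.dotInt (v : Cfsg.GolayPt → ℤ) (w : Cfsg.GolayPt → ℤ) = -32) : ∃ g : ↥Cfsg.Co0, g • v = v ∧ g • w = w ∧ orderOf g = 2 ∧ ∀ x ∈ {x : ↥Cfsg.leechLattice | Cfsg.sqNorm (x : Cfsg.GolayPt → ℤ) = 32 ∧ Cfsg.dotInt (v : Cfsg.GolayPt → ℤ) (x : Cfsg.GolayPt → ℤ) = 24 ∧ Cfsg.dotInt (w : Cfsg.GolayPt → ℤ) (x : Cfsg.GolayPt → ℤ) = -24}, g • x ≠ x := by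
  obtain ⟨g, e1, e2, h⟩ := H14.conf100 hv hw hvw
  obtain ⟨k, hk, ho, hf⟩ := H14.fpf100
  refine ⟨g⁻¹ * k * g, H14.conj_smul_eq (by rw [e1, hk.1]), H14.conj_smul_eq (by rw [e2, H14.GH_fix hk]), ?_,
    fun x hx e => hf _ ((h x).1 hx) ?_⟩
  · rw [← ho]; simpa using (MulAut.conj g⁻¹).orderOf_eq k
  · rwa [mul_smul, mul_smul, inv_smul_eq_iff] at e

end Cfsg.Agent.S1642
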