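import Mathlib
import Cfsg.Statements.S1643
import Cfsg.Agent.H14.N11

set_option autoImplicit false
open scoped Pointwise
open Cfsg

namespace Cfsg.Agent.S1643

open H14 PK PK.TS Finset MulAction
open scoped Pointwise

def tI : ℕ := nat_lit 0x5883388a1c8f5140b46cd317aed7

def hCh : Ch := [(0, [nat_lit 0xbdab49ca307b9ac5a928398a418820, nat_lit 0xb82d5a4e5183dcd62d4941cc520c41, nat_lit 0x5883388a1c8f5140b46cd317aed7, nat_lit 0xb8416ad2728c1ee6b16a4a0e629062, nat_lit 0x5c2c419c450e47a8a05a36698bd76, nat_lit 0x4ca3c1b1b31c3a966fba0921512b, nat_lit 0xb8820b56939460f7358b5250731483, nat_lit 0xb88159c5ed5a4e5186d4941cc520c4, nat_lit 0xb5c0b395a348a26a05e49b24883955, nat_lit 0x2c2651e0d8d98e1d4b37dd0490a89, nat_lit 0x88eb445d2035e4b1a90ba4b31d54c, nat_lit 0x5d0490a89584ca3c1b1b31c3a966f, nat_lit 0x4f1716f249a161cd025a9acabc94, nat_lit 0xb9040ace2f6ad2728c36a4a0e62906, nat_lit 0xb56e059cad1a4513502f24d92441ca, nat_lit 0xb8c36a4a0e62906208159c5ed5a4e5,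 nat_lit 0x2eec31067115a97d82872a5585271, nat_lit 0xb90137ace3b49ca30ab16a4a1a4188, nat_lit 0xb54076a6347ce5055d65188c12310e, nat_lit 0x5d40344857a11d3b052f616068a8ed, nat_lit 0xadc16728669116c888e8785b049693, nat_lit 0x5d80f9428a9d5282de2e6846c11887, nat_lit 0x584ca39235d42534d4f3de0869232, nat_lit 0xdd2598eaa608eb445d2035e4b1a90]),
  (1, [nat_lit 0xbdab49ca307b9ac5a928398a418820, nat_lit 0xbd6717b56939461b52507314831040, nat_lit 0xb2ce568d2289a817926c9220e556e0, nat_lit 0xbcdeb38ed2728c2ac5a92869062080, nat_lit 0xb1da98d1f394157594623048c43aa0, nat_lit 0x5be50a2a754a0b78b9a11b04621ec0, nat_lit 0x4d1d3bd89591de113506628b088d60, nat_lit 0xbbcf671aad2d1849ac7250a290c100, nat_lit 0xb362f92963311153a69385ca20b1c0, nat_lit 0x5a0547592c844f51cae4985e5329a0, nat_lit 0xab8725c4ef6a697b28c46090181660, nat_lit 0x5ca934962d188967c15545dc1618e0, nat_lit 0x4bae493c486162ba4ed5385a654060, nat_lit 0xa09857c50322a6b942e1b1aa76b920, nat_lit 0x994cdb2dc71ca37ad188092024a9e0,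 nat_lit 0x23e085a5a363841add473466595a80, nat_lit 0xb9dd52b263544287d8cda117212600, nat_lit 0xb464b320f48142e6bd4325533b8980, nat_lit 0x589c981c779bccd452cc8d64409540, nat_lit 0xa8d676d2c66221374a2f4dd44104a0, nat_lit 0x5d131191ea4398794cad15a15b84c0, nat_lit 0x78cad9c134555cb88887658d70a240, nat_lit 0x6c1145bcd250d363942cbb85599220]),
  (2, [nat_lit 0xbdab49ca307b9ac5a928398a418820, nat_lit 0x5a46f43245142e6a448a71e6db5420, nat_lit 0xa12c251993a95677c9b18391748c20, nat_lit 0x7b53589cc81ce8e132f22c14b25820, nat_lit 0x15c83938eab21f0a996c996346a420, nat_lit 0xaadb6641d14a84519e8644e4fb9020, nat_lit 0x1d2e931612246b3b39e7521825b420, nat_lit 0xb3d643ccac6c8684c04e8a8d5a5c20, nat_lit 0x48a8d72266bb2ca216b0944e37ac20, nat_lit 0x255f782907599316cc65649d615020, nat_lit 0x68c4b2c54ea1c92ba2d333209abc20])]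

theorem hIn : ∀ t ∈ [t23, t11, tI], S24.In ⊤ t := in24L (by decide +kernel)

theorem h_full : S24.Full (S24.cl [t23, t11, tI]) hCh := full_of_ss (pr := [[2, 0, 2], [0, 0, 2, 2, 2]])
  (sl := [([nat_lit 0xb82d5a4e5183dcd62d4941cc520c41, nat_lit 0x5883388a1c8f5140b46cd317aed7], nat_lit 0xb0000000c0002000c0003000b0002000b0004000a00030009000200080001000700000007000300060002000600040005000300040000000400040004000300030002000200000002000400020001000100000001000100000000ffffffff),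
  ([nat_lit 0xbd6717b56939461b52507314831040, nat_lit 0xb2ce568d2289a817926c9220e556e0], nat_lit 0x7000100090001000b0001000a0000000a00020009000100080000000800020007000100070002000700020006000100050000000500020004000100030000000300020002000100020001000100000001000100000000ffffffff),
  ([nat_lit 0x5a46f43245142e6a448a71e6db5420], nat_lit 0xffffffff)]) hIn (by decide +kernel)

/-- the Borel subgroup -/
noncomputable abbrev B : Subgroup M24 := S24.cl [t23, t11]

theorem m23 : S24.el t23 ∈ B := (in23'.cl (by simp)).el_mem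

theorem m11 : S24.el t11 ∈ B := (in11'.cl (by simp)).el_mem

theorem B_eq : B = N23 := cl_eq (pr := [[], [2, 2], [3, 0], [4, 0], [5, 0], [6, 0], [7, 0], [8, 0], [9, 0], [10, 0], [10, 10], [11, 0], [13, 1], [14, 1], [14, 1], [16, 2], [16, 2], [18, 3], [19, 3], [19, 3], [21, 4], [22, 4], [22, 4], [23, 4], [25, 5], [26, 5], [26, 5], [27, 5], [29, 4], [29, 4], [30, 4]]) (ch := [(0, [nat_lit 0xbdab49ca307b9ac5a928398a418820, nat_lit 0xb82d5a4e5183dcd62d4941cc520c41, nat_lit 0xb8416ad2728c1ee6b16a4a0e629062, nat_lit 0xb8820b56939460f7358b5250731483, nat_lit 0xb88159c5ed5a4e5186d4941cc520c4, nat_lit 0xb9040ace2f6ad2728c36a4a0e62906, nat_lit 0xb8c36a4a0e62906208159c5ed5a4e5, nat_lit 0xb90137ace3b49ca30ab16a4a1a4188, nat_lit 0xb9461b52507314831040ace2f6ad27, nat_lit 0xba0809bd671da4e518558b5250d20c, nat_lit 0xb98558b5250d20c410137ace3b49ca, nat_lit 0xb94348310404deb38ed2728c2ac5a9, nat_lit 0xba00f3d9c6ab4b46126b1c9428a430, nat_lit 0xba8c2ac5a928690620809bd671da4e,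 nat_lit 0xba4a1a41882026f59c76939461562d, nat_lit 0xb9c76939461562d494348310404deb, nat_lit 0xbb09358e4a145218200f3d9c6ab4b4, nat_lit 0xba8514860803cf671aad2d1849ac72, nat_lit 0xba430401e7b38d56968c24d6392851, nat_lit 0xbace3b49ca30ab16a4a1a41882026f, nat_lit 0xbb8d56968c24d63928514860803cf6, nat_lit 0xbb4b46126b1c9428a430401e7b38d5, nat_lit 0xbac7250a290c10079ece355a5a3093]),
  (1, [nat_lit 0xbdab49ca307b9ac5a928398a418820, nat_lit 0xbd6717b56939461b52507314831040, nat_lit 0xbcdeb38ed2728c2ac5a92869062080, nat_lit 0xbbcf671aad2d1849ac7250a290c100, nat_lit 0xb9dd52b263544287d8cda117212600, nat_lit 0xbb8b3505e6a2c503d5838a2cd24920, nat_lit 0xb954fa08ec8d88974c265c2a343640, nat_lit 0xbaa87891c15d5122bc4cb266680da0, nat_lit 0xbd22e5a0a2b4e0d51c81ac9ec49860, nat_lit 0xbc565b4144abd23a39029b4e1930c0, nat_lit 0xbaecaaa68899e468960478dc268580])]) card_N23 (fun t ht => In.of_siftC n23_full.mem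
  (in24L (by decide +kernel) t ht) (H13.allL_iff.1 (by decide +kernel : H13.allL (siftC 5 24 n23Ch) [t23, t11] = true) t ht))
  (by decide +kernel)

theorem card_B : Nat.card B = 253 := B_eq ▸ card_N23

theorem c23 : Nat.card (stS [23] [] []) = 10200960 := stS_pt 23 ▸ card_stab_pt _

theorem B_le : B ≤ stS [23] [] [] := cl_le (in_stSL (by decide +kernel))

theorem ovr {L : Subgroup M24} (h1 : B ≤ L) (h2 : L ≤ stS [23] [] []) : L = B ∨ L = stS [23] [] [] := by
  have d : Nat.card L ∣ 10200960 := c23 ▸ Subgroup.card_dvd_of_le h2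
  obtain ⟨k, a, b⟩ := sylow_cnt (by norm_num) (h1 m23) ord23 fun c => absurd (c.trans d) (by norm_num)
  obtain ⟨l, a', b'⟩ := sylow_cnt (by norm_num) (h1 m11) ord11 fun c => absurd (c.trans d) (by norm_num)
  rw [inf_eq_right.2 (B_eq ▸ h1 :), card_N23] at a
  have e1 : Nat.card ↥(L ⊓ N11) ∣ 55 := card_N55 ▸ Subgroup.card_dvd_of_le (le_inf inf_le_right (inf_le_left.trans h2))
  have e2 : 11 ∣ Nat.card ↥(L ⊓ N11) := ord11 ▸ Subgroup.orderOf_dvd_natCard _ ⟨h1 m11, Subgroup.le_normalizer (Subgroup.mem_zpowers _)⟩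
  have e3 : k ∣ 40320 := Nat.dvd_of_mul_dvd_mul_left (k := 253) (by norm_num) (a ▸ d)
  have e4 : Nat.card ↥(L ⊓ N11) = 11 ∨ Nat.card ↥(L ⊓ N11) = 55 := by
    have := Nat.le_of_dvd (by norm_num) e1
    generalize Nat.card ↥(L ⊓ N11) = c at *
    interval_cases c <;> simp at e1 e2 ⊢
  have e5 : k = 1 ∨ k = 40320 := by
    by_cases c : k < 40320
    · have := (all2_iff 192 210 fun k => bor (Nat.beq k 1) (bor (bn (Nat.beq (40320 % k) 0)) (bor (bn (Nat.beq (k % 23) 1))
        (band (bn (Nat.beq (k % 11) 1)) (bn (Nat.beq (k % 11) 5)))))).1 (by decide +kernel) k c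
      simp only [bor_iff, band_iff, bn_iff, Nat.beq_eq, Nat.mod_eq_zero_of_dvd e3, b, not_true, false_or] at this
      change _ = Nat.card ↥(L ⊓ N11) * l at a'
      rcases e4 with e | e <;> rw [e] at a' <;> omega
    · exact .inr (le_antisymm (Nat.le_of_dvd (by norm_num) e3) (not_lt.1 c))
  rcases e5 with rfl | rfl
  · exact .inl (Subgroup.eq_of_le_of_card_ge h1 (by rw [a, card_B])).symm
  · exact .inr (Subgroup.eq_of_le_of_card_ge h2 (by rw [a, c23]))

theorem co23 : IsCoatom (B.subgroupOf (stS [23] [] [])) := by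
  refine ⟨fun c => absurd (Subgroup.card_le_of_le (Subgroup.subgroupOf_eq_top.1 c)) (by rw [c23, card_B]; norm_num), fun L h => ?_⟩
  rcases ovr (L := L.map (stS [23] [] []).subtype) (fun x hx => ⟨⟨x, B_le hx⟩, h.le hx, rfl⟩) (Subgroup.map_subtype_le _) with c | c
  · exact absurd (c ▸ Subgroup.comap_map_eq_self_of_injective (Subgroup.subtype_injective _) L) h.ne
  · exact Subgroup.map_injective (Subgroup.subtype_injective _) (c.trans (Subgroup.range_subtype _).symm |>.trans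
      (MonoidHom.range_eq_map _))

theorem co24 : IsCoatom (S24.cl [t23, t11, tI]) := by
  have c6 : Nat.card (S24.cl [t23, t11, tI]) = 6072 := h_full.card.trans (by decide +kernel)
  refine ⟨fun c => by rw [c, Subgroup.card_top, card_M24] at c6; norm_num at c6, fun K h => ?_⟩
  have i : ∀ t ∈ [t23, t11, tI], S24.In K t := fun t ht => ((hIn t ht).cl ht).mono h.le
  rcases ovr (L := K ⊓ stS [23] [] []) (le_inf (cl_le fun t ht => i t (by simp at ht ⊢; tauto)) B_le) inf_le_right with c | c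
  · have := card_mul_le (T := K) (E := stS [23] [] []) le_top le_top
    rw [c, card_B, c23, Subgroup.card_top, card_M24] at this
    exact absurd (Subgroup.eq_of_le_of_card_ge h.le (by omega)) h.ne
  · refine Subgroup.eq_top_of_le_card _ (card_M24 ▸ le_card_cl (S := S24) (Ls := [nat_lit 0xbb26d8212ab56217d160188ce91487, nat_lit 0xbc6455505508d33b20903316e69c0f] ++ [tI]) (pr := [[], [3, 1, 3], [3, 3, 3], [1, 1, 1, 0, 1], [1, 0, 0, 0], [1, 1, 2, 1, 2], [1, 1, 1, 0], [2, 1, 1, 1, 2], [2, 3, 2, 2, 3], [2, 0, 1, 0], [3, 1, 3, 3], [3, 1], [0, 0], [3, 5], [3, 6], [5, 4], [8, 2], [6, 3], [8, 3], [11, 3], [10, 4], [10, 5], [11, 5], [15, 4], [14, 5], [17, 4], [19, 19], [19, 20], [19, 21], [22, 20], [21, 21], [24, 4], [23, 5], [26, 5], [25, 6], [28, 6], [27, 7], [30, 7], [29, 8], [30, 7], [31, 5], [32, 4], [35, 2], [38, 38], [38, 39], [40, 39], [40, 40], [42, 3], [42, 4], [44, 4], [44, 5], [46, 5], [46, 6], [48, 6], [48, 7], [49, 6], [51, 6],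 [51, 7], [52, 6], [53, 6], [55, 4], [58, 58], [58, 59], [60, 59], [60, 60], [62, 3], [62, 4], [63, 4], [65, 4], [65, 5], [66, 5], [67, 5], [69, 5], [69, 6], [71, 6], [71, 7], [72, 7], [74, 7], [75, 2], [75, 1], [78, 78], [78, 79], [80, 1], [80, 2], [82, 2], [83, 2], [83, 3], [85, 3], [85, 4], [87, 4], [87, 5], [88, 5], [90, 5], [90, 5], [91, 5], [92, 4], [94, 4], [95, 3], [95, 4], [96, 4], [98, 0], [101, 101], [103, 102], [105, 103], [104, 105], [106, 106], [106, 4], [107, 4], [109, 5], [111, 6], [110, 6], [112, 7], [112, 6], [113, 6], [115, 7], [117, 8], [116, 8], [119, 9], [120, 9], [119, 9], [121, 10]])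
      (ch := [(0, [nat_lit 0xbdab49ca307b9ac5a928398a418820, nat_lit 0xbb26d8212ab56217d160188ce91487, nat_lit 0xbc6455505508d33b20903316e69c0f, nat_lit 0x5883388a1c8f5140b46cd317aed7, nat_lit 0xb86115017464d24b35e791455419c3, nat_lit 0xbcd49ac0888c840096cf69d83a2dc6, nat_lit 0x54c7550b00b0961a0577ae727262d, nat_lit 0xba506a34b324970601ca105f588cf6, nat_lit 0xb8a8b414f20348a8c1d564ec3499e1, nat_lit 0xb9149a1ded0c16e646c3418b300ab2, nat_lit 0xbc28b9a9c04a0a72199688c326bea2, nat_lit 0xba904955d0150ef02e2149a6d2d86c, nat_lit 0x1a0562a3423977b24233b6af40a53, nat_lit 0x3cc43a34ca205cc900b7b3e08aad31, nat_lit 0x7c9864157504dd16c0f70d95419049, nat_lit 0xb95af018683c5d44aab30c19258ac4, nat_lit 0xbba8b68ed1229f50a592008d039668, nat_lit 0xbb90429829056c398a2d8316a79e54, nat_lit 0x460543467b2852a902fa4d26bad8e, nat_lit 0xba9af852a7580c37082c4c8888da65, nat_lit 0x2902342572d12d8cea123ece38d8b, nat_lit 0x42917324a5a1a3b88962ccc7485f5, nat_lit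 0x389460d12d755f762c921c67601510, nat_lit 0x7b2ab9a04570ed78900d3264181e8a]),
  (1, [nat_lit 0xbdab49ca307b9ac5a928398a418820, nat_lit 0x6c6d75b248751e64c2672284508ea0, nat_lit 0x7ca2d49987a5dca9a1642c062a86c0, nat_lit 0x718f7121724d9ea1d2136d591090a0, nat_lit 0x7324f9a8c4bb69059d2512023b5620, nat_lit 0x7acce1a913b5d358484d8d08c284e0, nat_lit 0xa288d19d2c9c5d00dd0b7d8d2a9440, nat_lit 0xa198e5c1456bee84926219ea18da40, nat_lit 0x4a16f8554dbbad414c7164824394c0, nat_lit 0x725540c0eb8b6764306f95ca615480, nat_lit 0x78949256503dc65a2d8e359a888660, nat_lit 0xbc0af092665ca88ab4e97454cb0860, nat_lit 0xb55ae24c68819340de4279d4b2c580, nat_lit 0xb2909152b173ef21b60c24ca131d60, nat_lit 0x99d2e45a0f6d2371ac32332a520940, nat_lit 0x48eb60d26233a079208f5de2a615a0, nat_lit 0x7b2a3695749dc91b090951dd230600, nat_lit 0x395c96c092a28760dd6c7cea289900, nat_lit 0x8c0f31ded2a39ac0bd062ac5551120, nat_lit 0x986d1add635510461cae4b650309e0, nat_lit 0x190a70da0c526935c9af15cd5445c0,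 nat_lit 0x7a0a47445685da63b243acd2b50680, nat_lit 0x71c45a4871435ea21981b2e69856e0]),
  (2, [nat_lit 0xbdab49ca307b9ac5a928398a418820, nat_lit 0xb9cb682cd47a5c8154729aa2d23020, nat_lit 0x6a04ea956a4b2e7b3c93a4a0688c20, nat_lit 0xbce27a095678d326148b854ce6a020, nat_lit 0x6d20855a4e4919318a25abd7731c20, nat_lit 0x749892c4551a2f33bdb0b2e8a31020, nat_lit 0xbcc6c142cf21db4424d5715525c420, nat_lit 0xbc0d3b32a77906b445a2a154974820, nat_lit 0x6d57470de84c4853c0d650a4cbcc20, nat_lit 0xbb9537a0ac218f588d70126cd95020, nat_lit 0x4ad038998524af09bdd438ad553420, nat_lit 0x614e482c628cdb5a26ea459cf91820, nat_lit 0x6d6271a909352ee99242641e5b2c20, nat_lit 0x6aa5541c5449a369aee3741e461420, nat_lit 0x71456491f2199b19d147ab168bc020, nat_lit 0xb8ace6453322cd0a2a4878ca76d420, nat_lit 0xba6b07ca286aa653105460cee5d820, nat_lit 0x6b1f54ce0734a825c6ca191172b820, nat_lit 0x25a715c8f0315aaaa58ea0d027dc20, nat_lit 0x4466da088c341c5b0ef591d2f5a820, nat_lit 0x721e51c29352ecc118f5236578a420,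 nat_lit 0x9aeb770cc792990445a22d089b3c20]),
  (3, [nat_lit 0xbdab49ca307b9ac5a928398a418820, nat_lit 0x714d32564355ae98356c451f138820, nat_lit 0x3cd901b9065b6af950b65123748820, nat_lit 0xb3e8489aa7695cb1de0964d5240820, nat_lit 0x6c483bb1c9a4ce53564fb416850820, nat_lit 0x411233d99485ccaacde56c64e58820, nat_lit 0x50de64b6c49558b74233a5d0728820, nat_lit 0x2aa71950c8bbed03b86b491b560820, nat_lit 0x9ae174118aac5b249cc578e8eb0820, nat_lit 0xbca27726cb9910fa1aaa28e0c68820, nat_lit 0xaa2e93bda580d51231cb99a56a0820, nat_lit 0x64567415331ba8d3114fbcab680820, nat_lit 0xb5ca954df031c9460d71aa1cd90820, nat_lit 0x69d545dcb1a9930b0e449b98878820, nat_lit 0xa25642d677731f26990381eca88820, nat_lit 0x1c8c7b5df4622ae2a8915a60d98820, nat_lit 0x75648b2cb02458a9d0cd79c69b8820, nat_lit 0x3b90a696721decb811948a4cfa8820, nat_lit 0x7a24ab44a34b61525e8b3b99330820, nat_lit 0x99e25a0d6622af07a648659b570820, nat_lit 0x3d6882b9534b0d67b63282c7720820]),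
  (4, [nat_lit 0xbdab49ca307b9ac5a928398a418820, nat_lit 0x4ca0863d643da77a45aa754c518820, nat_lit 0x23db2b50eb4aaae41666bc19118820, nat_lit 0x6bc8ab9e857498942e71b42a618820, nat_lit 0xbc255651c4395a979a6a5a23618820, nat_lit 0x9d16672511bbec491ea55360c18820, nat_lit 0x29e6f921d46c61651995492eb18820, nat_lit 0x8a6b47cae8995aa332d022dc718820, nat_lit 0x99cb14b906b3eed5518b9121518820, nat_lit 0xaa62525e4c551d3322c77adb018820, nat_lit 0x491f0ba2c571a6d3d591a297218820, nat_lit 0x22e8d74951bb2b34c2c5418ef18820, nat_lit 0x62295b354b49e457ba068cc9718820, nat_lit 0xb491054cc7225f1a5dac2d56e18820, nat_lit 0x339877aac89ac928d6f06953418820, nat_lit 0x65ec9a1952a9d6f2c1cd9c48818820, nat_lit 0xb5d879a8d07a4952c9c8a456d18820, nat_lit 0x8a255550a7239b69adec342e918820, nat_lit 0x7d0cb2da178cd27912ae6350a18820, nat_lit 0x926ee646a43b4b033eca42e9318820]),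
  (5, [nat_lit 0xbdab49ca307b9ac5a928398a418820, nat_lit 0x4950f6c0d2a2e6c72af53c6c418820, nat_lit 0x835662a5f78a2ccaaa4e3d26418820, nat_lit 0x859c5ac50da4eea31d72625e418820, nat_lit 0x94dd1b5e89354ac42a0b3bda418820, nat_lit 0x8d668b40ab4b9ea91da6652e418820, nat_lit 0x9157641ab37b52a89dd065e8418820, nat_lit 0xbb5135bdd63160aa1ea964a2418820, nat_lit 0x6dcc97ae9044aca71e33616a418820, nat_lit 0x321b52cacebae8a81e7163d2418820, nat_lit 0x4caee7c6d3818a76b2a85516418820, nat_lit 0x7acae6de759222a49ed461a0418820, nat_lit 0x4cead751658da4a79d17640c418820, nat_lit 0x9a637a39f2ac0aa59ccd6590418820, nat_lit 0xaad102ce91735e73313755a4418820, nat_lit 0xbc12ba18ad946c79b11553dc418820]),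
  (6, [nat_lit 0xbdab49ca307b9ac5a928398a418820, nat_lit 0x7520f4cee6b450a69e4b654a418820, nat_lit 0x8bcd6925d5a5d674326d540a418820])]) (by decide +kernel) ?_)
    exact List.forall_mem_append.2 ⟨fun t ht => (in_stSL (by decide +kernel) t ht).mono (inf_eq_right.1 c),
      List.forall_mem_singleton.2 (i _ (by simp))⟩

/-- multiplication by a unit -/
abbrev mu (u : (ZMod 23)ˣ) : Equiv.Perm GolayPt := Equiv.optionCongr (Units.mulLeft u)

theorem mu_mul (u v : (ZMod 23)ˣ) : mu (u * v) = mu u * mu v := by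
  ext1 p; cases p <;> simp [mu, mul_assoc]

theorem el_eq {g : Equiv.Perm GolayPt} {T : ℕ} (h : S24.In ⊤ T) (e : ∀ p, g p = pt (ap T (idx p))) : (S24.el T : Equiv.Perm GolayPt) = g :=
  Equiv.ext fun p => by rw [e, ← el24_pt h (idx_lt p), pt_idx]

theorem e23 : (S24.el t23 : Equiv.Perm GolayPt) = Equiv.optionCongr (Equiv.addRight (1 : ZMod 23)) :=
  el_eq in23' (by decide +kernel)

theorem eI : (S24.el tI : Equiv.Perm GolayPt) = projInv := el_eq (hIn _ (by simp)) (by decide +kernel)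

/-- the unit two -/
def u2 : (ZMod 23)ˣ := ⟨2, 12, by decide, by decide⟩

theorem e11 : (S24.el t11 : Equiv.Perm GolayPt) = mu u2 := el_eq in11' (by decide +kernel)

theorem sq_mem {K : Subgroup (Equiv.Perm GolayPt)} (h : mu u2 ∈ K) {u : (ZMod 23)ˣ} (hu : IsSquare u) : mu u ∈ K := by
  obtain ⟨r, rfl⟩ := hu
  obtain ⟨k, -, e⟩ := (by decide +kernel : ∀ r : (ZMod 23)ˣ, ∃ k < 11, r * r = u2 ^ (k + 1)) r
  rw [e]; clear e
  induction k with
  | zero => simpa using h
  | succ k ih => rw [pow_succ, mu_mul]; exact K.mul_mem ih h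

theorem cl_map (L : List ℕ) (s : Set (Equiv.Perm GolayPt)) (h : (fun t => (S24.el t : Equiv.Perm GolayPt)) '' {t | t ∈ L} = insert (mu u2) s) :
    Subgroup.closure (s ∪ {g | ∃ u : (ZMod 23)ˣ, IsSquare u ∧ g = Equiv.optionCongr (Units.mulLeft u)}) =
      (S24.cl L).map M24.subtype := by
  rw [cl, MonoidHom.map_closure, Set.image_image, show (fun t => M24.subtype (S24.el t)) '' _ = _ from h]
  refine le_antisymm ((Subgroup.closure_le _).2 ?_) (Subgroup.closure_mono ?_)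
  · rintro g (c | ⟨u, c, rfl⟩)
    exacts [Subgroup.subset_closure (.inr c), sq_mem (Subgroup.subset_closure (.inl rfl)) c]
  · rintro g (rfl | c)
    exacts [.inr ⟨u2, ⟨⟨5, 14, by decide, by decide⟩, by decide⟩, rfl⟩, .inl c]

/-- PSL(2, 23) = ⟨t ↦ t+1, t ↦ u t (u square), t ↦ −1/t⟩ is maximal of order 6072 in the group of the length-24 code, and its point stabiliser 23:11 (order 253) is maximal in the Mathieu group of degree 23. -/
theorem result : (Subgroup.closure ({Equiv.optionCongr (Equiv.addRight (1 : ZMod 23)), Cfsg.projInv} ∪ {g : Equiv.Perm Cfsg.GolayPt | ∃ u : (ZMod 23)ˣ, IsSquare u ∧ g = Equiv.optionCongr (Units.mulLeft u)}) ≤ Cfsg.M24 ∧ Nat.card ↥(Subgroup.closure ({Equiv.optionCongr (Equiv.addRight (1 : ZMod 23)), Cfsg.projInv} ∪ {g : Equiv.Perm Cfsg.GolayPt | ∃ u : (ZMod 23)ˣ, IsSquare u ∧ g = Equiv.optionCongr (Units.mulLeft u)})) = 6072 ∧ IsCoatom ((Subgroup.closure ({Equiv.optionCongr (Equiv.addRight (1 : ZMod 23)),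 Cfsg.projInv} ∪ {g : Equiv.Perm Cfsg.GolayPt | ∃ u : (ZMod 23)ˣ, IsSquare u ∧ g = Equiv.optionCongr (Units.mulLeft u)})).subgroupOf Cfsg.M24)) ∧ (Subgroup.closure ({Equiv.optionCongr (Equiv.addRight (1 : ZMod 23))} ∪ {g : Equiv.Perm Cfsg.GolayPt | ∃ u : (ZMod 23)ˣ, IsSquare u ∧ g = Equiv.optionCongr (Units.mulLeft u)}) ≤ Cfsg.M24 ⊓ MulAction.stabilizer (Equiv.Perm Cfsg.GolayPt) (none : Cfsg.GolayPt) ∧ Nat.card ↥(Subgroup.closure ({Equiv.optionCongr (Equiv.addRight (1 : ZMod 23))} ∪ {g : Equiv.Perm Cfsg.GolayPt | ∃ u : (ZMod 23)ˣ, IsSquare u ∧ g = Equiv.optionCongr (Units.mulLeft u)})) = 253 ∧ IsCoatom (((Subgroup.closure ({Equiv.optionCongr (Equiv.addRight (1 : ZMod 23))} ∪ {g : Equiv.Perm Cfsg.GolayPt | ∃ u : (ZMod 23)ˣ, IsSquare u ∧ g = Equiv.optionCongr (Units.mulLeft u)})).subgroupOf Cfsg.M24).subgroupOf (MulAction.stabilizer Cfsg.M24 (none : Cfsg.GolayPt)))) := by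
  rw [cl_map [t23, t11, tI] _ (by ext; simp [e23, e11, eI, eq_comm, or_left_comm]),
    cl_map [t23, t11] _ (by ext; simp [e23, e11, eq_comm, or_comm])]
  simp only [Subgroup.subgroupOf_map_subtype, Subgroup.card_map_of_injective M24.subtype_injective, Subgroup.subgroupOf,
    Subgroup.comap_map_eq_self_of_injective M24.subtype_injective]
  refine ⟨⟨Subgroup.map_subtype_le _, h_full.card.trans (by decide +kernel), co24⟩, ?_, card_B, ?_⟩
  · rintro _ ⟨g, hg, rfl⟩
    exact ⟨g.2, (B_le hg).1 23 (by simp)⟩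
  · have := co23
    rwa [stS_pt] at this

end Cfsg.Agent.S1643
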