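import Mathlib
import Cfsg.Statements.S1664
import Cfsg.Agent.H19.M23d

set_option autoImplicit false
open Cfsg

namespace Cfsg.Agent.S1664

/-- The Mathieu group of degree 23 is determined by its order: a finite simple group of order 10200960 is isomorphic to the concrete M₂₃ (a point stabiliser in the group of the length-24 Golay code). -/
theorem result {G : Type*} [Group G] [Finite G] (hG : Cfsg.IsM23 G) : Cfsg.Spor.IsoM23 G := by
  have := hG.1
  exact H19.isoM23_of_card hG.2

end Cfsg.Agent.S1664
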