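import Mathlib
import Cfsg.Statements.S1666
import Cfsg.Agent.H14.Rk3
import Cfsg.Agent.S0431
import Cfsg.Agent.H14.OutCo
import Cfsg.Agent.H14.P24

set_option autoImplicit false
open Cfsg

namespace Cfsg.Agent.S1666

open H14 MulAction

theorem tr {V W : Type*} {Γ : SimpleGraph V} {Δ : SimpleGraph W} (f : Γ ≃g Δ) : ∃ F : (Γ ≃g Γ) →* (Δ ≃g Δ), Function.Injective F :=
  ⟨MonoidHom.mk' (fun g => (f.symm.trans g).trans f) fun g h => RelIso.ext fun x => by simp,
    (injective_iff_map_eq_one _).2 fun g h => RelIso.ext fun x => f.injective (by simpa using DFunLike.congr_fun h (f x))⟩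

/-- Recognition of the Higman–Sims group as a rank 3 permutation group: a transitive permutation group on 100 points in which the stabiliser of a point is isomorphic to the Mathieu group M₂₂ and has two further orbits, of sizes 22 and 77, is isomorphic to the Higman–Sims group. -/
theorem result {Ω : Type*} [Fintype Ω] [DecidableEq Ω] (hΩ : Fintype.card Ω = 100) (G : Subgroup (Equiv.Perm Ω)) [MulAction.IsPretransitive G Ω] (a : Ω)  (e : MulAction.stabilizer G a ≃* Cfsg.Spor.M22) (b c : Ω) (hb : (MulAction.orbit (MulAction.stabilizer G a) b).ncard = 22) (hc : (MulAction.orbit (MulAction.stabilizer G a) c).ncard = 77) : Cfsg.Spor.IsoHS G := by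
  classical
  obtain ⟨-, -, i, m, h⟩ := orbG_srg (G := G) (k := 20) (l := 75) hb hc (by norm_num) hΩ
  have h1 := SimpleGraph.IsSRGWith.param_eq _ h (by norm_num)
  have h2 := srg_three h
  have h3 : i < 22 := by
    obtain ⟨x, y, e⟩ : ∃ x y, (orbG G Ω 20).Adj x y := ⟨a, b, hb⟩
    have := SimpleGraph.Adj.card_commonNeighbors_lt_degree e
    rwa [h.of_adj x y e, h.regular.degree_eq x] at this
  obtain ⟨rfl, rfl⟩ | ⟨rfl, rfl⟩ : (i = 0 ∧ m = 6) ∨ (i = 21 ∧ m = 0) := by omega
  swap
  · have := Fact.mk (show Nat.Prime 23 by norm_num)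
    exact absurd (srg_mu0 (p := 23) (hp := by norm_num) h) (by norm_num)
  have : Fintype O100 := (Set.finite_of_ncard_ne_zero (by rw [ncard100]; norm_num)).fintype
  obtain ⟨f, -⟩ := srg100_iso h S0431.srg a ⟨_, x100_mem⟩
  obtain ⟨B, hB, f', -⟩ := srg100_pb S0431.srg ⟨_, x100_mem⟩
  have c := card_aut_pb ((Fintype.card_coe _).trans (srg_deg S0431.srg _)) hB
  have : Finite (pointBlockGraph B ≃g pointBlockGraph B) := Nat.finite_of_card_ne_zero (by rw [c]; norm_num)
  obtain ⟨F, hF⟩ := tr (f.trans f'.symm)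
  obtain ⟨F', hF'⟩ := tr f'.symm
  have e1 := MonoidHom.ofInjective (f := F.comp (orbAct G Ω 20)) (hF.comp fun g k e => Subtype.ext (Equiv.ext fun x => DFunLike.congr_fun e x))
  have e2 := MonoidHom.ofInjective (f := F'.comp S0431.act) (hF'.comp S0431.act_inj)
  generalize (F.comp (orbAct G Ω 20)).range = K at e1
  generalize (F'.comp S0431.act).range = L at e2
  have c1 : Nat.card K = 44352000 := by
    rw [← Nat.card_congr e1.toEquiv, ← (stabilizer G a).index_mul_card, index_stabilizer_of_transitive, Nat.card_congr e.toEquiv, card_M22,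
      Nat.card_eq_fintype_card, hΩ]
  have c2 : Nat.card L = 44352000 := (Nat.card_congr e2.toEquiv).symm.trans card_GH
  have i1 : K.index = 2 := by have := K.index_mul_card; rw [c, c1] at this; omega
  have := K.normal_of_index_eq_two i1
  have := simple_GH
  have := e2.symm.isSimpleGroup
  have k : L ≤ K := by
    refine Subgroup.subgroupOf_eq_top.1 ((Subgroup.normal_subgroupOf.eq_bot_or_eq_top).resolve_left fun d => ?_)
    have := Nat.le_of_dvd two_pos (i1 ▸ Subgroup.relIndex_dvd_index_of_normal K L)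
    rw [Subgroup.relIndex, d, Subgroup.index_bot, c2] at this
    omega
  obtain rfl := Subgroup.eq_of_le_of_card_ge k (by rw [c1, c2])
  exact equiv_HS.map fun e3 => (e1.trans e2.symm).trans e3.symm

end Cfsg.Agent.S1666
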