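import Cfsg.Statements.S1691
import Cfsg.Agent.H13.Words
-- import your own Cfsg.Agent.* helpers here

set_option autoImplicit false
open Cfsg

namespace Cfsg.Agent.S1691

/-- The commutator subgroup of the presented group Fi₂₄ has index 2 (the presented group is Fi₂₄′:2 with Fi₂₄′ its derived subgroup). -/
theorem result : (commutator Cfsg.Spor.Fi24).index = 2 := by
  open Spor Spor.Fi24 in
  let φ : Fi24 →* ℤˣ := PresentedGroup.toGroup (f := fun _ => -1) (by
    rintro r (⟨x, -, y, -, rfl⟩ | hr)
    · simp
    · simp only [extra, List.mem_cons, List.not_mem_nil, or_false, Set.mem_ofPred_eq] at hr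
      rcases hr with rfl | rfl <;> simp <;> decide)
  let π := Abelianization.of (G := Fi24)
  have n : ∀ x : Gen, x ∈ coxNodes edges := fun x => by cases x <;> decide
  have s : ∀ x : Gen, π (.of x) * π (.of x) = 1 := fun x => by rw [← map_mul, H13.cox_sq (n x), map_one]
  have e : ∀ x y : Gen, coxLabel edges x y = 3 → π (.of x) = π (.of y) := fun x y h => by
    have := congrArg π (H13.cox_of_mem (extra := extra) (n x) (n y))
    rw [h, map_pow, map_mul, mul_pow, pow_succ, pow_succ (π _) 2, sq, sq, s, s, one_mul, one_mul, map_one] at this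
    exact (eq_inv_of_mul_eq_one_left this).trans (inv_eq_of_mul_eq_one_left (s y))
  have t : Subgroup.zpowers (π (.of .d)) = ⊤ := by
    have c := e .c .d rfl
    have b := (e .b .c rfl).trans c
    have a := (e .a .b rfl).trans b
    have k := (e .k .a rfl).trans a
    have e' := e .e .d rfl
    have f := (e .f .e rfl).trans e'
    have g := (e .g .f rfl).trans f
    have h := e .h .d rfl
    rw [eq_top_iff, ← Subgroup.map_top_of_surjective π Quot.mk_surjective, ← PresentedGroup.closure_range_of,
      MonoidHom.map_closure, Subgroup.closure_le]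
    rintro _ ⟨_, ⟨x, rfl⟩, rfl⟩
    have : π (.of x) = π (.of .d) := by
      cases x
      exacts [(e _ _ rfl).trans k, k, a, b, c, rfl, e', f, g, (e _ _ rfl).trans g, h, (e _ _ rfl).trans h]
    exact this ▸ Subgroup.mem_zpowers _
  show Nat.card (Abelianization Fi24) = 2
  rw [← Subgroup.card_top, ← t, Nat.card_zpowers]
  refine orderOf_eq_prime (by rw [sq, s]) fun h => ?_
  have := congrArg (Abelianization.lift φ) h
  simp [π, φ] at this

end Cfsg.Agent.S1691
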