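import Mathlib
import Cfsg.Statements.S1698
import Cfsg.Agent.H13.Y24
import Cfsg.Agent.S1691

set_option autoImplicit false
open Cfsg

namespace Cfsg.Agent.S1698

/-- The commutator subgroup of the presented Fi₂₄ (our definition of Fi₂₄′) is simple of the expected order (that is, it is a simple group of the order of the Fischer group Fi₂₄′). -/
theorem result : Cfsg.IsFi24' Cfsg.Spor.Fi24' := by
  have := H13.Y24.simple_model
  have h := (commutator Spor.Fi24).index_mul_card
  rw [S1691.result, H13.Y24.card_eq] at h
  exact ⟨H13.Y24.equiv'.isSimpleGroup, Nat.eq_of_mul_eq_mul_left two_pos h⟩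

end Cfsg.Agent.S1698
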