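import Mathlib
import Cfsg.Statements.S1714
import Cfsg.Agent.H29.Rec

set_option autoImplicit false
open Cfsg

namespace Cfsg.Agent.S1714

/-- The Fischer group Fi₂₃ from a transposition centraliser: let G be a finite group with an involution d such that the centraliser C of d is quasisimple, C modulo the subgroup generated by d is isomorphic to the presented Fischer group Fi₂₂, and some conjugate of d different from d commutes with d. Then G is isomorphic to the presented Fischer group Fi₂₃. -/
theorem result {G : Type*} [Group G] [Finite G] (d : G) (hd : orderOf d = 2) (hq : Cfsg.IsQuasisimple (Subgroup.centralizer ({d} : Set G))) [((Subgroup.zpowers d).subgroupOf (Subgroup.centralizer ({d} : Set G))).Normal] (e : Cfsg.Spor.IsoFi22 ((Subgroup.centralizer ({d} : Set G)) ⧸ (Subgroup.zpowers d).subgroupOf (Subgroup.centralizer ({d} : Set G)))) (hnwc : ∃ g : G, g * d * g⁻¹ ∈ Subgroup.centralizer ({d} : Set G) ∧ g * d * g⁻¹ ≠ d) : Cfsg.Spor.IsoFi23 G := by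
  obtain ⟨e⟩ := e
  obtain ⟨a, b, c⟩ := H29.rec23 (by rw [← sq, ← hd, pow_orderOf_eq_one]) (fun q => by simp [q] at hd)
    ((H29.ext2_centralizer hd).comp e) (by simp [Subgroup.mem_subgroupOf])
    hq.1.commutator_eq_top hnwc
  exact let ⟨f, _⟩ := H13.T23.model a b c; ⟨f⟩

end Cfsg.Agent.S1714
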