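import Mathlib
import Cfsg.Agent.H15.TwoCentral
import Cfsg.Statements.S1717

set_option autoImplicit false
open Cfsg

namespace Cfsg.Agent.S1717

/-- Let G be a finite group with an involution z whose centraliser C is isomorphic to the centraliser of a transvection of SL(5, 2). Then a Sylow 2-subgroup of C, viewed in G, is a Sylow 2-subgroup of G (its index in G is odd). -/
theorem result {G : Type*} [Group G] [Finite G] (s : Matrix.SpecialLinearGroup (Fin 5) (ZMod 2)) (hs : (s : Matrix (Fin 5) (Fin 5) (ZMod 2)) = Matrix.transvection 0 1 1) (z : G) (hz : orderOf z = 2) (e : (Subgroup.centralizer ({z} : Set G)) ≃* Subgroup.centralizer ({s} : Set (Matrix.SpecialLinearGroup (Fin 5) (ZMod 2)))) (T : Sylow 2 (Subgroup.centralizer ({z} : Set G))) : ¬ 2 ∣ ((T : Subgroup (Subgroup.centralizer ({z} : Set G))).map (Subgroup.subtype (Subgroup.centralizer ({z} : Set G)))).index := by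
  have hz1 : z ≠ 1 := by rintro rfl; simp at hz
  have : Fact (Nat.Prime 2) := ⟨Nat.prime_two⟩
  let z' : Subgroup.centralizer ({z} : Set G) := ⟨z, Subgroup.mem_centralizer_singleton_iff.mpr rfl⟩
  have hz' : ∀ y, z' * y = y * z' := fun y =>
    Subtype.ext (Subgroup.mem_centralizer_singleton_iff.mp y.2).symm
  let T' := T.mapSurjective (f := e.toMonoidHom) e.surjective
  have key : ∀ x : Subgroup.centralizer ({z} : Set G), (∀ y ∈ T, x * y = y * x) →
      (e x).1 = 1 ∨ (e x).1 = s := by
    intro x hx
    apply H15.eq_one_or_of_commute_sylow s hs T'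
    rintro _ ⟨y, hy, rfl⟩
    show e x * e y = e y * e x
    rw [← map_mul, ← map_mul, hx y hy]
  have hzs : (e z').1 = s := by
    rcases key z' (fun y _ => hz' y) with h | h
    · exfalso
      have : e z' = 1 := Subtype.ext h
      rw [map_eq_one_iff e e.injective] at this
      exact hz1 (congrArg Subtype.val this)
    · exact h
  have hzT : z' ∈ T := by
    have hp : IsPGroup 2 (Subgroup.zpowers z') := by
      apply IsPGroup.of_card (n := 1)
      rw [Nat.card_zpowers, pow_one, ← hz, ← Subgroup.orderOf_coe]
    have hn : (Subgroup.zpowers z').Normal := by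
      refine ⟨fun n hn g => ?_⟩
      obtain ⟨k, rfl⟩ := hn
      have : Commute g z' := (hz' g).symm
      rw [(this.zpow_right k).eq, mul_inv_cancel_right]
      exact ⟨k, rfl⟩
    exact hp.le_sylow_of_normal T (Subgroup.mem_zpowers _)
  obtain ⟨S, hS⟩ := H15.exists_sylow_eq_map z hz1 T hzT (fun x _ hx => by
    rcases key x hx with h | h
    · left
      have : e x = 1 := Subtype.ext h
      rw [map_eq_one_iff e e.injective] at this
      rw [this]; rfl
    · right
      have : e x = e z' := Subtype.ext (h.trans hzs.symm)
      rw [e.injective this])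
  rw [← hS]
  exact S.not_dvd_index

end Cfsg.Agent.S1717
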