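import Cfsg.Statements.S1743
import Cfsg.Agent.H25.GT2
import Cfsg.Agent.H25.GT3

set_option autoImplicit false
open Cfsg

namespace Cfsg.Agent.S1743

/-- Let G be a finite simple group whose Sylow 2-subgroups are isomorphic to a Sylow 2-subgroup of the Chevalley group of type G₂ over a finite field of odd order, and let S be a Sylow 2-subgroup of G. Then either all involutions of G are conjugate, or S has order 64 and the involutions of G form exactly two conjugacy classes. -/
theorem result {G : Type*} [Group G] [Finite G] [IsSimpleGroup G]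
    {F : Type*} [Field F] [Fintype F] (hF : Odd (Fintype.card F)) (S : Sylow 2 G) (P : Sylow 2 ↥(Cfsg.Lie.chevG2.group F))
    (hS : Nonempty (↥(S : Subgroup G) ≃* ↥(P : Subgroup ↥(Cfsg.Lie.chevG2.group F)))) :
    (∀ x y : G, orderOf x = 2 → orderOf y = 2 → IsConj x y) ∨
      (Nat.card ↥(S : Subgroup G) = 64 ∧ ∃ x y : G, orderOf x = 2 ∧ orderOf y = 2 ∧ ¬ IsConj x y ∧
        ∀ z : G, orderOf z = 2 → IsConj z x ∨ IsConj z y) := by
  obtain ⟨e⟩ := hS
  obtain ⟨n, ⟨e'⟩⟩ := H25.GT.sylow hF P
  let g := e'.trans e.symm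
  have hr : ((S : Subgroup G).subtype.comp g.toMonoidHom).range = S := by
    rw [MonoidHom.range_comp, MonoidHom.range_eq_top.2 g.surjective, ← MonoidHom.range_eq_map, Subgroup.range_subtype]
  refine (H25.GT.fus S (Subtype.val_injective.comp g.injective) hr (H25.GT.ar_zmod n)).imp_right fun h => ⟨?_, h.2⟩
  obtain rfl | ⟨k, rfl⟩ := n.eq_zero_or_eq_succ_pred.imp_right fun h => (⟨_, h⟩ : ∃ k, n = k + 1)
  · rw [← Nat.card_congr g.toEquiv, H25.GT.card_W, Nat.card_zmod]; norm_num
  · exact (h.1 (2 ^ k) (pow_succ' _ _)).elim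

end Cfsg.Agent.S1743
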