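import Mathlib
import Cfsg.Statements.S1754
import Cfsg.Agent.H16.TI
import Cfsg.Agent.H22.Components

set_option autoImplicit false
open Cfsg

namespace Cfsg.Agent.S1754

open BG

/-- Let A be a standard subgroup of the finite group G (A quasisimple, C_G(A) tightly embedded of even order, A commuting elementwise with no other conjugate of itself, and N_G(A) = N_G(C_G(A))), and let t be an involution of G centralizing A. Then the centralizer of t lies in the normalizer of A; in particular A, viewed inside C_G(t), is a component of C_G(t). -/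
theorem result {G : Type*} [Group G] [Finite G]
    (A : Subgroup G) (hA : Cfsg.IsStandardSubgroup A) (t : G) (ht : orderOf t = 2) (htA : t ∈ Subgroup.centralizer (A : Set G)) :
    Subgroup.centralizer ({t} : Set G) ≤ Subgroup.normalizer (A : Set G) ∧
      Cfsg.IsComponent (A.subgroupOf (Subgroup.centralizer ({t} : Set G))) := by
  have h1 : C_[t] ≤ N_(A) := fun c hc => by
    rw [hA.2.2.2]
    by_contra h
    have h2 := hA.2.1.2 c h
    have h3 : t ∈ C_(A) ⊓ cj c C_(A) := ⟨htA, by
      have := conj_mem_cj c htA
      rwa [mem_cent1.1 hc, mul_inv_cancel_right] at this⟩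
    exact (Nat.not_even_iff_odd.2 h2) (even_iff_two_dvd.2 (ht ▸ orderOf_dvd_card h3))
  refine ⟨h1, (normal_subgroupOf h1).isSubnormal, (H22.qs_subgroupOf_iff ?_).2 hA.1⟩
  exact le_cent1_iff.2 htA

end Cfsg.Agent.S1754
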