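import Mathlib
import Cfsg.Statements.S1755
import Cfsg.Agent.H16.TI
import Cfsg.Agent.H22.FStar

set_option autoImplicit false
open Cfsg

namespace Cfsg.Agent.S1755

open BG

/-- Let G be a finite group and let z be an involution of G such that Q, the generalized Fitting subgroup of the centralizer C of z, is a 2-group of symplectic type (every characteristic abelian subgroup of Q is cyclic). Let B be a characteristic abelian subgroup of Q, viewed as a subgroup of G. Then for every g in G, the conjugate of B by g either equals B or meets B trivially. -/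
theorem result {G : Type*} [Group G] [Finite G] (z : G) (hz : orderOf z = 2) (hQ : Cfsg.IsOfSymplecticType ↥(Cfsg.generalizedFittingSubgroup ↥(Subgroup.centralizer ({z} : Set G))))
    (B : Subgroup ↥(Cfsg.generalizedFittingSubgroup ↥(Subgroup.centralizer ({z} : Set G)))) (hBc : B.Characteristic) (hBa : IsMulCommutative ↥B) (g : G) :
    ((B.map (Cfsg.generalizedFittingSubgroup ↥(Subgroup.centralizer ({z} : Set G))).subtype).map (Subgroup.centralizer ({z} : Set G)).subtype).map (MulAut.conj g).toMonoidHom =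
        (B.map (Cfsg.generalizedFittingSubgroup ↥(Subgroup.centralizer ({z} : Set G))).subtype).map (Subgroup.centralizer ({z} : Set G)).subtype ∨
      ((B.map (Cfsg.generalizedFittingSubgroup ↥(Subgroup.centralizer ({z} : Set G))).subtype).map (Subgroup.centralizer ({z} : Set G)).subtype).map (MulAut.conj g).toMonoidHom ⊓
        (B.map (Cfsg.generalizedFittingSubgroup ↥(Subgroup.centralizer ({z} : Set G))).subtype).map (Subgroup.centralizer ({z} : Set G)).subtype = ⊥ := by
  let C := C_[z]
  let F := generalizedFittingSubgroup C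
  haveI : F.Normal := H22.fstar_normal
  let B' := (B.map F.subtype).map C.subtype
  change cj g B' = B' ∨ cj g B' ⊓ B' = ⊥
  have h2 := Nat.prime_two
  have inj : Function.Injective (C.subtype.comp F.subtype) :=
    C.subtype_injective.comp F.subtype_injective
  have hB2 : B' = B.map (C.subtype.comp F.subtype) := Subgroup.map_map _ _ _
  have hcyc : IsCyclic B' := by
    rw [hB2]
    haveI := hQ.2 B hBc hBa
    exact isCyclic_of_surjective _ (Subgroup.equivMapOfInjective B _ inj).surjective
  have hpg : IsPGroup 2 B' := by rw [hB2]; exact (hQ.1.to_subgroup B).map _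
  have hn : C ≤ N_(B') := le_norm_iff.2 (by
    rintro c hc _ ⟨b, hb, rfl⟩
    exact ⟨_, (inferInstance : (B.map F.subtype).Normal).conj_mem b hb ⟨c, hc⟩, rfl⟩)
  -- every involution of `B'` is `z`
  have key : ∀ X ≤ B', Nat.card X = 2 → X = Subgroup.zpowers z := fun X hX hc => by
    set Z := (Subgroup.center F).map (C.subtype.comp F.subtype)
    have hZ : IsCyclic Z := by
      haveI := hQ.2 (Subgroup.center F) inferInstance inferInstance
      exact isCyclic_of_surjective _ (Subgroup.equivMapOfInjective _ _ inj).surjective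
    have hXc : C ≤ C_(X) := le_cent_of_forall fun x hx => by
      have hXn : C ≤ N_(X) := hn.trans (norm_le_norm_of_cyclic hcyc hX)
      intro c hc'
      by_cases x1 : x = 1
      · rw [x1, cent1_one]; trivial
      have h3 := conj_mem_of_norm (hXn hc') hx
      obtain ⟨y, hy⟩ := (Nat.card_eq_two_iff' (1 : X)).1 hc
      have e1 := hy.2 ⟨x, hx⟩ (fun e => x1 (congrArg Subtype.val e))
      have e2 := hy.2 ⟨_, h3⟩ (fun e => x1 (by
        have : c * x * c⁻¹ = 1 := congrArg Subtype.val e
        simpa using this))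
      have e3 : c * x * c⁻¹ = x := congrArg Subtype.val (e2.trans e1.symm)
      exact mem_cent1.2 (mul_inv_eq_iff_eq_mul.1 e3)
    have mem : ∀ x (hx : x ∈ C), (⟨x, hx⟩ : C) ∈ F → C ≤ C_[x] → x ∈ Z := fun x hx h h' =>
      ⟨⟨⟨x, hx⟩, h⟩, Subgroup.mem_center_iff.2 fun y =>
        Subtype.ext (Subtype.ext (mem_cent1.1 (h' y.1.2))), rfl⟩
    refine eq_of_card_eq_of_cyclic hZ (fun x hx => ?_) (Subgroup.zpowers_le.2 ?_)
      (by rw [hc, card_zpowers, hz])
    · obtain ⟨y, ⟨w, -, rfl⟩, rfl⟩ := hX hx
      exact mem _ w.1.2 w.2 (hXc.trans (cent_le_cent1 hx))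
    · refine mem z (mem_cent1_self z) (H22.fitting_le_fstar (H02.center_le_fitting ?_)) le_rfl
      exact Subgroup.mem_center_iff.2 fun y => Subtype.ext (mem_cent1.1 y.2)
  by_cases h : cj g B' ⊓ B' = ⊥
  · exact Or.inr h
  left
  obtain ⟨X, hX, hc⟩ := exists_card_eq_prime h2 (pg_dvd h2 (pg_le hpg inf_le_right) h)
  have e1 := key X (hX.trans inf_le_right) hc
  have e2 := key (cj g⁻¹ X) (le_cj_iff.1 (hX.trans inf_le_left)) (by rw [card_cj, hc])
  have e3 : g⁻¹ ∈ N_(Subgroup.zpowers z) := cj_eq_self_iff.1 (by rw [← e1, e2, e1])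
  have e4 : N_(Subgroup.zpowers z) ≤ C := by
    intro c hc'
    have h3 := conj_mem_of_norm hc' (Subgroup.mem_zpowers z)
    have z1 : z ≠ 1 := fun e => by rw [e, orderOf_one] at hz; omega
    obtain ⟨y, hy⟩ := (Nat.card_eq_two_iff' (1 : Subgroup.zpowers z)).1 (by rw [card_zpowers, hz])
    have e1 := hy.2 ⟨z, Subgroup.mem_zpowers z⟩ (fun e => z1 (congrArg Subtype.val e))
    have e2 := hy.2 ⟨_, h3⟩ (fun e => z1 (by
      have : c * z * c⁻¹ = 1 := congrArg Subtype.val e
      simpa using this))
    have e3 : c * z * c⁻¹ = z := congrArg Subtype.val (e2.trans e1.symm)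
    exact mem_cent1.2 (mul_inv_eq_iff_eq_mul.1 e3)
  exact cj_of_mem_norm (hn (e4 (inv_mem_iff.1 e3)))

end Cfsg.Agent.S1755
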