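import Mathlib
import Cfsg.Statements.S1756
import Cfsg.Agent.H16.TI
import Cfsg.Agent.H04.Extraspecial

set_option autoImplicit false
open Cfsg

namespace Cfsg.Agent.S1756

open BG
open scoped commutatorElement

/-- Let Q be an extraspecial 2-subgroup of the finite group G (special with centre of order 2) and t an involution of G normalizing Q such that the centralizer of t in Q has index at most 2 in Q. Then t lies in the product of Q with the centralizer of Q. -/
theorem result {G : Type*} [Group G] [Finite G] (Q : Subgroup G)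
    (hQ : Cfsg.IsExtraspecial 2 ↥Q) (t : G) (ht : orderOf t = 2) (htN : t ∈ Subgroup.normalizer (Q : Set G))
    (hi : (Subgroup.centralizer ({t} : Set G) ⊓ Q).relIndex Q ≤ 2) :
    t ∈ Q ⊔ Subgroup.centralizer (Q : Set G) := by
  haveI : Fact (Nat.Prime 2) := ⟨Nat.prime_two⟩
  obtain ⟨z, h, hZ, -⟩ := H04.exists_aes_of_isExtraspecial' hQ
  have ht2 : t * t = 1 := by rw [← pow_two, ← ht, pow_orderOf_eq_one]
  have hz2 : z * z = 1 := by rw [← pow_two, ← h.ord, pow_orderOf_eq_one]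
  have zp : ∀ u ∈ Subgroup.zpowers z, u ≠ 1 → u = z := fun u hu h1 => by
    obtain ⟨y, hy⟩ := (Nat.card_eq_two_iff' (1 : Subgroup.zpowers z)).1 (by rw [card_zpowers, h.ord])
    have e1 := hy.2 ⟨z, Subgroup.mem_zpowers z⟩ (fun e => h.ne_one (congrArg Subtype.val e))
    have e2 := hy.2 ⟨u, hu⟩ (fun e => h1 (congrArg Subtype.val e))
    exact congrArg Subtype.val (e2.trans e1.symm)
  by_cases hc : Q ≤ C_[t]
  · exact Subgroup.mem_sup_right (le_cent1_iff.1 hc)
  set M := C_[t] ⊓ Q with hM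
  have hi2 : M.relIndex Q = 2 := by
    have h1 := relIndex_ne_zero M Q
    have h2 : M.relIndex Q ≠ 1 := fun e => hc ((Subgroup.relIndex_eq_one.1 e).trans inf_le_left)
    omega
  have hmul : ∀ a ∈ Q, ∀ b ∈ Q, a ∉ M → b ∉ M → a * b ∈ M := fun a ha b hb h1 h2 =>
    (Subgroup.mul_mem_iff_of_index_two (H := M.subgroupOf Q) hi2 (a := ⟨a, ha⟩) (b := ⟨b, hb⟩)).2
      (iff_of_false h1 h2)
  obtain ⟨q, hq, hq'⟩ := SetLike.not_le_iff_exists.1 hc
  have hqM : q ∉ M := fun e => hq' e.1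
  have hzM : z ∈ M := by
    refine ⟨mem_cent1.2 ?_, h.mem⟩
    have h1 : t * z * t⁻¹ ∈ Subgroup.zpowers z := by
      rw [← hZ]
      exact conj_mem_of_norm (norm_inf le_rfl (norm_cent le_rfl) htN) ⟨h.mem, h.cent⟩
    have := zp _ h1 (by simpa using h.ne_one)
    exact (mul_inv_eq_iff_eq_mul.1 this).symm
  have hMn : Q ≤ N_(M) := h.le_norm inf_le_right hzM
  -- an element `s` of `N(Q)` centralizing `M` and `q` centralizes `Q`
  have gen : ∀ s, s ∈ C_(M) → s * q = q * s → s ∈ C_(Q) := fun s h1 h2 =>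
    mem_cent.2 fun a ha => by
      by_cases h3 : a ∈ M
      · exact mem_cent.1 h1 a h3
      · have := mem_cent.1 h1 _ (hmul a ha q hq h3 hqM)
        rw [mul_assoc, ← h2, ← mul_assoc, ← mul_assoc] at this
        exact mul_right_cancel this
  have htM : t ∈ C_(M) := le_cent1_iff.1 inf_le_left
  set c := q⁻¹ * (t * q * t⁻¹) with hcdef
  have hc0 : t * q * t⁻¹ = q * c := by rw [hcdef]; group
  have hcM : c ∈ M := hmul _ (inv_mem hq) _ (conj_mem_of_norm htN hq)
    (fun e => hqM (inv_mem_iff.1 e)) (fun e => hq' (by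
      have := mem_cent1.1 e.1
      rw [inv_mul_cancel_right] at this
      exact mem_cent1.2 (mul_inv_eq_iff_eq_mul.1 (mul_left_cancel this).symm).symm))
  have hc1 : c ≠ 1 := fun e => hq' (by
    rw [e, mul_one] at hc0
    exact mem_cent1.2 (mul_inv_eq_iff_eq_mul.1 hc0).symm)
  have hc2 : c * c = 1 := by
    have h1 : t * (t * q * t⁻¹) * t⁻¹ = q := by
      calc _ = (t * t) * q * (t * t)⁻¹ := by group
        _ = q := by rw [ht2]; group
    have h2 : t * c * t⁻¹ = c := mul_inv_eq_iff_eq_mul.2 (mem_cent1.1 hcM.1).symm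
    rw [hc0] at h1
    have h3 : t * (q * c) * t⁻¹ = (t * q * t⁻¹) * (t * c * t⁻¹) := by group
    rw [h3, hc0, h2, mul_assoc] at h1
    exact mul_eq_left.1 h1
  have hcq : c * q = q * c := by
    have h1 : t * q ^ 2 * t⁻¹ = q ^ 2 := mul_inv_eq_iff_eq_mul.2
      (mem_cent1.1 (Subgroup.zpowers_le.2 hzM (h.pow q hq)).1).symm
    rw [← conj_pow, hc0, pow_two, pow_two, mul_assoc, mul_left_cancel_iff] at h1
    calc c * q = c * (q * c) * c⁻¹ := by group
      _ = q * c := by rw [h1, inv_eq_of_mul_eq_one_right hc2]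
  have hcC : c ∈ C_(M) := mem_cent.2 fun m hm => by
    have h1 := mem_cent.1 htM _ (conj_mem_of_norm (hMn hq) hm)
    have h2 := mem_cent.1 htM _ hm
    have h3 : t * (q * m * q⁻¹) * t⁻¹ = (t * q * t⁻¹) * (t * m * t⁻¹) * (t * q * t⁻¹)⁻¹ := by group
    rw [← h1, ← h2, hc0, mul_inv_cancel_right, mul_inv_cancel_right] at h3
    calc m * c = q⁻¹ * (q * m * q⁻¹) * q * c := by group
      _ = c * m := by rw [h3]; group
  have hcz : c = z := zp c (hZ ▸ ⟨hcM.2, gen c hcC hcq⟩) hc1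
  -- an element of `Z(M)` outside `⟨z⟩`
  obtain ⟨m, hm, hm'⟩ : ∃ m ∈ M ⊓ C_(M), m ∉ Subgroup.zpowers z := by
    by_contra hcon
    push Not at hcon
    obtain ⟨n, hn⟩ := h.card_eq
    obtain ⟨k, hk⟩ := (h.mono inf_le_right hzM).card_eq
    rw [le_antisymm hcon (h.mono inf_le_right hzM).zpowers_le] at hk
    have h1 := card_mul_relIndex (inf_le_right : M ≤ Q)
    rw [hi2, hn, hk, hZ, card_zpowers, h.ord, ← pow_succ, ← pow_succ, ← pow_succ] at h1
    have := Nat.pow_right_injective le_rfl h1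
    omega
  have h4 : ⁅q⁻¹, m⁆ = z := zp _ (h.comm _ (inv_mem hq) _ hm.1.2) (fun e => hm' (hZ ▸ ⟨hm.1.2,
    gen m hm.2 (Commute.inv_left_iff.1 (commutatorElement_eq_one_iff_commute.1 e)).eq.symm⟩))
  have h5 : m⁻¹ * t ∈ C_(Q) := gen _ (mul_mem (inv_mem hm.2) htM) (by
    have h6 : m * q * m⁻¹ = q * z := by rw [← h4, commutatorElement_def]; group
    have h7 := mem_cent1.1 hm.1.1
    calc m⁻¹ * t * q = m⁻¹ * (t * q * t⁻¹) * t := by group
      _ = q * (m⁻¹ * t) := by rw [hc0, hcz, ← h6]; group)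
  have := mul_mem (Subgroup.mem_sup_left hm.1.2) (Subgroup.mem_sup_right (S := Q) h5)
  rwa [mul_inv_cancel_left] at this

end Cfsg.Agent.S1756
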