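import Mathlib
import Cfsg.Statements.S1774
import Cfsg.Agent.H03.LX1

set_option autoImplicit false
open Cfsg

namespace Cfsg.Agent.S1774

/-- Let G be a finite group and let z be an involution of G such that Q, the generalized Fitting subgroup of the centralizer C of z, is a 2-group of symplectic type (every characteristic abelian subgroup of Q is cyclic); suppose every element of Q has order dividing 4. Let g ∈ G with z' = g z g⁻¹ ≠ z and z' ∈ Q. Then z lies in the conjugate g Q g⁻¹, and the subgroup X generated by Q and g Q g⁻¹ induces every automorphism of the four-group generated by z and z': for any two distinct non-identity elements u, v of that four-group there is x ∈ X with x z x⁻¹ = u and x z' x⁻¹ = v. -/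
theorem result {G : Type*} [Group G] [Finite G] (z : G) (hz : orderOf z = 2) (hQ : Cfsg.IsOfSymplecticType ↥(Cfsg.generalizedFittingSubgroup ↥(Subgroup.centralizer ({z} : Set G))))
    (h4 : ∀ q ∈ (Cfsg.generalizedFittingSubgroup ↥(Subgroup.centralizer ({z} : Set G))).map (Subgroup.centralizer ({z} : Set G)).subtype, q ^ 4 = 1) (g : G) (hne : g * z * g⁻¹ ≠ z) (hin : g * z * g⁻¹ ∈ (Cfsg.generalizedFittingSubgroup ↥(Subgroup.centralizer ({z} : Set G))).map (Subgroup.centralizer ({z} : Set G)).subtype) :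
    z ∈ ((Cfsg.generalizedFittingSubgroup ↥(Subgroup.centralizer ({z} : Set G))).map (Subgroup.centralizer ({z} : Set G)).subtype).map (MulAut.conj g).toMonoidHom ∧
      ∀ u ∈ Subgroup.closure ({z, g * z * g⁻¹} : Set G), ∀ v ∈ Subgroup.closure ({z, g * z * g⁻¹} : Set G),
        u ≠ 1 → v ≠ 1 → u ≠ v →
          ∃ x ∈ (Cfsg.generalizedFittingSubgroup ↥(Subgroup.centralizer ({z} : Set G))).map (Subgroup.centralizer ({z} : Set G)).subtype ⊔ ((Cfsg.generalizedFittingSubgroup ↥(Subgroup.centralizer ({z} : Set G))).map (Subgroup.centralizer ({z} : Set G)).subtype).map (MulAut.conj g).toMonoidHom, x * z * x⁻¹ = u ∧ x * (g * z * g⁻¹) * x⁻¹ = v := by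
  open BG H03 H04 Subgroup in
  set Q := H22.fstarOf C_[z] with hQ'
  have hC : C_[z] ⊓ C_(Q) ≤ Q := (H22.inf_centralizer_fstarOf_le _).trans ((H22.fstarOf_eq _).ge.trans' le_sup_right)
  have hQC : Q ≤ C_[z] := H22.fstarOf_le _
  have zc : z ∈ C_(Q) := le_cent1_iff.1 hQC
  have zQ : z ∈ Q := hC ⟨mem_cent1_self z, zc⟩
  have hC' : C_(Q) ≤ Q := (le_inf (cent_le_cent1 zQ) le_rfl).trans hC
  let e := equivMapOfInjective (generalizedFittingSubgroup C_[z]) _ (subtype_injective _)
  have hP : IsPGroup 2 Q := hQ.1.of_equiv e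
  have h1 : IsCyclic C_(Q) := by
    rw [← inf_eq_right.2 hC', ← map_subtype_center, isCyclic_map_subtype]
    have := hQ.2 _ inferInstance (inferInstance : IsMulCommutative (center _))
    exact isCyclic_of_surjective (centerCongr e) (MulEquiv.surjective _)
  have h2 : ∀ x ∈ C_(Q), x * x = 1 → x ∈ zpowers z := fun x hx e => zpowers_le.1
    (le_of_card_dvd_of_cyclic h1 (zpowers_le.2 hx) (zpowers_le.2 zc) (by
      rw [Nat.card_zpowers, Nat.card_zpowers, hz]; exact orderOf_dvd_of_pow_eq_one (pow_two x ▸ e)))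
  obtain ⟨E, R, a1, a2, a3, a4⟩ := symplectic_type hQ.1 hQ.2
  let f := C_[z].subtype.comp (generalizedFittingSubgroup C_[z]).subtype
  have hf : Function.Injective f := (subtype_injective _).comp (subtype_injective _)
  have b2 : E.map f ⊔ R.map f = Q := by
    rw [← Subgroup.map_sup, a2, ← map_map, ← MonoidHom.range_eq_map, range_subtype]
  have b1 : E.map f ≤ C_(R.map f) := comm_eq_bot.1 (by rw [← map_commutator, comm_eq_bot.2 a1, Subgroup.map_bot])
  have b4 : IsMulCommutative (R.map f) := by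
    rcases a4 with a4 | ⟨-, m, a, b, a4⟩
    · have := abelian_of_cyclic a4
      infer_instance
    · have h5 : a ^ 4 = 1 := Subtype.ext (hf (by simpa using h4 (f a) (b2.le (mem_sup_right (mem_map_of_mem f a.2)))))
      have h6 := Nat.le_of_dvd (by norm_num) (a4.ord ▸ orderOf_dvd_of_pow_eq_one h5)
      have : 0 < 2 ^ m := by positivity
      rw [pow_succ, pow_succ, pow_succ] at h6
      omega
  have b5 : R.map f ≤ C_(Q) := b2 ▸ le_cent_sup (cent_symm b1) (abelian_iff.1 b4)
  have b3 : ⁅E.map f, E.map f⁆ ≤ zpowers z ∧ ∀ x ∈ E.map f, x ^ 2 ∈ zpowers z := by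
    rcases a3 with rfl | a3
    · simp
    · obtain ⟨w, c1, -, -⟩ := exists_aes_of_isExtraspecial' a3
      have c2 := c1.map f hf
      have c3 : zpowers (f w) ≤ zpowers z := zpowers_le.2 (h2 _ (b2 ▸ le_cent_sup (zpowers_le.2 c2.cent)
        ((zpowers_le.2 c2.mem).trans b1) (mem_zpowers _)) c2.mul_self)
      exact ⟨c2.der_le.trans c3, fun x hx => c3 (c2.pow x hx)⟩
  have dec : ∀ x ∈ Q, ∃ a ∈ E.map f, ∃ b ∈ R.map f, a * b = x := fun x hx =>
    (mem_sup_norm ((cent_symm b1).trans (cent_le_norm _))).1 (b2.ge hx)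
  have h : LX Q z := by
    refine ⟨⟨hz, zQ, zc, fun x hx y hy => ?_, fun x hx => ?_⟩, hC', h2, (le_norm _).trans (H22.normalizer_le_normalizer_fstarOf _)⟩
    · obtain ⟨a, ha, b, hb, rfl⟩ := dec x hx
      obtain ⟨c, hc, d, hd, rfl⟩ := dec y hy
      rw [H22.comm_mul_central (mem_cent.1 (b1 hc) b hb) (mul_comm_of_abelian b4 hb hd) (mem_cent.1 (b1 ha) d hd)]
      exact b3.1 (commutator_mem_commutator ha hc)
    · obtain ⟨a, ha, b, hb, rfl⟩ := dec x hx
      rw [Commute.mul_pow (mem_cent.1 (b1 ha) b hb).symm]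
      exact mul_mem (b3.2 a ha) (h2 _ (pow_mem (b5 hb) 2) (by rw [← pow_add]; exact h4 b (hC' (b5 hb))))
  have h5 := h.sym'' hin fun e => (le_fit (pg_nil Nat.prime_two e) le_rfl (le_norm _)).trans
    ((H22.fstarOf_eq _).ge.trans' le_sup_right)
  exact ⟨h5, fun u hu v hv => exists_trans h (h.cj g) hin h5 hne hu hv⟩

end Cfsg.Agent.S1774
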