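import Mathlib
import Cfsg.Statements.S1775
import Cfsg.Agent.H22.BProp
import Cfsg.Agent.H22.ExtL

set_option autoImplicit false
open Cfsg

namespace Cfsg.Agent.S1775

open BG H22
open scoped commutatorElement

/-- Let G be a finite group whose generalized Fitting subgroup is a non-abelian simple group and in which every proper section (every quotient H/N of a proper subgroup H, or of G by a nontrivial normal subgroup) has the B-property. Let x, y be commuting involutions, let D be the intersection of the 2-layer of C_G(x) with C_G(y), and let J be a 2-component of D. Write Q for the quotient of C_G(y) by its largest normal odd-order subgroup. Then (i) the image of J in Q is a component of the centralizer in Q of the image of x; and (ii) for every J-invariant subgroup E of odd order of C_G(x) ∩ C_G(y), the commutator subgroup [J, E] lies in the largest normal odd-order subgroup of C_G(y). -/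
theorem result {G : Type*} [Group G] [Finite G]
    (hF : IsSimpleGroup ↥(Cfsg.generalizedFittingSubgroup G)) (hF' : ¬ IsMulCommutative ↥(Cfsg.generalizedFittingSubgroup G))
    (hsec : ∀ (H : Subgroup G) (N : Subgroup ↥H) [N.Normal], (H ≠ ⊤ ∨ N ≠ ⊥) → Cfsg.HasBProperty (↥H ⧸ N))
    (x y : G) (hx : orderOf x = 2) (hy : orderOf y = 2) (hxy : x * y = y * x)
    (J : Subgroup ↥((Cfsg.pLayer 2 ↥(Subgroup.centralizer ({x} : Set G))).map (Subgroup.centralizer ({x} : Set G)).subtype ⊓ Subgroup.centralizer ({y} : Set G)))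
    (hJ : Cfsg.IsPComponent 2 J) :
    Cfsg.IsComponent
        ((((J.map (Subgroup.subtype _)).subgroupOf (Subgroup.centralizer ({y} : Set G))).map (QuotientGroup.mk' (Cfsg.oddCore ↥(Subgroup.centralizer ({y} : Set G))))).subgroupOf
          (Subgroup.centralizer ({(QuotientGroup.mk' (Cfsg.oddCore ↥(Subgroup.centralizer ({y} : Set G))) ⟨x, Subgroup.mem_centralizer_singleton_iff.mpr hxy⟩ : ↥(Subgroup.centralizer ({y} : Set G)) ⧸ Cfsg.oddCore ↥(Subgroup.centralizer ({y} : Set G)))} : Set _))) ∧
      ∀ E : Subgroup G, E ≤ Subgroup.centralizer ({x} : Set G) ⊓ Subgroup.centralizer ({y} : Set G) → Odd (Nat.card ↥E) →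
        (∀ j ∈ J.map (Subgroup.subtype _), ∀ e ∈ E, j * e * j⁻¹ ∈ E) →
          ⁅J.map (Subgroup.subtype _), E⁆ ≤ (Cfsg.oddCore ↥(Subgroup.centralizer ({y} : Set G))).map (Subgroup.centralizer ({y} : Set G)).subtype := by
  revert J
  set H := Subgroup.centralizer ({y} : Set G) with hH
  intro J hJ
  set x' : H := ⟨x, Subgroup.mem_centralizer_singleton_iff.mpr hxy⟩
  set f := QuotientGroup.mk' (Cfsg.oddCore H) with hf
  set J' := J.map (Subgroup.subtype _) with hJ'
  have hHt : H ≠ ⊤ := fun h => ne_one_of_two hy (by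
    have : y ∈ C_(Cfsg.generalizedFittingSubgroup G) := le_cent1_iff.1 (le_top.trans h.ge)
    rwa [cent_fstar_eq_bot hF hF'] at this)
  have hB := hsec H (Cfsg.oddCore H) (Or.inl hHt)
  have hO : Cfsg.oddCore (H ⧸ Cfsg.oddCore H) = ⊥ := H02.pPrimeCore_quotient_pPrimeCore 2 H
  have hk := ker_mk_coprime (G := H) (p := 2)
  have hx' : orderOf x' = 2 := by rw [← Subgroup.orderOf_coe]; exact hx
  have hfx : orderOf (f x') = 2 := by
    refine two_of_mul_self (by rw [← map_mul, mul_self_of_two hx', map_one]) fun h => ?_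
    have := hk.coprime_dvd_left (Subgroup.orderOf_dvd_natCard _ (show x' ∈ f.ker from h))
    rw [hx'] at this
    exact absurd this (by decide)
  have h1 : PC 2 J' (pLay 2 C_[x] ⊓ H) := ⟨Subgroup.map_subtype_le _, by
    rwa [hJ', Subgroup.subgroupOf, Subgroup.comap_map_eq_self_of_injective (Subgroup.subtype_injective _)]⟩
  have h2 : PC 2 J' (C_[x] ⊓ H) := h1.of_norm (inf_le_inf_right _ (pLay_le _))
    (norm_inf (inf_le_left.trans ((le_norm _).trans (normalizer_le_normalizer_pLay _))) (norm_of_le inf_le_right))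
  have h3 := (pc_subgroupOf (h2.1.trans inf_le_right) inf_le_right).2 h2
  have e1 : (C_[x] ⊓ H).subgroupOf H = C_[x'] := by
    ext g
    simp only [Subgroup.mem_subgroupOf, Subgroup.mem_inf, mem_cent1, g.2, and_true]
    exact ⟨fun h => Subtype.ext h, fun h => congrArg Subtype.val h⟩
  have e2 : (C_[x']).map f = C_[f x'] := by
    rw [← cent_zpowers, centralizer_map_of_coprime_ker (QuotientGroup.mk'_surjective _) hk
      (isPGroup_zpowers_of_orderOf hx'), MonoidHom.map_zpowers, cent_zpowers]
  have hne : (J'.subgroupOf H).map f ≠ ⊥ := fun h => by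
    rw [Subgroup.map_eq_bot_iff] at h
    exact (Nat.Prime.coprime_iff_not_dvd Nat.prime_two).1 hk.symm (h3.dvd.trans (card_dvd h))
  have h4 := h3.map f hne
  rw [e1, e2] at h4
  have h5 := h4.comp_of_B hB hO hfx
  refine ⟨h5, fun E hE hodd hJE => ?_⟩
  have hEH : E ≤ H := hE.trans inf_le_right
  have hn : J'.subgroupOf H ≤ N_(E.subgroupOf H) := subgroupOf_le_normalizer (le_normalizer_iff_conj.2 hJE)
  have hle : (E.subgroupOf H).map f ≤ C_[f x'] := by
    rw [← e2, ← e1]; exact Subgroup.map_mono (Subgroup.subgroupOf_mono _ hE)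
  rcases comp_le_or_comm_in h4.1 h5 hle ((Subgroup.map_mono hn).trans (Subgroup.le_normalizer_map f)) with h | h
  · refine absurd (h4.dvd.trans ((card_dvd h).trans (Subgroup.card_map_dvd _ _))) ?_
    rw [H02.card_subgroupOf_of_le hEH]
    exact Nat.two_dvd_ne_zero.2 (Nat.odd_iff.1 hodd)
  · rw [← Subgroup.map_commutator, Subgroup.map_eq_bot_iff, QuotientGroup.ker_mk'] at h
    have := Subgroup.map_mono (f := H.subtype) h
    rwa [Subgroup.map_commutator, Subgroup.map_subgroupOf_eq_of_le (h2.1.trans inf_le_right),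
      Subgroup.map_subgroupOf_eq_of_le hEH] at this

end Cfsg.Agent.S1775
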