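import Mathlib
import Cfsg.Statements.S1780
import Cfsg.Agent.H16.TI

set_option autoImplicit false
open Cfsg

namespace Cfsg.Agent.S1780

/-- Let A be a finite abelian 2-group and t an automorphism of A whose order is a power of 2. If every element of A fixed by t² is fixed by t, then t fixes every element of A. -/
theorem result {A : Type*} [CommGroup A] [Finite A]
    (hA : IsPGroup 2 A) (t : MulAut A) (ht : ∃ k : ℕ, orderOf t = 2 ^ k) (hC : ∀ a : A, t (t a) = a → t a = a) :
    ∀ a : A, t a = a := by
  obtain ⟨k, hk⟩ := ht
  exact H16.aut_eq_of_fix_sq hA t (k := k) (hk ▸ pow_orderOf_eq_one t) hC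

end Cfsg.Agent.S1780
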