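import Mathlib
import Cfsg.Statements.S1781
import Cfsg.Agent.H16.TI

set_option autoImplicit false
open Cfsg

namespace Cfsg.Agent.S1781

open BG

/-- Let A be an abelian 2-subgroup of the finite group G such that every conjugate of A equals A or meets A trivially, and let g ∈ G with g A g⁻¹ ≠ A. Then either the subgroup of those elements of A that normalize g A g⁻¹ is an elementary abelian 2-group, or A and g A g⁻¹ commute elementwise. -/
theorem result {G : Type*} [Group G] [Finite G] (A : Subgroup G)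
    (hA2 : IsPGroup 2 ↥A) (hAa : IsMulCommutative ↥A)
    (hti : ∀ h : G, A.map (MulAut.conj h).toMonoidHom = A ∨ A.map (MulAut.conj h).toMonoidHom ⊓ A = ⊥)
    (g : G) (hg : A.map (MulAut.conj g).toMonoidHom ≠ A) :
    Cfsg.IsElementaryAbelian 2 (A ⊓ Subgroup.normalizer ((A.map (MulAut.conj g).toMonoidHom : Subgroup G) : Set G)) ∨
      ⁅A, A.map (MulAut.conj g).toMonoidHom⁆ = ⊥ := by
  change IsElementaryAbelian 2 (A ⊓ N_(cj g A)) ∨ ⁅A, cj g A⁆ = ⊥
  have hti' : ∀ h, cj h A = A ∨ cj h A ⊓ A = ⊥ := hti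
  have hd : cj g A ⊓ A = ⊥ := (hti' g).resolve_left hg
  have hc : ∀ x ∈ A, x ≠ 1 → C_[x] ≤ N_(A) := fun x hx h1 c hc =>
    cj_eq_self_iff.1 ((hti' c).resolve_right (ne_bot_of_mem ⟨by
      have := conj_mem_cj c hx
      rwa [mem_cent1.1 hc, mul_inv_cancel_right] at this, hx⟩ h1))
  by_cases h : ∀ t ∈ A ⊓ N_(cj g A), t ^ 2 = 1
  · exact Or.inl ⟨abelian_of_le hAa inf_le_left, h⟩
  right
  push Not at h
  obtain ⟨t, ht, ht2⟩ := h
  obtain ⟨k, hk⟩ := hA2 ⟨t, ht.1⟩
  have h1 : t ∈ C_(cj g A) := H16.mem_cent_of_cent_sq (isPGroup_cj.2 hA2)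
    (isMulCommutative_cj.2 hAa) ht.2 (k := k) (congrArg Subtype.val hk) (fun b hb => by
      have h2 : b * t * b⁻¹ * t⁻¹ ∈ A :=
        mul_mem (conj_mem_of_norm (hc _ (pow_mem ht.1 2) ht2 hb.2) ht.1) (inv_mem ht.1)
      have h3 : b * t * b⁻¹ * t⁻¹ ∈ cj g A := by
        have := (cj g A).mul_mem hb.1 (conj_mem_of_norm ht.2 ((cj g A).inv_mem hb.1))
        simpa [mul_assoc] using this
      have h4 := eq_one_of_mem_of_disj hd h3 h2
      exact mem_cent1.2 (mul_inv_eq_iff_eq_mul.1 (mul_inv_eq_one.1 h4)))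
  have h2 : cj g A ≤ N_(A) := (le_cent1_iff.2 h1).trans
    (hc t ht.1 fun e => ht2 (by rw [e, one_pow]))
  refine comm_eq_bot.2 (H16.ti_cent_of_norm Nat.prime_two hA2 (isPGroup_cj.2 hA2) (fun a _ => ?_)
    (card_cj g A).ge (by rwa [inf_comm]) h2)
  rcases hti' (g⁻¹ * a * g) with e | e
  · left
    rw [cj_cj, show a * g = g * (g⁻¹ * a * g) by group, ← cj_cj, e]
  · right
    rw [cj_cj, show a * g = g * (g⁻¹ * a * g) by group, ← cj_cj, ← cj_inf, e, cj_bot]

end Cfsg.Agent.S1781
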