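import Mathlib
import Cfsg.Statements.S1782
import Cfsg.Agent.H16.TI

set_option autoImplicit false
open Cfsg

namespace Cfsg.Agent.S1782

open BG

/-- Let S be a finite 2-group and Δ a set of subgroups of S closed under conjugation by S, all of the same order, each with nontrivial Frattini subgroup, and such that two distinct members of Δ meet trivially. Then any two distinct members of Δ commute elementwise. -/
theorem result {S : Type*} [Group S] [Finite S] (hS : IsPGroup 2 S)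
    (Δ : Set (Subgroup S)) (hinv : ∀ s : S, ∀ R ∈ Δ, R.map (MulAut.conj s).toMonoidHom ∈ Δ)
    (hΦ : ∀ R ∈ Δ, frattini ↥R ≠ ⊥) (hord : ∀ R ∈ Δ, ∀ T ∈ Δ, Nat.card ↥R = Nat.card ↥T)
    (hti : ∀ R ∈ Δ, ∀ T ∈ Δ, R = T ∨ R ⊓ T = ⊥) :
    ∀ R ∈ Δ, ∀ T ∈ Δ, R ≠ T → ⁅R, T⁆ = ⊥ := by
  intro R hR T hT hne
  refine comm_eq_bot.2 (H16.ti_family_cent (P := ⊤) (hS.to_subgroup ⊤) (fun _ _ => le_top)
    (fun s _ R hR => hinv s R hR) (fun R hR => ?_) hord hti R hR T hT hne)
  by_contra h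
  push Not at h
  refine hΦ R hR ((Subgroup.map_eq_bot_iff_of_injective _ R.subtype_injective).1 (le_bot_iff.1
    (phi_le_of (K := ⊥) Nat.prime_two (hS.to_subgroup R) (abelian_iff_der.1 ?_).le h)))
  refine abelian_iff.2 (le_cent_iff.2 fun a ha b hb => ?_)
  have inv : ∀ x ∈ R, x⁻¹ = x := fun x hx => inv_eq_of_mul_eq_one_right (by rw [← pow_two, h x hx])
  rw [← inv _ (mul_mem ha hb), mul_inv_rev, inv a ha, inv b hb]

end Cfsg.Agent.S1782
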