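import Mathlib
import Cfsg.Statements.S1783
import Cfsg.Agent.H16.TI
import Cfsg.Agent.H22.FStar
import Cfsg.Agent.H17.OpMod

set_option autoImplicit false
open Cfsg

namespace Cfsg.Agent.S1783

open BG
open scoped commutatorElement

/-- Let X be a finite group whose generalized Fitting subgroup equals its largest normal 2-subgroup Q, and let A be an abelian 2-subgroup of X such that every conjugate of A equals A or meets A trivially. Let B be the subgroup generated by the squares of the elements of A. Then B lies in Q, and if B is not an elementary abelian 2-group then the normal closure of B in X is commutative. -/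
theorem result {X : Type*} [Group X] [Finite X]
    (hX : Cfsg.generalizedFittingSubgroup X = Cfsg.pCore 2 X) (A : Subgroup X) (hA2 : IsPGroup 2 ↥A) (hAa : IsMulCommutative ↥A)
    (hti : ∀ h : X, A.map (MulAut.conj h).toMonoidHom = A ∨ A.map (MulAut.conj h).toMonoidHom ⊓ A = ⊥) :
    Subgroup.closure ((fun a : X => a ^ 2) '' (A : Set X)) ≤ Cfsg.pCore 2 X ∧
      (¬ Cfsg.IsElementaryAbelian 2 (Subgroup.closure ((fun a : X => a ^ 2) '' (A : Set X))) →
        IsMulCommutative ↥(Subgroup.normalClosure ((fun a : X => a ^ 2) '' (A : Set X)))) := by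
  haveI : Fact (Nat.Prime 2) := ⟨Nat.prime_two⟩
  have h2 := Nat.prime_two
  have hti' : ∀ h, cj h A = A ∨ cj h A ⊓ A = ⊥ := hti
  have hti2 : ∀ g h, cj g A = cj h A ∨ cj g A ⊓ cj h A = ⊥ := fun g h => by
    rcases hti' (h⁻¹ * g) with e | e
    · left; rw [show g = h * (h⁻¹ * g) by group, ← cj_cj, e]
    · right; rw [show g = h * (h⁻¹ * g) by group, ← cj_cj, ← cj_inf, e, cj_bot]
  set Q := pCore 2 X with hQ
  have hQ2 : IsPGroup 2 Q := H02.pCore_isPGroup 2 X
  have hQn : ∀ H : Subgroup X, H ≤ N_(Q) := fun H => by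
    rw [Subgroup.normalizer_eq_top]; exact le_top
  have hCQ : C_(Q) ≤ Q := H22.fstar_eq_pCore_iff.1 hX
  set B := Subgroup.closure ((fun a : X => a ^ 2) '' (A : Set X)) with hB
  have hBA : B ≤ A := (Subgroup.closure_le _).2 (by rintro _ ⟨a, ha, rfl⟩; exact pow_mem ha 2)
  have hBQ : B ≤ Q := by
    refine (Subgroup.closure_le _).2 ?_
    rintro _ ⟨a, ha, rfl⟩
    by_cases ha2 : a ^ 2 = 1
    · change a ^ 2 ∈ Q
      rw [ha2]; exact one_mem _
    have hc := H16.ti_family_cent (P := Q ⊔ A) (pg_sup hQ2 hA2 (hQn A))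
      (Δ := {R | ∃ g ∈ Q ⊔ A, R = cj g A})
      (by rintro _ ⟨g, hg, rfl⟩; exact cj_le_of_mem le_sup_right hg)
      (by rintro s hs _ ⟨g, hg, rfl⟩; exact ⟨s * g, mul_mem hs hg, cj_cj _ _ _⟩)
      (by rintro _ ⟨g, hg, rfl⟩; exact ⟨_, conj_mem_cj g ha, by simpa using ha2⟩)
      (by rintro _ ⟨g, hg, rfl⟩ _ ⟨h, hh, rfl⟩; rw [card_cj, card_cj])
      (by rintro _ ⟨g, hg, rfl⟩ _ ⟨h, hh, rfl⟩; exact hti2 g h)
    have hc' : ∀ q ∈ Q, cj q A ≤ C_(A) := fun q hq => by
      by_cases e : cj q A = A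
      · rw [e]; exact abelian_iff.1 hAa
      · exact hc _ ⟨q, Subgroup.mem_sup_left hq, rfl⟩ A ⟨1, one_mem _, (cj_one A).symm⟩ e
    have hΦn : ⊤ ≤ N_(frattiniOf Q) := norm_phi (hQn ⊤)
    let K : Subgroup X :=
      { carrier := {y | ∀ x ∈ Q, ⁅y, x⁆ ∈ frattiniOf Q}
        one_mem' := fun x _ => by simp
        mul_mem' := fun {y z} hy hz x hx => by
          have : ⁅y * z, x⁆ = y * ⁅z, x⁆ * y⁻¹ * ⁅y, x⁆ := by
            simp only [commutatorElement_def]; group
          rw [this]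
          exact mul_mem (conj_mem_of_norm (hΦn trivial) (hz x hx)) (hy x hx)
        inv_mem' := fun {y} hy x hx => by
          have : ⁅y⁻¹, x⁆ = y⁻¹ * ⁅y, x⁆⁻¹ * y := by
            simp only [commutatorElement_def]; group
          rw [this]
          exact conj_mem_of_norm' (hΦn trivial) (inv_mem (hy x hx)) }
    haveI hK : K.Normal := ⟨fun y hy g x hx => by
      have : ⁅g * y * g⁻¹, x⁆ = g * ⁅y, g⁻¹ * x * g⁆ * g⁻¹ := by
        simp only [commutatorElement_def]; group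
      rw [this]
      exact conj_mem_of_norm (hΦn trivial) (hy _ (conj_mem_of_norm' (hQn ⊤ trivial) hx))⟩
    have hK2 : IsPGroup 2 K := (isPi_singleton h2).1 fun r hr hd => by
      by_contra hne
      obtain ⟨y, hy, ho⟩ := exists_orderOf_eq_prime hr hd
      have h3 := hCQ (H17.mem_centralizer_of_frattini hQ2 (hQn ⊤ trivial)
        (ho ▸ (Nat.coprime_primes hr h2).2 hne) hy)
      exact hne (pg_prime_eq h2 hQ2 hr (ho ▸ orderOf_dvd_card h3))
    refine H02.le_pCore hK2 (fun x hx => ?_)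
    have h3 := mem_cent.1 (hc' x hx (conj_mem_cj x (inv_mem ha))) a ha
    have h4 : ⁅a ^ 2, x⁆ = ⁅a, x⁆ ^ 2 := by
      simp only [commutatorElement_def, pow_two]
      calc a * a * x * (a * a)⁻¹ * x⁻¹ = a * (a * (x * a⁻¹ * x⁻¹)) * (x * a⁻¹ * x⁻¹) := by group
        _ = _ := by rw [h3]; group
    change ⁅a ^ 2, x⁆ ∈ _
    rw [h4]
    exact pow_mem_phi h2 hQ2 (mul_mem (conj_mem_of_norm (hQn ⊤ trivial) hx) (inv_mem hx))
  refine ⟨hBQ, fun hne => ?_⟩
  have hBa : IsMulCommutative B := abelian_of_le hAa hBA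
  obtain ⟨b, hb, hb2⟩ : ∃ b ∈ B, b ^ 2 ≠ 1 := by
    by_contra h; push Not at h; exact hne ⟨hBa, h⟩
  have hBn : N_(A) ≤ N_(B) := le_norm_of_cj_le fun n hn => by
    rw [cj_le_iff]
    refine (Subgroup.closure_le _).2 ?_
    rintro _ ⟨a, ha, rfl⟩
    refine mem_cj_inv.2 ?_
    rw [← conj_pow]
    exact Subgroup.subset_closure ⟨_, conj_mem_of_norm hn ha, rfl⟩
  have hc := H16.ti_family_cent (P := Q) hQ2 (Δ := {R | ∃ g, R = cj g B})
    (by rintro _ ⟨g, rfl⟩; exact cj_le_of_mem_norm hBQ (hQn ⊤ trivial))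
    (by rintro s hs _ ⟨g, rfl⟩; exact ⟨s * g, cj_cj _ _ _⟩)
    (by rintro _ ⟨g, rfl⟩; exact ⟨_, conj_mem_cj g hb, by simpa using hb2⟩)
    (by rintro _ ⟨g, rfl⟩ _ ⟨h, rfl⟩; rw [card_cj, card_cj])
    (by
      rintro _ ⟨g, rfl⟩ _ ⟨h, rfl⟩
      rcases hti2 g h with e | e
      · exact Or.inl (cj_eq_cj_iff.2 (hBn (cj_eq_cj_iff.1 e)))
      · exact Or.inr (eq_bot_mono e (inf_le_inf (cj_mono g hBA) (cj_mono h hBA))))
  have hc' : ∀ g h, cj g B ≤ C_(cj h B) := fun g h => by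
    by_cases e : cj g B = cj h B
    · rw [e]; exact abelian_iff.1 (isMulCommutative_cj.2 hBa)
    · exact hc _ ⟨g, rfl⟩ _ ⟨h, rfl⟩ e
  have hle : ∀ Y : Subgroup X, (∀ g, cj g B ≤ Y) →
      Subgroup.normalClosure ((fun a : X => a ^ 2) '' (A : Set X)) ≤ Y := fun Y hY => by
    rw [Subgroup.normalClosure, Subgroup.closure_le]
    intro y hy
    obtain ⟨x, hx, hc⟩ := Group.mem_conjugatesOfSet_iff.1 hy
    obtain ⟨c, rfl⟩ := isConj_iff.1 hc
    exact hY c (conj_mem_cj c (Subgroup.subset_closure hx))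
  exact abelian_iff.2 (hle _ fun g => cent_symm (hle _ fun h => hc' h g))

end Cfsg.Agent.S1783
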