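import Mathlib
import Cfsg.Statements.S1785
import Cfsg.Agent.H08.Wr
import Cfsg.Agent.H04.Basic

set_option autoImplicit false
open Cfsg

namespace Cfsg.Agent.S1785

open Subgroup

variable {X : Type*} [Group X] [Finite X]

theorem comm_of_ea {F : Subgroup X} (hF : IsElementaryAbelian 2 F) {a b : X} (ha : a ∈ F) (hb : b ∈ F) :
    a * b = b * a :=
  congrArg Subtype.val (hF.1.is_comm.comm (⟨a, ha⟩ : F) ⟨b, hb⟩)

theorem ea_of_le {F K : Subgroup X} (hF : IsElementaryAbelian 2 F) (h : K ≤ F) :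
    IsElementaryAbelian 2 K :=
  ⟨⟨⟨fun a b => Subtype.ext (comm_of_ea hF (h a.2) (h b.2))⟩⟩, fun a ha => hF.2 a (h ha)⟩

theorem norm_of_cent {A : Subgroup X} {x : X} (hx : x ∈ centralizer (A : Set X)) :
    x ∈ normalizer (A : Set X) := centralizer_le_normalizer _ hx

theorem ea_sup {A : Subgroup X} (hA : IsElementaryAbelian 2 A) {x : X} (h2 : x * x = 1)
    (hx : x ∈ centralizer (A : Set X)) : IsElementaryAbelian 2 (A ⊔ zpowers x : Subgroup X) := by
  refine ⟨H04.isMulCommutative_sup_zpowers hA.1 hx, fun g hg => ?_⟩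
  rcases (H08.mem_sup_zpowers (norm_of_cent hx) (h2 ▸ A.one_mem)).1 hg with h | h
  · exact hA.2 g h
  · have h1 := hA.2 _ h
    have h3 : g * x * x = x * (g * x) := hx _ h
    have h4 : g * x = x * g := by
      rw [← mul_assoc] at h3; exact mul_right_cancel h3
    rw [pow_two] at h1 ⊢
    calc g * g = g * g * (x * x) := by rw [h2, mul_one]
      _ = g * (g * x) * x := by group
      _ = g * (x * g) * x := by rw [h4]
      _ = g * x * (g * x) := by group
      _ = 1 := h1

theorem half {F : Subgroup X} (hF : IsElementaryAbelian 2 F) {t : X} (ht : t * t = 1)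
    (hn : ∀ f ∈ F, t * f * t⁻¹ ∈ F) :
    Nat.card F ≤ Nat.card (F ⊓ centralizer {t} : Subgroup X) ^ 2 := by
  let φ : F →* X := MonoidHom.mk' (fun f => (f : X) * (t * f * t⁻¹)) (by
    intro a b
    have := comm_of_ea hF b.2 (hn a a.2)
    simp only [coe_mul]
    calc (a : X) * b * (t * (a * b) * t⁻¹) = a * (b * (t * a * t⁻¹)) * (t * b * t⁻¹) := by group
      _ = _ := by rw [this]; group)
  have hti : t⁻¹ = t := inv_eq_of_mul_eq_one_right ht
  have h1 : φ.range ≤ F ⊓ centralizer {t} := by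
    rintro _ ⟨f, rfl⟩
    refine ⟨F.mul_mem f.2 (hn f f.2), mem_centralizer_singleton_iff.2 ?_⟩
    show (f : X) * (t * f * t⁻¹) * t = t * (f * (t * f * t⁻¹))
    have := comm_of_ea hF f.2 (hn f f.2)
    calc (f : X) * (t * f * t⁻¹) * t = (t * t) * f * t * f := by rw [ht]; group
      _ = t * ((t * f * t⁻¹) * f) := by rw [hti]; group
      _ = _ := by rw [this]
  have h2 : φ.ker.map F.subtype ≤ F ⊓ centralizer {t} := by
    rintro _ ⟨f, hf, rfl⟩
    refine ⟨f.2, mem_centralizer_singleton_iff.2 ?_⟩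
    have h3 : (f : X) * (t * f * t⁻¹) = 1 := hf
    have h4 := hF.2 f f.2
    rw [pow_two] at h4
    have h5 : t * f * t⁻¹ = f := mul_left_cancel (h3.trans h4.symm)
    show (f : X) * t = t * f
    calc (f : X) * t = (t * f * t⁻¹) * t := by rw [h5]
      _ = _ := by group
  have h3 := card_eq_card_quotient_mul_card_subgroup φ.ker
  rw [Nat.card_congr (QuotientGroup.quotientKerEquivRange φ).toEquiv] at h3
  have h4 := card_le_of_le h1
  have h5 := card_le_of_le h2
  rw [card_map_of_injective F.subtype_injective] at h5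
  rw [h3, pow_two]
  exact Nat.mul_le_mul h4 h5

theorem grow {E : Subgroup X} [hEn : E.Normal] (hE : IsElementaryAbelian 2 E) {A : Subgroup X}
    (hA : IsElementaryAbelian 2 A) (k : ℕ) (hk : 2 ^ k * Nat.card (A ⊓ E : Subgroup X) ≤ Nat.card A) :
    ∃ W : Subgroup X, W ≤ A ∧ Nat.card W = 2 ^ k * Nat.card (A ⊓ E : Subgroup X) ∧
      Nat.card E ≤ Nat.card (E ⊓ centralizer (W : Set X) : Subgroup X) ^ (2 ^ k) := by
  induction k with
  | zero =>
    refine ⟨A ⊓ E, inf_le_left, by simp, ?_⟩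
    rw [pow_zero, pow_one]
    exact card_le_of_le (le_inf le_rfl fun e he x hx => comm_of_ea hE hx.2 he)
  | succ k ih =>
    have hpos : 0 < Nat.card (A ⊓ E : Subgroup X) := Nat.card_pos
    have hpos2 : 0 < 2 ^ k * Nat.card (A ⊓ E : Subgroup X) := by positivity
    have e : 2 ^ (k + 1) * Nat.card (A ⊓ E : Subgroup X) =
      2 ^ k * Nat.card (A ⊓ E : Subgroup X) * 2 := by ring
    obtain ⟨W, hWA, hc, hle⟩ := ih (by omega)
    obtain ⟨t, htA, htW⟩ : ∃ t ∈ A, t ∉ W := by
      by_contra h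
      push Not at h
      have := card_le_of_le (show A ≤ W from h)
      omega
    have htt : t * t = 1 := by rw [← pow_two]; exact hA.2 t htA
    have htc : t ∈ centralizer (W : Set X) := fun w hw => comm_of_ea hA (hWA hw) htA
    refine ⟨W ⊔ zpowers t, sup_le hWA (by rwa [zpowers_le]), ?_, ?_⟩
    · rw [H08.card_sup_zpowers (norm_of_cent htc) (htt ▸ W.one_mem) htW, hc, e]
    · have h1 := half (F := E ⊓ centralizer (W : Set X)) (ea_of_le hE inf_le_left) htt (by
        intro f hf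
        refine ⟨hEn.conj_mem f hf.1 t, ?_⟩
        exact (centralizer (W : Set X)).mul_mem ((centralizer (W : Set X)).mul_mem htc hf.2)
          ((centralizer (W : Set X)).inv_mem htc))
      have h2 : E ⊓ centralizer (W : Set X) ⊓ centralizer {t} ≤
          E ⊓ centralizer ((W ⊔ zpowers t : Subgroup X) : Set X) := by
        rintro x ⟨⟨h1, h2⟩, h3⟩
        refine ⟨h1, ?_⟩
        have : W ⊔ zpowers t ≤ centralizer {x} := by
          refine sup_le (fun w hw => ?_) ?_
          · rw [mem_centralizer_singleton_iff]; exact h2 w hw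
          · rw [zpowers_le, mem_centralizer_singleton_iff]
            exact (h3 t rfl)
        intro y hy
        exact mem_centralizer_singleton_iff.1 (this hy)
      have h3 := card_le_of_le h2
      calc Nat.card E ≤ _ := hle
        _ ≤ (Nat.card (E ⊓ centralizer ((W ⊔ zpowers t : Subgroup X) : Set X) : Subgroup X) ^ 2) ^ (2 ^ k) :=
          Nat.pow_le_pow_left (h1.trans (Nat.pow_le_pow_left h3 2)) _
        _ = _ := by rw [← pow_mul, pow_succ']

theorem exz {E : Subgroup X} [hEn : E.Normal] (hE : IsElementaryAbelian 2 E) (hE32 : 32 ≤ Nat.card E)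
    {A : Subgroup X} (hA : IsElementaryAbelian 2 A) (h8 : Nat.card A ∣ 2 ^ 3) :
    ∃ z ∈ E, z ∈ centralizer (A : Set X) ∧ z ∉ A := by
  by_contra hc
  push Not at hc
  obtain ⟨a, ha, hA2⟩ := (Nat.dvd_prime_pow Nat.prime_two).1 h8
  have hd : Nat.card (A ⊓ E : Subgroup X) ∣ 2 ^ a := hA2 ▸ card_dvd_of_le inf_le_left
  obtain ⟨j, hj, hj2⟩ := (Nat.dvd_prime_pow Nat.prime_two).1 hd
  have e : 2 ^ (a - j) * Nat.card (A ⊓ E : Subgroup X) = Nat.card A := by
    rw [hj2, hA2, ← pow_add, Nat.sub_add_cancel hj]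
  obtain ⟨W, hWA, hW, hle⟩ := grow hE hA (a - j) e.le
  have hWe : W = A := eq_of_le_of_card_ge hWA (by rw [hW, e])
  subst hWe
  have h1 : E ⊓ centralizer (W : Set X) ≤ W ⊓ E := fun x hx => ⟨hc x hx.1 hx.2, hx.1⟩
  have h2 := card_le_of_le h1
  rw [hj2] at h2
  have h3 : 32 ≤ (2 ^ j) ^ (2 ^ (a - j)) := hE32.trans (hle.trans (Nat.pow_le_pow_left h2 _))
  interval_cases a <;> interval_cases j <;> simp at h3

/-- Let X be a finite 2-group having a normal elementary abelian subgroup of order at least 32. Then (a) for any two elementary abelian subgroups A, B of X of order 8 there is a chain A = A₁, A₂, …, Aₙ = B of elementary abelian subgroups of order 8 in which consecutive members commute elementwise; and (b) every elementary abelian subgroup of X of order 4 is contained in an elementary abelian subgroup of order 8. -/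
theorem result {X : Type*} [Group X] [Finite X]
    (hX : IsPGroup 2 X) (E : Subgroup X) [E.Normal] (hE : Cfsg.IsElementaryAbelian 2 E) (hE32 : 32 ≤ Nat.card ↥E) :
    (∀ A B : Subgroup X, Cfsg.IsElementaryAbelian 2 A → Nat.card ↥A = 8 → Cfsg.IsElementaryAbelian 2 B → Nat.card ↥B = 8 →
        Relation.ReflTransGen
          (fun C D : Subgroup X => Cfsg.IsElementaryAbelian 2 C ∧ Nat.card ↥C = 8 ∧ Cfsg.IsElementaryAbelian 2 D ∧ Nat.card ↥D = 8 ∧ ⁅C, D⁆ = ⊥)
          A B) ∧
      (∀ V : Subgroup X, Cfsg.IsElementaryAbelian 2 V → Nat.card ↥V = 4 →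
        ∃ A : Subgroup X, V ≤ A ∧ Cfsg.IsElementaryAbelian 2 A ∧ Nat.card ↥A = 8) := by
  haveI : Fact (Nat.Prime 2) := ⟨Nat.prime_two⟩
  refine ⟨?_, fun V hV h4 => ?_⟩
  swap
  · obtain ⟨z, hzE, hzc, hzV⟩ := exz hE hE32 hV (by rw [h4]; norm_num)
    have hzz : z * z = 1 := by rw [← pow_two]; exact hE.2 z hzE
    refine ⟨V ⊔ zpowers z, le_sup_left, ea_sup hV hzz hzc, ?_⟩
    rw [H08.card_sup_zpowers (norm_of_cent hzc) (hzz ▸ V.one_mem) hzV, h4]
  set r := (fun C D : Subgroup X => Cfsg.IsElementaryAbelian 2 C ∧ Nat.card ↥C = 8 ∧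
    Cfsg.IsElementaryAbelian 2 D ∧ Nat.card ↥D = 8 ∧ ⁅C, D⁆ = ⊥) with hr
  have hsymm : ∀ C D, Relation.ReflTransGen r C D → Relation.ReflTransGen r D C := by
    intro C D h
    induction h with
    | refl => exact Relation.ReflTransGen.refl
    | tail _ h ih =>
      obtain ⟨h1, h2, h3, h4, h5⟩ := h
      exact Relation.ReflTransGen.head ⟨h3, h4, h1, h2, by rw [commutator_comm]; exact h5⟩ ih
  have hcomm : ∀ {F C D : Subgroup X}, IsElementaryAbelian 2 F → C ≤ F → D ≤ F → ⁅C, D⁆ = ⊥ := by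
    intro F C D hF hC hD
    rw [commutator_eq_bot_iff_le_centralizer]
    intro c hc d hd
    exact comm_of_ea hF (hD hd) (hC hc)
  have key : ∀ n : ℕ, ∀ A : Subgroup X, IsElementaryAbelian 2 A → Nat.card A = 8 →
      8 - Nat.card (A ⊓ E : Subgroup X) ≤ n →
      ∃ B : Subgroup X, B ≤ E ∧ Nat.card B = 8 ∧ Relation.ReflTransGen r A B := by
    intro n
    induction n with
    | zero =>
      intro A hA h8 hn
      have : A ⊓ E = A := eq_of_le_of_card_ge inf_le_left (by omega)
      exact ⟨A, this ▸ inf_le_right, h8, Relation.ReflTransGen.refl⟩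
    | succ n ih =>
      intro A hA h8 hn
      by_cases hAE : A ≤ E
      · exact ⟨A, hAE, h8, Relation.ReflTransGen.refl⟩
      obtain ⟨z, hzE, hzc, hzA⟩ := exz hE hE32 hA (by rw [h8]; norm_num)
      have hzz : z * z = 1 := by rw [← pow_two]; exact hE.2 z hzE
      have hF := ea_sup hA hzz hzc
      have hF16 : Nat.card (A ⊔ zpowers z : Subgroup X) = 16 := by
        rw [H08.card_sup_zpowers (norm_of_cent hzc) (hzz ▸ A.one_mem) hzA, h8]
      have hzc0 : z ∈ centralizer ((A ⊓ E : Subgroup X) : Set X) := fun x hx => hzc x hx.1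
      have hK := H08.card_sup_zpowers (W := A ⊓ E) (norm_of_cent hzc0) (hzz ▸ (A ⊓ E).one_mem)
        (fun h => hzA h.1)
      have hd : Nat.card (A ⊓ E : Subgroup X) ∣ 2 ^ 3 := by
        have := card_dvd_of_le (inf_le_left : A ⊓ E ≤ A)
        rwa [h8] at this
      obtain ⟨j, hj, hj2⟩ := (Nat.dvd_prime_pow Nat.prime_two).1 hd
      have hj3 : j ≠ 3 := by
        rintro rfl
        have : A ⊓ E = A := eq_of_le_of_card_ge inf_le_left (by omega)
        exact hAE (this ▸ inf_le_right)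
      have hle : A ⊓ E ⊔ zpowers z ≤ A ⊔ zpowers z := sup_le_sup_right inf_le_left _
      obtain ⟨K, hK8, hKle⟩ := Sylow.exists_subgroup_card_pow_prime_le
        (G := (A ⊔ zpowers z : Subgroup X)) 2 (n := j + 1) (m := 3) (by rw [hF16]; norm_num)
        ((A ⊓ E ⊔ zpowers z).subgroupOf (A ⊔ zpowers z))
        (by rw [Nat.card_congr (subgroupOfEquivOfLe hle).toEquiv, hK, hj2, pow_succ]) (by omega)
      have hB8 : Nat.card (K.map (A ⊔ zpowers z).subtype) = 8 := by
        rw [card_map_of_injective (subtype_injective _), hK8]; norm_num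
      have hBle : K.map (A ⊔ zpowers z).subtype ≤ A ⊔ zpowers z := map_subtype_le K
      have hB := ea_of_le hF hBle
      have h1 : A ⊓ E ⊔ zpowers z ≤ K.map (A ⊔ zpowers z).subtype ⊓ E := by
        refine le_inf (fun x hx => ⟨⟨x, hle hx⟩, hKle hx, rfl⟩) (sup_le inf_le_right ?_)
        rwa [zpowers_le]
      have h2 := card_le_of_le h1
      have hpos : 0 < Nat.card (A ⊓ E : Subgroup X) := Nat.card_pos
      obtain ⟨B, hBE, hB8', hrel⟩ := ih _ hB hB8 (by omega)
      exact ⟨B, hBE, hB8', Relation.ReflTransGen.head ⟨hA, h8, hB, hB8, hcomm hF le_sup_left hBle⟩ hrel⟩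
  intro A B hA hA8 hB hB8
  obtain ⟨A', h1, h2, h3⟩ := key _ A hA hA8 le_rfl
  obtain ⟨B', h4, h5, h6⟩ := key _ B hB hB8 le_rfl
  exact h3.trans (Relation.ReflTransGen.head
    ⟨ea_of_le hE h1, h2, ea_of_le hE h4, h5, hcomm hE h1 h4⟩ (hsymm _ _ h6))

end Cfsg.Agent.S1785
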