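import Mathlib
import Cfsg.Statements.S1786
import Cfsg.Agent.H17.TV2
import Cfsg.Agent.H22.FStar
import Cfsg.Agent.H04.Amb

set_option autoImplicit false
open Cfsg BG

namespace Cfsg.Agent.S1786

/-- Let G be a finite group, V an elementary abelian 2-subgroup of G and M the normalizer of V; write Q for the largest normal 2-subgroup of M. Suppose (1) the generalized Fitting subgroup of M equals Q; (2) V is a maximal abelian normal subgroup of M; (3) every conjugate of V equals V or meets V trivially, and for some g ∈ G the conjugate V' = g V g⁻¹ is different from V and contained in Q. Let P be the centralizer of V in Q, W the subgroup generated by V and V', and H the subgroup generated by P and g P g⁻¹. Then: (a) V is contained in g Q g⁻¹; (b) every non-identity element of W lies in exactly one conjugate of V contained in W, H normalizes W, and H modulo the centralizer of W in H is isomorphic to the special linear group of dimension 2 over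 the field with |V| elements; (c) P = Q, and V equals the Frattini subgroup, the centre and the commutator subgroup of Q. -/
theorem result {G : Type*} [Group G] [Finite G] (V : Subgroup G)
    (hV : Cfsg.IsElementaryAbelian 2 V)
    (h1 : (Cfsg.generalizedFittingSubgroup ↥(Subgroup.normalizer (V : Set G))).map (Subgroup.normalizer (V : Set G)).subtype =
      (Cfsg.pCore 2 ↥(Subgroup.normalizer (V : Set G))).map (Subgroup.normalizer (V : Set G)).subtype)
    (h2 : ∀ A : Subgroup G, V ≤ A → A ≤ Subgroup.normalizer (V : Set G) → IsMulCommutative ↥A →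
      (∀ m ∈ Subgroup.normalizer (V : Set G), ∀ a ∈ A, m * a * m⁻¹ ∈ A) → A = V)
    (hti : ∀ x : G, V.map (MulAut.conj x).toMonoidHom = V ∨ V.map (MulAut.conj x).toMonoidHom ⊓ V = ⊥)
    (g : G) (hg : V.map (MulAut.conj g).toMonoidHom ≠ V)
    (hgQ : V.map (MulAut.conj g).toMonoidHom ≤ (Cfsg.pCore 2 ↥(Subgroup.normalizer (V : Set G))).map (Subgroup.normalizer (V : Set G)).subtype) :
    let Q : Subgroup G := (Cfsg.pCore 2 ↥(Subgroup.normalizer (V : Set G))).map (Subgroup.normalizer (V : Set G)).subtype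
    let P : Subgroup G := Q ⊓ Subgroup.centralizer (V : Set G)
    let W : Subgroup G := V ⊔ V.map (MulAut.conj g).toMonoidHom
    let H : Subgroup G := P ⊔ P.map (MulAut.conj g).toMonoidHom
    V ≤ Q.map (MulAut.conj g).toMonoidHom ∧
      (∀ w ∈ W, w ≠ 1 → ∃! U : Subgroup G, (∃ x : G, U = V.map (MulAut.conj x).toMonoidHom) ∧ U ≤ W ∧ w ∈ U) ∧
      H ≤ Subgroup.normalizer (W : Set G) ∧
      (∀ hN : ((Subgroup.centralizer (W : Set G)).subgroupOf H).Normal, ∃ (F : Type) (_ : Field F) (_ : Fintype F), Fintype.card F = Nat.card ↥V ∧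
        Nonempty (↥H ⧸ (Subgroup.centralizer (W : Set G)).subgroupOf H ≃* Matrix.SpecialLinearGroup (Fin 2) F)) ∧
      P = Q ∧ (frattini ↥Q).map Q.subtype = V ∧ (Subgroup.center ↥Q).map Q.subtype = V ∧ (commutator ↥Q).map Q.subtype = V := by
  intro Q P W H
  have h : H17.TV.Hy {X | ∃ k, X = BG.cj k V} := by
    refine ⟨?_, ?_, ?_, ?_, ?_, ?_⟩
    · rintro _ ⟨g, rfl⟩ k; exact ⟨k * g, BG.cj_cj _ _ _⟩
    · rintro _ x ⟨g, rfl⟩ hx
      obtain ⟨y, hy, rfl⟩ := BG.mem_cj'.1 hx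
      rw [← pow_two, conj_pow, hV.2 y hy]; group
    · rintro _ _ x ⟨g, rfl⟩ ⟨k, rfl⟩ a b c
      rw [eq_comm, BG.eq_cj_iff, BG.cj_cj]
      exact (hti _).resolve_right (BG.ne_bot_of_mem (x := g⁻¹ * x * g) ⟨show _ ∈ BG.cj _ V by
        rw [← BG.cj_cj]; simpa using BG.conj_mem_cj g⁻¹ b, BG.mem_cj.1 a⟩ (by
        intro e; exact c (by simpa [mul_eq_one_iff_eq_inv, inv_mul_eq_iff_eq_mul] using e)))
    · rintro _ _ ⟨g, rfl⟩ ⟨k, rfl⟩; rw [BG.card_cj, BG.card_cj]
    · rintro _ A ⟨k, rfl⟩ a b c d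
      rw [← BG.cj_norm] at b d
      refine BG.le_cj_iff.2 (h2 _ (BG.cj_le_iff.1 a) (BG.le_cj_iff.1 b) (BG.isMulCommutative_cj.2 (BG.abelian_iff.2 c))
        fun m hm x hx => BG.conj_mem_of_norm ?_ hx).le
      rw [← BG.cj_norm]
      exact BG.cj_le_iff.1 d hm
    · rintro _ ⟨k, rfl⟩
      rw [← H17.TV.qq_cj, ← BG.cj_norm, ← BG.cj_cent, ← BG.cj_inf, BG.cj_le_cj_iff]
      have e : H22.fstarOf N_(V) = H17.TV.qq V := h1
      rw [← e]
      exact (H22.inf_centralizer_fstarOf_le _).trans ((H22.fstarOf_eq _).ge.trans' le_sup_right)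
  have hX : V ∈ {X | ∃ k, X = BG.cj k V} := ⟨1, (BG.cj_one V).symm⟩
  have hY := h.cj hX g
  have hn : V ≠ BG.cj g V := fun e => hg e.symm
  have hYP : BG.cj g V ≤ H17.TV.pp V := le_inf hgQ (h.stepA hX hY hn (hgQ.trans (H17.TV.qq_le V)))
  have ha := h.sym hX hY hn hYP rfl
  have hXP : V ≤ H17.TV.pp (BG.cj g V) := le_inf ha (h.XC hX hY hn hYP)
  have eH : H = H17.TV.pp V ⊔ H17.TV.pp (BG.cj g V) := by rw [← H17.TV.pp_cj]; rfl
  have eP : H17.TV.pp V = Q := h.qq_eq hX hY hn hYP hXP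
  have e1 : ⁅Q, Q⁆ = V := eP ▸ le_antisymm (h.der hX) fun v hv => by
    obtain ⟨Z, hZ, hZP, hZY⟩ := h.b3 hX hY hn hYP
    obtain ⟨y, hy, y1⟩ := h.ex hY hX hn.symm
    obtain ⟨z, hz, e⟩ := h.b4 hX hY hn hYP hZ hZP hZY hy y1 hv
    exact e ▸ Subgroup.commutator_mem_commutator (hYP hy) (hZP hz)
  refine ⟨(H17.TV.qq_cj g V).ge.trans' ha, fun w hw w1 => ?_, eH ▸ h.nH hX hY hn hYP hXP, ?_, eP, ?_, ?_, ?_⟩
  · have e : ∃ U ∈ {X | ∃ k, X = BG.cj k V}, w ∈ U := by
      by_cases e : w ∈ V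
      · exact ⟨V, hX, e⟩
      obtain ⟨p, -, y, hy, rfl⟩ := h.b6 hX hY hn hYP hw e
      exact ⟨_, h.cj hY p, BG.conj_mem_cj p hy⟩
    obtain ⟨U, hU, e⟩ := e
    exact ⟨U, ⟨hU, h.pt_le hX hY hn hYP hU e hw w1, e⟩, fun U' a => h.ti a.1 hU a.2.2 e w1⟩
  · rw [eH]
    exact fun hN => @H17.TV.Hy.sl2 _ _ _ _ _ _ h hX hY hn hYP hXP hN
  · exact le_antisymm (BG.phi_le_of Nat.prime_two (H17.TV.qq_pg V) e1.le fun x hx => pow_two x ▸ h.sqp hX (eP.ge hx))
      (e1.ge.trans (BG.der_le_phi Nat.prime_two (H17.TV.qq_pg V)))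
  · rw [H04.map_subtype_center, ← eP]
    exact le_antisymm (h.zpp hX) (le_inf (h.le_pp hX) (BG.cent_symm inf_le_right))
  · rw [H04.map_subtype_commutator', e1]

end Cfsg.Agent.S1786
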