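import Mathlib
import Cfsg.Statements.S1850
import Cfsg.Agent.H17.CharUp

set_option autoImplicit false
open Cfsg

namespace Cfsg.Agent.S1850

/-- Let G be a non-abelian finite simple QTKE-group and T a Sylow 2-subgroup of G. If U is a nontrivial 2-subgroup of G with U ∩ Z(T) ≠ 1, then F*(N_G(U)) = O₂(N_G(U)). -/
theorem result {G : Type*} [Group G] [Finite G] [IsSimpleGroup G]
    (hG : ¬ IsMulCommutative G) (hQ : Cfsg.IsQTKE G) (T : Sylow 2 G) (U : Subgroup G)
    (hU : IsPGroup 2 ↥U) (hZ : U ⊓ ((T : Subgroup G) ⊓ Subgroup.centralizer ((T : Subgroup G) : Set G)) ≠ ⊥) :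
    Subgroup.normalizer (U : Set G) ∈ Cfsg.calHe G := by
  open H26 H17 Subgroup in
  haveI : Fact (Nat.Prime 2) := ⟨Nat.prime_two⟩
  obtain ⟨z, hz, ho⟩ := exists_orderOf_eq_of_ne_bot (hU.to_le inf_le_left) hZ
  have hzp : IsPGroup 2 (zpowers z) := IsPGroup.of_card (n := 1) (by rw [Nat.card_zpowers, ho, pow_one])
  have h1 : IsCharP 2 (normalizer ((zpowers z : Subgroup G) : Set G)) := by
    refine isCharP_iff.1 (hQ.2.2 _ ⟨_, hzp, ?_, rfl⟩ ⟨T, ?_⟩)
    · rw [Ne, zpowers_eq_bot]
      rintro rfl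
      simp at ho
    · refine le_trans ?_ (H26.centralizer_le_normalizer _)
      rw [centralizer_zpowers]
      exact mem_centralizer_iff_le.1 hz.2.2
  have h2 : IsCharP 2 (centralizer ({z} : Set G)) := by
    rw [← centralizer_zpowers]
    exact h1.of_normal (H26.centralizer_le_normalizer _) (normalizer_le_normalizer_centralizer _)
  exact H22.fstar_eq_pCore_iff.2 (isCharP_iff.2 (charP_norm_of_elt hU hz.1 h2))

end Cfsg.Agent.S1850
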