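import Mathlib
import Cfsg.Statements.S1851
import Cfsg.Agent.H26.PMin
import Cfsg.Agent.H26.Avg
import Cfsg.Agent.H26.SubN
import Cfsg.Agent.H26.Omega
import Cfsg.Agent.H22.FStar

set_option autoImplicit false
open Cfsg

namespace Cfsg.Agent.S1851

open Subgroup H26

instance factTwo : Fact (Nat.Prime 2) := ⟨Nat.prime_two⟩

theorem oddGen_eq {G : Type*} [Group G] (H : Subgroup G) : Cfsg.oddGenerated H = pResidualOf 2 H := by
  rw [pResidualOf_eq_closure, Cfsg.oddGenerated]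
  simp only [Nat.coprime_two_right]

theorem calL_facts {G : Type*} [Group G] [Finite G] {T K : Subgroup G} (hK : K ∈ Cfsg.calL T) :
    K ≠ ⊥ ∧ pResidualOf 2 K = K ∧ SubN (K ⊔ T) K ∧ pCoreOf 2 (K ⊔ T) ≠ ⊥ := by
  obtain ⟨⟨h1, h2, h3, -⟩, -, h4⟩ := hK
  have h5 : ⁅K, K⁆ = K := by
    have := congrArg (Subgroup.map (K ⊔ T).subtype) h2
    rwa [map_commutator, map_subgroupOf_eq_of_le le_sup_left] at this
  refine ⟨?_, pResidualOf_eq_of_perfect h5, subN_of_isSubnormal le_sup_left h3, fun e => h4 (pCoreOf_eq_bot_iff.1 e)⟩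
  rintro rfl
  exact h1 (bot_subgroupOf _)

/-- Let G be a non-abelian finite simple QTKE-group and T a Sylow 2-subgroup of G, and let L be a member of ℒ_f(G, T) (a member of ℒ(G, T) that lies in 𝒳 — L ≠ 1, L = O²(L), F*(L) = O₂(L) — and acts nontrivially on Ω₁(Z(O₂(L)))). Then (1) every member K of ℒ(G, T) containing L is again in ℒ_f(G, T) (a sharper form of (1) also compares the modules [Ω₁(Z(R)), L] and [Ω₁(Z(R')), K] for suitable 2-subgroups R, R'; that comparison is not included); and (2) if L is maximal under inclusion among the members of ℒ_f(G, T), then L is a maximal member of ℒ(G, T), hence a member of ℒ_f*(G, T). -/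
theorem result {G : Type*} [Group G] [Finite G] [IsSimpleGroup G]
    (hG : ¬ IsMulCommutative G) (hQ : Cfsg.IsQTKE G) (T : Sylow 2 G) (L : Subgroup G)
    (hL : L ∈ Cfsg.calLf (T : Subgroup G)) :
    (∀ K ∈ Cfsg.calL (T : Subgroup G), L ≤ K → K ∈ Cfsg.calLf (T : Subgroup G)) ∧
    ((∀ K ∈ Cfsg.calLf (T : Subgroup G), L ≤ K → K = L) → L ∈ Cfsg.calLfMax (T : Subgroup G)) := by
  have main : ∀ K ∈ Cfsg.calL (T : Subgroup G), L ≤ K → K ∈ Cfsg.calLf (T : Subgroup G) := by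
    intro K hK hLK
    obtain ⟨k1, k2, k3, k4⟩ := calL_facts hK
    obtain ⟨-, l2, l3, -⟩ := calL_facts hL.1
    set H := K ⊔ (T : Subgroup G) with hH
    set Q := pCoreOf 2 H with hQd
    have hQT : Q ≤ T := (isSyl_of_le T le_sup_right).pCoreOf_le
    have hQp : IsPGroup 2 Q := isPGroup_pCoreOf H
    have hc : IsCharP 2 H := by
      have hTN : (T : Subgroup G) ≤ normalizer (Q : Set G) := le_sup_right.trans (le_normalizer_pCoreOf H)
      have h1 : IsCharP 2 (normalizer (Q : Set G)) := isCharP_iff.1 (hQ.2.2 _ ⟨Q, hQp, k4, rfl⟩ ⟨T, hTN⟩)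
      exact h1.of_pCoreOf_le (le_normalizer_pCoreOf H) ((isSyl_of_le T hTN).pCoreOf_le.trans le_sup_right)
    refine ⟨hK, ⟨k1, (oddGen_eq K).trans k2, H22.fstar_eq_pCore_iff.2 (isCharP_iff.2 (k3.isCharP hc))⟩, fun hV => hL.2.2 ?_⟩
    change ⁅omegaOne 2 (pCoreOf 2 K ⊓ centralizer (pCoreOf 2 K : Set G)), K⁆ = ⊥ at hV
    change ⁅omegaOne 2 (pCoreOf 2 L ⊓ centralizer (pCoreOf 2 L : Set G)), L⁆ = ⊥
    set W := omegaOne 2 (Q ⊓ centralizer (Q : Set G)) with hW
    set U := omegaOne 2 (pCoreOf 2 L ⊓ centralizer (pCoreOf 2 L : Set G)) with hU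
    have hKH : K ≤ H := le_sup_left
    have hHQ : H ≤ normalizer (Q : Set G) := le_normalizer_pCoreOf H
    have hQK : Q ≤ normalizer (K : Set G) := k2 ▸ k3.pCoreOf_le_normalizer
    have hKW : K ≤ normalizer (W : Set G) := le_normalizer_omegaZ (hKH.trans hHQ)
    have w1 : ⁅W, K⁆ ≤ W := commutator_le_of_le_normalizer hKW
    have w2 : ⁅W, K⁆ ≤ K := commutator_le_of_le_normalizer' ((omegaZ_le Q).trans hQK)
    have w3 : ⁅W, K⁆ ≤ omegaOne 2 (pCoreOf 2 K ⊓ centralizer (pCoreOf 2 K : Set G)) := fun v hv =>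
      mem_omegaZ.2 ⟨inf_pCoreOf_le hKH ⟨w2 hv, omegaZ_le Q (w1 hv)⟩,
        centralizer_anti k3.pCoreOf_le (omegaZ_le_centralizer Q (w1 hv)), (mem_omegaZ.1 (w1 hv)).2.2⟩
    have w4 : K ≤ centralizer (W : Set G) := by
      rw [← k2]
      exact pResidualOf_le_centralizer_of_quadratic (isPGroup_omegaZ Q) hKW
        (le_bot_iff.1 ((commutator_mono w3 le_rfl).trans hV.le))
    have hQM : Q ≤ pCoreOf 2 (L ⊔ T) :=
      pCoreOf_le_pCoreOf_of_le (sup_le_sup_right hLK _) (hQT.trans le_sup_right)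
    have hQL : Q ≤ normalizer (L : Set G) := l2 ▸ hQM.trans l3.pCoreOf_le_normalizer
    have hLQ : ⁅Q, L⁆ ≤ pCoreOf 2 L := le_trans (le_inf (commutator_le_of_le_normalizer' hQL)
      (commutator_le_of_le_normalizer (hLK.trans (hKH.trans hHQ)))) (inf_pCoreOf_le (hLK.trans hKH))
    rw [commutator_eq_bot_iff', ← l2, pResidualOf_le_iff]
    intro x hx hco
    refine pxq_mod (D := Q) (isPGroup_omegaZ _) (le_normalizer_omegaZ (le_normalizer_pCoreOf' hQL))
      (by rw [pResidualOf_eq_bot hQp]; exact bot_le) hco (le_normalizer_omegaZ (le_normalizer_pCoreOf L) hx)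
      (((commutator_mono le_rfl (zpowers_le.2 hx)).trans hLQ).trans (le_centralizer_omegaZ _)) ?_
    refine le_trans (fun v hv => ?_) (mem_centralizer_iff_le.1 (w4 (hLK hx)))
    have hvH : v ∈ H := hKH (hLK (pCoreOf_le L (omegaZ_le _ hv.1)))
    exact mem_omegaZ.2 ⟨hc ⟨hvH, hv.2⟩, hv.2, (mem_omegaZ.1 hv.1).2.2⟩
  exact ⟨main, fun h => ⟨⟨hL.1, fun K hK hLK => h K (main K hK hLK) hLK⟩, hL.2⟩⟩

end Cfsg.Agent.S1851
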