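import Mathlib
import Cfsg.Statements.S1957
import Cfsg.Agent.H26.Misc
import Cfsg.Agent.H26.Omega
import Cfsg.Agent.H01.Generation
import Cfsg.Agent.H08.Util

set_option autoImplicit false
open Cfsg

namespace Cfsg.Agent.S1957

/-- Let `G` be a finite non-abelian simple group in which every local subgroup is solvable and which is of characteristic 2 type. Let `P` be a Sylow 2-subgroup of `G` and `U` a normal subgroup of `P` that is a four-group, with `U` central in `P` if the centre of `P` is not cyclic. Then `U` centralizes every subgroup of odd order of `G` that it normalizes. -/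
theorem result {G : Type*} [Group G] [Finite G]
    [IsSimpleGroup G] (hna : ¬ IsMulCommutative G) (hN : Cfsg.IsNGroup G) (h2 : Cfsg.IsCharacteristicTwoType G)
    (P : Sylow 2 G) (U : Subgroup G) (hUP : U ≤ (P : Subgroup G)) (hUn : (P : Subgroup G) ≤ Subgroup.normalizer (U : Set G))
    (hU4 : IsKleinFour ↥U)
    (hUZ : ¬ IsCyclic ↥((P : Subgroup G) ⊓ Subgroup.centralizer ((P : Subgroup G) : Set G)) →
      U ≤ Subgroup.centralizer ((P : Subgroup G) : Set G))
    (K : Subgroup G) (hK : Odd (Nat.card K)) (hUK : U ≤ Subgroup.normalizer (K : Set G)) :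
    U ≤ Subgroup.centralizer (K : Set G) := by
  open Subgroup H26 commutatorElement in
  haveI : IsMulCommutative U := IsKleinFour.isMulCommutative
  have hU2 : IsPGroup 2 U := P.2.to_le hUP
  have hsq : ∀ u ∈ U, u * u = 1 := fun u hu => congrArg Subtype.val (IsKleinFour.mul_self (⟨u, hu⟩ : U))
  have hUc : U ≤ centralizer (U : Set G) := isMulCommutative_iff_le.1 inferInstance
  have hU1 : U ≠ ⊥ := fun h => by
    have := hU4.card_four
    rw [h, card_bot] at this
    omega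
  obtain ⟨⟨z, hzU, hzP⟩, hz⟩ := ne_bot_iff_exists_ne_one.1 (inf_centralizer_ne_bot P.2 hU2 hU1 hUn)
  have hz1 : z ≠ 1 := fun h => hz (Subtype.ext h)
  have hK4 : ∀ v ∈ U, ∀ w ∈ U, v ≠ 1 → v ≠ z → w = 1 ∨ w = z ∨ w = v ∨ w = z * v := by
    intro v hv w hw h1 h2
    by_contra h
    push Not at h
    exact h.2.2.2 (congrArg Subtype.val (IsKleinFour.eq_mul_of_ne_all (G := U) (x := ⟨z, hzU⟩)
      (y := ⟨v, hv⟩) (z := ⟨w, hw⟩) (fun e => hz1 (congrArg Subtype.val e)) (fun e => h1 (congrArg Subtype.val e))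
      (fun e => h2 (congrArg Subtype.val e).symm) (fun e => h.1 (congrArg Subtype.val e))
      (fun e => h.2.1 (congrArg Subtype.val e)) (fun e => h.2.2.1 (congrArg Subtype.val e))))
  have hidx : ((P : Subgroup G) ⊓ centralizer (U : Set G)).relIndex P ∣ 2 := by
    by_cases hc : (P : Subgroup G) ≤ centralizer (U : Set G)
    · rw [inf_eq_left.2 hc, relIndex_self]; omega
    obtain ⟨a, ha, hac⟩ := SetLike.not_le_iff_exists.1 hc
    have key : ∀ b ∈ (P : Subgroup G), b ∉ centralizer (U : Set G) → ∀ v ∈ U, v ≠ 1 → v ≠ z →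
        b * v * b⁻¹ = z * v := by
      intro b hb hbc v hv h1 h2
      have hbz : b * z * b⁻¹ = z := by rw [hzP b hb]; group
      rcases hK4 v hv _ ((mem_normalizer_iff.1 (hUn hb) v).1 hv) h1 h2 with e | e | e | e
      · exact absurd (by simpa using e) h1
      · exact absurd (by simpa using e.trans hbz.symm) h2
      · refine absurd (fun w hw => ?_) hbc
        rw [mul_inv_eq_iff_eq_mul] at e hbz
        rcases hK4 v hv w hw h1 h2 with rfl | rfl | rfl | rfl
        · simp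
        · exact hbz.symm
        · exact e.symm
        · rw [mul_assoc, ← e, ← mul_assoc, ← hbz, mul_assoc]
      · exact e
    refine relIndex_dvd_two_iff.2 ⟨a, ha, fun b hb => or_iff_not_imp_right.2 fun hb' =>
      ⟨mul_mem hb ha, fun v hv => ?_⟩⟩
    have hbz : ∀ b ∈ (P : Subgroup G), b * z * b⁻¹ = z := fun b hb => by rw [hzP b hb]; group
    rw [eq_comm, ← mul_inv_eq_iff_eq_mul]
    by_cases h1 : v = 1
    · simp [h1]
    by_cases h2 : v = z
    · rw [h2, hbz _ (mul_mem hb ha)]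
    calc b * a * v * (b * a)⁻¹ = b * (a * v * a⁻¹) * b⁻¹ := by group
      _ = (b * z * b⁻¹) * (b * v * b⁻¹) := by rw [key a ha hac v hv h1 h2]; group
      _ = v := by rw [hbz b hb, key b hb (fun e => hb' ⟨hb, e⟩) v hv h1 h2, ← mul_assoc, hsq z hzU,
        one_mul]
  refine H01.le_centralizer_of_forall_centralizer IsKleinFour.not_isCyclic hUK ?_ fun u hu hu1 => ?_
  · rw [hU4.card_four]
    exact Nat.Coprime.pow_left 2 (Nat.coprime_two_left.2 hK)
  have hu2 : orderOf u = 2 := H08.orderOf_eq_two_iff'.2 ⟨hsq u hu, hu1⟩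
  obtain ⟨C, hC⟩ : ∃ C, C = normalizer (zpowers u : Set G) := ⟨_, rfl⟩
  have hCc : IsCharP 2 C := hC ▸ isCharP_iff.1 (h2.2 _ (H08.isPGroup_zpowers_of_orderOf hu2)
    (by simpa using hu1))
  have hC1 : centralizer ({u} : Set G) ≤ C := by
    rw [hC, ← centralizer_zpowers]; exact H26.centralizer_le_normalizer _
  have hC2 : C ≤ centralizer ({u} : Set G) := fun g hg => by
    rw [hC] at hg
    rcases H08.eq_of_mem_zpowers_invol hu2 ((mem_normalizer_iff.1 hg u).1 (mem_zpowers u)) with e | e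
    · exact absurd (by simpa using e) hu1
    · exact H08.mem_centralizer_singleton'.2 e
  obtain ⟨P₀, hP₀⟩ : ∃ P₀, P₀ = (P : Subgroup G) ⊓ centralizer (U : Set G) := ⟨_, rfl⟩
  rw [← hP₀] at hidx
  have hP₀P : P₀ ≤ P := hP₀ ▸ inf_le_left
  have hP₀U : P₀ ≤ centralizer (U : Set G) := hP₀ ▸ inf_le_right
  have hUP₀ : U ≤ P₀ := hP₀ ▸ le_inf hUP hUc
  obtain ⟨T, hT, hPT⟩ := exists_isSyl_ge (P.2.to_le hP₀P) (show P₀ ≤ C from fun g hg =>
    hC1 (mem_centralizer_singleton_iff.2 (hP₀U hg u hu).symm))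
  have hTv : ∀ v ∈ U, ∀ t ∈ T, ⁅v, t⁆ ∈ zpowers u := by
    intro v hv t ht
    by_cases htP : t ∈ P₀
    · rw [commutatorElement_eq_one_iff_mul_comm.2 (hP₀U htP v hv)]; exact one_mem _
    have c1 := (isSyl_top P).card_le hT.pg le_top
    have c2 := H01.card_mul_relIndex hP₀P
    have c3 := H01.card_mul_relIndex hPT
    have c4 : P₀.relIndex T ≠ 1 := fun h => htP (relIndex_eq_one.1 h ht)
    have c5 : P₀.relIndex T ≠ 0 := index_ne_zero_of_finite
    have c6 := Nat.le_of_dvd two_pos hidx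
    have c7 : 0 < Nat.card P₀ := Nat.card_pos
    have c8 : P₀.relIndex T ≤ P₀.relIndex P := by
      refine Nat.le_of_mul_le_mul_left ?_ c7
      rw [c2, c3]; exact c1
    have c9 : P₀.relIndex T = 2 := by omega
    have c10 : P₀.relIndex P = 2 := by omega
    have hT' : IsSyl 2 T ⊤ := (isSyl_top P).of_card_le hT.pg le_top (by rw [← c2, ← c3, c9, c10])
    have hcyc : IsCyclic ↥((P : Subgroup G) ⊓ centralizer ((P : Subgroup G) : Set G)) := by
      by_contra h
      rw [hP₀, inf_eq_left.2 (le_centralizer_iff.1 (hUZ h)), relIndex_self] at c10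
      omega
    obtain ⟨g, -, hg⟩ := (isSyl_top P).exists_cj_eq hT'
    have hcyc' : IsCyclic ↥(T ⊓ centralizer (T : Set G)) := by
      rw [← hg, ← cj_centralizer, ← cj_inf]
      exact isCyclic_of_surjective _ (MonoidHom.subgroupMap_surjective _ _)
    obtain ⟨a, ha, hab⟩ := relIndex_eq_two_iff.1 c9
    have hmul : ∀ b ∈ T, b ∉ P₀ → ∀ c ∈ T, c ∉ P₀ → b * c⁻¹ ∈ P₀ := fun b hb h1 c hc h2 => by
      have := mul_mem (((hab b hb).or).resolve_right h1) (inv_mem (((hab c hc).or).resolve_right h2))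
      simpa [mul_assoc] using this
    have hn : ∀ b ∈ T, ∀ x ∈ P₀, b * x * b⁻¹ ∈ P₀ := fun b hb x hx => by
      by_cases h : b ∈ P₀
      · exact mul_mem (mul_mem h hx) (inv_mem h)
      · exact hmul _ (mul_mem hb (hPT hx)) (fun e => h ((mul_mem_cancel_right hx).1 e)) b hb h
    have hvi : v⁻¹ = v := inv_eq_of_mul_eq_one_right (hsq v hv)
    have hvt : ∀ x ∈ P₀, x * (t * v * t⁻¹) = (t * v * t⁻¹) * x := fun x hx => by
      have h1 := hP₀U (hn t⁻¹ (inv_mem ht) x hx) v hv
      calc x * (t * v * t⁻¹) = t * (t⁻¹ * x * t⁻¹⁻¹ * v) * t⁻¹ := by group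
        _ = _ := by rw [← h1]; group
    have hw : ⁅v, t⁆ = v * (t * v * t⁻¹) := by rw [commutatorElement_def, hvi]; group
    have hwP : ∀ x ∈ P₀, x * ⁅v, t⁆ = ⁅v, t⁆ * x := fun x hx => by
      rw [hw, ← mul_assoc, ← hP₀U hx v hv, mul_assoc, hvt x hx]; group
    have hvv := hvt v (hUP₀ hv)
    have hwt : t * ⁅v, t⁆ = ⁅v, t⁆ * t := by
      have h1 := hP₀U (hmul t ht htP t⁻¹ (inv_mem ht) (fun e => htP (inv_mem_iff.1 e))) v hv
      rw [hw, hvv]
      calc t * (t * v * t⁻¹ * v) = t * (v * (t * v * t⁻¹)) := by rw [hvv]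
        _ = t * v * t⁻¹ * ((t * t⁻¹⁻¹) * v) * t⁻¹ := by group
        _ = _ := by rw [← h1]; group
    have hwZ : ⁅v, t⁆ ∈ T ⊓ centralizer (T : Set G) := by
      refine ⟨hw ▸ mul_mem (hPT (hUP₀ hv)) (hPT (hn t ht v (hUP₀ hv))), fun s hs => ?_⟩
      by_cases h : s ∈ P₀
      · exact hwP s h
      · have h1 := hwP _ (hmul s hs h t ht htP)
        calc s * ⁅v, t⁆ = s * t⁻¹ * (t * ⁅v, t⁆) := by group
          _ = _ := by rw [hwt, ← mul_assoc, h1]; group
    by_cases h1 : ⁅v, t⁆ = 1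
    · rw [h1]; exact one_mem _
    have h2 : orderOf ⁅v, t⁆ = 2 := H08.orderOf_eq_two_iff'.2 ⟨by
      rw [hw]
      calc v * (t * v * t⁻¹) * (v * (t * v * t⁻¹)) = v * ((t * v * t⁻¹) * v) * (t * v * t⁻¹) := by group
        _ = (v * v) * (t * (v * v) * t⁻¹) := by rw [← hvv]; group
        _ = 1 := by rw [hsq v hv]; group, h1⟩
    rw [H08.invol_eq_of_isCyclic h2 hu2 hwZ ⟨hPT (hUP₀ hu), fun s hs =>
      mem_centralizer_singleton_iff.1 (hC2 (hT.le hs))⟩]
    exact mem_zpowers u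
  have hCn : C ≤ normalizer (zpowers u : Set G) := hC.le
  have hUD : U ≤ commKer (pCoreOf 2 C) (zpowers u) := le_commKer_iff.2
    ⟨hUP₀.trans (hPT.trans (hT.le.trans hCn)), commutator_le.2 fun v hv t ht =>
      hTv v hv t (hT.pCoreOf_le ht)⟩
  have hDn := le_normalizer_commKer (le_normalizer_pCoreOf (p := 2) C) hCn
  intro x hx v hv
  have hxC := hC1 hx.2
  have h1 : ⁅v, x⁆ ∈ commKer (pCoreOf 2 C) (zpowers u) :=
    commutatorElement_mem_of_mem_normalizer' (hDn hxC) (hUD hv)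
  have h2 : (orderOf ⁅v, x⁆).Coprime 2 := Nat.coprime_two_right.2
    (H08.odd_orderOf_of_mem hK (commutatorElement_mem_of_mem_normalizer (hUK hv) hx.1))
  have h3 : ⁅v, x⁆ ∈ C := commutatorElement_mem_of_mem_normalizer
    (le_normalizer (hT.le (hPT (hUP₀ hv)))) hxC
  refine commutatorElement_eq_one_iff_mul_comm.1 (hCc.eq_one h3 h2 ?_)
  refine mem_centralizer_of_two_step (H08.isPGroup_zpowers_of_orderOf hu2) h2 (fun q hq => ?_) ?_
  · exact (le_commKer_iff.1 (zpowers_le.2 h1)).2 (commutator_mem_commutator (mem_zpowers _) hq)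
  · rw [centralizer_zpowers]; exact hC2 h3

end Cfsg.Agent.S1957
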