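import Mathlib
import Cfsg.Statements.S1958
import Cfsg.Agent.H22.Balance

set_option autoImplicit false
open Cfsg

namespace Cfsg.Agent.S1958

open BG

/-- Let `G` be a finite group, `p` a prime, and `x, y` commuting elements of order `p` whose centralizers `C_G(x)` and `C_G(y)` are both solvable. Then `O_{p'}(C_G(x)) ∩ C_G(y) = O_{p'}(C_G(y)) ∩ C_G(x)` (balance). -/
theorem result {G : Type*} [Group G] [Finite G]
    (p : ℕ) [Fact p.Prime] (x y : G) (hx : orderOf x = p) (hy : orderOf y = p) (hxy : x * y = y * x)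
    (hCx : Group.IsSolvable ↥(Subgroup.centralizer ({x} : Set G))) (hCy : Group.IsSolvable ↥(Subgroup.centralizer ({y} : Set G))) :
    Cfsg.centralizerPPrimeCore p x ⊓ Subgroup.centralizer {y} = Cfsg.centralizerPPrimeCore p y ⊓ Subgroup.centralizer {x} := by
  have hp : p.Prime := Fact.out
  have h1 : x ^ p ^ 1 = 1 := by rw [pow_one, ← hx, pow_orderOf_eq_one]
  have h2 : y ^ p ^ 1 = 1 := by rw [pow_one, ← hy, pow_orderOf_eq_one]
  have a := H22.cpc_balance hp h1 hxy (H22.pLay_eq_bot_of_sol hp hCy)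
  have b := H22.cpc_balance hp h2 hxy.symm (H22.pLay_eq_bot_of_sol hp hCx)
  have c : ∀ z : G, Cfsg.centralizerPPrimeCore p z ≤ C_[z] := fun z => by rw [H22.cpc_eq hp]; exact pcore_le _ _
  exact le_antisymm (le_inf a (inf_le_left.trans (c x))) (le_inf b (inf_le_left.trans (c y)))

end Cfsg.Agent.S1958
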