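import Mathlib
import Cfsg.Statements.S1968
import Cfsg.Agent.H17.CF3

set_option autoImplicit false
open Cfsg

namespace Cfsg.Agent.S1968

/-- Let p be a prime, G a finite group with Sylow p-subgroup S and W a conjugacy functor for p on G with Z(P) ≤ W(P) for every p-subgroup P. Let A be a subgroup of Z(S) normalized by N_G(W(S)) that is not weakly closed in S with respect to G. Then there is a subgroup T of S, well placed in S with respect to W, such that: A ≤ T; N_G(W(N_S(T))) normalizes A; N_S(T) is a Sylow p-subgroup of N_G(T); A ≤ Z(N_S(T)); and A is not weakly closed in N_S(T) with respect to N_G(T), that is, some N_G(T)-conjugate of A other than A lies in N_S(T). -/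
theorem result {G : Type*} [Group G] [Finite G] {p : ℕ} [Fact p.Prime] (S : Sylow p G) (W : Subgroup G → Subgroup G) (hW : Cfsg.IsConjugacyFunctor p W) (hWZ : ∀ P : Subgroup G, IsPGroup p ↥P → P ⊓ Subgroup.centralizer (P : Set G) ≤ W P) (A : Subgroup G) (hAZ : A ≤ (S : Subgroup G) ⊓ Subgroup.centralizer ((S : Subgroup G) : Set G)) (hAN : Subgroup.normalizer ((W (S : Subgroup G) : Subgroup G) : Set G) ≤ Subgroup.normalizer ((A : Subgroup G) : Set G)) (hnwc : ¬ Cfsg.IsWeaklyClosed A (S : Subgroup G)) : ∃ T : Subgroup G, Cfsg.IsWellPlaced p W (S : Subgroup G) T ∧ A ≤ T ∧ Subgroup.normalizer ((W ((S : Subgroup G) ⊓ Subgroup.normalizer ((T : Subgroup G) : Set G)) : Subgroup G) : Set G) ≤ Subgroup.normalizer ((A : Subgroup G) : Set G) ∧ ¬ p ∣ ((S : Subgroup G) ⊓ Subgroup.normalizer ((T : Subgroup G) : Set G)).relIndex (Subgroup.normalizer ((T : Subgroup G) : Set G)) ∧ A ≤ Subgroup.centralizer (((S : Subgroup G) ⊓ Subgroup.normalizer ((T : Subgroup G) : Set G) : Subgroup G) : Set G) ∧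 ∃ g ∈ Subgroup.normalizer ((T : Subgroup G) : Set G), A.map (MulAut.conj g).toMonoidHom ≤ (S : Subgroup G) ⊓ Subgroup.normalizer ((T : Subgroup G) : Set G) ∧ A.map (MulAut.conj g).toMonoidHom ≠ A := by
  obtain ⟨T, h1, h2, h3, h4⟩ := H17.exists_wp_not_wc hW hWZ (H26.isSyl_top S) (X := A) hAZ
    (fun y hy => by rw [H17.cjs_coe, H26.cj_eq_of_mem_normalizer (hAN hy.2)])
    (fun h => hnwc ⟨hAZ.trans inf_le_left, fun g hg =>
      SetLike.coe_injective (h g (Subgroup.mem_top _) hg)⟩)
  refine ⟨T, (H17.wp_top_iff S).mp h1, h2, fun y hy => ?_, (H17.extr_top_iff S).mp h1.extr,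
    hAZ.trans (inf_le_right.trans (Subgroup.centralizer_le inf_le_left)), ?_⟩
  · exact H26.cj_eq_iff.mp (SetLike.coe_injective (h3 y ⟨Subgroup.mem_top _, hy⟩))
  · by_contra hc
    push Not at hc
    exact h4 fun g hg hle => congrArg SetLike.coe (hc g hg.2 hle)

end Cfsg.Agent.S1968
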