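import Mathlib
import Cfsg.Statements.S1969
import Cfsg.Agent.H03.Ctl2

set_option autoImplicit false
universe u
open Cfsg

namespace Cfsg.Agent.S1969

/-- Let p be a prime, G a finite group and W an isomorphism-invariant p-group functor (W assigns to every group Q a subgroup W(Q), nontrivial whenever Q is a nontrivial finite p-group, and every isomorphism from a finite p-group Q onto a group R carries W(Q) onto W(R)). Suppose that W(S*) is normal in G* whenever G* = K/R is a section of G with C_{G*}(O_p(G*)) ≤ O_p(G*) and S* is a Sylow p-subgroup of G*. Then W controls strong fusion in every section of G: for every section K/R and every Sylow p-subgroup T of K/R, the subgroup W(T) controls strong fusion in K/R. -/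
theorem result {G : Type u} [Group G] [Finite G] {p : ℕ} [Fact p.Prime] (W : ∀ (Q : Type u) [Group Q], Subgroup Q) (hW : Cfsg.IsCharPFunctor.{u} p W) (hloc : ∀ (K R : Subgroup G) [hR : (R.subgroupOf K).Normal], Subgroup.centralizer ((Cfsg.pCore p (↥K ⧸ R.subgroupOf K) : Subgroup (↥K ⧸ R.subgroupOf K)) : Set (↥K ⧸ R.subgroupOf K)) ≤ Cfsg.pCore p (↥K ⧸ R.subgroupOf K) → ∀ T : Sylow p (↥K ⧸ R.subgroupOf K), (Cfsg.inducedFunctor (G := (↥K ⧸ R.subgroupOf K)) W ((T : Subgroup (↥K ⧸ R.subgroupOf K)))).Normal) : ∀ (K R : Subgroup G) [hR : (R.subgroupOf K).Normal], ∀ T : Sylow p (↥K ⧸ R.subgroupOf K), Cfsg.ControlsStrongFusion p (Cfsg.inducedFunctor (G := (↥K ⧸ R.subgroupOf K)) W ((T : Subgroup (↥K ⧸ R.subgroupOf K)))) := by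
  intro K R hR T
  let F := H03.AmbF.ofChar W hW
  refine (F.ctl (fun H _ => H17.Sec H G) True (fun H _ K h => H03.sec_sub K h)
    (fun H _ N _ h => H03.sec_quo N h) ?_ _ (H17.sec_iff_involves.2 ⟨K, R, hR, ⟨MulEquiv.refl _⟩⟩) T T
    (H03.sc_self _) (fun _ => rfl)).controlsStrongFusion (F.le _ _)
  intro H _ _ hX hc P D _ hf
  obtain rfl := hf trivial
  obtain ⟨K, R, hR, ⟨e⟩⟩ := H17.sec_iff_involves.1 hX
  have h1 := hloc K R (by
    rw [← H02.pCore_comap_equiv e]
    intro x hx
    exact hc fun y hy => by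
      obtain ⟨y, rfl⟩ := e.surjective y
      exact ((map_mul e _ _).symm.trans (congrArg e (hx y hy))).trans (map_mul e _ _)) (P.mapSurjective (f := e.symm.toMonoidHom) e.symm.surjective)
  have h2 := F.map _ _ e.symm.toMonoidHom _ P.2 e.symm.injective.injOn
  have h3 : ((F.W H P).map e.symm.toMonoidHom).Normal := h2 ▸ h1
  have h4 := h3.comap e.symm.toMonoidHom
  rw [Subgroup.comap_map_eq_self_of_injective e.symm.injective] at h4
  exact H03.Ctl.of_le Subgroup.le_normalizer_of_normal

end Cfsg.Agent.S1969
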