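import Mathlib
import Cfsg.Statements.S1970
import Cfsg.Agent.H17.Red2

set_option autoImplicit false
universe u
open Cfsg

namespace Cfsg.Agent.S1970

/-- Let p be a prime, G a finite group and W an isomorphism-invariant p-group functor (W assigns to every group Q a subgroup W(Q), nontrivial whenever Q is a nontrivial finite p-group, and every isomorphism from a finite p-group Q onto a group R carries W(Q) onto W(R)). Suppose that for every section G* = K/R of G with C_{G*}(O_p(G*)) ≤ O_p(G*) and every Sylow p-subgroup S* of G*, one has O_p(G*) ∩ (G*)' = O_p(G*) ∩ (N_{G*}(W(S*)))'. Then W controls transfer in every section G* of G: S* ∩ (G*)' = S* ∩ (N_{G*}(W(S*)))' for a Sylow p-subgroup S* of G*. -/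
theorem result {G : Type u} [Group G] [Finite G] {p : ℕ} [Fact p.Prime] (W : ∀ (Q : Type u) [Group Q], Subgroup Q) (hW : Cfsg.IsCharPFunctor.{u} p W) (hloc : ∀ (K R : Subgroup G) [hR : (R.subgroupOf K).Normal], Subgroup.centralizer ((Cfsg.pCore p (↥K ⧸ R.subgroupOf K) : Subgroup (↥K ⧸ R.subgroupOf K)) : Set (↥K ⧸ R.subgroupOf K)) ≤ Cfsg.pCore p (↥K ⧸ R.subgroupOf K) → ∀ T : Sylow p (↥K ⧸ R.subgroupOf K), Cfsg.pCore p (↥K ⧸ R.subgroupOf K) ⊓ commutator (↥K ⧸ R.subgroupOf K) = Cfsg.pCore p (↥K ⧸ R.subgroupOf K) ⊓ ⁅Subgroup.normalizer ((Cfsg.inducedFunctor (G := (↥K ⧸ R.subgroupOf K)) W ((T : Subgroup (↥K ⧸ R.subgroupOf K))) : Subgroup (↥K ⧸ R.subgroupOf K)) : Set (↥K ⧸ R.subgroupOf K)), Subgroup.normalizer ((Cfsg.inducedFunctor (G := (↥K ⧸ R.subgroupOf K)) W ((T : Subgroup (↥K ⧸ R.subgroupOf K))) : Subgroup (↥K ⧸ R.subgroupOf K)) : Set (↥K ⧸ R.subgroupOf K))⁆) : ∀ (K R : Subgroup G) [hR : (R.subgroupOf K).Normal], Cfsg.ControlsTransferIn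 p (Cfsg.inducedFunctor (G := (↥K ⧸ R.subgroupOf K)) W) ⊤ := by
  intro K R hR
  refine H17.trIn_iff_fam_single.2 (H17.famTr_of_min (H17.forall_single hW) (fun H _ _ hH h => ?_) _
    (H17.sec_quot K R))
  obtain ⟨K, R, hR, ⟨e⟩⟩ := H17.sec_elim hH
  obtain ⟨S⟩ : Nonempty (Sylow p H) := inferInstance
  obtain ⟨Q, hQ⟩ := H17.exists_sylow_equiv e S
  have h1 := hloc K R (H17.charP_equiv e h.charP) Q
  rw [hQ, H17.ind_map hW _ S.2 e.injective.injOn, ← H17.normalizer_map_equiv, ← H17.pCore_map_equiv' e,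
    commutator_def, ← Subgroup.map_top_of_surjective e.toMonoidHom e.surjective, ← Subgroup.map_commutator,
    ← Subgroup.map_commutator, ← Subgroup.map_inf _ _ _ e.injective, ← Subgroup.map_inf _ _ _ e.injective] at h1
  have h2 := Subgroup.map_injective e.injective h1
  refine h.not_le S ((h.le_sup S (h.ne_pCore S (Set.singleton_nonempty W))).trans (sup_le le_rfl ?_))
  have h3 := H17.le_famT (𝓦 := H17.fam {W} H) ⟨W, rfl, rfl⟩ ⊤ (S : Subgroup H)
  rw [top_inf_eq] at h3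
  exact h2.le.trans ((inf_le_inf_right _ (H26.pCore_le_sylow S)).trans h3)

end Cfsg.Agent.S1970
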