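import Mathlib
import Cfsg.Statements.S1971
import Cfsg.Agent.H17.Red2

set_option autoImplicit false
universe u
open Cfsg

namespace Cfsg.Agent.S1971

/-- Let p be a prime, G a finite group with nontrivial Sylow p-subgroup S, and W an isomorphism-invariant p-group functor (W assigns to every group Q a subgroup W(Q), nontrivial whenever Q is a nontrivial finite p-group, and every isomorphism from a finite p-group Q onto a group R carries W(Q) onto W(R)) that controls transfer in every section of G. If N_G(S)/C_G(S) is a p-group (every element of N_G(S) of order prime to p centralizes S), then G has a normal subgroup of index p. -/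
theorem result {G : Type u} [Group G] [Finite G] {p : ℕ} [Fact p.Prime] (W : ∀ (Q : Type u) [Group Q], Subgroup Q) (hW : Cfsg.IsCharPFunctor.{u} p W) (hctl : ∀ (K R : Subgroup G) [hR : (R.subgroupOf K).Normal], Cfsg.ControlsTransferIn p (Cfsg.inducedFunctor (G := (↥K ⧸ R.subgroupOf K)) W) ⊤) (S : Sylow p G) (hS : (S : Subgroup G) ≠ ⊥) (hN : ∀ g ∈ Subgroup.normalizer (((S : Subgroup G) : Subgroup G) : Set G), (orderOf g).Coprime p → g ∈ Subgroup.centralizer ((S : Subgroup G) : Set G)) : ∃ N : Subgroup G, N.Normal ∧ N.index = p := by
  refine H17.exists_normal_index_of_not_le S (H17.not_le_commutator_of_tr hW (fun H _ _ hH => ?_) G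
    H03.sec_refl S hS (H17.normalizer_le_sup_of_coprime S hN))
  obtain ⟨K, R, hR, ⟨e⟩⟩ := H17.sec_elim hH
  exact H17.trIn_iff_fam_single.2 (H17.famTr_equiv (H17.forall_single hW) e.symm
    (H17.trIn_iff_fam_single.1 (hctl K R)))

end Cfsg.Agent.S1971
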