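import Mathlib
import Cfsg.Statements.S1972
import Cfsg.Agent.H17.Red2

set_option autoImplicit false
universe u
open Cfsg

namespace Cfsg.Agent.S1972

/-- Let p be a prime, G a finite group and W an isomorphism-invariant p-group functor (W assigns to every group Q a subgroup W(Q), nontrivial whenever Q is a nontrivial finite p-group, and every isomorphism from a finite p-group Q onto a group R carries W(Q) onto W(R)). Suppose that whenever G* = K/R is a section of G with C_{G*}(O_p(G*)) ≤ O_p(G*) and S* is a Sylow p-subgroup of G* with W(S*) not normal in G*, there is an element g of S* outside O_p(G*) such that [X, g, …, g] ≤ Y with p − 1 entries g, for every chief factor X/Y of G* with X ≤ O_p(G*). Then W controls transfer in every section of G. -/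
theorem result {G : Type u} [Group G] [Finite G] {p : ℕ} [Fact p.Prime] (W : ∀ (Q : Type u) [Group Q], Subgroup Q) (hW : Cfsg.IsCharPFunctor.{u} p W) (hloc : ∀ (K R : Subgroup G) [hR : (R.subgroupOf K).Normal], Subgroup.centralizer ((Cfsg.pCore p (↥K ⧸ R.subgroupOf K) : Subgroup (↥K ⧸ R.subgroupOf K)) : Set (↥K ⧸ R.subgroupOf K)) ≤ Cfsg.pCore p (↥K ⧸ R.subgroupOf K) → ∀ T : Sylow p (↥K ⧸ R.subgroupOf K), ¬ (Cfsg.inducedFunctor (G := (↥K ⧸ R.subgroupOf K)) W ((T : Subgroup (↥K ⧸ R.subgroupOf K)))).Normal → ∃ g : (↥K ⧸ R.subgroupOf K), g ∈ (T : Subgroup (↥K ⧸ R.subgroupOf K)) ∧ g ∉ Cfsg.pCore p (↥K ⧸ R.subgroupOf K) ∧ ∀ U V : Subgroup (↥K ⧸ R.subgroupOf K), Cfsg.IsChiefFactor U V → U ≤ Cfsg.pCore p (↥K ⧸ R.subgroupOf K) → Cfsg.iterCommutator U (Subgroup.zpowers g) (p - 1) ≤ V) : ∀ (K R : Subgroup G) [hR : (R.subgroupOf K).Normal], Cfsg.ControlsTransferIn p (Cfsg.inducedFunctor (G := (↥K ⧸ R.subgroupOf K)) W) ⊤ := by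
  intro K R hR
  refine H17.trIn_iff_fam_single.2 (H17.famTr_of_min (H17.forall_single hW) (fun H _ _ hH h => ?_) _
    (H17.sec_quot K R))
  obtain ⟨K, R, hR, ⟨e⟩⟩ := H17.sec_elim hH
  obtain ⟨S⟩ : Nonempty (Sylow p H) := inferInstance
  obtain ⟨Q, hQ⟩ := H17.exists_sylow_equiv e S
  obtain ⟨g, g1, g2, g3⟩ := hloc K R (H17.charP_equiv e h.charP) Q (by
    rw [hQ, H17.ind_normal_equiv hW e S.2]; exact h.not_normal S rfl)
  obtain ⟨g, rfl⟩ := e.surjective g
  rw [hQ, H17.mem_map_equiv_iff] at g1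
  rw [← H17.pCore_map_equiv' e, H17.mem_map_equiv_iff] at g2
  obtain ⟨U, V, h1, h2, h3⟩ := h.exists_chief S (Set.singleton_nonempty W) g1 g2
  have h4 := g3 _ _ (H17.chief_map_equiv e h1) (H17.pCore_map_equiv' (p := p) e ▸ Subgroup.map_mono h2)
  refine h3 ((Subgroup.map_le_map_iff_of_injective (f := e.toMonoidHom) e.injective).1 ?_)
  rwa [H17.map_iter, MonoidHom.map_zpowers]

end Cfsg.Agent.S1972
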