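import Mathlib
import Cfsg.Statements.S1975
import Cfsg.Agent.H17.KInf

set_option autoImplicit false
open Cfsg

namespace Cfsg.Agent.S1975

/-- Let P be a finite p-group. In the K-sequence of P the odd-indexed terms decrease and the even-indexed terms increase: with the numbering used here, kSeqOdd P (n+1) ≤ kSeqOdd P n and kSeqEven P n ≤ kSeqEven P (n+1) for every n. -/
theorem result {P : Type*} [Group P] [Finite P] {p : ℕ} [Fact p.Prime] (hP : IsPGroup p P) (n : ℕ) : Cfsg.kSeqOdd P (n + 1) ≤ Cfsg.kSeqOdd P n ∧ Cfsg.kSeqEven P n ≤ Cfsg.kSeqEven P (n + 1) := by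
  rw [← H17.kOdd_top, ← H17.kOdd_top, ← H17.kEven_top, ← H17.kEven_top]
  exact ⟨H17.kOdd_succ_le _ n, H17.kEven_le_succ _ n⟩

end Cfsg.Agent.S1975
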