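import Mathlib
import Cfsg.Statements.S1981
import Cfsg.Agent.H17.KInf

set_option autoImplicit false
open Cfsg

namespace Cfsg.Agent.S1981

/-- Let P be a finite p-group generated by its abelian normal subgroups. Then both K-infinity subgroups of P equal P. -/
theorem result {P : Type*} [Group P] [Finite P] {p : ℕ} [Fact p.Prime] (hP : IsPGroup p P) (hgen : ⨆ A ∈ {A : Subgroup P | A.Normal ∧ IsMulCommutative ↥A}, A = ⊤) : Cfsg.kInfLower P = ⊤ ∧ Cfsg.kInfUpper P = ⊤ := by
  rw [← H17.kLo_top, ← H17.kUp_top]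
  refine ⟨top_le_iff.1 ?_, top_le_iff.1 ?_⟩
  · refine hgen.symm.le.trans (iSup₂_le fun A hA => ?_)
    haveI := hA.1
    exact (H17.le_kEven_of_comm (H26.isMulCommutative_iff_le.1 hA.2) le_top
      (H17.norm_of_normal _ _) 0).trans (le_iSup (H17.kEven ⊤) 0)
  · refine hgen.symm.le.trans (iSup₂_le fun A hA => le_iInf fun n => ?_)
    haveI := hA.1
    exact H17.le_kOdd_of_comm (H26.isMulCommutative_iff_le.1 hA.2) le_top (H17.norm_of_normal _ _) n

end Cfsg.Agent.S1981
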