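import Mathlib
import Cfsg.Statements.S1985
import Cfsg.Agent.H17.WCl

set_option autoImplicit false
universe u
open Cfsg

namespace Cfsg.Agent.S1985

/-- Let p be an odd prime and G a finite group. Then the lower K-infinity subgroup controls weak closure of elements in G: the lower K-infinity subgroup of every p-subgroup P of G contains Z(P), and for some (equivalently, every) Sylow p-subgroup S of G, with K the lower K-infinity subgroup of S, every element of S commuting with all of N_G(K) is weakly closed in S with respect to G (every G-conjugate of it lying in S equals it). -/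
theorem result {G : Type u} [Group G] [Finite G] {p : ℕ} [Fact p.Prime] (hp : p ≠ 2) : Cfsg.ControlsWeakClosureOfElementsIn p (Cfsg.inducedFunctor (G := G) Cfsg.kInfLower) ⊤ := by
  rw [H17.induced_kInfLower]
  obtain ⟨T, hT⟩ := H26.exists_isSyl p (⊤ : Subgroup G)
  refine ⟨fun P _ => H17.center_le_kLo P, T, hT.le, hT.pg, hT.not_dvd, fun x hx h hh hxh => ?_⟩
  exact (H17.wc_elt_of_quad hp H17.isConj_kLo (fun P _ => H17.center_le_kLo P)
    (fun H T hT hn => H17.exists_quad_of_not_le_normalizer_kinf hT (Or.inl hn)) hT hx.1
    (H26.mem_centralizer_iff_le.1 hx.2)).elt hh hxh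

end Cfsg.Agent.S1985
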