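import Mathlib
import Cfsg.Statements.S1986
import Cfsg.Agent.H17.WCl

set_option autoImplicit false
universe u
open Cfsg

namespace Cfsg.Agent.S1986

/-- Let p be a prime, G a finite group with Sylow p-subgroup S, K the lower K-infinity subgroup of S, and Z the subgroup of p-th powers of elements of Z(S). Then every element of Z commuting with all of N_G(K) is weakly closed in S with respect to G, and every subgroup of Z that is normal in N_G(K) is weakly closed in S with respect to G. -/
theorem result {G : Type u} [Group G] [Finite G] {p : ℕ} [Fact p.Prime] (S : Sylow p G) (Z : Subgroup G) (hZ : Z = Subgroup.closure ((fun z : G => z ^ p) '' (((S : Subgroup G) ⊓ Subgroup.centralizer (((S : Subgroup G) : Subgroup G) : Set G) : Subgroup G) : Set G))) : (∀ x ∈ Z ⊓ Subgroup.centralizer ((Subgroup.normalizer ((Cfsg.inducedFunctor Cfsg.kInfLower (S : Subgroup G) : Subgroup G) : Set G) : Subgroup G) : Set G), ∀ g : G, g * x * g⁻¹ ∈ (S : Subgroup G) → g * x * g⁻¹ = x) ∧ ∀ A : Subgroup G, A ≤ Z → Subgroup.normalizer ((Cfsg.inducedFunctor Cfsg.kInfLower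 (S : Subgroup G) : Subgroup G) : Set G) ≤ Subgroup.normalizer ((A : Subgroup G) : Set G) → Cfsg.IsWeaklyClosed A (S : Subgroup G) := by
  rw [H17.induced_kInfLower]
  have key := fun (X : Set G) => H17.wc_pow H17.isConj_kLo (fun P _ => H17.center_le_kLo P)
    (fun H T hT hn => H17.exists_quad_of_not_le_normalizer_kinf hT (Or.inl hn))
    (H26.isSyl_top S) (X := X)
  subst hZ
  refine ⟨fun x hx g hg => (key {x} (Set.singleton_subset_iff.2 hx.1) ?_).elt trivial hg,
    fun A hA hn => H17.WC.isWeaklyClosed (hA.trans ((Subgroup.closure_le _).2 ?_))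
      (key A hA (inf_le_right.trans hn))⟩
  · rw [H17.normalizer_singleton]
    exact inf_le_right.trans (H26.mem_centralizer_iff_le.1 hx.2)
  · rintro _ ⟨z, hz, rfl⟩
    exact pow_mem hz.1 p

end Cfsg.Agent.S1986
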