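import Mathlib
import Cfsg.Statements.S1992
import Cfsg.Agent.H17.Red3
import Cfsg.Agent.S0144

set_option autoImplicit false
open Cfsg

namespace Cfsg.Agent.S1992

/-- Let G be a finite group in which, for every prime q dividing the order of G, every Sylow q-subgroup is its own normalizer. Then the order of G is a power of a single prime (G is a q-group for some prime q; for G trivial any prime works). -/
theorem result {G : Type*} [Group G] [Finite G] (h : ∀ q : ℕ, q.Prime → q ∣ Nat.card G → ∀ Q : Sylow q G, Subgroup.normalizer ((Q : Subgroup G) : Set G) = Q) : ∃ q : ℕ, q.Prime ∧ IsPGroup q G := by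
  rcases subsingleton_or_nontrivial G with h1 | h1
  · exact ⟨2, Nat.prime_two, fun g => ⟨0, Subsingleton.elim _ _⟩⟩
  have key : ∃ p : ℕ, p.Prime ∧ ∃ N : Subgroup G, N.Normal ∧ N.index = p := by
    by_cases h5 : ∃ p : ℕ, p.Prime ∧ p ∣ Nat.card G ∧ 5 ≤ p
    · obtain ⟨p, hp, hd, h5⟩ := h5
      haveI := Fact.mk hp
      obtain ⟨S⟩ : Nonempty (Sylow p G) := inferInstance
      exact ⟨p, hp, H17.exists_normal_index_of_five h5 S (S.ne_bot_of_dvd_card hd) ((h p hp hd S).le.trans le_sup_left)⟩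
    have h0 : Nat.card G ≠ 0 := Nat.card_pos.ne'
    obtain ⟨a, m, hm, e1⟩ := Nat.exists_eq_pow_mul_and_not_dvd h0 2 (by norm_num)
    obtain ⟨b, k, hk, e2⟩ := Nat.exists_eq_pow_mul_and_not_dvd (n := m) (by rintro rfl; simp at hm) 3 (by norm_num)
    have hk1 : k = 1 := Nat.eq_one_iff_not_exists_prime_dvd.2 fun q hq hd => by
      have h2 : q ≠ 2 := by rintro rfl; exact hm (e2 ▸ Dvd.dvd.mul_left hd _)
      have h3 : q ≠ 3 := by rintro rfl; exact hk hd
      have h4 : q ≠ 4 := by rintro rfl; exact absurd hq (by norm_num)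
      have := hq.two_le
      exact h5 ⟨q, hq, e1 ▸ e2 ▸ Dvd.dvd.mul_left (Dvd.dvd.mul_left hd _) _, by omega⟩
    haveI := Cfsg.Agent.S0144.result (G := G) 2 3 a b Nat.prime_two Nat.prime_three (by rw [e1, e2, hk1, mul_one])
    have h2 : (commutator G).index ≠ 1 := fun e =>
      (Group.IsSolvable.commutator_lt_top_of_nontrivial G).ne (Subgroup.index_eq_one.1 e)
    obtain ⟨p, hp, hd⟩ := Nat.exists_prime_and_dvd h2
    haveI := Fact.mk hp
    obtain ⟨S⟩ : Nonempty (Sylow p G) := inferInstance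
    refine ⟨p, hp, H17.exists_normal_index_of_not_le S fun e => S.not_dvd_index (hd.trans ?_)⟩
    exact Subgroup.index_dvd_of_le e
  obtain ⟨p, hp, N, hN, e⟩ := key
  haveI := Fact.mk hp
  refine ⟨p, hp, IsPGroup.iff_card.2 ⟨_, Nat.eq_prime_pow_of_unique_prime_dvd Nat.card_pos.ne' fun {q} hq hd => ?_⟩⟩
  by_contra hqp
  haveI := Fact.mk hq
  obtain ⟨Q⟩ : Nonempty (Sylow q G) := inferInstance
  have h2 : (Q : Subgroup G) ≤ N := fun x hx => by
    obtain ⟨k, hk⟩ := H26.isPGroup_iff_mem.1 Q.2 x hx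
    exact H26.mem_of_pow_mem_of_coprime (N.pow_index_mem x) (e ▸ (((Nat.coprime_primes hq hp).2 hqp).pow_left k
      |>.coprime_dvd_left (orderOf_dvd_of_pow_eq_one hk)))
  have h3 := (H26.isSyl_of_le Q h2).frattini_sup le_top (H17.norm_of_normal _ _)
  rw [h q hq hd Q, sup_eq_left.2 (inf_le_right.trans h2)] at h3
  rw [h3, Subgroup.index_top] at e
  exact hp.one_lt.ne e

end Cfsg.Agent.S1992
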