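import Mathlib
import Cfsg.Statements.S2004
import Cfsg.Agent.H17.Stable
import Cfsg.Agent.H17.Lift

set_option autoImplicit false
open Cfsg

namespace Cfsg.Agent.S2004

/-- Let p be an odd prime and G a finite group such that SL₂(p) is not involved in N_G(P) for any nonidentity p-subgroup P of G. Then every section of G is p-stable in the normalizer form: in each section, whenever an element of the normalizer of a p-subgroup Q acts quadratically on Q, its image in N(Q)/C(Q) lies in O_p(N(Q)/C(Q)). -/
theorem result {G : Type*} [Group G] [Finite G] {p : ℕ} [Fact p.Prime] (hp : p ≠ 2) (h : ∀ P : Subgroup G, IsPGroup p ↥P → P ≠ ⊥ → ¬ Cfsg.Involves (Matrix.SpecialLinearGroup (Fin 2) (ZMod p)) ↥(Subgroup.normalizer ((P : Subgroup G) : Set G))) : ∀ (K R : Subgroup G) [hR : (R.subgroupOf K).Normal], Cfsg.IsNormalizerPStable p (↥K ⧸ R.subgroupOf K) := by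
  intro K R hR
  apply H17.isNormalizerPStable_of_local hp
  intro Q hQ hQ1
  apply H17.not_sec_qd_of_not_sec
  intro hs
  obtain ⟨P, hP, h1, h2⟩ := H17.exists_lift_pSubgroup (QuotientGroup.mk'_surjective (R.subgroupOf K)) hQ
  rw [← h2] at hs
  refine h (P.map K.subtype) (hP.map _) (fun h0 => hQ1 ?_) (H17.sec_iff_involves.1 ?_)
  · rw [← h1, (Subgroup.map_eq_bot_iff_of_injective _ K.subtype_injective).1 h0, Subgroup.map_bot]
  · exact (hs.of_map.of_injective
      ((Subgroup.normalizer (P : Set K)).equivMapOfInjective K.subtype K.subtype_injective).toMonoidHom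
      ((Subgroup.normalizer (P : Set K)).equivMapOfInjective K.subtype K.subtype_injective).injective).of_le
      (H26.le_normalizer_map K.subtype le_rfl)

end Cfsg.Agent.S2004
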