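import Mathlib
import Cfsg.Statements.S2008
import Cfsg.Agent.H08.Klein
import Cfsg.Agent.H08.Basic

set_option autoImplicit false
open Cfsg

namespace Cfsg.Agent.S2008

/-- Let H be a finite group and z an involution such that every proper normal subgroup of H meets the centralizer of z trivially, and suppose z lies in a Klein four-subgroup E of H all three of whose involutions are conjugate to z in H. Then H has no non-trivial abelian normal subgroup. -/
theorem result {H : Type*} [Group H] [Finite H] (z : H) (hz : orderOf z = 2) (hN : ∀ N : Subgroup H, N.Normal → N ≠ ⊤ → N ⊓ Subgroup.centralizer ({z} : Set H) = ⊥) (E : Subgroup H) (hE : IsKleinFour ↥E) (hzE : z ∈ E) (hc : ∀ e ∈ E, e ≠ 1 → IsConj z e) (N : Subgroup H) [N.Normal] (hab : IsMulCommutative ↥N) : N = ⊥ := by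
  obtain ⟨b, hb, hzb, hzbc, rfl⟩ := H08.exists_klein_gens_of_mem hE hzE (H08.ne_one_of_orderOf hz)
  have hbE : b ∈ Subgroup.closure ({z, b} : Set H) := Subgroup.subset_closure (by simp)
  have hcb := hc b hbE (H08.ne_one_of_orderOf hb)
  have hcz := hc (z * b) (mul_mem hzE hbE) (H08.mul_ne_one_of_invol hz hzb)
  have hcomm : ∀ x ∈ N, ∀ y ∈ N, x * y = y * x := fun x hx y hy =>
    congrArg Subtype.val (hab.is_comm.comm (⟨x, hx⟩ : N) ⟨y, hy⟩)
  by_cases hT : N = ⊤
  · obtain ⟨g, hg⟩ := isConj_iff.mp hcb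
    rw [hcomm g (hT ▸ trivial) z (hT ▸ trivial), mul_inv_cancel_right] at hg
    exact absurd hg hzb
  have h1 := hN N inferInstance hT
  have h2 : ∀ e, IsConj z e → ∀ n ∈ N, e * n = n * e → n = 1 := by
    intro e he n hn h
    obtain ⟨g, rfl⟩ := isConj_iff.mp he
    have : g⁻¹ * n * g ∈ N ⊓ Subgroup.centralizer ({z} : Set H) :=
      ⟨‹N.Normal›.conj_mem' n hn g, Subgroup.mem_centralizer_singleton_iff.mpr (by
        calc g⁻¹ * n * g * z = g⁻¹ * (n * (g * z * g⁻¹)) * g := by group
          _ = _ := by rw [← h]; group)⟩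
    rw [h1, Subgroup.mem_bot] at this
    calc n = g * (g⁻¹ * n * g) * g⁻¹ := by group
      _ = 1 := by rw [this]; group
  have h3 : ∀ e, IsConj z e → ∀ n ∈ N, e * n * e⁻¹ = n⁻¹ := by
    intro e he n hn
    have he2 := H08.mul_self_of_orderOf ((H08.orderOf_eq_of_isConj he).symm.trans hz)
    have hn' := ‹N.Normal›.conj_mem n hn e
    have hei : e⁻¹ = e := inv_eq_of_mul_eq_one_right he2
    have := h2 e he _ (mul_mem hn hn') (by
      nth_rewrite 1 [hcomm n hn _ hn']
      rw [hei]
      calc e * (e * n * e * n) = (e * e) * n * e * n := by group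
        _ = n * e * n * (e * e) := by rw [he2]; group
        _ = _ := by group)
    exact eq_inv_of_mul_eq_one_right this
  rw [eq_bot_iff]
  intro n hn
  refine h2 _ hcz n hn ?_
  have : z * b * n * (z * b)⁻¹ = n := by
    calc _ = z * (b * n * b⁻¹) * z⁻¹ := by group
      _ = n := by rw [h3 b hcb n hn, h3 z (IsConj.refl z) _ (inv_mem hn), inv_inv]
  exact mul_inv_eq_iff_eq_mul.mp this

end Cfsg.Agent.S2008
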