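import Mathlib
import Cfsg.Statements.S2009
import Cfsg.Agent.S2008

set_option autoImplicit false
open Cfsg

namespace Cfsg.Agent.S2009

/-- Let H be a finite group and z an involution such that every proper normal subgroup of H meets the centralizer of z trivially, and suppose z lies in a Klein four-subgroup E of H all three of whose involutions are conjugate to z in H. Then H is simple. -/
theorem result {H : Type*} [Group H] [Finite H] (z : H) (hz : orderOf z = 2) (hN : ∀ N : Subgroup H, N.Normal → N ≠ ⊤ → N ⊓ Subgroup.centralizer ({z} : Set H) = ⊥) (E : Subgroup H) (hE : IsKleinFour ↥E) (hzE : z ∈ E) (hc : ∀ e ∈ E, e ≠ 1 → IsConj z e) : IsSimpleGroup H := by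
  haveI : Nontrivial H := ⟨⟨z, 1, H08.ne_one_of_orderOf hz⟩⟩
  refine ⟨fun N hNn => ?_⟩
  by_cases hT : N = ⊤
  · exact Or.inr hT
  left
  have h1 := hN N hNn hT
  have hz2 := H08.mul_self_of_orderOf hz
  have hf : MonoidHom.FixedPointFree (MulAut.conjNormal (H := N) z) := fun n hn => by
    have h2 : z * n * z⁻¹ = n := congrArg Subtype.val hn
    have : (n : H) ∈ N ⊓ Subgroup.centralizer ({z} : Set H) :=
      ⟨n.2, Subgroup.mem_centralizer_singleton_iff.mpr (mul_inv_eq_iff_eq_mul.mp h2).symm⟩
    rw [h1] at this
    exact Subtype.ext this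
  have hi : Function.Involutive (MulAut.conjNormal (H := N) z) := fun n => by
    rw [← MulAut.mul_apply, ← map_mul, hz2, map_one, MulAut.one_apply]
  exact S2008.result z hz hN E hE hzE hc N ⟨⟨fun a b => hf.commute_all_of_involutive hi a b⟩⟩

end Cfsg.Agent.S2009
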