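import Mathlib
import Cfsg.Statements.S2039
import Cfsg.Agent.H15.J1
import Cfsg.Agent.H15.J1Ab

set_option autoImplicit false
open Cfsg

namespace Cfsg.Agent.S2039

/-- The Schur multiplier of the Janko group J₁ (the group generated by two explicit 7 × 7 matrices over the integers modulo 11) is trivial; here the Schur multiplier is described through stem extensions, as in the definitions: surjective homomorphisms onto the group from a finite group, whose kernel is central in that finite group and contained in that finite group's commutator subgroup. -/
theorem result : Cfsg.HasCyclicSchurMultiplier ↥Cfsg.Spor.J1 1 := by
  open H15 H15.J1 in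
  rw [J1_eq]
  have := fin4 V h2
  exact hasTrivial_of_list (card4 V h2) [2] [3, 5, 7, 11, 19] (by simpa using m2 V h2) 3 (by decide)

end Cfsg.Agent.S2039
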