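import Cfsg.Statements.S2040
import Cfsg.Agent.H15.J2
import Cfsg.Agent.H15.J2Ac
-- import your own Cfsg.Agent.* helpers here

set_option autoImplicit false
open Cfsg

namespace Cfsg.Agent.S2040

/-- The Schur multiplier of the Hall–Janko group J₂ (the icosian reflection group modulo its centre) is cyclic of order 2; here the Schur multiplier is described through stem extensions, as in the definitions: surjective homomorphisms onto the group from a finite group, whose kernel is central in that finite group and contained in that finite group's commutator subgroup. -/
theorem result : Cfsg.HasCyclicSchurMultiplier Cfsg.Spor.J2 2 := by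
  open H15 H15.J2 in
  exact hasCyclic_of_cover cov.perf (hasTrivial_of_list card_M [2, 3, 5] [7]
    (by simpa using ⟨m2 _ _, m3 _ _, m5 _ _⟩) 8 (by decide)) pi_surj pi_ker.le (pi_ker ▸ cov.card_center)
    (by rw [pi_ker, cov.cen]; infer_instance)

end Cfsg.Agent.S2040
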