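import Mathlib
import Cfsg.Statements.S2043
import Cfsg.Agent.H14.MulCo0a
import Cfsg.Agent.H14.MulCo0b
import Cfsg.Agent.H14.Co1

set_option autoImplicit false
open Cfsg

namespace Cfsg.Agent.S2043

/-- The Schur multiplier of the Conway group Co₁ (the automorphism group of the rank-24 lattice modulo its centre) is cyclic of order 2; here the Schur multiplier is described through stem extensions, as in the definitions: surjective homomorphisms onto the group from a finite group, whose kernel is central in that finite group and contained in that finite group's commutator subgroup. -/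
theorem result : Cfsg.HasCyclicSchurMultiplier Cfsg.Spor.Co1 2 := by
  have h : Nat.card (QuotientGroup.mk' (Subgroup.center Co0)).ker = 2 := by rw [QuotientGroup.ker_mk', H14.card_center_Co0]
  exact H15.hasCyclic_of_cover H14.perfect_Co0 (H15.hasTrivial_of_list H14.card_Co0 [2, 3, 5, 7] [11, 13, 23]
    (by simpa using ⟨H14.MulCo0a.c0p2, H14.MulCo0b.c0p3, H14.MulCo0b.c0p5, H14.MulCo0b.c0p7⟩) 22 (by decide +kernel))
    (QuotientGroup.mk'_surjective _) (QuotientGroup.ker_mk' _).le h (isCyclic_of_prime_card h)

end Cfsg.Agent.S2043
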