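import Mathlib
import Cfsg.Statements.S2046
import Cfsg.Agent.H14.MulHS
import Cfsg.Agent.H14.OutCo

set_option autoImplicit false
open Cfsg

namespace Cfsg.Agent.S2046

/-- The Schur multiplier of the Higman–Sims group (as a two-vector stabiliser in the automorphism group of the rank-24 lattice) is cyclic of order 2; here the Schur multiplier is described through stem extensions, as in the definitions: surjective homomorphisms onto the group from a finite group, whose kernel is central in that finite group and contained in that finite group's commutator subgroup. -/
theorem result : Cfsg.HasCyclicSchurMultiplier ↥Cfsg.Spor.HS 2 := by
  obtain ⟨e⟩ := H14.equiv_HS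
  exact H16.hsm_congr_left H14.MulHS.mult e.symm

end Cfsg.Agent.S2046
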