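import Cfsg.Statements.S2049
import Mathlib
import Cfsg.Agent.H27.Cov2
import Cfsg.Agent.H27.CovHe
import Cfsg.Agent.H13.He
-- import your own Cfsg.Agent.* helpers here

set_option autoImplicit false
open Cfsg

namespace Cfsg.Agent.S2049

open scoped Pointwise commutatorElement

/-- The Schur multiplier of the Held group (the finitely presented group of the definitions) is trivial; here the Schur multiplier is described through stem extensions, as in the definitions: surjective homomorphisms onto the group from a finite group, whose kernel is central in that finite group and contained in that finite group's commutator subgroup. -/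
theorem result : Cfsg.HasCyclicSchurMultiplier Cfsg.Spor.He 1 := by
  exact H27.CovHe.mult (H27.MG.mdl_sys H13.He.sys H13.He.faith (us := [[6, 5, 4, 1, 3, 4, 6, 4, 3], [5, 2, 5, 1, 3, 4, 5, 4, 1]]) (pr := [[nat_lit 1, nat_lit 0, nat_lit 0, nat_lit 1, nat_lit 1, nat_lit 1],
   [nat_lit 1, nat_lit 2, nat_lit 1, nat_lit 1, nat_lit 1, nat_lit 2, nat_lit 2, nat_lit 1, nat_lit 1, nat_lit 0, nat_lit 1],
   [nat_lit 2, nat_lit 3, nat_lit 3, nat_lit 1, nat_lit 3, nat_lit 1, nat_lit 2, nat_lit 2, nat_lit 2],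
   [nat_lit 0, nat_lit 1, nat_lit 0, nat_lit 0, nat_lit 1, nat_lit 0],
   [nat_lit 0, nat_lit 1, nat_lit 0, nat_lit 0, nat_lit 1, nat_lit 2, nat_lit 2],
   [nat_lit 1, nat_lit 3, nat_lit 1, nat_lit 3, nat_lit 3, nat_lit 2, nat_lit 2, nat_lit 1, nat_lit 3],
   [nat_lit 2, nat_lit 2, nat_lit 4, nat_lit 3, nat_lit 4, nat_lit 4, nat_lit 3, nat_lit 2, nat_lit 4, nat_lit 3],
   [nat_lit 2, nat_lit 2, nat_lit 1, nat_lit 0, nat_lit 1, nat_lit 1, nat_lit 0],
   [nat_lit 2, nat_lit 3, nat_lit 3, nat_lit 2, nat_lit 1, nat_lit 3, nat_lit 2, nat_lit 3, nat_lit 1],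
   [nat_lit 3, nat_lit 4, nat_lit 2, nat_lit 4, nat_lit 2, nat_lit 4, nat_lit 4, nat_lit 4, nat_lit 2],
   [nat_lit 2, nat_lit 1, nat_lit 2],
   [nat_lit 3, nat_lit 1, nat_lit 3, nat_lit 2, nat_lit 3],
   [nat_lit 1, nat_lit 1, nat_lit 1, nat_lit 0, nat_lit 1, nat_lit 1],
   [nat_lit 1, nat_lit 2],
   [nat_lit 0, nat_lit 1, nat_lit 0, nat_lit 1, nat_lit 1, nat_lit 1, nat_lit 0]]) (lv := [(nat_lit 0, [nat_lit 15, nat_lit 16]), (nat_lit 46, [nat_lit 13, nat_lit 12]), (nat_lit 273, [nat_lit 10, nat_lit 9]), (nat_lit 17, [nat_lit 7]), (nat_lit 394, [nat_lit 4]), (nat_lit 2, [nat_lit 2, nat_lit 1]), (nat_lit 1, [nat_lit 0])]) H13.He.card_eq (by decide +kernel))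

end Cfsg.Agent.S2049
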