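import Mathlib
import Cfsg.Agent.L.ML8
import Cfsg.Agent.S0255
-- Template for statement S2087 (row 2087; see /opt/grader/pristine/manifest.json for weights).
-- Copy to Cfsg/Agent/S2087.lean and replace the sorry. The statement below is byte-identical to the frozen
-- statement Cfsg.CfsgFrozen.S2087 (Cfsg/Statements/S2087.lean; the theorem Cfsg.kfact_multiplier_psl_three_two);
-- the grader kernel-checks Cfsg.Agent.S2087.result against that frozen type. Keep the theorem IN THIS FILE
-- (a `result` declared elsewhere and merely imported here is not credited); helpers may live anywhere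
-- under Cfsg/Agent/.
import Cfsg.Statements.S2087
-- import your own Cfsg.Agent.* helpers here

set_option autoImplicit false
open Cfsg

namespace Cfsg.Agent.S2087

/-- Exceptional Schur multiplier: over the field with 2 elements, PSL₃ has Schur multiplier cyclic of order 2 (here the Schur multiplier is described through stem extensions, as in the definitions). -/
theorem result {F : Type*} [Field F] [Fintype F] (hF : Fintype.card F = 2) : Cfsg.HasCyclicSchurMultiplier (Matrix.ProjectiveSpecialLinearGroup (Fin 3) F) 2 := by
  have := Fact.mk (show Nat.Prime 7 by norm_num)
  obtain ⟨e⟩ := Cfsg.Agent.S0255.result (F := ZMod 7) (by simp) hF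
  exact H16.hsm_congr_left (by simpa using L.RD.PSL_mult (F := ZMod 7) (L.RD.SL2_trivial (by simp) (by simp)) (H09.SL_perfect_fin 2 (by simp)).1) e

end Cfsg.Agent.S2087
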