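import Cfsg.Statements.S2088
import Mathlib
import Cfsg.Agent.H27.L34
import Cfsg.Agent.H27.CovL34
-- import your own Cfsg.Agent.* helpers here

set_option autoImplicit false
open Cfsg

namespace Cfsg.Agent.S2088

open scoped Pointwise commutatorElement

/-- Exceptional Schur multiplier: over the field with 4 elements, PSL₃ has Schur multiplier isomorphic to the product of cyclic groups of orders 3, 4 and 4 (order 48, not cyclic; here the Schur multiplier is described through stem extensions, as in the definitions). -/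
theorem result {F : Type*} [Field F] [Fintype F] (hF : Fintype.card F = 4) : Cfsg.HasSchurMultiplier (Matrix.ProjectiveSpecialLinearGroup (Fin 3) F) (Multiplicative (ZMod 3 × ZMod 4 × ZMod 4)) := by
  obtain ⟨S, M⟩ := H27.L34.model F hF
  exact H27.CovL34.mult (M.regen (pr := [[nat_lit 1, nat_lit 0, nat_lit 0, nat_lit 0, nat_lit 1, nat_lit 1, nat_lit 1],
   [nat_lit 1, nat_lit 2, nat_lit 1, nat_lit 1],
   [nat_lit 1, nat_lit 1],
   [nat_lit 1, nat_lit 1, nat_lit 0, nat_lit 1, nat_lit 1, nat_lit 2, nat_lit 1, nat_lit 0, nat_lit 2, nat_lit 2, nat_lit 1],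
   [nat_lit 2, nat_lit 2, nat_lit 1, nat_lit 2, nat_lit 2, nat_lit 1, nat_lit 3, nat_lit 1, nat_lit 2, nat_lit 1, nat_lit 2, nat_lit 1],
   [nat_lit 3, nat_lit 3, nat_lit 2, nat_lit 2, nat_lit 2, nat_lit 4, nat_lit 3, nat_lit 2],
   [nat_lit 5, nat_lit 5, nat_lit 4, nat_lit 5, nat_lit 4, nat_lit 4, nat_lit 3, nat_lit 3],
   [nat_lit 0, nat_lit 3, nat_lit 1, nat_lit 3, nat_lit 1, nat_lit 3],
   [nat_lit 2, nat_lit 2, nat_lit 3, nat_lit 2, nat_lit 1],
   [nat_lit 2, nat_lit 3, nat_lit 3],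
   [nat_lit 4, nat_lit 5],
   [nat_lit 3, nat_lit 2, nat_lit 1, nat_lit 0, nat_lit 7, nat_lit 8, nat_lit 9, nat_lit 9, nat_lit 8, nat_lit 11, nat_lit 12, nat_lit 11],
   [nat_lit 4, nat_lit 2, nat_lit 1, nat_lit 8, nat_lit 10, nat_lit 11, nat_lit 12, nat_lit 13, nat_lit 13]]) (pr' := [[nat_lit 1, nat_lit 1, nat_lit 0],
   [nat_lit 1, nat_lit 1, nat_lit 1, nat_lit 2, nat_lit 2],
   [nat_lit 1, nat_lit 0, nat_lit 1, nat_lit 0, nat_lit 1, nat_lit 1, nat_lit 0, nat_lit 1, nat_lit 0],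
   [nat_lit 1, nat_lit 1, nat_lit 2, nat_lit 2, nat_lit 2, nat_lit 2, nat_lit 2, nat_lit 2, nat_lit 1],
   [nat_lit 3, nat_lit 3, nat_lit 3, nat_lit 2, nat_lit 2, nat_lit 3],
   [nat_lit 2, nat_lit 0, nat_lit 2, nat_lit 2, nat_lit 0]]) (lv := [(nat_lit 0, [nat_lit 6, nat_lit 7]), (nat_lit 1, [nat_lit 5, nat_lit 4]), (nat_lit 5, [nat_lit 3, nat_lit 2, nat_lit 1]), (nat_lit 2, [nat_lit 0])]) (by decide +kernel))

end Cfsg.Agent.S2088
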