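import Mathlib
import Cfsg.Statements.S2091
import Cfsg.Agent.H29.Mult
import Cfsg.Agent.S0279

set_option autoImplicit false
open Cfsg

namespace Cfsg.Agent.S2091

/-- Exceptional Schur multiplier: PSU₆(2), realised over the field with 4 elements, has Schur multiplier isomorphic to the product of cyclic groups of orders 3, 2 and 2 (order 12, not cyclic; here the Schur multiplier is described through stem extensions, as in the definitions). -/
theorem result {F : Type*} [Field F] [Fintype F] (hF : Fintype.card F = 4) : Cfsg.HasSchurMultiplier (Cfsg.PSU 6 F 2) (Multiplicative (ZMod 3 × ZMod 2 × ZMod 2)) := by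
  have hF' : Nat.card F = 2 ^ 2 := by rw [Nat.card_eq_fintype_card, hF]; rfl
  obtain ⟨T, hT, h1, hz⟩ := H29.exists_psu F hF (n := 6) (by norm_num)
  have p := H10.SU_commutator_eq_top hF' (n := 6) (by norm_num) (by norm_num)
  obtain ⟨s, k⟩ := H29.stem_center p (MulEquiv.refl _)
  have c : Nat.card _ = 3 := S0279.result (q := 2) hF 6 (by norm_num)
  have hp : commutator (PSU 6 F 2) = ⊤ := by
    have := map_commutator_eq _ (QuotientGroup.mk' (Subgroup.center (SU 6 F 2)))
    rw [p, MonoidHom.range_eq_top.2 (QuotientGroup.mk'_surjective _),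
      Subgroup.map_top_of_surjective _ (QuotientGroup.mk'_surjective _)] at this
    exact this.symm
  obtain ⟨Y, _, _, τ, t, t2, t4⟩ := H29.cover_u6 F hF
  obtain ⟨Γ, _, _, ρ, r, e⟩ := H29.fibre s t hp (m := 3) (by norm_num) (fun z hz => by
    rw [k] at hz
    exact congrArg Subtype.val (c ▸ pow_card_eq_one' (x := (⟨z, hz⟩ : Subgroup.center _)))) t2
  refine H29.hasSchur_of r ?_ (H29.upper_u6 hT h1 hz hp)
  rw [e, k, c]
  simp only [Nat.card_eq_fintype_card, Fintype.card_multiplicative, Fintype.card_prod, ZMod.card] at t4 ⊢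
  omega

end Cfsg.Agent.S2091
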