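import Mathlib
import Cfsg.Agent.L.ML7
-- Template for statement S2094 (row 2094; see /opt/grader/pristine/manifest.json for weights).
-- Copy to Cfsg/Agent/S2094.lean and replace the sorry. The statement below is byte-identical to the frozen
-- statement Cfsg.CfsgFrozen.S2094 (Cfsg/Statements/S2094.lean; the theorem Cfsg.kfact_multiplier_pomega_odd_dim);
-- the grader kernel-checks Cfsg.Agent.S2094.result against that frozen type. Keep the theorem IN THIS FILE
-- (a `result` declared elsewhere and merely imported here is not credited); helpers may live anywhere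
-- under Cfsg/Agent/.
import Cfsg.Statements.S2094
-- import your own Cfsg.Agent.* helpers here

set_option autoImplicit false
open Cfsg

namespace Cfsg.Agent.S2094

/-- Schur multipliers of the odd-dimensional orthogonal groups: for m ≥ 3 and a field F of odd order q with (m, q) ≠ (3, 3), the Schur multiplier of PΩ_(2m+1)(F) (for the form x₀² + Σ xᵢyᵢ) is cyclic of order 2 = gcd(2, q − 1); here the Schur multiplier is described through stem extensions, as in the definitions. -/
theorem result {F : Type*} [Field F] [Fintype F] {q : ℕ} (hF : Fintype.card F = q) (hq : Odd q) (m : ℕ) (hm : 3 ≤ m) (hexc : ¬ (m = 3 ∧ q = 3)) : Cfsg.HasCyclicSchurMultiplier (Cfsg.POmega F (Cfsg.quadFormOdd m F)) 2 := by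
  subst hF
  obtain ⟨n, rfl⟩ := Nat.exists_eq_add_of_le' hm
  have h2 : (2 : F) ≠ 0 := fun h => by
    have := FiniteField.even_card_iff_char_two (F := F)
    have h3 := (CharP.charP_iff_prime_eq_zero Nat.prime_two).2 (show ((2 : ℕ) : F) = 0 from h)
    rw [ringChar.eq F 2, Nat.odd_iff.1 hq] at this
    simp at this
  refine L.RD.multB h2 (or_iff_not_imp_left.2 fun h => ?_)
  have h4 : Fintype.card F = 3 := by
    have := Fintype.one_lt_card (α := F)
    have : ¬ 4 < Fintype.card F := fun e => h ⟨Finset.univ, e⟩
    rw [Nat.odd_iff] at hq; omega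
  rcases L.RD.small_cases F with e | e | ⟨s, e⟩
  · exact ((e (-1)).elim (by simp) fun e => h2 (by linear_combination -e)).elim
  · exact ⟨by omega, e⟩
  · exact absurd (e.trans_le s.card_le_univ) (by omega)

end Cfsg.Agent.S2094
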