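import Mathlib
import Cfsg.Agent.L.ML7
-- Template for statement S2096 (row 2096; see /opt/grader/pristine/manifest.json for weights).
-- Copy to Cfsg/Agent/S2096.lean and replace the sorry. The statement below is byte-identical to the frozen
-- statement Cfsg.CfsgFrozen.S2096 (Cfsg/Statements/S2096.lean; the theorem Cfsg.kfact_multiplier_pomega_plus_odd_rank);
-- the grader kernel-checks Cfsg.Agent.S2096.result against that frozen type. Keep the theorem IN THIS FILE
-- (a `result` declared elsewhere and merely imported here is not credited); helpers may live anywhere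
-- under Cfsg/Agent/.
import Cfsg.Statements.S2096
-- import your own Cfsg.Agent.* helpers here

set_option autoImplicit false
open Cfsg

namespace Cfsg.Agent.S2096

/-- Schur multipliers of the even-dimensional orthogonal groups of plus type and odd rank: for odd l ≥ 5 and a field F with q elements, the Schur multiplier of PΩ⁺_2l(F) (for the form Σ xᵢyᵢ) is cyclic of order gcd(4, q^l − 1); here the Schur multiplier is described through stem extensions, as in the definitions. -/
theorem result {F : Type*} [Field F] [Fintype F] {q : ℕ} (hF : Fintype.card F = q) (l : ℕ) (hl : 5 ≤ l) (hodd : Odd l) : Cfsg.HasCyclicSchurMultiplier (Cfsg.POmega F (Cfsg.quadFormPlus l F)) (Nat.gcd 4 (q ^ l - 1)) := by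
  subst hF
  obtain ⟨n, rfl⟩ := Nat.exists_eq_add_of_le' (show 4 ≤ l by omega)
  obtain ⟨k, hk⟩ := hodd
  have h1 : Nat.card (rootsOfUnity 4 F) = Nat.gcd 4 (Fintype.card F ^ (n + 4) - 1) := by
    rw [H09.card_rootsOfUnity_field, hk]
    have := Fintype.one_lt_card (α := F)
    generalize Fintype.card F = q at *
    have h2 : 0 < q ^ (2 * k + 1) := by positivity
    have h3 : q % 2 = 0 ∧ q ^ (2 * k + 1) % 2 = 0 ∨ q % 2 = 1 ∧ q ^ (2 * k + 1) % 4 = q % 4 := by
      rcases Nat.mod_two_eq_zero_or_one q with e | e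
      · exact .inl ⟨e, by simp [pow_succ, Nat.mul_mod, e]⟩
      · refine .inr ⟨e, ?_⟩
        rw [pow_succ, pow_mul, Nat.mul_mod, Nat.pow_mod, show q ^ 2 % 4 = 1 by
          rw [Nat.pow_mod]; obtain e | e : q % 4 = 1 ∨ q % 4 = 3 := by omega
          all_goals rw [e]]
        simp
    generalize q ^ (2 * k + 1) = r at *
    rw [Nat.gcd_rec 4, Nat.gcd_rec 4 (r - 1)]
    obtain ⟨a, b⟩ | ⟨a, b⟩ | ⟨a, b⟩ | ⟨a, b⟩ | e : ((q - 1) % 4 = 1 ∧ (r - 1) % 4 = 3) ∨ ((q - 1) % 4 = 3 ∧ (r - 1) % 4 = 1) ∨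
      ((q - 1) % 4 = 1 ∧ (r - 1) % 4 = 1) ∨ ((q - 1) % 4 = 3 ∧ (r - 1) % 4 = 3) ∨ (q - 1) % 4 = (r - 1) % 4 := by omega
    all_goals simp [*]
  refine H16.hsm_congr (L.RD.multD (.inl (by omega)) (((powMonoidHom 2).prod (.id _)).comp (rootsOfUnity 4 F).subtype)
    (fun a b h => Subtype.ext (congrArg Prod.snd h)) fun u s => ⟨?_, fun ⟨a, b⟩ => ?_⟩) (h1 ▸ (zmodCyclicMulEquiv inferInstance).symm)
  · rintro ⟨⟨a, ha⟩, e⟩
    obtain ⟨rfl, rfl⟩ := Prod.mk.inj e
    have : (a ^ 2) ^ 2 = 1 := by rw [← pow_mul]; exact ha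
    exact ⟨this, by simp [hk, pow_succ _ (2 * k), pow_mul, this]⟩
  · rw [hk, pow_succ _ (2 * k), pow_mul, a, one_pow, one_mul] at b
    exact ⟨⟨s, by rw [mem_rootsOfUnity, show 4 = 2 * 2 from rfl, pow_mul, b, a]⟩, Prod.ext b rfl⟩

end Cfsg.Agent.S2096
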