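import Mathlib
import Cfsg.Agent.L.ML7
-- Template for statement S2097 (row 2097; see /opt/grader/pristine/manifest.json for weights).
-- Copy to Cfsg/Agent/S2097.lean and replace the sorry. The statement below is byte-identical to the frozen
-- statement Cfsg.CfsgFrozen.S2097 (Cfsg/Statements/S2097.lean; the theorem Cfsg.kfact_multiplier_pomega_plus_even_rank);
-- the grader kernel-checks Cfsg.Agent.S2097.result against that frozen type. Keep the theorem IN THIS FILE
-- (a `result` declared elsewhere and merely imported here is not credited); helpers may live anywhere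
-- under Cfsg/Agent/.
import Cfsg.Statements.S2097
-- import your own Cfsg.Agent.* helpers here

set_option autoImplicit false
open Cfsg

namespace Cfsg.Agent.S2097

/-- Schur multipliers of the even-dimensional orthogonal groups of plus type and even rank: for even l ≥ 4 and a field F with q elements, (l, q) ≠ (4, 2), the Schur multiplier of PΩ⁺_2l(F) (for the form Σ xᵢyᵢ) is the product of two cyclic groups of order gcd(2, q^l − 1) (so trivial for q even and a four-group for q odd; here the Schur multiplier is described through stem extensions, as in the definitions). -/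
theorem result {F : Type*} [Field F] [Fintype F] {q : ℕ} (hF : Fintype.card F = q) (l : ℕ) (hl : 4 ≤ l) (heven : Even l) (hexc : ¬ (l = 4 ∧ q = 2)) : Cfsg.HasSchurMultiplier (Cfsg.POmega F (Cfsg.quadFormPlus l F)) (Multiplicative (ZMod (Nat.gcd 2 (q ^ l - 1)) × ZMod (Nat.gcd 2 (q ^ l - 1)))) := by
  subst hF
  obtain ⟨n, rfl⟩ := Nat.exists_eq_add_of_le' hl
  obtain ⟨k, hk⟩ := heven
  have h0 := Fintype.one_lt_card (α := F)
  have h1 : Nat.card (rootsOfUnity 2 F) = Nat.gcd 2 (Fintype.card F ^ (n + 4) - 1) := by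
    rw [H09.card_rootsOfUnity_field]
    generalize Fintype.card F = q at *
    have h2 : 0 < q ^ (n + 4) := by positivity
    have h3 : q ^ (n + 4) % 2 = q % 2 := by
      rcases Nat.mod_two_eq_zero_or_one q with e | e <;> simp [Nat.pow_mod, e]
    rw [Nat.gcd_rec 2, Nat.gcd_rec 2 (_ ^ _ - 1), show (q ^ (n + 4) - 1) % 2 = (q - 1) % 2 by omega]
  have e : rootsOfUnity 2 F ≃* Multiplicative (ZMod (Nat.gcd 2 (Fintype.card F ^ (n + 4) - 1))) :=
    h1 ▸ (zmodCyclicMulEquiv inferInstance).symm
  refine H16.hsm_congr (L.RD.multD (or_iff_not_imp_left.2 fun h => H11.exists_ne_of_card ⟨Finset.univ, by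
      rw [Finset.card_univ]; omega⟩) ((rootsOfUnity 2 F).subtype.prodMap (rootsOfUnity 2 F).subtype)
    (Subtype.val_injective.prodMap Subtype.val_injective) fun u s => ⟨?_, fun ⟨a, b⟩ => ?_⟩)
    ((e.prodCongr e).trans (MulEquiv.prodMultiplicative _ _).symm)
  · rintro ⟨⟨⟨a, ha⟩, b, hb⟩, e⟩
    obtain ⟨rfl, rfl⟩ := Prod.mk.inj e
    rw [mem_rootsOfUnity] at ha hb
    exact ⟨ha, by simp [hk, ← two_mul, pow_mul, ha, hb]⟩
  · rw [hk, ← two_mul, pow_mul, a, one_pow] at b
    exact ⟨(⟨u, a⟩, ⟨s, b⟩), rfl⟩

end Cfsg.Agent.S2097
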