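import Cfsg.Statements.S2100
import Cfsg.Agent.H11.Mult
-- import your own Cfsg.Agent.* helpers here

set_option autoImplicit false
open Cfsg

namespace Cfsg.Agent.S2100
open H11 Cfsg.Lie

/-- Schur multipliers of the Chevalley groups of type G₂: over a field with q ≥ 5 elements the Schur multiplier of G₂(q) is trivial (here the Schur multiplier is described through stem extensions, as in the definitions); the cases q = 3 and q = 4 are exceptional and q = 2 gives a non-simple group. -/
theorem result {F : Type*} [Field F] [Fintype F] (hF : 5 ≤ Fintype.card F) : Cfsg.HasCyclicSchurMultiplier ↥(Cfsg.Lie.chevG2.group F) 1 := by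
  have hK : ∃ s : Finset F, 4 < s.card := ⟨Finset.univ, hF⟩
  have h2 := exists_ne_of_card (hK.imp fun s h => by omega)
  exact chev_mult_one (StSys.perfect (by simp) (fun _ => h2) (sgSys_grp _ _)) (kerG2 _) fun E _ π C =>
    C.lift_G2 (grpSys_grp _ _) (chev_perfect (by simp) fun _ => h2) hK

end Cfsg.Agent.S2100
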