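import Cfsg.Statements.S2103
import Cfsg.Agent.H11.Mult
-- import your own Cfsg.Agent.* helpers here

set_option autoImplicit false
open Cfsg

namespace Cfsg.Agent.S2103
open H11 Cfsg.Lie

/-- Schur multipliers of the Chevalley groups of type F₄: over a finite field with more than 2 elements the Schur multiplier of F₄(q) is trivial (here the Schur multiplier is described through stem extensions, as in the definitions); q = 2 is exceptional. -/
theorem result {F : Type*} [Field F] [Fintype F] (hF : 3 ≤ Fintype.card F) : Cfsg.HasCyclicSchurMultiplier ↥(Cfsg.Lie.chevF4.group F) 1 := by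
  have h2 : ∃ a : F, a ≠ 0 ∧ a ≠ 1 := exists_ne_of_card ⟨Finset.univ, hF⟩
  exact chev_mult_one (StSys.perfect (by simp) (fun _ => h2) (sgSys_grp _ _)) (kerF4 _) fun E _ π C =>
    C.lift_F4 (grpSys_grp _ _) (chev_perfect (by simp) fun _ => h2) h2

end Cfsg.Agent.S2103
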