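import Cfsg.Statements.S2106
import Cfsg.Agent.H11.Mult
-- import your own Cfsg.Agent.* helpers here

set_option autoImplicit false
open Cfsg

namespace Cfsg.Agent.S2106
open H11 Cfsg.Lie

/-- Schur multipliers of the (adjoint, simple) Chevalley groups of type E₇: over a field with q elements the Schur multiplier is cyclic of order gcd(2, q − 1) (here the Schur multiplier is described through stem extensions, as in the definitions). -/
theorem result {F : Type*} [Field F] [Fintype F] {q : ℕ} (hF : Fintype.card F = q) : Cfsg.HasCyclicSchurMultiplier ↥(Cfsg.Lie.chevE7.group F) (Nat.gcd 2 (q - 1)) := by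
  have hq : Nat.card Fˣ = q - 1 := by rw [Nat.card_units, Nat.card_eq_fintype_card, hF]
  exact chev_mult Nat.prime_two (Nat.gcd_dvd_left _ _)
    (StSys.perfect5 (by simp) (sgSys_grp _ _)) (hq ▸ kerE7 _) (hq ▸ center_sgE7)
    fun E _ π C => C.lift_SL (grpSys_grp _ _) (StSys.perfect5 (by simp) (grpSys_grp _ _)) slE7 allTorE7

end Cfsg.Agent.S2106
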