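import Cfsg.Statements.S2110
import Cfsg.Agent.H11.D42
-- import your own Cfsg.Agent.* helpers here

set_option autoImplicit false
open Cfsg

namespace Cfsg.Agent.S2110
open H11 Cfsg.Lie



/-- Schur multipliers of the triality-twisted groups ³D₄: for every prime power q, with the group realised over the field with q³ elements, the Schur multiplier of ³D₄(q) is trivial (here the Schur multiplier is described through stem extensions, as in the definitions). -/
theorem result {K : Type*} [Field K] [Fintype K] {q : ℕ} (hq : IsPrimePow q) (hK : Fintype.card K = q ^ 3) : Cfsg.HasCyclicSchurMultiplier ↥(Cfsg.Lie.twistedD4 K q) 1 := by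
  obtain ⟨θ, F⟩ := exists_frF hq three_ne_zero hK
  refine mult_D4 F fun p hp σ h => (lt_or_eq_of_le hq.two_le).imp id ?_
  rintro rfl
  rcases (Nat.dvd_prime Nat.prime_two).1 hp with rfl | rfl
  exacts [fun _ _ _ _ _ e => eq_bot_iff.2 fun z hz => pow_one z ▸ e z hz, D42.noStem F h (sgSys_grp _ _)]

end Cfsg.Agent.S2110
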