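import Cfsg.Statements.S2112
import Mathlib
import Cfsg.Agent.H27.Sz8
import Cfsg.Agent.H27.CovSz8
-- import your own Cfsg.Agent.* helpers here

set_option autoImplicit false
open Cfsg

namespace Cfsg.Agent.S2112

open scoped Pointwise commutatorElement

/-- Exceptional Schur multiplier: the Suzuki group Sz(8), built over the field with 8 elements using the map x ↦ x⁴, has Schur multiplier a four-group, the product of two cyclic groups of order 2 (here the Schur multiplier is described through stem extensions, as in the definitions). -/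
theorem result {F : Type*} [Field F] [Fintype F] (hF : Fintype.card F = 8) : Cfsg.HasSchurMultiplier ↥(Cfsg.Lie.Sz F 4) (Multiplicative (ZMod 2 × ZMod 2)) := by
  obtain ⟨S, M⟩ := H27.Sz8.model F hF
  exact H27.CovSz8.mult (M.regen (pr := [[nat_lit 0, nat_lit 0, nat_lit 1, nat_lit 1, nat_lit 0, nat_lit 1, nat_lit 1],
   [nat_lit 1, nat_lit 1, nat_lit 1, nat_lit 1, nat_lit 2, nat_lit 2, nat_lit 2, nat_lit 2, nat_lit 1, nat_lit 1],
   [nat_lit 0, nat_lit 1, nat_lit 1, nat_lit 1],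
   [nat_lit 2, nat_lit 1, nat_lit 0, nat_lit 2, nat_lit 2],
   [nat_lit 0, nat_lit 2, nat_lit 3, nat_lit 2, nat_lit 3, nat_lit 4, nat_lit 4, nat_lit 5, nat_lit 4, nat_lit 4, nat_lit 4],
   [nat_lit 3, nat_lit 3, nat_lit 3, nat_lit 5, nat_lit 5, nat_lit 6, nat_lit 6, nat_lit 6]]) (pr' := [[nat_lit 0, nat_lit 0, nat_lit 1, nat_lit 0, nat_lit 0, nat_lit 1, nat_lit 1],
   [nat_lit 1, nat_lit 2, nat_lit 2, nat_lit 2, nat_lit 2, nat_lit 2, nat_lit 1, nat_lit 1, nat_lit 1],
   [nat_lit 0, nat_lit 0, nat_lit 0, nat_lit 0, nat_lit 0, nat_lit 1, nat_lit 0]]) (lv := [(nat_lit 0, [nat_lit 3, nat_lit 4]), (nat_lit 1, [nat_lit 2, nat_lit 1]), (nat_lit 2, [nat_lit 0])]) (by decide +kernel))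

end Cfsg.Agent.S2112
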