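import Cfsg.Statements.S2113
import Cfsg.Agent.H11.Ree5
import Cfsg.Agent.H16.Schur
-- import your own Cfsg.Agent.* helpers here

set_option autoImplicit false
open Cfsg

namespace Cfsg.Agent.S2113
open H11 Cfsg.Lie

section
open Subgroup
open scoped commutatorElement IsMulCommutative

theorem bil {K Γ : Type*} [Field K] [Group Γ] {β : K → K → Γ} (h1 : ∀ x x' y, β (x + x') y = β x y * β x' y)
    (h2 : ∀ x y y', β x (y + y') = β x y * β x y') {a a' b b' b'' : K} (e : ∀ x y, β (a * x) (b * y) = β x y)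
    (e' : ∀ x y, β (a' * x) (b' * y) = β x y) (e'' : ∀ x y, β ((a + a') * x) (b'' * y) = β x y) (hne : b * b' ≠ (b + b') * b'') (x y : K) :
    β x y = 1 := by
  obtain ⟨s, rfl⟩ : ∃ s, y = (b * b' - (b + b') * b'') * s := ⟨_, (mul_div_cancel₀ y (sub_ne_zero.2 hne)).symm⟩
  have := h1 (a * x) (a' * x) (b * b' * b'' * s)
  rw [← add_mul, show b * b' * b'' * s = b'' * (b * b' * s) by ring, e'', show b'' * (b * b' * s) = b * (b' * b'' * s) by ring, e,
    show b * (b' * b'' * s) = b' * (b * b'' * s) by ring, e', ← h2] at this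
  refine mul_right_cancel (b := β x (b' * b'' * s + b * b'' * s)) ?_
  rw [← h2, one_mul, ← this]; congr 1; ring

variable {K R Δ : Type*} [Field K] [Group R] [Group Δ] {τ : Δ →* R} {s : R → Δ} (hc : τ.ker ≤ center Δ) (hs : ∀ g, τ (s g) = g)
include hc hs

theorem c0 (a b : Δ) : ⁅a, b⁆ = ⁅s (τ a), s (τ b)⁆ := H16.commutatorElement_eq_of_map_eq hc (hs _).symm (hs _).symm

theorem c1 (x x' y : R) : ⁅s (x * x'), s y⁆ = s x * ⁅s x', s y⁆ * (s x)⁻¹ * ⁅s x, s y⁆ := by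
  have := c0 hc hs (s x * s x') (s y)
  simp only [map_mul, hs] at this
  rw [← this]; simp only [commutatorElement_def]; group

theorem c2 (x y y' : R) : ⁅s x, s (y * y')⁆ = ⁅s x, s y⁆ * (s y * ⁅s x, s y'⁆ * (s y)⁻¹) := by
  have := c0 hc hs (s x) (s y * s y')
  simp only [map_mul, hs] at this
  rw [← this]; simp only [commutatorElement_def]; group

theorem c3 (g x y : R) : ⁅s (g * x * g⁻¹), s (g * y * g⁻¹)⁆ = s g * ⁅s x, s y⁆ * (s g)⁻¹ := by
  have := c0 hc hs (s g * s x * (s g)⁻¹) (s g * s y * (s g)⁻¹)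
  simp only [map_mul, map_inv, hs] at this
  rw [← this]; simp only [commutatorElement_def]; group

theorem c5 (g : Δ) {x y : R} (h : Commute x y) : g * ⁅s x, s y⁆ * g⁻¹ = ⁅s x, s y⁆ := by
  rw [mem_center_iff.1 (hc (show τ _ = 1 by rw [map_commutatorElement, hs, hs, h.commutator_eq])) g, mul_inv_cancel_right]

theorem c6 {a b : Δ} (e : τ a = τ b) (w : Δ) : a * w * a⁻¹ = b * w * b⁻¹ := by
  have := H16.commutatorElement_eq_of_map_eq hc e (rfl : τ w = τ w)
  simpa [commutatorElement_def] using this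

theorem three_part [Fintype K] {φ : K ≃+* K} {x : K → K → K → R} {h : Kˣ →* R} {P H : Subgroup R} (X : RX φ x h P H)
    (hi : ∀ t : K, t ^ 2 ≠ -1) {t : K} (t0 : t ≠ 0) (ht : t ^ 2 ≠ 1) {z : Δ} (hz : z ∈ τ.ker) (h3 : z ^ 3 = 1)
    (h3' : (Fintype.card K - 1).Coprime 3) (hP : z ∈ ⁅P.comap τ, P.comap τ⁆) : z = 1 := by
  classical
  have := X.three
  let c (a b : R) := ⁅s a, s b⁆
  have c1 : ∀ x x' y, c (x * x') y = s x * c x' y * (s x)⁻¹ * c x y := c1 hc hs
  have c2 : ∀ x y y', c x (y * y') = c x y * (s y * c x y' * (s y)⁻¹) := c2 hc hs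
  have c4 (a b) : τ (c a b) = a * b * a⁻¹ * b⁻¹ := by simp [c, hs, commutatorElement_def]
  have c5 : ∀ g {x y}, Commute x y → g * c x y * g⁻¹ = c x y := fun g _ _ => c5 hc hs g
  have c3 {k : K} (k0 : k ≠ 0) (t u v t' u' v') : c (x (k * t) (k * φ k * u) (k ^ 2 * φ k * v)) (x (k * t') (k * φ k * u') (k ^ 2 * φ k * v')) =
      s (h (.mk0 k k0)) * c (x t u v) (x t' u' v') * (s (h (.mk0 k k0)))⁻¹ := by
    rw [← c3 hc hs, X.conj, X.conj]; rfl
  have t1 : t + 1 ≠ 0 := fun e => ht (by grind)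
  have t2 : t * 1 ≠ (t + 1) * (t + 1) := fun e => ht (by grind)
  have m3 (t u v w) : x t u (v + w) = x t u v * x 0 0 w := by simp [X.mul]
  have m2 (t u v u' w) : x t (u + u') (v + w) = x t u v * x 0 u' w := by simp [X.mul]
  have m2' (t u u') : x t (u + u') 0 = x t u 0 * x 0 u' 0 := by simp [X.mul]
  have k3 (t u v w) : Commute (x t u v) (x 0 0 w) := by simp [Commute, SemiconjBy, X.mul, add_comm]
  have k2 (u v u' w) : Commute (x 0 u v) (x 0 u' w) := by simp [Commute, SemiconjBy, X.mul, add_comm]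
  have aR (t u v w w') : c (x t u v) (x 0 0 (w + w')) = c (x t u v) (x 0 0 w) * c (x t u v) (x 0 0 w') := by rw [m3, c2, c5 _ (k3 ..)]
  have aI {k : K} (k0 : k ≠ 0) (t u v w) : c (x (k * t) (k * φ k * u) (k ^ 2 * φ k * v)) (x 0 0 (k ^ 2 * φ k * w)) = c (x t u v) (x 0 0 w) := by
    simpa [c5 _ (k3 ..)] using c3 k0 t u v 0 0 w
  have a3 (v w) : c (x 0 0 v) (x 0 0 w) = 1 := by
    have e {a : K} (a0 : a ≠ 0) (v w) : c (x 0 0 (a * v)) (x 0 0 (a * w)) = c (x 0 0 v) (x 0 0 w) := by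
      have e : (a ^ 2 / φ a) ^ 2 * φ (a ^ 2 / φ a) = a := by
        have := (map_ne_zero φ).2 a0
        simp only [map_div₀, map_pow, X.φφ]; field_simp
      have := aI (k := a ^ 2 / φ a) (by simp [a0]) 0 0 v w
      rwa [e, mul_zero, mul_zero] at this
    exact bil (β := fun v w => c (x 0 0 v) (x 0 0 w)) (fun v v' w => by rw [add_comm, m3, c1, c5 _ (k3 ..)]) (aR 0 0) (e t0) (e one_ne_zero) (e t1) t2 v w
  have a2 (u v w) : c (x 0 u v) (x 0 0 w) = 1 := by
    rw [← zero_add v, m3, c1, a3, mul_one, mul_inv_cancel, one_mul]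
    exact bil (β := fun w u => c (x 0 u 0) (x 0 0 w)) (a := 1) (a' := 1) (b := 1) (b' := 1) (b'' := 1) (fun _ _ _ => aR ..) (fun w u u' => by
      rw [add_comm, m2', c1, c5 _ (k3 ..)]) (by simp) (by simp) (fun w u => by
      simpa [show (1 : K) + 1 = -1 by grind] using aI (k := -1) (by simp) 0 u 0 w) (by grind) w u
  have a1 (r u v w) : c (x r u v) (x 0 0 w) = 1 := by
    have e (r u v w) : c (x r u v) (x 0 0 w) = c (x r 0 0) (x 0 0 w) := by
      rw [← zero_add u, ← zero_add v, m2, c1, a2, mul_one, mul_inv_cancel, one_mul]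
    have e' {k : K} (k0 : k ≠ 0) (r w) : c (x (k * r) 0 0) (x 0 0 (k ^ 2 * φ k * w)) = c (x r 0 0) (x 0 0 w) := by simpa using aI k0 r 0 0 w
    obtain ⟨k, k0, k1, k2⟩ : ∃ k : K, k ≠ 0 ∧ k + 1 ≠ 0 ∧ k ^ 2 * φ k * (1 ^ 2 * φ 1) ≠ (k ^ 2 * φ k + 1 ^ 2 * φ 1) * ((k + 1) ^ 2 * φ (k + 1)) := by
      by_contra! e
      have e1 := e t t0 t1
      have e2 := e (-t) (by simpa) fun e => ht (by grind)
      simp only [map_add, map_neg, map_one] at e1 e2
      refine mul_ne_zero (mul_ne_zero ((map_ne_zero φ).2 t0) (fun e => hi t (eq_neg_of_add_eq_zero_left e))) (fun e => hi (t ^ 2) (eq_neg_of_add_eq_zero_left e)) ?_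
      generalize φ t = y at e1 e2
      linear_combination (t - 1) ^ 2 * e1 - (t + 1) ^ 2 * e2 + y * (1 - t ^ 2 - t ^ 4 + t ^ 6) * this
    rw [e]
    exact bil (β := fun r w => c (x r 0 0) (x 0 0 w)) (fun r r' w => by
      rw [add_comm, ← e _ (0 + 0 - r' * φ r) (0 + 0 - 0 * r - r' ^ 2 * φ r + r' * r * φ r), ← X.mul, c1, c5 _ (k3 ..)]) (aR · 0 0) (e' k0) (e' one_ne_zero) (e' k1) k2 r w
  have a0 (r u v) {d : Δ} {w} (e : τ d = x 0 0 w) : s (x r u v) * d * (s (x r u v))⁻¹ = d := by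
    rw [mul_inv_eq_iff_eq_mul, ← commutatorElement_eq_one_iff_mul_comm, c0 hc hs, hs, e]; exact a1 ..
  have ci (a b) : c a b = (c b a)⁻¹ := (commutatorElement_inv _ _).symm
  have r3 (r u v r' u' v') : c (x r u v) (x r' u' v') = c (x r u 0) (x r' u' 0) := by
    rw [← zero_add v, m3, c1, ci (x 0 0 _), a1, ← zero_add v', m3, c2, a1]; simp
  have b2 (u v u' v') : c (x 0 u v) (x 0 u' v') = 1 := by
    have e {a : K} (a0 : a ≠ 0) (u u') : c (x 0 (a ^ 2 * u) 0) (x 0 (a ^ 2 * u') 0) = c (x 0 u 0) (x 0 u' 0) := by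
      have e : φ a / a * φ (φ a / a) = a ^ 2 := by
        have := (map_ne_zero φ).2 a0
        simp only [map_div₀, X.φφ]; field_simp
      have := c3 (k := φ a / a) (by simp [a0]) 0 u 0 0 u' 0
      rwa [e, mul_zero, mul_zero, c5 _ (k2 ..)] at this
    rw [r3]
    exact bil (β := fun u u' => c (x 0 u 0) (x 0 u' 0)) (fun u u' w => by rw [add_comm, m2', c1, c5 _ (k2 ..)])
      (fun w u u' => by rw [m2', c2, c5 _ (k2 ..)]) (e t0) (e (sub_ne_zero.2 ht))
      (fun u u' => by rw [show t ^ 2 + (t ^ 2 - 1) ^ 2 = (t ^ 2 + 1) ^ 2 by grind]; exact e (fun e => hi t (eq_neg_of_add_eq_zero_left e)) u u')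
      (fun e => by
        have : (t ^ 2) ^ 2 + 1 = 0 := pow_eq_zero_iff (two_ne_zero) |>.1 (by grind)
        exact hi _ (eq_neg_of_add_eq_zero_left this)) u u'
  let D : Subgroup Δ :=
    { carrier := {d | ∃ u v, τ d = x 0 u v}
      one_mem' := ⟨0, 0, by rw [map_one, X.zero]⟩
      mul_mem' := by rintro a b ⟨u, v, e⟩ ⟨u', v', e'⟩; exact ⟨_, _, by rw [map_mul, e, e', m2]⟩
      inv_mem' := by rintro a ⟨u, v, e⟩; exact ⟨_, _, by rw [map_inv, e, X.inv, neg_zero]⟩ }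
  let : CommGroup D := { (inferInstance : Group D) with
    mul_comm := by
      rintro ⟨a, u, v, e⟩ ⟨b, u', v', e'⟩
      exact Subtype.ext (commutatorElement_eq_one_iff_mul_comm.1 (by rw [c0 hc hs, e, e']; exact b2 ..)) }
  let θ (k : Kˣ) : D →* D := ((MulAut.conj (s (h k))).toMonoidHom.comp D.subtype).codRestrict D fun ⟨d, u, v, e⟩ =>
    ⟨_, _, by simp only [MonoidHom.comp_apply, subtype_apply, MulEquiv.coe_toMonoidHom, MulAut.conj_apply, map_mul, map_inv, hs, e, X.conj, mul_zero]; rfl⟩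
  let N (d : Δ) : D := if e : d ∈ D then (∏ k, θ k) ⟨d, e⟩ else 1
  have N1 {d d'} (e : d ∈ D) (e' : d' ∈ D) : N (d * d') = N d * N d' := by
    simp only [N, e, e', mul_mem e e', dif_pos, ← map_mul]; rfl
  have N2 (l) {d} (e : d ∈ D) : N (s (h l) * d * (s (h l))⁻¹) = N d := by
    simp only [N, e, show s (h l) * d * (s (h l))⁻¹ ∈ D from (θ l ⟨d, e⟩).2, dif_pos, MonoidHom.finsetProd_apply]
    refine Fintype.prod_equiv (Equiv.mulRight l) _ _ fun k => Subtype.ext ?_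
    exact (conj_mul_conj' ..).symm.trans (c6 hc hs (by simp [hs]) _)
  have cD (r u v r' u' v') : c (x r u v) (x r' u' v') ∈ D := ⟨_, _, by rw [c4, X.conj_P, X.inv, X.mul, add_neg_cancel]⟩
  have c7 (r u v u' v') : τ (c (x r u v) (x 0 u' v')) = x 0 0 (r * u') := by rw [c4, X.conj_P, X.inv, X.mul]; simp
  have d2 (r u v u' v') : N (c (x r u v) (x 0 u' v')) = 1 := by
    have e (r u v u' v') : c (x r u v) (x 0 u' v') = c (x r 0 0) (x 0 u' 0) := by
      rw [r3, ← zero_add u, m2', c1, b2]; simp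
    rw [e]
    exact bil (β := fun r u => N (c (x r 0 0) (x 0 u 0))) (a := 1) (a' := 1) (b := 1) (b' := 1) (b'' := 1) (fun r r' w => by
      rw [add_comm, ← e _ (0 + 0 - r' * φ r) (0 + 0 - 0 * r - r' ^ 2 * φ r + r' * r * φ r), ← X.mul, c1, a0 _ _ _ (c7 ..), N1 (cD ..) (cD ..)])
      (fun r u u' => by rw [m2', c2, a0 _ _ _ (c7 ..), N1 (cD ..) (cD ..)]) (by simp) (by simp) (fun r u => by
      simpa [show (1 : K) + 1 = -1 by grind] using (congrArg N (c3 (k := -1) (by simp) r 0 0 0 u 0)).trans (N2 _ (cD ..))) (by grind) r u'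
  have d3 (r u v) {d} (e : d ∈ D) : N (s (x r u v) * d * (s (x r u v))⁻¹) = N d := by
    have ⟨u', v', e'⟩ := e
    rw [show s (x r u v) * d * (s (x r u v))⁻¹ = ⁅s (x r u v), d⁆ * d by simp [commutatorElement_def], c0 hc hs, hs, e', N1 (cD ..) e, d2, one_mul]
  have nD (r u v) {d} (e : d ∈ D) : s (x r u v) * d * (s (x r u v))⁻¹ ∈ D := by
    have ⟨u', v', e'⟩ := e
    exact ⟨_, _, by simp only [map_mul, map_inv, hs, e', X.conj_P]; rfl⟩
  have eR (a b f a' b' f' r u v) : N (c (x r u v) (x a b f * x a' b' f')) = N (c (x r u v) (x a b f)) * N (c (x r u v) (x a' b' f')) := by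
    rw [c2, N1 (cD ..) (nD _ _ _ (cD ..)), d3 _ _ _ (cD ..)]
  have eL (a b f a' b' f' r u v) : N (c (x a b f * x a' b' f') (x r u v)) = N (c (x a b f) (x r u v)) * N (c (x a' b' f') (x r u v)) := by
    rw [c1, N1 (nD _ _ _ (cD ..)) (cD ..), d3 _ _ _ (cD ..), mul_comm]
  have d1 (r u v r' u' v') : N (c (x r u v) (x r' u' v')) = 1 := by
    have e (r u v r' u' v') : N (c (x r u v) (x r' u' v')) = N (c (x r 0 0) (x r' 0 0)) := by
      have := N1 (cD 0 u v r' 0 0) (cD r' 0 0 0 u v)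
      rw [d2, ci, inv_mul_cancel, mul_one, ← ci] at this
      rw [← zero_add u', ← zero_add v', m2, eR, d2, mul_one, ← zero_add u, ← zero_add v, m2, eL, ← this]
      rw [show N 1 = 1 from (dif_pos D.one_mem).trans (map_one _), mul_one]
    have e' {k : K} (k0 : k ≠ 0) (r r') : N (c (x (k * r) 0 0) (x (k * r') 0 0)) = N (c (x r 0 0) (x r' 0 0)) := by
      simpa using (congrArg N (c3 k0 r 0 0 r' 0 0)).trans (N2 _ (cD ..))
    rw [e]
    exact bil (β := fun r r' => N (c (x r 0 0) (x r' 0 0))) (fun a a' r => by rw [← eL, X.mul]; exact (e ..).symm) (fun r a a' => by rw [← eR, X.mul]; exact (e ..).symm)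
      (e' t0) (e' one_ne_zero) (e' t1) t2 r r'
  have zD : z ∈ D := ⟨0, 0, hz.trans X.zero.symm⟩
  have e : N z = 1 := by
    obtain ⟨w, hw, rfl⟩ := (commutator_le (H₃ := (∏ k, θ k).ker.map D.subtype)).2 (fun a ha b hb => by
      obtain ⟨r, u, v, ha⟩ := X.memP.1 ha
      obtain ⟨r', u', v', hb⟩ := X.memP.1 hb
      exact ⟨⟨_, cD r u v r' u' v'⟩, (dif_pos (cD ..)).symm.trans (d1 ..), by rw [c0 hc hs, ha, hb]; rfl⟩) hP
    exact (dif_pos w.2).trans hw
  have e' : (N z : Δ) = z ^ (Fintype.card K - 1) := by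
    simp only [N, zD, dif_pos, MonoidHom.finsetProd_apply]
    rw [Finset.prod_congr rfl (g := fun _ => ⟨z, zD⟩) fun k _ => Subtype.ext (mul_inv_eq_of_eq_mul (mem_center_iff.1 (hc hz) _))]
    simp [Fintype.card_units]
  exact (pow_gcd_eq_one.2 ⟨e'.symm.trans (by rw [e]; rfl), h3⟩).symm.trans (by rw [h3', pow_one]) |>.symm

theorem two_part {a : R} (e : ↥(centralizer {a}) ≃* Multiplicative (ZMod 2) × Matrix.ProjectiveSpecialLinearGroup (Fin 2) K) (a1 : a ≠ 1)
    {t : K} (t0 : t ≠ 0) (ht : t ^ 2 ≠ 1) {b : R} (hb : Commute a b) : ⁅s a, s b⁆ = 1 := by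
  have : Group.IsPerfect (Matrix.SpecialLinearGroup (Fin 2) K) := ⟨Matrix.SL2.commutator_eq_top t0 ht⟩
  let ψ : centralizer {a} →* center Δ :=
    { toFun b := ⟨⁅s a, s b⁆, hc (show τ _ = 1 by rw [map_commutatorElement, hs, hs, (mem_cent.1 b.2).commutator_eq])⟩
      map_one' := Subtype.ext (by simpa [hs] using (c0 hc hs (s a) 1).symm)
      map_mul' b b' := Subtype.ext (by simpa [c5 hc hs _ (mem_cent.1 b'.2)] using c2 hc hs a b b') }
  have h1 (g) : ψ (e.symm (1, g)) = 1 :=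
    Abelianization.commutator_subset_ker (ψ.comp (e.symm.toMonoidHom.comp (.inr _ _))) (Group.IsPerfect.mem_commutator (g := g))
  obtain ⟨⟨z, g⟩, h2⟩ := e.symm.surjective ⟨a, mem_cent.2 (.refl a)⟩
  obtain rfl : g = 1 := mem_bot.1 ((Group.IsPerfect.center_quotient_center_eq_bot _).le (mem_center_iff.2 fun g' => by
    have : e.symm (1, g') * e.symm (z, g) = e.symm (z, g) * e.symm (1, g') := h2 ▸ Subtype.ext (mem_cent.1 (e.symm (1, g')).2).eq.symm
    simpa [← map_mul] using this))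
  obtain ⟨⟨z', g⟩, h3⟩ := e.symm.surjective ⟨b, mem_cent.2 hb⟩
  refine congrArg Subtype.val (show ψ ⟨b, mem_cent.2 hb⟩ = 1 from ?_)
  have h4 : z ≠ 1 := fun h => a1 (by rw [h, Prod.mk_one_one, map_one] at h2; exact congrArg Subtype.val h2.symm)
  obtain rfl | rfl : z' = 1 ∨ z' = z := by clear * - h4; revert z z'; decide
  · rw [← h3, h1]
  · rw [← h3, show (z', g) = (z', 1) * (1, g) by simp, map_mul, map_mul, h1, h2, mul_one]
    exact Subtype.ext (commutatorElement_self _)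

end

/-- Schur multipliers of the small Ree groups: for q = 3^(2m+1) with m ≥ 1 the Schur multiplier of ²G₂(q) is trivial (here the Schur multiplier is described through stem extensions, as in the definitions). -/
theorem result {K : Type*} [Field K] [Fintype K] {m : ℕ} (hm : 1 ≤ m) (hK : Fintype.card K = 3 ^ (2 * m + 1)) : Cfsg.HasCyclicSchurMultiplier ↥(Cfsg.Lie.twistedG2 K (3 ^ m)) 1 := by
  classical
  obtain ⟨k, n, a, T, A, -, G, ⟨e⟩⟩ := Ree.exists_rg hK
  obtain ⟨φ, x, h, -, X⟩ := Ree.exists_rx hK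
  have hi (s : K) (hs : s ^ 2 = -1) : False := FiniteField.isSquare_neg_one_iff.1 ⟨s, by rw [← hs, sq]⟩ (by have := G.q1; omega)
  obtain ⟨t, t0, ht⟩ : ∃ t : K, t ≠ 0 ∧ t ^ 2 ≠ 1 := by
    obtain ⟨t, ht⟩ := IsCyclic.exists_ofOrder_eq_natCard (α := Kˣ)
    refine ⟨t, t.ne_zero, fun e => ?_⟩
    have := Nat.le_of_dvd two_pos (orderOf_dvd_of_pow_eq_one (x := t) (n := 2) (Units.ext (by simpa using e)))
    have := Nat.pow_le_pow_right (n := 3) (by decide) (show 3 ≤ 2 * m + 1 by omega)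
    rw [Nat.card_eq_fintype_card, Fintype.card_units, hK] at ht
    omega
  refine H16.hasTrivial_of fun Δ _ _ τ ⟨hs, hc, hd⟩ => ?_
  by_contra hne
  obtain ⟨p, hp, hpd⟩ := Nat.exists_prime_and_dvd (fun e => hne (Subgroup.card_eq_one.1 e))
  have := Fact.mk hp
  obtain ⟨⟨z, hz⟩, ho⟩ := exists_prime_orderOf_dvd_card' p hpd
  rw [Subgroup.orderOf_mk] at ho
  have key (P : Subgroup (twistedG2 K (3 ^ m))) (hP : ¬ p ∣ P.index) : z ∈ ⁅P.comap τ, P.comap τ⁆ := by
    have h1 := H16.pow_index_mem_commutator (P.comap τ) (hc hz) (hd hz)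
    rw [Subgroup.index_comap_of_surjective _ hs] at h1
    obtain ⟨k, hk⟩ := exists_pow_eq_self_of_coprime (x := z) (ho ▸ ((Nat.Prime.coprime_iff_not_dvd hp).2 hP).symm)
    exact hk ▸ pow_mem h1 k
  refine hp.one_lt.ne' (ho ▸ orderOf_eq_one_iff.2 ?_)
  choose s hs using hs
  by_cases h3 : p = 3
  · subst h3
    refine three_part hc hs X hi t0 ht hz (ho ▸ pow_orderOf_eq_one z) ?_ (key _ fun h => ?_)
    · rw [hK, pow_succ]; exact ((Nat.coprime_self_sub_left (by grind)).2 (by simp)).coprime_dvd_right (dvd_mul_left 3 _)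
    · exact G.sylP.not_dvd (by rwa [Subgroup.relIndex_top_right])
  obtain ⟨P⟩ : Nonempty (Sylow p (twistedG2 K (3 ^ m))) := inferInstance
  refine Subgroup.mem_bot.1 ((Subgroup.commutator_le.2 fun y hy w hw => ?_) (key P P.not_dvd_index))
  rw [Subgroup.mem_bot, c0 hc hs]
  by_cases h2 : p = 2
  · subst h2
    by_cases h1 : τ y = 1
    · simpa [hs, h1] using (c0 hc hs 1 w).symm
    obtain ⟨g, hg⟩ := isConj_iff.1 (G.s.inv _ _ (two_iff.2 ⟨G.mul_self P.isPGroup' hy, h1⟩) G.a2)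
    have := c3 hc hs g (τ y) (τ w)
    rw [hg, two_part hc hs e G.b.a1 t0 ht (hg ▸ (show Commute (τ y) (τ w) from G.le_cent P.isPGroup' le_rfl hw _ hy).conj g)] at this
    simpa using this.symm
  · obtain ⟨⟨g, hg⟩, hgen⟩ := (G.isCyclic_of h2 h3 P.isPGroup').exists_generator
    obtain ⟨i, hi⟩ := hgen ⟨_, hy⟩
    obtain ⟨j, hj⟩ := hgen ⟨_, hw⟩
    rw [H16.commutatorElement_eq_of_map_eq hc (a' := s g ^ i) (b' := s g ^ j)
      (by simpa [hs] using (congrArg Subtype.val hi).symm) (by simpa [hs] using (congrArg Subtype.val hj).symm)]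
    exact (Commute.zpow_zpow_self _ i j).commutator_eq

end Cfsg.Agent.S2113
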