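import Cfsg.Statements.S2115
import Mathlib
import Cfsg.Agent.H27.Tits
-- import your own Cfsg.Agent.* helpers here

set_option autoImplicit false
open Cfsg

namespace Cfsg.Agent.S2115

open scoped Pointwise commutatorElement

/-- The Tits group, the commutator subgroup of ²F₄(2), has trivial Schur multiplier (here the Schur multiplier is described through stem extensions, as in the definitions). -/
theorem result : Cfsg.HasCyclicSchurMultiplier Cfsg.Lie.TitsGroup 1 := by
  exact H27.Tits.main.2.1

end Cfsg.Agent.S2115
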