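import Cfsg.Statements.S2125
import Cfsg.Agent.H11.ChevAut
-- import your own Cfsg.Agent.* helpers here

set_option autoImplicit false
open Cfsg

namespace Cfsg.Agent.S2125
open H11 Cfsg.Lie

/-- Outer automorphisms of the Chevalley groups of type E₈: over a field with p^f elements, p prime, the outer automorphism group of E₈(p^f) has order f (field automorphisms only). -/
theorem result {F : Type*} [Field F] [Fintype F] (p f : ℕ) [Fact p.Prime] [CharP F p] (hF : Fintype.card F = p ^ f) : Nat.card (Cfsg.Out ↥(Cfsg.Lie.chevE8.group F)) = f := by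
  have := H11.nonempty_node (D := Cfsg.Lie.chevE8) (by simp)
  rw [← Nat.card_eq_fintype_card] at hF
  rw [H11.card_out, (H11.grList_E8 (K := F)).card, H11.kerE8, (H11.ringAut_facts p hF).1]
  simp

end Cfsg.Agent.S2125
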