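import Cfsg.Statements.S2127
import Cfsg.Agent.H11.Ree5
-- import your own Cfsg.Agent.* helpers here

set_option autoImplicit false
open Cfsg

namespace Cfsg.Agent.S2127
open H11 Cfsg.Lie

section
open H26
variable {K R : Type*} [Field K] [Group R] {φ : K ≃+* K} {x : K → K → K → R} {h : Kˣ →* R} {P H B : Subgroup R} {q : ℕ} {n a : R}

/-- `α` acts on the first coordinate by `f` -/
def Fc (x : K → K → K → R) (α : MulAut R) (f : K → K) : Prop := ∀ t u v, ∃ u' v', α (x t u v) = x (f t) u' v'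

theorem Fc.mul {α β : MulAut R} {f g : K → K} (h1 : Fc x α f) (h2 : Fc x β g) : Fc x (α * β) (f ∘ g) := fun t u v => by
  obtain ⟨u, v, e⟩ := h2 t u v
  rw [MulAut.mul_apply, e]; exact h1 ..

variable (X : RX φ x h P H) (b : RB q P H B n a) {α : MulAut R}
include X

theorem Fc.uniq {f g : K → K} (h1 : Fc x α f) (h2 : Fc x α g) (t : K) : f t = g t := by
  obtain ⟨_, _, e⟩ := h1 t 0 0
  obtain ⟨_, _, e'⟩ := h2 t 0 0
  exact (X.inj (e.symm.trans e')).1

theorem fix_P {s : K} (hs : s ^ 3 ≠ s) (h1 : Fc x α id) (h2 : ∀ c, α (h c) = h c) (t u v : K) : α (x t u v) = x t u v := by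
  have k (c t u v) : h c * α (x t u v) * (h c)⁻¹ = α (x (c * t) (c * φ c * u) (c ^ 2 * φ c * v)) := by
    rw [← X.conj, map_mul, map_mul, map_inv, h2]
  have h3 {y : K} (e : -y = y) : y = 0 := mul_left_cancel₀ X.two_ne (by linear_combination -e)
  obtain ⟨A, C, h4⟩ := h1 1 0 0
  have h5 (t) : α (x t 0 0) = x t (t * φ t * A) (t ^ 2 * φ t * C) := by
    obtain rfl | e := eq_or_ne t 0
    · simp [X.zero]
    · simpa [h4, X.conj] using (k (.mk0 t e) 1 0 0).symm
  choose ψ c h6 using fun u => h1 0 u 0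
  choose d ω h7 using h1 0 0
  have h8 (u) : c u = 0 := h3 (X.inj (show x _ _ _ = _ by simpa [h6, X.conj] using k (-1) 0 u 0)).2.2
  have h9 (v) : d v = 0 := by
    have := k (-1) 0 0 v
    rw [h7, X.conj_neg, show x ((-1 : Kˣ) * 0) _ _ = (x 0 0 v)⁻¹ by simp [X.inv], map_inv, h7, X.inv] at this
    exact h3 (by simpa using (X.inj this).2.1.symm)
  have h0 (t u v) : α (x t u v) = x t (t * φ t * A + ψ u) (t ^ 2 * φ t * C + ω v) := by
    rw [X.split, map_mul, map_mul, h5, h6, h7, X.mul, X.mul]; simp [h8, h9]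
  have h10 (t u s) := congrArg α (X.mul t u 0 s 0 0)
  simp only [map_mul α, h0] at h10
  simp only [X.mul] at h10
  have h00 := X.inj ((h0 0 0 0).symm.trans (by rw [X.zero, map_one] : _ = x 0 0 0))
  have h01 : ψ 0 = 0 := by simpa using h00.2.1
  have h02 : ω 0 = 0 := by simpa using h00.2.2
  have h11 : A = 0 := by
    have e1 := (X.inj (h10 (φ s) 0 1)).2.1
    have e2 := (X.inj (h10 1 0 s)).2.1
    simp [X.φφ] at e1 e2
    exact mul_left_cancel₀ (sub_ne_zero.2 hs) (by linear_combination e2 - e1)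
  have h12 (u) : ψ u = u := by simpa [h11, h01] using (X.inj (h10 (-u) 0 1)).2.1.symm
  have h13 (v) : ω v = v := by simpa [h11, h12, h02] using (X.inj (h10 0 (-v) 1)).2.2.symm
  have h14 : C = 0 := by_contra fun e => hs (by
    have h15 (t) : φ t = t := by
      have e1 := (X.inj (h10 t 0 1)).2.2
      have e2 := (X.inj (h10 (-t) 0 1)).2.2
      simp [h11, h12, h13] at e1 e2
      exact mul_left_cancel₀ e (by linear_combination e1 - e2 + C * (φ t + t) * X.three)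
    rw [← X.φφ, h15, h15])
  simp [h0, h11, h12, h13, h14]

include b
theorem x_ne : x 1 0 0 ≠ 1 := fun e => one_ne_zero (X.inj (e.trans X.zero.symm)).1

theorem map_B (hP : ∀ g ∈ P, α g ∈ P) {g : R} (hg : g ∈ B) : α g ∈ B :=
  inv_inv (α g) ▸ inv_mem (b.ti (hP _ (X.mem 1 0 0)) (by simpa using x_ne X b) (by
    simpa using b.PB (hP _ (b.conj hg (X.mem 1 0 0)))))

theorem exists_H [Finite R] (hP : ∀ g ∈ P, α g ∈ P) : ∃ u ∈ P, (∀ g ∈ H, (MulAut.conj u * α) g ∈ H) ∧ n⁻¹ * (MulAut.conj u * α) n ∈ B := by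
  have h1 : B.map α.toMonoidHom = B := Subgroup.eq_of_le_of_card_ge (by rintro _ ⟨g, hg, rfl⟩; exact map_B X b hP hg)
    (Subgroup.card_map_of_injective α.injective).ge
  obtain ⟨u, hu, c, hc, e⟩ := b.bru (α n) fun e => by
    obtain ⟨g, hg, e⟩ := h1.ge e
    exact b.nB (α.injective e ▸ hg)
  refine ⟨u⁻¹, inv_mem hu, fun g hg => b.opp _ (mul_mem (mul_mem (inv_mem (b.PB hu)) (map_B X b hP (b.HB hg))) (by simpa using b.PB hu)) ?_,
    by simpa [e, mul_assoc] using mul_mem hc (b.PB hu)⟩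
  have := map_B X b hP (b.HB (b.nH g hg))
  rw [map_mul, map_mul, map_inv, e] at this
  simpa [mul_assoc] using mul_mem (mul_mem hc this) (inv_mem hc)

theorem inner [Finite R] {s : K} (hs : s ^ 3 ≠ s) (h1 : Fc x α id) : α ∈ Inn R := by
  obtain ⟨u, hu, h2, h3⟩ := exists_H X b (α := α) fun g hg => by
    obtain ⟨t, u, v, rfl⟩ := X.memP.1 hg
    obtain ⟨_, _, e⟩ := h1 t u v
    exact e ▸ X.mem ..
  have h4 : Fc x (MulAut.conj u * α) id := Fc.mul (f := id) (fun t' u' v' => by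
    obtain ⟨t, u, v, rfl⟩ := X.memP.1 hu
    exact ⟨_, _, X.conj_P ..⟩) h1
  suffices MulAut.conj u * α = 1 from ⟨u⁻¹, by rw [map_inv, eq_inv_of_mul_eq_one_right this]⟩
  generalize MulAut.conj u * α = β at *
  have h5 (c) : β (h c) = h c := by
    obtain ⟨d, e⟩ := X.memH.ge (h2 _ (X.h_mem c))
    obtain ⟨_, _, e1⟩ := h4 1 0 0
    obtain ⟨_, _, e2⟩ := h4 (c * 1) (c * φ c * 0) (c ^ 2 * φ c * 0)
    rw [← X.conj, map_mul, map_mul, map_inv, ← e, e1, X.conj] at e2
    rw [← e, show d = c from Units.ext (by simpa using (X.inj e2).1)]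
  have h6 (g) (hg : g ∈ B) : β g = g := by
    obtain ⟨_, hu, _, hy, rfl⟩ := b.mulB g hg
    obtain ⟨t, u, v, rfl⟩ := X.memP.1 hu
    obtain ⟨c, rfl⟩ := X.memH.ge hy
    rw [map_mul, h5, fix_P X hs h4 h5]
  obtain ⟨c, hc⟩ : ∃ c, β n = n * c := ⟨n⁻¹ * β n, by simp⟩
  rw [hc, inv_mul_cancel_left] at h3
  have h8 : c = 1 := by
    have hu := X.mem 1 0 0
    have h1 := x_ne X b
    generalize x 1 0 0 = u at hu h1
    obtain ⟨v, hv, d, hd, e⟩ := b.bru (n * u * n⁻¹) fun e => b.nB (inv_mem_iff.1 (b.ti hu h1 (by rwa [inv_inv])))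
    have := congrArg β e
    rw [map_mul, map_mul, map_mul, map_mul, map_inv, h6 u (b.PB hu), h6 v (b.PB hv), h6 d hd, hc] at this
    have h9 : n⁻¹ * (d⁻¹ * c * d) * n ∈ P := by
      rw [show _ * _ = (v * n * d * n)⁻¹ * (v * (n * c) * d) * n by group, ← this, ← e]
      simpa [mul_assoc] using mul_mem (inv_mem hu) (b.conj h3 hu)
    exact conj_one.1 (conj_one.1 (b.eq_one h9 (b.nH _ (b.opp _ (mul_mem (mul_mem (inv_mem hd) h3) hd) (b.PB h9)))))
  ext g
  by_cases hg : g ∈ B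
  · exact h6 g hg
  · obtain ⟨u, hu, d, hd, rfl⟩ := b.bru g hg
    simp [h6 u (b.PB hu), h6 d hd, hc, h8]

theorem exists_τ [Finite R] [Finite K] (hP : ∀ g ∈ P, α g ∈ P) : ∃ (τ : K ≃+* K) (g : R), Fc x (MulAut.conj g * α) τ := by
  obtain ⟨u, hu, h2, -⟩ := exists_H X b hP
  replace hP (g) (hg : g ∈ P) : (MulAut.conj u * α) g ∈ P := b.conj (b.PB hu) (hP g hg)
  suffices ∃ (τ : K ≃+* K) (g : R), Fc x (MulAut.conj g * (MulAut.conj u * α)) τ from
    this.imp fun τ ⟨g, e⟩ => ⟨g * u, by rwa [map_mul, mul_assoc]⟩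
  generalize MulAut.conj u * α = β at *
  choose f A C h3 using fun t u v => X.memP.1 (hP _ (X.mem t u v))
  choose g h4 using fun c => X.memH.ge (h2 _ (X.h_mem c))
  have h5 (t u v) : f t u v = 0 ↔ t = 0 := by
    have := congrArg β (X.cube t u v)
    rw [map_pow, h3, X.cube] at this
    refine ⟨fun e => ?_, fun e => ?_⟩
    · rw [e, show x 0 0 _ = 1 by simpa using X.zero, eq_comm, map_eq_one_iff _ β.injective, ← X.zero] at this
      simpa using (X.inj this).2.2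
    · rw [e, show x 0 0 (-(0 ^ 2 * φ 0)) = 1 by simpa using X.zero, map_one, ← X.zero, ← e] at this
      simpa [e] using (X.inj this).2.2
  have h6 (t u v t' u' v') := congrArg β (X.mul t u v t' u' v')
  simp only [map_mul β, h3] at h6
  simp only [X.mul] at h6
  have h7 (t u v) : f t u v = f t 0 0 := by simpa [(h5 0 u v).2 rfl] using (X.inj (h6 t 0 0 0 u v)).1.symm
  have h8 (c : Kˣ) (t) : f (c * t) 0 0 = g c * f t 0 0 := by
    have := congrArg β (X.conj c t 0 0)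
    rw [map_mul, map_mul, map_inv, ← h4, h3, h3, X.conj] at this
    simpa using (X.inj this).1.symm
  have h9 : f 1 0 0 ≠ 0 := by simp [h5]
  let τ : K →+* K := .mk' ⟨⟨fun t => f t 0 0 / f 1 0 0, div_self h9⟩, fun s t => by
    obtain rfl | e := eq_or_ne s 0
    · simp [(h5 0 0 0).2 rfl]
    have e1 := h8 (.mk0 s e) t
    have e2 := h8 (.mk0 s e) 1
    simp at e1 e2
    simp only [e1, e2]; field_simp⟩ fun s t => by
      show _ = f s 0 0 / _ + f t 0 0 / _
      rw [← add_div, (X.inj (h6 s 0 0 t 0 0)).1, h7 (s + t)]; rfl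
  refine ⟨.ofBijective τ (Finite.injective_iff_bijective.1 τ.injective), h (.mk0 _ h9)⁻¹, fun t u v => ?_⟩
  rw [MulAut.mul_apply, h3, MulAut.conj_apply, X.conj, h7 t]
  exact ⟨_, _, congrArg (x · _ _) (((div_eq_inv_mul ..).trans (by simp)).symm : _ = f t 0 0 / f 1 0 0)⟩

end

/-- Outer automorphisms of the small Ree groups: for q = 3^(2m+1) with m ≥ 1 the outer automorphism group of ²G₂(q) has order 2m + 1 (field automorphisms only). -/
theorem result {K : Type*} [Field K] [Fintype K] {m : ℕ} (hm : 1 ≤ m) (hK : Fintype.card K = 3 ^ (2 * m + 1)) : Nat.card (Cfsg.Out ↥(Cfsg.Lie.twistedG2 K (3 ^ m))) = 2 * m + 1 := by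
  obtain ⟨k, n, a, T, A, -, G, -⟩ := Ree.exists_rg hK
  obtain ⟨φ, x, h, -, X⟩ := Ree.exists_rx hK
  have : Fact (Nat.Prime 3) := ⟨by decide⟩
  have := charP_of_card_eq_prime_pow hK
  obtain ⟨s, hs⟩ := exists_sq_ne_one (K := K) (by
    rw [Nat.card_eq_fintype_card, hK]; exact Nat.pow_lt_pow_right (a := 3) (by decide) (show 1 < _ by omega))
  replace hs : (s : K) ^ 3 ≠ s := fun e => hs (Units.ext (mul_right_cancel₀ s.ne_zero (by simpa [pow_succ] using e)))
  choose F hF using X.aut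
  have h1 (τ) : Fc x (F τ) τ := fun _ _ _ => ⟨_, _, hF ..⟩
  have h2 (τ) : Fc x (F τ)⁻¹ τ.symm := fun t u v => ⟨τ.symm u, τ.symm v, by rw [MulAut.inv_apply, MulEquiv.symm_apply_eq, hF]; simp⟩
  refine .trans ?_ (ringAut_facts 3 (Nat.card_eq_fintype_card.trans hK)).1
  refine (Nat.card_eq_of_bijective (fun τ => (F τ : Out _)) ⟨fun τ τ' e => ?_, fun α => ?_⟩).symm
  · obtain ⟨g, hg⟩ := QuotientGroup.eq.1 e
    have h3 := (h2 τ).mul (h1 τ')
    rw [← hg] at h3
    obtain ⟨c, hc⟩ := X.conj_B G.b (g := g) (inv_inv g ▸ inv_mem (G.b.ti (X.mem 1 0 0) (x_ne X G.b) (by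
      obtain ⟨_, _, e⟩ := h3 1 0 0
      rw [inv_inv, ← MulAut.conj_apply, e]; exact G.b.PB (X.mem ..))))
    have h4 := h3.uniq X (g := (c * ·)) hc
    ext t
    simpa [show (c : K) = 1 by simpa using (h4 1).symm, τ.eq_symm_apply] using (h4 t).symm
  · obtain ⟨α, rfl⟩ := QuotientGroup.mk_surjective α
    obtain ⟨g, -, hg⟩ := G.sylP.exists_cj_le (G.pgP.map α.toMonoidHom) le_top
    obtain ⟨τ, g', h3⟩ := exists_τ X G.b (α := MulAut.conj g * α) fun y hy => H26.cj_le_iff.1 hg _ ⟨y, hy, rfl⟩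
    have h4 := inner X G.b hs (α := (F τ)⁻¹ * (MulAut.conj g' * (MulAut.conj g * α))) fun t u v => by simpa using (h2 τ).mul h3 t u v
    have h5 (g : twistedG2 K (3 ^ m)) := (QuotientGroup.eq_one_iff (N := Inn _) (MulAut.conj g)).2 ⟨g, rfl⟩
    refine ⟨τ, (QuotientGroup.eq.2 h4).trans ?_⟩
    rw [QuotientGroup.mk_mul, QuotientGroup.mk_mul, h5, h5, one_mul, one_mul]

end Cfsg.Agent.S2127
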