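import Cfsg.Statements.S2140
import Cfsg.Agent.H24.MDSL
-- import your own Cfsg.Agent.* helpers here

set_option autoImplicit false
open Cfsg

namespace Cfsg.Agent.S2140

/-- Minimal index of a proper subgroup of the linear groups: for n ≥ 3 and a field F with q elements, (n, q) ≠ (4, 2), every proper subgroup of PSL_n(F) has index at least (q^n − 1)/(q − 1), and some subgroup has exactly that index (the stabiliser of a point of the projective space). -/
theorem result {F : Type*} [Field F] [Fintype F] {q : ℕ} (hF : Fintype.card F = q) (n : ℕ) (hn : 3 ≤ n) (hexc : ¬ (n = 4 ∧ q = 2)) : (∀ H : Subgroup (Matrix.ProjectiveSpecialLinearGroup (Fin n) F), H ≠ ⊤ → (q ^ n - 1) / (q - 1) ≤ H.index) ∧ (∃ H : Subgroup (Matrix.ProjectiveSpecialLinearGroup (Fin n) F), H.index = (q ^ n - 1) / (q - 1)) := by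
  obtain ⟨k, rfl⟩ : ∃ k, n = k + 1 := ⟨n - 1, by omega⟩
  rw [← Nat.card_eq_fintype_card] at hF
  subst hF
  have hq := Finite.one_lt_card (α := F)
  obtain ⟨N, hN⟩ := Nat.sub_one_dvd_pow_sub_one (Nat.card F) k
  have h1 := Nat.one_le_pow k (Nat.card F) (by omega)
  have hN' : N * (Nat.card F - 1) + 1 = Nat.card F ^ k := by rw [mul_comm]; omega
  have h2 : (Nat.card F ^ (k + 1) - 1) / (Nat.card F - 1) = Nat.card F ^ k + N := by
    refine Nat.div_eq_of_eq_mul_left (by omega) ?_
    rw [add_mul, Nat.mul_sub_one, pow_succ]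
    have := Nat.le_mul_of_pos_right (Nat.card F ^ k) (show 0 < Nat.card F by omega)
    omega
  rw [h2]
  have hv : (Pi.single 0 1 : Fin (k + 1) → F) ≠ 0 := by simp
  refine H24.MD.quot_min (fun H => H24.MD.SL.min_index (by simp) (by omega) hN' fun h => hexc ⟨by omega, h.2⟩) (fun g hg => ?_)
    (H24.MD.SL.index_pt (by simp) (by omega) hN' hv)
  obtain ⟨r, -, h⟩ := Matrix.SpecialLinearGroup.mem_center_iff.1 hg
  exact ⟨r, by simp [Matrix.SpecialLinearGroup.smul_def, ← h, ← Pi.single_smul]⟩

end Cfsg.Agent.S2140
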