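import Cfsg.Statements.S2142
import Cfsg.Agent.H24.Sp2
-- import your own Cfsg.Agent.* helpers here

set_option autoImplicit false
open Cfsg

namespace Cfsg.Agent.S2142

/-- Minimal index of a proper subgroup of the symplectic groups over the field with 2 elements: for m ≥ 3, every proper subgroup of Sp_2m(2) has index at least 2^(m−1)(2^m − 1), and that index is attained. -/
theorem result {F : Type*} [Field F] [Fintype F] (hF : Fintype.card F = 2) (m : ℕ) (hm : 3 ≤ m) : (∀ H : Subgroup (Cfsg.PSp m F), H ≠ ⊤ → 2 ^ (m - 1) * (2 ^ m - 1) ≤ H.index) ∧ (∃ H : Subgroup (Cfsg.PSp m F), H.index = 2 ^ (m - 1) * (2 ^ m - 1)) := by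
  obtain ⟨m, rfl⟩ := Nat.exists_eq_add_of_le' hm
  have h : ∀ c : F, c = 0 ∨ c = 1 := fun c => by
    obtain ⟨y, -, hy⟩ := (Nat.card_eq_two_iff' (0 : F)).1 (Nat.card_eq_fintype_card.trans hF)
    exact (em _).imp_right fun e => (hy c e).trans (hy 1 one_ne_zero).symm
  obtain ⟨h1, P, h2, h3⟩ := H24.Sp2.main h (Fintype.card_fin (m + 3))
  exact H24.MD.quot_min h1 h2 h3

end Cfsg.Agent.S2142
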