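import Cfsg.Statements.S2143
import Cfsg.Agent.H24.MDO4
-- import your own Cfsg.Agent.* helpers here

set_option autoImplicit false
open Cfsg

namespace Cfsg.Agent.S2143

/-- Minimal index of a proper subgroup of the odd-dimensional orthogonal groups: for m ≥ 3 and a field F with q elements, q odd and q ≥ 5, every proper subgroup of PΩ_(2m+1)(F) (for the form x₀² + Σ xᵢyᵢ) has index at least (q^(2m) − 1)/(q − 1), and that index is attained. -/
theorem result {F : Type*} [Field F] [Fintype F] {q : ℕ} (hF : Fintype.card F = q) (hodd : Odd q) (h5 : 5 ≤ q) (m : ℕ) (hm : 3 ≤ m) : (∀ H : Subgroup (Cfsg.POmega F (Cfsg.quadFormOdd m F)), H ≠ ⊤ → (q ^ (2 * m) - 1) / (q - 1) ≤ H.index) ∧ (∃ H : Subgroup (Cfsg.POmega F (Cfsg.quadFormOdd m F)), H.index = (q ^ (2 * m) - 1) / (q - 1)) := by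
  have := H10.qOdd_nondeg (m := m) (H10.two_ne_zero_of_odd_card (hF ▸ hodd))
  rw [← Nat.card_eq_fintype_card] at hF
  subst hF
  have hq := H10.Form.isQuad_ofQuad (H10.qOdd m F)
  have hn : Module.finrank F (Unit ⊕ (Fin m ⊕ Fin m) → F) = 2 * m + 1 := by simp; omega
  have h1 := Nat.div_mul_cancel (Nat.sub_one_dvd_pow_sub_one (Nat.card F) (2 * m))
  have h2 := Nat.one_le_pow (2 * m) (Nat.card F) (by omega)
  generalize (Nat.card F ^ (2 * m) - 1) / (Nat.card F - 1) = b at *
  refine H24.MD.O.final (H10.qOdd m F) (k := 2 * m - 3) (by simp; omega) (by omega) (by rw [hq.cnt_odd hn]; omega)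
    (fun c _ => .inr ?_) (by rw [show 2 * m - 3 + 3 = 2 * m by omega]; omega) (by omega) (.inl (by rw [hq.cnt_odd hn]; omega))
  have h3 := H24.MD.O.cnt_odd_ge hq hn c
  have h4 := Nat.mul_le_mul_left b (show 4 ≤ Nat.card F - 1 by omega)
  have h5 := Nat.mul_le_mul_left (Nat.card F ^ m) (show 2 ≤ Nat.card F ^ m from Nat.one_lt_pow (by omega) (by omega))
  rw [← pow_add, ← two_mul] at h5
  omega

end Cfsg.Agent.S2143
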