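import Cfsg.Statements.S2144
import Cfsg.Agent.H24.MDO4
-- import your own Cfsg.Agent.* helpers here

set_option autoImplicit false
open Cfsg

namespace Cfsg.Agent.S2144

/-- Minimal index of a proper subgroup of the odd-dimensional orthogonal groups over the field with 3 elements: for m ≥ 3, every proper subgroup of PΩ_(2m+1)(3) (for the form x₀² + Σ xᵢyᵢ) has index at least 3^m(3^m − 1)/2, and that index is attained. -/
theorem result {F : Type*} [Field F] [Fintype F] (hF : Fintype.card F = 3) (m : ℕ) (hm : 3 ≤ m) : (∀ H : Subgroup (Cfsg.POmega F (Cfsg.quadFormOdd m F)), H ≠ ⊤ → 3 ^ m * (3 ^ m - 1) / 2 ≤ H.index) ∧ (∃ H : Subgroup (Cfsg.POmega F (Cfsg.quadFormOdd m F)), H.index = 3 ^ m * (3 ^ m - 1) / 2) := by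
  have := H10.qOdd_nondeg (m := m) (H10.two_ne_zero_of_odd_card (F := F) (by rw [hF]; decide))
  rw [← Nat.card_eq_fintype_card] at hF
  have hq := H10.Form.isQuad_ofQuad (H10.qOdd m F)
  have hn : Module.finrank F (Unit ⊕ (Fin m ⊕ Fin m) → F) = 2 * m + 1 := by simp; omega
  have h1 := Nat.div_mul_cancel (Dvd.dvd.mul_left (Nat.sub_one_dvd_pow_sub_one 3 m) (3 ^ m))
  have h2 := Nat.one_le_pow m 3 (by omega)
  rw [show 3 - 1 = 2 from rfl] at h1
  generalize 3 ^ m * (3 ^ m - 1) / 2 = b at *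
  rw [Nat.mul_sub_one, ← pow_add, ← two_mul] at h1
  have h3 := Nat.pow_le_pow_right (n := 3) (by omega) (show m ≤ 2 * m by omega)
  obtain ⟨c, hc, h4⟩ := H24.MD.O.cnt_odd_eq hq hn
  refine H24.MD.O.final (H10.qOdd m F) (k := 2 * m - 3) (by simp; omega) (by omega) (by rw [hq.cnt_odd hn, hF]; omega)
    (fun c _ => .inr ?_) (by rw [show 2 * m - 3 + 3 = 2 * m by omega, hF]; omega) (by omega) (.inr ⟨by omega, c, hc, by rw [hF] at *; omega⟩)
  have h3 := H24.MD.O.cnt_odd_ge hq hn c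
  rw [hF] at h3; omega

end Cfsg.Agent.S2144
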