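import Cfsg.Statements.S2145
import Cfsg.Agent.H24.MDO4
-- import your own Cfsg.Agent.* helpers here

set_option autoImplicit false
open Cfsg

namespace Cfsg.Agent.S2145

/-- Minimal index of a proper subgroup of the even-dimensional orthogonal groups of plus type: for m ≥ 4 and a field F with q ≥ 4 elements, every proper subgroup of PΩ⁺_2m(F) (for the form Σ xᵢyᵢ) has index at least (q^m − 1)(q^(m−1) + 1)/(q − 1), and that index is attained (the singular points). -/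
theorem result {F : Type*} [Field F] [Fintype F] {q : ℕ} (hF : Fintype.card F = q) (hq : 4 ≤ q) (m : ℕ) (hm : 4 ≤ m) : (∀ H : Subgroup (Cfsg.POmega F (Cfsg.quadFormPlus m F)), H ≠ ⊤ → (q ^ m - 1) * (q ^ (m - 1) + 1) / (q - 1) ≤ H.index) ∧ (∃ H : Subgroup (Cfsg.POmega F (Cfsg.quadFormPlus m F)), H.index = (q ^ m - 1) * (q ^ (m - 1) + 1) / (q - 1)) := by
  obtain ⟨m, rfl⟩ : ∃ k, m = k + 1 := ⟨m - 1, by omega⟩
  rw [← Nat.card_eq_fintype_card] at hF
  subst hF
  have h0 := H10.Form.isQuad_ofQuad (H10.qPlus (m + 1) F)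
  have hn : Module.finrank F (Fin (m + 1) ⊕ Fin (m + 1) → F) = 2 * m + 2 := by simp; omega
  have h1 := Nat.div_mul_cancel (Dvd.dvd.mul_right (Nat.sub_one_dvd_pow_sub_one (Nat.card F) (m + 1)) (Nat.card F ^ m + 1))
  rw [Nat.add_sub_cancel]
  generalize (Nat.card F ^ (m + 1) - 1) * (Nat.card F ^ m + 1) / (Nat.card F - 1) = b at *
  have h2 := (congrArg (· + 1) h1).trans (h0.cnt_plus hn H10.qPlus_hasTS).symm
  have h3 : 4 ≤ Nat.card F ^ m := hq.trans (Nat.le_self_pow (by omega) _)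
  have h4 : Nat.card F ^ m * 4 ≤ Nat.card F ^ (m + 1) := Nat.mul_le_mul_left _ hq
  have h5 : Nat.card F ^ m * 4 ≤ Nat.card F ^ m * Nat.card F ^ (m + 1) := Nat.mul_le_mul_left _ (by omega)
  have h6 : Nat.card F ^ (m + 1) * 4 ≤ Nat.card F ^ m * Nat.card F ^ (m + 1) := mul_comm _ 4 ▸ Nat.mul_le_mul_right _ h3
  have h7 := h1
  rw [Nat.sub_one_mul, mul_add, mul_one, mul_comm (_ ^ _), ← pow_add, show m + (m + 1) = 2 * m + 1 by omega] at h7
  rw [← pow_add, show m + (m + 1) = 2 * m + 1 by omega] at h5 h6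
  refine H24.MD.O.final (H10.qPlus (m + 1) F) (k := 2 * m - 2) (by simp; omega) (by omega) h2.le (fun c hc => .inr ?_) ?_
    (fun h _ => .inr ⟨hq, ?_⟩) (.inl h2)
  · have := H24.MD.O.cnt_even_ge h0 hn hc
    have := Nat.mul_le_mul_left b (show 3 ≤ Nat.card F - 1 by omega)
    omega
  · have := Nat.mul_le_mul (Nat.pow_le_pow_right (n := Nat.card F) (by omega) (show m + 1 ≤ 2 * m - 2 by omega)) (show 1 ≤ Nat.card F - 2 by omega)
    rw [show 2 * m - 2 + 3 = 2 * m + 1 by omega]; omega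
  · obtain rfl : m = 3 := by omega
    refine Nat.le_of_mul_le_mul_right (h1.trans ?_).le (by omega)
    obtain ⟨q, h⟩ : ∃ q, Nat.card F = q + 1 := ⟨Nat.card F - 1, by omega⟩
    rw [h, Nat.add_sub_cancel, Nat.sub_eq_of_eq_add (c := (q + 2) * ((q + 1) ^ 2 + 1) * q) (by ring)]; ring

end Cfsg.Agent.S2145
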