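import Cfsg.Statements.S2146
import Cfsg.Agent.H24.MDO4
-- import your own Cfsg.Agent.* helpers here

set_option autoImplicit false
open Cfsg

namespace Cfsg.Agent.S2146

/-- Minimal index of a proper subgroup of the even-dimensional orthogonal groups of plus type over the field with 2 elements: for m ≥ 4, every proper subgroup of Ω⁺_2m(2) (for the form Σ xᵢyᵢ) has index at least 2^(m−1)(2^m − 1), and that index is attained. -/
theorem result {F : Type*} [Field F] [Fintype F] (hF : Fintype.card F = 2) (m : ℕ) (hm : 4 ≤ m) : (∀ H : Subgroup (Cfsg.POmega F (Cfsg.quadFormPlus m F)), H ≠ ⊤ → 2 ^ (m - 1) * (2 ^ m - 1) ≤ H.index) ∧ (∃ H : Subgroup (Cfsg.POmega F (Cfsg.quadFormPlus m F)), H.index = 2 ^ (m - 1) * (2 ^ m - 1)) := by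
  obtain ⟨m, rfl⟩ : ∃ k, m = k + 1 := ⟨m - 1, by omega⟩
  rw [← Nat.card_eq_fintype_card] at hF
  have h0 := H10.Form.isQuad_ofQuad (H10.qPlus (m + 1) F)
  have hn : Module.finrank F (Fin (m + 1) ⊕ Fin (m + 1) → F) = 2 * m + 2 := by simp; omega
  have h1 : ∀ c, c ≠ 0 → 2 ^ m * (2 ^ (m + 1) - 1) * (Nat.card F - 1) = (H10.Form.ofQuad (H10.qPlus (m + 1) F)).cnt c := fun c hc => by
    have := H24.Wall.cnt_plus_ne (m + 1) _ _ h0 hn H10.qPlus_hasTS c hc
    rw [hF, pow_succ' 2 m, mul_assoc, ← pow_succ'] at this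
    rw [hF]; omega
  rw [Nat.add_sub_cancel]
  refine H24.MD.O.final (H10.qPlus (m + 1) F) (k := 2 * m - 2) (by simp; omega) (by omega) ?_ (fun c hc => .inl (h1 c hc).le) ?_
    (fun h _ => .inl ?_) (.inr ⟨by omega, 1, one_ne_zero, h1 1 one_ne_zero⟩)
  · rw [h0.cnt_plus hn H10.qPlus_hasTS, hF, Nat.add_one_sub_one, mul_one, mul_comm, mul_add]; omega
  · rw [hF, show 2 * m - 2 + 3 = m + (m + 1) by omega, pow_add 2 m (m + 1), Nat.add_one_sub_one, mul_one, Nat.mul_sub_one]; exact (Nat.sub_le _ _).trans (Nat.le_add_right _ _)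
  · obtain rfl : m = 3 := by omega
    rw [hF]; norm_num

end Cfsg.Agent.S2146
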