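import Cfsg.Statements.S2147
import Cfsg.Agent.H24.MDO4
-- import your own Cfsg.Agent.* helpers here

set_option autoImplicit false
open Cfsg

namespace Cfsg.Agent.S2147

/-- Minimal index of a proper subgroup of the even-dimensional orthogonal groups of minus type: for m ≥ 4 and a field F with q elements, every proper subgroup of PΩ⁻_2m(F) (for the form Σ_{i<m−1} xᵢyᵢ + z₁² + a z₁z₂ + b z₂² with anisotropic binary part) has index at least (q^m + 1)(q^(m−1) − 1)/(q − 1), and that index is attained. -/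
theorem result {F : Type*} [Field F] [Fintype F] {q : ℕ} (hF : Fintype.card F = q) (m : ℕ) (hm : 4 ≤ m) (a b : F) (hab : ∀ z₁ z₂ : F, z₁ ^ 2 + a * z₁ * z₂ + b * z₂ ^ 2 = 0 → z₁ = 0 ∧ z₂ = 0) : (∀ H : Subgroup (Cfsg.POmega F (Cfsg.quadFormMinus (m - 1) F a b)), H ≠ ⊤ → (q ^ m + 1) * (q ^ (m - 1) - 1) / (q - 1) ≤ H.index) ∧ (∃ H : Subgroup (Cfsg.POmega F (Cfsg.quadFormMinus (m - 1) F a b)), H.index = (q ^ m + 1) * (q ^ (m - 1) - 1) / (q - 1)) := by
  obtain ⟨m, rfl⟩ : ∃ k, m = k + 1 := ⟨m - 1, by omega⟩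
  have hd := H10.disc_ne_zero_of_aniso hab
  have := H10.qMinus_nondeg (m := m) hd
  rw [← Nat.card_eq_fintype_card] at hF
  subst hF
  have hq := Finite.one_lt_card (α := F)
  have h0 := H10.Form.isQuad_ofQuad (H10.qMinus m F a b)
  have hn : Module.finrank F ((Fin m ⊕ Fin m) ⊕ Fin 2 → F) = 2 * m + 2 := by simp; omega
  have h1 := Nat.div_mul_cancel (Dvd.dvd.mul_left (Nat.sub_one_dvd_pow_sub_one (Nat.card F) m) (Nat.card F ^ (m + 1) + 1))
  rw [Nat.add_sub_cancel]
  generalize (Nat.card F ^ (m + 1) + 1) * (Nat.card F ^ m - 1) / (Nat.card F - 1) = n at *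
  have h2 := (congrArg (· + 1) h1).trans (h0.cnt_minus hn (H10.qMinus_not_hasTS hd hab)).symm
  have h4 : Nat.card F ^ m * 2 ≤ Nat.card F ^ (m + 1) := Nat.mul_le_mul_left _ hq
  rw [Nat.mul_sub_one (_ + 1), add_mul, one_mul, ← pow_add, show m + 1 + m = 2 * m + 1 by omega] at h1
  refine H24.MD.O.final (H10.qMinus m F a b) (k := 2 * m - 2) (by simp; omega) (by omega) h2.le (fun c hc => .inl ?_) ?_
    (fun h h' => ?_) (.inl h2)
  · have := H24.MD.O.cnt_even_ge h0 hn hc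
    omega
  · rw [show 2 * m - 2 + 3 = 2 * m + 1 by omega]; omega
  · obtain rfl : m = 3 := by omega
    exact (H10.qMinus_not_hasTS hd hab h').elim

end Cfsg.Agent.S2147
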