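import Cfsg.Statements.S2149
import Mathlib
import Cfsg.Agent.H27.U35
import Cfsg.Agent.H27.MG4
import Cfsg.Agent.S0283
-- import your own Cfsg.Agent.* helpers here

set_option autoImplicit false
open Cfsg

namespace Cfsg.Agent.S2149

open scoped Pointwise commutatorElement

open H13 H14.PK H14.PK.TS H27 H27.PKx H27.MG H27.U35 MulAction

theorem idx {G : Type*} [Group G] [Finite G] [IsSimpleGroup G] (S : Subgroup G) (hS : Nat.card S = 125) {z t : G} (hz : z ≠ 1)
    (h1 : ∀ y ∈ S, t * y * t⁻¹ ∈ S)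
    (h2 : ∀ y ∈ S, y ≠ 1 → z ∈ Subgroup.zpowers y ∨ (∃ s ∈ S, z ∈ Subgroup.zpowers (s * y * s⁻¹ * y⁻¹)) ∧
      ∀ s ∈ S, ¬ Commute y (s⁻¹ * (t * y * t⁻¹) * s))
    (H : Subgroup G) (hH : H ≠ ⊤) : 50 ≤ H.index := by
  obtain ⟨x, hx⟩ : ∃ x : G ⧸ H, z • x ≠ x := by
    by_contra! c
    have : z ∈ H.normalCore := by rw [Subgroup.normalCore_eq_ker]; ext; simp [c]
    rcases Subgroup.Normal.eq_bot_or_eq_top (H := H.normalCore) inferInstance with e | e
    · exact hz (by simpa [e] using this)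
    · exact hH (top_le_iff.1 (e ▸ H.normalCore_le))
  have zs : ∀ y : G, y • x = x → z ∉ Subgroup.zpowers y := fun y a b =>
    hx ((Subgroup.zpowers_le (H := stabilizer G x)).2 a b)
  have hY := (stabilizer S x).index_mul_card
  have hO := index_stabilizer S x
  have hi : (Set.univ : Set (G ⧸ H)).ncard = H.index := Set.ncard_univ _
  have := Fact.mk Nat.prime_five
  rw [hS] at hY
  by_cases c0 : stabilizer S x = ⊥
  · rw [c0, Subgroup.card_bot, mul_one] at hY
    have := Set.ncard_le_ncard (Set.subset_univ (orbit S x))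
    rw [c0] at hO
    omega
  obtain ⟨⟨y, hy⟩, y1⟩ := (Subgroup.ne_bot_iff_exists_ne_one).1 c0
  obtain ⟨⟨s, s1, s2⟩, b⟩ := (h2 y y.2 fun c => y1 (Subtype.ext (Subtype.ext c))).resolve_left (zs y hy)
  have nn : ¬ (stabilizer S x).Normal := fun c =>
    zs _ (mul_mem (c.conj_mem y hy ⟨s, s1⟩) (inv_mem hy) : _ ∈ stabilizer S x) s2
  obtain ⟨k, k3, hk⟩ := (Nat.dvd_prime_pow Nat.prime_five (m := 3)).1 (Dvd.intro _ hY)
  have k2 : (stabilizer S x).index = 25 := by
    interval_cases k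
    · exact (nn (by rw [Subgroup.index_eq_one.1 hk]; infer_instance)).elim
    · exact (nn (Subgroup.normal_of_index_eq_minFac_card (by rw [hk, hS]; norm_num))).elim
    · exact hk
    · exact (c0 (Subgroup.card_eq_one.1 (by rw [hk] at hY; omega))).elim
  have := isCyclic_of_prime_card (α := stabilizer S x) (p := 5) (by rw [k2] at hY; omega)
  have d : Disjoint (orbit S x) ((t • ·) '' orbit S x) := Set.disjoint_left.2 fun p ⟨u, a⟩ ⟨_, ⟨v, rfl⟩, c⟩ => by
    have e : (⟨_, h1 v v.2⟩⁻¹ * u : S) • x = t • x := by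
      rw [mul_smul, show u • x = _ from a.trans c.symm, inv_smul_eq_iff]
      change t • v.1 • x = (t * v * t⁻¹) • t • x
      simp only [mul_smul, inv_smul_smul]
    generalize (⟨_, h1 v v.2⟩⁻¹ * u : S) = r at e
    have f : r⁻¹ * ⟨_, h1 y y.2⟩ * r ∈ stabilizer S x := by
      rw [mem_stabilizer_iff, mul_smul, mul_smul, e, inv_smul_eq_iff, e]
      change (t * y * t⁻¹) • t • x = _
      simp only [mul_smul, inv_smul_smul, show y.1 • x = x from hy]
    exact b r r.2 (congrArg (fun q : stabilizer S x => q.1.1) (mul_comm' (⟨y, hy⟩ : stabilizer S x) ⟨_, f⟩) :)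
  have := Set.ncard_le_ncard (Set.subset_univ (orbit S x ∪ (t • ·) '' orbit S x))
  rw [Set.ncard_union_eq d, Set.ncard_image_of_injective _ (MulAction.injective t)] at this
  omega

def A : ℕ := nat_lit 0x2da12ac2c038fc76b7939cdd529427f74c8b9ac570120ef77cd680bbd74ba732be4bc368ec5241c9d8df56c166f73314a621123cd0e69f2f04061624507bb693eb088f03e04331486b8673ae516a7cf1109dcd5287b6ad4947533b97d9ca7d92a2cffb7471c0bc303ea6a0238dd80
def B : ℕ := nat_lit 0x28bcd787d93913293e3ccb95f2c438ea116a7b62bdcc33df672198bb28372e061b8f5c01d6382719b243ba20d26983fb7a2a79c03d6ee228bb3168085dd8ebc275ae51c8d5d1a0350f9d5f89a1953d4c9d2a450a4fa3b15714eb9f50ed3a2b3415815d4af92ddc4e74f2c21926f00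
def Z : ℕ := nat_lit 0x246b647b95f7d48b245d04864cd1f7302836e9f39d212b232d492672508b62eb4e7e78477ac1f5fa5a0b100970606227876bf19f78bb74ef7a88c757c95f8a2d6f0eb624af04ee6a6d4f4709964334c5d933bad1aa19553850f73dd1c08a6e6dbd8d4d65f7628ed5f0c2010a0c100
def T : ℕ := nat_lit 0x1ff149ced6e314652f143a3630f2cac1629b29a877faa0a6d86dc105a4f43b5af50cf3b093f7335c8ec8707cc85de8946b8cd4faf9d446ec07b825a2aa8b6ed4f88f98f797871a6922b564d2832933e09e12ad516ba517667f26bb1590b0c8dfa727eef7de1a062da880850610100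
def P : ℕ := nat_lit 0x22df71447596e0d6e045b87917c0211f8d6279a4c0a5d51303b97564da5b414981b782e692d973b47ba8f5a7096a867bd38ed60ad7e3fd256a494ab0e610330a6274879f4ebc797063e36b2314f1c8c90481648b9b0710efdfd552a266aea3cbd72cf7af1ba05653d0fd6a0ca4c8c
def Q : ℕ := nat_lit 0x90dc06780b887611f9f60d464592b380d71f10aa83b2b8a102fd4dc7332a4083c3532b50903b9cc829f2037d6017ac60b98ad10a066cf05e7353691ddd7f430a16dd056227d68fa074de7939a5a1eb57c7cdcf51edeee61995df653e3f726dba975f2cc83cf42a8e9471623b7923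
def L : ℕ := nat_lit 0x93020892b6877be873adaf7800d895112a0628c462249c15269251d900c152639739acc61820c689cf0b9e143825491528c552a19823d0709acc65cd2b181a222483a1c4951a5373105804ad02190

/-- a power is `Z` -/
noncomputable def pz (y : ℕ) : Bool := force y fun y => anyL (fun k => Nat.beq (tp 7 126 y k) Z) [1, 2, 3, 4]

/-- the test on the Sylow subgroup -/
noncomputable def ck (E : List ℕ) : Bool := band (Nat.beq E.length 125) (allL (fun y =>
  force (tm 7 126 (tm 7 126 T y) (ti 7 126 T)) fun u => band (memL u E) (bor (Nat.beq y (idv 7 126)) (bor (pz y)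
    (band (anyL (fun s => pz (tm 7 126 (tm 7 126 (tm 7 126 s y) (ti 7 126 s)) (ti 7 126 y))) [A, B])
      (allL (fun s => force (tm 7 126 (tm 7 126 (ti 7 126 s) u) s) fun v => bn (Nat.beq (tm 7 126 y v) (tm 7 126 v y))) E))))) E)

/-- Minimal index of a proper subgroup of PSU₃(5), realised over the field with 25 elements: every proper subgroup has index at least 50, and that index is attained. -/
theorem result {F : Type*} [Field F] [Fintype F] (hF : Fintype.card F = 25) : (∀ H : Subgroup (Cfsg.PSU 3 F 5), H ≠ ⊤ → 50 ≤ H.index) ∧ (∃ H : Subgroup (Cfsg.PSU 3 F 5), H.index = 50) := by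
  obtain ⟨S, M⟩ := model F hF
  have := S.finite
  have := Cfsg.Agent.S0283.result (q := 5) hF 3 le_rfl (by norm_num)
  have m : ∀ t ∈ [A, B, Z, T, P, Q], S.In ⊤ t := In.slp (pr := [[nat_lit 0, nat_lit 1, nat_lit 0, nat_lit 0, nat_lit 1],
   [nat_lit 1, nat_lit 0, nat_lit 0, nat_lit 0, nat_lit 0, nat_lit 1, nat_lit 0, nat_lit 1, nat_lit 1, nat_lit 0],
   [nat_lit 3, nat_lit 2, nat_lit 2, nat_lit 2, nat_lit 1, nat_lit 2, nat_lit 1],
   [nat_lit 0, nat_lit 1, nat_lit 1],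
   [nat_lit 2, nat_lit 1, nat_lit 0, nat_lit 1, nat_lit 2, nat_lit 1, nat_lit 1, nat_lit 1, nat_lit 2, nat_lit 1],
   [nat_lit 2, nat_lit 3, nat_lit 2, nat_lit 3, nat_lit 1, nat_lit 3, nat_lit 1],
   [nat_lit 1, nat_lit 0, nat_lit 1],
   [nat_lit 2, nat_lit 1, nat_lit 5, nat_lit 4, nat_lit 3, nat_lit 3],
   [nat_lit 3, nat_lit 2, nat_lit 6, nat_lit 5, nat_lit 6],
   [nat_lit 2, nat_lit 3, nat_lit 7, nat_lit 7, nat_lit 5, nat_lit 6],
   [nat_lit 8, nat_lit 8, nat_lit 7],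
   [nat_lit 4, nat_lit 5, nat_lit 8, nat_lit 7, nat_lit 7, nat_lit 9, nat_lit 10, nat_lit 10, nat_lit 10, nat_lit 11],
   [nat_lit 5, nat_lit 7, nat_lit 6, nat_lit 10, nat_lit 10, nat_lit 8, nat_lit 9, nat_lit 8, nat_lit 12, nat_lit 12, nat_lit 12, nat_lit 11, nat_lit 12]]) (by decide +kernel) M.mem
  have m1 : ∀ t ∈ [A, B], S.In ⊤ t := fun t ht => m t (by simp at ht ⊢; tauto)
  have m2 : ∀ t ∈ [P, Q], S.In ⊤ t := fun t ht => m t (by simp at ht ⊢; tauto)
  have mZ := (m Z (by simp)).tb_el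
  have mT := (m T (by simp)).tb_el
  have hz : ∀ y, pz (S.tb y) = true → S.el Z ∈ Subgroup.zpowers y := fun y e => by
    obtain ⟨k, -, e⟩ := anyL_iff.1 ((force_eq _ _).symm.trans e)
    exact S.tb_inj ((S.tb_pow y k).trans ((Nat.eq_of_beq_eq_true e).trans mZ.symm)) ▸ Subgroup.npow_mem_zpowers y k
  obtain ⟨E, e1, e2, e3, e⟩ := grpK_spec m1 (k := ck) (pr := [[],
   [nat_lit 1, nat_lit 1],
   [nat_lit 3, nat_lit 2],
   [nat_lit 3, nat_lit 4],
   [nat_lit 5, nat_lit 5],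
   [nat_lit 5, nat_lit 3],
   [nat_lit 7, nat_lit 4],
   [nat_lit 7, nat_lit 4],
   [nat_lit 9, nat_lit 5],
   [nat_lit 9, nat_lit 5],
   [nat_lit 11, nat_lit 6],
   [nat_lit 11, nat_lit 6],
   [nat_lit 13, nat_lit 7],
   [nat_lit 13, nat_lit 7],
   [nat_lit 15, nat_lit 8],
   [nat_lit 15, nat_lit 8],
   [nat_lit 17, nat_lit 9],
   [nat_lit 17, nat_lit 9],
   [nat_lit 19, nat_lit 10],
   [nat_lit 19, nat_lit 10],
   [nat_lit 21, nat_lit 11],
   [nat_lit 21, nat_lit 11],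
   [nat_lit 22, nat_lit 11],
   [nat_lit 24, nat_lit 12],
   [nat_lit 24, nat_lit 12],
   [nat_lit 26, nat_lit 13],
   [nat_lit 26, nat_lit 13],
   [nat_lit 28, nat_lit 14],
   [nat_lit 29, nat_lit 14],
   [nat_lit 29, nat_lit 14],
   [nat_lit 31, nat_lit 15],
   [nat_lit 31, nat_lit 15],
   [nat_lit 33, nat_lit 16],
   [nat_lit 33, nat_lit 16],
   [nat_lit 35, nat_lit 17],
   [nat_lit 35, nat_lit 17],
   [nat_lit 36, nat_lit 17],
   [nat_lit 38, nat_lit 18],
   [nat_lit 38, nat_lit 18],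
   [nat_lit 40, nat_lit 19],
   [nat_lit 40, nat_lit 19],
   [nat_lit 42, nat_lit 20],
   [nat_lit 42, nat_lit 20],
   [nat_lit 43, nat_lit 19],
   [nat_lit 45, nat_lit 20],
   [nat_lit 46, nat_lit 19],
   [nat_lit 47, nat_lit 19],
   [nat_lit 47, nat_lit 19],
   [nat_lit 48, nat_lit 19],
   [nat_lit 50, nat_lit 20],
   [nat_lit 50, nat_lit 20],
   [nat_lit 52, nat_lit 21],
   [nat_lit 52, nat_lit 21],
   [nat_lit 54, nat_lit 22],
   [nat_lit 54, nat_lit 22],
   [nat_lit 55, nat_lit 22],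
   [nat_lit 57, nat_lit 23],
   [nat_lit 57, nat_lit 23],
   [nat_lit 59, nat_lit 24],
   [nat_lit 59, nat_lit 24],
   [nat_lit 61, nat_lit 25],
   [nat_lit 61, nat_lit 25],
   [nat_lit 62, nat_lit 24],
   [nat_lit 64, nat_lit 25],
   [nat_lit 65, nat_lit 24],
   [nat_lit 66, nat_lit 24],
   [nat_lit 66, nat_lit 24],
   [nat_lit 68, nat_lit 22],
   [nat_lit 69, nat_lit 22],
   [nat_lit 70, nat_lit 22],
   [nat_lit 71, nat_lit 22],
   [nat_lit 71, nat_lit 22],
   [nat_lit 73, nat_lit 23],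
   [nat_lit 73, nat_lit 23],
   [nat_lit 75, nat_lit 24],
   [nat_lit 75, nat_lit 24],
   [nat_lit 76, nat_lit 24],
   [nat_lit 78, nat_lit 25],
   [nat_lit 78, nat_lit 25],
   [nat_lit 80, nat_lit 26],
   [nat_lit 80, nat_lit 26],
   [nat_lit 82, nat_lit 27],
   [nat_lit 82, nat_lit 27],
   [nat_lit 83, nat_lit 26],
   [nat_lit 85, nat_lit 27],
   [nat_lit 86, nat_lit 26],
   [nat_lit 87, nat_lit 26],
   [nat_lit 87, nat_lit 26],
   [nat_lit 89, nat_lit 24],
   [nat_lit 90, nat_lit 24],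
   [nat_lit 91, nat_lit 24],
   [nat_lit 92, nat_lit 24],
   [nat_lit 92, nat_lit 20],
   [nat_lit 93, nat_lit 20],
   [nat_lit 95, nat_lit 21],
   [nat_lit 95, nat_lit 21],
   [nat_lit 97, nat_lit 22],
   [nat_lit 97, nat_lit 22],
   [nat_lit 99, nat_lit 23],
   [nat_lit 99, nat_lit 23],
   [nat_lit 100, nat_lit 22],
   [nat_lit 102, nat_lit 23],
   [nat_lit 103, nat_lit 22],
   [nat_lit 104, nat_lit 22],
   [nat_lit 104, nat_lit 22],
   [nat_lit 106, nat_lit 20],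
   [nat_lit 107, nat_lit 20],
   [nat_lit 108, nat_lit 20],
   [nat_lit 109, nat_lit 20],
   [nat_lit 109, nat_lit 16],
   [nat_lit 110, nat_lit 15],
   [nat_lit 112, nat_lit 16],
   [nat_lit 113, nat_lit 15],
   [nat_lit 114, nat_lit 15],
   [nat_lit 114, nat_lit 15],
   [nat_lit 116, nat_lit 13],
   [nat_lit 117, nat_lit 13],
   [nat_lit 118, nat_lit 13],
   [nat_lit 119, nat_lit 13],
   [nat_lit 120, nat_lit 7],
   [nat_lit 121, nat_lit 7],
   [nat_lit 122, nat_lit 7],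
   [nat_lit 123, nat_lit 7]]) (by decide +kernel)
  simp only [ck, band_eq_true, bor_eq_true, allL_iff, anyL_iff, force_eq, memL_iff, bn_iff, Nat.beq_eq] at e
  have k := idx (S.cl [A, B]) (e3.trans e.1) (z := S.el Z) (t := S.el T)
    (fun c => absurd (mZ.symm.trans (c ▸ S.tb_one)) (by decide +kernel))
    (fun y hy => in_tb.1 (e1 _ (by rw [S.tb_mul, S.tb_mul, S.tb_inv, mT]; exact (e.2 _ (e2 y hy)).1))) fun y hy y1 =>
      ((e.2 _ (e2 y hy)).2.resolve_left fun c => y1 (S.tb_inj (c.trans S.tb_one.symm))).imp (hz y) fun ⟨⟨s, a, b⟩, c⟩ =>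
        ⟨⟨S.el s, ((m1 s a).cl a).el_mem, hz _ (by simpa only [S.tb_mul, S.tb_inv, (m1 s a).tb_el] using b)⟩, fun s a b =>
          c _ (e2 s a) (by simpa only [S.tb_mul, S.tb_inv, mT] using congrArg S.tb b.eq)⟩
  have l : 2520 ≤ Nat.card (S.cl [P, Q]) := le_of_ok (pr := [[nat_lit 0, nat_lit 0, nat_lit 1],
   [nat_lit 2, nat_lit 2, nat_lit 0, nat_lit 0, nat_lit 1],
   [nat_lit 3, nat_lit 2, nat_lit 1, nat_lit 3, nat_lit 3, nat_lit 3, nat_lit 2, nat_lit 3]]) (lv := [(nat_lit 0, [nat_lit 3, nat_lit 4]), (nat_lit 1, [nat_lit 1, nat_lit 0])]) (by decide +kernel) fun t ht => (m2 t ht).cl ht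
  have n : ∀ g ∈ S.cl [P, Q], ∀ i < 126, ∀ j < 126, get 5 L i = get 5 L j → get 5 L (S.ap g i) = get 5 L (S.ap g j) := fun g hg => by
    replace hg : g ∈ Submonoid.closure (S.el '' {t | t ∈ [P, Q]}) := by rwa [← Subgroup.closure_toSubmonoid_of_finite]
    induction hg using Submonoid.closure_induction with
    | mem x hx =>
      obtain ⟨t, ht, rfl⟩ := hx
      simp only [(m2 t ht).ap_el]
      have := allL_iff.1 (show allL (fun t => force t fun t => allLt (fun i => allLt (fun j => bor (bn (Nat.beq (get 5 L i) (get 5 L j)))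
        (Nat.beq (get 5 L (get 7 t i)) (get 5 L (get 7 t j)))) 126) 126) [P, Q] = true by decide +kernel) t ht
      simp only [force_eq, allLt_iff, bor_eq_true, bn_iff, Nat.beq_eq] at this
      exact fun i a j b c => (this i a j b).resolve_left (not_not.2 c)
    | one => intro i a j b c; rwa [S.ap_one a, S.ap_one b]
    | mul x y _ _ a b =>
      intro i c j d e
      rw [S.ap_mul _ _ c, S.ap_mul _ _ d]
      exact a _ (S.ap_lt _ c) _ (S.ap_lt _ d) (b i c j d e)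
  refine ⟨k, S.cl [P, Q], ?_⟩
  have a := k (S.cl [P, Q]) fun c => by
    have b := M.mem (nd 0 Ls 0) (memL_iff.1 (by decide +kernel))
    have := n (S.el (nd 0 Ls 0)) (c.ge trivial) 0 (by norm_num) 7 (by norm_num) (by decide +kernel)
    rw [b.ap_el, b.ap_el] at this
    exact absurd this (by decide +kernel)
  have b := (S.cl [P, Q]).index_mul_card
  rw [M.card] at b
  nlinarith

end Cfsg.Agent.S2149
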