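import Cfsg.Statements.S2151
import Cfsg.Agent.H24.MDU2
-- import your own Cfsg.Agent.* helpers here

set_option autoImplicit false
open Cfsg

namespace Cfsg.Agent.S2151

/-- Minimal index of a proper subgroup of the unitary groups of odd dimension n ≥ 5: for a field F with q² elements, every proper subgroup of PSU_n(q) has index at least (q^n + 1)(q^(n−1) − 1)/(q² − 1), and that index is attained. -/
theorem result {F : Type*} [Field F] [Fintype F] (q : ℕ) (hF : Fintype.card F = q ^ 2) (hq : 2 ≤ q) (n : ℕ) (hn : 5 ≤ n) (hodd : Odd n) : (∀ H : Subgroup (Cfsg.PSU n F q), H ≠ ⊤ → (q ^ n + 1) * (q ^ (n - 1) - 1) / (q ^ 2 - 1) ≤ H.index) ∧ (∃ H : Subgroup (Cfsg.PSU n F q), H.index = (q ^ n + 1) * (q ^ (n - 1) - 1) / (q ^ 2 - 1)) := by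
  obtain ⟨k, rfl⟩ : ∃ k, n = k + 4 := ⟨n - 4, by omega⟩
  rw [← Nat.card_eq_fintype_card] at hF
  have he : Even (k + 3) := by obtain ⟨j, hj⟩ := hodd; exact ⟨j, by omega⟩
  have h0 := H24.MD.U.cnt0 (H10.stdU_isUnitary hF (k + 4)) (n := k + 3) (by simp)
  have h1 := Nat.div_mul_cancel (Dvd.dvd.mul_left (show q ^ 2 - 1 ∣ q ^ (k + 3) - 1 by
    obtain ⟨j, hj⟩ := he; rw [hj, ← two_mul, pow_mul]; exact Nat.sub_one_dvd_pow_sub_one _ _) (q ^ (k + 4) + 1))
  rw [if_pos he, ← h1] at h0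
  refine H24.MD.U.final hF (by omega) h0.ge ?_ (.inl h0.symm)
  rw [if_pos he, mul_comm (q ^ _)]
  refine Nat.le_of_mul_le_mul_right ?_ (show 0 < q - 1 by omega)
  rw [mul_assoc, ← Nat.pow_two_sub_pow_two q 1, one_pow, show k + 4 - 1 = k + 3 from rfl, h1, mul_assoc]
  exact Nat.mul_le_mul_left _ ((Nat.sub_le _ _).trans (Nat.le_mul_of_pos_right _ (by omega)))

end Cfsg.Agent.S2151
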