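import Cfsg.Statements.S2153
import Cfsg.Agent.H24.MDU2
-- import your own Cfsg.Agent.* helpers here

set_option autoImplicit false
open Cfsg

namespace Cfsg.Agent.S2153

/-- Minimal index of a proper subgroup of the unitary groups PSU_n(2) with n divisible by 6, realised over the field with 4 elements: every proper subgroup has index at least 2^(n−1)(2^n − 1)/3, and that index is attained. -/
theorem result {F : Type*} [Field F] [Fintype F] (hF : Fintype.card F = 4) (n : ℕ) (hn : 6 ∣ n) (hpos : 6 ≤ n) : (∀ H : Subgroup (Cfsg.PSU n F 2), H ≠ ⊤ → 2 ^ (n - 1) * (2 ^ n - 1) / 3 ≤ H.index) ∧ (∃ H : Subgroup (Cfsg.PSU n F 2), H.index = 2 ^ (n - 1) * (2 ^ n - 1) / 3) := by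
  obtain ⟨k, rfl⟩ : ∃ k, n = k + 4 := ⟨n - 4, by omega⟩
  rw [← Nat.card_eq_fintype_card, show 4 = 2 ^ 2 from rfl] at hF
  have he : ¬ Even (k + 3) := by rintro ⟨i, hi⟩; omega
  have h0 := H24.MD.U.cnt0 (H10.stdU_isUnitary hF (k + 4)) (n := k + 3) (by simp)
  have h1 := Nat.div_mul_cancel (Dvd.dvd.mul_left (show 2 ^ 2 - 1 ∣ 2 ^ (k + 4) - 1 by
    rw [show k + 4 = 2 * ((k + 4) / 2) by omega, pow_mul]; exact Nat.sub_one_dvd_pow_sub_one _ _) (2 ^ (k + 3)))
  rw [if_neg he] at h0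
  refine H24.MD.U.final hF (by omega) ?_ (by rw [if_neg he]; exact h1.le) (.inr ⟨rfl, by rw [if_neg he]; exact h1⟩)
  rw [h0, mul_add, mul_comm _ (2 ^ (k + 3)), ← h1]
  exact Nat.succ_le_succ (Nat.le_add_right _ _)

end Cfsg.Agent.S2153
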