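import Mathlib
import Cfsg.Statements.S2154
import Cfsg.Agent.H12.LieBT

set_option autoImplicit false
open Cfsg

namespace Cfsg.Agent.S2154

open Cfsg.Lie H11 H11.StSys H12.Lie in
theorem aux {F : Type*} [Field F] [Finite F] (p : ℕ) [Fact p.Prime] [CharP F p] (D : ChevalleyDatum) [Good D] [Cert D]
    (U : Subgroup (GL D.Idx F)) (hUG : U ≤ D.group F) (hU : IsPGroup p ↥U) (hne : U ≠ ⊥) : ∃ g ∈ D.group F, ∃ J : Set ℕ, (∃ i, i < D.rank ∧ i ∉ J) ∧ Subgroup.normalizer (U : Set (GL D.Idx F)) ⊓ D.group F ≤ (D.parabolicSubgroup F J).map (MulAut.conj g).toMonoidHom ∧ U ≤ (D.unipotentRadical F J).map (MulAut.conj g).toMonoidHom := by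
  rw [group_eq] at hUG ⊢
  obtain ⟨g, hg, J, hJ, h1, h2⟩ := borel_tits_p (S := matSys D F) p (fun _ _ h => h) hUG hU hne
  have e : Fin.val ⁻¹' (Fin.val '' J) = J := Set.preimage_image_eq _ Fin.val_injective
  obtain ⟨i, hi⟩ := (Set.ne_univ_iff_exists_notMem _).1 hJ
  refine ⟨g, hg, Fin.val '' J, ⟨i, i.2, fun ⟨j, hj, e⟩ => hi (Fin.ext e ▸ hj)⟩, fun y hy => ?_, fun y hy => ?_⟩
  · rw [parabolicSubgroup_eq, e]; exact ⟨_, h1 y hy.2 hy.1, by simp [mul_assoc]⟩
  · rw [unipotentRadical_eq, e]; exact ⟨_, h2 y hy, by simp [mul_assoc]⟩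

/-- The Borel–Tits property of the finite Chevalley groups of types G₂, B₂, D₄, F₄, E₆, E₇, E₈ over a finite field of characteristic p: for every non-trivial p-subgroup U of the group G there are an element g of G and a proper set J of fundamental roots such that the normaliser of U in G lies in the conjugate by g of the standard parabolic subgroup P_J and U lies in the conjugate by g of its unipotent radical U_J. -/
theorem result {F : Type*} [Field F] [Fintype F] (p : ℕ) [Fact p.Prime] [CharP F p] (D : Cfsg.Lie.ChevalleyDatum) (hD : D ∈ [Cfsg.Lie.chevG2, Cfsg.Lie.chevB2, Cfsg.Lie.chevD4, Cfsg.Lie.chevF4, Cfsg.Lie.chevE6, Cfsg.Lie.chevE7, Cfsg.Lie.chevE8]) (U : Subgroup (GL D.Idx F)) (hUG : U ≤ D.group F) (hU : IsPGroup p ↥U) (hne : U ≠ ⊥) : ∃ g ∈ D.group F, ∃ J : Set ℕ, (∃ i, i < D.rank ∧ i ∉ J) ∧ Subgroup.normalizer (U : Set (GL D.Idx F)) ⊓ D.group F ≤ (D.parabolicSubgroup F J).map (MulAut.conj g).toMonoidHom ∧ U ≤ (D.unipotentRadical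 F J).map (MulAut.conj g).toMonoidHom := by
  have := H11.good_of_mem hD
  have := H11.cert_of_mem hD
  exact aux p D U hUG hU hne

end Cfsg.Agent.S2154
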