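import Cfsg.Statements.S2155
import Cfsg.Agent.H12.LtQ
import Cfsg.Agent.H23.Infect
-- import your own Cfsg.Agent.* helpers here

set_option autoImplicit false
open Cfsg

namespace Cfsg.Agent.S2155
open H11 Cfsg.Lie

/-- In a Chevalley group of type G₂, B₂, D₄, F₄, E₆, E₇ or E₈ over a finite field of characteristic p (for types G₂ and B₂ the field is assumed to have at least 3 elements, so that the group is simple), the generalized Fitting subgroup of every proper standard parabolic subgroup P_J is a p-group (P_J is p-constrained with trivial largest normal subgroup of order prime to p). -/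
theorem result {F : Type*} [Field F] [Fintype F] (p : ℕ) [Fact p.Prime] [CharP F p] (D : Cfsg.Lie.ChevalleyDatum) (hD : D ∈ [Cfsg.Lie.chevG2, Cfsg.Lie.chevB2, Cfsg.Lie.chevD4, Cfsg.Lie.chevF4, Cfsg.Lie.chevE6, Cfsg.Lie.chevE7, Cfsg.Lie.chevE8]) (hq : (D = Cfsg.Lie.chevG2 ∨ D = Cfsg.Lie.chevB2) → 3 ≤ Fintype.card F) (J : Set ℕ) (hJ : ∃ i, i < D.rank ∧ i ∉ J) : IsPGroup p ↥(Cfsg.generalizedFittingSubgroup ↥(D.parabolicSubgroup F J)) := by
  have := good_of_mem hD
  have := cert_of_mem hD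
  obtain ⟨i, hi, hiJ⟩ := hJ
  let S := grpSys D F
  have hg : S.grp = ⊤ := grpSys_grp D F
  have C := H12.Lt.lt_tw (H12.Inv.tw_one hg) (j := MonoidHom.id _) Function.injective_id (by ext; simp [mem_fixS]) p
    (grpSys_θ_injective D F) fun i => ⟨i, mem_orb_self _ _, _, ⟨StSys.x_mem_U (isPos_sroot i) 1, rfl⟩, H12.Lt.x_not_mem_UJ i one_ne_zero⟩
  let J' : Set (H12.Lt.Orb (1 : Equiv.Perm (Node D))) := {a | (a.out : ℕ) ∈ J}
  have h1 : ∀ k : Node D, (⟦k⟧ : H12.Lt.Orb (1 : Equiv.Perm (Node D))).out = k := fun k =>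
    Equiv.Perm.sameCycle_one.1 (Quotient.mk_out (s := Equiv.Perm.SameCycle.setoid 1) k)
  have h2 : H12.Lt.oset J' = Fin.val ⁻¹' J := by ext k; simp [H12.Lt.oset, J', h1]
  have h3 := C.cent (J := J') fun e => hiJ (by have : (⟦⟨i, hi⟩⟧ : H12.Lt.Orb 1) ∈ J' := e ▸ trivial; simpa [J', h1] using this)
  have h4 := C.pU
  simp only [h2, Subgroup.comap_id] at h3 h4
  set P := S.PJ (Fin.val ⁻¹' J)
  have e : P.map (D.group F).subtype = D.parabolicSubgroup F J := by
    refine (congrArg _ (grpSys_PJ D F J)).trans (Subgroup.map_subgroupOf_eq_of_le ?_)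
    rw [parabolicSubgroup_eq, group_eq]; exact StSys.PJ_le_grp _
  rw [← e]
  have h5 : (H12.Lt.Rad S.U P).map (D.group F).subtype ≤ piCoreOf {p} (P.map (D.group F).subtype) :=
    H02.le_piCoreOf (Subgroup.map_mono ((H12.Lt.Rad_le _ _).trans (StSys.U_le_B.trans (StSys.B_le_PJ _))))
      ((Subgroup.map_mono (H12.Lt.le_norm fun g a u b => H12.Lt.conj_mem_Rad a b)).trans (Subgroup.le_normalizer_map _))
      ((BG.isPi_singleton Fact.out).2 ((h4.to_le (H12.Lt.Rad_le _ _)).map _))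
  refine H23.ChP.fstar ?_ Fact.out
  rintro _ ⟨⟨g, -, rfl⟩, a⟩
  exact h5 ⟨g, h3 fun u hu => Subtype.ext (a _ (h5 ⟨u, hu, rfl⟩)), rfl⟩

end Cfsg.Agent.S2155
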