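import Cfsg.Statements.S2156
import Cfsg.Agent.H11.ChevAut
-- import your own Cfsg.Agent.* helpers here

set_option autoImplicit false
open Cfsg

namespace Cfsg.Agent.S2156
open H11 Cfsg.Lie

/-- Over a finite field, every automorphism of the Chevalley group of type G₂, B₂, D₄, F₄, E₆, E₇ or E₈ is the composite of a field automorphism, a graph automorphism, a diagonal automorphism and an inner automorphism: `θ y = x · d(g(f y)) · x⁻¹` for some group element `x`, diagonal `d`, graph `g` and field `f` (each possibly the identity; diagonal here includes conjugation by elements of the diagonal subgroup H). -/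
theorem result {F : Type*} [Field F] [Finite F] (D : Cfsg.Lie.ChevalleyDatum) (hD : D ∈ [Cfsg.Lie.chevG2, Cfsg.Lie.chevB2, Cfsg.Lie.chevD4, Cfsg.Lie.chevF4, Cfsg.Lie.chevE6, Cfsg.Lie.chevE7, Cfsg.Lie.chevE8]) (θ : ↥(D.group F) ≃* ↥(D.group F)) :
    ∃ (x : ↥(D.group F)) (d g f : ↥(D.group F) ≃* ↥(D.group F)),
      D.IsDiagonalAut d ∧ D.IsGraphAut g ∧ D.IsFieldAut f ∧ ∀ y : ↥(D.group F), θ y = x * d (g (f y)) * x⁻¹ := by
  have := H11.good_of_mem hD
  have := H11.cert_of_mem hD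
  have := H11.nonempty_node hD
  obtain ⟨g, hg⟩ := H11.StSys.exists_conj_mem_A0 (H11.grpSys_grp D F) θ
  obtain ⟨L, hL, -⟩ := H11.exists_grList (K := F) hD
  obtain ⟨c, γ, π, σ, h1, h2, h3⟩ := H11.exists_decomp_A0 hL hg
  refine ⟨g⁻¹, H11.diagAut D F c, γ, H11.fieldAut D F σ, H11.isDiagonalAut_iff.2 ⟨c, rfl⟩,
    H11.isGraphAut_iff.2 ⟨π, h1, h2⟩, H11.isFieldAut_iff.2 ⟨σ, rfl⟩, fun y => ?_⟩
  have : g * θ y * g⁻¹ = H11.diagAut D F c (γ (H11.fieldAut D F σ y)) := DFunLike.congr_fun h3 y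
  rw [← this]; group

end Cfsg.Agent.S2156
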