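import Cfsg.Statements.S2158
import Cfsg.Agent.H11.ChevAut
-- import your own Cfsg.Agent.* helpers here

set_option autoImplicit false
open Cfsg

namespace Cfsg.Agent.S2158
open H11 Cfsg.Lie

/-- In a Chevalley group of type G₂, B₂, D₄, F₄, E₆, E₇ or E₈ over any field, an element of the group whose matrix is the diagonal matrix `ĥ(χ)` of a character `χ` of the root lattice already lies in the diagonal subgroup H (the non-trivial inclusion of the statement that the group meets the group of all such diagonal matrices in H). -/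
theorem result {F : Type*} [Field F] (D : Cfsg.Lie.ChevalleyDatum) (hD : D ∈ [Cfsg.Lie.chevG2, Cfsg.Lie.chevB2, Cfsg.Lie.chevD4, Cfsg.Lie.chevF4, Cfsg.Lie.chevE6, Cfsg.Lie.chevE7, Cfsg.Lie.chevE8]) (χ : ℕ → Fˣ) (hχ : D.IsRootCharacter χ) (g : GL D.Idx F) (hg : g ∈ D.group F)
    (hgχ : (g : Matrix D.Idx D.Idx F) = D.charDiag F χ) : g ∈ D.diagonalSubgroup F := by
  have := H11.good_of_mem hD
  have := H11.cert_of_mem hD
  have e : g = H11.torU D F (H11.chiS fun i => χ (H11.sroot i : H11.Root D)) := by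
    rw [← H11.eq_chiS (H11.isRootCharacter_iff.1 hχ)]; exact Units.ext hgχ
  have h : MulAut.conj (⟨g, hg⟩ : D.group F) = H11.diagAut D F fun i => χ (H11.sroot i : H11.Root D) := by
    ext1 y; exact Subtype.ext (by rw [H11.diagAut_coe, ← e]; rfl)
  have := (H11.StSys.conj_mem_A0_iff (H11.grpSys_grp D F) (g := ⟨g, hg⟩)).1
    (by rw [h]; exact ⟨_, _, _, H11.simpAct_diag _⟩)
  rwa [H11.grpSys_H] at this

end Cfsg.Agent.S2158
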