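import Cfsg.Statements.S2159
import Cfsg.Agent.H11.ChevAut
-- import your own Cfsg.Agent.* helpers here

set_option autoImplicit false
open Cfsg

namespace Cfsg.Agent.S2159
open H11 Cfsg.Lie

/-- Structure of the outer automorphism group of the Chevalley group `G` of type G₂, B₂, D₄, F₄, E₆, E₇ or E₈ over a finite field. Let `D̄` be the image in `Out(G)` of the subgroup generated by the diagonal automorphisms and `F̄` the image of the subgroup generated by the field automorphisms. Then `D̄` is a normal abelian subgroup of `Out(G)`, `F̄` is cyclic, `D̄F̄` is a normal subgroup, and the quotient of `Out(G)` by `D̄F̄` is trivial, of order 2, or non-abelian of order 6 (so isomorphic to the symmetric group on three letters): its index is 1 or 2, or it is 6 with the commutator subgroup of `Out(G)` not inside `D̄F̄`. -/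
theorem result {F : Type*} [Field F] [Finite F] (D : Cfsg.Lie.ChevalleyDatum) (hD : D ∈ [Cfsg.Lie.chevG2, Cfsg.Lie.chevB2, Cfsg.Lie.chevD4, Cfsg.Lie.chevF4, Cfsg.Lie.chevE6, Cfsg.Lie.chevE7, Cfsg.Lie.chevE8])
    (Dbar Fbar : Subgroup (Cfsg.Out ↥(D.group F)))
    (hDbar : Dbar = (Subgroup.closure {φ : MulAut ↥(D.group F) | D.IsDiagonalAut φ}).map (QuotientGroup.mk' (Cfsg.Inn ↥(D.group F))))
    (hFbar : Fbar = (Subgroup.closure {φ : MulAut ↥(D.group F) | D.IsFieldAut φ}).map (QuotientGroup.mk' (Cfsg.Inn ↥(D.group F)))) :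
    Dbar.Normal ∧ IsMulCommutative ↥Dbar ∧ IsCyclic ↥Fbar ∧ (Dbar ⊔ Fbar).Normal ∧
      ((Dbar ⊔ Fbar).index = 1 ∨ (Dbar ⊔ Fbar).index = 2 ∨
        ((Dbar ⊔ Fbar).index = 6 ∧ ¬ commutator (Cfsg.Out ↥(D.group F)) ≤ Dbar ⊔ Fbar)) := by
  have := H11.good_of_mem hD
  have := H11.cert_of_mem hD
  have := H11.nonempty_node hD
  have e1 : {φ : MulAut ↥(D.group F) | D.IsDiagonalAut φ} = (H11.diagAut D F).range := Set.ext fun _ => H11.isDiagonalAut_iff
  have e2 : {φ : MulAut ↥(D.group F) | D.IsFieldAut φ} = (H11.fieldAut D F).range := Set.ext fun _ => H11.isFieldAut_iff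
  rw [e1, Subgroup.closure_eq, MonoidHom.map_range] at hDbar
  rw [e2, Subgroup.closure_eq, MonoidHom.map_range] at hFbar
  have hs := H11.outA0_surjective (D := D) (K := F)
  have h1 : Dbar ⊔ Fbar = (H11.grpSys D F).rho.ker.map (H11.outA0 D F) := by
    subst hDbar hFbar
    refine le_antisymm (sup_le ?_ ?_) ?_
    · rintro _ ⟨c, rfl⟩
      exact ⟨⟨_, _, _, _, H11.simpAct_diag c⟩, H11.mem_ker_rho.2 ⟨c, 1, by simp⟩, rfl⟩
    · rintro _ ⟨σ, rfl⟩
      exact ⟨⟨_, _, _, _, H11.simpAct_field σ⟩, H11.mem_ker_rho.2 ⟨1, σ, by simp⟩, rfl⟩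
    · rintro _ ⟨α, h, rfl⟩
      obtain ⟨c, σ, h⟩ := H11.mem_ker_rho.1 h
      show QuotientGroup.mk' _ α.1 ∈ _
      rw [h, map_mul]
      exact Subgroup.mul_mem_sup ⟨c, rfl⟩ ⟨σ, rfl⟩
  have h2 : (H11.outA0 D F).ker ≤ (H11.grpSys D F).rho.ker := fun α h => by
    obtain ⟨g, hg⟩ := (QuotientGroup.eq_one_iff _).1 h
    change _ = α.1 at hg
    obtain ⟨χ, h1, -, h2⟩ := H11.StSys.exists_char ((H11.StSys.conj_mem_A0_iff (H11.grpSys_grp D F)).1 (hg ▸ α.2))
    exact H11.StSys.SimpAct.rho_eq (c := fun i => χ (H11.sroot i)) (f := fun _ => RingEquiv.refl F)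
      (hg ▸ ⟨fun i t => h2 _ t, fun i t => by simpa [h1.1] using h2 (H11.sroot i).rev t⟩)
  obtain ⟨p, hp⟩ := CharP.exists F
  have := Fact.mk (CharP.char_is_prime F p)
  obtain ⟨n, -, hn⟩ := H11.StSys.exists_card_eq (K := F) p
  have := (H11.ringAut_facts p hn).2
  obtain ⟨L, hL, h3⟩ := H11.exists_grList (K := F) hD
  refine ⟨⟨?_⟩, hDbar ▸ inferInstance, hFbar ▸ isCyclic_of_surjective _ (MonoidHom.rangeRestrict_surjective _),
    h1 ▸ Subgroup.Normal.map inferInstance _ hs, ?_⟩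
  · subst hDbar
    rintro _ ⟨c, rfl⟩ a
    obtain ⟨α, rfl⟩ := hs a
    obtain ⟨d, hd⟩ := H11.conj_diag α.2 c
    exact ⟨d, by simp [hd, H11.outA0]⟩
  · rw [h1, Subgroup.index_map_eq _ hs h2, Subgroup.index_ker, hL.card]
    refine h3.imp_right (Or.imp_right fun ⟨h4, a, ha, b, hb, h5⟩ => ⟨h4, fun h6 => h5 ?_⟩)
    obtain ⟨α, rfl⟩ := (hL.2.2 a ha).choose_spec.mem_range
    obtain ⟨β, rfl⟩ := (hL.2.2 b hb).choose_spec.mem_range
    have h7 := h6 (Subgroup.commutator_mem_commutator (Subgroup.mem_top (H11.outA0 D F α)) (Subgroup.mem_top (H11.outA0 D F β)))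
    rw [← map_commutatorElement, ← Subgroup.mem_comap, Subgroup.comap_map_eq_self h2, MonoidHom.mem_ker,
      map_commutatorElement] at h7
    exact commutatorElement_eq_one_iff_mul_comm.1 h7

end Cfsg.Agent.S2159
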