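import Mathlib
import Cfsg.Agent.L.GL2Char
-- Template for statement S2298 (row 2298; see /opt/grader/pristine/manifest.json for weights).
-- Copy to Cfsg/Agent/S2298.lean and replace the sorry. The statement below is byte-identical to the frozen
-- statement Cfsg.CfsgFrozen.S2298 (Cfsg/Statements/S2298.lean; the theorem Cfsg.lie3_gl_two_irreducible_character_degrees);
-- the grader kernel-checks Cfsg.Agent.S2298.result against that frozen type. Keep the theorem IN THIS FILE
-- (a `result` declared elsewhere and merely imported here is not credited); helpers may live anywhere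
-- under Cfsg/Agent/.
import Cfsg.Statements.S2298
-- import your own Cfsg.Agent.* helpers here

set_option autoImplicit false
open Cfsg

namespace Cfsg.Agent.S2298

/-- Over a finite field F with q elements, every irreducible complex character of GL₂ has degree 1, q − 1, q or q + 1; and when q ≥ 3 (so that these four numbers are distinct) there are exactly q − 1 irreducible characters of degree 1, exactly q − 1 of degree q, exactly (q − 1)(q − 2)/2 of degree q + 1 and exactly q(q − 1)/2 of degree q − 1. -/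
theorem result {F : Type*} [Field F] [Fintype F] :
    (∀ χ : Matrix.GeneralLinearGroup (Fin 2) F → ℂ, Cfsg.IsIrrCharacter (Matrix.GeneralLinearGroup (Fin 2) F) χ →
      χ 1 = 1 ∨ χ 1 = (Fintype.card F : ℂ) - 1 ∨ χ 1 = (Fintype.card F : ℂ) ∨ χ 1 = (Fintype.card F : ℂ) + 1) ∧
    (3 ≤ Fintype.card F →
      Nat.card {χ : Cfsg.IrrCharacter (Matrix.GeneralLinearGroup (Fin 2) F) // (χ : Matrix.GeneralLinearGroup (Fin 2) F → ℂ) 1 = 1} = Fintype.card F - 1 ∧
      Nat.card {χ : Cfsg.IrrCharacter (Matrix.GeneralLinearGroup (Fin 2) F) // (χ : Matrix.GeneralLinearGroup (Fin 2) F → ℂ) 1 = (Fintype.card F : ℂ)} = Fintype.card F - 1 ∧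
      Nat.card {χ : Cfsg.IrrCharacter (Matrix.GeneralLinearGroup (Fin 2) F) // (χ : Matrix.GeneralLinearGroup (Fin 2) F → ℂ) 1 = (Fintype.card F : ℂ) + 1} = (Fintype.card F - 1) * (Fintype.card F - 2) / 2 ∧
      Nat.card {χ : Cfsg.IrrCharacter (Matrix.GeneralLinearGroup (Fin 2) F) // (χ : Matrix.GeneralLinearGroup (Fin 2) F → ℂ) 1 = (Fintype.card F : ℂ) - 1} = Fintype.card F * (Fintype.card F - 1) / 2) := by
  classical
  obtain ⟨g₀, h₀⟩ := L.exists_noEig_GL (F := F)
  have q0 := L.card_ne_zero_c (F := F)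
  have q1 := L.card_sub_one_ne_zero_c (F := F)
  constructor
  · intro χ hχ
    rcases L.GLc.irr_cases h₀ hχ with ⟨α, rfl⟩ | ⟨α, rfl⟩ | ⟨α, β, -, rfl⟩ | ⟨θ, -, rfl⟩
    · simp [L.GLc.lin_one]
    · simp [L.GLc.St_one]
    · simp [L.GLc.I_one]
    · simp [L.GLc.P_one h₀]
  intro hq
  have q2 : (Fintype.card F : ℂ) - 2 ≠ 0 := by
    rw [sub_ne_zero]; exact_mod_cast (by omega : Fintype.card F ≠ 2)
  have n1 : (1 : ℂ) ≠ 0 := one_ne_zero
  have n2 : (2 : ℂ) ≠ 0 := two_ne_zero
  refine ⟨?_, ?_, ?_, ?_⟩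
  · rw [← L.card_mulChar]
    symm
    refine Nat.card_congr (Equiv.ofBijective
      (fun α => ⟨⟨L.GLc.lin α, L.GLc.isIrr_lin α⟩, L.GLc.lin_one α⟩) ⟨?_, ?_⟩)
    · intro α β h; exact L.GLc.lin_injective (congrArg (fun x => x.1.1) h)
    · rintro ⟨⟨χ, hχ⟩, hdeg⟩
      rcases L.GLc.irr_cases h₀ hχ with ⟨α, rfl⟩ | ⟨α, rfl⟩ | ⟨α, β, -, rfl⟩ | ⟨θ, -, rfl⟩
      · exact ⟨α, rfl⟩
      · exact absurd (by linear_combination hdeg - L.GLc.St_one α) q1
      · exact absurd (by linear_combination hdeg - L.GLc.I_one α β) q0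
      · exact absurd (by linear_combination hdeg - L.GLc.P_one h₀ θ) q2
  · rw [← L.card_mulChar]
    symm
    refine Nat.card_congr (Equiv.ofBijective
      (fun α => ⟨⟨L.GLc.St α, L.GLc.isIrr_St α⟩, L.GLc.St_one α⟩) ⟨?_, ?_⟩)
    · intro α β h; exact L.GLc.St_injective (congrArg (fun x => x.1.1) h)
    · rintro ⟨⟨χ, hχ⟩, hdeg⟩
      rcases L.GLc.irr_cases h₀ hχ with ⟨α, rfl⟩ | ⟨α, rfl⟩ | ⟨α, β, -, rfl⟩ | ⟨θ, -, rfl⟩
      · exact absurd (by linear_combination L.GLc.lin_one α - hdeg) q1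
      · exact ⟨α, rfl⟩
      · exact absurd (by linear_combination hdeg - L.GLc.I_one α β) n1
      · exact absurd (by linear_combination L.GLc.P_one h₀ θ - hdeg) n1
  · have h := L.card_eq_two_mul_of_fibers
      (A := {p : MulChar F ℂ × MulChar F ℂ // p.1 ≠ p.2})
      (B := {χ : Cfsg.IrrCharacter (L.GL2 F) // (χ : L.GL2 F → ℂ) 1 = (Fintype.card F : ℂ) + 1})
      (fun p => ⟨⟨L.GLc.I p.1.1 p.1.2, L.GLc.isIrr_I p.2⟩, L.GLc.I_one _ _⟩)
      (fun p => ⟨p.1.swap, p.2.symm⟩)
      (fun p h => p.2 (congrArg (fun x => x.1.2) h))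
      (by
        rintro ⟨⟨α, β⟩, h⟩ ⟨⟨γ, δ⟩, h'⟩
        simp [Subtype.ext_iff, L.GLc.I_eq_I_iff])
      (by
        rintro ⟨⟨χ, hχ⟩, hdeg⟩
        rcases L.GLc.irr_cases h₀ hχ with ⟨α, rfl⟩ | ⟨α, rfl⟩ | ⟨α, β, h, rfl⟩ | ⟨θ, -, rfl⟩
        · exact absurd (by linear_combination L.GLc.lin_one α - hdeg) q0
        · exact absurd (by linear_combination L.GLc.St_one α - hdeg) n1
        · exact ⟨⟨(α, β), h⟩, rfl⟩
        · exact absurd (by linear_combination L.GLc.P_one h₀ θ - hdeg) n2)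
    have h2 : Nat.card {p : MulChar F ℂ × MulChar F ℂ // p.1 ≠ p.2} =
        (Fintype.card F - 1) * (Fintype.card F - 2) := by
      cases nonempty_fintype (MulChar F ℂ)
      have hc : Fintype.card (MulChar F ℂ) = Fintype.card F - 1 := by
        rw [← Nat.card_eq_fintype_card, L.card_mulChar]
      have := Finset.offDiag_card (Finset.univ : Finset (MulChar F ℂ))
      rw [Nat.card_eq_fintype_card, Fintype.card_subtype]
      rw [Finset.card_univ, hc] at this
      have e : (Finset.univ.filter fun p : MulChar F ℂ × MulChar F ℂ => p.1 ≠ p.2) =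
          Finset.univ.offDiag := by ext p; simp
      rw [e, this, ← Nat.mul_sub_one]; rfl
    rw [h2] at h
    exact (Nat.div_eq_of_eq_mul_right two_pos h).symm
  · have := L.finite_dual (A := L.GLc.T g₀)
    have hss : ∀ θ : L.GLc.T g₀ →* ℂˣ, (θ.comp (L.GLc.sig h₀)).comp (L.GLc.sig h₀) = θ := by
      intro θ; ext z; simp [L.GLc.sig_sig]
    have h := L.card_eq_two_mul_of_fibers
      (A := {θ : L.GLc.T g₀ →* ℂˣ // θ ≠ θ.comp (L.GLc.sig h₀)})
      (B := {χ : Cfsg.IrrCharacter (L.GL2 F) // (χ : L.GL2 F → ℂ) 1 = (Fintype.card F : ℂ) - 1})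
      (fun θ => ⟨⟨L.GLc.P θ.1, L.GLc.isIrr_P h₀ θ.2⟩, L.GLc.P_one h₀ _⟩)
      (fun θ => ⟨θ.1.comp (L.GLc.sig h₀), by rw [hss]; exact θ.2.symm⟩)
      (fun θ h => θ.2 (congrArg Subtype.val h).symm)
      (by
        rintro ⟨θ, h⟩ ⟨η, h'⟩
        simp only [Subtype.ext_iff]
        have hi := L.GLc.inner_P_P h₀ θ η
        constructor
        · intro e
          by_contra hne
          push Not at hne
          rw [if_neg hne.1, if_neg hne.2, ← e, H05.Cfsg.IsIrrCharacter.classInner_self (L.GLc.isIrr_P h₀ h)] at hi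
          simp at hi
        · rintro (e | e)
          · rw [e]
          · apply L.eq_of_classInner_ne_zero (L.GLc.isIrr_P h₀ h) (L.GLc.isIrr_P h₀ h')
            rw [hi, if_pos e]; split_ifs <;> norm_num)
      (by
        rintro ⟨⟨χ, hχ⟩, hdeg⟩
        rcases L.GLc.irr_cases h₀ hχ with ⟨α, rfl⟩ | ⟨α, rfl⟩ | ⟨α, β, h, rfl⟩ | ⟨θ, h, rfl⟩
        · exact absurd (by linear_combination L.GLc.lin_one α - hdeg) q2
        · exact absurd (by linear_combination hdeg - L.GLc.St_one α) n1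
        · exact absurd (by linear_combination hdeg - L.GLc.I_one α β) n2
        · exact ⟨⟨θ, h⟩, rfl⟩)
    have h3 : Nat.card {θ : L.GLc.T g₀ →* ℂˣ // θ = θ.comp (L.GLc.sig h₀)} = Fintype.card F - 1 := by
      rw [← L.card_mulChar]
      symm
      let φ : L.GLc.T g₀ →* Fˣ := (Matrix.GeneralLinearGroup.det).comp (L.GLc.T g₀).subtype
      have hφ : ∀ z, φ (L.GLc.sig h₀ z) = φ z := by
        intro z; apply Units.ext; simp [φ, L.GLc.coe_sig, Matrix.det_adjugate]
      refine Nat.card_congr (Equiv.ofBijective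
        (fun α => ⟨α.toUnitHom.comp φ, by ext z; simp [hφ]⟩) ⟨?_, ?_⟩)
      · intro α β h
        ext c
        obtain ⟨a, b, hab⟩ := L.exists_det_lin_eq (g₀ : L.M2 F) (Or.inr h₀.disc_ne') (c : F)
        have := DFunLike.congr_fun (congrArg Subtype.val h)
          ⟨L.mkGL (a • (1 : L.M2 F) + b • (g₀ : L.M2 F)) (by rw [hab]; exact c.ne_zero),
            L.mem_centralizer_GL.2 (L.commute_lin _ _ _)⟩
        have := congrArg Units.val this
        simpa [φ, hab] using this
      · rintro ⟨θ, hθ⟩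
        obtain ⟨α, hα⟩ := L.GLc.exists_lin_of_eq_sig h₀ hθ
        refine ⟨α, Subtype.ext ?_⟩
        ext z; simp [hα, φ]
    have h4 : Nat.card (L.GLc.T g₀ →* ℂˣ) = Fintype.card F ^ 2 - 1 := by
      letI : CommGroup (L.GLc.T g₀) :=
        { (inferInstance : Group (L.GLc.T g₀)) with mul_comm := L.GLc.T_comm h₀ }
      rw [L.card_dual, L.GLc.card_T h₀]
    have h5 : Nat.card {θ : L.GLc.T g₀ →* ℂˣ // θ ≠ θ.comp (L.GLc.sig h₀)} =
        Fintype.card F * (Fintype.card F - 1) := by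
      cases nonempty_fintype (L.GLc.T g₀ →* ℂˣ)
      rw [Nat.card_eq_fintype_card, Fintype.card_subtype_compl, ← Nat.card_eq_fintype_card,
        ← Nat.card_eq_fintype_card, h3, h4, Nat.mul_sub_one, sq]
      omega
    rw [h5] at h
    exact (Nat.div_eq_of_eq_mul_right two_pos h).symm

end Cfsg.Agent.S2298
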