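import Mathlib
import Cfsg.Agent.L.SL2Char
-- Template for statement S2299 (row 2299; see /opt/grader/pristine/manifest.json for weights).
-- Copy to Cfsg/Agent/S2299.lean and replace the sorry. The statement below is byte-identical to the frozen
-- statement Cfsg.CfsgFrozen.S2299 (Cfsg/Statements/S2299.lean; the theorem Cfsg.lie3_sl_two_irreducible_character_degrees_odd);
-- the grader kernel-checks Cfsg.Agent.S2299.result against that frozen type. Keep the theorem IN THIS FILE
-- (a `result` declared elsewhere and merely imported here is not credited); helpers may live anywhere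
-- under Cfsg/Agent/.
import Cfsg.Statements.S2299
-- import your own Cfsg.Agent.* helpers here

set_option autoImplicit false
open Cfsg

namespace Cfsg.Agent.S2299

/-- Over a finite field F with q elements, q odd, every irreducible complex character of SL₂ has degree 1, q, q + 1, q − 1, (q + 1)/2 or (q − 1)/2; and when q ≥ 5 (so that these six numbers are distinct) there are exactly one irreducible character of degree 1, one of degree q, (q − 3)/2 of degree q + 1, (q − 1)/2 of degree q − 1, two of degree (q + 1)/2 and two of degree (q − 1)/2. -/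
theorem result {F : Type*} [Field F] [Fintype F] (hodd : Odd (Fintype.card F)) :
    (∀ χ : Matrix.SpecialLinearGroup (Fin 2) F → ℂ, Cfsg.IsIrrCharacter (Matrix.SpecialLinearGroup (Fin 2) F) χ →
      χ 1 = 1 ∨ χ 1 = (Fintype.card F : ℂ) ∨ χ 1 = (Fintype.card F : ℂ) + 1 ∨ χ 1 = (Fintype.card F : ℂ) - 1 ∨
        χ 1 = (((Fintype.card F + 1) / 2 : ℕ) : ℂ) ∨ χ 1 = (((Fintype.card F - 1) / 2 : ℕ) : ℂ)) ∧
    (5 ≤ Fintype.card F →
      Nat.card {χ : Cfsg.IrrCharacter (Matrix.SpecialLinearGroup (Fin 2) F) // (χ : Matrix.SpecialLinearGroup (Fin 2) F → ℂ) 1 = 1} = 1 ∧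
      Nat.card {χ : Cfsg.IrrCharacter (Matrix.SpecialLinearGroup (Fin 2) F) // (χ : Matrix.SpecialLinearGroup (Fin 2) F → ℂ) 1 = (Fintype.card F : ℂ)} = 1 ∧
      Nat.card {χ : Cfsg.IrrCharacter (Matrix.SpecialLinearGroup (Fin 2) F) // (χ : Matrix.SpecialLinearGroup (Fin 2) F → ℂ) 1 = (Fintype.card F : ℂ) + 1} = (Fintype.card F - 3) / 2 ∧
      Nat.card {χ : Cfsg.IrrCharacter (Matrix.SpecialLinearGroup (Fin 2) F) // (χ : Matrix.SpecialLinearGroup (Fin 2) F → ℂ) 1 = (Fintype.card F : ℂ) - 1} = (Fintype.card F - 1) / 2 ∧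
      Nat.card {χ : Cfsg.IrrCharacter (Matrix.SpecialLinearGroup (Fin 2) F) // (χ : Matrix.SpecialLinearGroup (Fin 2) F → ℂ) 1 = (((Fintype.card F + 1) / 2 : ℕ) : ℂ)} = 2 ∧
      Nat.card {χ : Cfsg.IrrCharacter (Matrix.SpecialLinearGroup (Fin 2) F) // (χ : Matrix.SpecialLinearGroup (Fin 2) F → ℂ) 1 = (((Fintype.card F - 1) / 2 : ℕ) : ℂ)} = 2) := by
  classical
  have h2 := L.two_ne_zero_of_odd hodd
  obtain ⟨g₀, h₀⟩ := L.exists_noEig_SL (F := F)
  refine ⟨fun χ hχ => ?_, fun hq => ⟨L.SLc.card_deg_one (by omega), L.SLc.card_deg_q, ?_, ?_,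
    L.SLc.card_deg_half_add h2 hq, L.SLc.card_deg_half_sub h2 hq⟩⟩
  · rcases L.SLc.irr_cases h₀ hχ with rfl | rfl | ⟨α, h, rfl⟩ | ⟨θ, h, rfl⟩ | ⟨α, χ', h1, h2, h⟩ |
      ⟨θ, χ', h1, h2, h⟩
    · simp
    · simp [L.SLc.Sts_one]
    · simp [L.SLc.R_one]
    · simp [L.SLc.pi_one]
    · simp [h.deg_R]
    · simp [h.deg_pi]
  · have := L.SLc.two_mul_card_deg_add (F := F)
    obtain ⟨k, hk⟩ := hodd
    rw [show (Fintype.card F - 1).gcd 2 = 2 from Nat.gcd_eq_right ⟨k, by omega⟩] at this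
    refine Nat.eq_of_mul_eq_mul_left two_pos (this.trans ?_)
    omega
  · have := L.SLc.two_mul_card_deg_sub (F := F) (by omega)
    obtain ⟨k, hk⟩ := hodd
    rw [show (Fintype.card F + 1).gcd 2 = 2 from Nat.gcd_eq_right ⟨k + 1, by omega⟩] at this
    refine Nat.eq_of_mul_eq_mul_left two_pos (this.trans ?_)
    omega

end Cfsg.Agent.S2299
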