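import Mathlib
import Cfsg.Agent.L.SL2Loc
-- Template for statement S2301 (row 2301; see /opt/grader/pristine/manifest.json for weights).
-- Copy to Cfsg/Agent/S2301.lean and replace the sorry. The statement below is byte-identical to the frozen
-- statement Cfsg.CfsgFrozen.S2301 (Cfsg/Statements/S2301.lean; the theorem Cfsg.lie3_sl_two_order_p_conj_classes_odd);
-- the grader kernel-checks Cfsg.Agent.S2301.result against that frozen type. Keep the theorem IN THIS FILE
-- (a `result` declared elsewhere and merely imported here is not credited); helpers may live anywhere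
-- under Cfsg/Agent/.
import Cfsg.Statements.S2301
-- import your own Cfsg.Agent.* helpers here

set_option autoImplicit false
open Cfsg

namespace Cfsg.Agent.S2301

/-- Over a finite field with q elements of odd characteristic p, the elements of order p of SL₂ (the non-identity unipotent elements) fall into exactly two conjugacy classes, each of size (q² − 1)/2; two upper unitriangular matrices with non-zero off-diagonal entries b and b′ are conjugate exactly when bb′ is a square. -/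
theorem result {F : Type*} [Field F] [Fintype F] (p : ℕ) [Fact p.Prime] [CharP F p] (hp : p ≠ 2) :
    Nat.card {C : ConjClasses (Matrix.SpecialLinearGroup (Fin 2) F) // ∃ g : Matrix.SpecialLinearGroup (Fin 2) F, orderOf g = p ∧ ConjClasses.mk g = C} = 2 ∧
    (∀ g : Matrix.SpecialLinearGroup (Fin 2) F, orderOf g = p → Nat.card (ConjClasses.mk g).carrier = (Fintype.card F ^ 2 - 1) / 2) ∧
    ∀ g h : Matrix.SpecialLinearGroup (Fin 2) F, (g : Matrix (Fin 2) (Fin 2) F) 0 0 = 1 → (g : Matrix (Fin 2) (Fin 2) F) 1 1 = 1 → (g : Matrix (Fin 2) (Fin 2) F) 1 0 = 0 → (g : Matrix (Fin 2) (Fin 2) F) 0 1 ≠ 0 →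
      (h : Matrix (Fin 2) (Fin 2) F) 0 0 = 1 → (h : Matrix (Fin 2) (Fin 2) F) 1 1 = 1 → (h : Matrix (Fin 2) (Fin 2) F) 1 0 = 0 → (h : Matrix (Fin 2) (Fin 2) F) 0 1 ≠ 0 →
      (IsConj g h ↔ IsSquare ((g : Matrix (Fin 2) (Fin 2) F) 0 1 * (h : Matrix (Fin 2) (Fin 2) F) 0 1)) := by
  classical
  have h2 := L.two_ne_zero_of_charP (F := F) p hp
  have h3 : ∀ g h : L.SL2 F, (g : L.M2 F) 0 0 = 1 → (g : L.M2 F) 1 1 = 1 → (g : L.M2 F) 1 0 = 0 → (g : L.M2 F) 0 1 ≠ 0 →
      (h : L.M2 F) 0 0 = 1 → (h : L.M2 F) 1 1 = 1 → (h : L.M2 F) 1 0 = 0 → (h : L.M2 F) 0 1 ≠ 0 →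
      (IsConj g h ↔ IsSquare ((g : L.M2 F) 0 1 * (h : L.M2 F) 0 1)) := by
    intro g h a1 a2 a3 a4 b1 b2 b3 b4
    have := L.isConj_SL_iff_isSquare (g := g) (h := h) h2 (fun e => a4 e.1)
      (by rw [Matrix.trace_fin_two, a1, a2]; norm_num) (P := !![(h : L.M2 F) 0 1, 0; 0, (g : L.M2 F) 0 1])
      (by simp [Matrix.det_fin_two, a4, b4]) (by
        rw [L.m2_ext_iff]; simp [L.m2_mul_apply, a1, a2, a3, b1, b2, b3])
    rw [this, Matrix.det_fin_two_of, mul_comm]; simp
  refine ⟨?_, fun g hg => ?_, h3⟩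
  · obtain ⟨ν, hν⟩ := FiniteField.exists_nonsquare (L.ringChar_ne_two h2)
    have hν0 : ν ≠ 0 := by rintro rfl; exact hν IsSquare.zero
    have ho : ∀ b : F, b ≠ 0 → orderOf (L.SLc.un b) = p := fun b hb =>
      (L.orderOf_SL_eq_char_iff p _).2 ⟨mt L.SLc.isScal_un.1 hb, L.SLc.trace_un b⟩
    refine Nat.card_eq_two_iff.2 ⟨⟨_, _, ho 1 one_ne_zero, rfl⟩, ⟨_, _, ho ν hν0, rfl⟩, fun e => hν ?_, ?_⟩
    · have := (h3 _ _ (by simp [L.SLc.coe_un]) (by simp [L.SLc.coe_un]) (by simp [L.SLc.coe_un]) (by simp [L.SLc.coe_un])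
        (by simp [L.SLc.coe_un]) (by simp [L.SLc.coe_un]) (by simp [L.SLc.coe_un]) (by simp [L.SLc.coe_un, hν0])).1
        (ConjClasses.mk_eq_mk_iff_isConj.1 (congrArg Subtype.val e))
      simpa [L.SLc.coe_un] using this
    · rw [Set.eq_univ_iff_forall]
      rintro ⟨_, g, hg, rfl⟩
      obtain ⟨hg1, hg2⟩ := (L.orderOf_SL_eq_char_iff p _).1 hg
      obtain ⟨P, hP, h4⟩ := L.exists_conj_of_trace_det hg1 (B := (L.SLc.un (1 : F) : L.M2 F))
        (mt L.SLc.isScal_un.1 one_ne_zero) (by rw [hg2, L.SLc.trace_un]) (by rw [L.SLc.det_SL, L.SLc.det_SL])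
      by_cases hs : IsSquare P.det
      · refine Or.inl (Subtype.ext (ConjClasses.mk_eq_mk_iff_isConj.2 (IsConj.symm ?_)))
        exact (L.isConj_SL_iff_isSquare h2 (mt L.SLc.isScal_un.1 one_ne_zero)
          (by rw [L.SLc.trace_un]; norm_num) hP h4).2 hs
      · refine Or.inr (Subtype.ext (ConjClasses.mk_eq_mk_iff_isConj.2 (IsConj.symm ?_)))
        have hD : (P * !![1, 0; 0, ν]).det = ν * P.det := by rw [Matrix.det_mul, Matrix.det_fin_two_of]; ring
        refine (L.isConj_SL_iff_isSquare h2 (mt L.SLc.isScal_un.1 hν0)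
          (by rw [L.SLc.trace_un]; norm_num) (P := P * !![1, 0; 0, ν]) (by rw [hD]; exact mul_ne_zero hν0 hP) ?_).2
          (by rw [hD]; exact L.isSquare_or_mul hν hs)
        rw [← mul_assoc, h4, mul_assoc, mul_assoc, L.SLc.coe_un, L.SLc.coe_un]
        simp
  · obtain ⟨hg1, hg2⟩ := (L.orderOf_SL_eq_char_iff p _).1 hg
    have h4 := L.card_carrier_mul g
    rw [L.card_centralizer_SL_par h2 hg1 (by rw [hg2]; norm_num), L.SLc.card_SL2, ← mul_assoc, mul_comm] at h4
    have := Nat.eq_of_mul_eq_mul_left Fintype.card_pos h4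
    omega

end Cfsg.Agent.S2301
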