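import Mathlib
import Cfsg.Agent.L.GL2Char
-- Template for statement S2308 (row 2308; see /opt/grader/pristine/manifest.json for weights).
-- Copy to Cfsg/Agent/S2308.lean and replace the sorry. The statement below is byte-identical to the frozen
-- statement Cfsg.CfsgFrozen.S2308 (Cfsg/Statements/S2308.lean; the theorem Cfsg.lie3_gl_two_invariant_lines_count);
-- the grader kernel-checks Cfsg.Agent.S2308.result against that frozen type. Keep the theorem IN THIS FILE
-- (a `result` declared elsewhere and merely imported here is not credited); helpers may live anywhere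
-- under Cfsg/Agent/.
import Cfsg.Statements.S2308
-- import your own Cfsg.Agent.* helpers here

set_option autoImplicit false
open Cfsg

namespace Cfsg.Agent.S2308

/-- Values of the permutation character of GL₂ over a finite field F with q elements on the cosets of its upper triangular subgroup (equivalently, the number of lines of F² that an element maps to themselves): q + 1 at a scalar matrix, 2 at a diagonal matrix with two different diagonal entries, 0 at an element with no eigenvector in F², and 1 at an upper triangular matrix with equal diagonal entries and non-zero upper right entry. -/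
theorem result {F : Type*} [Field F] [Fintype F] (g : Matrix.GeneralLinearGroup (Fin 2) F) :
    ((∃ a : F, (g : Matrix (Fin 2) (Fin 2) F) = a • (1 : Matrix (Fin 2) (Fin 2) F)) → Cfsg.fixedPointCharacter (Cfsg.upperTriangularGL 2 F) g = Fintype.card F + 1) ∧
    ((g : Matrix (Fin 2) (Fin 2) F) 0 1 = 0 → (g : Matrix (Fin 2) (Fin 2) F) 1 0 = 0 → (g : Matrix (Fin 2) (Fin 2) F) 0 0 ≠ (g : Matrix (Fin 2) (Fin 2) F) 1 1 →
      Cfsg.fixedPointCharacter (Cfsg.upperTriangularGL 2 F) g = 2) ∧
    ((∀ (c : F) (v : Fin 2 → F), v ≠ 0 → (g : Matrix (Fin 2) (Fin 2) F).mulVec v ≠ c • v) → Cfsg.fixedPointCharacter (Cfsg.upperTriangularGL 2 F) g = 0) ∧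
    ((g : Matrix (Fin 2) (Fin 2) F) 1 0 = 0 → (g : Matrix (Fin 2) (Fin 2) F) 0 0 = (g : Matrix (Fin 2) (Fin 2) F) 1 1 → (g : Matrix (Fin 2) (Fin 2) F) 0 1 ≠ 0 →
      Cfsg.fixedPointCharacter (Cfsg.upperTriangularGL 2 F) g = 1) := by
  classical
  have key : Cfsg.fixedPointCharacter (Cfsg.upperTriangularGL 2 F) g = L.GLc.I 1 1 g := by
    rw [Cfsg.fixedPointCharacter, ← H06.indFun_one_eq_card_fixedBy_quotient, L.GLc.I]
    congr 1
    funext b
    have h0 := L.GLc.mem_B.1 b.2
    have hd := L.GL2_det_ne (b : L.GL2 F)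
    rw [Matrix.det_fin_two, h0, mul_zero, sub_zero] at hd
    rw [MulChar.one_apply (isUnit_iff_ne_zero.2 (left_ne_zero_of_mul hd)),
      MulChar.one_apply (isUnit_iff_ne_zero.2 (right_ne_zero_of_mul hd)), mul_one]
  have hd := L.GL2_det_ne g
  rw [key]
  refine ⟨fun h => ?_, fun h1 h2 h3 => ?_, fun h => L.GLc.I_noEig _ _ h, fun h1 h2 h3 => ?_⟩
  · obtain ⟨a, rfl⟩ := L.GLc.exists_scal (L.isScal_iff.2 h)
    rw [L.GLc.I_scal _ _ (L.GLc.isScal_scal a)]
    simp [L.GLc.coe_scal]
  · rw [Matrix.det_fin_two, h1, zero_mul, sub_zero] at hd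
    rw [L.GLc.I_split _ _ h3 (by simp [Matrix.trace_fin_two]) (by simp [Matrix.det_fin_two, h1]),
      MulChar.one_apply (isUnit_iff_ne_zero.2 (left_ne_zero_of_mul hd)),
      MulChar.one_apply (isUnit_iff_ne_zero.2 (right_ne_zero_of_mul hd))]
    norm_num
  · rw [Matrix.det_fin_two, h1, mul_zero, sub_zero] at hd
    rw [L.GLc.I_par _ _ (fun h => h3 h.1) (a := (g : L.M2 F) 0 0)
      (by simp [Matrix.trace_fin_two, ← h2, two_mul]) (by simp [Matrix.det_fin_two, h1, ← h2, sq]),
      MulChar.one_apply (isUnit_iff_ne_zero.2 (left_ne_zero_of_mul hd))]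
    norm_num

end Cfsg.Agent.S2308
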