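import Mathlib
import Cfsg.Agent.L.GL2Char
-- Template for statement S2309 (row 2309; see /opt/grader/pristine/manifest.json for weights).
-- Copy to Cfsg/Agent/S2309.lean and replace the sorry. The statement below is byte-identical to the frozen
-- statement Cfsg.CfsgFrozen.S2309 (Cfsg/Statements/S2309.lean; the theorem Cfsg.lie3_gl_two_character_zeros);
-- the grader kernel-checks Cfsg.Agent.S2309.result against that frozen type. Keep the theorem IN THIS FILE
-- (a `result` declared elsewhere and merely imported here is not credited); helpers may live anywhere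
-- under Cfsg/Agent/.
import Cfsg.Statements.S2309
-- import your own Cfsg.Agent.* helpers here

set_option autoImplicit false
open Cfsg

namespace Cfsg.Agent.S2309

/-- Over a finite field F with q elements: every irreducible complex character of GL₂ of degree q − 1 vanishes at every diagonal matrix with two distinct entries, and every irreducible complex character of degree q + 1 vanishes at every element with no eigenvector in F². -/
theorem result {F : Type*} [Field F] [Fintype F] (χ : Matrix.GeneralLinearGroup (Fin 2) F → ℂ) (hχ : Cfsg.IsIrrCharacter (Matrix.GeneralLinearGroup (Fin 2) F) χ) (g : Matrix.GeneralLinearGroup (Fin 2) F) :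
    (χ 1 = (Fintype.card F : ℂ) - 1 → (g : Matrix (Fin 2) (Fin 2) F) 0 1 = 0 → (g : Matrix (Fin 2) (Fin 2) F) 1 0 = 0 → (g : Matrix (Fin 2) (Fin 2) F) 0 0 ≠ (g : Matrix (Fin 2) (Fin 2) F) 1 1 → χ g = 0) ∧
    (χ 1 = (Fintype.card F : ℂ) + 1 → (∀ (c : F) (v : Fin 2 → F), v ≠ 0 → (g : Matrix (Fin 2) (Fin 2) F).mulVec v ≠ c • v) → χ g = 0) := by
  classical
  obtain ⟨g₀, h₀⟩ := L.exists_noEig_GL (F := F)
  have hc := L.GLc.irr_cases h₀ hχ
  constructor
  · intro hdeg h1 h2 h3
    have hd := L.GL2_det_ne g
    rw [Matrix.det_fin_two, h1, zero_mul, sub_zero] at hd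
    rcases hc with ⟨α, rfl⟩ | ⟨α, rfl⟩ | ⟨α, β, -, rfl⟩ | ⟨θ, -, rfl⟩
    · rw [L.GLc.lin_one] at hdeg
      have : (Fintype.card F : ℂ) = (2 : ℕ) := by push_cast; linear_combination -hdeg
      have h2 : Fintype.card F = 2 := by exact_mod_cast this
      have : 2 < Fintype.card F := Fintype.two_lt_card_iff.2
        ⟨0, _, _, (left_ne_zero_of_mul hd).symm, (right_ne_zero_of_mul hd).symm, h3⟩
      omega
    · rw [L.GLc.St_one] at hdeg
      exact absurd (by linear_combination hdeg : (1 : ℂ) = 0) one_ne_zero
    · rw [L.GLc.I_one] at hdeg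
      exact absurd (by linear_combination hdeg : (2 : ℂ) = 0) two_ne_zero
    · exact L.GLc.P_split h₀ θ h3 (by simp [Matrix.trace_fin_two]) (by simp [Matrix.det_fin_two, h1])
  · intro hdeg h
    rcases hc with ⟨α, rfl⟩ | ⟨α, rfl⟩ | ⟨α, β, -, rfl⟩ | ⟨θ, -, rfl⟩
    · rw [L.GLc.lin_one] at hdeg
      exact absurd (by linear_combination -hdeg) (L.card_ne_zero_c (F := F))
    · rw [L.GLc.St_one] at hdeg
      exact absurd (by linear_combination -hdeg : (1 : ℂ) = 0) one_ne_zero
    · exact L.GLc.I_noEig _ _ h
    · rw [L.GLc.P_one h₀] at hdeg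
      exact absurd (by linear_combination -hdeg : (2 : ℂ) = 0) two_ne_zero

end Cfsg.Agent.S2309
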