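import Mathlib
import Cfsg.Agent.L.GL2Char
-- Template for statement S2310 (row 2310; see /opt/grader/pristine/manifest.json for weights).
-- Copy to Cfsg/Agent/S2310.lean and replace the sorry. The statement below is byte-identical to the frozen
-- statement Cfsg.CfsgFrozen.S2310 (Cfsg/Statements/S2310.lean; the theorem Cfsg.lie3_gl_two_character_values_at_transvection);
-- the grader kernel-checks Cfsg.Agent.S2310.result against that frozen type. Keep the theorem IN THIS FILE
-- (a `result` declared elsewhere and merely imported here is not credited); helpers may live anywhere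
-- under Cfsg/Agent/.
import Cfsg.Statements.S2310
-- import your own Cfsg.Agent.* helpers here

set_option autoImplicit false
open Cfsg

namespace Cfsg.Agent.S2310

/-- Over a finite field F with q ≥ 3 elements, let u be the upper unitriangular matrix of GL₂ with off-diagonal entry 1. An irreducible complex character χ of GL₂ takes at u the value 1 if χ has degree 1 or q + 1, the value −1 if χ has degree q − 1, and the value 0 if χ has degree q. -/
theorem result {F : Type*} [Field F] [Fintype F] (hq : 3 ≤ Fintype.card F) (χ : Matrix.GeneralLinearGroup (Fin 2) F → ℂ) (hχ : Cfsg.IsIrrCharacter (Matrix.GeneralLinearGroup (Fin 2) F) χ)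
    (u : Matrix.GeneralLinearGroup (Fin 2) F) (hu : (u : Matrix (Fin 2) (Fin 2) F) = !![1, 1; 0, 1]) :
    (χ 1 = 1 → χ u = 1) ∧ (χ 1 = (Fintype.card F : ℂ) + 1 → χ u = 1) ∧
    (χ 1 = (Fintype.card F : ℂ) - 1 → χ u = -1) ∧ (χ 1 = (Fintype.card F : ℂ) → χ u = 0) := by
  classical
  obtain ⟨g₀, h₀⟩ := L.exists_noEig_GL (F := F)
  have hs : ¬ L.IsScal (u : L.M2 F) := by rw [hu]; simp [L.IsScal]
  have ht : (u : L.M2 F).trace = 2 * ((1 : Fˣ) : F) := by rw [hu]; simp [Matrix.trace_fin_two]; norm_num
  have hd : (u : L.M2 F).det = ((1 : Fˣ) : F) ^ 2 := by rw [hu]; simp [Matrix.det_fin_two]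
  have q0 := L.card_ne_zero_c (F := F)
  have q1 := L.card_sub_one_ne_zero_c (F := F)
  have q2 : (Fintype.card F : ℂ) - 2 ≠ 0 := by
    rw [sub_ne_zero]; exact_mod_cast (by omega : Fintype.card F ≠ 2)
  rcases L.GLc.irr_cases h₀ hχ with ⟨α, rfl⟩ | ⟨α, rfl⟩ | ⟨α, β, -, rfl⟩ | ⟨θ, -, rfl⟩
  · rw [L.GLc.lin_one]
    refine ⟨fun _ => by simp [L.GLc.lin, hd], fun _ => by simp [L.GLc.lin, hd],
      fun h => absurd (by linear_combination -h) q2, fun h => absurd (by linear_combination -h) q1⟩
  · rw [L.GLc.St_one]
    exact ⟨fun h => absurd (by linear_combination h) q1,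
      fun h => absurd (by linear_combination -h : (1 : ℂ) = 0) one_ne_zero,
      fun h => absurd (by linear_combination h : (1 : ℂ) = 0) one_ne_zero,
      fun _ => L.GLc.St_par _ hs ht hd⟩
  · rw [L.GLc.I_one, L.GLc.I_par _ _ hs ht hd]
    exact ⟨fun _ => by simp, fun _ => by simp,
      fun h => absurd (by linear_combination h : (2 : ℂ) = 0) two_ne_zero,
      fun h => absurd (by linear_combination h : (1 : ℂ) = 0) one_ne_zero⟩
  · rw [L.GLc.P_one h₀, L.GLc.P_par h₀ θ hs ht hd]
    exact ⟨fun h => absurd (by linear_combination h) q2,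
      fun h => absurd (by linear_combination -h : (2 : ℂ) = 0) two_ne_zero,
      fun _ => by simp,
      fun h => absurd (by linear_combination -h : (1 : ℂ) = 0) one_ne_zero⟩

end Cfsg.Agent.S2310
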