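import Mathlib
import Cfsg.Statements.S2311
import Cfsg.Agent.H12.StLie

set_option autoImplicit false
open Cfsg

namespace Cfsg.Agent.S2311

/-- In a Chevalley group of type G₂, B₂, D₄, F₄, E₆, E₇ or E₈ over a finite field, the alternating sum over all sets J of fundamental roots of (−1)^|J| times the permutation character on the cosets of the standard parabolic subgroup P_J is an irreducible complex character: the Steinberg character. -/
theorem result {F : Type*} [Field F] [Fintype F] (D : Cfsg.Lie.ChevalleyDatum) (hD : D ∈ [Cfsg.Lie.chevG2, Cfsg.Lie.chevB2, Cfsg.Lie.chevD4, Cfsg.Lie.chevF4, Cfsg.Lie.chevE6, Cfsg.Lie.chevE7, Cfsg.Lie.chevE8]) :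
    Cfsg.IsIrrCharacter ↥(D.group F) (D.steinbergCharacter F) := by
  have := H11.good_of_mem hD
  have := H11.cert_of_mem hD
  have := H11.StSys.finite_of_gen (H11.grpSys_grp D F)
  have := Fintype.ofFinite (D.group F)
  rw [H12.St.steinberg_eq]
  convert (H12.St.cells (H11.grpSys_grp D F)).irr

end Cfsg.Agent.S2311
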