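import Cfsg.Statements.S2315
import Cfsg.Agent.H24.Jor
import Cfsg.Agent.H09.SpStab
-- import your own Cfsg.Agent.* helpers here

set_option autoImplicit false
open Cfsg

namespace Cfsg.Agent.S2315

open Module LinearMap

section
variable (F : Type*) [Field F] [Fintype F]

/-- number of nilpotent matrices -/
noncomputable def a (k : ℕ) : ℕ := Nat.card {A : Matrix (Fin k) (Fin k) F // IsNilpotent A}

/-- order of `GL_k` -/
def G (k : ℕ) : ℕ := ∏ i : Fin k, (Fintype.card F ^ k - Fintype.card F ^ (i : ℕ))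

variable {F} {V : Type*} [AddCommGroup V] [Module F V] [Module.Finite F V]

theorem card_nil : Nat.card {A : End F V // IsNilpotent A} = a F (finrank F V) :=
  Nat.card_congr ((toMatrixAlgEquiv (finBasis F V)).toEquiv.subtypeEquiv fun A =>
    (IsNilpotent.map_iff (toMatrixAlgEquiv (finBasis F V)).injective).symm)

theorem card_unit : Nat.card {A : End F V // IsUnit A} = G F (finrank F V) := by
  have := H24.Jor.card_unit_mat (F := F) (Fin (finrank F V))
  rw [Fintype.card_fin] at this
  exact (Nat.card_congr ((toMatrixAlgEquiv (finBasis F V)).toEquiv.subtypeEquiv fun A =>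
    (MulEquiv.isUnit_map (toMatrixAlgEquiv (finBasis F V))).symm)).trans this

theorem card_fib (W : Submodule F V) : Nat.card {T : End F V // ker (T ^ finrank F V) = W} =
    Fintype.card F ^ ((finrank F V - finrank F W) * finrank F W) *
      (a F (finrank F W) * G F (finrank F V - finrank F W)) := by
  let E : AddSubgroup (End F V) :=
    { carrier := {T | W ≤ W.comap T}
      add_mem' := fun h h' x hx => W.add_mem (h hx) (h' hx)
      zero_mem' := fun _ _ => W.zero_mem
      neg_mem' := fun h x hx => W.neg_mem (h hx) }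
  let π : E →+ End F W × End F (V ⧸ W) := AddMonoidHom.mk' (fun T => (T.1.restrict T.2, W.mapQ W T.1 T.2))
    fun T T' => Prod.ext rfl (by ext; rfl)
  have hq : finrank F (V ⧸ W) = finrank F V - finrank F W := by have := W.finrank_quotient_add_finrank; omega
  have h := H24.Jor.card_pre π (fun ⟨A, B⟩ => by
    obtain ⟨s, hs⟩ := W.mkQ.exists_rightInverse_of_surjective W.range_mkQ
    obtain ⟨r, hr⟩ := W.subtype.exists_leftInverse_of_injective W.ker_subtype
    have h1 : ∀ x : W, (W.subtype ∘ₗ A ∘ₗ r + s ∘ₗ B ∘ₗ W.mkQ) x = A x := fun x => by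
      have : r x = x := LinearMap.congr_fun hr x
      simp [(Submodule.Quotient.mk_eq_zero W).2 x.2, this]
    refine ⟨⟨W.subtype ∘ₗ A ∘ₗ r + s ∘ₗ B ∘ₗ W.mkQ, fun x hx => by
      rw [Submodule.mem_comap, h1 ⟨x, hx⟩]; exact (A ⟨x, hx⟩).2⟩,
      Prod.ext (LinearMap.ext fun x => Subtype.ext (h1 x)) (W.linearMap_qext (LinearMap.ext fun x => ?_))⟩
    have : Submodule.Quotient.mk (s (B (Submodule.Quotient.mk x))) = _ := LinearMap.congr_fun hs (B (W.mkQ x))
    simp [π, this, (Submodule.Quotient.mk_eq_zero W).2 (A (r x)).2]) fun y => IsNilpotent y.1 ∧ IsUnit y.2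
  rw [Nat.card_congr Equiv.subtypeProdEquivProd, Nat.card_prod, card_nil, card_unit, hq,
    ← Nat.card_eq_of_bijective (fun f : (V ⧸ W) →ₗ[F] W => (⟨⟨W.subtype ∘ₗ f ∘ₗ W.mkQ, fun x _ => (f _).2⟩,
      Prod.ext (LinearMap.ext fun x => Subtype.ext (by simp [π, (Submodule.Quotient.mk_eq_zero W).2 x.2]))
        (W.linearMap_qext (LinearMap.ext fun x => by simp [π]))⟩ : π.ker)) ⟨fun f g e => ?_, fun T => ?_⟩,
    Module.natCard_eq_pow_finrank (K := F) (V := (V ⧸ W) →ₗ[F] W), finrank_linearMap, hq,
    Nat.card_eq_fintype_card (α := F)] at h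
  · rw [← h, Nat.card_congr (Equiv.subtypeSubtypeEquivSubtypeExists _ _)]
    refine Nat.card_congr (Equiv.subtypeEquivRight fun T => ⟨?_, ?_⟩)
    · rintro rfl
      refine ⟨fun x hx => ?_, ⟨finrank F V, LinearMap.ext fun x => Subtype.ext ?_⟩, ?_⟩
      · change (T ^ finrank F V) (T x) = 0
        rw [← End.mul_apply, ← pow_succ, pow_succ', End.mul_apply, mem_ker.1 hx, map_zero]
      · simp only [π, AddMonoidHom.mk'_apply]
        rw [End.pow_restrict]; exact x.2
      · rw [isUnit_iff_ker_eq_bot, ker_eq_bot']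
        intro x hx
        obtain ⟨x, rfl⟩ := Submodule.Quotient.mk_surjective _ x
        have h1 : (T ^ finrank F V) (T x) = 0 := (Submodule.Quotient.mk_eq_zero (ker (T ^ finrank F V))).1 hx
        exact (Submodule.Quotient.mk_eq_zero _).2 (End.ker_pow_le_ker_pow_finrank T (finrank F V + 1)
          (by rw [mem_ker, pow_succ]; exact h1))
    · rintro ⟨h1, ⟨j, h2⟩, h3⟩
      refine le_antisymm (fun x hx => ?_) fun x hx => End.ker_pow_le_ker_pow_finrank T j ?_
      · refine (Submodule.Quotient.mk_eq_zero _).1 (((End.isUnit_iff _).1 (h3.pow (finrank F V))).1 ?_)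
        simp only [π, AddMonoidHom.mk'_apply]
        rw [← Submodule.mapQ_pow, Submodule.mapQ_apply, mem_ker.1 hx]; simp
      · simp only [π, AddMonoidHom.mk'_apply] at h2
        rw [End.pow_restrict] at h2
        exact congrArg Subtype.val (LinearMap.congr_fun h2 ⟨x, hx⟩)
  · exact W.linearMap_qext (LinearMap.ext fun x => Subtype.ext (LinearMap.congr_fun (congrArg (fun T => T.1.1) e) x))
  · have h1 : ∀ x, T.1.1 x ∈ W := fun x => (Submodule.Quotient.mk_eq_zero _).1
      (LinearMap.congr_fun (congrArg Prod.snd T.2) (W.mkQ x))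
    exact ⟨W.liftQ (T.1.1.codRestrict W h1) fun x hx => LinearMap.congr_fun (congrArg Prod.fst T.2) ⟨x, hx⟩,
      Subtype.ext (Subtype.ext (LinearMap.ext fun _ => rfl))⟩

theorem G_add (k m : ℕ) : G F (k + m) = (∏ i : Fin k, (Fintype.card F ^ (k + m) - Fintype.card F ^ (i : ℕ))) *
    (Fintype.card F ^ (m * k) * G F m) := by
  rw [G, Fin.prod_univ_add, G, mul_comm m, pow_mul, ← Fin.prod_const m, ← Finset.prod_mul_distrib]
  simp [pow_add, Nat.mul_sub]

theorem G_pos (k : ℕ) : 0 < G F k :=
  Finset.prod_pos fun i _ => Nat.sub_pos_of_lt (Nat.pow_lt_pow_right Fintype.one_lt_card i.2)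

theorem sum_eq (n : ℕ) : (Fintype.card F : ℚ) ^ (n * n) / G F n = ∑ k ∈ Finset.range (n + 1), (a F k : ℚ) / G F k := by
  classical
  haveI : Finite (Submodule F (Fin n → F)) := Finite.of_injective _ SetLike.coe_injective
  haveI := Fintype.ofFinite (Submodule F (Fin n → F))
  haveI : Finite (End F (Fin n → F)) := Module.finite_of_finite F
  have h := Nat.card_congr (Equiv.sigmaFiberEquiv fun T : End F (Fin n → F) => ker (T ^ finrank F (Fin n → F)))
  rw [Nat.card_sigma, Module.natCard_eq_pow_finrank (K := F), finrank_linearMap, Nat.card_eq_fintype_card,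
    ← Finset.sum_fiberwise_of_maps_to (t := Finset.range (n + 1)) (g := fun W : Submodule F (Fin n → F) => finrank F W)
      fun W _ =>
      Finset.mem_range.2 (by simpa [Nat.lt_succ_iff] using W.finrank_le)] at h
  simp only [card_fib] at h
  simp only [finrank_fin_fun] at h
  rw [div_eq_iff (by exact_mod_cast (G_pos n).ne'), ← Nat.cast_pow, ← h, Finset.sum_mul, Nat.cast_sum]
  refine Finset.sum_congr rfl fun k hk => ?_
  obtain ⟨m, rfl⟩ := Nat.exists_eq_add_of_le (Nat.lt_succ_iff.1 (Finset.mem_range.1 hk))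
  have h1 := H09.card_subspaces_mul k (⊤ : Submodule F (Fin (k + m) → F))
  simp only [le_top, and_true, finrank_top, finrank_fin_fun, Nat.card_eq_fintype_card, Fintype.card_subtype] at h1
  rw [Finset.sum_congr rfl fun W hW => by rw [(Finset.mem_filter.1 hW).2], Finset.sum_const, G_add, ← h1,
    Nat.add_sub_cancel_left, div_mul_eq_mul_div, eq_div_iff (by exact_mod_cast (G_pos k).ne'), smul_eq_mul, ← G]
  push_cast; ring

theorem a_eq (n : ℕ) : a F n = Fintype.card F ^ (n * (n - 1)) := by
  have h := sum_eq (F := F) n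
  rcases n with _ | n
  · simpa [G] using h.symm
  have h1 := G_add (F := F) 1 n
  rw [Finset.sum_range_succ, ← sum_eq, add_comm n 1, h1] at h
  have h2 : (G F n : ℚ) ≠ 0 := by exact_mod_cast (G_pos n).ne'
  have h3 := Nat.one_lt_pow (by omega : 1 + n ≠ 0) (Fintype.one_lt_card (α := F))
  have h4 : (Fintype.card F : ℚ) ≠ 0 := by exact_mod_cast Fintype.card_ne_zero
  simp only [Finset.univ_unique, Finset.prod_singleton, Fin.default_eq_zero, Fin.val_zero, pow_zero, Nat.cast_mul,
    Nat.cast_sub h3.le, Nat.cast_pow, Nat.cast_one] at h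
  have h5 : (Fintype.card F : ℚ) ^ (1 + n) - 1 ≠ 0 := sub_ne_zero.2 (by exact_mod_cast h3.ne')
  field_simp at h
  rw [add_comm n 1, Nat.add_sub_cancel_left]
  exact_mod_cast (by linear_combination -h : (a F (1 + n) : ℚ) = (Fintype.card F : ℚ) ^ ((1 + n) * n))

end

/-- Steinberg's count of unipotent elements for the general linear group: over a finite field with q elements of characteristic p, the number of elements of GL_n of p-power order (the unipotent matrices) is q^(n(n−1)). -/
theorem result {F : Type*} [Field F] [Fintype F] (p : ℕ) [Fact p.Prime] [CharP F p] (n : ℕ) :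
    Nat.card {g : Matrix.GeneralLinearGroup (Fin n) F // ∃ k : ℕ, orderOf g = p ^ k} = Fintype.card F ^ (n * (n - 1)) := by
  rw [← a_eq]
  refine Nat.card_eq_of_bijective (fun g => ⟨g.1.1 - 1, (H24.Sim.pElt_iff_nilpotent p g.1).1 g.2⟩)
    ⟨fun g h e => Subtype.ext (Units.ext (sub_left_injective (congrArg Subtype.val e))), fun A => ?_⟩
  obtain ⟨g, hg⟩ := A.2.isUnit_add_one
  exact ⟨⟨g, (H24.Sim.pElt_iff_nilpotent p g).2 (by rw [hg, add_sub_cancel_right]; exact A.2)⟩,
    Subtype.ext (by simp [hg])⟩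

end Cfsg.Agent.S2315
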