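import Cfsg.Statements.S2316
import Cfsg.Agent.H12.StLie
import Cfsg.Agent.L.RD6
import Cfsg.Agent.S2315
import Cfsg.Agent.S2314
import Cfsg.Agent.S0244
import Cfsg.Agent.S0247
import Cfsg.Agent.S1058
-- import your own Cfsg.Agent.* helpers here

set_option autoImplicit false
open Cfsg

namespace Cfsg.Agent.S2316
open H11

open H21 in
theorem card_pe {G G' : Type*} [Group G] [Group G'] [Finite G] [Finite G'] (p : ℕ) [Fact p.Prime] (f : G →* G')
    (h1 : ∀ z ∈ f.ker, z ∈ Subgroup.center G ∧ ¬ p ∣ orderOf z) (h2 : ∀ y : G', (∃ k, orderOf y = p ^ k) → y ∈ f.range) :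
    Nat.card {g : G // ∃ k, orderOf g = p ^ k} = Nat.card {g : G' // ∃ k, orderOf g = p ^ k} := by
  refine Nat.card_eq_of_bijective (fun g => ⟨f g, pPart_eq_self_iff.1 (by rw [← map_pPart, pPart_of_pow g.2])⟩) ⟨fun a b e => Subtype.ext ?_, fun y => ?_⟩
  · obtain ⟨c, d⟩ := h1 (a.1⁻¹ * b) (by simpa [inv_mul_eq_one] using e)
    rw [← pPart_mul_of_commute a.2 d (Subgroup.mem_center_iff.1 c _), mul_inv_cancel_left, pPart_of_pow b.2]
  · obtain ⟨g, e⟩ := h2 _ y.2
    exact ⟨⟨_, orderOf_pPart p g⟩, Subtype.ext (by simp [map_pPart, e, pPart_of_pow y.2])⟩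

theorem card_RS (m : ℕ) : Fintype.card (L.RD.cmC m).RS = 2 * m ^ 2 := by
  set C := L.RD.cmC m
  have h (a b) : (if C.κ a ≤ C.κ b ∧ b ≠ C.sw a then 1 else 0) + (if C.κ b ≤ C.κ a ∧ a ≠ C.sw b then 1 else 0) + (if b = C.sw a then 1 else 0) =
      1 + if b = a then 1 else 0 := by
    have h1 : a = C.sw b ↔ b = C.sw a := ⟨fun e => by rw [e, C.sw_sw], fun e => by rw [e, C.sw_sw]⟩
    have h2 : C.κ b = C.κ a ↔ b = a := C.κ_inj.eq_iff
    have h3 : b = a → b ≠ C.sw a := fun e => e ▸ L.RD.ne_swap b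
    simp only [ne_eq, h1]
    by_cases c : b = C.sw a <;> by_cases d : b = a <;> simp only [c, d, not_true, not_false_iff, forall_const, iff_true, iff_false] at * <;>
      split_ifs <;> simp_all <;> omega
  have := Finset.sum_congr rfl fun a (_ : a ∈ Finset.univ) => Finset.sum_congr rfl fun b (_ : b ∈ Finset.univ) => h a b
  simp only [Finset.sum_add_distrib] at this
  rw [Finset.sum_comm (f := fun a b => if C.κ b ≤ C.κ a ∧ a ≠ C.sw b then 1 else 0)] at this
  rw [Fintype.card_subtype, Finset.card_filter, Fintype.sum_prod_type]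
  simp at this ⊢
  nlinarith

/-- Steinberg's count of unipotent elements for the symplectic group: over a finite field with q elements of characteristic p, the number of elements of Sp_{2m} of p-power order is q^(2m²). -/
theorem result {F : Type*} [Field F] [Fintype F] (p : ℕ) [Fact p.Prime] [CharP F p] (m : ℕ) :
    Nat.card {g : ↥(Matrix.symplecticGroup (Fin m) F) // ∃ k : ℕ, orderOf g = p ^ k} = Fintype.card F ^ (2 * m ^ 2) := by
  obtain rfl | rfl | ⟨n, rfl⟩ : m = 0 ∨ m = 1 ∨ ∃ k, m = k + 2 := (em _).imp_right fun h => (em _).imp_right fun h => ⟨m - 2, by omega⟩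
  · simpa using Nat.card_of_subsingleton (α := {g : Matrix.symplecticGroup (Fin 0) F // ∃ k : ℕ, orderOf g = p ^ k}) ⟨1, 0, by simp⟩
  · let e : Matrix.symplecticGroup (Fin 1) F ≃* Matrix.SpecialLinearGroup (Fin 2) F :=
      { toFun := fun A => ⟨Matrix.reindex finSumFinEquiv finSumFinEquiv A.1, by
          rw [Matrix.det_reindex_self]; exact (S0244.result _).1 A.2⟩
        invFun := fun A => ⟨(Matrix.reindex finSumFinEquiv finSumFinEquiv).symm A.1, (S0244.result _).2 (by simp)⟩
        left_inv := fun A => by simp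
        right_inv := fun A => Subtype.ext (by simp)
        map_mul' := fun A B => Subtype.ext (Matrix.submatrix_mul_equiv _ _ _ finSumFinEquiv.symm _).symm }
    refine (card_pe p (Matrix.SpecialLinearGroup.toGL.comp e.toMonoidHom) (fun z h => ?_) fun y ⟨k, h⟩ => ?_).trans (S2315.result p 2)
    · rw [(MonoidHom.ker_eq_bot_iff _).2 fun _ _ h => e.injective (Matrix.SpecialLinearGroup.toGL_injective h), Subgroup.mem_bot] at h
      simp [h, (Fact.out : p.Prime).ne_one]
    · have := congrArg (fun g : GL (Fin 2) F => g.1.det) (h ▸ pow_orderOf_eq_one y)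
      simp only [Units.val_pow_eq_pow_val, Matrix.det_pow, Units.val_one, Matrix.det_one] at this
      exact ⟨e.symm ⟨y, (iterateFrobenius F p k).injective (by simpa [iterateFrobenius_def] using this)⟩, Units.ext (congrArg Subtype.val (e.apply_symm_apply _))⟩
  by_cases h : 1 ≤ n ∨ ∃ a : F, a ≠ 0 ∧ a ≠ 1
  · obtain ⟨S, hg, -⟩ := L.RD.sysC n h
    have := H11.StSys.finite_of_gen (H11.grpSys_grp (L.RD.dC n) F)
    have := Fintype.ofFinite ((L.RD.dC n).group F)
    rw [card_pe p (S.θG hg) (fun z h => ?_) fun y _ => H11.StSys.θG_surjective hg y, H12.St.card_unip (H11.grpSys_grp _ F) p (H11.grpSys_θ_injective _ F),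
      Nat.card_eq_fintype_card, show (L.RD.dC n).nroots = _ from card_RS _, Nat.mul_div_cancel_left _ two_pos]
    rw [H11.StSys.θG_ker] at h
    exact ⟨(H11.StSys.center_eq_ker hg).ge h, fun e => H11.StSys.not_dvd_card_H (S := S) p
      (e.trans (S.H.orderOf_dvd_natCard (H11.StSys.mem_H_of_θ_eq_one (hg ▸ trivial) h)))⟩
  obtain rfl : n = 0 := by omega
  have h2 : Fintype.card F = 2 := le_antisymm (by
    simpa using Fintype.card_le_of_surjective ![(0 : F), 1] fun a => by
      by_contra! e; exact h (.inr ⟨a, (e 0).symm, (e 1).symm⟩)) Fintype.one_lt_card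
  obtain ⟨e⟩ := S0247.result h2
  obtain ⟨f⟩ := S1058.result h2
  exact (Nat.card_congr ((e.trans f.symm).toEquiv.subtypeEquiv fun g => by simp)).trans (S2314.result p Lie.chevB2 (by simp))

end Cfsg.Agent.S2316
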