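import Mathlib
import Cfsg.Agent.L.GL2Char
-- Template for statement S2320 (row 2320; see /opt/grader/pristine/manifest.json for weights).
-- Copy to Cfsg/Agent/S2320.lean and replace the sorry. The statement below is byte-identical to the frozen
-- statement Cfsg.CfsgFrozen.S2320 (Cfsg/Statements/S2320.lean; the theorem Cfsg.lie3_gl_two_degree_q_character_values);
-- the grader kernel-checks Cfsg.Agent.S2320.result against that frozen type. Keep the theorem IN THIS FILE
-- (a `result` declared elsewhere and merely imported here is not credited); helpers may live anywhere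
-- under Cfsg/Agent/.
import Cfsg.Statements.S2320
-- import your own Cfsg.Agent.* helpers here

set_option autoImplicit false
open Cfsg

namespace Cfsg.Agent.S2320

/-- Over a finite field F with q elements, every irreducible complex character of GL₂ of degree q takes a value of absolute value 1 at every diagonal matrix with two different diagonal entries and at every element with no eigenvector in F². -/
theorem result {F : Type*} [Field F] [Fintype F] (χ : Matrix.GeneralLinearGroup (Fin 2) F → ℂ) (hχ : Cfsg.IsIrrCharacter (Matrix.GeneralLinearGroup (Fin 2) F) χ) (hdeg : χ 1 = (Fintype.card F : ℂ)) (g : Matrix.GeneralLinearGroup (Fin 2) F) :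
    ((g : Matrix (Fin 2) (Fin 2) F) 0 1 = 0 → (g : Matrix (Fin 2) (Fin 2) F) 1 0 = 0 → (g : Matrix (Fin 2) (Fin 2) F) 0 0 ≠ (g : Matrix (Fin 2) (Fin 2) F) 1 1 → ‖χ g‖ = 1) ∧
    ((∀ (c : F) (v : Fin 2 → F), v ≠ 0 → (g : Matrix (Fin 2) (Fin 2) F).mulVec v ≠ c • v) → ‖χ g‖ = 1) := by
  classical
  obtain ⟨g₀, h₀⟩ := L.exists_noEig_GL (F := F)
  have q1 := L.card_sub_one_ne_zero_c (F := F)
  have hn : ∀ α : MulChar F ℂ, ‖L.GLc.lin α g‖ = 1 := by
    intro α
    have h := (MulChar.apply_mem_rootsOfUnity (Units.mk0 _ (L.GL2_det_ne g)) (χ := α))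
    have := Complex.norm_eq_one_of_mem_rootsOfUnity h
    simpa [L.GLc.lin] using this
  rcases L.GLc.irr_cases h₀ hχ with ⟨α, rfl⟩ | ⟨α, rfl⟩ | ⟨α, β, -, rfl⟩ | ⟨θ, -, rfl⟩
  · rw [L.GLc.lin_one] at hdeg
    exact absurd (by linear_combination -hdeg) q1
  · refine ⟨fun h1 h2 h3 => ?_, fun h => ?_⟩
    · rw [L.GLc.St_split α h3 (by simp [Matrix.trace_fin_two]) (by simp [Matrix.det_fin_two, h1]), hn]
    · rw [L.GLc.St_noEig α h, norm_neg, hn]
  · rw [L.GLc.I_one] at hdeg
    exact absurd (by linear_combination hdeg : (1 : ℂ) = 0) one_ne_zero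
  · rw [L.GLc.P_one h₀] at hdeg
    exact absurd (by linear_combination -hdeg : (1 : ℂ) = 0) one_ne_zero

end Cfsg.Agent.S2320
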