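import Mathlib
import Cfsg.Agent.L.SL2Char
-- Template for statement S2321 (row 2321; see /opt/grader/pristine/manifest.json for weights).
-- Copy to Cfsg/Agent/S2321.lean and replace the sorry. The statement below is byte-identical to the frozen
-- statement Cfsg.CfsgFrozen.S2321 (Cfsg/Statements/S2321.lean; the theorem Cfsg.lie3_sl_two_degree_q_character_values);
-- the grader kernel-checks Cfsg.Agent.S2321.result against that frozen type. Keep the theorem IN THIS FILE
-- (a `result` declared elsewhere and merely imported here is not credited); helpers may live anywhere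
-- under Cfsg/Agent/.
import Cfsg.Statements.S2321
-- import your own Cfsg.Agent.* helpers here

set_option autoImplicit false
open Cfsg

namespace Cfsg.Agent.S2321

/-- Over a finite field F with q elements, an irreducible complex character of SL₂ of degree q (the Steinberg character) takes the value 1 at every diagonal matrix whose diagonal entry a has a² ≠ 1, the value −1 at every element with no eigenvector in F², and the value 0 at every upper triangular matrix with equal diagonal entries and non-zero upper right entry. -/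
theorem result {F : Type*} [Field F] [Fintype F] (χ : Matrix.SpecialLinearGroup (Fin 2) F → ℂ) (hχ : Cfsg.IsIrrCharacter (Matrix.SpecialLinearGroup (Fin 2) F) χ) (hdeg : χ 1 = (Fintype.card F : ℂ)) (g : Matrix.SpecialLinearGroup (Fin 2) F) :
    ((g : Matrix (Fin 2) (Fin 2) F) 0 1 = 0 → (g : Matrix (Fin 2) (Fin 2) F) 1 0 = 0 → (g : Matrix (Fin 2) (Fin 2) F) 0 0 ^ 2 ≠ 1 → χ g = 1) ∧
    ((∀ (c : F) (v : Fin 2 → F), v ≠ 0 → (g : Matrix (Fin 2) (Fin 2) F).mulVec v ≠ c • v) → χ g = -1) ∧
    ((g : Matrix (Fin 2) (Fin 2) F) 1 0 = 0 → (g : Matrix (Fin 2) (Fin 2) F) 0 0 = (g : Matrix (Fin 2) (Fin 2) F) 1 1 → (g : Matrix (Fin 2) (Fin 2) F) 0 1 ≠ 0 → χ g = 0) := by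
  classical
  rw [L.SLc.eq_Sts_of_deg hχ hdeg]
  have hd := L.SL2_det g
  refine ⟨fun h1 h2 h3 => ?_, fun h => L.SLc.Sts_noEig h, fun h1 h2 h3 => ?_⟩
  · rw [h1, zero_mul, sub_zero] at hd
    exact L.SLc.Sts_split (fun e => h3 (by rw [sq]; nth_rewrite 2 [e]; exact hd))
      (Matrix.trace_fin_two _) hd
  · rw [h1, mul_zero, sub_zero, ← h2] at hd
    exact L.SLc.Sts_par (fun h => h3 h.1) (by rw [Matrix.trace_fin_two, ← h2, two_mul]) (by rw [sq, hd])

end Cfsg.Agent.S2321
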