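import Mathlib
import Cfsg.Agent.L.SL2Char
-- Template for statement S2322 (row 2322; see /opt/grader/pristine/manifest.json for weights).
-- Copy to Cfsg/Agent/S2322.lean and replace the sorry. The statement below is byte-identical to the frozen
-- statement Cfsg.CfsgFrozen.S2322 (Cfsg/Statements/S2322.lean; the theorem Cfsg.lie3_sl_two_character_zeros_odd);
-- the grader kernel-checks Cfsg.Agent.S2322.result against that frozen type. Keep the theorem IN THIS FILE
-- (a `result` declared elsewhere and merely imported here is not credited); helpers may live anywhere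
-- under Cfsg/Agent/.
import Cfsg.Statements.S2322
-- import your own Cfsg.Agent.* helpers here

set_option autoImplicit false
open Cfsg

namespace Cfsg.Agent.S2322

/-- Over a finite field F with q elements, q odd: every irreducible complex character of SL₂ of degree q − 1 or (q − 1)/2 vanishes at every diagonal matrix whose diagonal entry a has a² ≠ 1, and every irreducible complex character of degree q + 1 or (q + 1)/2 vanishes at every element with no eigenvector in F². -/
theorem result {F : Type*} [Field F] [Fintype F] (hodd : Odd (Fintype.card F)) (χ : Matrix.SpecialLinearGroup (Fin 2) F → ℂ) (hχ : Cfsg.IsIrrCharacter (Matrix.SpecialLinearGroup (Fin 2) F) χ) (g : Matrix.SpecialLinearGroup (Fin 2) F) :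
    ((χ 1 = (Fintype.card F : ℂ) - 1 ∨ χ 1 = (((Fintype.card F - 1) / 2 : ℕ) : ℂ)) →
      (g : Matrix (Fin 2) (Fin 2) F) 0 1 = 0 → (g : Matrix (Fin 2) (Fin 2) F) 1 0 = 0 → (g : Matrix (Fin 2) (Fin 2) F) 0 0 ^ 2 ≠ 1 → χ g = 0) ∧
    ((χ 1 = (Fintype.card F : ℂ) + 1 ∨ χ 1 = (((Fintype.card F + 1) / 2 : ℕ) : ℂ)) →
      (∀ (c : F) (v : Fin 2 → F), v ≠ 0 → (g : Matrix (Fin 2) (Fin 2) F).mulVec v ≠ c • v) → χ g = 0) := by
  classical
  have hd := L.SL2_det g
  obtain ⟨k, hk⟩ := hodd
  have hq := Fintype.one_lt_card (α := F)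
  constructor
  · intro hdeg h1 h2 h3
    obtain ⟨g₀, h₀⟩ := L.exists_noEig_SL (F := F)
    rw [h1, zero_mul, sub_zero] at hd
    have hab : (g : L.M2 F) 0 0 ≠ (g : L.M2 F) 1 1 := fun e => h3 (by rw [sq]; nth_rewrite 2 [e]; exact hd)
    have ht := Matrix.trace_fin_two (g : L.M2 F)
    have hq5 : 5 ≤ Fintype.card F := by
      by_contra hlt
      have h3' : Fintype.card F = 3 := by omega
      have := FiniteField.pow_card_sub_one_eq_one ((g : L.M2 F) 0 0) (by rintro e; rw [e] at hd; simp at hd)
      rw [h3'] at this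
      exact h3 this
    rcases hdeg with hdeg | hdeg
    · obtain ⟨θ, -, rfl⟩ := L.SLc.eq_pi_of_deg h₀ (by omega) hχ hdeg
      exact L.SLc.pi_split h₀ θ hab ht hd
    · obtain ⟨θ, χ', -, -, h⟩ := L.SLc.half_pi_of_deg h₀ hq5 hχ hdeg
      have := h.two_mul (g := g) (Or.inr (by
        have := L.disc_ne_of_split hab ht ((L.SLc.det_SL g).trans hd.symm)
        rwa [L.SLc.det_SL, mul_one] at this))
      rw [L.SLc.pi_split h₀ θ hab ht hd] at this
      simpa using this
  · intro hdeg hg
    rcases hdeg with hdeg | hdeg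
    · obtain ⟨α, -, rfl⟩ := L.SLc.eq_R_of_deg hχ hdeg
      exact L.SLc.R_noEig α hg
    · rcases L.SLc.irr_cases_deg (g₀ := g) hg hχ hdeg with
        ⟨e, h⟩ | ⟨e, h⟩ | ⟨e, h⟩ | ⟨e, θ, hθ, rfl⟩ | ⟨-, e, α, χ', -, -, h⟩ | ⟨-, e, h⟩
      · omega
      · omega
      · omega
      · have := L.SLc.pi_torus (g₀ := g) hg θ (z := ⟨g, Subgroup.mem_centralizer_singleton_iff.2 rfl⟩)
          (L.NoEig.not_isScal hg)
        rw [L.SLc.theta_three hg (by omega) hθ (z := ⟨g, Subgroup.mem_centralizer_singleton_iff.2 rfl⟩)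
          (L.NoEig.not_isScal hg)] at this
        simpa using this
      · have := h.two_mul (g := g) (Or.inr (L.NoEig.SL_trace_sq hg))
        rw [L.SLc.R_noEig α hg] at this
        simpa using this
      · omega

end Cfsg.Agent.S2322
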