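import Mathlib
import Cfsg.Agent.L.SL2Char
-- Template for statement S2323 (row 2323; see /opt/grader/pristine/manifest.json for weights).
-- Copy to Cfsg/Agent/S2323.lean and replace the sorry. The statement below is byte-identical to the frozen
-- statement Cfsg.CfsgFrozen.S2323 (Cfsg/Statements/S2323.lean; the theorem Cfsg.lie3_sl_two_character_values_at_transvection);
-- the grader kernel-checks Cfsg.Agent.S2323.result against that frozen type. Keep the theorem IN THIS FILE
-- (a `result` declared elsewhere and merely imported here is not credited); helpers may live anywhere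
-- under Cfsg/Agent/.
import Cfsg.Statements.S2323
-- import your own Cfsg.Agent.* helpers here

set_option autoImplicit false
open Cfsg

namespace Cfsg.Agent.S2323

/-- Over a finite field F with q ≥ 4 elements, let u be the upper unitriangular matrix of SL₂ with off-diagonal entry 1. An irreducible complex character of SL₂ takes at u the value 1 if its degree is q + 1 and the value −1 if its degree is q − 1. -/
theorem result {F : Type*} [Field F] [Fintype F] (hq : 4 ≤ Fintype.card F) (χ : Matrix.SpecialLinearGroup (Fin 2) F → ℂ) (hχ : Cfsg.IsIrrCharacter (Matrix.SpecialLinearGroup (Fin 2) F) χ)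
    (u : Matrix.SpecialLinearGroup (Fin 2) F) (hu : (u : Matrix (Fin 2) (Fin 2) F) = !![1, 1; 0, 1]) :
    (χ 1 = (Fintype.card F : ℂ) + 1 → χ u = 1) ∧ (χ 1 = (Fintype.card F : ℂ) - 1 → χ u = -1) := by
  classical
  obtain ⟨g₀, h₀⟩ := L.exists_noEig_SL (F := F)
  have hus : ¬ L.IsScal (u : L.M2 F) := by simp [hu, L.IsScal]
  have hut : (u : L.M2 F).trace = 2 := by simp [hu, Matrix.trace_fin_two]; norm_num
  constructor
  · intro hd
    obtain ⟨α, -, rfl⟩ := L.SLc.eq_R_of_deg hχ hd
    rw [L.SLc.R_par α hus (a := 1) (by rw [hut, mul_one]) (by simp), map_one]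
  · intro hd
    obtain ⟨θ, -, rfl⟩ := L.SLc.eq_pi_of_deg h₀ hq hχ hd
    exact L.SLc.pi_unip h₀ θ hus hut

end Cfsg.Agent.S2323
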