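import Mathlib
import Cfsg.Agent.L.SL2Char
-- Template for statement S2324 (row 2324; see /opt/grader/pristine/manifest.json for weights).
-- Copy to Cfsg/Agent/S2324.lean and replace the sorry. The statement below is byte-identical to the frozen
-- statement Cfsg.CfsgFrozen.S2324 (Cfsg/Statements/S2324.lean; the theorem Cfsg.lie3_sl_two_half_degree_character_values_at_transvection);
-- the grader kernel-checks Cfsg.Agent.S2324.result against that frozen type. Keep the theorem IN THIS FILE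
-- (a `result` declared elsewhere and merely imported here is not credited); helpers may live anywhere
-- under Cfsg/Agent/.
import Cfsg.Statements.S2324
-- import your own Cfsg.Agent.* helpers here

set_option autoImplicit false
open Cfsg

namespace Cfsg.Agent.S2324

/-- Over a finite field F with q elements, q odd and q ≥ 5, let u be the upper unitriangular matrix of SL₂ with off-diagonal entry 1 and let δ = (−1)^((q−1)/2). Every irreducible complex character χ of SL₂ of degree (q + 1)/2 satisfies (2χ(u) − 1)² = δq, and every irreducible complex character χ of degree (q − 1)/2 satisfies (2χ(u) + 1)² = δq; that is, χ(u) = (1 ± √(δq))/2 in the first case and χ(u) = (−1 ± √(δq))/2 in the second. Moreover two different irreducible characters of degree (q + 1)/2 take the two different values (their values at u add up to 1), and likewise for degree (q − 1)/2 (values adding up to −1). -/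
theorem result {F : Type*} [Field F] [Fintype F] (hodd : Odd (Fintype.card F)) (hq : 5 ≤ Fintype.card F)
    (u : Matrix.SpecialLinearGroup (Fin 2) F) (hu : (u : Matrix (Fin 2) (Fin 2) F) = !![1, 1; 0, 1]) :
    (∀ χ : Matrix.SpecialLinearGroup (Fin 2) F → ℂ, Cfsg.IsIrrCharacter (Matrix.SpecialLinearGroup (Fin 2) F) χ → χ 1 = (((Fintype.card F + 1) / 2 : ℕ) : ℂ) → (2 * χ u - 1) ^ 2 = (-1 : ℂ) ^ ((Fintype.card F - 1) / 2) * (Fintype.card F : ℂ)) ∧
    (∀ χ : Matrix.SpecialLinearGroup (Fin 2) F → ℂ, Cfsg.IsIrrCharacter (Matrix.SpecialLinearGroup (Fin 2) F) χ → χ 1 = (((Fintype.card F - 1) / 2 : ℕ) : ℂ) → (2 * χ u + 1) ^ 2 = (-1 : ℂ) ^ ((Fintype.card F - 1) / 2) * (Fintype.card F : ℂ)) ∧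
    (∀ χ₁ χ₂ : Matrix.SpecialLinearGroup (Fin 2) F → ℂ, Cfsg.IsIrrCharacter (Matrix.SpecialLinearGroup (Fin 2) F) χ₁ → Cfsg.IsIrrCharacter (Matrix.SpecialLinearGroup (Fin 2) F) χ₂ → χ₁ ≠ χ₂ →
      χ₁ 1 = (((Fintype.card F + 1) / 2 : ℕ) : ℂ) → χ₂ 1 = (((Fintype.card F + 1) / 2 : ℕ) : ℂ) → χ₁ u + χ₂ u = 1) ∧
    (∀ χ₁ χ₂ : Matrix.SpecialLinearGroup (Fin 2) F → ℂ, Cfsg.IsIrrCharacter (Matrix.SpecialLinearGroup (Fin 2) F) χ₁ → Cfsg.IsIrrCharacter (Matrix.SpecialLinearGroup (Fin 2) F) χ₂ → χ₁ ≠ χ₂ →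
      χ₁ 1 = (((Fintype.card F - 1) / 2 : ℕ) : ℂ) → χ₂ 1 = (((Fintype.card F - 1) / 2 : ℕ) : ℂ) → χ₁ u + χ₂ u = -1) := by
  classical
  obtain ⟨g₀, h₀⟩ := L.exists_noEig_SL (F := F)
  have hus : ¬ L.IsScal (u : L.M2 F) := by simp [hu, L.IsScal]
  have hut : (u : L.M2 F).trace = 2 := by simp [hu, Matrix.trace_fin_two]; norm_num
  have r : ∀ α : MulChar F ℂ, L.SLc.R α u = 1 := fun α => by
    rw [L.SLc.R_par α hus (a := 1) (by rw [hut, mul_one]) (by simp), map_one]
  have p := fun θ => L.SLc.pi_unip h₀ θ hus hut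
  refine ⟨fun χ hχ hd => ?_, fun χ hχ hd => ?_, fun χ₁ χ₂ h₁ h₂ hne d₁ d₂ => ?_,
    fun χ₁ χ₂ h₁ h₂ hne d₁ d₂ => ?_⟩
  · obtain ⟨α, χ', -, -, h⟩ := L.SLc.half_R_of_deg hq hχ hd
    rw [← h.sq_unip hu, ← r α, h.add, Pi.add_apply]; ring
  · obtain ⟨θ, χ', -, -, h⟩ := L.SLc.half_pi_of_deg h₀ hq hχ hd
    have := p θ
    rw [h.add, Pi.add_apply] at this
    rw [← h.sq_unip hu]; congr 1; linear_combination this
  · obtain ⟨α, χ', a1, a2, h⟩ := L.SLc.half_R_of_deg hq h₁ d₁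
    obtain ⟨β, χ'', b1, b2, h'⟩ := L.SLc.half_R_of_deg hq h₂ d₂
    obtain rfl := L.SLc.mulChar_two_unique a1 a2 b1 b2
    obtain rfl := (h.eq_or_eq' h').resolve_left hne.symm
    rw [← r α, h.add, Pi.add_apply]
  · obtain ⟨α, χ', a1, a2, h⟩ := L.SLc.half_pi_of_deg h₀ hq h₁ d₁
    obtain ⟨β, χ'', b1, b2, h'⟩ := L.SLc.half_pi_of_deg h₀ hq h₂ d₂
    obtain rfl := L.SLc.theta_two_unique h₀ a1 a2 b1 b2
    obtain rfl := (h.eq_or_eq' h').resolve_left hne.symm
    rw [← p α, h.add, Pi.add_apply]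

end Cfsg.Agent.S2324
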