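import Mathlib
import Cfsg.Agent.L.Torus
-- Template for statement S2325 (row 2325; see /opt/grader/pristine/manifest.json for weights).
-- Copy to Cfsg/Agent/S2325.lean and replace the sorry. The statement below is byte-identical to the frozen
-- statement Cfsg.CfsgFrozen.S2325 (Cfsg/Statements/S2325.lean; the theorem Cfsg.lie3_sl_two_card_conj_classes_odd);
-- the grader kernel-checks Cfsg.Agent.S2325.result against that frozen type. Keep the theorem IN THIS FILE
-- (a `result` declared elsewhere and merely imported here is not credited); helpers may live anywhere
-- under Cfsg/Agent/.
import Cfsg.Statements.S2325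
-- import your own Cfsg.Agent.* helpers here

set_option autoImplicit false
open Cfsg

namespace Cfsg.Agent.S2325

/-- Over a finite field with q elements, q odd, the special linear group SL₂ has exactly q + 4 conjugacy classes. -/
theorem result {F : Type*} [Field F] [Fintype F] (hodd : Odd (Fintype.card F)) :
    Nat.card (ConjClasses (Matrix.SpecialLinearGroup (Fin 2) F)) = Fintype.card F + 4 := by
  exact L.card_conjClasses_SL2_odd (L.two_ne_zero_of_odd hodd)

end Cfsg.Agent.S2325
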