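import Mathlib
import Cfsg.Agent.L.Torus
-- Template for statement S2329 (row 2329; see /opt/grader/pristine/manifest.json for weights).
-- Copy to Cfsg/Agent/S2329.lean and replace the sorry. The statement below is byte-identical to the frozen
-- statement Cfsg.CfsgFrozen.S2329 (Cfsg/Statements/S2329.lean; the theorem Cfsg.lie3_gl_two_order_p_elements_conjugate);
-- the grader kernel-checks Cfsg.Agent.S2329.result against that frozen type. Keep the theorem IN THIS FILE
-- (a `result` declared elsewhere and merely imported here is not credited); helpers may live anywhere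
-- under Cfsg/Agent/.
import Cfsg.Statements.S2329
-- import your own Cfsg.Agent.* helpers here

set_option autoImplicit false
open Cfsg

namespace Cfsg.Agent.S2329

/-- Over a finite field of characteristic p, any two elements of order p of GL₂ are conjugate: there is a single conjugacy class of non-identity unipotent elements. -/
theorem result {F : Type*} [Field F] [Fintype F] (p : ℕ) [Fact p.Prime] [CharP F p] (g h : Matrix.GeneralLinearGroup (Fin 2) F)
    (hg : orderOf g = p) (hh : orderOf h = p) : IsConj g h := by
  obtain ⟨hg1, hg2, hg3⟩ := (L.orderOf_GL_eq_char_iff p g).1 hg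
  obtain ⟨hh1, hh2, hh3⟩ := (L.orderOf_GL_eq_char_iff p h).1 hh
  exact (L.isConj_GL_iff hg1 hh1).2 ⟨hg2.trans hh2.symm, hg3.trans hh3.symm⟩

end Cfsg.Agent.S2329
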