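import Mathlib
import Cfsg.Agent.L.Torus
-- Template for statement S2330 (row 2330; see /opt/grader/pristine/manifest.json for weights).
-- Copy to Cfsg/Agent/S2330.lean and replace the sorry. The statement below is byte-identical to the frozen
-- statement Cfsg.CfsgFrozen.S2330 (Cfsg/Statements/S2330.lean; the theorem Cfsg.lie3_gl_two_card_conj_classes);
-- the grader kernel-checks Cfsg.Agent.S2330.result against that frozen type. Keep the theorem IN THIS FILE
-- (a `result` declared elsewhere and merely imported here is not credited); helpers may live anywhere
-- under Cfsg/Agent/.
import Cfsg.Statements.S2330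
-- import your own Cfsg.Agent.* helpers here

set_option autoImplicit false
open Cfsg

namespace Cfsg.Agent.S2330

/-- Over a finite field with q elements, the general linear group GL₂ has exactly q² − 1 conjugacy classes. -/
theorem result {F : Type*} [Field F] [Fintype F] :
    Nat.card (ConjClasses (Matrix.GeneralLinearGroup (Fin 2) F)) = Fintype.card F ^ 2 - 1 := by
  exact L.card_conjClasses_GL2

end Cfsg.Agent.S2330
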