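import Mathlib
import Cfsg.Statements.S2362
import Cfsg.Agent.H16.SpecO

set_option autoImplicit false
open Cfsg

namespace Cfsg.Agent.S2362

/-- Let F be a finite field of odd order and n ≥ 3. The simple orthogonal group PΩ(2n+1, F) (type B_n) and the projective symplectic group PSp(2n, F) (type C_n), which have the same order, do not have the same set of element orders. -/
theorem result {F : Type*} [Field F] [Fintype F] (hodd : Odd (Fintype.card F)) (n : ℕ) (hn : 3 ≤ n) :
    Set.range (orderOf : Cfsg.POmega F (Cfsg.quadFormOdd n F) → ℕ) ≠ Set.range (orderOf : Cfsg.PSp n F → ℕ) := by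
  obtain ⟨p, hc⟩ := CharP.exists F
  haveI hp := Fact.mk (CharP.char_is_prime F p)
  have h2 := H16.two_ne_zero_of_odd hodd
  have hq0 : 0 < Fintype.card F := Fintype.card_pos
  have hq1 : 1 < Fintype.card F := Fintype.one_lt_card
  have hq3 : Fintype.card F ≠ 2 := fun h => by rw [h] at hodd; exact absurd hodd (by decide)
  have hQ : Odd (Fintype.card F ^ (n - 1)) := hodd.pow
  have hQ1 : 1 ≤ Fintype.card F ^ (n - 1) := Nat.one_le_pow _ _ hq0
  obtain ⟨s, hs, hs2, hz, hT, hz'⟩ : ∃ s : ℕ, s.Prime ∧ s ≠ 2 ∧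
      (∀ e, 0 < e → s ∣ Fintype.card F ^ (2 * e) - 1 → n - 1 ≤ e) ∧
      (2 * s ∣ Fintype.card F ^ (n - 1) - 1 ∨ 2 * s ∣ Fintype.card F ^ (n - 1) + 1) ∧
      ¬ (4 * s ∣ Fintype.card F ^ (n - 1) - 1 ∨ 4 * s ∣ Fintype.card F ^ (n - 1) + 1) := by
    by_cases h4 : Fintype.card F ^ (n - 1) % 4 = 1
    · obtain ⟨s, hs, h5, h6, h7⟩ := H27.zsigmondy_orderOf (a := Fintype.card F) (n := 2 * (n - 1)) hq1 (by omega)
        fun h => hq3 h.1
      have hs2 : s ≠ 2 := by
        rintro rfl
        have := Nat.le_of_dvd one_pos h7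
        omega
      have h8 : ¬ s ∣ Fintype.card F ^ (n - 1) - 1 := fun h => by
        rw [H16.dvd_pow_sub_one_iff hq0, h5] at h
        have := Nat.le_of_dvd (by omega) h
        omega
      refine ⟨s, hs, hs2, fun e he h => ?_, Or.inr ((Nat.coprime_two_left.2
        (hs.odd_of_ne_two hs2)).mul_dvd_of_dvd_of_dvd (by omega) ((H16.dvd_or_of_prime hs h6).resolve_left h8)), ?_⟩
      · rw [H16.dvd_pow_sub_one_iff hq0, h5] at h
        have := Nat.le_of_dvd (by omega) h
        omega
      · rintro (h | h)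
        · exact h8 ((Dvd.intro_left _ rfl).trans h)
        · have := (Dvd.intro _ rfl).trans h
          omega
    · have h5 : Odd (n - 1) := by
        by_contra h
        obtain ⟨k, hk⟩ := Nat.not_odd_iff_even.1 h
        obtain ⟨j, hj⟩ : Odd (Fintype.card F ^ k) := hodd.pow
        apply h4
        rw [hk, pow_add, hj, show (2 * j + 1) * (2 * j + 1) = 1 + 4 * (j * j + j) by ring, Nat.add_mul_mod_self_left]
      obtain ⟨s, hs, h6, h7, h8⟩ := H27.zsigmondy_orderOf (a := Fintype.card F) (n := n - 1) hq1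
        (by obtain ⟨k, hk⟩ := h5; omega) fun h => hq3 h.1
      have hs2 : s ≠ 2 := by
        rintro rfl
        have := Nat.le_of_dvd one_pos h8
        omega
      obtain ⟨j, hj⟩ := hQ
      refine ⟨s, hs, hs2, fun e he h => ?_, Or.inl ((Nat.coprime_two_left.2
        (hs.odd_of_ne_two hs2)).mul_dvd_of_dvd_of_dvd (by omega) h7), ?_⟩
      · rw [H16.dvd_pow_sub_one_iff hq0, h6] at h
        exact Nat.le_of_dvd he ((Nat.coprime_two_right.2 h5).dvd_of_dvd_mul_left h)
      · rintro (h | h)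
        · have := (Dvd.intro _ rfl).trans h
          omega
        · have := (H16.dvd_pow_add_one_iff hq0 hs hs2).1 ((Dvd.intro_left _ rfl).trans h)
          exact this.2 (h6 ▸ dvd_rfl)
  have hsp : s ≠ p := by
    rintro rfl
    have h3 : s ∣ Fintype.card F ^ (2 * (n - 1)) :=
      ((CharP.cast_eq_zero_iff F s _).1 (FiniteField.cast_card_eq_zero F)).trans (dvd_pow_self _ (by omega))
    have h4 := Nat.dvd_sub h3 ((Dvd.intro_left _ rfl).trans (H16.dvd_sq_sub_one hT))
    have := Nat.one_le_pow (2 * (n - 1)) _ hq0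
    rw [show Fintype.card F ^ (2 * (n - 1)) - (Fintype.card F ^ (2 * (n - 1)) - 1) = 1 by omega] at h4
    exact hs.one_lt.ne' (Nat.dvd_one.1 h4)
  have h3 := H16.psp_of_hasEl_prod (n := n) (d' := 1) (H16.hasEl_torus (Or.inr rfl) (fun _ => rfl) (by omega) hT)
    (H16.hasEl_unip_sp p) (H16.odd_char p h2) (by omega)
  rw [(Nat.Coprime.mul_left (Nat.coprime_two_left.2 (H16.odd_char p h2))
    ((Nat.coprime_primes hs hp.out).2 hsp)).lcm_eq_mul] at h3
  intro h
  rw [← h, H16.mem_range_pOmega_odd h2 (by omega)] at h3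
  obtain ⟨y, hy, h4⟩ := h3
  haveI := H10.qOdd_nondeg (m := n) h2
  refine H16.om_not_2ps (H10.Form.isQuad_ofQuad (H10.qOdd n F)) p h2 hn (by simp; omega) hs hs2 hsp hz ?_ hy
    (by rw [h4]; ring)
  rintro (⟨e, h5, h6, h7⟩ | h5)
  · have := hz e h5 h7
    omega
  · exact hz' h5

end Cfsg.Agent.S2362
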