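import Mathlib
import Cfsg.Statements.S2363
import Cfsg.Agent.S0243
import Cfsg.Agent.S0245
import Cfsg.Agent.S0246
import Cfsg.Agent.S0280
import Cfsg.Agent.S0292
import Cfsg.Agent.S0293
import Cfsg.Agent.S0294
import Cfsg.Agent.S1059
import Cfsg.Agent.S1062
import Cfsg.Agent.S1063
import Cfsg.Agent.S1064
import Cfsg.Agent.S1065
import Cfsg.Agent.S1066
import Cfsg.Agent.S1067
import Cfsg.Agent.S1068
import Cfsg.Agent.S1069
import Cfsg.Agent.S1163

set_option autoImplicit false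
open Cfsg

namespace Cfsg.Agent.S2363

theorem le_fac {p q f d c N M : ℕ} (hp : p.Prime) (hq : q = p ^ f) (hc : c ≠ 0) (h : d * c = q ^ N * M) (hd : d.Coprime q) :
    q ^ N ≤ p ^ c.factorization p := by
  have := (hd.symm.pow_left N).dvd_of_dvd_mul_left (h.symm ▸ dvd_mul_right _ _)
  rw [hq, ← pow_mul] at this ⊢
  exact Nat.pow_le_pow_right hp.pos ((hp.pow_dvd_iff_le_factorization hc).1 this)

theorem key {p q f d c N M E : ℕ} {A : Prop} (hp : p.Prime) (hq : q = p ^ f) (hc : c ≠ 0) (h : d * c = q ^ N * M) (hd : d.Coprime q)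
    (h2 : 2 ≤ q) (hM : M < q ^ E) (hE : 3 * E ≤ 5 * N) : c < p ^ (3 * c.factorization p) ∧ (A → c ^ 3 < p ^ (8 * c.factorization p)) := by
  have h1 : c ≤ q ^ N * M := h ▸ Nat.le_mul_of_pos_left _ (Nat.pos_of_ne_zero (by rintro rfl; simp at hd; omega))
  have h3 : c ^ 3 < p ^ (8 * c.factorization p) :=
    calc c ^ 3 < (q ^ N * q ^ E) ^ 3 := Nat.pow_lt_pow_left (h1.trans_lt (by gcongr)) (by simp)
      _ ≤ (q ^ N) ^ 8 := by rw [← pow_add, ← pow_mul, ← pow_mul]; exact Nat.pow_le_pow_right (by omega) (by omega)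
      _ ≤ _ := by rw [mul_comm, pow_mul]; exact Nat.pow_le_pow_left (le_fac hp hq hc h hd) _
  exact ⟨lt_of_pow_lt_pow_left₀ 3 (by simp) (h3.trans_le (by rw [← pow_mul]; exact Nat.pow_le_pow_right hp.pos (by omega))), fun _ => h3⟩

theorem cop1 {q m : ℕ} (h : 2 ≤ q) (hm : m ≠ 0) : (q ^ m - 1).Coprime q :=
  ((Nat.coprime_self_sub_left (Nat.one_le_pow _ _ (by omega))).2 (by simp)).coprime_dvd_right (dvd_pow_self q hm)

theorem cop2 {q m : ℕ} (hm : m ≠ 0) : (q ^ m + 1).Coprime q := (Nat.coprime_self_add_left.2 (by simp)).coprime_dvd_right (dvd_pow_self q hm)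

theorem lt1 {q : ℕ} (h : 2 ≤ q) (m : ℕ) : q ^ m - 1 < q ^ m := Nat.sub_lt (by positivity) one_pos

theorem le2 {q : ℕ} (h : 2 ≤ q) (m : ℕ) : q ^ m + 1 ≤ q ^ (m + 1) := Nat.pow_lt_pow_right h (by simp)

theorem lt2 {q : ℕ} (h : 2 ≤ q) (m : ℕ) : q ^ m + 1 < q ^ (m + 2) := (le2 h m).trans_lt (Nat.pow_lt_pow_right h (by simp))

theorem lm {q a b x y : ℕ} (h : a < q ^ x) (h' : b < q ^ y) : a * b < q ^ (x + y) := pow_add q x y ▸ Nat.mul_lt_mul'' h h'

theorem lt3 {q x : ℕ} (h : 2 ≤ q) (hx : 0 < x) : (x - 1) * (x * q + 1) < x * (x * q) := by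
  obtain ⟨x, rfl⟩ := Nat.exists_eq_add_of_le' hx
  simp only [Nat.add_sub_cancel]; nlinarith

theorem prodC {q : ℕ} (h : 2 ≤ q) (m : ℕ) (hm : 1 ≤ m) : ∏ i ∈ Finset.range m, (q ^ (2 * (i + 1)) - 1) < q ^ (m * (m + 1)) := by
  induction m, hm using Nat.le_induction with
  | base => simpa using lt1 h 2
  | succ m _ ih =>
    rw [Finset.prod_range_succ, show (m + 1) * (m + 1 + 1) = m * (m + 1) + 2 * (m + 1) by ring, pow_add q (m * (m + 1))]
    exact Nat.mul_lt_mul'' ih (lt1 h _)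

theorem prodA {q : ℕ} (h : 2 ≤ q) (n : ℕ) : ∃ T M, 2 * T = (n + 1) * (n + 2) ∧ M < q ^ (T + n + 1) ∧ M.Coprime q ∧
    ∏ i : Fin (n + 2), (q ^ (n + 2) - q ^ (i : ℕ)) = (q - 1) * (q ^ T * M) := by
  induction n with
  | zero => exact ⟨1, q ^ 2 - 1, rfl, lt1 h _, cop1 h (by simp), by
      rw [Fin.prod_univ_two, show q ^ (0 + 2) - q ^ ((1 : Fin 2) : ℕ) = q * (q - 1) by simp [Nat.mul_sub_one, sq]]; simp; ring⟩
  | succ n ih =>
    obtain ⟨T, M, h1, h2, h3, h4⟩ := ih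
    refine ⟨T + (n + 2), M * (q ^ (n + 3) - 1), by linarith, ?_, h3.mul_left (cop1 h (by simp)), ?_⟩
    · rw [show T + (n + 2) + (n + 1) + 1 = T + n + 1 + (n + 3) by ring, pow_add q (T + n + 1)]; exact Nat.mul_lt_mul'' h2 (lt1 h _)
    · simp only [Fin.prod_univ_succ (n := n + 2), Fin.val_succ, pow_succ' q (n + 2), pow_succ' q (Fin.val _), ← Nat.mul_sub,
        Finset.prod_mul_distrib, h4]
      simp; ring

theorem prodU {q : ℕ} (h : 2 ≤ q) (n : ℕ) : ∃ M E, 2 * (E + 1) = (n + 2) * (n + 3) ∧ M < q ^ E ∧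
    (Even n → M * (q ^ (n + 3) + 1) < q ^ (E + (n + 3))) ∧
    ∏ i ∈ Finset.range (n + 2), (if Even i then q ^ (i + 1) + 1 else q ^ (i + 1) - 1) = (q + 1) * M := by
  induction n with
  | zero => exact ⟨q ^ 2 - 1, 2, rfl, lt1 h _, fun _ => (lt3 h (x := q ^ 2) (by positivity)).trans_eq (by ring),
      by simp [Finset.prod_range_succ]⟩
  | succ n ih =>
    obtain ⟨M, E, h1, h2, h3, h4⟩ := ih
    rw [Finset.prod_range_succ, h4, mul_assoc]
    refine ⟨_, E + (n + 3), by linarith, ?_, fun e => ?_, rfl⟩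
    · split_ifs with e
      · exact h3 (by simpa [Nat.even_add] using e)
      · rw [pow_add q E]; exact Nat.mul_lt_mul'' h2 (lt1 h _)
    · rw [if_neg (by simpa [Nat.even_add_one] using e), mul_assoc, add_assoc E, pow_add q E, pow_add q (n + 3), show n + 1 + 3 = n + 3 + 1 from rfl, pow_succ q (n + 3)]
      exact Nat.mul_lt_mul'' h2 (lt3 h (by positivity))

/-- Let G be a finite simple group of Lie type in characteristic p and let p^k be the exact power of p dividing the order of G. Then the order of G is less than p^(3k); and unless G is isomorphic to PSL(2, F) for the field F with p^k elements, the cube of the order of G is less than p^(8k) (that is, the order is below p^(8k/3)). -/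
theorem result {G : Type*} [Group G] [Finite G] (p : ℕ) (hp : p.Prime) (hG : Cfsg.IsLieTypeChar p G) :
    Nat.card G < p ^ (3 * (Nat.card G).factorization p) ∧
      ((¬ ∃ (F : Type) (_ : Field F) (_ : Fintype F), Fintype.card F = p ^ (Nat.card G).factorization p ∧
          Nonempty (G ≃* Matrix.ProjectiveSpecialLinearGroup (Fin 2) F)) →
        Nat.card G ^ 3 < p ^ (8 * (Nat.card G).factorization p)) := by
  have hc : Nat.card G ≠ 0 := Nat.card_pos.ne'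
  have := Fact.mk hp
  have k1 : ∀ (F : Type) [Field F] [Fintype F] [CharP F p], ∃ f : ℕ, Fintype.card F = p ^ f := fun F _ _ _ =>
    (FiniteField.card F p).elim fun f h => ⟨f, h.2⟩
  have k2 : ∀ (F : Type) [Field F] [Fintype F] [CharP F p] {q k}, k ≠ 0 → Fintype.card F = q ^ k → 2 ≤ q ∧ ∃ f : ℕ, q = p ^ f :=
    fun F _ _ _ q k hk h => ⟨(Nat.one_lt_pow_iff hk).1 (h ▸ Fintype.one_lt_card), by
      obtain ⟨f, hf⟩ := k1 F
      obtain ⟨j, -, e⟩ := (Nat.dvd_prime_pow hp).1 (hf ▸ h ▸ dvd_pow_self q hk)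
      exact ⟨j, e⟩⟩
  rcases hG with ⟨F, _, _, _, n, h, -, ⟨π⟩⟩ | ⟨F, _, _, _, n, h, h1, ⟨π⟩⟩ | ⟨F, _, _, _, n, q, h, h1, h2, ⟨π⟩⟩ |
    ⟨F, _, _, _, n, h, h1, ⟨π⟩⟩ | ⟨F, _, _, _, n, h, ⟨π⟩⟩ | ⟨F, _, _, _, n, a, b, h, h1, ⟨π⟩⟩ |
    ⟨F, _, _, _, ⟨-, ⟨π⟩⟩ | ⟨⟨π⟩⟩ | ⟨⟨π⟩⟩ | ⟨⟨π⟩⟩ | ⟨⟨π⟩⟩⟩ | ⟨F, _, _, _, q, h, ⟨h1, ⟨π⟩⟩ | ⟨h1, ⟨π⟩⟩⟩ | ⟨rfl, F, _, _, m, h, h1, ⟨π⟩⟩ |
    ⟨rfl, F, _, _, m, h, h1, ⟨π⟩⟩ | ⟨rfl, F, _, _, m, h, h1, ⟨π⟩⟩
  all_goals have e := Nat.card_congr π.toEquiv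
  all_goals have h0 : 2 ≤ Fintype.card F := Fintype.one_lt_card
  · obtain ⟨f, hf⟩ := k1 F
    have h1 := S0243.result (F := F) rfl n h
    obtain ⟨n, rfl⟩ := Nat.exists_eq_add_of_le' h
    obtain ⟨T, M, h2, h3, h4, h5⟩ := prodA h0 n
    rw [h5, mul_left_comm, Nat.mul_right_inj (by omega), ← e] at h1
    have h6 := (pow_one (Fintype.card F) ▸ cop1 h0 one_ne_zero).coprime_dvd_left (Nat.gcd_dvd_right (n + 2) _)
    rcases n.eq_zero_or_pos with rfl | hn
    swap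
    · exact key hp hf hc h1 h6 h0 h3 (by nlinarith)
    obtain rfl : T = 1 := by omega
    have h7 := le_fac hp hf hc h1 h6
    refine ⟨?_, fun a => (a ⟨F, _, _, le_antisymm (by simpa using h7) (Nat.le_of_dvd (by omega) ?_), ⟨π⟩⟩).elim⟩
    · calc _ ≤ _ := h1 ▸ Nat.le_mul_of_pos_left _ (Nat.gcd_pos_of_pos_left _ two_pos)
        _ < Fintype.card F ^ 1 * Fintype.card F ^ 2 := by gcongr
        _ ≤ _ := by rw [← pow_add, mul_comm, pow_mul]; exact Nat.pow_le_pow_left (by simpa using h7) _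
    · have f0 : f ≠ 0 := by rintro rfl; simp at hf; omega
      rw [pow_one] at h1
      exact ((h4.symm.coprime_dvd_left (hf ▸ dvd_pow_self p f0)).pow_left _).dvd_of_dvd_mul_right
        (h1 ▸ (Nat.ordProj_dvd _ p).mul_left _)
  · obtain ⟨f, hf⟩ := k1 F
    have h2 := Subgroup.card_eq_card_quotient_mul_card_subgroup (Subgroup.center (Matrix.symplecticGroup (Fin n) F))
    rw [S0245.result rfl, S0246.result rfl n (by omega), ← e, mul_comm (Nat.card G)] at h2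
    exact key hp hf hc h2.symm ((pow_one (Fintype.card F) ▸ cop1 h0 one_ne_zero).coprime_dvd_left (Nat.gcd_dvd_right _ _)) h0
      (prodC h0 n (by omega)) (by nlinarith)
  · obtain ⟨h3, f, hf⟩ := k2 F two_ne_zero h
    have h4 := S0280.result h n (by omega)
    obtain ⟨n, rfl⟩ := Nat.exists_eq_add_of_le' (Nat.le_of_succ_le h1)
    obtain ⟨M, E, h5, h6, -, h7⟩ := prodU h3 n
    rw [h7, mul_left_comm, mul_left_comm _ (q + 1), Nat.mul_right_inj (by omega), ← e] at h4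
    refine key hp hf hc h4 ((pow_one q ▸ cop2 one_ne_zero).coprime_dvd_left (Nat.gcd_dvd_right _ _)) h3 h6 ?_
    have := Nat.two_mul_div_two_of_even (Nat.even_mul_pred_self (n + 2))
    rw [show n + 2 - 1 = n + 1 from rfl] at this ⊢
    nlinarith [show 1 ≤ n by omega]
  · obtain ⟨f, hf⟩ := k1 F
    exact key hp hf hc (e ▸ S0292.result rfl h1 n h) (Nat.coprime_two_left.2 h1) h0 (prodC h0 n (by omega)) (by nlinarith)
  · obtain ⟨f, hf⟩ := k1 F
    obtain ⟨n, rfl⟩ := Nat.exists_eq_add_of_le' (show 1 ≤ n by omega)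
    refine key hp hf hc ((e ▸ S0293.result rfl _ h).trans (mul_assoc ..)) ((cop1 h0 (by omega)).coprime_dvd_left (Nat.gcd_dvd_right _ _)) h0
      ((Nat.mul_lt_mul'' (lt1 h0 _) (prodC h0 n (by omega))).trans_eq (pow_add ..).symm) ?_
    simp only [Nat.add_sub_cancel]; nlinarith
  · obtain ⟨f, hf⟩ := k1 F
    obtain ⟨n, rfl⟩ := Nat.exists_eq_add_of_le' (show 1 ≤ n by omega)
    refine key hp hf hc ((e ▸ S0294.result rfl _ h a b h1).trans (mul_assoc ..)) ((cop2 (by omega)).coprime_dvd_left (Nat.gcd_dvd_right _ _)) h0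
      ((Nat.mul_lt_mul_of_le_of_lt (le2 h0 _) (prodC h0 n (by omega)) (by positivity)).trans_eq (pow_add ..).symm) ?_
    simp only [Nat.add_sub_cancel]; nlinarith
  · exact (k1 F).elim fun f hf => key hp hf hc (d := 1) (by simp only [one_mul, e, S1059.result rfl, mul_assoc]; rfl) (by simp) h0
      (lm (lt1 h0 _) (lt1 h0 _)) (by simp)
  · exact (k1 F).elim fun f hf => key hp hf hc (d := 1) (by simp only [one_mul, e, S1062.result rfl, mul_assoc]; rfl) (by simp) h0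
      (lm (lt1 h0 _) (lm (lt1 h0 _) (lm (lt1 h0 _) (lt1 h0 _)))) (by simp)
  · exact (k1 F).elim fun f hf => key hp hf hc (by simpa only [e, mul_assoc] using S1063.result rfl)
      ((pow_one (Fintype.card F) ▸ cop1 h0 one_ne_zero).coprime_dvd_left (Nat.gcd_dvd_right _ _)) h0
      (lm (lt1 h0 _) (lm (lt1 h0 _) (lm (lt1 h0 _) (lm (lt1 h0 _) (lm (lt1 h0 _) (lt1 h0 _)))))) (by norm_num)
  · exact (k1 F).elim fun f hf => key hp hf hc (by simpa only [e, mul_assoc] using S1064.result rfl)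
      ((pow_one (Fintype.card F) ▸ cop1 h0 one_ne_zero).coprime_dvd_left (Nat.gcd_dvd_right _ _)) h0
      (lm (lt1 h0 _) (lm (lt1 h0 _) (lm (lt1 h0 _) (lm (lt1 h0 _) (lm (lt1 h0 _) (lm (lt1 h0 _) (lt1 h0 _))))))) (by norm_num)
  · exact (k1 F).elim fun f hf => key hp hf hc (d := 1) (by simp only [one_mul, e, S1065.result rfl, mul_assoc]; rfl) (by simp) h0
      (lm (lt1 h0 _) (lm (lt1 h0 _) (lm (lt1 h0 _) (lm (lt1 h0 _) (lm (lt1 h0 _) (lm (lt1 h0 _) (lm (lt1 h0 _) (lt1 h0 _)))))))) (by simp)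
  · obtain ⟨h3, f, hf⟩ := k2 F two_ne_zero h1
    exact key hp hf hc (by simpa only [e, mul_assoc] using S1066.result h h1)
      ((pow_one q ▸ cop2 one_ne_zero).coprime_dvd_left (Nat.gcd_dvd_right _ _)) h3
      (lm (lt1 h3 _) (lm (lt2 h3 _) (lm (lt1 h3 _) (lm (lt1 h3 _) (lm (lt2 h3 _) (lt1 h3 _)))))) (by norm_num)
  · obtain ⟨h3, f, hf⟩ := k2 F three_ne_zero h1
    refine key hp hf hc (d := 1) (by simp only [one_mul, e, S1067.result h h1, mul_assoc]; rfl) (by simp) h3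
      (lm (lt1 h3 _) (lm (y := 10) (lt1 h3 _) ?_)) (by simp)
    have := Nat.pow_lt_pow_right h3 (show 4 < 8 by simp)
    have := Nat.mul_le_mul_left (q ^ 8) (Nat.pow_le_pow_left h3 2)
    rw [← pow_add, show 8 + 2 = 10 from rfl] at this
    have : 0 < q ^ 4 := by positivity
    omega
  · rw [h1] at h0
    exact key hp rfl hc (d := 1) (by simp only [one_mul, e, (S1163.result h h1).1, mul_assoc]; rfl) (by simp) h0 (E := 3)
      (by simpa [pow_succ', mul_assoc] using lt3 h0 (x := 2 ^ (2 * m + 1)) (by positivity)) (by simp)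
  · rw [h1] at h0
    exact key hp rfl hc (d := 1) (by simp only [one_mul, e, S1068.result h1, mul_assoc]; rfl) (by simp) h0
      (lm (x := 1) (by simp) (lm (lt2 h0 _) (lm (lt1 h0 _) (lt2 h0 _)))) (by simp)
  · rw [h1] at h0
    exact key hp rfl hc (d := 1) (by simp only [one_mul, e, S1069.result h1, mul_assoc]; rfl) (by simp) h0 (E := 5)
      ((Nat.mul_lt_mul_of_lt_of_le (Nat.sub_lt (by positivity) one_pos) (le2 h0 3) (by positivity)).trans_eq (by ring)) (by simp)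

end Cfsg.Agent.S2363
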