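import Mathlib
import Cfsg.Statements.S2364
import Cfsg.Agent.H16.SpecC

set_option autoImplicit false
open Cfsg

namespace Cfsg.Agent.S2364

/-- Let F be a finite field of characteristic p, n ≥ 4, and let a, b be commuting elements of PSL(n, F) with a of order p. Then every prime divisor of the order of b divides the order of SL(n − 2, F). -/
theorem result {F : Type*} [Field F] [Fintype F] (p : ℕ) [Fact p.Prime] [CharP F p] (n : ℕ) (hn : 4 ≤ n)
    (a b : Matrix.ProjectiveSpecialLinearGroup (Fin n) F) (ha : orderOf a = p) (hab : Commute a b) :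
    (orderOf b).primeFactors ⊆ (Nat.card (Matrix.SpecialLinearGroup (Fin (n - 2)) F)).primeFactors := by
  intro r hr
  rw [Nat.mem_primeFactors] at hr ⊢
  obtain ⟨hr, hrb, -⟩ := hr
  have hp : p.Prime := Fact.out
  refine ⟨hr, ?_, Nat.card_pos.ne'⟩
  have hpq : p ∣ Fintype.card F := by
    obtain ⟨k, -, hk⟩ := FiniteField.card F p
    exact hk ▸ dvd_pow_self p k.ne_zero
  by_cases hrp : r = p
  · exact (hrp ▸ hpq.mul_right _).trans (H16.card_SL_dvd (e := 2) le_rfl (by omega))
  by_cases hrq : r ∣ Fintype.card F - 1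
  · refine (Dvd.dvd.mul_left (hrq.trans ?_) _).trans (H16.card_SL_dvd (e := 2) le_rfl (by omega))
    simpa using Nat.sub_dvd_pow_sub_pow (Fintype.card F) 1 2
  obtain ⟨y, hy⟩ := H16.exists_order_mul hab hp hr hrp ha hrb
  obtain ⟨e, he0, he, hre⟩ := (H16.psl_ps_iff p (n := n) (by omega) hr hrp hrq).1 ⟨y, hy⟩
  have he1 : e ≠ 1 := by rintro rfl; exact hrq (by simpa using hre)
  exact (hre.mul_left _).trans (H16.card_SL_dvd (e := e) (by omega) (by omega))

end Cfsg.Agent.S2364
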