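import Mathlib
import Cfsg.Statements.S2365
import Cfsg.Agent.H16.SpecC

set_option autoImplicit false
open Cfsg

namespace Cfsg.Agent.S2365

/-- Let q be a power of the prime p, F the field with q² elements, m ≥ 4, and let a, b be commuting elements of PSU(m, q) with a of order p. Then every prime divisor of the order of b divides the order of SU(m − 2, q). -/
theorem result {F : Type*} [Field F] [Fintype F] (p : ℕ) [Fact p.Prime] [CharP F p] (m q : ℕ) (hm : 4 ≤ m) (hF : Fintype.card F = q ^ 2)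
    (a b : Cfsg.PSU m F q) (ha : orderOf a = p) (hab : Commute a b) :
    (orderOf b).primeFactors ⊆ (Nat.card ↥(Cfsg.SU (m - 2) F q)).primeFactors := by
  intro r hr
  rw [Nat.mem_primeFactors] at hr ⊢
  obtain ⟨hr, hrb, -⟩ := hr
  have hp : p.Prime := Fact.out
  have hF' : Nat.card F = q ^ 2 := by rw [Nat.card_eq_fintype_card, hF]
  refine ⟨hr, ?_, Nat.card_pos.ne'⟩
  have hpq : p ∣ q := by
    obtain ⟨k, -, hk⟩ := FiniteField.card F p
    rw [hF] at hk
    exact hp.dvd_of_dvd_pow (hk ▸ dvd_pow_self p k.ne_zero)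
  by_cases hrp : r = p
  · exact (hrp ▸ hpq.mul_right _).trans (H16.card_SU_dvd hF (e := 2) le_rfl (by omega))
  by_cases hrq : r ∣ q + 1
  · refine (Dvd.dvd.mul_left (hrq.trans ?_) _).trans (H16.card_SU_dvd hF (e := 2) le_rfl (by omega))
    rw [if_neg (by decide)]
    exact (Nat.sq_sub_sq q 1).symm ▸ Dvd.intro _ rfl
  obtain ⟨y, hy⟩ := H16.exists_order_mul hab hp hr hrp ha hrb
  obtain ⟨e, he0, he, hre⟩ := H16.psu_ps hF' p (by omega) hr hrp hrq hy
  exact (hre.mul_left _).trans (H16.card_SU_dvd hF (e := e) (by omega) (by omega))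

end Cfsg.Agent.S2365
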