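import Mathlib
import Cfsg.Statements.S2367

set_option autoImplicit false
open Cfsg

namespace Cfsg.Agent.S2367

theorem aux_key (N a p : ℕ) (h1 : N ∣ Nat.factorial 71) (h2 : 2 ^ a ∣ N)
    (h3 : ∀ q < 72, q ≠ 2 → q.Prime → q ^ 3 ∣ N → ¬ q ^ 4 ∣ N → q ^ 3 < 2 ^ a)
    (hp : p.Prime) (hodd : p ≠ 2) (h : N.factorization p = 3) : p ^ 3 < 2 ^ N.factorization 2 := by
  have hN : N ≠ 0 := by
    rintro rfl
    simp at h
  have hd : p ^ 3 ∣ N := (hp.pow_dvd_iff_le_factorization hN).2 h.ge
  have hnd : ¬ p ^ 4 ∣ N := by rw [hp.pow_dvd_iff_le_factorization hN]; omega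
  have hlt : p ≤ 71 := (hp.dvd_factorial).1 ((dvd_pow_self p (by norm_num)).trans (hd.trans h1))
  have := h3 p (by omega) hodd hp hd hnd
  exact this.trans_le (Nat.pow_le_pow_right (by norm_num)
    ((Nat.prime_two.pow_dvd_iff_le_factorization hN).1 h2))

theorem aux_two (k : ℕ) : 2 ^ k ∣ Nat.factorial (2 * k) := by
  induction k with
  | zero => simp
  | succ k ih =>
    rw [show 2 * (k + 1) = (2 * k + 1) + 1 by ring, Nat.factorial_succ, Nat.factorial_succ, pow_succ]
    rw [mul_comm (2 ^ k) 2]
    exact Nat.mul_dvd_mul ⟨k + 1, by ring⟩ (Dvd.dvd.mul_left ih _)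

theorem aux_lt (j : ℕ) (hj : 3 ≤ j) : 2 * j + 1 < 2 ^ j := by
  induction j, hj using Nat.le_induction with
  | base => norm_num
  | succ k hk ih => rw [pow_succ]; omega

theorem aux_alt (n N p : ℕ) (hN : 2 * N = n.factorial) (hp : p.Prime) (hodd : p ≠ 2)
    (h : N.factorization p = 3) : p ^ 3 < 2 ^ N.factorization 2 := by
  have hN0 : N ≠ 0 := by
    rintro rfl
    simp at h
  have hd : p ^ 3 ∣ N := (hp.pow_dvd_iff_le_factorization hN0).2 h.ge
  have hp3 : 3 ≤ p := by have := hp.two_le; omega
  have hn : 3 * p ≤ n := by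
    by_contra hlt
    push Not at hlt
    have h1 : p ^ 3 ∣ n.factorial := hN ▸ hd.mul_left 2
    have hlog : Nat.log p n < 2 := by
      rcases Nat.eq_zero_or_pos n with rfl | hn
      · simp
      · apply Nat.log_lt_of_lt_pow hn.ne'
        nlinarith
    rw [hp.pow_dvd_factorial_iff hlog] at h1
    simp at h1
    have := (Nat.le_div_iff_mul_le hp.pos).1 h1
    omega
  have key : ∀ a, 2 ^ (a + 1) ∣ n.factorial → p ^ 3 < 2 ^ a → p ^ 3 < 2 ^ N.factorization 2 := by
    intro a ha hlt
    rw [← hN, pow_succ, mul_comm] at ha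
    have := Nat.dvd_of_mul_dvd_mul_left (by norm_num) ha
    exact hlt.trans_le (Nat.pow_le_pow_right (by norm_num)
      ((Nat.prime_two.pow_dvd_iff_le_factorization hN0).1 this))
  obtain ⟨j, hj⟩ := hp.odd_of_ne_two hodd
  by_cases h3 : j = 1
  · subst h3; subst hj
    exact key 6 ((by decide : 2 ^ 7 ∣ Nat.factorial 9).trans (Nat.factorial_dvd_factorial (by omega))) (by norm_num)
  by_cases h5 : j = 2
  · subst h5; subst hj
    exact key 10 ((by decide : 2 ^ 11 ∣ Nat.factorial 15).trans (Nat.factorial_dvd_factorial (by omega))) (by norm_num)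
  refine key (3 * j) ((aux_two _).trans (Nat.factorial_dvd_factorial (by omega))) ?_
  rw [mul_comm 3 j, pow_mul, hj]
  exact Nat.pow_lt_pow_left (aux_lt j (by omega)) (by norm_num)

/-- Let G be an alternating group of degree at least 5 or a simple group with the order of one of the 26 sporadic groups, and let p be an odd prime such that p³ is the exact power of p dividing the order of G. Then p³ is less than the 2-part of the order of G. -/
theorem result {G : Type*} [Group G] [Finite G] (hG : Cfsg.IsAlternating G ∨ Cfsg.IsSporadic G)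
    (p : ℕ) (hp : p.Prime) (hodd : p ≠ 2) (h3 : (Nat.card G).factorization p = 3) :
    p ^ 3 < 2 ^ (Nat.card G).factorization 2 := by
  rcases hG with ⟨n, hn, ⟨e⟩⟩ | hG
  · refine aux_alt n _ p ?_ hp hodd h3
    haveI : Nontrivial (Fin n) := Fin.nontrivial_iff_two_le.2 (by omega)
    rw [Nat.card_congr e.toEquiv, Nat.card_eq_fintype_card, two_mul_card_alternatingGroup,
      Fintype.card_perm, Fintype.card_fin]
  rcases hG with h|h|h|h|h|h|h|h|h|h|h|h|h|h|h|h|h|h|h|h|h|h|h|h|h|h <;> rw [h.2] at h3 ⊢
  · exact aux_key _ 4 p (by decide +kernel) (by decide +kernel) (by decide +kernel) hp hodd h3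
  · exact aux_key _ 6 p (by decide +kernel) (by decide +kernel) (by decide +kernel) hp hodd h3
  · exact aux_key _ 7 p (by decide +kernel) (by decide +kernel) (by decide +kernel) hp hodd h3
  · exact aux_key _ 7 p (by decide +kernel) (by decide +kernel) (by decide +kernel) hp hodd h3
  · exact aux_key _ 10 p (by decide +kernel) (by decide +kernel) (by decide +kernel) hp hodd h3
  · exact aux_key _ 3 p (by decide +kernel) (by decide +kernel) (by decide +kernel) hp hodd h3
  · exact aux_key _ 7 p (by decide +kernel) (by decide +kernel) (by decide +kernel) hp hodd h3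
  · exact aux_key _ 7 p (by decide +kernel) (by decide +kernel) (by decide +kernel) hp hodd h3
  · exact aux_key _ 21 p (by decide +kernel) (by decide +kernel) (by decide +kernel) hp hodd h3
  · exact aux_key _ 21 p (by decide +kernel) (by decide +kernel) (by decide +kernel) hp hodd h3
  · exact aux_key _ 18 p (by decide +kernel) (by decide +kernel) (by decide +kernel) hp hodd h3
  · exact aux_key _ 10 p (by decide +kernel) (by decide +kernel) (by decide +kernel) hp hodd h3
  · exact aux_key _ 17 p (by decide +kernel) (by decide +kernel) (by decide +kernel) hp hodd h3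
  · exact aux_key _ 18 p (by decide +kernel) (by decide +kernel) (by decide +kernel) hp hodd h3
  · exact aux_key _ 21 p (by decide +kernel) (by decide +kernel) (by decide +kernel) hp hodd h3
  · exact aux_key _ 9 p (by decide +kernel) (by decide +kernel) (by decide +kernel) hp hodd h3
  · exact aux_key _ 7 p (by decide +kernel) (by decide +kernel) (by decide +kernel) hp hodd h3
  · exact aux_key _ 10 p (by decide +kernel) (by decide +kernel) (by decide +kernel) hp hodd h3
  · exact aux_key _ 14 p (by decide +kernel) (by decide +kernel) (by decide +kernel) hp hodd h3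
  · exact aux_key _ 13 p (by decide +kernel) (by decide +kernel) (by decide +kernel) hp hodd h3
  · exact aux_key _ 9 p (by decide +kernel) (by decide +kernel) (by decide +kernel) hp hodd h3
  · exact aux_key _ 14 p (by decide +kernel) (by decide +kernel) (by decide +kernel) hp hodd h3
  · exact aux_key _ 8 p (by decide +kernel) (by decide +kernel) (by decide +kernel) hp hodd h3
  · exact aux_key _ 15 p (by decide +kernel) (by decide +kernel) (by decide +kernel) hp hodd h3
  · exact aux_key _ 41 p (by decide +kernel) (by decide +kernel) (by decide +kernel) hp hodd h3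
  · exact aux_key _ 46 p (by decide +kernel) (by decide +kernel) (by decide +kernel) hp hodd h3

end Cfsg.Agent.S2367
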