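import Mathlib
import Cfsg.Statements.S2369
import Cfsg.Agent.H12.InvTw

set_option autoImplicit false
open Cfsg

namespace Cfsg.Agent.S2369

open Cfsg.Lie H11 H11.StSys H12.Lie H12.Inv

/-- Let q = 2^(2m+1) with m ≥ 1 and let a, b be commuting elements of the large Ree group ²F₄(q) with a an involution. Then every prime divisor of the order of b divides q(q⁴ − 1). -/
theorem result {K : Type*} [Field K] [Fintype K] (m : ℕ) (hm : 1 ≤ m) (hK : Fintype.card K = 2 ^ (2 * m + 1))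
    (a b : ↥(Cfsg.Lie.twistedF4 K (2 ^ m))) (ha : orderOf a = 2) (hab : Commute a b) :
    (orderOf b).primeFactors ⊆ (2 ^ (2 * m + 1) * ((2 ^ (2 * m + 1)) ^ 4 - 1)).primeFactors := by
  unfold twistedF4 at a b
  obtain ⟨θ, F, σ, h⟩ := exists_rf4 hK
  have hr := (inclusion_range_gen (D := chevF4) (f4Words K (2 ^ m))).trans
    (RF4.eq_fix F h (grpSys_θ_injective _ _) (grpSys_grp _ _))
  have h1 := orderOf_dvd_F4 F h (grpSys_θ_injective _ _) (grpSys_grp _ _) (hr.le ⟨a, rfl⟩) (hr.le ⟨b, rfl⟩)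
    ((orderOf_injective _ (Subgroup.inclusion_injective _) a).trans ha) (hab.map _)
  rw [orderOf_injective _ (Subgroup.inclusion_injective _), Nat.card_eq_fintype_card, hK] at h1
  have h2 : 1 < 2 ^ (2 * m + 1) := Nat.one_lt_two_pow (by omega)
  generalize 2 ^ (2 * m + 1) = q at h1 h2
  obtain ⟨k, rfl⟩ : ∃ k, q = k + 1 := ⟨q - 1, by omega⟩
  have h3 : (k + 1) ^ 4 - 1 = k * (k + 1 + 1) * ((k + 1) ^ 2 + 1) := Nat.sub_eq_of_eq_add (by ring)
  have h4 : k ≠ 0 := by omega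
  rw [h3, ← Nat.primeFactors_pow ((k + 1) * _) (show 12 ≠ 0 by decide)]
  refine Nat.primeFactors_mono ?_ (by positivity)
  rw [Nat.add_sub_cancel] at h1
  generalize (k + 1) ^ 2 + 1 = a at h1 ⊢
  generalize k + 1 + 1 = b at h1 ⊢
  generalize k + 1 = c at h1 ⊢
  rcases h1 with h1 | h1
  · exact h1.trans ⟨k ^ 10 * b ^ 12 * a ^ 11, by ring⟩
  · exact h1.trans ⟨k ^ 10 * b ^ 11 * a ^ 12, by ring⟩

end Cfsg.Agent.S2369
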