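import Mathlib
import Cfsg.Statements.S2370
import Cfsg.Agent.H12.LieBT
import Cfsg.Agent.H11.TwF4

set_option autoImplicit false
open Cfsg

namespace Cfsg.Agent.S2370

open Cfsg.Lie H11 H11.StSys H12.Lie in
theorem aux {K : Type*} [Field K] {D : ChevalleyDatum} [Good D] {ψ : Node D → ℤ} {M : Matrix D.Idx D.Idx K}
    (h : Tri ψ 1 M) (n : ℕ) : ∀ a b, ((M - 1) ^ n) a b ≠ 0 → deg ψ b + n ≤ deg ψ a := by
  induction n with
  | zero => intro a b e; rw [pow_zero, Matrix.one_apply] at e; have : a = b := by by_contra h; simp [h] at e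
            simp [this]
  | succ n ih =>
    intro a b e
    rw [pow_succ, Matrix.mul_apply] at e
    obtain ⟨c, -, hc⟩ := Finset.exists_ne_zero_of_sum_ne_zero e
    have h1 := ih a c (left_ne_zero_of_mul hc)
    have h2 := h c b (right_ne_zero_of_mul hc)
    push_cast; omega

open Cfsg.Lie H11 H11.StSys H12.Lie in
theorem aux2 : ∀ r : Root chevF4, (IsPos r → 1 ≤ fv (![8, 15, 21, 11] : Fin 4 → ℤ) r) ∧
    -11 ≤ fv (![8, 15, 21, 11] : Fin 4 → ℤ) r ∧ fv (![8, 15, 21, 11] : Fin 4 → ℤ) r ≤ 11 := by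
  decide +kernel

/-- Let q = 2^(2m+1) with m ≥ 1. Every element of 2-power order of the large Ree group ²F₄(q) has order at most 32. -/
theorem result {K : Type*} [Field K] [Fintype K] (m : ℕ) (hm : 1 ≤ m) (hK : Fintype.card K = 2 ^ (2 * m + 1))
    (x : ↥(Cfsg.Lie.twistedF4 K (2 ^ m))) (hx : ∃ j : ℕ, orderOf x = 2 ^ j) : orderOf x ≤ 32 := by
  classical
  have hD : Cfsg.Lie.chevF4 ∈ [Cfsg.Lie.chevG2, Cfsg.Lie.chevB2, Cfsg.Lie.chevD4, Cfsg.Lie.chevF4, Cfsg.Lie.chevE6, Cfsg.Lie.chevE7, Cfsg.Lie.chevE8] := by simp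
  have := H11.good_of_mem hD
  have := H11.cert_of_mem hD
  have h2 : CharP K 2 := charP_of_card_eq_prime_pow hK
  obtain ⟨j, hj⟩ := hx
  have hx : x.1 ∈ (H11.matSys Cfsg.Lie.chevF4 K).grp := by
    rw [← H11.group_eq]; exact H11.genSubgroup_le _ x.2
  obtain ⟨g, -, hg⟩ := H12.Lie.exists_conj_U (S := H11.matSys Cfsg.Lie.chevF4 K) 2 (X := Subgroup.zpowers x.1)
    ((Subgroup.zpowers_le).2 hx) (IsPGroup.of_card (n := j) (by rw [Nat.card_zpowers, Subgroup.orderOf_coe, hj]))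
  have hu := hg _ (Subgroup.mem_zpowers _)
  have ht := H11.StSys.tri_of_mem_US (ψ := (![8, 15, 21, 11] : Fin 4 → ℤ)) zero_le_one (fun r hr => (aux2 r).1 hr) hu
  have h3 : ((g⁻¹ * x.1 * g).val - 1) ^ 32 = 0 := by
    ext a b
    by_contra e
    have := aux ht 32 a b e
    have h4 : ∀ c, -11 ≤ H11.deg (D := Cfsg.Lie.chevF4) (![8, 15, 21, 11] : Fin 4 → ℤ) c ∧
        H11.deg (D := Cfsg.Lie.chevF4) (![8, 15, 21, 11] : Fin 4 → ℤ) c ≤ 11 := by
      rintro (c | c)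
      · simp [H11.deg]
      · exact (aux2 c).2
    have := h4 a; have := h4 b; omega
  have h5 : (g⁻¹ * x.1 * g) ^ 32 = 1 := by
    apply Units.ext
    have : Nonempty Cfsg.Lie.chevF4.Idx := ⟨Sum.inl ⟨0, by decide⟩⟩
    have : CharP (Matrix Cfsg.Lie.chevF4.Idx Cfsg.Lie.chevF4.Idx K) 2 := Matrix.charP 2
    have := sub_pow_char_pow_of_commute (p := 2) (n := 5) (Commute.one_right (g⁻¹ * x.1 * g).val)
    rw [show 2 ^ 5 = 32 from rfl, h3, one_pow] at this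
    rw [Units.val_pow_eq_pow_val, Units.val_one, ← sub_eq_zero, ← this]
  have h6 : x ^ 32 = 1 := by
    apply Subtype.ext
    have : (g⁻¹ * x.1 * g) ^ 32 = g⁻¹ * x.1 ^ 32 * g := by simpa using conj_pow (a := g⁻¹) (b := x.1) (i := 32)
    rw [this] at h5
    have h7 : x.1 ^ 32 = g * (g⁻¹ * x.1 ^ 32 * g) * g⁻¹ := by group
    rw [h5] at h7; simpa using h7
  exact Nat.le_of_dvd (by norm_num) (orderOf_dvd_of_pow_eq_one h6)

end Cfsg.Agent.S2370
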