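import Cfsg.Statements.S2371
import Cfsg.Agent.H11.Tori
-- import your own Cfsg.Agent.* helpers here

set_option autoImplicit false
open Cfsg

namespace Cfsg.Agent.S2371
open H11 Cfsg.Lie

/-- torus data -/
def ct : CT := ⟨[[-2, -3], [1, 1]],
    [[-1, 1], [2, -1], [-1, 0]],
    [[1, 1], [2, 1]], [1, 1, 1]⟩

theorem reg (q : ℕ) (h : 3 ≤ q) : 6 ≤ q ∨ ∃ p N, fastG2.chkRegT ct q p N = true := by
  by_cases h6 : 6 ≤ q
  · exact .inl h6
  right; interval_cases q
  exacts [⟨[4, 5], 13, by decide +kernel⟩,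
    ⟨[5, 6], 21, by decide +kernel⟩,
    ⟨[6, 7], 31, by decide +kernel⟩]

/-- The group G₂(q), q ≥ 3, contains a cyclic subgroup of order q² + q + 1 which is its own centralizer. -/
theorem result {F : Type*} [Field F] [Fintype F] (q : ℕ) (hF : Fintype.card F = q) (hq : 3 ≤ q) :
    ∃ H : Subgroup ↥(Cfsg.Lie.chevG2.group F), IsCyclic ↥H ∧ Nat.card ↥H = q ^ 2 + q + 1 ∧
      Subgroup.centralizer (H : Set ↥(Cfsg.Lie.chevG2.group F)) = H := by
  subst hF
  obtain ⟨H, h1, h2, h3⟩ := selfcent_untw (K := F) agreeG2 ct [nd _ 1, nd _ 0, nd _ 1, nd _ 0] (by decide +kernel)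
    (reg _ hq) fun _ _ => torS_G2 _
  refine ⟨H, h1, ?_, h3⟩
  rw [kerG2, one_mul] at h2
  zify; rw [h2]; simp [pv, Finset.sum_range_succ, ct, fastG2]; ring

end Cfsg.Agent.S2371
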