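import Cfsg.Statements.S2372
import Cfsg.Agent.H11.Tori
-- import your own Cfsg.Agent.* helpers here

set_option autoImplicit false
open Cfsg

namespace Cfsg.Agent.S2372
open H11 Cfsg.Lie

/-- torus data -/
def ct : CT := ⟨[[1, 2, 4, 2], [-1, -1, -2, -2], [0, 0, 0, 1], [1, 1, 1, 0]],
    [[-1, 0, 0, 1], [1, 1, -1, 0], [-1, 0, 1, -1], [-1, 1, -1, 1], [1, 0, 0, -1]],
    [[1, 1, 0, -1], [2, 2, 1, -1], [3, 2, 1, -2], [2, 1, 0, -1]], [1, 0, 0, 0, 1]⟩

theorem reg (q : ℕ) (h : 2 ≤ q) : 6 ≤ q ∨ ∃ p N, fastF4.chkRegT ct q p N = true := by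
  by_cases h6 : 6 ≤ q
  · exact .inl h6
  right; interval_cases q
  exacts [⟨[-5, 2, -5, -4], 17, by decide +kernel⟩,
    ⟨[-23, -10, -36, -22], 82, by decide +kernel⟩,
    ⟨[-59, -38, -101, -58], 257, by decide +kernel⟩,
    ⟨[-119, -88, -212, -118], 626, by decide +kernel⟩]

/-- The group F₄(q) contains a cyclic subgroup of order q⁴ + 1 which is its own centralizer. -/
theorem result {F : Type*} [Field F] [Fintype F] (q : ℕ) (hF : Fintype.card F = q) :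
    ∃ H : Subgroup ↥(Cfsg.Lie.chevF4.group F), IsCyclic ↥H ∧ Nat.card ↥H = q ^ 4 + 1 ∧
      Subgroup.centralizer (H : Set ↥(Cfsg.Lie.chevF4.group F)) = H := by
  subst hF
  obtain ⟨H, h1, h2, h3⟩ := selfcent_untw (K := F) agreeF4 ct [nd _ 2, nd _ 3, nd _ 0, nd _ 1, nd _ 2, nd _ 1] (by decide +kernel)
    (reg _ Fintype.one_lt_card) fun _ _ => torS_F4 _
  refine ⟨H, h1, ?_, h3⟩
  rw [kerF4, one_mul] at h2
  zify; rw [h2]; simp [pv, Finset.sum_range_succ, ct, fastF4]; ring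

end Cfsg.Agent.S2372
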