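import Cfsg.Statements.S2374
import Cfsg.Agent.H11.Tori
-- import your own Cfsg.Agent.* helpers here

set_option autoImplicit false
open Cfsg

namespace Cfsg.Agent.S2374
open H11 Cfsg.Lie

/-- torus data -/
def ct : CT := ⟨[[0, 1, 1, 1, 1, 1, 1], [1, 1, 1, 1, 0, 0, 0], [0, 0, 0, 1, 0, 0, 0], [0, -1, 0, -1, 0, 0, 0], [-1, 0, -1, -1, -1, -1, -1], [1, 1, 1, 2, 2, 1, 1], [0, 0, 0, 0, 0, 1, 0]],
    [[0, 0, 0, 0, 0, 0, 1], [0, 0, 0, 0, 0, 1, -1], [0, 0, 0, 0, 1, -1, 0], [-1, 0, 1, 0, 0, 0, -1], [0, -1, 0, 1, 0, -1, 0], [-1, -1, 1, 0, 0, 0, 0], [0, -1, -1, 1, 0, 0, 0], [0, 0, 0, -1, 1, 0, 0]],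
    [[0, 1, 0, -1, 1, 0, -1], [1, 0, 0, 1, 0, -1, 0], [1, 1, 0, 0, 1, 0, -1], [2, 1, 0, 1, 1, -1, 0], [1, 1, 1, 0, 0, 0, 0], [1, 1, 0, 0, 0, 0, 0], [1, 0, 0, 0, 0, 0, 0]], [1, 0, -1, 1, 1, -1, 0, 1]⟩

theorem reg (q : ℕ) (h : 2 ≤ q) : 6 ≤ q ∨ ∃ p N, fastE7.chkRegT ct q p N = true := by
  by_cases h6 : 6 ≤ q
  · exact .inl h6
  right; interval_cases q
  exacts [⟨[-54, -23, -45, -4, 7, 3, 1], 117, by decide +kernel⟩,
    ⟨[-672, -215, -644, -130, 13, 4, 1], 2044, by decide +kernel⟩,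
    ⟨[-3900, -959, -3835, -698, 21, 5, 1], 15665, by decide +kernel⟩,
    ⟨[-15120, -2999, -14994, -2368, 31, 6, 1], 75726, by decide +kernel⟩]

/-- The group E₇(q) (the simple Chevalley group of type E₇) contains a cyclic subgroup of order (q⁴ − q² + 1)(q³ + 1)/gcd(2, q − 1) which is its own centralizer. -/
theorem result {F : Type*} [Field F] [Fintype F] (q : ℕ) (hF : Fintype.card F = q) :
    ∃ H : Subgroup ↥(Cfsg.Lie.chevE7.group F), IsCyclic ↥H ∧ Nat.card ↥H = (q ^ 4 - q ^ 2 + 1) * (q ^ 3 + 1) / Nat.gcd 2 (q - 1) ∧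
      Subgroup.centralizer (H : Set ↥(Cfsg.Lie.chevE7.group F)) = H := by
  subst hF
  obtain ⟨H, h1, h2, h3⟩ := selfcent_untw (K := F) agreeE7 ct [nd _ 1, nd _ 3, nd _ 6, nd _ 1, nd _ 5, nd _ 0, nd _ 4, nd _ 3, nd _ 6, nd _ 1, nd _ 2, nd _ 6, nd _ 3, nd _ 4, nd _ 2] (by decide +kernel)
    (reg _ Fintype.one_lt_card) fun _ _ => torS_sgE7
  refine ⟨H, h1, ?_, h3⟩
  rw [kerE7, Nat.card_units, Nat.card_eq_fintype_card] at h2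
  have h4 : Fintype.card F ^ 2 ≤ Fintype.card F ^ 4 := Nat.pow_le_pow_right Fintype.card_pos (by decide)
  refine (Nat.div_eq_of_eq_mul_right (Nat.gcd_pos_of_pos_left _ (by decide)) ?_).symm
  zify [h4] at h2 ⊢
  rw [h2]; simp [pv, Finset.sum_range_succ, ct, fastE7]; ring

end Cfsg.Agent.S2374
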