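import Cfsg.Statements.S2376
import Cfsg.Agent.H11.Tori
-- import your own Cfsg.Agent.* helpers here

set_option autoImplicit false
open Cfsg

namespace Cfsg.Agent.S2376
open H11 Cfsg.Lie

/-- torus data -/
def ct : CT := ⟨[[0, 1, 1, 0], [0, -1, 0, 0], [0, 1, 0, 1], [1, 1, 0, 0]],
    [[0, -1, 0, 1], [0, 1, -1, -1], [0, -1, 1, 0], [-1, 1, -1, 0], [1, -1, 0, 0]],
    [[0, 0, -1, -1], [-1, -1, -1, 0], [-1, -1, 0, 0], [0, -1, -1, 0]], [-1, -1, 0, 1, 1]⟩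

theorem reg (q : ℕ) (h : 2 ≤ q) : 6 ≤ q ∨ ∃ p N, fastD4.chkRegT ct q p N = true := by
  by_cases h6 : 6 ≤ q
  · exact .inl h6
  right; interval_cases q
  exacts [⟨[-12, -7, -3, -6], 21, by decide +kernel⟩,
    ⟨[-36, -13, -4, -12], 104, by decide +kernel⟩,
    ⟨[-80, -21, -5, -20], 315, by decide +kernel⟩,
    ⟨[-150, -31, -6, -30], 744, by decide +kernel⟩]

/-- The group ³D₄(q) contains a cyclic subgroup of order (q³ − 1)(q + 1) which is its own centralizer. -/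
theorem result {K : Type*} [Field K] [Fintype K] (q : ℕ) (hq : IsPrimePow q) (hK : Fintype.card K = q ^ 3) :
    ∃ H : Subgroup ↥(Cfsg.Lie.twistedD4 K q), IsCyclic ↥H ∧ Nat.card ↥H = (q ^ 3 - 1) * (q + 1) ∧
      Subgroup.centralizer (H : Set ↥(Cfsg.Lie.twistedD4 K q)) = H := by
  obtain ⟨H, h1, h2, h3⟩ := selfcent_D4 hq hK ct [nd _ 1] (by decide +kernel) (reg q hq.two_le)
  refine ⟨H, h1, ?_, h3⟩
  zify [Nat.one_le_pow _ _ hq.pos]; rw [h2]; simp [pv, Finset.sum_range_succ, ct]; ring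

end Cfsg.Agent.S2376
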