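import Mathlib
import Cfsg.Statements.S2383
import Cfsg.Agent.H12.RiLie
import Cfsg.Agent.H11.PoinAll

set_option autoImplicit false
open Cfsg

namespace Cfsg.Agent.S2383

/-- Steinberg's count of semisimple classes in characteristic 2 for the types B₂, D₄, E₇, where the finite simply connected group has trivial centre and so coincides with the Chevalley group: for the Chevalley group of type B₂, D₄ or E₇ over a field with `q` elements of characteristic 2, the conjugacy classes of elements of odd order number exactly `q^l`, `l` the rank. -/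
theorem result {F : Type*} [Field F] [Fintype F] {q : ℕ} (hq : Fintype.card F = q) [CharP F 2]
    (D : Cfsg.Lie.ChevalleyDatum) (hD : D ∈ [Cfsg.Lie.chevB2, Cfsg.Lie.chevD4, Cfsg.Lie.chevE7]) :
    Nat.card {c : ConjClasses ↥(D.group F) // ∃ g : ↥(D.group F), ConjClasses.mk g = c ∧ Odd (orderOf g)} = q ^ D.rank := by
  simp only [List.mem_cons, List.not_mem_nil, or_false] at hD
  have h : Nat.gcd 2 (Nat.card Fˣ) = 1 := by
    rw [Nat.card_units, Nat.card_eq_fintype_card]
    have := FiniteField.even_card_of_char_two (F := F) (ringChar.eq F 2)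
    have := Fintype.card_pos (α := F)
    exact Nat.coprime_two_left.2 (Nat.odd_iff.2 (by omega))
  simp only [← Nat.coprime_two_right]
  rw [← hq, ← Nat.card_eq_fintype_card]
  rcases hD with rfl | rfl | rfl
  · exact H12.Ri.card_ss 2 (H11.grpSys_grp _ F) (by rw [H11.kerB2, h])
  · exact H12.Ri.card_ss 2 (H11.grpSys_grp _ F) (by rw [H11.kerD4, h]; rfl)
  · exact H12.Ri.card_ss 2 (H11.grpSys_grp _ F) (by rw [H11.kerE7, h])

end Cfsg.Agent.S2383
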