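import Cfsg.Statements.S2384
import Cfsg.Agent.H24.Sim3
-- import your own Cfsg.Agent.* helpers here

set_option autoImplicit false
open Cfsg

namespace Cfsg.Agent.S2384

/-- In `SL_n(q)`, `q` a power of the prime `p`, the number of conjugacy classes of elements of order prime to `p` (the semisimple classes) is `q^(n-1)`. -/
theorem result {F : Type*} [Field F] [Fintype F] {q : ℕ} (hq : Fintype.card F = q) (p : ℕ) [Fact p.Prime] [CharP F p] (n : ℕ) (hn : 1 ≤ n) :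
    Nat.card {c : ConjClasses (Matrix.SpecialLinearGroup (Fin n) F) //
      ∃ g : Matrix.SpecialLinearGroup (Fin n) F, ConjClasses.mk g = c ∧ (orderOf g).Coprime p} = q ^ (n - 1) := by
  obtain ⟨m, rfl⟩ : ∃ m, n = m + 1 := ⟨n - 1, by omega⟩
  have h0 : ∀ A : Matrix (Fin (m + 1)) (Fin (m + 1)) F, A.det = 1 ↔ A.charpoly.coeff 0 = (-1) ^ (m + 1) := fun A => by
    rw [Matrix.det_eq_sign_charpoly_coeff, Fintype.card_fin]
    rcases neg_one_pow_eq_or F (m + 1) with h | h <;> rw [h] <;> simp [neg_eq_iff_eq_neg]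
  have h1 := H24.Sim.card_monic (F := F) m (fun c => c = (-1) ^ (m + 1))
  rw [Nat.card_unique (α := {c : F // c = (-1) ^ (m + 1)}), hq, one_mul] at h1
  rw [Nat.add_sub_cancel, ← h1]
  have key : ∀ a : Matrix.SpecialLinearGroup (Fin (m + 1)) F, (orderOf a).Coprime p ↔
      ∀ f ∈ H24.Sim.typ (a : Matrix (Fin (m + 1)) (Fin (m + 1)) F), Irreducible f := fun a => by
    rw [← orderOf_injective Matrix.SpecialLinearGroup.toGL Matrix.SpecialLinearGroup.toGL_injective a]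
    exact H24.Sim.coprime_iff_typ p _
  refine H24.Sim.card_eq_of_ker (α := {g : Matrix.SpecialLinearGroup (Fin (m + 1)) F // (orderOf g).Coprime p})
    (φ := fun g => ⟨ConjClasses.mk g.1, g.1, rfl, g.2⟩)
    (ψ := fun g => ⟨(g.1 : Matrix (Fin (m + 1)) (Fin (m + 1)) F).charpoly, Matrix.charpoly_monic _, by simp,
      (h0 _).1 g.1.det_coe⟩) ?_ ?_ ?_
  · rintro ⟨_, g, rfl, hg⟩; exact ⟨⟨g, hg⟩, rfl⟩
  · rintro ⟨f, h1, h2, h3⟩
    obtain ⟨A, hA, rfl⟩ := H24.Sim.exists_irred_typ (n := Fin (m + 1)) h1 (by simpa using h2)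
    exact ⟨⟨⟨A, (h0 A).2 h3⟩, (key _).2 hA⟩, rfl⟩
  · rintro ⟨g, hg⟩ ⟨h, hh⟩
    simp only [Subtype.mk.injEq, ConjClasses.mk_eq_mk_iff_isConj]
    refine ⟨fun hc => ?_, fun hc => H24.Sim.isConj_SL_of (H24.Sim.isConj_of_charpoly ((key g).1 hg) ((key h).1 hh) hc)
      fun c _ => H24.Sim.det_surj_of_irred ((key g).1 hg) c⟩
    rw [← H24.Sim.prod_typ, ← H24.Sim.prod_typ, (H24.Sim.typ_eq_iff _ _).2 (H24.Sim.isConj_of_SL hc)]

end Cfsg.Agent.S2384
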