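import Cfsg.Statements.S2589
import Cfsg.Agent.H24.Adj
-- import your own Cfsg.Agent.* helpers here

set_option autoImplicit false
open Cfsg

namespace Cfsg.Agent.S2589

/-- Two semisimple elements of the finite symplectic group Sp_2m(F) (elements of order prime to the characteristic) are conjugate in Sp_2m(F) if and only if they are conjugate in GL_2m(F). -/
theorem result {F : Type*} [Field F] [Fintype F] {p : ℕ} [Fact p.Prime] [CharP F p] {m : ℕ} (A B : Matrix.symplecticGroup (Fin m) F) (hA : (orderOf A).Coprime p) : IsConj A B ↔ IsConj (A : Matrix (Fin m ⊕ Fin m) (Fin m ⊕ Fin m) F) (B : Matrix (Fin m ⊕ Fin m) (Fin m ⊕ Fin m) F) := by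
  refine ⟨(Matrix.symplecticGroup (Fin m) F).subtype.map_isConj, fun h => ?_⟩
  obtain ⟨k, hk⟩ := (H24.Sim.isConj_iff_iso _ _).1 h
  refine (H24.Wall.isConj_equiv_iff (H09.spIsomEquiv (Fin m) F) _ _).1 (H24.Adj.isConj_altF H09.isAltF_spForm
    (H24.Adj.semisimple_of_pow (n := orderOf A) ?_ ?_) k hk)
  · rw [ne_eq, CharP.cast_eq_zero_iff F p]; exact (Nat.Prime.coprime_iff_not_dvd Fact.out).1 hA.symm
  · have e : ((H09.spIsomEquiv (Fin m) F A).1 : Module.End F _) = Matrix.toLin' A.1 := LinearMap.ext fun _ => rfl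
    rw [e, ← Matrix.toLin'_pow, ← SubmonoidClass.coe_pow, pow_orderOf_eq_one]
    exact Matrix.toLin'_one

end Cfsg.Agent.S2589
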