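import Cfsg.Statements.S2385
import Cfsg.Agent.S2389
import Cfsg.Agent.H24.Cyc
-- import your own Cfsg.Agent.* helpers here

set_option autoImplicit false
open Cfsg

namespace Cfsg.Agent.S2385

/-- In the symplectic group `Sp_{2n}(q)`, `q` a power of the prime `p`, the number of conjugacy classes of elements of order prime to `p` is `q^n`. -/
theorem result {F : Type*} [Field F] [Fintype F] {q : ℕ} (hq : Fintype.card F = q) (p : ℕ) [Fact p.Prime] [CharP F p] (n : ℕ) :
    Nat.card {c : ConjClasses ↥(Matrix.symplecticGroup (Fin n) F) //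
      ∃ g : ↥(Matrix.symplecticGroup (Fin n) F), ConjClasses.mk g = c ∧ (orderOf g).Coprime p} = q ^ n := by
  classical
  open Polynomial in
  subst hq
  let ch : ConjClasses (Matrix.symplecticGroup (Fin n) F) → F[X] := Quotient.lift (fun g => g.1.charpoly) fun g h hc => by
    rw [← H24.Sim.prod_typ, ← H24.Sim.prod_typ]
    exact congrArg _ ((H24.Sim.typ_eq_iff _ _).2 ((Matrix.symplecticGroup (Fin n) F).subtype.map_isConj hc))
  have hch : ∀ g, ch (ConjClasses.mk g) = g.1.charpoly := fun _ => rfl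
  apply le_antisymm
  · rw [show Fintype.card F ^ n = Nat.card (Fin n → F) by simp]
    refine Nat.card_le_card_of_injective (fun c i => (ch c.1).coeff (i + 1)) ?_
    rintro ⟨_, g, rfl, hg⟩ ⟨_, h, rfl, hh⟩ hc
    refine Subtype.ext (ConjClasses.mk_eq_mk_iff_isConj.2 (Cfsg.Agent.S2389.result p n g h hg hh ?_))
    have e : ∀ (g : Matrix.symplecticGroup (Fin n) F) i, i ≤ n + n → g.1.charpoly.coeff i = g.1.charpoly.coeff (n + n - i) :=
      fun g i hi => by
        conv_lhs => rw [← H24.Adj.charpoly_sp_reverse, coeff_reverse]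
        simp [revAt_le hi]
    have e2 : ∀ (g : Matrix.symplecticGroup (Fin n) F), g.1.charpoly.coeff (n + n) = 1 := fun g => by
      simpa using g.1.charpoly_monic.coeff_natDegree
    have h1 : ∀ i, i ≤ n → g.1.charpoly.coeff i = h.1.charpoly.coeff i := by
      rintro (_ | i) hi
      · rw [e g 0 (by omega), e h 0 (by omega), Nat.sub_zero, e2, e2]
      · exact congrFun hc ⟨i, by omega⟩
    ext i
    by_cases h2 : i ≤ n
    · exact h1 i h2
    by_cases h3 : i ≤ n + n
    · rw [e g i h3, e h i h3, h1 _ (by omega)]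
    · rw [coeff_eq_zero_of_natDegree_lt (by simp; omega), coeff_eq_zero_of_natDegree_lt (by simp; omega)]
  · have h0 : Nat.card {f : F[X] // f.Monic ∧ f.natDegree = n} = Fintype.card F ^ n := by
      rw [Nat.card_congr ((monicEquivDegreeLT n).trans (degreeLTEquiv F n).toEquiv)]; simp
    rw [← h0]
    choose A e hA using fun f : {f : F[X] // f.Monic ∧ f.natDegree = n} => H24.Adj.exists_sp_cyc f.2.1 f.2.2
    let N := Nat.card (Matrix.symplecticGroup (Fin n) F)
    obtain ⟨k, -, hk⟩ := FiniteField.card F p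
    have c1 : ∀ g : Matrix.symplecticGroup (Fin n) F, (orderOf (g ^ Fintype.card F ^ N)).Coprime p := fun g => by
      have hp : p.Prime := Fact.out
      obtain ⟨a, m, hm, ho⟩ := Nat.exists_eq_pow_mul_and_not_dvd (orderOf_pos g).ne' p hp.ne_one
      refine Nat.Coprime.coprime_dvd_left (orderOf_dvd_of_pow_eq_one ?_) ((Nat.Prime.coprime_iff_not_dvd hp).2 hm).symm
      rw [← pow_mul, ← orderOf_dvd_iff_pow_eq_one, ho, hk, ← pow_mul]
      refine Nat.mul_dvd_mul_right (pow_dvd_pow p ?_) m
      have h1 : a < p ^ a := Nat.lt_pow_self hp.one_lt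
      have h2 : p ^ a ≤ orderOf g := Nat.le_of_dvd (orderOf_pos g) ⟨m, ho⟩
      have h3 : orderOf g ≤ N := orderOf_le_card
      have h4 : N ≤ k * N := Nat.le_mul_of_pos_left _ k.2
      omega
    have c2 : ∀ (M : Matrix (Fin n ⊕ Fin n) (Fin n ⊕ Fin n) F) j, (M ^ Fintype.card F ^ j).charpoly = M.charpoly :=
      fun M j => by
        induction j with
        | zero => simp
        | succ j ih => rw [pow_succ, pow_mul, FiniteField.Matrix.charpoly_pow_card, ih]
    have c3 : ∀ f, ((A f).1 + ((A f)⁻¹).1).charpoly = f.1 ^ 2 := fun f => by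
      haveI := H24.Sim.finite_adjoinRoot f.2.1.ne_zero
      rw [← Matrix.charpoly_toLin', pow_two, ← H24.Sim.charpoly_root f.2.1, ← LinearMap.charpoly_prodMap]
      refine (H24.Sim.Iso.charpoly ⟨e f, fun ⟨a, b⟩ => ?_⟩).symm
      have : ((A f)⁻¹).1.mulVec (e f (a, b)) = e f (b, AdjoinRoot.root f.1 * b - a) := by
        conv_lhs => rw [show e f (a, b) = (A f).1.mulVec (e f (b, AdjoinRoot.root f.1 * b - a)) by simp [hA]]
        rw [Matrix.mulVec_mulVec, ← Submonoid.coe_mul, inv_mul_cancel]; simp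
      rw [Matrix.toLin'_apply, Matrix.add_mulVec, hA, this, ← map_add]; simp
    refine Nat.card_le_card_of_injective (fun f => ⟨ConjClasses.mk (A f ^ Fintype.card F ^ N), _, rfl, c1 _⟩)
      fun f g h => ?_
    obtain ⟨c, hc⟩ := isConj_iff.1 (ConjClasses.mk_eq_mk_iff_isConj.1 (congrArg Subtype.val h))
    have c4 : ∀ g : Matrix.symplecticGroup (Fin n) F, (g.1 + (g⁻¹).1) ^ Fintype.card F ^ N =
        (g ^ Fintype.card F ^ N).1 + ((g ^ Fintype.card F ^ N)⁻¹).1 := fun g => by
      rw [← inv_pow, hk, ← pow_mul]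
      rcases isEmpty_or_nonempty (Fin n ⊕ Fin n) with h | h
      · exact Subsingleton.elim _ _
      exact add_pow_char_pow_of_commute p _ (((Commute.refl g).inv_right).map (Matrix.symplecticGroup (Fin n) F).subtype)
    have c5 : f.1 ^ 2 = g.1 ^ 2 := by
      rw [← c3, ← c3, ← c2 _ N, ← c2 (_ + (A g)⁻¹.1) N, c4, c4, ← hc, conj_inv, Submonoid.coe_mul, Submonoid.coe_mul,
        Submonoid.coe_mul, Submonoid.coe_mul, ← add_mul, ← mul_add, Matrix.charpoly_mul_comm (_ * _), ← mul_assoc,
        ← Submonoid.coe_mul, inv_mul_cancel]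
      simp
    refine Subtype.ext ((sq_eq_sq_iff_eq_or_eq_neg.1 c5).elim id fun h => ?_)
    have := congrArg leadingCoeff h
    rw [leadingCoeff_neg, f.2.1, g.2.1] at this
    rw [h, ← neg_one_mul, ← C_1, ← C_neg, ← this]; simp

end Cfsg.Agent.S2385
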