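import Cfsg.Statements.S2390
import Cfsg.Agent.H24.Adj
-- import your own Cfsg.Agent.* helpers here

set_option autoImplicit false
open Cfsg

namespace Cfsg.Agent.S2390

/-- In the special unitary group `SU_n(q)` (inside `SL_n` over the field with `q²` elements), `q` a power of the prime `p`, two elements of order prime to `p` with the same characteristic polynomial are conjugate in `SU_n(q)`. -/
theorem result {F : Type*} [Field F] [Fintype F] {q : ℕ} (hF : Fintype.card F = q ^ 2) (p : ℕ) [Fact p.Prime] [CharP F p] (n : ℕ)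
    (g h : ↥(Cfsg.SU n F q)) (hg : (orderOf g).Coprime p) (hh : (orderOf h).Coprime p)
    (hc : ((g : Matrix.SpecialLinearGroup (Fin n) F) : Matrix (Fin n) (Fin n) F).charpoly =
      ((h : Matrix.SpecialLinearGroup (Fin n) F) : Matrix (Fin n) (Fin n) F).charpoly) : IsConj g h := by
  have hK := Nat.card_eq_fintype_card.trans hF
  have e : ∀ a : Cfsg.SU n F q, a.1.1 ^ orderOf a = 1 := fun a =>
    congrArg (fun x : Cfsg.SU n F q => x.1.1) (pow_orderOf_eq_one a)
  rcases Nat.eq_zero_or_pos n with rfl | hn
  · rw [Subsingleton.elim g h]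
  exact H24.Uni.isConj_SU_of hK (H24.Sim.isConj_of_charpoly (H24.Sim.irred_of_pow_eq_one p hg (e g))
    (H24.Sim.irred_of_pow_eq_one p hh (e h)) hc) (H24.Adj.exists_unitary_det hK p hn (H24.Uni.toGU F q n g) hg (e g))

end Cfsg.Agent.S2390
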