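import Cfsg.Statements.S2386
import Cfsg.Agent.S2390
-- import your own Cfsg.Agent.* helpers here

set_option autoImplicit false
open Cfsg

namespace Cfsg.Agent.S2386

open Polynomial in
theorem card_selfdual {K : Type*} [Field K] [Finite K] {q : ℕ} (hK : Nat.card K = q ^ 2) {n : ℕ} (hn : 1 ≤ n) :
    Nat.card {f : K[X] // f.Monic ∧ f.natDegree = n ∧ f = (-1) ^ n * (f.map (H10.conj hK)).reverse} = q ^ (n - 1) := by
  classical
  set σ := H10.conj hK
  have σσ : ∀ a, σ (σ a) = a := H10.conj_conj hK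
  let τ : (Fin (n + 1) → K) →+ (Fin (n + 1) → K) := AddMonoidHom.mk' (fun a i => (-1) ^ n * σ (a i.rev))
    fun a b => by ext i; simp [mul_add]
  have hτ : ∀ a i, τ a i = (-1) ^ n * σ (a i.rev) := fun _ _ => rfl
  have ττ : ∀ a, τ (τ a) = a := fun a => by ext i; simp [hτ, σσ, ← mul_assoc, ← mul_pow]
  have τs : ∀ (c : K) a, τ (c • a) = σ c • τ a := fun c a => by ext i; simp [hτ]; ring
  let W := τ.eqLocus (AddMonoidHom.id _)
  have hW : ∀ a, a ∈ W ↔ τ a = a := fun _ => Iff.rfl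
  have key : ∀ f : K[X], f.natDegree = n → (f = (-1) ^ n * (f.map σ).reverse ↔ (fun i : Fin (n + 1) => f.coeff i) ∈ W) :=
    fun f hf => by
    have e : ∀ i, ((-1) ^ n * (f.map σ).reverse).coeff i = (-1) ^ n * σ (f.coeff (revAt n i)) := fun i => by
      rw [← C_1, ← C_neg, ← C_pow, coeff_C_mul, coeff_reverse, natDegree_map, hf, coeff_map]
    rw [hW]
    constructor
    · intro h; ext i
      rw [hτ]; conv_rhs => rw [h, e, revAt_le (by omega)]
      simp [Fin.val_rev]
    · intro h; ext i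
      rw [e]
      by_cases hi : i ≤ n
      · have := congrFun h ⟨i, by omega⟩
        rw [hτ] at this
        rw [revAt_le hi]; simpa [Fin.val_rev] using this.symm
      · rw [revAt_eq_self_of_lt (by omega), coeff_eq_zero_of_natDegree_lt (by omega)]; simp
  obtain ⟨θ, -, hθ⟩ := H24.Uni.exists_theta hK
  have c1 : Nat.card W = q ^ (n + 1) := by
    have : Nat.card (W × W) = Nat.card (Fin (n + 1) → K) := Nat.card_congr (Equiv.ofBijective
      (fun x => x.1.1 + θ • x.2.1) ⟨fun x y h => ?_, fun v => ?_⟩)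
    · rw [Nat.card_prod, Nat.card_fun, hK, Nat.card_eq_fintype_card (α := Fin _), Fintype.card_fin, ← pow_mul, mul_comm 2,
        pow_mul, ← pow_two] at this
      exact Nat.pow_left_injective two_ne_zero this
    · have h1 := congrArg τ h
      simp only [map_add, τs, (hW _).1 x.1.2, (hW _).1 x.2.2, (hW _).1 y.1.2, (hW _).1 y.2.2] at h1
      have h2 : x.2.1 = y.2.1 := smul_right_injective _ hθ (by
        simp only [sub_smul]; linear_combination (norm := module) h - h1)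
      simp only [h2, add_left_inj] at h
      exact Prod.ext (Subtype.ext h) (Subtype.ext h2)
    · have h1 : (θ - σ θ)⁻¹ • (v - τ v) ∈ W := by
        rw [hW, τs, map_sub, ττ, map_inv₀, map_sub, σσ, ← neg_sub θ, inv_neg, neg_smul, ← smul_neg, neg_sub]
      refine ⟨⟨⟨v - θ • ((θ - σ θ)⁻¹ • (v - τ v)), ?_⟩, ⟨_, h1⟩⟩, by simp⟩
      rw [hW, map_sub, τs, (hW _).1 h1, sub_eq_sub_iff_sub_eq_sub, ← sub_smul, smul_smul, ← neg_sub θ, neg_mul,
        mul_inv_cancel₀ hθ]
      simp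
  let π : W →+ K := (Pi.evalAddMonoidHom _ (Fin.last n)).comp W.subtype
  have hπ : Function.Surjective π := fun c => ⟨⟨Pi.single (Fin.last n) c + τ (Pi.single (Fin.last n) c), by
    rw [hW, map_add, ττ]; exact add_comm _ _⟩, by
    have : (0 : Fin (n + 1)) ≠ Fin.last n := by simp [Fin.ext_iff]; omega
    simp [π, hτ, Pi.single_eq_of_ne this]⟩
  have c2 : Nat.card (π ⁻¹' {1}) = q ^ (n - 1) := by
    have h1 := π.ker.card_mul_index
    rw [AddSubgroup.index_ker, AddMonoidHom.range_eq_top.2 hπ, AddSubgroup.card_top, hK, c1,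
      show q ^ (n + 1) = q ^ (n - 1) * q ^ 2 by rw [← pow_add]; congr 1; omega] at h1
    rw [Nat.card_congr (π.fiberEquivKerOfSurjective hπ 1)]
    exact Nat.eq_of_mul_eq_mul_right (pow_pos (by have := H10.two_le_q hK; omega) 2) h1
  rw [← c2]
  refine Nat.card_congr (Equiv.ofBijective (fun f => ⟨⟨_, (key f.1 f.2.2.1).1 f.2.2.2⟩, ?_⟩) ⟨fun f g h => ?_, fun a => ?_⟩)
  · change f.1.coeff n = 1
    exact (congrArg f.1.coeff f.2.2.1).symm.trans f.2.1
  · refine Subtype.ext (Polynomial.ext fun i => ?_)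
    by_cases hi : i ≤ n
    · exact congrFun (congrArg (fun x => x.1.1) h) ⟨i, by omega⟩
    · rw [coeff_eq_zero_of_natDegree_lt (by rw [f.2.2.1]; omega), coeff_eq_zero_of_natDegree_lt (by rw [g.2.2.1]; omega)]
  · have h1 : (ofFn (n + 1) a.1.1).coeff n = 1 := (ofFn_coeff_eq_val_of_lt _ (by omega)).trans a.2
    have h2 : (ofFn (n + 1) a.1.1).natDegree = n :=
      natDegree_eq_of_le_of_coeff_ne_zero (Nat.le_of_lt_succ (ofFn_natDegree_lt (by omega) _)) (by simp [h1])
    have h3 : (fun i : Fin (n + 1) => (ofFn (n + 1) a.1.1).coeff i) = a.1.1 :=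
      funext fun i => ofFn_coeff_eq_val_of_lt _ i.2
    exact ⟨⟨ofFn (n + 1) a.1.1, by rw [Monic, leadingCoeff, h2, h1], h2, (key _ h2).2 (by rw [h3]; exact a.1.2)⟩,
      Subtype.ext (Subtype.ext h3)⟩

/-- In the special unitary group `SU_n(q)` (matrices of determinant one over the field with `q²` elements preserving the standard Hermitian form), `q` a power of the prime `p`, the number of conjugacy classes of elements of order prime to `p` is `q^(n-1)`. -/
theorem result {F : Type*} [Field F] [Fintype F] {q : ℕ} (hF : Fintype.card F = q ^ 2) (p : ℕ) [Fact p.Prime] [CharP F p] (n : ℕ) (hn : 1 ≤ n) :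
    Nat.card {c : ConjClasses ↥(Cfsg.SU n F q) // ∃ g : ↥(Cfsg.SU n F q), ConjClasses.mk g = c ∧ (orderOf g).Coprime p} = q ^ (n - 1) := by
  have hK := Nat.card_eq_fintype_card.trans hF
  rw [← card_selfdual hK hn]
  have key : ∀ A : Matrix (Fin n) (Fin n) F, A.det = 1 →
      (H24.Uni.st hK A)⁻¹.charpoly = (-1) ^ n * (A.charpoly.map (H10.conj hK)).reverse := fun A hA => by
    rw [Matrix.charpoly_inv _ (H24.Uni.isUnit_st hK ((Matrix.isUnit_iff_isUnit_det _).2 (by simp [hA]))),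
      H24.Uni.det_st, hA, ← Matrix.reverse_charpoly, H24.Uni.st_apply, Matrix.charpoly_transpose, Matrix.charpoly_map]
    simp
  refine H24.Sim.card_eq_of_ker (α := {g : Cfsg.SU n F q // (orderOf g).Coprime p})
    (φ := fun g => ⟨ConjClasses.mk g.1, g.1, rfl, g.2⟩)
    (ψ := fun g => ⟨g.1.1.1.charpoly, Matrix.charpoly_monic _, by simp, by
      rw [← key _ g.1.1.det_coe, Matrix.inv_eq_right_inv ((H24.Uni.mem_SU_iff hK _).1 g.1.2)]⟩) ?_ ?_ ?_
  · rintro ⟨_, g, rfl, hg⟩; exact ⟨⟨g, hg⟩, rfl⟩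
  · rintro ⟨f, h1, h2, h3⟩
    obtain ⟨A, hA, rfl⟩ := H24.Sim.exists_irred_typ (n := Fin n) h1 (by simpa using h2)
    have hd : A.det = 1 := by
      rw [Matrix.det_eq_sign_charpoly_coeff, h3, ← Polynomial.C_1, ← Polynomial.C_neg, ← Polynomial.C_pow,
        Polynomial.coeff_C_mul, Polynomial.coeff_zero_reverse, (h1.map _).leadingCoeff]
      simp [← mul_pow]
    obtain ⟨a, rfl⟩ : IsUnit A := (Matrix.isUnit_iff_isUnit_det _).2 (by simp [hd])
    have ha := (H24.Sim.coprime_iff_typ p a).2 hA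
    obtain ⟨b, hb⟩ := (H24.Uni.exists_GU_iff hK a).2 (H24.Sim.isConj_of_charpoly hA
      (H24.Sim.irred_of_pow_eq_one p ha (by
        rw [H24.Uni.st_inv, ← H24.Uni.st_pow, ← Units.val_pow_eq_pow_val, inv_pow, pow_orderOf_eq_one]
        simp [H24.Uni.st_one])) (h3.trans (key _ hd).symm))
    have e := (H24.Sim.typ_eq_iff _ _).2 ((H24.Sim.isConj_GL_iff _ _).1 hb)
    have e2 : b.1.1.charpoly = a.1.charpoly := by rw [← H24.Sim.prod_typ, ← H24.Sim.prod_typ, e]
    have hd' : b.1.1.det = 1 := by rw [Matrix.det_eq_sign_charpoly_coeff, e2, ← Matrix.det_eq_sign_charpoly_coeff, hd]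
    refine ⟨⟨⟨⟨b.1.1, hd'⟩, b.2⟩, ?_⟩, Subtype.ext e2⟩
    rw [← orderOf_injective _ H24.Uni.toGU_injective, ← Subgroup.orderOf_coe]
    exact (H24.Sim.coprime_iff_typ p _).2 (e ▸ hA)
  · rintro ⟨g, hg⟩ ⟨h, hh⟩
    simp only [Subtype.mk.injEq, ConjClasses.mk_eq_mk_iff_isConj]
    refine ⟨fun hc => ?_, Cfsg.Agent.S2390.result hF p n g h hg hh⟩
    rw [← H24.Sim.prod_typ, ← H24.Sim.prod_typ]
    exact congrArg _ ((H24.Sim.typ_eq_iff _ _).2 (H24.Sim.isConj_of_SL ((Cfsg.SU n F q).subtype.map_isConj hc)))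

end Cfsg.Agent.S2386
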