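import Cfsg.Statements.S2387
import Cfsg.Agent.H24.Sim3
-- import your own Cfsg.Agent.* helpers here

set_option autoImplicit false
open scoped MatrixGroups
open Cfsg

namespace Cfsg.Agent.S2387

/-- In `GL_n(q)` with `n ≥ 1`, `q` a power of the prime `p`, the number of conjugacy classes of elements of order prime to `p` (diagonalisable over the algebraic closure; determined by the characteristic polynomial) is `(q - 1) q^(n-1)`. -/
theorem result {F : Type*} [Field F] [Fintype F] {q : ℕ} (hq : Fintype.card F = q) (p : ℕ) [Fact p.Prime] [CharP F p] (n : ℕ) (hn : 1 ≤ n) :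
    Nat.card {c : ConjClasses (GL (Fin n) F) // ∃ g : GL (Fin n) F, ConjClasses.mk g = c ∧ (orderOf g).Coprime p} = (q - 1) * q ^ (n - 1) := by
  obtain ⟨m, rfl⟩ : ∃ m, n = m + 1 := ⟨n - 1, by omega⟩
  have h0 : ∀ A : Matrix (Fin (m + 1)) (Fin (m + 1)) F, IsUnit A ↔ A.charpoly.coeff 0 ≠ 0 := fun A => by
    rw [Matrix.isUnit_iff_isUnit_det, Matrix.det_eq_sign_charpoly_coeff, isUnit_iff_ne_zero]; simp
  have h1 := H24.Sim.card_monic (F := F) m (fun c => c ≠ 0)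
  rw [← Nat.card_congr unitsEquivNeZero, Nat.card_units, Nat.card_eq_fintype_card (α := F), hq] at h1
  rw [Nat.add_sub_cancel, ← h1]
  refine H24.Sim.card_eq_of_ker (α := {g : GL (Fin (m + 1)) F // (orderOf g).Coprime p})
    (φ := fun g => ⟨ConjClasses.mk g.1, g.1, rfl, g.2⟩)
    (ψ := fun g => ⟨(g.1 : Matrix (Fin (m + 1)) (Fin (m + 1)) F).charpoly, Matrix.charpoly_monic _, by simp,
      (h0 _).1 g.1.isUnit⟩) ?_ ?_ ?_
  · rintro ⟨_, g, rfl, hg⟩; exact ⟨⟨g, hg⟩, rfl⟩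
  · rintro ⟨f, h1, h2, h3⟩
    obtain ⟨A, hA, rfl⟩ := H24.Sim.exists_irred_typ (n := Fin (m + 1)) h1 (by simpa using h2)
    obtain ⟨g, rfl⟩ := (h0 A).2 h3
    exact ⟨⟨g, (H24.Sim.coprime_iff_typ p g).2 hA⟩, rfl⟩
  · rintro ⟨g, hg⟩ ⟨h, hh⟩
    simp only [Subtype.mk.injEq, ConjClasses.mk_eq_mk_iff_isConj, H24.Sim.isConj_GL_iff]
    refine ⟨fun hc => ?_, H24.Sim.isConj_of_charpoly ((H24.Sim.coprime_iff_typ p g).1 hg)
      ((H24.Sim.coprime_iff_typ p h).1 hh)⟩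
    rw [← H24.Sim.prod_typ, ← H24.Sim.prod_typ, (H24.Sim.typ_eq_iff _ _).2 hc]

end Cfsg.Agent.S2387
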