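import Cfsg.Statements.S2388
import Cfsg.Agent.H24.Sim3
-- import your own Cfsg.Agent.* helpers here

set_option autoImplicit false
open Cfsg

namespace Cfsg.Agent.S2388

/-- In `SL_n(q)`, `q` a power of the prime `p`, two elements of order prime to `p` with the same characteristic polynomial are conjugate in `SL_n(q)` (not merely in `GL_n`). -/
theorem result {F : Type*} [Field F] [Fintype F] (p : ℕ) [Fact p.Prime] [CharP F p] (n : ℕ)
    (g h : Matrix.SpecialLinearGroup (Fin n) F) (hg : (orderOf g).Coprime p) (hh : (orderOf h).Coprime p)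
    (hc : (g : Matrix (Fin n) (Fin n) F).charpoly = (h : Matrix (Fin n) (Fin n) F).charpoly) : IsConj g h := by
  have key : ∀ a : Matrix.SpecialLinearGroup (Fin n) F, (orderOf a).Coprime p →
      ∀ f ∈ H24.Sim.typ (a : Matrix (Fin n) (Fin n) F), Irreducible f := fun a ha =>
    H24.Sim.irred_of_pow_eq_one p ha (congrArg Subtype.val (pow_orderOf_eq_one a))
  exact H24.Sim.isConj_SL_of (H24.Sim.isConj_of_charpoly (key g hg) (key h hh) hc)
    fun c _ => H24.Sim.det_surj_of_irred (key g hg) c

end Cfsg.Agent.S2388
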