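import Cfsg.Statements.S2391
import Cfsg.Agent.H18.PermMod
-- import your own Cfsg.Agent.* helpers here

set_option autoImplicit false
open Cfsg

namespace Cfsg.Agent.S2391

open Matrix

section
variable {F : Type*} [Field F] {n : ℕ} (U : Subgroup (SpecialLinearGroup (Fin n) F))

/-- vectors fixed modulo `W` -/
def up (W : Submodule F (Fin n → F)) : Submodule F (Fin n → F) where
  carrier := {v | ∀ u ∈ U, u.1 *ᵥ v - v ∈ W}
  add_mem' := fun {a b} ha hb u hu => by
    rw [mulVec_add, add_sub_add_comm]; exact W.add_mem (ha u hu) (hb u hu)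
  zero_mem' := fun u hu => by simp
  smul_mem' := fun c a ha u hu => by
    rw [mulVec_smul, ← smul_sub]; exact W.smul_mem c (ha u hu)

/-- the flag -/
def fl : ℕ → Submodule F (Fin n → F)
  | 0 => ⊥
  | i + 1 => up U (fl i)

theorem fl_inv (g : SpecialLinearGroup (Fin n) F) (hg : g ∈ Subgroup.normalizer (U : Set (SpecialLinearGroup (Fin n) F)))
    (i : ℕ) : ∀ v ∈ fl U i, g.1 *ᵥ v ∈ fl U i := by
  induction i with
  | zero => intro v hv; rw [fl, Submodule.mem_bot] at hv ⊢; rw [hv, mulVec_zero]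
  | succ i ih =>
    intro v hv u hu
    have h := ih _ (hv (g⁻¹ * u * g) ((Subgroup.mem_normalizer_iff.1 hg _).2 (by simpa [mul_assoc] using hu)))
    have e : g.1 * (g⁻¹ * u * g).1 = u.1 * g.1 := congrArg Subtype.val (show g * (g⁻¹ * u * g) = u * g by group)
    rwa [mulVec_sub, mulVec_mulVec, e, ← mulVec_mulVec] at h

theorem fl_lt [Finite F] (p : ℕ) [Fact p.Prime] [CharP F p] (hU : IsPGroup p U) (i : ℕ) (h : fl U i ≠ ⊤) :
    fl U i < fl U (i + 1) := by
  have hi : ∀ u ∈ U, ∀ v ∈ fl U i, u.1 *ᵥ v ∈ fl U i := fun u hu => fl_inv U u (Subgroup.le_normalizer hu) i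
  refine lt_of_le_of_ne (fun v hv u hu => Submodule.sub_mem _ (hi u hu v hv) hv) fun e => ?_
  let ρ : Representation F U (Fin n → F) :=
    (LinearEquiv.automorphismGroup.toLinearMapMonoidHom.comp SpecialLinearGroup.toLin').comp U.subtype
  obtain ⟨v, -, h0, hv⟩ := H18.exists_fixed_vector_of_pGroup hU (ρ.quotient (fl U i) fun g v hv => hi g g.2 v hv) ⊤
    (fun _ _ _ => trivial) (by
      haveI := Submodule.Quotient.nontrivial_iff.2 h
      exact top_ne_bot)
  obtain ⟨v, rfl⟩ := Submodule.Quotient.mk_surjective _ v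
  refine h0 ((Submodule.Quotient.mk_eq_zero _).2 (e ▸ fun u hu => ?_))
  exact (Submodule.Quotient.eq _).1 (hv ⟨u, hu⟩)

end

/-- The Borel–Tits property of `SL_n(q)` in flag form: for a field `F` of characteristic `p` with finitely many elements and a non-trivial `p`-subgroup `U` of `SL_n(F)`, there is a flag `0 = V₀ < V₁ < ⋯ < V_{k+1} = F^n` with at least one proper non-zero member such that every element of the normaliser of `U` maps each `V_i` onto itself and every element of `U` acts trivially on each quotient `V_{i+1}/V_i` (so the normaliser lies in the parabolic subgroup of the flag and `U` in its unipotent radical). -/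
theorem result {F : Type*} [Field F] [Fintype F] (p : ℕ) [Fact p.Prime] [CharP F p] (n : ℕ)
    (U : Subgroup (Matrix.SpecialLinearGroup (Fin n) F)) (hU : IsPGroup p ↥U) (hne : U ≠ ⊥) :
    ∃ (k : ℕ) (V : Fin (k + 2) → Submodule F (Fin n → F)), 1 ≤ k ∧ StrictMono V ∧ V 0 = ⊥ ∧ V (Fin.last (k + 1)) = ⊤ ∧
      (∀ g ∈ Subgroup.normalizer (U : Set (Matrix.SpecialLinearGroup (Fin n) F)), ∀ i, (V i).map (Matrix.mulVecLin (g : Matrix (Fin n) (Fin n) F)) = V i) ∧
      (∀ u ∈ U, ∀ i : Fin (k + 1), ∀ v ∈ V i.succ, (u : Matrix (Fin n) (Fin n) F).mulVec v - v ∈ V (Fin.castSucc i)) := by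
  classical
  have hex : ∃ i, fl U i = ⊤ := by
    by_contra! h
    exact not_strictMono_of_wellFoundedGT (fl U) (strictMono_nat_of_lt_succ fun i => fl_lt U p hU i (h i))
  have h1 : fl U 1 ≠ ⊤ := fun h => hne <| (Subgroup.eq_bot_iff_forall _).2 fun u hu => Subtype.ext <|
    toLin'.injective <| LinearMap.ext fun v => by
      have : v ∈ fl U 1 := h ▸ trivial
      simpa [fl, sub_eq_zero] using this u hu
  have h0 : fl U 0 ≠ ⊤ := fun h => h1 (eq_top_iff.2 fun v _ u hu => h ▸ trivial)
  obtain ⟨k, hk⟩ : ∃ k, Nat.find hex = k + 1 := Nat.exists_eq_succ_of_ne_zero fun h => h0 (h ▸ Nat.find_spec hex)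
  refine ⟨k, fun i => fl U i, ?_, Fin.strictMono_iff_lt_succ.2 fun i => ?_, rfl, ?_, fun g hg i => ?_,
    fun u hu i v hv => hv u hu⟩
  · by_contra h
    have := Nat.find_spec hex
    rw [hk, show k = 0 by omega] at this
    exact h1 this
  · exact fl_lt U p hU i (Nat.find_min hex (by omega))
  · have := Nat.find_spec hex
    rwa [hk] at this
  · refine le_antisymm (Submodule.map_le_iff_le_comap.2 (fl_inv U g hg i)) fun v hv =>
      ⟨_, fl_inv U g⁻¹ (Subgroup.inv_mem _ hg) i v hv, ?_⟩
    have e : g.1 * (g⁻¹).1 = 1 := congrArg Subtype.val (mul_inv_cancel g)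
    rw [mulVecLin_apply, mulVec_mulVec, e, one_mulVec]

end Cfsg.Agent.S2391
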