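import Mathlib
import Cfsg.Agent.L.SLRep
-- Template for statement S2392 (row 2392; see /opt/grader/pristine/manifest.json for weights).
-- Copy to Cfsg/Agent/S2392.lean and replace the sorry. The statement below is byte-identical to the frozen
-- statement Cfsg.CfsgFrozen.S2392 (Cfsg/Statements/S2392.lean; the theorem Cfsg.lie4_special_linear_cross_char_degree_bound);
-- the grader kernel-checks Cfsg.Agent.S2392.result against that frozen type. Keep the theorem IN THIS FILE
-- (a `result` declared elsewhere and merely imported here is not credited); helpers may live anywhere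
-- under Cfsg/Agent/.
import Cfsg.Statements.S2392
-- import your own Cfsg.Agent.* helpers here

set_option autoImplicit false
open scoped MatrixGroups
open Cfsg

namespace Cfsg.Agent.S2392

/-- A lower bound for representations in cross characteristic: for `n ≥ 3` and a field `F` with `q` elements, every homomorphism from `SL_n(F)` to `GL_d(K)`, `K` a field of characteristic different from that of `F`, whose kernel is central has `d ≥ q^(n-1) - 1`. -/
theorem result {F : Type*} [Field F] [Fintype F] {q : ℕ} (hq : Fintype.card F = q) (n : ℕ) (hn : 3 ≤ n)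
    {K : Type*} [Field K] (hK : ringChar K ≠ ringChar F) {d : ℕ}
    (ρ : Matrix.SpecialLinearGroup (Fin n) F →* GL (Fin d) K) (hker : ρ.ker ≤ Subgroup.center (Matrix.SpecialLinearGroup (Fin n) F)) :
    q ^ (n - 1) - 1 ≤ d := by
  subst hq
  classical
  obtain ⟨ρ', h⟩ := L.SR.exists_baseChange (algebraMap K (AlgebraicClosure K)) ρ
  have h1 : ((ringChar F : ℕ) : AlgebraicClosure K) ≠ 0 := by
    rw [← map_natCast (algebraMap K (AlgebraicClosure K)), map_ne_zero]
    exact L.Wt.cast_ringChar_ne_zero hK
  obtain ⟨ψ, hψ⟩ := L.Wt.exists_addChar h1
  have := L.SR.sl_bound (ρ := ρ') hψ (L.SR.card_ne_zero_of h1) (by simpa using hn) fun h2 =>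
    L.SR.center_ne_top (ι := Fin n) (F := F) (by simp; omega) (top_le_iff.1 (h2 ▸ h.trans hker))
  simpa using this

end Cfsg.Agent.S2392
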