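import Mathlib
import Cfsg.Agent.L.SLRep
-- Template for statement S2393 (row 2393; see /opt/grader/pristine/manifest.json for weights).
-- Copy to Cfsg/Agent/S2393.lean and replace the sorry. The statement below is byte-identical to the frozen
-- statement Cfsg.CfsgFrozen.S2393 (Cfsg/Statements/S2393.lean; the theorem Cfsg.lie4_symplectic_odd_cross_char_degree_bound);
-- the grader kernel-checks Cfsg.Agent.S2393.result against that frozen type. Keep the theorem IN THIS FILE
-- (a `result` declared elsewhere and merely imported here is not credited); helpers may live anywhere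
-- under Cfsg/Agent/.
import Cfsg.Statements.S2393
-- import your own Cfsg.Agent.* helpers here

set_option autoImplicit false
open scoped MatrixGroups
open Cfsg

namespace Cfsg.Agent.S2393

/-- A lower bound for representations in cross characteristic: for `n ≥ 2` and a field `F` with `q` elements, `q` odd, every homomorphism from the symplectic group `Sp_{2n}(F)` to `GL_d(K)`, `K` a field of characteristic different from that of `F`, whose kernel is central has `d ≥ q^(n-1)(q-1)/2`. -/
theorem result {F : Type*} [Field F] [Fintype F] {q : ℕ} (hq : Fintype.card F = q) (hodd : Odd q) (n : ℕ) (hn : 2 ≤ n)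
    {K : Type*} [Field K] (hK : ringChar K ≠ ringChar F) {d : ℕ}
    (ρ : ↥(Matrix.symplecticGroup (Fin n) F) →* GL (Fin d) K) (hker : ρ.ker ≤ Subgroup.center ↥(Matrix.symplecticGroup (Fin n) F)) :
    q ^ (n - 1) * (q - 1) / 2 ≤ d := by
  subst hq
  obtain ⟨ρ', h⟩ := L.SR.exists_baseChange (algebraMap K (AlgebraicClosure K)) ρ
  have := L.MR.sp_bound_odd (K := AlgebraicClosure K) (by
    rw [← map_natCast (algebraMap K (AlgebraicClosure K)), map_ne_zero]
    exact L.Wt.cast_ringChar_ne_zero hK) (H10.two_ne_zero_of_odd_card hodd) hn ρ' (h.trans hker)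
  rw [Module.finrank_fin_fun] at this
  refine Nat.div_le_of_le_mul (le_trans ?_ this)
  obtain ⟨m, rfl⟩ : ∃ m, n = m + 1 := ⟨n - 1, by omega⟩
  rw [Nat.mul_sub, mul_one, Nat.add_sub_cancel, pow_succ]
  have : 1 ≤ Fintype.card F ^ m := Nat.one_le_pow _ _ Fintype.card_pos
  omega

end Cfsg.Agent.S2393
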