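import Mathlib
import Cfsg.Agent.H09.SpOrder
import Cfsg.Agent.H09.SLBasic
import Cfsg.Agent.H27.Zsigmondy
-- Template for statement S2394 (row 2394; see /opt/grader/pristine/manifest.json for weights).
-- Copy to Cfsg/Agent/S2394.lean and replace the sorry. The statement below is byte-identical to the frozen
-- statement Cfsg.CfsgFrozen.S2394 (Cfsg/Statements/S2394.lean; the theorem Cfsg.lie4_symplectic_natural_char_faithful_degree_ge);
-- the grader kernel-checks Cfsg.Agent.S2394.result against that frozen type. Keep the theorem IN THIS FILE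
-- (a `result` declared elsewhere and merely imported here is not credited); helpers may live anywhere
-- under Cfsg/Agent/.
import Cfsg.Statements.S2394
-- import your own Cfsg.Agent.* helpers here

set_option autoImplicit false
open scoped MatrixGroups
open Cfsg

namespace Cfsg.Agent.S2394

/-- The smallest degree of a faithful representation of the symplectic group `Sp_{2n}(q)` over its own field `F_q` is `2n`: every injective homomorphism from `Sp_{2n}(F)` to `GL_d(F)`, `F` the field with `q` elements, has `d ≥ 2n`. -/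
theorem result {F : Type*} [Field F] [Fintype F] (n : ℕ) {d : ℕ}
    (ρ : ↥(Matrix.symplecticGroup (Fin n) F) →* GL (Fin d) F) (hρ : Function.Injective ρ) : 2 * n ≤ d := by
  classical
  by_contra hd
  push Not at hd
  have hdv := Subgroup.card_dvd_of_injective ρ hρ
  rw [H09.card_sp_fin, Matrix.card_GL_field] at hdv
  have hq : 1 < Fintype.card F := Fintype.one_lt_card
  set q := Fintype.card F
  rcases Nat.eq_zero_or_pos n with rfl | hn
  · omega
  by_cases h1 : n = 1
  · subst h1
    have hd' : d = 0 ∨ d = 1 := by omega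
    have h2 : q ∣ 1 ^ 2 * ∏ i : Fin d, (q ^ d - q ^ (i : ℕ)) := by
      rw [one_pow, one_mul]
      exact dvd_trans (by simp) hdv
    rcases hd' with rfl | rfl
    · simp at h2; omega
    · have := Nat.le_of_dvd (by simp; omega) h2
      simp at this
      omega
  by_cases h6 : q = 2 ∧ 2 * n = 6
  · obtain ⟨h2, h3⟩ := h6
    obtain rfl : n = 3 := by omega
    rw [h2] at hdv
    interval_cases d <;> revert hdv <;> decide
  obtain ⟨r, hr, h2, h3⟩ := H27.zsigmondy_of_three_le (a := q) (n := 2 * n) hq (by omega) h6
  have h4 : r ∣ ∏ i : Fin d, (q ^ d - q ^ (i : ℕ)) := by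
    refine dvd_trans (Dvd.dvd.mul_left (h2.trans ?_) _) hdv
    have := Finset.dvd_prod_of_mem (fun i => q ^ (2 * (i + 1)) - 1)
      (Finset.mem_range.2 (show n - 1 < n by omega))
    rwa [show n - 1 + 1 = n by omega] at this
  obtain ⟨i, -, hi⟩ := (Prime.dvd_finsetProd_iff hr.prime _).1 h4
  have h5 : q ^ d - q ^ (i : ℕ) = q ^ (i : ℕ) * (q ^ (d - i) - 1) := by
    rw [Nat.mul_sub, ← pow_add, mul_one, Nat.add_sub_cancel' i.2.le]
  rw [h5] at hi
  rcases (Nat.Prime.dvd_mul hr).1 hi with h | h
  · have h7 := hr.dvd_of_dvd_pow h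
    have h8 : r ∣ q ^ (2 * n) := dvd_pow h7 (by omega)
    have := (Nat.dvd_sub_iff_right (Nat.one_le_pow _ _ (by omega)) h8).1 h2
    exact hr.one_lt.ne' (Nat.dvd_one.1 this)
  · exact h3 (d - i) (by have := i.2; omega) (by omega) h

end Cfsg.Agent.S2394
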