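import Cfsg.Statements.S2397
import Cfsg.Agent.H11.StPres
-- import your own Cfsg.Agent.* helpers here

set_option autoImplicit false
open Cfsg

namespace Cfsg.Agent.S2397
open H11 Cfsg.Lie

/-- Over a finite field the relators (R3) h̄_r(t₁) h̄_r(t₂) = h̄_r(t₁ t₂) are consequences of (R1) and (R2): for each of the types G₂, B₂, D₄, F₄, E₆, E₇, E₈ (for types B₂ and G₂ the field must have more than two elements — the cases where the Chevalley group is not simple are set aside) the group presented by (R1), (R2) is canonically isomorphic to the one presented by (R1)–(R3), by an isomorphism matching the generators x̄_r(t). -/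
theorem result {K : Type*} [Field K] [Finite K] (D : Cfsg.Lie.ChevalleyDatum) (hD : D ∈ [Cfsg.Lie.chevG2, Cfsg.Lie.chevB2, Cfsg.Lie.chevD4, Cfsg.Lie.chevF4, Cfsg.Lie.chevE6, Cfsg.Lie.chevE7, Cfsg.Lie.chevE8]) (hK : D ∈ [Cfsg.Lie.chevB2, Cfsg.Lie.chevG2] → ∃ x : K, x ≠ 0 ∧ x ≠ 1) :
    ∃ e : D.SteinbergCover K ≃* D.SteinbergGroup K, ∀ (r : ℕ) (t : K), e (D.scGen K r t) = D.stGen K r t := by
  have := good_of_mem hD; have := cert_of_mem hD
  refine ⟨MonoidHom.toMulEquiv (scLift (sgSys D K).rel) (sgLift (scSys D K).hMul_of_finite)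
    (StSys.hom_ext (scSys_grp D K) fun r t => by simp) (StSys.hom_ext (sgSys_grp D K) fun r t => by simp), fun r t => ?_⟩
  by_cases hr : r < D.nroots
  · rw [scGen_eq (⟨r, hr⟩ : Root D), stGen_eq (⟨r, hr⟩ : Root D)]; exact scLift_x (sgSys D K).rel _ _
  · simp [ChevalleyDatum.scGen, ChevalleyDatum.stGen, ChevalleyDatum.stX, hr]

end Cfsg.Agent.S2397
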