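import Cfsg.Statements.S2399
import Cfsg.Agent.H11.Hat
-- import your own Cfsg.Agent.* helpers here

set_option autoImplicit false
open scoped MatrixGroups
open Cfsg

namespace Cfsg.Agent.S2399
open H11 Cfsg.Lie



/-- Projective representations in the natural characteristic lift: for each of the types G₂, B₂, D₄, F₄, E₆, E₇, E₈ over any field `K` (for types B₂ and G₂ the field must have more than two elements — the cases where the Chevalley group is not simple are set aside), every homomorphism from the Chevalley group to `PGL_n(L) = GL_n(L)/Z`, `L` a field of the same characteristic as `K`, lifts uniquely to a homomorphism from the group Δ presented by (R1), (R2) to `GL_n(L)`, compatibly with the projection Δ → Chevalley group sending x̄_r(t) to x_r(t). -/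
theorem result {K : Type*} [Field K] (D : Cfsg.Lie.ChevalleyDatum) (hD : D ∈ [Cfsg.Lie.chevG2, Cfsg.Lie.chevB2, Cfsg.Lie.chevD4, Cfsg.Lie.chevF4, Cfsg.Lie.chevE6, Cfsg.Lie.chevE7, Cfsg.Lie.chevE8]) (hK : D ∈ [Cfsg.Lie.chevB2, Cfsg.Lie.chevG2] → ∃ x : K, x ≠ 0 ∧ x ≠ 1)
    (θ : D.SteinbergCover K →* ↥(D.group K))
    (hθ : ∀ (r : ℕ) (t : K), r < D.nroots → ((θ (D.scGen K r t) : GL D.Idx K) : Matrix D.Idx D.Idx K) = D.x K r t)
    {L : Type*} [Field L] (hL : ringChar L = ringChar K) {n : ℕ}
    (φ : ↥(D.group K) →* GL (Fin n) L ⧸ Subgroup.center (GL (Fin n) L)) :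
    ∃! ψ : D.SteinbergCover K →* GL (Fin n) L, (QuotientGroup.mk' (Subgroup.center (GL (Fin n) L))).comp ψ = φ.comp θ := by
  have := H11.good_of_mem hD
  have := H11.cert_of_mem hD
  have hp := StSys.perfect hD (fun h => hK (by simpa [or_comm] using h)) (scSys_grp D K)
  refine sc_universal hp ⟨QuotientGroup.mk'_surjective _, (QuotientGroup.ker_mk' _).le⟩ _ fun Y C hY => ?_
  by_cases h : ∃ s : Finset K, 4 < s.card
  · exact C.lift_big hD (scSys_grp D K) hp h
  have : Finite K := by_contra fun h' => h (by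
    have := not_finite_iff_infinite.1 h'
    exact let ⟨s, hs⟩ := Infinite.exists_subset_card_eq K 5; ⟨s, by omega⟩)
  have := Fact.mk (CharP.char_is_prime K (ringChar K))
  have := StSys.finite_of_gen (scSys_grp D K)
  have : CharP L (ringChar K) := hL ▸ ringChar.charP L
  refine PF.lifts' (p := ringChar K) ⟨C.cent, ?_⟩ C.surj hp _
  subst hY
  rintro ⟨⟨g, _⟩, hz⟩ (rfl : _ = 1) e
  obtain ⟨a, ha⟩ := Matrix.GeneralLinearGroup.mem_center_iff_val_mem_range_scalar.1
    ((QuotientGroup.eq_one_iff g).1 (Eq.trans hz (map_one (φ.comp θ))))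
  refine Subtype.ext (Prod.ext (Units.ext ?_) rfl)
  have e' : g.1 ^ ringChar K = 1 := congrArg (fun y => y.1.1.1) e
  rw [← ha, ← map_pow] at e'
  rw [← ha]
  ext i j
  have := congrFun₂ e' i i
  simp only [Matrix.scalar_apply, Matrix.diagonal_apply_eq, Matrix.one_apply_eq] at this
  rw [show a = 1 from frobenius_inj L (ringChar K) (by simpa [frobenius_def] using this)]
  simp

end Cfsg.Agent.S2399
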