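import Cfsg.Statements.S2400
import Cfsg.Agent.H11.Mult
-- import your own Cfsg.Agent.* helpers here

set_option autoImplicit false
open Cfsg

namespace Cfsg.Agent.S2400
open H11 Cfsg.Lie

/-- Over a finite field `K`, the group presented by Steinberg's relators (R1)–(R3) (the universal Chevalley group) of type E₆ or E₇, or of type B₂ or D₄ with `K` of more than two elements, has trivial Schur multiplier: every finite stem extension of it is an isomorphism (Schur multiplier described through stem extensions as in the definitions). Types G₂, F₄ and E₈ are not covered here. -/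
theorem result {K : Type*} [Field K] [Fintype K] (e : Cfsg.Lie.ChevalleyDatum × ℕ)
    (he : e ∈ [(Cfsg.Lie.chevE6, 0), (Cfsg.Lie.chevE7, 0), (Cfsg.Lie.chevB2, 2), (Cfsg.Lie.chevD4, 2)]) (hK : Fintype.card K ≠ e.2) :
    Cfsg.HasCyclicSchurMultiplier (e.1.SteinbergGroup K) 1 := by
  have h2 : Fintype.card K ≠ 2 → ∃ a : K, a ≠ 0 ∧ a ≠ 1 := fun h =>
    exists_ne_of_card ⟨Finset.univ, lt_of_le_of_ne Fintype.one_lt_card h.symm⟩
  simp only [List.mem_cons, List.not_mem_nil, or_false] at he
  rcases he with rfl | rfl | rfl | rfl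
  · exact sg_trivial fun E _ π C => C.lift_SL (sgSys_grp _ _) (StSys.perfect5 (by simp) (sgSys_grp _ _)) slE6 allTorE6
  · exact sg_trivial fun E _ π C => C.lift_SL (sgSys_grp _ _) (StSys.perfect5 (by simp) (sgSys_grp _ _)) slE7 allTorE7
  · exact sg_trivial fun E _ π C => C.lift_B2 (sgSys_grp _ _) (StSys.perfect (by simp) (fun _ => h2 hK) (sgSys_grp _ _)) (h2 hK)
  · exact sg_trivial fun E _ π C => C.lift_D4 (sgSys_grp _ _) (StSys.perfect (by simp) (fun _ => h2 hK) (sgSys_grp _ _)) (h2 hK)

end Cfsg.Agent.S2400
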