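import Mathlib
import Cfsg.Statements.S2401
import Cfsg.Agent.H09.StUniv
import Cfsg.Agent.H09.SLBasic

set_option autoImplicit false
open Cfsg

namespace Cfsg.Agent.S2401

/-- The Steinberg presentation of `SL_n` over a finite field for `n ≥ 3`: the group generated by symbols `x_ij(t)` (`i ≠ j`, `t` in the field) subject to `x_ij(t) x_ij(u) = x_ij(t + u)` and, for `i ≠ l`, `x_ij(t) x_kl(u) x_ij(t)⁻¹ x_kl(u)⁻¹ = x_il(tu)` if `j = k` and `= 1` if `j ≠ k`, is isomorphic to `SL_n` by an isomorphism sending `x_ij(t)` to the elementary matrix `1 + t E_ij`. -/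
theorem result {K : Type*} [Field K] [Finite K] (n : ℕ) (hn : 3 ≤ n) :
    ∃ e : PresentedGroup
        ({g : FreeGroup ({ij : Fin n × Fin n // ij.1 ≠ ij.2} × K) | ∃ (a : {ij : Fin n × Fin n // ij.1 ≠ ij.2}) (t u : K),
            g = FreeGroup.of (a, t) * FreeGroup.of (a, u) * (FreeGroup.of (a, t + u))⁻¹} ∪
          {g | ∃ (a b : {ij : Fin n × Fin n // ij.1 ≠ ij.2}) (t u : K), a.1.1 ≠ b.1.2 ∧ a.1.2 ≠ b.1.1 ∧
            g = FreeGroup.of (a, t) * FreeGroup.of (b, u) * (FreeGroup.of (a, t))⁻¹ * (FreeGroup.of (b, u))⁻¹} ∪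
          {g | ∃ (a b : {ij : Fin n × Fin n // ij.1 ≠ ij.2}) (h : a.1.1 ≠ b.1.2) (t u : K), a.1.2 = b.1.1 ∧
            g = FreeGroup.of (a, t) * FreeGroup.of (b, u) * (FreeGroup.of (a, t))⁻¹ * (FreeGroup.of (b, u))⁻¹ *
              (FreeGroup.of (⟨(a.1.1, b.1.2), h⟩, t * u))⁻¹}) ≃* Matrix.SpecialLinearGroup (Fin n) K,
      ∀ (a : {ij : Fin n × Fin n // ij.1 ≠ ij.2}) (t : K), ((e (PresentedGroup.of (a, t)) : Matrix (Fin n) (Fin n) K)) = Matrix.transvection a.1.1 a.1.2 t := by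
  generalize hR : (_ ∪ _ ∪ _ : Set (FreeGroup ({ij : Fin n × Fin n // ij.1 ≠ ij.2} × K))) = R
  have hx : ∀ g ∈ R, FreeGroup.lift (fun p : {ij : Fin n × Fin n // ij.1 ≠ ij.2} × K =>
      Matrix.SpecialLinearGroup.transvection p.1.2 p.2) g = 1 := by
    subst hR
    rintro _ ((⟨a, t, u, rfl⟩ | ⟨a, b, t, u, h1, h2, rfl⟩) | ⟨a, b, h, t, u, h1, rfl⟩)
    · simp [Matrix.SpecialLinearGroup.transvection_add]
    · simp only [map_mul, map_inv, FreeGroup.lift_apply_of, mul_inv_eq_one, mul_inv_eq_iff_eq_mul]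
      refine Subtype.ext ?_
      simp [Matrix.SpecialLinearGroup.transvection_coe, mul_add, add_mul, Matrix.single_mul_single_of_ne _ _ _ _ h2,
        Matrix.single_mul_single_of_ne _ _ _ _ h1.symm, add_right_comm]
    · obtain ⟨⟨i, j⟩, h2⟩ := a
      obtain ⟨⟨k, l⟩, h3⟩ := b
      obtain rfl : j = k := h1
      simp only [map_mul, map_inv, FreeGroup.lift_apply_of, mul_inv_eq_one]
      exact H09.transvection_commutator (i := i) (j := l) (k := j) h h2 h3 t u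
  have h0 : ∀ g ∈ R, PresentedGroup.mk R g = 1 := fun g hg => PresentedGroup.one_of_mem hg
  subst hR
  obtain ⟨ψ, h1, h2⟩ := H09.SL_sec hn (PresentedGroup.toGroup hx) (fun h t => PresentedGroup.of (⟨(_, _), h⟩, t))
    (fun h t => PresentedGroup.toGroup.of _)
    (fun h t u => mul_inv_eq_one.1 (h0 _ (.inl (.inl ⟨⟨(_, _), h⟩, t, u, rfl⟩))))
    (fun h h' a b t u => commutatorElement_eq_one_iff_commute.1       (h0 _ (.inl (.inr ⟨⟨(_, _), h⟩, ⟨(_, _), h'⟩, t, u, a, b, rfl⟩))))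
    fun h h' h'' t u => ⟨t * u, mul_inv_eq_one.1 (h0 _ (.inr ⟨⟨(_, _), h⟩, ⟨(_, _), h'⟩, h'', t, u, rfl, rfl⟩))⟩
  refine ⟨⟨⟨PresentedGroup.toGroup hx, ψ, fun x => ?_, h1⟩, map_mul _⟩, fun a t => ?_⟩
  · exact DFunLike.congr_fun (PresentedGroup.ext (φ := ψ.comp (PresentedGroup.toGroup hx)) (ψ := .id _) fun x => by
      simp [h2]) x
  · simp; rfl

end Cfsg.Agent.S2401
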