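import Mathlib
import Cfsg.Statements.S2411
import Cfsg.Agent.H09.PresSp

set_option autoImplicit false
open Cfsg

namespace Cfsg.Agent.S2411

/-- The projective symplectic group `PSp_{2m}(q)` with `m ≥ 2` (and `q > 2` if `m = 2`) is generated by two of its elements. -/
theorem result {F : Type*} [Field F] [Fintype F] (m : ℕ) (hm : 2 ≤ m) (hF : m = 2 → 2 < Fintype.card F) :
    ∃ a b : Cfsg.PSp m F, Subgroup.closure ({a, b} : Set (Cfsg.PSp m F)) = ⊤ := by
  obtain ⟨n, rfl⟩ : ∃ n, m = n + 2 := ⟨m - 2, by omega⟩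
  obtain ⟨a, b, h⟩ := H09.Sp_two_gen (K := F) (n := n) (or_iff_not_imp_left.2 fun h => by
    obtain ⟨a, h0, h1⟩ : ∃ a : F, a ≠ 0 ∧ a ≠ 1 := by
      classical
      by_contra! e
      exact absurd ((Finset.card_le_card (s := Finset.univ) (t := {(0 : F), 1}) fun a _ => by
        by_cases c : a = 0 <;> simp [c, e a]).trans Finset.card_le_two) (not_le.2 (hF (by omega)))
    exact ⟨a, h0, h1⟩)
  refine ⟨QuotientGroup.mk' _ a, QuotientGroup.mk' _ b, ?_⟩
  rw [← Set.image_pair, ← MonoidHom.map_closure, h, ← MonoidHom.range_eq_map, QuotientGroup.range_mk']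

end Cfsg.Agent.S2411
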