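import Cfsg.Statements.S2414
import Cfsg.Agent.H11.Gen5
-- import your own Cfsg.Agent.* helpers here

set_option autoImplicit false
open Cfsg

namespace Cfsg.Agent.S2414
open H11



/-- The simple orthogonal group `PΩ⁺_{2m}(q)` (commutator subgroup of the orthogonal group of `Σ x_i y_i` modulo its centre) with `m ≥ 4` is generated by two of its elements. -/
theorem result {F : Type*} [Field F] [Fintype F] (m : ℕ) (hm : 4 ≤ m) :
    ∃ a b : Cfsg.POmega F (Cfsg.quadFormPlus m F), Subgroup.closure ({a, b} : Set (Cfsg.POmega F (Cfsg.quadFormPlus m F))) = ⊤ := by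
  obtain ⟨n, rfl⟩ : ∃ n, m = n + 4 := ⟨m - 4, by omega⟩
  obtain ⟨S, hg, -⟩ := L.RD.sysD F (n + 1)
  obtain ⟨a, b, h⟩ := H11.gen2_D (S := S) (L.RD.crdD (n + 2)).ord rfl
  refine ⟨QuotientGroup.mk' _ a, QuotientGroup.mk' _ b, ?_⟩
  rw [← Set.image_pair, ← MonoidHom.map_closure, top_unique (hg.ge.trans h), ← MonoidHom.range_eq_map, QuotientGroup.range_mk']

end Cfsg.Agent.S2414
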