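import Cfsg.Statements.S2405
import Cfsg.Agent.S2414
import Cfsg.Agent.S2411
import Cfsg.Agent.H10.Chev2
-- import your own Cfsg.Agent.* helpers here

set_option autoImplicit false
open Cfsg

namespace Cfsg.Agent.S2405
open H11 Cfsg.Lie

theorem tr {G H : Type*} [Group G] [Group H] (e : Nonempty (G ≃* H)) (h : ∃ a b : H, Subgroup.closure {a, b} = ⊤) :
    ∃ a b : G, Subgroup.closure {a, b} = ⊤ := by
  obtain ⟨⟨e⟩, a, b, h⟩ := And.intro e h
  exact ⟨e.symm.toMonoidHom a, e.symm.toMonoidHom b, by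
    rw [← Set.image_pair, ← MonoidHom.map_closure, h, Subgroup.map_top_of_surjective _ e.symm.surjective]⟩

/-- Each Chevalley group of type G₂, B₂, D₄, F₄, E₆, E₇ or E₈ over a finite field is generated by two of its elements (types B₂ and G₂ over the field with two elements, where the group is not simple, excepted). -/
theorem result {F : Type*} [Field F] [Finite F] (D : Cfsg.Lie.ChevalleyDatum) (hD : D ∈ [Cfsg.Lie.chevG2, Cfsg.Lie.chevB2, Cfsg.Lie.chevD4, Cfsg.Lie.chevF4, Cfsg.Lie.chevE6, Cfsg.Lie.chevE7, Cfsg.Lie.chevE8])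
    (hF : D ∈ [Cfsg.Lie.chevB2, Cfsg.Lie.chevG2] → ∃ x : F, x ≠ 0 ∧ x ≠ 1) :
    ∃ a b : ↥(D.group F), Subgroup.closure ({a, b} : Set ↥(D.group F)) = ⊤ := by
  have := Fintype.ofFinite F
  simp only [List.mem_cons, List.not_mem_nil, or_false] at hD
  rcases hD with rfl | rfl | rfl | rfl | rfl | rfl | rfl
  · simpa [H11.grpSys_grp] using H11.gen2_G2 (H11.grpSys _ F) (hF (by simp))
  · obtain ⟨x, a, b⟩ := hF (by simp)
    exact tr (H10.chevB2_equiv_psp ⟨x, a, b⟩) (S2411.result 2 le_rfl fun _ => Fintype.two_lt_card_iff.2 ⟨0, 1, x, by simp, a.symm, b.symm⟩)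
  · exact tr H10.chevD4_equiv (S2414.result 4 le_rfl)
  · simpa [H11.grpSys_grp] using H11.gen2_F4 (H11.grpSys _ F)
  · simpa [H11.grpSys_grp] using H11.gen2_E6 (H11.grpSys _ F)
  · simpa [H11.grpSys_grp] using H11.gen2_E7 (H11.grpSys _ F)
  · simpa [H11.grpSys_grp] using H11.gen2_E8 (H11.grpSys _ F)

end Cfsg.Agent.S2405
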