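import Cfsg.Statements.S2406
import Cfsg.Agent.H11.Gen2
-- import your own Cfsg.Agent.* helpers here

set_option autoImplicit false
open Cfsg

namespace Cfsg.Agent.S2406
open H11 Cfsg.Lie

open H11 Cfsg.Lie

/-- The twisted group ²E₆(q) (realised inside E₆ over the field with `q²` elements) is generated by two of its elements. -/
theorem result {K : Type*} [Field K] [Fintype K] {q : ℕ} (hq : IsPrimePow q) (hK : Fintype.card K = q ^ 2) :
    ∃ a b : ↥(Cfsg.Lie.twistedE6 K q), Subgroup.closure ({a, b} : Set ↥(Cfsg.Lie.twistedE6 K q)) = ⊤ := by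
  obtain ⟨θ, F⟩ := exists_frF hq two_ne_zero hK
  obtain ⟨σ, h⟩ := exists_isTw_E6 θ
  have e := TE6.eq_fix F h (grpSys_θ_injective _ _) (grpSys_grp _ _)
  have T := TE6.tw F h (grpSys_grp _ _)
  have l := (TE6.wd F h).le_MF orbD_E6
  rw [e] at T
  obtain ⟨x, hx, y, hy, k⟩ := TE6.two_gen F h T
  have r := inclusion_range_gen (D := chevE6) (e6Words K q)
  exact two_gen_of (Subgroup.inclusion_injective _) (r.ge (e.ge hx)) (r.ge (e.ge hy)) (r.le.trans (l.trans k))

end Cfsg.Agent.S2406
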