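import Cfsg.Statements.S2408
import Cfsg.Agent.H11.Gen3
-- import your own Cfsg.Agent.* helpers here

set_option autoImplicit false
open Cfsg

namespace Cfsg.Agent.S2408
open H11 Cfsg.Lie

open H11 Cfsg.Lie

/-- The large Ree group ²F₄(2^(2m+1)) with `m ≥ 1` is generated by two of its elements. -/
theorem result {K : Type*} [Field K] [Fintype K] {m : ℕ} (hm : 1 ≤ m) (hK : Fintype.card K = 2 ^ (2 * m + 1)) :
    ∃ a b : ↥(Cfsg.Lie.twistedF4 K (2 ^ m)), Subgroup.closure ({a, b} : Set ↥(Cfsg.Lie.twistedF4 K (2 ^ m))) = ⊤ := by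
  obtain ⟨θ, F, σ, h⟩ := exists_rf4 hK
  have e := RF4.eq_fix F h (grpSys_θ_injective _ _) (grpSys_grp _ _)
  have T := RF4.tw F h (grpSys_grp _ _)
  have l := (RF4.wd F h).le_MF orbD_F4
  rw [e] at T
  obtain ⟨x, hx, y, hy, k⟩ := RF4.two_gen F (by
    rw [Nat.card_eq_fintype_card, hK]; exact Nat.pow_lt_pow_right (a := 2) (m := 1) (by decide) (by omega)) h T
  have r := inclusion_range_gen (D := chevF4) (f4Words K (2 ^ m))
  exact two_gen_of (Subgroup.inclusion_injective _) (r.ge (e.ge hx)) (r.ge (e.ge hy)) (r.le.trans (l.trans k))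

end Cfsg.Agent.S2408
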