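import Cfsg.Statements.S2409
import Cfsg.Agent.H11.Ree5
-- import your own Cfsg.Agent.* helpers here

set_option autoImplicit false
open Cfsg

namespace Cfsg.Agent.S2409
open H11 Cfsg.Lie

open H11 Subgroup in
theorem gen_aux {K R : Type*} [Field K] [Group R] {φ : K ≃+* K} {x : K → K → K → R} {h : Kˣ →* R} {P H B : Subgroup R} {q : ℕ}
    {n a : R} (X : RX φ x h P H) (b : RB q P H B n a) (hs : ∀ t : Kˣ, ∃ s, t = s * s ∨ t = -1 * (s * s)) {c : Kˣ}
    (hc : ∀ d, d ∈ zpowers c) (h2 : c ^ 2 ≠ 1) : closure ({h c, x 1 0 0 * n⁻¹} : Set R) = ⊤ := by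
  have k1 : h c ∈ closure ({h c, x 1 0 0 * n⁻¹} : Set R) := subset_closure (by simp)
  have k2 : x 1 0 0 * n⁻¹ ∈ closure ({h c, x 1 0 0 * n⁻¹} : Set R) := subset_closure (by simp)
  generalize closure ({h c, x 1 0 0 * n⁻¹} : Set R) = M at k1 k2 ⊢
  have kH (d) : h d ∈ M := by obtain ⟨k, rfl⟩ := hc d; exact map_zpow h c k ▸ zpow_mem k1 k
  have cj {g y} (h1 : g ∈ M) (h2 : y ∈ M) : g * y * g⁻¹ ∈ M := mul_mem (mul_mem h1 h2) (inv_mem h1)
  obtain ⟨d, hd⟩ := X.memH.ge (b.nH _ (X.h_mem c))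
  have c1 : (c : K) ≠ 1 := fun e => h2 (by rw [show c = 1 from Units.ext e, one_pow])
  have d1 : (d : K) ≠ 1 := fun e => c1 (by
    rw [show d = 1 from Units.ext e, map_one, eq_comm, conj_one, ← map_one h] at hd
    rw [X.h_inj hd]; rfl)
  have a1 (t : K) : ∃ u v, x t u v ∈ M := by
    have e := mul_mem (cj k1 (cj k2 k1)) (inv_mem (cj k2 k1))
    rw [show h c * (x 1 0 0 * n⁻¹ * h c * (x 1 0 0 * n⁻¹)⁻¹) * (h c)⁻¹ * (x 1 0 0 * n⁻¹ * h c * (x 1 0 0 * n⁻¹)⁻¹)⁻¹ =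
      h c * x 1 0 0 * (h c)⁻¹ * (h (c * d) * (x 1 0 0)⁻¹ * (h (c * d))⁻¹) * (h d * x 1 0 0 * (h d)⁻¹) * (x 1 0 0)⁻¹ by
      have : h c * h d = h d * h c := by rw [← map_mul, mul_comm, map_mul]
      rw [map_mul, show (h c * h d)⁻¹ = (h d * h c)⁻¹ by rw [this], hd]; group, X.inv] at e
    simp only [X.conj, X.mul] at e
    by_cases t0 : t = 0
    · exact ⟨0, 0, by rw [t0, X.zero]; exact one_mem _⟩
    have s0 : (c : K) * 1 + ↑(c * d) * -1 + d * 1 + -1 ≠ 0 := by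
      rw [show (c : K) * 1 + ↑(c * d) * -1 + d * 1 + -1 = -((c - 1) * (d - 1)) by push_cast; ring]
      exact neg_ne_zero.2 (mul_ne_zero (sub_ne_zero.2 c1) (sub_ne_zero.2 d1))
    have := cj (kH (.mk0 _ (div_ne_zero t0 s0))) e
    rw [X.conj, Units.val_mk0, div_mul_cancel₀ _ s0] at this
    exact ⟨_, _, this⟩
  have a3 (v : K) : x 0 0 v ∈ M := by
    by_cases v0 : v = 0
    · rw [v0, X.zero]; exact one_mem _
    obtain ⟨u, w, e⟩ := a1 (-(v ^ 2 / φ v))
    have := pow_mem e 3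
    rw [X.cube] at this
    have h3 := (map_ne_zero φ).2 v0
    convert this using 2
    simp only [map_neg, map_div₀, map_pow, X.φφ]; field_simp
  have a2 (u : K) : ∃ v, x 0 u v ∈ M := by
    have k (t t') : ∃ v, x 0 (t' * φ t - t * φ t') v ∈ M := by
      obtain ⟨u, v, e⟩ := a1 t
      obtain ⟨u', v', e'⟩ := a1 t'
      have := mul_mem (cj e e') (inv_mem e')
      rw [X.conj_P, X.inv, X.mul, add_neg_cancel] at this
      exact ⟨_, by convert this using 2; simp; ring⟩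
    by_cases u0 : u = 0
    · exact ⟨0, by rw [u0, X.zero]; exact one_mem _⟩
    have s0 : φ c - c ≠ 0 := fun e => h2 (Units.ext (mul_left_cancel₀ c.ne_zero (by
      have := X.φφ c
      rw [sub_eq_zero.1 e, sub_eq_zero.1 e] at this
      push_cast; linear_combination -this)))
    obtain ⟨s, e⟩ := hs (.mk0 _ (div_ne_zero u0 s0))
    have h3 : φ s / s * φ (φ s / s) = s * s := by
      have := (map_ne_zero φ).2 s.ne_zero
      simp only [map_div₀, X.φφ]; field_simp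
    simp only [Units.ext_iff, Units.val_mk0, Units.val_mul, Units.val_neg, Units.val_one, div_eq_iff s0, ← h3] at e
    generalize φ s / s = r at e
    rcases e with e | e
    · exact (k (r * c) r).imp fun v h => by convert h using 2; rw [e, map_mul]; ring
    · exact (k r (r * c)).imp fun v h => by convert h using 2; rw [e, map_mul]; ring
  have aP (t u v) : x t u v ∈ M := by
    obtain ⟨u', v', e⟩ := a1 t
    obtain ⟨w, e'⟩ := a2 (u - u')
    convert mul_mem (mul_mem e e') (a3 (v - v' - w)) using 1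
    simp [X.mul]
  have hP {g} (hg : g ∈ P) : g ∈ M := by obtain ⟨t, u, v, rfl⟩ := X.memP.1 hg; exact aP ..
  have hB {g} (hg : g ∈ B) : g ∈ M := by
    obtain ⟨u, hu, y, hy, rfl⟩ := b.mulB g hg
    obtain ⟨d, rfl⟩ := X.memH.ge hy
    exact mul_mem (hP hu) (kH d)
  refine eq_top_iff.2 fun g _ => by_contra fun hg => hg ?_
  obtain ⟨u, hu, y, hy, rfl⟩ := b.bru g fun e => hg (hB e)
  exact mul_mem (mul_mem (hP hu) (by simpa using mul_mem (inv_mem k2) (aP 1 0 0))) (hB hy)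

/-- The small Ree group ²G₂(3^(2m+1)) with `m ≥ 1` is generated by two of its elements. -/
theorem result {K : Type*} [Field K] [Fintype K] {m : ℕ} (hm : 1 ≤ m) (hK : Fintype.card K = 3 ^ (2 * m + 1)) :
    ∃ a b : ↥(Cfsg.Lie.twistedG2 K (3 ^ m)), Subgroup.closure ({a, b} : Set ↥(Cfsg.Lie.twistedG2 K (3 ^ m))) = ⊤ := by
  classical
  obtain ⟨k, n, a, T, A, -, G, -⟩ := H11.Ree.exists_rg hK
  obtain ⟨φ, x, h, -, X⟩ := H11.Ree.exists_rx hK
  obtain ⟨θ, F⟩ := H11.exists_reeF Nat.prime_three hK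
  obtain ⟨c, hc⟩ := IsCyclic.exists_generator (α := Kˣ)
  refine ⟨_, _, gen_aux X G.b (H11.Ree.sq_or F) hc fun e => ?_⟩
  have := Nat.le_of_dvd two_pos (orderOf_dvd_of_pow_eq_one e)
  have := Nat.pow_le_pow_right (n := 3) (by decide) (show 3 ≤ 2 * m + 1 by omega)
  have ht := orderOf_eq_card_of_forall_mem_zpowers hc
  rw [Nat.card_eq_fintype_card, Fintype.card_units, hK] at ht
  omega

end Cfsg.Agent.S2409
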