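import Mathlib
import Cfsg.Statements.S2410
import Cfsg.Agent.H12.Sz8

set_option autoImplicit false
open Cfsg

namespace Cfsg.Agent.S2410

open H12.Sz H12.CC

theorem orderOf_le {K : Type*} [Field K] [Fintype K] {k : ℕ} [SzF K k] (x : G K k) :
    orderOf x ≤ 2 * Fintype.card K := by
  have h8 := card_ge (F := K)
  have he := e_lt (F := K)
  obtain ⟨P, ⟨y, rfl⟩ | hP, hx⟩ := exists_part (x := x)
  · have := Nat.le_of_dvd (by norm_num) (orderOf_dvd_of_pow_eq_one
      (pow_four_of_conj (g := y⁻¹) (by simpa using mem_cj.1 hx)))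
    omega
  · have := Nat.le_of_dvd Nat.card_pos (Subgroup.orderOf_dvd_natCard P hx)
    have := hP.card
    generalize 2 ^ (k + 1) = t at *
    omega

/-- The Suzuki group over the field with `2^(2m+1)` elements, `m ≥ 1` (realised as the stabiliser in `SL₄` of the Suzuki–Tits ovoid), is generated by two of its elements. -/
theorem result {F : Type*} [Field F] [Fintype F] {m : ℕ} (hm : 1 ≤ m) (hF : Fintype.card F = 2 ^ (2 * m + 1)) :
    ∃ a b : ↥(Cfsg.Sz F m), Subgroup.closure ({a, b} : Set ↥(Cfsg.Sz F m)) = ⊤ := by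
  haveI : SzF F m := ⟨hm, hF⟩
  classical
  obtain ⟨k, hk⟩ := IsCyclic.exists_ofOrder_eq_natCard (α := Fˣ)
  rw [Nat.card_eq_fintype_card, Fintype.card_units] at hk
  have h8 := card_ge (F := F)
  have k1 : k ≠ 1 := by rintro rfl; simp at hk; omega
  have k1' : (hh k : G F m) ≠ 1 := by simpa [hh_eq_one] using k1
  refine ⟨hh k, uu 0 1 * ww, ?_⟩
  have ha : hh k ∈ Subgroup.closure ({hh k, uu 0 1 * ww} : Set (G F m)) := Subgroup.subset_closure (by simp)
  have hb : uu 0 1 * ww ∈ Subgroup.closure ({hh k, uu 0 1 * ww} : Set (G F m)) := Subgroup.subset_closure (by simp)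
  rcases classify (Subgroup.closure ({hh k, uu 0 1 * ww} : Set (G F m))) with ⟨g, h⟩ | ⟨A, hA, h⟩ | ⟨E, g, hE, h⟩
  · have h2 := mem_cj_B.1 (h hb)
    rcases fix_hh k1 (mem_cj_B.1 (h ha)) with e | e <;> simp [e, mul_smul] at h2
  · obtain rfl : A = H F m := hA.abCC.eq abCC_H k1' (hA.mem_of_odd (h ha) odd_q_sub (hh_pow_card k)) (hh_mem_H k)
    rcases mem_normalizer_H.1 (h hb) with ⟨l, e⟩ | ⟨l, e⟩ <;>
      simpa [mul_smul] using congrArg (fun g : G F m => g • (inf : Ov F m)) e
  · rw [h] at ha ⊢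
    haveI := Fintype.ofFinite E
    obtain ⟨j, hj⟩ := subfield_szF E hE
    obtain ⟨f⟩ := SzSub_equiv (m := m) E.subtype
    rw [Subfield.fieldRange_subtype] at f
    have h1 := orderOf_le (((cjEquiv g _).symm.trans f) ⟨_, ha⟩)
    rw [MulEquiv.orderOf_eq, Subgroup.orderOf_mk, show orderOf (hh k : G F m) = orderOf k from
      orderOf_injective hHom (fun _ _ => hh_inj.1) k, hk] at h1
    have h2 := Module.card_eq_pow_finrank (K := E) (V := F)
    have h3 := card_ge (F := E)
    have : E = ⊤ := subfield_eq_of_card (by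
      rw [Nat.card_eq_fintype_card, Nat.card_congr Subfield.topEquiv.toEquiv, Nat.card_eq_fintype_card]
      generalize Module.finrank E F = d at h2
      rcases d with _ | _ | d
      · simp at h2; omega
      · simpa using h2.symm
      · have : Fintype.card E ^ 2 ≤ Fintype.card E ^ (d + 1 + 1) := Nat.pow_le_pow_right (by omega) (by omega)
        have : 8 * Fintype.card E ≤ Fintype.card E ^ 2 := by nlinarith
        omega)
    rw [this, SzSub_top, cj_top]

end Cfsg.Agent.S2410
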