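import Cfsg.Statements.S2413
import Cfsg.Agent.H11.Gen5
-- import your own Cfsg.Agent.* helpers here

set_option autoImplicit false
open Cfsg

namespace Cfsg.Agent.S2413
open H11



/-- The simple orthogonal group `PΩ_{2m+1}(q)` (commutator subgroup of the orthogonal group of `x₀² + Σ x_i y_i` modulo its centre) with `m ≥ 2` and `q` odd is generated by two of its elements. -/
theorem result {F : Type*} [Field F] [Fintype F] (hodd : Odd (Fintype.card F)) (m : ℕ) (hm : 2 ≤ m) :
    ∃ a b : Cfsg.POmega F (Cfsg.quadFormOdd m F), Subgroup.closure ({a, b} : Set (Cfsg.POmega F (Cfsg.quadFormOdd m F))) = ⊤ := by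
  obtain ⟨n, rfl⟩ : ∃ n, m = n + 2 := ⟨m - 2, by omega⟩
  have h2 : (2 : F) ≠ 0 := Ring.two_ne_zero fun e => by have := FiniteField.even_card_of_char_two e; have := Nat.odd_iff.1 hodd; omega
  obtain ⟨S, hg, -⟩ := L.RD.sysB h2 n
  obtain ⟨a, b, h⟩ := H11.gen2_B (S := S) (L.RD.crdB (n + 1)).ord rfl h2
  refine ⟨QuotientGroup.mk' _ a, QuotientGroup.mk' _ b, ?_⟩
  rw [← Set.image_pair, ← MonoidHom.map_closure, top_unique (hg.ge.trans h), ← MonoidHom.range_eq_map, QuotientGroup.range_mk']

end Cfsg.Agent.S2413
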