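import Cfsg.Statements.S2415
import Cfsg.Agent.H11.Gen7
-- import your own Cfsg.Agent.* helpers here

set_option autoImplicit false
open Cfsg

namespace Cfsg.Agent.S2415
open H11



/-- The simple orthogonal group `PΩ⁻_{2m}(q)` with `m ≥ 4` (commutator subgroup, modulo its centre, of the orthogonal group of `Σ_{i<m−1} x_i y_i + z₁² + a z₁z₂ + b z₂²` with the binary part anisotropic) is generated by two of its elements. -/
theorem result {F : Type*} [Field F] [Fintype F] (m : ℕ) (hm : 4 ≤ m) (a b : F)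
    (hab : ∀ z₁ z₂ : F, z₁ ^ 2 + a * z₁ * z₂ + b * z₂ ^ 2 = 0 → z₁ = 0 ∧ z₂ = 0) :
    ∃ g h : Cfsg.POmega F (Cfsg.quadFormMinus (m - 1) F a b),
      Subgroup.closure ({g, h} : Set (Cfsg.POmega F (Cfsg.quadFormMinus (m - 1) F a b))) = ⊤ := by
  obtain ⟨q, hF⟩ : ∃ q, Fintype.card F = q := ⟨_, rfl⟩
  obtain ⟨n, rfl⟩ : ∃ n, m = n + 4 := ⟨m - 4, by omega⟩
  have : Fact (∀ r : F, r ^ 2 ≠ -b + a * r) := ⟨fun r e => one_ne_zero (neg_eq_zero.1 (hab r (-1) (by linear_combination e)).2)⟩
  have := Fintype.ofEquiv _ (QuadraticAlgebra.equivProd (-b) a).symm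
  have := H10.qMinus_nondeg (m := n + 3) (H10.disc_ne_zero_of_aniso hab)
  obtain ⟨τ, Fr⟩ := H11.exists_frF (K := QuadraticAlgebra F (-b) a) (hF ▸ Fintype.isPrimePow_card_of_field) two_ne_zero (by
    rw [Fintype.card_congr (QuadraticAlgebra.equivProd (-b) a), Fintype.card_prod, hF, sq])
  have h1 : ∀ x, τ (algebraMap F _ x) = algebraMap F _ x := fun x => by rw [Fr.eq, ← map_pow, ← hF, FiniteField.pow_card]
  have h2 : ∀ x : QuadraticAlgebra F (-b) a, x = algebraMap F _ x.re + .omega * algebraMap F _ x.im := fun x => by ext <;> simp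
  have h3 : QuadraticAlgebra.omega ≠ τ .omega := fun e => by
    have := Fr.card_fix.symm.trans ((Nat.card_congr (Equiv.subtypeUnivEquiv fun x => by rw [h2 x, map_add, map_mul, h1, h1, ← e])).trans Fr.card)
    nlinarith [Fr.lt]
  have h4 : QuadraticAlgebra.omega * .omega = -algebraMap F (QuadraticAlgebra F (-b) a) b + algebraMap F _ a * .omega := by ext <;> simp
  have h5 : QuadraticAlgebra.omega + τ .omega = algebraMap F _ a := mul_left_cancel₀ (sub_ne_zero.2 h3) (by
    have := congrArg τ h4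
    simp only [map_mul, map_add, map_neg, h1] at this
    linear_combination h4 - this)
  obtain ⟨ψ, c, d⟩ := H12.Lt.OM.exists_emb (m := n + 3) τ Fr.iter (algebraMap F _) (b := b) h5 (by linear_combination .omega * h5 - h4) h3
    (fun x => ⟨fun e => ⟨x.re, by
      rw [h2 x, map_add, map_mul, h1, h1, add_right_inj, mul_eq_mul_right_iff, or_iff_right h3.symm] at e
      rw [eq_comm, h2 x, e]; simp⟩, by rintro ⟨x, rfl⟩; exact h1 x⟩) fun x => ⟨_, _, h2 x⟩
  exact H11.gen2_2D Fr c d ((H10.map_commutator' (H10.commutatorEquiv (H10.isometryEquiv (H10.qMinus (n + 3) F a b))).symm).symm.trans (by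
    rw [(H10.Form.isQuad_ofQuad _).commutator_commutator (by simp; omega), Subgroup.map_top_of_surjective _ (MulEquiv.surjective _)]; rfl))

end Cfsg.Agent.S2415
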