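import Cfsg.Statements.S2416
import Cfsg.Agent.H11.StMat
import Cfsg.Agent.H11.CertAll
-- import your own Cfsg.Agent.* helpers here

set_option autoImplicit false
open scoped MatrixGroups
open Cfsg

namespace Cfsg.Agent.S2416
open H11 Cfsg.Lie

def Rb (D : ChevalleyDatum) (e : ℤ) (i j : Node D) : Prop :=
  D.reflectRoot i (D.reflectRoot j (D.simple i)) = D.simple j ∨
    (D.reflectRoot j (D.simple i) ≠ D.simple i ∧ D.reflectRoot j (D.simple i) ≠ D.neg (D.simple i) ∧
      (D.commTerms (D.neg (D.simple i)) (D.reflectRoot j (D.simple i)) = [(D.simple j, e, 1, 1)] ∨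
        D.commTerms (D.neg (D.simple i)) (D.reflectRoot j (D.simple i)) = [(D.simple j, -e, 1, 1)]))

instance instDecRb (D : ChevalleyDatum) (e : ℤ) (i j : Node D) : Decidable (Rb D e i j) := by unfold Rb; infer_instance

def stepJ (D : ChevalleyDatum) (e : ℤ) (l : List (Node D)) : List (Node D) :=
  (List.finRange D.rank).filter fun j => j ∈ l ∨ ∃ i ∈ l, Rb D e i j

theorem gen_of {D : ChevalleyDatum} [Good D] [Cert D] {K G : Type*} [Field K] [Group G] {S : StSys D K G} {M : Subgroup G}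
    (hN : S.N ≤ M) {e : ℤ} (he : (e : K) ≠ 0) {l : List (Node D)} (hl : ∀ i ∈ l, ∀ t, S.x (sroot i) t ∈ M)
    (h : ∀ j, j ∈ (stepJ D e)^[D.rank] l) : S.grp ≤ M := by
  have h1 : ∀ r s, (∀ t, S.x s t ∈ M) → ∀ t, S.x (refl r s) t ∈ M := fun r s hs t => by
    have h0 := StSys.coef_ne_zero (K := K) r s one_ne_zero
    rw [← mul_inv_cancel_left₀ h0 t, ← StSys.n_conj r s one_ne_zero]
    exact mul_mem (mul_mem (hN (StSys.n_one_mem_N r)) (hs _)) (inv_mem (hN (StSys.n_one_mem_N r)))
  have h2 : ∀ i j, Rb D e i j → (∀ t, S.x (sroot i) t ∈ M) → ∀ t, S.x (sroot j) t ∈ M := fun i j hij hi t => by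
    rcases hij with a | ⟨a, b, c⟩
    · have : refl (sroot i) (refl (sroot j) (sroot i)) = sroot j := Fin.ext (by rw [refl_sroot_val, refl_sroot_val]; exact a)
      exact this ▸ h1 _ _ (h1 _ _ hi) t
    · obtain ⟨e, he, h4⟩ : ∃ e : ℤ, (e : K) ≠ 0 ∧
          D.commTerms ((sroot i).rev : Root D) (refl (sroot j) (sroot i) : Root D) = [(D.simple j, e, 1, 1)] := by
        rw [refl_sroot_val, ← neg_val]; exact c.elim (fun h => ⟨e, he, h⟩) fun h => ⟨-e, by simpa using he, h⟩
      have h5 := S.comm (sroot i).rev (refl (sroot j) (sroot i)) (fun h => b (by rw [← sroot_val, ← refl_sroot_val, h, neg_val]))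
        (fun h => a (by rw [← sroot_val, ← refl_sroot_val, h, Fin.rev_rev])) (-1) ((e : K)⁻¹ * t)
      simp only [ChevalleyDatum.commWord, h4, List.map_cons, List.map_nil, wordG_cons, wordG_nil, ← sroot_val, xNat_val,
        neg_neg, pow_one, mul_one, mul_inv_cancel_left₀ he] at h5
      have h6 := h1 (sroot i) _ hi (-1)
      have h7 := h1 (sroot j) _ hi ((e : K)⁻¹ * t)
      rw [refl_self] at h6
      exact (mul_mem_cancel_left (mul_mem h6 h7)).1 (h5 ▸ mul_mem h7 h6)
  have h3 : ∀ n, ∀ i ∈ (stepJ D e)^[n] l, ∀ t, S.x (sroot i) t ∈ M := fun n => by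
    induction n with
    | zero => exact hl
    | succ n ih =>
      rw [Function.iterate_succ_apply']
      intro j hj
      rcases of_decide_eq_true (List.mem_filter.1 hj).2 with a | ⟨i, a, b⟩
      exacts [ih j a, h2 i j b (ih i a)]
  refine StSys.US_le.2 fun r _ => ?_
  induction r using root_induction with
  | h0 i => exact h3 _ i (h i)
  | h1 i s ih => exact h1 _ _ (ih trivial)

theorem ne_zero_of {K : Type*} [Field K] {p : ℕ} (hp : p.Prime) (h : ringChar K ≠ p) : ((p : ℤ) : K) ≠ 0 := fun e =>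
  ((Nat.dvd_prime hp).1 ((ringChar.spec K p).1 (by simpa using e))).elim CharP.ringChar_ne_one h

/-- A Chevalley group of type G₂, B₂, D₄, F₄, E₆, E₇ or E₈ over a finite field lies in (indeed equals) the subgroup generated by its monomial subgroup `N` and a single fundamental root subgroup `X_p`, where `p` is a short fundamental root if there are two root lengths (any fundamental root otherwise), provided the characteristic is not 2 for types B₂, F₄ and not 3 for type G₂ (and the field has more than two elements for B₂, G₂). -/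
theorem result {K : Type*} [Field K] [Finite K] (D : Cfsg.Lie.ChevalleyDatum) (hD : D ∈ [Cfsg.Lie.chevG2, Cfsg.Lie.chevB2, Cfsg.Lie.chevD4, Cfsg.Lie.chevF4, Cfsg.Lie.chevE6, Cfsg.Lie.chevE7, Cfsg.Lie.chevE8])
    (hK : D ∈ [Cfsg.Lie.chevB2, Cfsg.Lie.chevG2] → ∃ x : K, x ≠ 0 ∧ x ≠ 1)
    (h2 : D ∈ [Cfsg.Lie.chevB2, Cfsg.Lie.chevF4] → ringChar K ≠ 2) (h3 : D = Cfsg.Lie.chevG2 → ringChar K ≠ 3)
    (i : ℕ) (hi : i < D.rank) (hshort : D.isLong (D.simple i) = false) :
    D.group K ≤ D.monomialSubgroup K ⊔ D.rootSubgroup K (D.simple i) := by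
  have := good_of_mem hD
  have := cert_of_mem hD
  have key : ∀ e : ℤ, (e : K) ≠ 0 → (∀ j, j ∈ (stepJ D e)^[D.rank] [⟨i, hi⟩]) →
      D.group K ≤ D.monomialSubgroup K ⊔ D.rootSubgroup K (D.simple i) := fun e he h => by
    rw [group_eq, monomialSubgroup_eq, show D.simple i = sroot (D := D) ⟨i, hi⟩ from rfl, rootSubgroup_eq]
    exact gen_of le_sup_left he (fun j hj t => Subgroup.mem_sup_right (StSys.x_mem_US (by simpa using congrArg _ (List.mem_singleton.1 hj)) t)) h
  simp only [List.mem_cons, List.not_mem_nil, or_false] at hD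
  rcases hD with rfl | rfl | rfl | rfl | rfl | rfl | rfl
  · exact key 3 (ne_zero_of Nat.prime_three (h3 rfl)) ((by decide +kernel : ∀ i : Node chevG2, chevG2.isLong (chevG2.simple i) = false → ∀ j, j ∈ (stepJ chevG2 3)^[chevG2.rank] [i]) ⟨i, hi⟩ hshort)
  · exact key 2 (ne_zero_of Nat.prime_two (h2 (by simp))) ((by decide +kernel : ∀ i : Node chevB2, chevB2.isLong (chevB2.simple i) = false → ∀ j, j ∈ (stepJ chevB2 2)^[chevB2.rank] [i]) ⟨i, hi⟩ hshort)
  · exact key 1 (by simp) ((by decide +kernel : ∀ i j : Node chevD4, j ∈ (stepJ chevD4 1)^[chevD4.rank] [i]) _)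
  · exact key 2 (ne_zero_of Nat.prime_two (h2 (by simp))) ((by decide +kernel : ∀ i : Node chevF4, chevF4.isLong (chevF4.simple i) = false → ∀ j, j ∈ (stepJ chevF4 2)^[chevF4.rank] [i]) ⟨i, hi⟩ hshort)
  · exact key 1 (by simp) ((by decide +kernel : ∀ i j : Node chevE6, j ∈ (stepJ chevE6 1)^[chevE6.rank] [i]) _)
  · exact key 1 (by simp) ((by decide +kernel : ∀ i j : Node chevE7, j ∈ (stepJ chevE7 1)^[chevE7.rank] [i]) _)
  · exact key 1 (by simp) ((by decide +kernel : ∀ i j : Node chevE8, j ∈ (stepJ chevE8 1)^[chevE8.rank] [i]) _)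

end Cfsg.Agent.S2416
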