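import Cfsg.Statements.S2417
import Cfsg.Agent.S2416
-- import your own Cfsg.Agent.* helpers here

set_option autoImplicit false
open scoped MatrixGroups
open Cfsg

namespace Cfsg.Agent.S2417
open H11 Cfsg.Lie

/-- In the characteristics with an exceptional graph symmetry — type B₂ or F₄ in characteristic 2 (field of more than two elements for B₂) and type G₂ in characteristic 3 — the Chevalley group lies in the subgroup generated by its monomial subgroup `N` and the two fundamental root subgroups `X_a`, `X_b` of a short root `a` and a long root `b` joined in the Dynkin diagram. -/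
theorem result {K : Type*} [Field K] [Finite K] (e : Cfsg.Lie.ChevalleyDatum × ℕ)
    (he : e ∈ [(Cfsg.Lie.chevB2, 2), (Cfsg.Lie.chevF4, 2), (Cfsg.Lie.chevG2, 3)]) [CharP K e.2]
    (hK : e.1 = Cfsg.Lie.chevB2 → ∃ x : K, x ≠ 0 ∧ x ≠ 1)
    (i j : ℕ) (hi : i < e.1.rank) (hj : j < e.1.rank) (hshort : e.1.isLong (e.1.simple i) = false)
    (hlong : e.1.isLong (e.1.simple j) = true) (hbond : e.1.bonds i j ≠ 0) :
    e.1.group K ≤ e.1.monomialSubgroup K ⊔ e.1.rootSubgroup K (e.1.simple i) ⊔ e.1.rootSubgroup K (e.1.simple j) := by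
  open Cfsg.Agent.S2416 in
  have key : ∀ (D : ChevalleyDatum) [Good D] [Cert D] (hi : i < D.rank) (hj : j < D.rank),
      (∀ k, k ∈ (stepJ D 1)^[D.rank] [⟨i, hi⟩, ⟨j, hj⟩]) →
      D.group K ≤ D.monomialSubgroup K ⊔ D.rootSubgroup K (D.simple i) ⊔ D.rootSubgroup K (D.simple j) := fun D _ _ hi hj h => by
    rw [group_eq, monomialSubgroup_eq, show D.rootSubgroup K (D.simple i) = _ from rootSubgroup_eq K (sroot (D := D) ⟨i, hi⟩),
      show D.rootSubgroup K (D.simple j) = _ from rootSubgroup_eq K (sroot (D := D) ⟨j, hj⟩)]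
    refine gen_of (e := 1) (le_sup_of_le_left le_sup_left) (by simp) (fun k hk t => ?_) h
    rcases List.mem_pair.1 hk with a | a <;> rw [a]
    exacts [Subgroup.mem_sup_left (Subgroup.mem_sup_right (StSys.x_mem_US (Set.mem_singleton _) t)),
      Subgroup.mem_sup_right (StSys.x_mem_US (Set.mem_singleton _) t)]
  simp only [List.mem_cons, List.not_mem_nil, or_false] at he
  rcases he with rfl | rfl | rfl
  · exact key _ hi hj ((by decide +kernel : ∀ i j : Node chevB2, chevB2.isLong (chevB2.simple i) = false →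
      chevB2.isLong (chevB2.simple j) = true → ∀ k, k ∈ (S2416.stepJ chevB2 1)^[chevB2.rank] [i, j]) ⟨i, hi⟩ ⟨j, hj⟩ hshort hlong)
  · exact key _ hi hj ((by decide +kernel : ∀ i j : Node chevF4, chevF4.isLong (chevF4.simple i) = false →
      chevF4.isLong (chevF4.simple j) = true → ∀ k, k ∈ (S2416.stepJ chevF4 1)^[chevF4.rank] [i, j]) ⟨i, hi⟩ ⟨j, hj⟩ hshort hlong)
  · exact key _ hi hj ((by decide +kernel : ∀ i j : Node chevG2, chevG2.isLong (chevG2.simple i) = false →
      chevG2.isLong (chevG2.simple j) = true → ∀ k, k ∈ (S2416.stepJ chevG2 1)^[chevG2.rank] [i, j]) ⟨i, hi⟩ ⟨j, hj⟩ hshort hlong)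

end Cfsg.Agent.S2417
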