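import Mathlib
import Cfsg.Statements.S2418
import Cfsg.Agent.H03.CoxZ

set_option autoImplicit false
open Cfsg

namespace Cfsg.Agent.S2418

theorem connB2 : H03.CoxZ.Conn H11.fastB2 2 := by
  unfold H03.CoxZ.Conn; decide +kernel

theorem connG2 : H03.CoxZ.Conn H11.fastG2 2 := by
  unfold H03.CoxZ.Conn; decide +kernel

theorem connD4 : H03.CoxZ.Conn H11.fastD4 4 := by
  unfold H03.CoxZ.Conn; decide +kernel

theorem connF4 : H03.CoxZ.Conn H11.fastF4 4 := by
  unfold H03.CoxZ.Conn; decide +kernel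

theorem connE6 : H03.CoxZ.Conn H11.fastE6 6 := by
  unfold H03.CoxZ.Conn; decide +kernel

theorem connE7 : H03.CoxZ.Conn H11.fastE7 7 := by
  unfold H03.CoxZ.Conn; decide +kernel

theorem connE8 : H03.CoxZ.Conn H11.fastE8 8 := by
  unfold H03.CoxZ.Conn; decide +kernel


/-- For the Coxeter groups of types B₂, G₂, D₄, F₄, E₇, E₈ the centre has order 2 (the element acting as −1 on the root system) and is generated by a power of the Coxeter element `s₁ s₂ ⋯ s_l`; the Coxeter group of type E₆ has trivial centre. -/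
theorem result (c : (Σ n : ℕ, CoxeterMatrix (Fin n)) × ℕ)
    (hc : c ∈ [(⟨2, CoxeterMatrix.B 2⟩, 2), (⟨2, CoxeterMatrix.G₂⟩, 2), (⟨4, Cfsg.Lie.coxeterD4⟩, 2), (⟨4, CoxeterMatrix.F₄⟩, 2),
      (⟨6, CoxeterMatrix.E₆⟩, 1), (⟨7, CoxeterMatrix.E₇⟩, 2), (⟨8, CoxeterMatrix.E₈⟩, 2)]) :
    Nat.card (Subgroup.center c.1.2.Group) = c.2 ∧
      Subgroup.center c.1.2.Group ≤ Subgroup.zpowers ((List.finRange c.1.1).map c.1.2.simple).prod := by
  simp only [List.mem_cons, List.not_mem_nil, or_false] at hc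
  rcases hc with rfl | rfl | rfl | rfl | rfl | rfl | rfl <;> dsimp only
  · obtain ⟨e, he⟩ := H03.CoxZ.map_cox H11.coxB2
    rw [← he]
    exact H03.CoxZ.transfer_center e (H03.CoxZ.center_two H11.agreeB2 connB2 (0 : Fin 2) (List.finRange 2) 2 (by decide +kernel))
  · obtain ⟨e, he⟩ := H03.CoxZ.map_cox H11.coxG2
    rw [← he]
    exact H03.CoxZ.transfer_center e (H03.CoxZ.center_two H11.agreeG2 connG2 (0 : Fin 2) (List.finRange 2) 3 (by decide +kernel))
  · obtain ⟨e, he⟩ := H03.CoxZ.map_cox H11.coxD4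
    rw [← he]
    exact H03.CoxZ.transfer_center e (H03.CoxZ.center_two H11.agreeD4 connD4 (0 : Fin 4) (List.finRange 4) 3 (by decide +kernel))
  · obtain ⟨e, he⟩ := H03.CoxZ.map_cox H11.coxF4
    rw [← he]
    exact H03.CoxZ.transfer_center e (H03.CoxZ.center_two H11.agreeF4 connF4 (0 : Fin 4) (List.finRange 4) 6 (by decide +kernel))
  · obtain ⟨e, he⟩ := H03.CoxZ.map_cox H11.coxE6
    rw [← he]
    have h := H03.CoxZ.center_one H11.agreeE6 connE6 (0 : Fin 6)
      ([0, 1, 2, 0, 3, 1, 2, 0, 3, 2, 4, 3, 1, 2, 0, 3, 2, 4, 3, 1, 5, 4, 3, 1, 2, 0, 3, 2, 4, 3, 1, 5, 4, 3, 2, 0] : List (Fin 6))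
      (![5, 1, 4, 3, 2, 0] : Fin 6 → Fin 6) (show ∀ i : Fin 6, _ by decide +kernel) (by decide +kernel)
    exact H03.CoxZ.transfer_center e ⟨by rw [h]; simp, by rw [h]; exact bot_le⟩
  · obtain ⟨e, he⟩ := H03.CoxZ.map_cox H11.coxE7
    rw [← he]
    exact H03.CoxZ.transfer_center e (H03.CoxZ.center_two H11.agreeE7 connE7 (0 : Fin 7) (List.finRange 7) 9 (by decide +kernel))
  · obtain ⟨e, he⟩ := H03.CoxZ.map_cox H11.coxE8
    rw [← he]
    exact H03.CoxZ.transfer_center e (H03.CoxZ.center_two H11.agreeE8 connE8 (0 : Fin 8) (List.finRange 8) 15 (by decide +kernel))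

end Cfsg.Agent.S2418
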