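import Cfsg.Statements.S2426
import Cfsg.Agent.H12.SL2Pres
-- import your own Cfsg.Agent.* helpers here

set_option autoImplicit false
open Cfsg

namespace Cfsg.Agent.S2426


/-- The rank-one Steinberg presentation of `SL₂` over a finite field `K`: generators `x(t)`, `y(t)` (`t ∈ K`; the two opposite root subgroups) subject to additivity `x(t)x(u) = x(t+u)`, `y(t)y(u) = y(t+u)` and, with `w(t) = x(t) y(−t⁻¹) x(t)` and `w'(t) = y(t) x(−t⁻¹) y(t)` for `t ≠ 0`, the relations `w(t) x(u) w(t)⁻¹ = y(−t⁻² u)` and `w'(t) y(u) w'(t)⁻¹ = x(−t⁻² u)`, present `SL₂(K)`, with `x(t) ↦ (1 t; 0 1)` and `y(t) ↦ (1 0; t 1)`. -/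
theorem result {K : Type*} [Field K] [Finite K] :
    ∃ e : PresentedGroup
        ({g : FreeGroup (Bool × K) | ∃ (b : Bool) (t u : K), g = FreeGroup.of (b, t) * FreeGroup.of (b, u) * (FreeGroup.of (b, t + u))⁻¹} ∪
          {g | ∃ (b : Bool) (t u : K), t ≠ 0 ∧
            g = (FreeGroup.of (b, t) * FreeGroup.of (!b, -t⁻¹) * FreeGroup.of (b, t)) * FreeGroup.of (b, u) *
                  (FreeGroup.of (b, t) * FreeGroup.of (!b, -t⁻¹) * FreeGroup.of (b, t))⁻¹ * (FreeGroup.of (!b, -(t⁻¹ ^ 2 * u)))⁻¹})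
        ≃* Matrix.SpecialLinearGroup (Fin 2) K,
      (∀ t : K, ((e (PresentedGroup.of (true, t)) : Matrix (Fin 2) (Fin 2) K)) = !![1, t; 0, 1]) ∧
      (∀ t : K, ((e (PresentedGroup.of (false, t)) : Matrix (Fin 2) (Fin 2) K)) = !![1, 0; t, 1]) := by
  set R : Set (FreeGroup (Bool × K)) := ({g : FreeGroup (Bool × K) | ∃ (b : Bool) (t u : K), g = FreeGroup.of (b, t) * FreeGroup.of (b, u) * (FreeGroup.of (b, t + u))⁻¹} ∪
          {g | ∃ (b : Bool) (t u : K), t ≠ 0 ∧
            g = (FreeGroup.of (b, t) * FreeGroup.of (!b, -t⁻¹) * FreeGroup.of (b, t)) * FreeGroup.of (b, u) *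
                  (FreeGroup.of (b, t) * FreeGroup.of (!b, -t⁻¹) * FreeGroup.of (b, t))⁻¹ * (FreeGroup.of (!b, -(t⁻¹ ^ 2 * u)))⁻¹})
  have hadd : ∀ b t u, (PresentedGroup.of (b, t + u) : PresentedGroup R) = PresentedGroup.of (b, t) * PresentedGroup.of (b, u) := by
    intro b t u
    have := PresentedGroup.one_of_mem (rels := R) (Or.inl ⟨b, t, u, rfl⟩)
    simp only [map_mul, map_inv, mul_inv_eq_one] at this
    exact this.symm
  have hR : H12.SL2Rel (fun t => (PresentedGroup.of (true, t) : PresentedGroup R)) fun t => PresentedGroup.of (false, t) := by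
    refine ⟨hadd true, hadd false, fun t u ht => ?_⟩
    have := PresentedGroup.one_of_mem (rels := R) (Or.inr ⟨true, t, u, ht, rfl⟩)
    simp only [map_mul, map_inv, mul_inv_eq_one] at this
    simpa [H12.wEl, PresentedGroup.of, mul_assoc] using this
  obtain ⟨φ, h1, h2⟩ := hR.exists_hom hR.h_mul_of_finite
  let f : Bool × K → Matrix.SpecialLinearGroup (Fin 2) K := fun p => if p.1 then H12.upSL p.2 else H12.loSL p.2
  have hf : ∀ g ∈ R, FreeGroup.lift f g = 1 := by
    have S := H12.sl2Rel (K := K)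
    rintro g (⟨b, t, u, rfl⟩ | ⟨b, t, u, ht, rfl⟩)
    · cases b <;> simp [f, S.hx, S.hy]
    · cases b
      · have e := S.w_symm (-t⁻¹) (by simpa using ht)
        have e2 := S.w_y (-t⁻¹) u (by simpa using ht)
        simp only [map_mul, map_inv, FreeGroup.lift_apply_of, f, Bool.not_false, if_true, Bool.false_eq_true, if_false]
        rw [show -(-t⁻¹)⁻¹ = t by simp] at e
        rw [← e, e2]; simp
      · simp only [map_mul, map_inv, FreeGroup.lift_apply_of, f, Bool.not_true, if_true, Bool.false_eq_true, if_false]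
        rw [mul_inv_eq_one]; exact S.hw t u ht
  refine ⟨MonoidHom.toMulEquiv (PresentedGroup.toGroup hf) φ ?_ ?_, fun t => ?_, fun t => ?_⟩
  · ext ⟨b, t⟩; cases b <;> simp [f, h1, h2]
  · have := H12.sl2_induction (H := MonoidHom.eqLocus ((PresentedGroup.toGroup hf).comp φ) (MonoidHom.id _))
      (fun t => show _ = _ by simp [h1, f]) (fun t => show _ = _ by simp [h2, f])
    ext1 g
    exact (this ▸ Subgroup.mem_top g : g ∈ MonoidHom.eqLocus _ _)
  · simp [f]
  · simp [f]

end Cfsg.Agent.S2426
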