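import Mathlib
import Cfsg.Agent.L.SL2Loc
-- Template for statement S2427 (row 2427; see /opt/grader/pristine/manifest.json for weights).
-- Copy to Cfsg/Agent/S2427.lean and replace the sorry. The statement below is byte-identical to the frozen
-- statement Cfsg.CfsgFrozen.S2427 (Cfsg/Statements/S2427.lean; the theorem Cfsg.lie5_special_linear_two_three_structure);
-- the grader kernel-checks Cfsg.Agent.S2427.result against that frozen type. Keep the theorem IN THIS FILE
-- (a `result` declared elsewhere and merely imported here is not credited); helpers may live anywhere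
-- under Cfsg/Agent/.
import Cfsg.Statements.S2427
-- import your own Cfsg.Agent.* helpers here

set_option autoImplicit false
open Cfsg

namespace Cfsg.Agent.S2427

abbrev G := Matrix.SpecialLinearGroup (Fin 2) (ZMod 3)

def slA : G := ⟨!![0, 2; 1, 0], by decide⟩
def slB : G := ⟨!![1, 1; 1, 2], by decide⟩

def q8sl : QuaternionGroup 2 → G
  | .a i => slA ^ i.val
  | .xa i => slB * slA ^ i.val

theorem q8sl_mul : ∀ x y, q8sl (x * y) = q8sl x * q8sl y := by decide +kernel

def Q : Subgroup G := (MonoidHom.mk' q8sl q8sl_mul).range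

theorem q_inj : ∀ x y, q8sl x = q8sl y → x = y := by decide +kernel

theorem a1 : ∀ g : G, (∃ x, q8sl x = g) ↔ g ^ 4 = 1 := by decide +kernel

theorem a2 : ∀ g : G, g ^ 4 = 1 → ∃ a b : G, a * b * a⁻¹ * b⁻¹ = g := by decide +kernel

theorem a3 : ∀ a b : G, (a * b * a⁻¹ * b⁻¹) ^ 4 = 1 := by decide +kernel

theorem a4 : ∀ g : G, g ≠ 1 → g ≠ -1 → ∀ x : G, x ^ 4 = 1 →
    ∃ a b : G, a * g * a⁻¹ * (b * g⁻¹ * b⁻¹) = x ∨ (a * g * a⁻¹ * (b * g⁻¹ * b⁻¹)) ^ 2 = x := by decide +kernel

theorem hc : commutator G = Q := by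
  apply le_antisymm
  · rw [commutator_def, Subgroup.commutator_le]
    exact fun a _ b _ => (a1 _).2 (a3 a b)
  · intro g hg
    obtain ⟨a, b, rfl⟩ := a2 g ((a1 g).1 hg)
    exact Subgroup.commutator_mem_commutator (Subgroup.mem_top a) (Subgroup.mem_top b)

/-- The group SL₂ over the field with 3 elements has order 24 and centre of order 2; its commutator subgroup has order 8, is isomorphic to the quaternion group of order 8 and is complemented by every Sylow 3-subgroup (so the group is a semidirect product of a quaternion group of order 8 by a cyclic group of order 3); and its only normal subgroups besides the trivial subgroup and the whole group are the centre and the commutator subgroup. -/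
theorem result :
    Nat.card (Matrix.SpecialLinearGroup (Fin 2) (ZMod 3)) = 24 ∧
    Nat.card (Subgroup.center (Matrix.SpecialLinearGroup (Fin 2) (ZMod 3))) = 2 ∧
    Nat.card (commutator (Matrix.SpecialLinearGroup (Fin 2) (ZMod 3))) = 8 ∧
    Nonempty (commutator (Matrix.SpecialLinearGroup (Fin 2) (ZMod 3)) ≃* QuaternionGroup 2) ∧
    (∀ P : Sylow 3 (Matrix.SpecialLinearGroup (Fin 2) (ZMod 3)),
      Subgroup.IsComplement' (commutator (Matrix.SpecialLinearGroup (Fin 2) (ZMod 3)))
        (P : Subgroup (Matrix.SpecialLinearGroup (Fin 2) (ZMod 3)))) ∧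
    ∀ N : Subgroup (Matrix.SpecialLinearGroup (Fin 2) (ZMod 3)), N.Normal →
      N = ⊥ ∨ N = ⊤ ∨ N = Subgroup.center (Matrix.SpecialLinearGroup (Fin 2) (ZMod 3)) ∨
        N = commutator (Matrix.SpecialLinearGroup (Fin 2) (ZMod 3)) := by
  have h1 : Nat.card G = 24 := by rw [L.SLc.card_SL2, ZMod.card]; rfl
  have e : commutator G ≃* QuaternionGroup 2 :=
    (MulEquiv.subgroupCongr hc).trans (MonoidHom.ofInjective (fun x y => q_inj x y)).symm
  have h3 : Nat.card (commutator G) = 8 := by
    rw [Nat.card_congr e.toEquiv, Nat.card_eq_fintype_card, QuaternionGroup.card]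
  have h4 : ∀ g : G, g ∈ Subgroup.center G ↔ g = 1 ∨ g = -1 := fun g => by
    rw [L.SLc.mem_center_iff_isScal, L.SL2_scal_iff]
  have h5 : (-1 : G) ≠ 1 := by decide
  have h2 : Nat.card (Subgroup.center G) = 2 := by
    refine Nat.card_eq_two_iff.2 ⟨1, ⟨-1, (h4 _).2 (Or.inr rfl)⟩, fun h => h5 (congrArg Subtype.val h).symm, ?_⟩
    rw [Set.eq_univ_iff_forall]
    rintro ⟨g, hg⟩
    rcases (h4 g).1 hg with rfl | rfl
    exacts [Or.inl rfl, Or.inr rfl]
  refine ⟨h1, h2, h3, ⟨e⟩, fun P => ?_, fun N hN => ?_⟩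
  · have hP : Nat.card P = 3 := by
      rw [P.card_eq_multiplicity, h1, show 24 = 3 ^ 1 * 8 by rfl, Nat.factorization_mul (by decide) (by decide),
        Nat.Prime.factorization_pow Nat.prime_three]
      simp [Nat.factorization_eq_zero_of_not_dvd (show ¬ 3 ∣ 8 by decide)]
    exact Subgroup.isComplement'_of_coprime (by rw [h3, hP, h1]) (by rw [h3, hP]; decide)
  · by_cases h : ∃ g ∈ N, g ≠ 1 ∧ g ≠ -1
    · obtain ⟨g, hg, h6, h7⟩ := h
      have hle : commutator G ≤ N := fun x hx => by
        obtain ⟨a, b, rfl | rfl⟩ := a4 g h6 h7 x ((a1 x).1 (by rwa [hc] at hx))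
        · exact N.mul_mem (hN.conj_mem _ hg a) (hN.conj_mem _ (N.inv_mem hg) b)
        · exact N.pow_mem (N.mul_mem (hN.conj_mem _ hg a) (hN.conj_mem _ (N.inv_mem hg) b)) 2
      have h8 := Subgroup.card_dvd_of_le hle
      have h9 := Subgroup.card_subgroup_dvd_card N
      rw [h1] at h9; rw [h3] at h8
      have h10 := Nat.le_of_dvd (by decide) h9
      have : Nat.card N = 8 ∨ Nat.card N = 24 := by
        generalize Nat.card N = n at h8 h9 h10
        interval_cases n <;> omega
      rcases this with h | h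
      · exact Or.inr (Or.inr (Or.inr (Subgroup.eq_of_le_of_card_ge hle (by rw [h, h3])).symm))
      · exact Or.inr (Or.inl (Subgroup.eq_top_of_card_eq _ (h.trans h1.symm)))
    · push Not at h
      by_cases h6 : (-1 : G) ∈ N
      · refine Or.inr (Or.inr (Or.inl (Subgroup.ext fun g => ?_)))
        rw [h4]
        refine ⟨fun hg => or_iff_not_imp_left.2 (h g hg), ?_⟩
        rintro (rfl | rfl)
        exacts [N.one_mem, h6]
      · refine Or.inl ((Subgroup.eq_bot_iff_forall _).2 fun g hg => ?_)
        by_contra h7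
        exact h6 (h g hg h7 ▸ hg)

end Cfsg.Agent.S2427
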