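import Mathlib
import Cfsg.Agent.L.SL2Loc
-- Template for statement S2428 (row 2428; see /opt/grader/pristine/manifest.json for weights).
-- Copy to Cfsg/Agent/S2428.lean and replace the sorry. The statement below is byte-identical to the frozen
-- statement Cfsg.CfsgFrozen.S2428 (Cfsg/Statements/S2428.lean; the theorem Cfsg.lie5_special_linear_two_split_torus_normalizer_odd);
-- the grader kernel-checks Cfsg.Agent.S2428.result against that frozen type. Keep the theorem IN THIS FILE
-- (a `result` declared elsewhere and merely imported here is not credited); helpers may live anywhere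
-- under Cfsg/Agent/.
import Cfsg.Statements.S2428
-- import your own Cfsg.Agent.* helpers here

set_option autoImplicit false
open Cfsg

namespace Cfsg.Agent.S2428

/-- Let F be a finite field with q elements, q odd, and let d be a diagonal element of SL₂ over F whose diagonal entry a has a² ≠ 1 (such d exist exactly when q > 3). Then the centraliser of d is precisely the diagonal subgroup T; the normaliser of T has order 2(q − 1) and exactly (q + 5)/2 conjugacy classes; and every element of that normaliser outside T has square equal to −1. -/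
theorem result {F : Type*} [Field F] [Fintype F] (hodd : Odd (Fintype.card F))
    (d : Matrix.SpecialLinearGroup (Fin 2) F) (hd01 : (d : Matrix (Fin 2) (Fin 2) F) 0 1 = 0) (hd10 : (d : Matrix (Fin 2) (Fin 2) F) 1 0 = 0) (hda : (d : Matrix (Fin 2) (Fin 2) F) 0 0 ^ 2 ≠ 1) :
    (∀ g : Matrix.SpecialLinearGroup (Fin 2) F, g ∈ Subgroup.centralizer ({d} : Set (Matrix.SpecialLinearGroup (Fin 2) F)) ↔ ((g : Matrix (Fin 2) (Fin 2) F) 0 1 = 0 ∧ (g : Matrix (Fin 2) (Fin 2) F) 1 0 = 0)) ∧
    Nat.card (Subgroup.normalizer ((Subgroup.centralizer ({d} : Set (Matrix.SpecialLinearGroup (Fin 2) F))) : Set (Matrix.SpecialLinearGroup (Fin 2) F))) = 2 * (Fintype.card F - 1) ∧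
    Nat.card (ConjClasses (Subgroup.normalizer ((Subgroup.centralizer ({d} : Set (Matrix.SpecialLinearGroup (Fin 2) F))) : Set (Matrix.SpecialLinearGroup (Fin 2) F)))) = (Fintype.card F + 5) / 2 ∧
    ∀ g : Matrix.SpecialLinearGroup (Fin 2) F, g ∈ Subgroup.normalizer ((Subgroup.centralizer ({d} : Set (Matrix.SpecialLinearGroup (Fin 2) F))) : Set (Matrix.SpecialLinearGroup (Fin 2) F)) →
      g ∉ Subgroup.centralizer ({d} : Set (Matrix.SpecialLinearGroup (Fin 2) F)) → ((g * g) : Matrix (Fin 2) (Fin 2) F) = -1 := by
  classical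
  have h2 := L.two_ne_zero_of_odd hodd
  have hdet := L.SL2_det d
  rw [hd01, zero_mul, sub_zero] at hdet
  have hab : (d : L.M2 F) 0 0 ≠ (d : L.M2 F) 1 1 := fun e => hda (by rw [sq]; nth_rewrite 2 [e]; exact hdet)
  have htr : (d : L.M2 F).trace = (d : L.M2 F) 0 0 + (d : L.M2 F) 1 1 := Matrix.trace_fin_two _
  have ht := L.SLc.trace_sq_ne_of_split hab htr hdet
  have hc := L.card_centralizer_SL_split hab htr hdet
  refine ⟨fun g => ?_, by rw [L.card_normalizer_torus ht, hc], ?_, fun g h1 h3 => ?_⟩
  · rw [L.mem_centralizer_SL, L.m2_ext_iff]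
    simp only [L.m2_mul_apply, hd01, hd10]
    constructor
    · rintro ⟨-, h1, h3, -⟩
      exact ⟨mul_right_cancel₀ (sub_ne_zero.2 hab) (by linear_combination -h1),
        mul_right_cancel₀ (sub_ne_zero.2 hab) (by linear_combination h3)⟩
    · rintro ⟨h1, h3⟩
      simp [h1, h3, mul_comm]
  · have : 2 * Nat.card (ConjClasses (Subgroup.normalizer ((Subgroup.centralizer ({d} : Set (L.SL2 F))) : Set (L.SL2 F)))) =
        _ := L.SLc.card_conjClasses_normalizer_torus h2 ht
    rw [hc] at this
    have h5 := Fintype.one_lt_card (α := F)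
    exact Nat.eq_div_of_mul_eq_right two_ne_zero (this.trans (by omega))
  · exact congrArg Subtype.val (L.sq_eq_neg_one_of_notMem ht h1 h3)

end Cfsg.Agent.S2428
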