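import Mathlib
import Cfsg.Agent.L.SL2Loc
-- Template for statement S2429 (row 2429; see /opt/grader/pristine/manifest.json for weights).
-- Copy to Cfsg/Agent/S2429.lean and replace the sorry. The statement below is byte-identical to the frozen
-- statement Cfsg.CfsgFrozen.S2429 (Cfsg/Statements/S2429.lean; the theorem Cfsg.lie5_special_linear_two_nonsplit_torus_normalizer_odd);
-- the grader kernel-checks Cfsg.Agent.S2429.result against that frozen type. Keep the theorem IN THIS FILE
-- (a `result` declared elsewhere and merely imported here is not credited); helpers may live anywhere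
-- under Cfsg/Agent/.
import Cfsg.Statements.S2429
-- import your own Cfsg.Agent.* helpers here

set_option autoImplicit false
open Cfsg

namespace Cfsg.Agent.S2429

/-- Let F be a finite field with q elements, q odd. Then SL₂ over F contains a cyclic subgroup T′ of order q + 1 (a non-split torus) with the following properties: T′ is its own centraliser, and indeed the centraliser of each element of T′ other than 1 and −1 is exactly T′; every element of SL₂ having no eigenvector in F² is conjugate to an element of T′; the normaliser of T′ has order 2(q + 1) and exactly (q + 7)/2 conjugacy classes; and every element of that normaliser outside T′ has square −1. -/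
theorem result {F : Type*} [Field F] [Fintype F] (hodd : Odd (Fintype.card F)) :
    ∃ T' : Subgroup (Matrix.SpecialLinearGroup (Fin 2) F), IsCyclic T' ∧ Nat.card T' = Fintype.card F + 1 ∧
      Subgroup.centralizer ((T' : Set (Matrix.SpecialLinearGroup (Fin 2) F))) = T' ∧
      (∀ g : Matrix.SpecialLinearGroup (Fin 2) F, g ∈ T' → (g : Matrix (Fin 2) (Fin 2) F) ≠ 1 → (g : Matrix (Fin 2) (Fin 2) F) ≠ -1 → Subgroup.centralizer ({g} : Set (Matrix.SpecialLinearGroup (Fin 2) F)) = T') ∧
      (∀ g : Matrix.SpecialLinearGroup (Fin 2) F, (∀ (c : F) (v : Fin 2 → F), v ≠ 0 → (g : Matrix (Fin 2) (Fin 2) F).mulVec v ≠ c • v) → ∃ h : Matrix.SpecialLinearGroup (Fin 2) F, h * g * h⁻¹ ∈ T') ∧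
      Nat.card (Subgroup.normalizer (T' : Set (Matrix.SpecialLinearGroup (Fin 2) F))) = 2 * (Fintype.card F + 1) ∧
      Nat.card (ConjClasses (Subgroup.normalizer (T' : Set (Matrix.SpecialLinearGroup (Fin 2) F)))) = (Fintype.card F + 7) / 2 ∧
      ∀ g : Matrix.SpecialLinearGroup (Fin 2) F, g ∈ Subgroup.normalizer (T' : Set (Matrix.SpecialLinearGroup (Fin 2) F)) → g ∉ T' → ((g * g) : Matrix (Fin 2) (Fin 2) F) = -1 := by
  classical
  have h2 := L.two_ne_zero_of_odd hodd
  obtain ⟨g₀, h₀⟩ := L.exists_noEig_SL (F := F)
  have ht := h₀.SL_trace_sq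
  have hc := L.card_centralizer_SL_noEig h₀
  refine ⟨Subgroup.centralizer {g₀}, L.isCyclic_centralizer_SL ht, hc,
    L.centralizer_of_le_torus h₀.not_isScal le_rfl (L.mem_centralizer_SL.2 rfl) h₀.not_isScal,
    fun g hg h1 h3 => L.centralizer_eq_of_mem h₀.not_isScal hg fun h => ?_, fun g hg => L.exists_conj_mem_torus h₀ hg,
    by rw [L.card_normalizer_torus ht, hc], ?_,
    fun g h1 h3 => congrArg Subtype.val (L.sq_eq_neg_one_of_notMem ht h1 h3)⟩
  · rcases L.SL2_scal_iff.1 h with rfl | rfl
    exacts [h1 rfl, h3 rfl]
  · have : 2 * Nat.card (ConjClasses (Subgroup.normalizer ((Subgroup.centralizer ({g₀} : Set (L.SL2 F))) : Set (L.SL2 F)))) =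
        _ := L.SLc.card_conjClasses_normalizer_torus h2 ht
    rw [hc] at this
    exact Nat.eq_div_of_mul_eq_right two_ne_zero (this.trans (by omega))

end Cfsg.Agent.S2429
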