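import Mathlib
import Cfsg.Agent.L.SL2Loc
-- Template for statement S2430 (row 2430; see /opt/grader/pristine/manifest.json for weights).
-- Copy to Cfsg/Agent/S2430.lean and replace the sorry. The statement below is byte-identical to the frozen
-- statement Cfsg.CfsgFrozen.S2430 (Cfsg/Statements/S2430.lean; the theorem Cfsg.lie5_special_linear_two_odd_sylow_centralizer_normalizer);
-- the grader kernel-checks Cfsg.Agent.S2430.result against that frozen type. Keep the theorem IN THIS FILE
-- (a `result` declared elsewhere and merely imported here is not credited); helpers may live anywhere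
-- under Cfsg/Agent/.
import Cfsg.Statements.S2430
-- import your own Cfsg.Agent.* helpers here

set_option autoImplicit false
open Cfsg

namespace Cfsg.Agent.S2430

/-- Let F be a finite field with q elements, q odd, ℓ an odd prime, and P a Sylow ℓ-subgroup of SL₂ over F. If ℓ divides q − 1, the centraliser of P is cyclic of order q − 1 (a split torus) and the normaliser of P has order 2(q − 1); if ℓ divides q + 1, the centraliser of P is cyclic of order q + 1 (a non-split torus) and the normaliser of P has order 2(q + 1). -/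
theorem result {F : Type*} [Field F] [Fintype F] (hodd : Odd (Fintype.card F)) (ℓ : ℕ) [Fact ℓ.Prime] (hℓ : ℓ ≠ 2)
    (P : Sylow ℓ (Matrix.SpecialLinearGroup (Fin 2) F)) :
    (ℓ ∣ Fintype.card F - 1 →
      Nat.card (Subgroup.centralizer ((P : Subgroup (Matrix.SpecialLinearGroup (Fin 2) F)) : Set (Matrix.SpecialLinearGroup (Fin 2) F))) = Fintype.card F - 1 ∧
      IsCyclic (Subgroup.centralizer ((P : Subgroup (Matrix.SpecialLinearGroup (Fin 2) F)) : Set (Matrix.SpecialLinearGroup (Fin 2) F))) ∧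
      Nat.card (Subgroup.normalizer ((P : Subgroup (Matrix.SpecialLinearGroup (Fin 2) F)) : Set (Matrix.SpecialLinearGroup (Fin 2) F))) = 2 * (Fintype.card F - 1)) ∧
    (ℓ ∣ Fintype.card F + 1 →
      Nat.card (Subgroup.centralizer ((P : Subgroup (Matrix.SpecialLinearGroup (Fin 2) F)) : Set (Matrix.SpecialLinearGroup (Fin 2) F))) = Fintype.card F + 1 ∧
      IsCyclic (Subgroup.centralizer ((P : Subgroup (Matrix.SpecialLinearGroup (Fin 2) F)) : Set (Matrix.SpecialLinearGroup (Fin 2) F))) ∧
      Nat.card (Subgroup.normalizer ((P : Subgroup (Matrix.SpecialLinearGroup (Fin 2) F)) : Set (Matrix.SpecialLinearGroup (Fin 2) F))) = 2 * (Fintype.card F + 1)) := by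
  classical
  have hl : ℓ.Prime := Fact.out
  have h1 := Fintype.one_lt_card (α := F)
  have key : ∀ g : L.SL2 F, (g : L.M2 F).trace ^ 2 ≠ 4 → ∀ n, Nat.card (L.SLc.C g) = n → ℓ ∣ n → ¬ ℓ ∣ (L.SLc.C g).index →
      Nat.card (Subgroup.centralizer ((P : Subgroup (L.SL2 F)) : Set (L.SL2 F))) = n ∧
      IsCyclic (Subgroup.centralizer ((P : Subgroup (L.SL2 F)) : Set (L.SL2 F))) ∧
      Nat.card (Subgroup.normalizer ((P : Subgroup (L.SL2 F)) : Set (L.SL2 F))) = 2 * n := by
    rintro g hg _ rfl h3 h4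
    obtain ⟨g', h5, h6, -, h7, h8⟩ := L.SLc.sylow_torus hℓ P hg h3 h4
    rw [h7, h8]
    exact ⟨h6, L.isCyclic_centralizer_SL h5, by rw [L.card_normalizer_torus h5, h6]⟩
  have k2 : ∀ a b : ℕ, ℓ ∣ a → ℓ ∣ b → (b = a + 1 ∨ b = a + 2) → False := by
    rintro a b ha hb (rfl | rfl)
    · exact hl.not_dvd_one ((Nat.dvd_add_right ha).1 hb)
    · exact hℓ ((Nat.prime_dvd_prime_iff_eq hl Nat.prime_two).1 ((Nat.dvd_add_right ha).1 hb))
  refine ⟨fun h => ?_, fun h => ?_⟩
  · have h3 : 4 ≤ Fintype.card F := by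
      have := Nat.le_of_dvd (by omega) h
      have := hl.two_le
      omega
    obtain ⟨a, ha⟩ := L.SLc.exists_unit_sq_ne_one h3
    refine key _ (L.SLc.trace_sq_dg ha) _ (L.SLc.card_C_dg ha) h ?_
    rw [L.SLc.index_C_of_sub (L.SLc.card_C_dg ha), hl.dvd_mul]
    rintro (h4 | h4) <;> exact k2 _ _ h h4 (by omega)
  · obtain ⟨g₀, h₀⟩ := L.exists_noEig_SL (F := F)
    refine key _ h₀.SL_trace_sq _ (L.card_centralizer_SL_noEig h₀) h ?_
    rw [L.SLc.index_C_of_add (L.card_centralizer_SL_noEig h₀), hl.dvd_mul]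
    rintro (h4 | h4) <;> exact k2 _ _ h4 h (by omega)

end Cfsg.Agent.S2430
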