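import Mathlib
import Cfsg.Agent.L.SL2Char
-- Template for statement S2434 (row 2434; see /opt/grader/pristine/manifest.json for weights).
-- Copy to Cfsg/Agent/S2434.lean and replace the sorry. The statement below is byte-identical to the frozen
-- statement Cfsg.CfsgFrozen.S2434 (Cfsg/Statements/S2434.lean; the theorem Cfsg.lie5_special_linear_two_cuspidal_characters_odd);
-- the grader kernel-checks Cfsg.Agent.S2434.result against that frozen type. Keep the theorem IN THIS FILE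
-- (a `result` declared elsewhere and merely imported here is not credited); helpers may live anywhere
-- under Cfsg/Agent/.
import Cfsg.Statements.S2434
-- import your own Cfsg.Agent.* helpers here

set_option autoImplicit false
open Cfsg

namespace Cfsg.Agent.S2434

/-- Let F be a finite field with q elements, q odd, and C a cyclic subgroup of order q + 1 of SL₂ over F (a non-split torus; it contains the centre). For every homomorphism θ from C to the non-zero complex numbers with θ² ≠ 1 there is an irreducible complex character χ of degree q − 1 such that χ(c) = −θ(c) − θ(c)⁻¹ for every non-central c in C, χ(zg) = θ(z)χ(g) for central z in C, χ vanishes at diagonal elements with entry a, a² ≠ 1, and χ takes the value −1 at every upper unitriangular element other than 1. Conversely every irreducible character of degree q − 1 has, for some such θ, the values −θ(c) − θ(c)⁻¹ at the non-central elements c of C (for q ≥ 5 these are exactly the cuspidal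 characters of degree q − 1). -/
theorem result {F : Type*} [Field F] [Fintype F] (hodd : Odd (Fintype.card F))
    (C : Subgroup (Matrix.SpecialLinearGroup (Fin 2) F)) (hC : IsCyclic C) (hcard : Nat.card C = Fintype.card F + 1) :
    (∀ θ : C →* ℂˣ, (∃ c : C, θ c ^ 2 ≠ 1) →
      ∃ χ : Matrix.SpecialLinearGroup (Fin 2) F → ℂ, Cfsg.IsIrrCharacter (Matrix.SpecialLinearGroup (Fin 2) F) χ ∧ χ 1 = (Fintype.card F : ℂ) - 1 ∧
        (∀ c : C, (c : Matrix.SpecialLinearGroup (Fin 2) F) ∉ Subgroup.center (Matrix.SpecialLinearGroup (Fin 2) F) → χ c = -((θ c).val + (θ c)⁻¹.val)) ∧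
        (∀ c : C, (c : Matrix.SpecialLinearGroup (Fin 2) F) ∈ Subgroup.center (Matrix.SpecialLinearGroup (Fin 2) F) → ∀ g : Matrix.SpecialLinearGroup (Fin 2) F, χ ((c : Matrix.SpecialLinearGroup (Fin 2) F) * g) = (θ c).val * χ g) ∧
        (∀ g : Matrix.SpecialLinearGroup (Fin 2) F, (g : Matrix (Fin 2) (Fin 2) F) 0 1 = 0 → (g : Matrix (Fin 2) (Fin 2) F) 1 0 = 0 → (g : Matrix (Fin 2) (Fin 2) F) 0 0 ^ 2 ≠ 1 → χ g = 0) ∧
        (∀ g : Matrix.SpecialLinearGroup (Fin 2) F, (g : Matrix (Fin 2) (Fin 2) F) 1 0 = 0 → (g : Matrix (Fin 2) (Fin 2) F) 0 0 = 1 → (g : Matrix (Fin 2) (Fin 2) F) 1 1 = 1 → (g : Matrix (Fin 2) (Fin 2) F) 0 1 ≠ 0 → χ g = -1)) ∧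
    (∀ χ : Matrix.SpecialLinearGroup (Fin 2) F → ℂ, Cfsg.IsIrrCharacter (Matrix.SpecialLinearGroup (Fin 2) F) χ → χ 1 = (Fintype.card F : ℂ) - 1 →
      ∃ θ : C →* ℂˣ, (∃ c : C, θ c ^ 2 ≠ 1) ∧
        ∀ c : C, (c : Matrix.SpecialLinearGroup (Fin 2) F) ∉ Subgroup.center (Matrix.SpecialLinearGroup (Fin 2) F) → χ c = -((θ c).val + (θ c)⁻¹.val)) := by
  classical
  obtain ⟨g₀, h₀, rfl⟩ := L.SLc.exists_eq_C hC hcard
  have hsq : ∀ θ : L.SLc.C g₀ →* ℂˣ, (∃ c, θ c ^ 2 ≠ 1) ↔ θ ^ 2 ≠ 1 := fun θ => by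
    rw [Ne, MonoidHom.ext_iff]; simp
  constructor
  · intro θ hθ
    have hi := L.SLc.isIrr_pi h₀ ((hsq θ).1 hθ)
    refine ⟨L.SLc.pi h₀ θ, hi, L.SLc.pi_one h₀ θ, fun c hc => ?_, fun c hc g => ?_,
      fun g h1 h2 h3 => ?_, fun g h1 h2 h3 h4 => ?_⟩
    · exact L.SLc.pi_torus h₀ θ (fun h => hc (L.SLc.mem_center_iff_isScal.2 h))
    · rw [L.SLc.irr_center_mul hi hc, L.SLc.pi_scal h₀ θ (L.SLc.mem_center_iff_isScal.1 hc),
        L.SLc.pi_one, mul_div_cancel_left₀ _ L.card_sub_one_ne_zero_c]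
    · have hd := L.SL2_det g
      rw [h1, zero_mul, sub_zero] at hd
      exact L.SLc.pi_split h₀ θ (fun e => h3 (by rw [sq]; nth_rewrite 2 [e]; exact hd))
        (Matrix.trace_fin_two _) hd
    · exact L.SLc.pi_unip h₀ θ (fun h => h4 h.1) (by rw [Matrix.trace_fin_two, h2, h3]; norm_num)
  · intro χ hχ hd
    obtain ⟨k, hk⟩ := hodd
    have hq := Fintype.one_lt_card (α := F)
    rcases L.SLc.irr_cases_deg h₀ hχ (d := Fintype.card F - 1) (by rw [L.cast_card_sub_one]; exact hd) with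
      ⟨e, h⟩ | ⟨e, h⟩ | ⟨e, h⟩ | ⟨e, θ, hθ, rfl⟩ | ⟨-, e, α, χ', -, -, h⟩ | ⟨-, e, h⟩
    · omega
    · omega
    · omega
    · exact ⟨θ, (hsq θ).2 hθ, fun c hc =>
        L.SLc.pi_torus h₀ θ (fun h => hc (L.SLc.mem_center_iff_isScal.2 h))⟩
    · have h3 : Fintype.card F = 3 := by omega
      have := L.isCyclic_dual (L.SLc.C g₀)
      have := L.finite_dual (A := L.SLc.C g₀)
      have hc := L.card_sq_ne_one (L.SLc.C g₀ →* ℂˣ)
      rw [L.card_dual_cyclic, hcard, h3] at hc
      obtain ⟨⟨θ, hθ⟩⟩ := (Nat.card_pos_iff.1 (lt_of_lt_of_eq (by norm_num) hc.symm)).1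
      refine ⟨θ, (hsq θ).2 hθ, fun c hc => ?_⟩
      have hs : ¬ L.IsScal ((c : L.SL2 F) : L.M2 F) := fun h => hc (L.SLc.mem_center_iff_isScal.2 h)
      have hn := h₀.of_commute hs (L.mem_centralizer_SL.1 c.2)
      have := h.two_mul (g := c) (Or.inr (L.NoEig.SL_trace_sq hn))
      rw [L.SLc.R_noEig α hn] at this
      rw [L.SLc.theta_three h₀ h3 hθ hs]
      simpa using this
    · omega

end Cfsg.Agent.S2434
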