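import Mathlib
import Cfsg.Agent.L.SL2Char
-- Template for statement S2435 (row 2435; see /opt/grader/pristine/manifest.json for weights).
-- Copy to Cfsg/Agent/S2435.lean and replace the sorry. The statement below is byte-identical to the frozen
-- statement Cfsg.CfsgFrozen.S2435 (Cfsg/Statements/S2435.lean; the theorem Cfsg.lie5_special_linear_two_half_degree_character_values_semisimple);
-- the grader kernel-checks Cfsg.Agent.S2435.result against that frozen type. Keep the theorem IN THIS FILE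
-- (a `result` declared elsewhere and merely imported here is not credited); helpers may live anywhere
-- under Cfsg/Agent/.
import Cfsg.Statements.S2435
-- import your own Cfsg.Agent.* helpers here

set_option autoImplicit false
open Cfsg

namespace Cfsg.Agent.S2435

/-- Let F be a finite field with q elements, q odd and q ≥ 5, and χ an irreducible complex character of SL₂ over F. If χ has degree (q + 1)/2, then at a diagonal element with entry a, a² ≠ 1, χ takes the value 1 when a is a square in F and −1 otherwise. If χ has degree (q − 1)/2, then at an element g with no eigenvector in F² (so g has order dividing q + 1), χ takes the value −1 when g raised to the power (q + 1)/2 is the identity and the value 1 otherwise. -/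
theorem result {F : Type*} [Field F] [Fintype F] (hodd : Odd (Fintype.card F)) (hq : 5 ≤ Fintype.card F)
    (χ : Matrix.SpecialLinearGroup (Fin 2) F → ℂ) (hχ : Cfsg.IsIrrCharacter (Matrix.SpecialLinearGroup (Fin 2) F) χ) (g : Matrix.SpecialLinearGroup (Fin 2) F) :
    (χ 1 = (((Fintype.card F + 1) / 2 : ℕ) : ℂ) → (g : Matrix (Fin 2) (Fin 2) F) 0 1 = 0 → (g : Matrix (Fin 2) (Fin 2) F) 1 0 = 0 → (g : Matrix (Fin 2) (Fin 2) F) 0 0 ^ 2 ≠ 1 →
      (IsSquare ((g : Matrix (Fin 2) (Fin 2) F) 0 0) → χ g = 1) ∧ (¬ IsSquare ((g : Matrix (Fin 2) (Fin 2) F) 0 0) → χ g = -1)) ∧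
    (χ 1 = (((Fintype.card F - 1) / 2 : ℕ) : ℂ) → (∀ (c : F) (v : Fin 2 → F), v ≠ 0 → (g : Matrix (Fin 2) (Fin 2) F).mulVec v ≠ c • v) →
      (((g ^ ((Fintype.card F + 1) / 2)) : Matrix (Fin 2) (Fin 2) F) = 1 → χ g = -1) ∧ (((g ^ ((Fintype.card F + 1) / 2)) : Matrix (Fin 2) (Fin 2) F) ≠ 1 → χ g = 1)) := by
  classical
  constructor
  · intro hdeg h1 h2 h3
    have hd := L.SL2_det g
    rw [h1, zero_mul, sub_zero] at hd
    have hab : (g : L.M2 F) 0 0 ≠ (g : L.M2 F) 1 1 := fun e => h3 (by rw [sq]; nth_rewrite 2 [e]; exact hd)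
    have ht := Matrix.trace_fin_two (g : L.M2 F)
    obtain ⟨α, χ', a1, a2, h⟩ := L.SLc.half_R_of_deg hq hχ hdeg
    have := h.two_mul (g := g) (Or.inr (by
      have := L.disc_ne_of_split hab ht ((L.SLc.det_SL g).trans hd.symm)
      rwa [L.SLc.det_SL, mul_one] at this))
    rw [L.SLc.R_split α hab ht hd] at this
    have ha : (g : L.M2 F) 0 0 ≠ 0 := by rintro e; rw [e] at hd; simp at hd
    have e : α ((g : L.M2 F) 0 0) * α ((g : L.M2 F) 1 1) = 1 := by rw [← map_mul, hd, map_one]
    obtain ⟨s1, s2⟩ := L.SLc.mulChar_two_apply a1 a2 ha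
    constructor
    · intro hs; rw [s1 hs] at e this; linear_combination (1 / 2 : ℂ) * this + (1 / 2 : ℂ) * e
    · intro hs; rw [s2 hs] at e this; linear_combination (1 / 2 : ℂ) * this - (1 / 2 : ℂ) * e
  · intro hdeg hg
    obtain ⟨θ, χ', a1, a2, h⟩ := L.SLc.half_pi_of_deg (g₀ := g) hg hq hχ hdeg
    let z : L.SLc.C g := ⟨g, Subgroup.mem_centralizer_singleton_iff.2 rfl⟩
    have e1 := h.two_mul (g := g) (Or.inr (L.NoEig.SL_trace_sq hg))
    have e2 : L.SLc.pi (g₀ := g) hg θ g = _ := L.SLc.pi_torus (g₀ := g) hg θ (z := z) (L.NoEig.not_isScal hg)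
    have := L.SLc.isCyclic_C (g₀ := g) hg
    obtain ⟨s1, s2⟩ := L.order_two_char_apply (m := (Fintype.card F + 1) / 2)
      (by obtain ⟨k, hk⟩ := hodd; rw [L.SLc.card_C (g₀ := g) hg]; omega) a1 a2 z
    have e3 : z ^ ((Fintype.card F + 1) / 2) = 1 ↔ (g : L.M2 F) ^ ((Fintype.card F + 1) / 2) = 1 := by
      rw [Subtype.ext_iff, L.SL2_ext_iff, ← L.SL2_coe_pow]; rfl
    rw [Ne, e3] at s2
    rw [e3] at s1
    constructor
    · intro hs; rw [s1 hs] at e2; rw [e2] at e1; simp at e1; linear_combination (1 / 2 : ℂ) * e1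
    · intro hs; rw [s2 hs] at e2; rw [e2] at e1; simp at e1; linear_combination (1 / 2 : ℂ) * e1

end Cfsg.Agent.S2435
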