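import Mathlib
import Cfsg.Agent.L.SL2Char
-- Template for statement S2438 (row 2438; see /opt/grader/pristine/manifest.json for weights).
-- Copy to Cfsg/Agent/S2438.lean and replace the sorry. The statement below is byte-identical to the frozen
-- statement Cfsg.CfsgFrozen.S2438 (Cfsg/Statements/S2438.lean; the theorem Cfsg.lie5_special_linear_two_cusp_sum_by_degree_odd);
-- the grader kernel-checks Cfsg.Agent.S2438.result against that frozen type. Keep the theorem IN THIS FILE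
-- (a `result` declared elsewhere and merely imported here is not credited); helpers may live anywhere
-- under Cfsg/Agent/.
import Cfsg.Statements.S2438
-- import your own Cfsg.Agent.* helpers here

set_option autoImplicit false
open Cfsg

namespace Cfsg.Agent.S2438

open L L.SLc L.GLc in
noncomputable def u {F : Type*} [Field F] (b : F) : SL2 F := mkSL !![1, b; 0, 1] (by simp [Matrix.det_fin_two])

open L L.SLc L.GLc in
theorem sum_U {F : Type*} [Field F] [Fintype F] [DecidableEq F] (χ : SL2 F → ℂ) :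
    (∑ g : SL2 F, if (g : M2 F) 1 0 = 0 ∧ (g : M2 F) 0 0 = 1 ∧ (g : M2 F) 1 1 = 1 then χ g else 0) =
      ∑ b : F, χ (u b) := by
  rw [← Finset.sum_filter]
  symm
  refine Finset.sum_bij (fun b _ => u b) (fun b _ => by simp [u, coe_mkSL]) (fun a _ b _ e => ?_)
    (fun g hg => ⟨(g : M2 F) 0 1, Finset.mem_univ _, ?_⟩) (fun _ _ => rfl)
  · simpa [u, coe_mkSL] using congrArg (fun g : SL2 F => (g : M2 F) 0 1) e
  · simp only [Finset.mem_filter, Finset.mem_univ, true_and] at hg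
    simp [SL2_ext_iff, u, coe_mkSL, m2_ext_iff, hg]

open L L.SLc L.GLc in
theorem sum_u {F : Type*} [Field F] [Fintype F] [DecidableEq F] (χ : SL2 F → ℂ) (y : ℂ)
    (h : ∀ g : SL2 F, ¬ IsScal (g : M2 F) → (g : M2 F).trace = 2 → χ g = y) :
    ∑ b : F, χ (u b) = χ 1 + ((Fintype.card F : ℂ) - 1) * y := by
  rw [← Finset.add_sum_erase _ _ (Finset.mem_univ 0), Finset.sum_congr rfl (g := fun _ => y)]
  · rw [Finset.sum_const, Finset.card_erase_of_mem (Finset.mem_univ _), Finset.card_univ, nsmul_eq_mul,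
      cast_card_sub_one]
    congr 2
    simp [SL2_ext_iff, u, coe_mkSL, m2_ext_iff]
  · intro b hb
    exact h _ (fun e => (Finset.mem_erase.1 hb).1 (by simpa [u, coe_mkSL] using e.1))
      (by simp [u, coe_mkSL, Matrix.trace_fin_two]; norm_num)

open L L.SLc L.GLc in
theorem half_u {F : Type*} [Field F] [Fintype F] [DecidableEq F] {ψ χ χ' : SL2 F → ℂ} (h : Half ψ χ χ') :
    2 * ∑ b : F, χ (u b) = ∑ b : F, ψ (u b) := by
  obtain ⟨ν, hν⟩ := FiniteField.exists_nonsquare (ringChar_ne_two h.two_ne_zero)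
  have h0 : ν ≠ 0 := by rintro rfl; exact hν (by simp)
  have e : ∀ b : F, χ' (u b) = χ (u (ν * b)) := fun b => by
    rw [← h.cj_of_not_isSquare (y := up (Units.mk0 ν h0) 1 0) (by rw [det_up]; simpa using hν)]
    congr 1
    rw [eq_comm, eq_cj_iff, eq_mul_inv_iff_mul_eq]
    apply Units.ext
    simp only [Units.val_mul, coe_tg, coe_up, u, coe_mkSL, m2_ext_iff, m2_mul_apply]
    simp
  have e2 : ∑ b : F, χ' (u b) = ∑ b : F, χ (u b) :=
    Fintype.sum_equiv (Equiv.mulLeft₀ ν h0) _ _ e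
  rw [h.add]
  simp only [Pi.add_apply, Finset.sum_add_distrib, e2, two_mul]

/-- Let F be a finite field with q elements, q odd, q ≥ 5, U the upper unitriangular subgroup of SL₂ over F, and χ an irreducible complex character. The sum of the values of χ over U equals 2q, q, 0, q, 0 according as the degree of χ is q + 1, q, q − 1, (q + 1)/2, (q − 1)/2; so among these five degrees the sum vanishes exactly for the degrees q − 1 and (q − 1)/2, i.e. the irreducible characters of those two degrees are the ones whose restriction to U does not contain the trivial character (the cuspidal characters), while those of degree q + 1, q and (q + 1)/2 are not cuspidal. -/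
theorem result {F : Type*} [Field F] [Fintype F] [DecidableEq F] (hodd : Odd (Fintype.card F)) (hq : 5 ≤ Fintype.card F)
    (χ : Matrix.SpecialLinearGroup (Fin 2) F → ℂ) (hχ : Cfsg.IsIrrCharacter (Matrix.SpecialLinearGroup (Fin 2) F) χ) :
    (χ 1 = (Fintype.card F : ℂ) + 1 →
      (∑ g : Matrix.SpecialLinearGroup (Fin 2) F, if (g : Matrix (Fin 2) (Fin 2) F) 1 0 = 0 ∧ (g : Matrix (Fin 2) (Fin 2) F) 0 0 = 1 ∧ (g : Matrix (Fin 2) (Fin 2) F) 1 1 = 1 then χ g else 0) = 2 * (Fintype.card F : ℂ)) ∧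
    (χ 1 = (Fintype.card F : ℂ) →
      (∑ g : Matrix.SpecialLinearGroup (Fin 2) F, if (g : Matrix (Fin 2) (Fin 2) F) 1 0 = 0 ∧ (g : Matrix (Fin 2) (Fin 2) F) 0 0 = 1 ∧ (g : Matrix (Fin 2) (Fin 2) F) 1 1 = 1 then χ g else 0) = (Fintype.card F : ℂ)) ∧
    (χ 1 = (Fintype.card F : ℂ) - 1 →
      (∑ g : Matrix.SpecialLinearGroup (Fin 2) F, if (g : Matrix (Fin 2) (Fin 2) F) 1 0 = 0 ∧ (g : Matrix (Fin 2) (Fin 2) F) 0 0 = 1 ∧ (g : Matrix (Fin 2) (Fin 2) F) 1 1 = 1 then χ g else 0) = 0) ∧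
    (χ 1 = (((Fintype.card F + 1) / 2 : ℕ) : ℂ) →
      (∑ g : Matrix.SpecialLinearGroup (Fin 2) F, if (g : Matrix (Fin 2) (Fin 2) F) 1 0 = 0 ∧ (g : Matrix (Fin 2) (Fin 2) F) 0 0 = 1 ∧ (g : Matrix (Fin 2) (Fin 2) F) 1 1 = 1 then χ g else 0) = (Fintype.card F : ℂ)) ∧
    (χ 1 = (((Fintype.card F - 1) / 2 : ℕ) : ℂ) →
      (∑ g : Matrix.SpecialLinearGroup (Fin 2) F, if (g : Matrix (Fin 2) (Fin 2) F) 1 0 = 0 ∧ (g : Matrix (Fin 2) (Fin 2) F) 0 0 = 1 ∧ (g : Matrix (Fin 2) (Fin 2) F) 1 1 = 1 then χ g else 0) = 0) := by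
  obtain ⟨g₀, h₀⟩ := L.exists_noEig_SL (F := F)
  have r : ∀ α : MulChar F ℂ, ∑ b : F, L.SLc.R α (u b) = 2 * Fintype.card F := fun α => by
    rw [sum_u _ 1 (fun g h1 h2 => by
      rw [L.SLc.R_par α h1 (a := 1) (by rw [h2, mul_one]) (by simp), map_one]), L.SLc.R_one]; ring
  have p : ∀ θ, ∑ b : F, L.SLc.pi h₀ θ (u b) = 0 := fun θ => by
    rw [sum_u _ (-1) (fun g h1 h2 => L.SLc.pi_unip h₀ θ h1 h2), L.SLc.pi_one]; ring
  rw [sum_U]
  refine ⟨fun hd => ?_, fun hd => ?_, fun hd => ?_, fun hd => ?_, fun hd => ?_⟩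
  · obtain ⟨α, -, rfl⟩ := L.SLc.eq_R_of_deg hχ hd
    exact r α
  · rw [L.SLc.eq_Sts_of_deg hχ hd, sum_u _ 0 (fun g h1 h2 =>
      L.SLc.Sts_par h1 (a := 1) (by rw [h2, mul_one]) (by simp)), L.SLc.Sts_one]; ring
  · obtain ⟨θ, -, rfl⟩ := L.SLc.eq_pi_of_deg h₀ (by omega) hχ hd
    exact p θ
  · obtain ⟨α, χ', -, -, h⟩ := L.SLc.half_R_of_deg hq hχ hd
    linear_combination (1 / 2 : ℂ) * half_u h + (1 / 2 : ℂ) * r α
  · obtain ⟨θ, χ', -, -, h⟩ := L.SLc.half_pi_of_deg h₀ hq hχ hd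
    linear_combination (1 / 2 : ℂ) * half_u h + (1 / 2 : ℂ) * p θ

end Cfsg.Agent.S2438
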