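import Mathlib
import Cfsg.Statements.S2439
import Cfsg.Agent.H12.LtB

set_option autoImplicit false
open Cfsg

namespace Cfsg.Agent.S2439

open H12.Lt H05 H20 MatrixGroups

/-- Let F be a finite field with q elements of odd characteristic p, and M a maximal ideal of the algebraic integers containing p. Then SL₂ over F has exactly three p-blocks relative to M: the irreducible character of degree q (the Steinberg character) alone; the other irreducible characters taking the same value at −1 as at 1 (the principal block); and the irreducible characters χ with χ(−1) = −χ(1). Every Sylow p-subgroup is a defect group of each of the last two blocks. -/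
theorem result {F : Type*} [Field F] [Fintype F] (p : ℕ) [Fact p.Prime] [CharP F p] (hp : p ≠ 2)
    (M : Ideal Cfsg.AlgInt) (hM : Cfsg.IsPModular p M) :
    (∀ B : Set (Cfsg.IrrCharacter (Matrix.SpecialLinearGroup (Fin 2) F)), Cfsg.IsPBlock M B ↔
      (B = {χ : Cfsg.IrrCharacter (Matrix.SpecialLinearGroup (Fin 2) F) | (χ : Matrix.SpecialLinearGroup (Fin 2) F → ℂ) 1 = (Fintype.card F : ℂ)} ∨
       B = {χ : Cfsg.IrrCharacter (Matrix.SpecialLinearGroup (Fin 2) F) | (χ : Matrix.SpecialLinearGroup (Fin 2) F → ℂ) (-1) = (χ : Matrix.SpecialLinearGroup (Fin 2) F → ℂ) 1 ∧ (χ : Matrix.SpecialLinearGroup (Fin 2) F → ℂ) 1 ≠ (Fintype.card F : ℂ)} ∨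
       B = {χ : Cfsg.IrrCharacter (Matrix.SpecialLinearGroup (Fin 2) F) | (χ : Matrix.SpecialLinearGroup (Fin 2) F → ℂ) (-1) = -(χ : Matrix.SpecialLinearGroup (Fin 2) F → ℂ) 1})) ∧
    Nat.card {B : Set (Cfsg.IrrCharacter (Matrix.SpecialLinearGroup (Fin 2) F)) // Cfsg.IsPBlock M B} = 3 ∧
    ∀ P : Sylow p (Matrix.SpecialLinearGroup (Fin 2) F),
      Cfsg.IsDefectGroup p M {χ : Cfsg.IrrCharacter (Matrix.SpecialLinearGroup (Fin 2) F) | (χ : Matrix.SpecialLinearGroup (Fin 2) F → ℂ) (-1) = (χ : Matrix.SpecialLinearGroup (Fin 2) F → ℂ) 1 ∧ (χ : Matrix.SpecialLinearGroup (Fin 2) F → ℂ) 1 ≠ (Fintype.card F : ℂ)} (P : Subgroup (Matrix.SpecialLinearGroup (Fin 2) F)) ∧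
      Cfsg.IsDefectGroup p M {χ : Cfsg.IrrCharacter (Matrix.SpecialLinearGroup (Fin 2) F) | (χ : Matrix.SpecialLinearGroup (Fin 2) F → ℂ) (-1) = -(χ : Matrix.SpecialLinearGroup (Fin 2) F → ℂ) 1} (P : Subgroup (Matrix.SpecialLinearGroup (Fin 2) F)) := by
  have := hM.2.1
  have hz : (-1 : SL(2, F)) ∈ Subgroup.center SL(2, F) := Subgroup.mem_center_iff.2 fun g => by simp
  obtain ⟨k, hk, hq⟩ := FiniteField.card F p
  have h0 : (Nat.card SL(2, F)).factorization p = k := by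
    rw [H09.card_SL_two, hq, Nat.factorization_mul (pow_pos hk.pos _).ne' (Nat.sub_pos_of_lt (Nat.one_lt_pow two_ne_zero (hq ▸ Fintype.one_lt_card))).ne',
      Finsupp.add_apply, Nat.factorization_pow_self hk, Nat.factorization_eq_zero_of_not_dvd, add_zero]
    exact fun h => hk.one_lt.ne' (Nat.dvd_one.1 ((Nat.dvd_sub_iff_right (Nat.one_le_pow _ _ (pow_pos hk.pos _))
      ((dvd_pow_self p k.ne_zero).pow two_ne_zero)).1 h))
  obtain ⟨st, h1, h2⟩ := hasSt_iff.1 (hasSt_SL (p := p) (F := F) le_rfl)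
  rw [h0, ← hq] at h2
  have h3 : ∀ χ : IrrCharacter SL(2, F), χ.1 1 = Fintype.card F → (charDegree χ.1).factorization p = (Nat.card SL(2, F)).factorization p :=
    fun χ h => by rw [charDegree_eq_of_apply_one h, h0, hq, Nat.factorization_pow_self hk]
  have h4 : ∀ χ : IrrCharacter SL(2, F), χ.1 1 = Fintype.card F ↔ χ = ⟨st, h1⟩ := fun χ =>
    ⟨fun h => (dz_SL le_rfl).1 _ _ (h3 _ h) (h3 _ h2), by rintro rfl; exact h2⟩
  have h5 : ∀ χ : IrrCharacter SL(2, F), χ.1 (-1) = χ.1 1 ∨ χ.1 (-1) = -χ.1 1 := fun χ => by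
    have := χ.2.apply_mul_of_mem_center hz (-1)
    rw [neg_mul_neg, one_mul] at this
    exact sq_eq_sq_iff_eq_or_eq_neg.1 (by field_simp [χ.2.apply_one_ne_zero] at this; exact this.symm)
  have h6 : ∀ χ ψ : IrrCharacter SL(2, F), SameBlock M χ.1 ψ.1 → χ.1 (-1) = χ.1 1 → ψ.1 (-1) = ψ.1 1 := fun χ ψ h e =>
    (h5 ψ).resolve_right fun e' => by
      have := h (-1)
      simp only [centralChar, Subgroup.centralizer_eq_top_iff_subset.2 (Set.singleton_subset_iff.2 hz), Subgroup.index_top, e, e',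
        Nat.cast_one, one_mul, neg_div, div_self χ.2.apply_one_ne_zero, div_self ψ.2.apply_one_ne_zero] at this
      exact hp ((Nat.prime_dvd_prime_iff_eq hk Nat.prime_two).1 ((H21.ideal_natCast_iff hM).1 (by convert this; norm_num)))
  have h7 : ∀ χ : IrrCharacter SL(2, F), χ.1 (-1) = -χ.1 1 ↔ ¬ χ.1 (-1) = χ.1 1 := fun χ =>
    ⟨fun e e' => χ.2.apply_one_ne_zero (by linear_combination (e - e') / 2), (h5 χ).resolve_left⟩
  have h8 : st (-1) = st 1 := by
    obtain ⟨χ, a, b⟩ := hasSt_iff.1 (hasSt_PSL (p := p) (F := F) le_rfl)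
    have := (h4 ⟨_, a.inflate _⟩).1 (by
      have := Subgroup.card_eq_card_quotient_mul_card_subgroup (Subgroup.center SL(2, F))
      rw [this, Nat.factorization_mul Nat.card_pos.ne' Nat.card_pos.ne', Finsupp.add_apply,
        Nat.factorization_eq_zero_of_not_dvd (card_Z_SL le_rfl), add_zero] at h0
      rw [hq, ← h0]; exact b)
    rw [← show _ = st from congrArg Subtype.val this]
    simp [(QuotientGroup.eq_one_iff _).2 hz]
  have h9 : Nat.card {B : Set (IrrCharacter SL(2, F)) // IsPBlock M B} = 3 := by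
    have := Fintype.one_lt_card (α := F)
    rw [H12.Ri.card_blocks_add (p := p) (dvd_card_SL le_rfl) fun B hB => (loc_SL le_rfl).defect hM hB,
      (loc_SL le_rfl).card_full (dvd_card_SL le_rfl) (Z_SL le_rfl) hM, (dz_SL le_rfl).2 M hM, H09.card_center_SL, Fintype.card_fin,
      Nat.gcd_eq_left (by have := hq ▸ (hk.odd_of_ne_two hp).pow (n := k); grind)]
  obtain ⟨ψ, hψ⟩ : ∃ ψ : IrrCharacter SL(2, F), ¬ ψ.1 (-1) = ψ.1 1 := not_forall.1 fun h => hp ((Nat.prime_dvd_prime_iff_eq hk Nat.prime_two).1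
    ((CharP.cast_eq_zero_iff F p 2).1 (by simpa [neg_eq_iff_add_eq_zero, one_add_one_eq_two] using congrArg (fun g : SL(2, F) => g.1 0 0) (eq_one_of_forall_irr h))))
  have b1 := (blockOf_eq_singleton_iff hM ⟨st, h1⟩).2 (h3 _ h2)
  have n1 : trivIrr SL(2, F) ≠ ⟨st, h1⟩ := fun e => Fintype.one_lt_card.ne (Nat.cast_injective (R := ℂ) (by simpa using (h4 _).2 e))
  classical
  have hall : ∀ χ : IrrCharacter SL(2, F), χ = ⟨st, h1⟩ ∨ SameBlock M (trivIrr SL(2, F)).1 χ.1 ∨ SameBlock M ψ.1 χ.1 := fun χ => by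
    have := Fintype.ofFinite {B : Set (IrrCharacter SL(2, F)) // IsPBlock M B}
    have hu := Finset.eq_univ_of_card (α := {B : Set (IrrCharacter SL(2, F)) // IsPBlock M B})
      {⟨_, isPBlock_blockOf ⟨st, h1⟩⟩, ⟨_, isPBlock_blockOf (trivIrr SL(2, F))⟩, ⟨_, isPBlock_blockOf ψ⟩}
      (by
        rw [← Nat.card_eq_fintype_card, h9]
        refine Finset.card_eq_three.2 ⟨_, _, _, fun e => n1 (b1.le ((Subtype.ext_iff.1 e).ge (mem_blockOf_self _))),
          fun e => hψ (h6 _ _ ((Subtype.ext_iff.1 e).ge (mem_blockOf_self _)) h8),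
          fun e => hψ (h6 _ _ ((Subtype.ext_iff.1 e).ge (mem_blockOf_self _)) rfl), rfl⟩)
    have := hu.ge (Finset.mem_univ ⟨_, isPBlock_blockOf χ⟩)
    simp only [Finset.mem_insert, Finset.mem_singleton, Subtype.ext_iff] at this
    exact this.imp (fun e => b1.le (e.le (mem_blockOf_self χ))) (Or.imp (fun e => e.le (mem_blockOf_self χ)) fun e => e.le (mem_blockOf_self χ))
  have e1 : {χ : IrrCharacter SL(2, F) | χ.1 1 = Fintype.card F} = blockOf M st := Set.ext fun χ => by rw [b1]; exact h4 χ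
  have e2 : {χ : IrrCharacter SL(2, F) | χ.1 (-1) = χ.1 1 ∧ χ.1 1 ≠ Fintype.card F} = blockOf M (trivIrr SL(2, F)).1 := Set.ext fun χ =>
    ⟨fun h => ((hall χ).resolve_left fun e => h.2 ((h4 _).2 e)).resolve_right fun e => hψ (h6 _ _ e.symm h.1),
      fun h => ⟨h6 _ _ h rfl, fun e => n1 (b1.le (by rw [(h4 _).1 e] at h; exact (show SameBlock M _ _ from h).symm))⟩⟩
  have e3 : {χ : IrrCharacter SL(2, F) | χ.1 (-1) = -χ.1 1} = blockOf M ψ.1 := Set.ext fun χ => (h7 χ).trans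
    ⟨fun h => ((hall χ).resolve_left fun e => h (e ▸ h8)).resolve_left fun e => h (h6 _ _ e rfl),
      fun h e => hψ (h6 _ _ (show SameBlock M _ _ from h).symm e)⟩
  have hd : ∀ χ : IrrCharacter SL(2, F), χ ≠ ⟨st, h1⟩ → ∀ P : Sylow p SL(2, F), IsDefectGroup p M (blockOf M χ.1) P := fun χ h P =>
    isDefectGroup_sylow_of_full hM (isPBlock_blockOf χ) (((loc_SL le_rfl).defect hM (isPBlock_blockOf χ)).resolve_left fun e =>
      h ((dz_SL le_rfl).1 _ _ (((isPBlock_blockOf χ).blockDefect_eq_zero_iff hM (mem_blockOf_self χ)).1 e) (h3 _ h2))) P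
  rw [e1, e2, e3]
  refine ⟨fun B => ⟨?_, ?_⟩, h9, fun P => ⟨hd _ n1 P, hd ψ (fun e => hψ (by rw [e]; exact h8)) P⟩⟩
  · rintro ⟨χ, rfl⟩
    exact (hall χ).imp (by rintro rfl; rfl) (Or.imp (fun e => (blockOf_eq e).symm) fun e => (blockOf_eq e).symm)
  · rintro (rfl | rfl | rfl)
    exacts [isPBlock_blockOf' h1, isPBlock_blockOf _, isPBlock_blockOf _]

end Cfsg.Agent.S2439
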