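import Mathlib
import Cfsg.Statements.S2441
import Cfsg.Agent.H12.RiLie

set_option autoImplicit false
open Cfsg

namespace Cfsg.Agent.S2441

/-- For a prime p, the Chevalley groups of types G₂, F₄ and E₈ over the field with p elements (types for which the simply connected and adjoint groups coincide, so the group has trivial centre) each have exactly two p-blocks relative to any maximal ideal of the algebraic integers containing p (only the count is asserted; it arises as the defect-zero block of the Steinberg character plus a single block of maximal defect). -/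
theorem result (p : ℕ) [Fact p.Prime] (M : Ideal Cfsg.AlgInt) (hM : Cfsg.IsPModular p M) :
    Nat.card {B : Set (Cfsg.IrrCharacter (Cfsg.Lie.chevG2.group (ZMod p))) // Cfsg.IsPBlock M B} = 2 ∧
    Nat.card {B : Set (Cfsg.IrrCharacter (Cfsg.Lie.chevF4.group (ZMod p))) // Cfsg.IsPBlock M B} = 2 ∧
    Nat.card {B : Set (Cfsg.IrrCharacter (Cfsg.Lie.chevE8.group (ZMod p))) // Cfsg.IsPBlock M B} = 2 := by
  have := H11.nonempty_node (D := Cfsg.Lie.chevG2) (by simp)
  have := H11.nonempty_node (D := Cfsg.Lie.chevF4) (by simp)
  have := H11.nonempty_node (D := Cfsg.Lie.chevE8) (by simp)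
  exact ⟨H12.Ri.card_blocks p (H11.grpSys_grp _ _) (H11.grpSys_θ_injective _ _) hM,
    H12.Ri.card_blocks p (H11.grpSys_grp _ _) (H11.grpSys_θ_injective _ _) hM,
    H12.Ri.card_blocks p (H11.grpSys_grp _ _) (H11.grpSys_θ_injective _ _) hM⟩

end Cfsg.Agent.S2441
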