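import Mathlib
import Cfsg.Statements.S2531

set_option autoImplicit false
open Cfsg

namespace Cfsg.Agent.S2531

open Projectivization in
theorem mem_rep_mk {F V : Type*} [Field F] [AddCommGroup V] [Module F V] (W : Submodule F V)
    (v : V) (hv : v ≠ 0) : (Projectivization.mk F v hv).rep ∈ W ↔ v ∈ W := by
  obtain ⟨a, ha⟩ := Projectivization.exists_smul_eq_mk_rep F v hv
  rw [← ha]
  constructor
  · intro h
    have := W.smul_mem ((a⁻¹ : Fˣ) : F) h
    rwa [Units.smul_def, smul_smul, Units.inv_mul, one_smul] at this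
  · intro h
    exact W.smul_mem (a : F) h

theorem pts_one {F V : Type*} [Field F] [Finite F] [AddCommGroup V] [Module F V] [Finite V]
    (W : Submodule F V) (hW : W ≠ ⊥) :
    ((Nat.card {x : Projectivization F V // x.rep ∈ W} : ℕ) : ZMod (Nat.card F)) = 1 := by
  have e : Projectivization F W ≃ {x : Projectivization F V // x.rep ∈ W} := by
    refine Equiv.ofBijective (fun y => ⟨Projectivization.map W.subtype W.injective_subtype y, ?_⟩) ⟨?_, ?_⟩
    · induction y using Projectivization.ind with
      | h v hv =>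
        rw [Projectivization.map_mk, mem_rep_mk]
        exact v.2
    · intro y z h
      exact Projectivization.map_injective W.subtype W.injective_subtype (Subtype.mk.inj h)
    · rintro ⟨x, hx⟩
      refine ⟨Projectivization.mk F ⟨x.rep, hx⟩ (fun h => x.rep_nonzero (congrArg Subtype.val h)), ?_⟩
      apply Subtype.ext
      simp only [Projectivization.map_mk, Submodule.subtype_apply, Projectivization.mk_rep]
  rw [← Nat.card_congr e]
  have h1 := Projectivization.card' F W
  have h2 : Nat.card W = Nat.card F ^ Module.finrank F W := Module.natCard_eq_pow_finrank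
  have h3 : Module.finrank F W ≠ 0 := by
    intro h
    exact hW (Submodule.finrank_eq_zero.1 h)
  have h4 : 1 ≤ Nat.card F := Nat.card_pos
  have h5 : ((Nat.card W : ℕ) : ZMod (Nat.card F)) = 0 := by
    rw [h2]; push_cast; rw [ZMod.natCast_self, zero_pow h3]
  rw [h1] at h5
  push_cast [Nat.cast_sub h4] at h5
  rw [ZMod.natCast_self] at h5
  linear_combination -h5

/-- Let `F` be a finite field and `n ≥ 3`. No set of permutations of the points of the projective space of `Fⁿ`, each induced by an invertible semilinear transformation of `Fⁿ` (so a subset of the full projective semilinear group), is sharply 2-transitive on the points: it is impossible that for all pairs of distinct points `(a, b)` and `(c, d)` exactly one member of the set sends `a` to `c` and `b` to `d`. -/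
theorem result {F : Type*} [Field F] [Finite F]
    (n : ℕ) (hn : 3 ≤ n) (S : Set (Equiv.Perm (Projectivization F (Fin n → F))))
    (hS : ∀ s ∈ S, ∃ (σ : F ≃+* F) (f : (Fin n → F) →ₛₗ[(σ : F →+* F)] (Fin n → F)) (hf : Function.Injective f),
      ∀ x, s x = Projectivization.map f hf x) :
    ¬ (∀ a b c d : Projectivization F (Fin n → F), a ≠ b → c ≠ d →
        ∃! s, s ∈ S ∧ s a = c ∧ s b = d) := by
  classical
  intro H
  have : NeZero n := ⟨by omega⟩
  have hq : 1 < Nat.card F := Finite.one_lt_card
  have : Fact (1 < Nat.card F) := ⟨hq⟩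
  let P := Projectivization F (Fin n → F)
  let B : Submodule F (Fin n → F) := LinearMap.ker (LinearMap.proj (0 : Fin n))
  have hB : ∀ v : Fin n → F, v ∈ B ↔ v 0 = 0 := fun v => Iff.rfl
  have he : (Pi.single (0 : Fin n) (1 : F) : Fin n → F) ≠ 0 := by
    intro h; have := congrFun h 0; simp at this
  let α : P := Projectivization.mk F (Pi.single (0 : Fin n) (1 : F)) he
  have hα : α.rep ∉ B := by
    rw [mem_rep_mk, hB]; simp
  have hneα : ∀ x : P, x.rep ∈ B → α ≠ x := by
    rintro x hx rfl; exact hα hx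
  -- the hyperplane is nonzero
  have hi : (⟨1, by omega⟩ : Fin n) ≠ 0 := by
    intro h; have := congrArg Fin.val h; simp at this
  have hB0 : B ≠ ⊥ := by
    intro h
    have : (Pi.single (⟨1, by omega⟩ : Fin n) (1 : F) : Fin n → F) ∈ B := by
      rw [hB]; exact Pi.single_eq_of_ne hi.symm _
    rw [h, Submodule.mem_bot] at this
    have := congrFun this ⟨1, by omega⟩
    simp at this
  let T := {s : Equiv.Perm P // s ∈ S ∧ s α = α}
  let BB := {x : P // x.rep ∈ B}
  have hk : ((Nat.card BB : ℕ) : ZMod (Nat.card F)) = 1 := pts_one B hB0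
  obtain ⟨β, hβ⟩ : ∃ β : P, β.rep ∈ B := by
    by_contra hne
    push Not at hne
    have : IsEmpty BB := ⟨fun x => hne x.1 x.2⟩
    rw [Nat.card_of_isEmpty (α := BB)] at hk
    simp at hk
  -- `T` is in bijection with the points other than `α`
  have e1 : T ≃ {x : P // x ≠ α} := by
    refine Equiv.ofBijective (fun s => ⟨s.1 β, ?_⟩) ⟨?_, ?_⟩
    · intro h
      exact hneα β hβ (s.1.injective (h.trans s.2.2.symm)).symm
    · intro s t h
      have h' : s.1 β = t.1 β := Subtype.mk.inj h
      have hne : α ≠ s.1 β := fun h0 => hneα β hβ (s.1.injective (s.2.2.trans h0))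
      obtain ⟨u, -, hu⟩ := H α β α (s.1 β) (hneα β hβ) hne
      exact Subtype.ext ((hu s.1 ⟨s.2.1, s.2.2, rfl⟩).trans (hu t.1 ⟨t.2.1, t.2.2, h'.symm⟩).symm)
    · rintro ⟨x, hx⟩
      obtain ⟨u, hu, -⟩ := H α β α x (hneα β hβ) hx.symm
      exact ⟨⟨u, hu.1, hu.2.1⟩, Subtype.ext hu.2.2⟩
  have hT : ((Nat.card T : ℕ) : ZMod (Nat.card F)) = 0 := by
    have htop : (⊤ : Submodule F (Fin n → F)) ≠ ⊥ := fun h => hB0 (eq_bot_iff.2 (h ▸ le_top))
    have h1 := pts_one (⊤ : Submodule F (Fin n → F)) htop
    have h2 : Nat.card {x : P // x.rep ∈ (⊤ : Submodule F (Fin n → F))} = Nat.card P :=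
      Nat.card_congr (Equiv.subtypeUnivEquiv (fun _ => Submodule.mem_top))
    have h3 : Nat.card P = Nat.card {x : P // x ≠ α} + 1 := by
      rw [← Nat.card_congr (Equiv.optionSubtypeNe α), Finite.card_option]
    rw [h2, h3] at h1
    rw [Nat.card_congr e1]
    push_cast at h1
    linear_combination h1
  -- double count
  have e2 : (Σ s : T, {b : P // b.rep ∈ B ∧ (s.1 b).rep ∈ B}) ≃ BB × BB := by
    refine Equiv.ofBijective (fun z => (⟨z.2.1, z.2.2.1⟩, ⟨z.1.1 z.2.1, z.2.2.2⟩)) ⟨?_, ?_⟩
    · rintro ⟨s, b, hb⟩ ⟨t, c, hc⟩ h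
      simp only [Prod.mk.injEq] at h
      obtain ⟨h1, h2⟩ := h
      have h1' : b = c := Subtype.mk.inj h1
      have h2' : s.1 b = t.1 c := Subtype.mk.inj h2
      subst h1'
      obtain ⟨u, -, hu⟩ := H α b α (s.1 b) (hneα b hb.1) (hneα _ hb.2)
      have : s = t :=
        Subtype.ext ((hu s.1 ⟨s.2.1, s.2.2, rfl⟩).trans (hu t.1 ⟨t.2.1, t.2.2, h2'.symm⟩).symm)
      subst this
      rfl
    · rintro ⟨b, c⟩
      obtain ⟨u, hu, -⟩ := H α b.1 α c.1 (hneα _ b.2) (hneα _ c.2)
      refine ⟨⟨⟨u, hu.1, hu.2.1⟩, ⟨b.1, b.2, ?_⟩⟩, ?_⟩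
      · show (u b.1).rep ∈ B
        rw [hu.2.2]; exact c.2
      · refine Prod.ext rfl (Subtype.ext hu.2.2)
  have hfib : ∀ s : T, ((Nat.card {b : P // b.rep ∈ B ∧ (s.1 b).rep ∈ B} : ℕ) : ZMod (Nat.card F)) = 1 := by
    intro s
    obtain ⟨σ, f, hf, hsf⟩ := hS s.1 s.2.1
    let W : Submodule F (Fin n → F) := B ⊓ B.comap f
    have hW : W ≠ ⊥ := by
      intro h
      let g : (Fin n → F) →+ F × F :=
        { toFun := fun x => (x 0, f x 0)
          map_zero' := by simp
          map_add' := by intro x y; simp }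
      have hg : Function.Injective g := by
        rw [injective_iff_map_eq_zero]
        intro x hx
        have hx' : x 0 = 0 ∧ f x 0 = 0 := Prod.mk.inj hx
        have : x ∈ W := ⟨hx'.1, hx'.2⟩
        rwa [h, Submodule.mem_bot] at this
      have := Nat.card_le_card_of_injective g hg
      rw [Nat.card_prod, Nat.card_fun, Nat.card_eq_fintype_card (α := Fin n), Fintype.card_fin] at this
      have h3 : Nat.card F ^ 3 ≤ Nat.card F ^ n := Nat.pow_le_pow_right (by omega) hn
      have h4 : Nat.card F * Nat.card F * 1 < Nat.card F * Nat.card F * Nat.card F :=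
        Nat.mul_lt_mul_of_pos_left hq (by positivity)
      nlinarith
    rw [← pts_one W hW]
    congr 1
    apply Nat.card_congr
    refine Equiv.subtypeEquivRight (fun b => ?_)
    have : s.1 b = Projectivization.mk F (f b.rep) (by
        rw [map_ne_zero_iff f hf]; exact b.rep_nonzero) := by
      rw [hsf b]
      conv_lhs => rw [← b.mk_rep]
      rw [Projectivization.map_mk]
    rw [this, mem_rep_mk]
    rfl
  have hc := congrArg (Nat.cast : ℕ → ZMod (Nat.card F)) (Nat.card_congr e2)
  have : Fintype T := Fintype.ofFinite T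
  rw [Nat.card_sigma, Nat.card_prod] at hc
  push_cast at hc
  rw [hk, Finset.sum_congr rfl (fun s _ => hfib s)] at hc
  simp only [Finset.sum_const, Finset.card_univ, nsmul_eq_mul, mul_one] at hc
  rw [← Nat.card_eq_fintype_card, hT] at hc
  exact zero_ne_one hc

end Cfsg.Agent.S2531
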