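import Mathlib
import Cfsg.Statements.S2533

set_option autoImplicit false
open scoped Pointwise
open Cfsg

namespace Cfsg.Agent.S2533

/-- `(ℤ/p)³ ⋊ C₂` -/
@[ext] structure Hh (p : ℕ) where
  x : Fin 3 → ZMod p
  e : ℤˣ

instance hhGroup (p : ℕ) : Group (Hh p) where
  mul a b := ⟨a.x + a.e • b.x, a.e * b.e⟩
  one := ⟨0, 1⟩
  inv a := ⟨-(a.e⁻¹ • a.x), a.e⁻¹⟩
  mul_assoc a b c := Hh.ext (show (a.x + a.e • b.x) + (a.e * b.e) • c.x = a.x + a.e • (b.x + b.e • c.x) by
    rw [smul_add, mul_smul, add_assoc]) (mul_assoc a.e b.e c.e)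
  one_mul a := Hh.ext (show 0 + (1 : ℤˣ) • a.x = a.x by simp) (one_mul a.e)
  mul_one a := Hh.ext (show a.x + a.e • (0 : Fin 3 → ZMod p) = a.x by simp) (mul_one a.e)
  inv_mul_cancel a := Hh.ext (show -(a.e⁻¹ • a.x) + a.e⁻¹ • a.x = 0 by simp) (inv_mul_cancel a.e)

/-- underlying set -/
def hhEquiv (p : ℕ) : Hh p ≃ (Fin 3 → ZMod p) × ℤˣ := ⟨fun a => (a.x, a.e), fun a => ⟨a.1, a.2⟩, fun _ => rfl, fun _ => rfl⟩

open Matrix

/-- the three maps of the Kronecker quiver -/
def nn {F : Type*} [Field F] (k : ℕ) (x : Fin 3 → F) : Matrix (Fin k) (Fin (k + 1)) F := fun i j =>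
  (if j = i.castSucc then x 0 else 0) + (if j = i.succ then x 1 else 0) + if i.val = 0 ∧ j = Fin.last k then x 2 else 0

theorem nn_add {p : ℕ} [Fact p.Prime] (k : ℕ) (x y : Fin 3 → ZMod p) (e : ℤˣ) :
    nn k (x + e • y) = e • nn k y + nn k x := by
  ext i j
  rcases Int.units_eq_one_or e with rfl | rfl <;> simp only [nn, Pi.add_apply, Matrix.add_apply, one_smul,
    Units.neg_smul, Pi.neg_apply, Matrix.neg_apply] <;> split_ifs <;> ring

/-- the representation -/
def rho (p : ℕ) [Fact p.Prime] (k : ℕ) : Hh p →* Matrix (Fin k ⊕ Fin (k + 1)) (Fin k ⊕ Fin (k + 1)) (ZMod p) where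
  toFun h := fromBlocks (h.e • 1) (nn k h.x) 0 1
  map_one' := by
    rw [← fromBlocks_one]
    congr 1
    · exact one_smul _ _
    · ext i j; change nn k 0 i j = 0; simp [nn]
  map_mul' a b := by
    rw [fromBlocks_multiply]
    change fromBlocks ((a.e * b.e) • 1) (nn k (a.x + a.e • b.x)) _ _ = _
    simp [nn_add, smul_smul, mul_comm]

theorem toep {F : Type*} [Field F] {k : ℕ} {P : Matrix (Fin k) (Fin k) F} {Q : Matrix (Fin (k + 1)) (Fin (k + 1)) F}
    (h : ∀ x : Fin 3 → F, (P * nn k x : Matrix (Fin k) (Fin (k + 1)) F) = (nn k x * Q : Matrix (Fin k) (Fin (k + 1)) F)) : P = scalar _ (Q 0 0) ∧ Q = scalar _ (Q 0 0) := by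
  have a1 : ∀ i j, Q i.castSucc j.castSucc = P i j := fun i j => by
    simpa [nn, mul_apply] using (congrFun (congrFun (h ![1, 0, 0]) i) j.castSucc).symm
  have a2 : ∀ i : Fin k, Q i.castSucc (Fin.last k) = 0 := fun i => by
    simpa [nn, mul_apply, (Fin.castSucc_ne_last _).symm] using (congrFun (congrFun (h ![1, 0, 0]) i) (Fin.last k)).symm
  have b1 : ∀ i j, Q i.succ j.succ = P i j := fun i j => by
    simpa [nn, mul_apply] using (congrFun (congrFun (h ![0, 1, 0]) i) j.succ).symm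
  have b2 : ∀ i : Fin k, Q i.succ 0 = 0 := fun i => by
    simpa [nn, mul_apply, (Fin.succ_ne_zero _).symm] using (congrFun (congrFun (h ![0, 1, 0]) i) 0).symm
  have T : ∀ d a b (ha : a + d < k + 1) (hb : b + d < k + 1),
      Q ⟨a + d, ha⟩ ⟨b + d, hb⟩ = Q ⟨a, by omega⟩ ⟨b, by omega⟩ := fun d => by
    induction d with
    | zero => intros; rfl
    | succ d ih =>
      intro a b ha hb
      exact ((b1 ⟨a + d, by omega⟩ ⟨b + d, by omega⟩).trans (a1 _ _).symm).trans (ih a b (by omega) (by omega))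
  have hQ : Q = scalar _ (Q 0 0) := by
    ext ⟨i, hi⟩ ⟨j, hj⟩
    rcases lt_trichotomy i j with l | rfl | l
    · rw [scalar_apply, diagonal_apply_ne _ (by simpa using l.ne), ← T (k - j) i j (by omega) (by omega),
        ← a2 ⟨i + (k - j), by omega⟩]
      congr 1
      ext; simp; omega
    · rw [scalar_apply, diagonal_apply_eq, ← show _ = Q 0 0 from T i 0 0 (by omega) (by omega)]
      simp
    · obtain ⟨d, rfl⟩ := Nat.exists_eq_add_of_lt l
      rw [scalar_apply, diagonal_apply_ne _ (by simpa using l.ne'), ← b2 ⟨d, by omega⟩,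
        ← show _ = Q (Fin.succ ⟨d, by omega⟩) 0 from T j (d + 1) 0 (by omega) (by omega)]
      congr 1 <;> ext <;> simp
      omega
  refine ⟨?_, hQ⟩
  ext i j
  rw [← a1, hQ]
  simp [diagonal_apply]

/-- For every odd prime `p` there is a finite group `H` of order `2p³` which, for infinitely many `n`, embeds in the projective special linear group `PSL(n, p)` as a subgroup with trivial centralizer. -/
theorem result
    (p : ℕ) [Fact p.Prime] (hp : p ≠ 2) :
    ∃ (H : Type) (_ : Group H) (_ : Finite H), Nat.card H = 2 * p ^ 3 ∧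
      ∀ N : ℕ, ∃ n, N ≤ n ∧ ∃ φ : H →* Matrix.ProjectiveSpecialLinearGroup (Fin n) (ZMod p),
        Function.Injective φ ∧ Subgroup.centralizer (φ.range : Set (Matrix.ProjectiveSpecialLinearGroup (Fin n) (ZMod p))) = ⊥ := by
  have h2 : (2 : ZMod p) ≠ 0 := fun h => hp ((Nat.prime_dvd_prime_iff_eq Fact.out Nat.prime_two).1
    ((ZMod.natCast_eq_zero_iff 2 p).1 h))
  refine ⟨Hh p, inferInstance, Finite.of_equiv _ (hhEquiv p).symm, by
    rw [Nat.card_congr (hhEquiv p)]; simp [mul_comm], fun N => ?_⟩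
  obtain ⟨k, hk, k2, ke⟩ : ∃ k, N ≤ k ∧ 2 ≤ k ∧ Even k := ⟨2 * (N + 1), by omega, by omega, even_two_mul _⟩
  let R := reindexAlgEquiv (ZMod p) (ZMod p) (finSumFinEquiv (m := k) (n := k + 1))
  let ψ : Hh p →* SpecialLinearGroup (Fin (k + (k + 1))) (ZMod p) :=
    { toFun := fun h => ⟨R (rho p k h), by
        rw [det_reindexAlgEquiv]
        change det (fromBlocks _ _ _ _) = 1
        rw [det_fromBlocks_zero₂₁]
        rcases Int.units_eq_one_or h.e with e | e <;> simp [e, det_neg, ke.neg_one_pow]⟩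
      map_one' := Subtype.ext (by simp)
      map_mul' := fun a b => Subtype.ext (by simp only [map_mul]; rfl) }
  have hs : ∀ r, R.symm (scalar _ r) = scalar _ r := fun r => R.symm.commutes r
  refine ⟨k + (k + 1), by omega, (QuotientGroup.mk' _).comp ψ, (injective_iff_map_eq_one _).2 fun h hh => ?_,
    eq_bot_iff.2 fun c hc => ?_⟩
  · obtain ⟨r, -, e⟩ := Matrix.SpecialLinearGroup.mem_center_iff.1 ((QuotientGroup.eq_one_iff (ψ h)).1 hh)
    have e1 : scalar _ r = fromBlocks (h.e • 1) (nn k h.x) 0 1 := by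
      rw [← hs, e]; exact R.symm_apply_apply _
    have i0 : Fin k := ⟨0, by omega⟩
    have e2 := fun j => congrFun (congrFun e1 (.inl ⟨0, by omega⟩)) (.inr j)
    have e3 := congrFun (congrFun e1 (.inr 0)) (.inr 0)
    have e4 := congrFun (congrFun e1 (.inl i0)) (.inl i0)
    refine Hh.ext (funext fun i => ?_) ?_
    · change h.x i = 0
      fin_cases i
      · simpa [nn, Fin.ext_iff, show 0 ≠ k by omega] using (e2 0).symm
      · simpa [nn, Fin.ext_iff, show 1 ≠ k by omega] using (e2 ⟨1, by omega⟩).symm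
      · simpa [nn, Fin.ext_iff, show k ≠ 0 by omega, show k ≠ 1 by omega] using (e2 (Fin.last k)).symm
    · refine (Int.units_eq_one_or h.e).resolve_right fun e => h2 ?_
      simp [e] at e3 e4
      linear_combination e4 - e3
  obtain ⟨g, rfl⟩ := QuotientGroup.mk_surjective c
  have e1 : ∀ x, R.symm g.1 * rho p k ⟨x, -1⟩ = rho p k ⟨x, -1⟩ * R.symm g.1 := fun x => by
    obtain ⟨z, hz, e⟩ := (QuotientGroup.mk'_eq_mk' _).1 (show QuotientGroup.mk' _ (ψ ⟨x, -1⟩ * g) =
      QuotientGroup.mk' _ (g * ψ ⟨x, -1⟩) from hc _ ⟨⟨x, -1⟩, rfl⟩)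
    obtain ⟨r, -, er⟩ := Matrix.SpecialLinearGroup.mem_center_iff.1 hz
    have e2 : rho p k ⟨x, -1⟩ * R.symm g.1 * scalar _ r = R.symm g.1 * rho p k ⟨x, -1⟩ := by
      have := congrArg (fun y => R.symm y.1) e
      simp only [Matrix.SpecialLinearGroup.coe_mul, map_mul, ← er, hs] at this
      rwa [show R.symm (ψ ⟨x, -1⟩).1 = rho p k ⟨x, -1⟩ from R.symm_apply_apply _] at this
    have e3 : R.symm (g⁻¹).1 * R.symm g.1 = 1 := by
      rw [← map_mul, ← Matrix.SpecialLinearGroup.coe_mul, inv_mul_cancel]; exact map_one _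
    have e4 : trace (rho p k ⟨x, -1⟩) = 1 := by
      change trace (fromBlocks _ _ _ _) = 1
      simp [trace, Fintype.sum_sum_type]
    have e5 := congrArg (fun y => trace (R.symm (g⁻¹).1 * y)) e2
    simp only [← mul_assoc] at e5
    rw [e3, one_mul, scalar_apply, ← smul_eq_mul_diagonal, trace_smul, trace_mul_cycle, mul_eq_one_comm.1 e3, one_mul,
      e4] at e5
    rw [← e2, show r = 1 by simpa using e5, map_one, mul_one]
  obtain ⟨P, U, S, Q, hG⟩ : ∃ P U S Q, R.symm g.1 = fromBlocks P U S Q := ⟨_, _, _, _, (fromBlocks_toBlocks _).symm⟩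
  have e2 : ∀ x : Fin 3 → ZMod p, (P * nn k x : Matrix (Fin k) (Fin (k + 1)) (ZMod p)) + U =
      -U + (nn k x * Q : Matrix (Fin k) (Fin (k + 1)) (ZMod p)) ∧ -S = S := fun x => by
    have := e1 x
    change _ * fromBlocks _ _ _ _ = fromBlocks _ _ _ _ * _ at this
    rw [hG, fromBlocks_multiply, fromBlocks_multiply, fromBlocks_inj] at this
    exact ⟨by simpa using this.2.1, by simpa using this.2.2.1⟩
  have n0 : nn k (0 : Fin 3 → ZMod p) = 0 := by ext i j; simp [nn]
  obtain rfl : U = 0 := by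
    have := (e2 0).1
    rw [n0, Matrix.mul_zero, Matrix.zero_mul, zero_add, add_zero, eq_neg_iff_add_eq_zero, ← two_smul (ZMod p)] at this
    exact (smul_eq_zero.1 this).resolve_left h2
  obtain rfl : S = 0 := by
    have := (e2 0).2
    rw [neg_eq_iff_add_eq_zero, ← two_smul (ZMod p)] at this
    exact (smul_eq_zero.1 this).resolve_left h2
  obtain ⟨a1, a2⟩ := toep (P := P) (Q := Q) fun x => by simpa using (e2 x).1
  have e3 : g.1 = scalar _ (Q 0 0) := R.symm.injective (by
    rw [hG, hs, a1]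
    conv_lhs => rw [a2]
    simp only [scalar_apply, fromBlocks_diagonal]
    congr 1
    ext (i | i) <;> simp)
  refine (QuotientGroup.eq_one_iff _).2 (Subgroup.mem_center_iff.2 fun y => Subtype.ext ?_)
  change y.1 * g.1 = g.1 * y.1
  rw [e3]
  exact (scalar_commute _ (fun _ => Commute.all _ _) _).symm

end Cfsg.Agent.S2533
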