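import Mathlib
import Cfsg.Statements.S2534
import Cfsg.Agent.H03.SymB

set_option autoImplicit false
open Cfsg

namespace Cfsg.Agent.S2534

open Equiv Equiv.Perm Finset Subgroup MulAction H03.Sym Pointwise in
theorem no4 {n : ℕ} {π : Set ℕ} (t u v : Perm (Fin n)) (h2 : 2 ∈ π) (h3 : 3 ∈ π) (ht : t.cycleType = {2, 2, 2})
    (hn : n = 7 ∨ n = 8) (h : sign u = 1 ∧ sign v = 1 ∧ u * t = t * u ∧ v * t = t * v ∧ ∀ Δ : Finset (Fin n),
      #Δ = 4 → ¬ ((u • Δ = Δ ∨ u • Δ = Δᶜ) ∧ (v • Δ = Δ ∨ v • Δ = Δᶜ))) :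
    ∃ K : Subgroup (alternatingGroup (Fin n)), IsPiSubgroup π K ∧
      ∀ Δ : Finset (Fin n), #Δ = 4 → ¬ K ≤ (P Δ).subgroupOf _ := by
  refine ⟨(centralizer {t}).subgroupOf _, fun p hp hd => ?_, fun Δ h4 e => h.2.2.2.2 Δ h4
    ⟨mem_P.1 (e (x := ⟨u, h.1⟩) (mem_centralizer_singleton_iff.2 h.2.2.1)),
      mem_P.1 (e (x := ⟨v, h.2.1⟩) (mem_centralizer_singleton_iff.2 h.2.2.2.1))⟩⟩
  have h5 : p ∣ 2 ^ 5 * 3 := (hd.trans (card_comap_dvd_of_injective _ _ (subtype_injective _))).trans (by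
    rw [nat_card_centralizer, ht]; rcases hn with rfl | rfl <;> decide)
  rcases hp.dvd_mul.1 h5 with h | h
  · rwa [(Nat.prime_dvd_prime_iff_eq hp Nat.prime_two).1 (hp.dvd_of_dvd_pow h)]
  · rwa [(Nat.prime_dvd_prime_iff_eq hp Nat.prime_three).1 h]

/-- For `n ≥ 5` and a set of primes `π`, the alternating group of degree `n` satisfies the full Sylow analogue for `π` (its maximal `π`-subgroups are pairwise conjugate; for a finite group this says Hall `π`-subgroups exist, are all conjugate, and contain every `π`-subgroup up to conjugacy) if and only if either at most one prime of `π` divides its order or every prime dividing its order lies in `π`. -/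
theorem result (n : ℕ) (hn : 5 ≤ n) (π : Set ℕ) :
    Cfsg.IsDPiGroup π ↥(alternatingGroup (Fin n)) ↔
      ((∀ r s : ℕ, r.Prime → s.Prime → r ∈ π → s ∈ π → r ∣ Nat.card ↥(alternatingGroup (Fin n)) → s ∣ Nat.card ↥(alternatingGroup (Fin n)) → r = s) ∨
        ∀ r : ℕ, r.Prime → r ∣ Nat.card ↥(alternatingGroup (Fin n)) → r ∈ π) := by
  open Equiv Equiv.Perm Finset Subgroup MulAction H03.Sym Pointwise in
  refine ⟨fun hD => by_contra fun h => ?_, triv_D⟩
  have key : ∀ r : ℕ, r.Prime → r ∣ Nat.card (alternatingGroup (Fin n)) → r ≤ Fintype.card (Fin n) :=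
    fun r hr hd => by
    have := hd.trans (card_subgroup_dvd_card _)
    rwa [Nat.card_perm, hr.dvd_factorial, Nat.card_eq_fintype_card] at this
  push Not at h
  obtain ⟨⟨r, s, h1, h2, h3, h4, h5, h6, h7⟩, t, h8, h9, h10⟩ := h
  have e : NT π (Fintype.card (Fin n)) := ⟨⟨r, s, h1, h2, h7, h3, h4, key r h1 h5, key s h2 h6⟩,
    t, h8, key t h8 h9, h10⟩
  obtain ⟨M, hM⟩ := (C_of_D hD).1
  obtain ⟨Δ₀, -, h0⟩ := classify_A e hM
  suffices ∃ K : Subgroup (alternatingGroup (Fin n)), IsPiSubgroup π K ∧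
      ∀ Δ : Finset (Fin n), #Δ = #Δ₀ → ¬ K ≤ (P Δ).subgroupOf _ by
    obtain ⟨K, k1, k2⟩ := this
    obtain ⟨M, m1, m2⟩ := exists_max k1
    obtain ⟨Δ, rfl, m3⟩ := classify_A e (hall_of_max hD m2)
    exact k2 Δ (m3.unique h0) m1
  rw [Fintype.card_fin] at h0
  rcases h0 with ⟨a1, a2, a3⟩ | ⟨a1, a2, a3⟩
  · obtain ⟨S, -, hS⟩ := exists_subset_card_eq (s := (univ : Finset (Fin n))) (n := 2) (by simp; omega)
    refine ⟨(stabilizer _ S).subgroupOf _, fun p hp hd => ?_, fun Δ h4 hle => ?_⟩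
    · have b1 := hd.trans (card_comap_dvd_of_injective _ _ (subtype_injective _))
      have b2 := (stabilizer (Perm (Fin n)) S).card_mul_index
      rw [index_stab, hS, Nat.card_perm, Nat.card_eq_fintype_card (α := Fin n), Fintype.card_fin] at b2
      have b3 := hp.dvd_factorial.1 (b1.trans ⟨_, b2.symm⟩)
      refine (a3 p hp b3).2 (b3.lt_of_ne ?_)
      rintro rfl
      have b4 := mul_dvd_mul b1 (hp.dvd_choose_self two_ne_zero (by omega))
      rw [b2, ← Nat.mul_factorial_pred hp.ne_zero, Nat.mul_dvd_mul_iff_left hp.pos, hp.dvd_factorial] at b4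
      omega
    · obtain ⟨o, ho⟩ := card_eq_one.1 (show #Δᶜ = 1 by rw [card_compl, Fintype.card_fin]; omega)
      obtain ⟨a, b, hab, rfl⟩ := card_eq_two.1 hS
      obtain ⟨c, c1, c2⟩ : ∃ c, c ∉ ({a, b} : Finset (Fin n)) ∧ (o = c ∨ o = a ∨ o = b) := by
        by_cases h : o = a ∨ o = b
        · obtain ⟨c, -, hc⟩ := exists_mem_notMem_of_card_lt_card (s := {a, b}) (t := univ)
            (by simp [hS]; omega)
          exact ⟨c, hc, .inr h⟩
        · exact ⟨o, by simpa using h, .inl rfl⟩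
      obtain ⟨d, -, hd⟩ := exists_mem_notMem_of_card_lt_card (s := {c, a, b}) (t := univ)
        (card_le_three.trans_lt (by simp; omega))
      simp only [mem_insert, Finset.mem_singleton, not_or] at c1 hd
      have b1 := mem_P.1 (hle (x := ⟨swap a b * swap c d, by simp [mem_alternatingGroup, hab, Ne.symm hd.1]⟩)
        (show (swap a b * swap c d) • ({a, b} : Finset (Fin n)) = {a, b} by
          simp [smul_finset_insert, swap_apply_of_ne_of_ne, Ne.symm c1.1, Ne.symm c1.2, Ne.symm hd.2.1,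
            Ne.symm hd.2.2, pair_comm]))
      have b2 := b1.resolve_right fun h => by
        have := congrArg card h
        rw [card_smul_finset, ho, card_singleton] at this
        omega
      have b3 : ∀ x, x ∉ Δ ↔ x = o := fun x => by rw [← mem_compl, ho, Finset.mem_singleton]
      have b4 : (swap a b * swap c d) o = o := (b3 _).1 fun h =>
        (b3 o).2 rfl ((smul_mem_smul_finset_iff (swap a b * swap c d)).1 (b2.symm ▸ h))
      rcases c2 with rfl | rfl | rfl <;>
        simp [swap_apply_of_ne_of_ne, c1, hd, Ne.symm c1.1, Ne.symm c1.2, Ne.symm hd.2.1, Ne.symm hd.2.2, hab,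
          hab.symm] at b4
  · rw [a2]
    have p2 := (a3 2 Nat.prime_two (by omega)).2 (.inl rfl)
    have p3 := (a3 3 Nat.prime_three (by omega)).2 (.inr rfl)
    rcases a1 with rfl | rfl
    · exact no4 (swap 0 3 * swap 1 4 * swap 2 5) (swap 0 1 * swap 1 2 * swap 3 4 * swap 4 5)
        (swap 0 3 * swap 1 4) p2 p3 (by decide +kernel) (.inl rfl) (by decide +kernel)
    · exact no4 (swap 0 3 * swap 1 4 * swap 2 5) (swap 0 1 * swap 1 2 * swap 3 4 * swap 4 5)
        (swap 0 3 * swap 1 4) p2 p3 (by decide +kernel) (.inr rfl) (by decide +kernel)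

end Cfsg.Agent.S2534
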