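import Mathlib
import Cfsg.Statements.S2535
import Cfsg.Agent.H03.SymB

set_option autoImplicit false
open Cfsg

namespace Cfsg.Agent.S2535

/-- For every `n` and every set of primes `π`, the following are equivalent for the symmetric group `S` of degree `n` and its alternating subgroup `A`: `S` has a Hall `π`-subgroup; `S` has a Hall `π`-subgroup and all of them are conjugate; `A` has a Hall `π`-subgroup; `A` has a Hall `π`-subgroup and all of them are conjugate. -/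
theorem result (n : ℕ) (π : Set ℕ) :
    (Cfsg.IsEPiGroup π (Equiv.Perm (Fin n)) ↔ Cfsg.IsCPiGroup π (Equiv.Perm (Fin n))) ∧
    (Cfsg.IsEPiGroup π (Equiv.Perm (Fin n)) ↔ Cfsg.IsEPiGroup π ↥(alternatingGroup (Fin n))) ∧
    (Cfsg.IsEPiGroup π ↥(alternatingGroup (Fin n)) ↔ Cfsg.IsCPiGroup π ↥(alternatingGroup (Fin n))) := by
  refine ⟨⟨fun h => ?_, fun h => h.1⟩, ⟨fun ⟨H, h⟩ => ⟨_, (H03.Sym.hall_A_iff _).2 ⟨H, h, rfl⟩⟩,
    fun ⟨M, h⟩ => ((H03.Sym.hall_A_iff M).1 h).imp fun _ h => h.1⟩, fun h => ?_, fun h => h.1⟩ <;>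
    by_cases e : H03.Sym.NT π (Fintype.card (Fin n))
  · refine ⟨h, fun H K h1 h2 => ?_⟩
    obtain ⟨Δ, rfl, h3⟩ := H03.Sym.classify_S e h1
    obtain ⟨Δ', rfl, h4⟩ := H03.Sym.classify_S e h2
    obtain ⟨g, -, hg⟩ := H03.Sym.P_conj (h3.unique h4) (h3.two_le e.three_le)
    exact ⟨g, Subgroup.ext fun x => (hg x).trans (by rw [Subgroup.mem_map_equiv]; rfl)⟩
  · exact H03.Sym.C_of_D (H03.Sym.D_of_not_NT' e)
  · refine ⟨h, fun H K h1 h2 => ?_⟩
    obtain ⟨Δ, rfl, h3⟩ := H03.Sym.classify_A e h1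
    obtain ⟨Δ', rfl, h4⟩ := H03.Sym.classify_A e h2
    obtain ⟨g, h5, hg⟩ := H03.Sym.P_conj (h3.unique h4) (h3.two_le e.three_le)
    exact ⟨⟨g, h5⟩, Subgroup.ext fun x => (hg x).trans (by rw [Subgroup.mem_map_equiv]; rfl)⟩
  · exact H03.Sym.C_of_D (H03.Sym.D_of_not_NT e _)

end Cfsg.Agent.S2535
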