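import Mathlib
import Cfsg.Statements.S2536
import Cfsg.Agent.H03.SymB

set_option autoImplicit false
open Cfsg

namespace Cfsg.Agent.S2536

/-- Let `π` be a set of primes and `n` a natural number such that at least two primes of `π` divide `n!` but not every prime dividing `n!` lies in `π`. Then the symmetric group of degree `n` has a Hall `π`-subgroup if and only if either `n` is prime and the primes of `π` dividing `n!` are exactly the primes smaller than `n` (a point stabilizer is then such a subgroup), or `n ∈ {7, 8}` and the primes of `π` dividing `n!` are exactly 2 and 3. -/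
theorem result (n : ℕ) (π : Set ℕ)
    (h2 : ∃ r s : ℕ, r.Prime ∧ s.Prime ∧ r ≠ s ∧ r ∈ π ∧ s ∈ π ∧ r ≤ n ∧ s ≤ n)
    (hns : ∃ r : ℕ, r.Prime ∧ r ≤ n ∧ r ∉ π) :
    Cfsg.IsEPiGroup π (Equiv.Perm (Fin n)) ↔
      ((n.Prime ∧ ∀ r : ℕ, r.Prime → r ≤ n → (r ∈ π ↔ r < n)) ∨
       ((n = 7 ∨ n = 8) ∧ ∀ r : ℕ, r.Prime → r ≤ n → (r ∈ π ↔ (r = 2 ∨ r = 3)))) := by
  have h : H03.Sym.NT π (Fintype.card (Fin n)) := by rw [Fintype.card_fin]; exact ⟨h2, hns⟩
  refine ⟨fun ⟨H, hH⟩ => ?_, fun h1 => ?_⟩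
  · obtain ⟨Δ, -, h1⟩ := H03.Sym.classify_S h hH
    rw [Fintype.card_fin] at h1
    exact h1.imp (fun h => ⟨h.1, h.2.2⟩) fun h => ⟨h.1, h.2.2⟩
  · obtain ⟨m, h3, h4⟩ : ∃ m ≤ n, H03.Sym.Typ π n m := by
      rcases h1 with h1 | h1
      · exact ⟨n - 1, by omega, .inl ⟨h1.1, by have := h1.1.pos; omega, h1.2⟩⟩
      · exact ⟨4, by omega, .inr ⟨h1.1, rfl, h1.2⟩⟩
    obtain ⟨Δ, -, rfl⟩ := Finset.exists_subset_card_eq (s := (Finset.univ : Finset (Fin n)))
      (by simpa using h3)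
    exact ⟨_, H03.Sym.P_hall h.three_le (by rwa [Fintype.card_fin])⟩

end Cfsg.Agent.S2536
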