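import Mathlib
import Cfsg.Statements.S2540
import Cfsg.Agent.H09.Invol

set_option autoImplicit false
open Cfsg

namespace Cfsg.Agent.S2540

open H09 in

/-- Let F be a finite field and n ≥ 1, excluding the case n = 2 with #F ≤ 3. A subgroup of GL_n(F) that is normalized by every element of SL_n(F) either consists of scalar matrices or contains SL_n(F). -/
theorem result {F : Type*} [Field F] [Fintype F] (n : ℕ) (hn : 1 ≤ n) (hex : ¬ (n = 2 ∧ Fintype.card F ≤ 3)) (G : Subgroup (Matrix.GeneralLinearGroup (Fin n) F)) (hG : ∀ s : Matrix.SpecialLinearGroup (Fin n) F, ∀ g ∈ G, (Matrix.SpecialLinearGroup.toGL s) * g * (Matrix.SpecialLinearGroup.toGL s)⁻¹ ∈ G) : (∀ g ∈ G, ∃ c : F, (g : Matrix (Fin n) (Fin n) F) = c • (1 : Matrix (Fin n) (Fin n) F)) ∨ (Matrix.SpecialLinearGroup.toGL : Matrix.SpecialLinearGroup (Fin n) F →* _).range ≤ G := by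
  obtain rfl | hn := hn.eq_or_lt
  · exact .inl fun g _ => ⟨g.1 0 0, by ext i j; simp [Subsingleton.elim i 0, Subsingleton.elim j 0]⟩
  refine (H22.comp_le_or_comm_of_normalizes (comp_range_toGL hn fun h => by
    by_contra h'; exact hex ⟨h, by omega⟩) ?_).symm.imp_left fun h g hg => ?_
  · rintro _ ⟨s, rfl⟩
    exact Subgroup.mem_normalizer_iff.2 fun g => ⟨hG s g, fun h => by simpa [mul_assoc] using hG s⁻¹ _ h⟩
  · rw [Subgroup.commutator_comm, Subgroup.commutator_eq_bot_iff_le_centralizer,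
      centralizer_range_toGL] at h
    obtain ⟨c, hc⟩ := Matrix.GeneralLinearGroup.mem_center_iff_val_mem_range_scalar.1 (h hg)
    exact ⟨c, by rw [← hc, Matrix.scalar_apply, Matrix.smul_one_eq_diagonal]⟩

end Cfsg.Agent.S2540
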