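import Mathlib
import Cfsg.Agent.H09.SL2Basic
import Cfsg.Statements.S2541

set_option autoImplicit false
open Cfsg

namespace Cfsg.Agent.S2541

/-- Let F be a field with 9 elements. The symmetric group S_6 is not isomorphic to PGL_2(F) (although both have index-2 subgroups isomorphic to A_6). -/
theorem result {F : Type*} [Field F] [Fintype F] (hF : Fintype.card F = 9) : ¬ Nonempty (Equiv.Perm (Fin 6) ≃* Matrix.ProjGenLinGroup (Fin 2) F) := by
  classical
  rintro ⟨e⟩
  obtain ⟨g, hg⟩ := IsCyclic.exists_ofOrder_eq_natCard (α := Fˣ)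
  rw [Nat.card_units, Nat.card_eq_fintype_card, hF] at hg
  have h1 : ∀ σ : Equiv.Perm (Fin 6), σ ^ 60 = 1 := by
    intro σ
    rw [← orderOf_dvd_iff_pow_eq_one, ← Equiv.Perm.lcm_cycleType, Multiset.lcm_dvd]
    intro k hk
    have h2 := Equiv.Perm.two_le_of_mem_cycleType hk
    have h3 := (Multiset.le_sum_of_mem hk).trans σ.sum_cycleType_le
    rw [Fintype.card_fin] at h3
    interval_cases k <;> norm_num
  have h2 : ∀ k : ℕ, H09.gl2 (g : F) 0 0 1 (by simp) ^ k = H09.gl2 ((g : F) ^ k) 0 0 1 (by simp) := by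
    intro k
    induction k with
    | zero => simp [H09.gl2_one]
    | succ k ih => rw [pow_succ, ih, H09.gl2_mul]; simp [H09.gl2_eq_iff, pow_succ]
  have h3 := congrArg e (h1 (e.symm (Matrix.ProjGenLinGroup.mk (H09.gl2 (g : F) 0 0 1 (by simp)))))
  rw [map_pow, e.apply_symm_apply, map_one, ← map_pow, Matrix.ProjGenLinGroup.mk_eq_one, h2,
    H09.GL2.mem_center_iff_entries] at h3
  have h4 : g ^ 60 = 1 := Units.ext (by simpa [H09.gl2] using h3.2.2)
  rw [← orderOf_dvd_iff_pow_eq_one, hg] at h4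
  norm_num at h4

end Cfsg.Agent.S2541
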