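import Mathlib
import Cfsg.Statements.S2542
import Cfsg.Agent.S0675
import Cfsg.Agent.L.PSL2Max4

set_option autoImplicit false
open Cfsg

namespace Cfsg.Agent.S2542

/-- Let F be a field with 11 elements. PSL_2(F) has a subgroup H of index 11 isomorphic to the alternating group A_5, and the action of PSL_2(F) on the cosets of H is 2-transitive (of degree 11). -/
theorem result {F : Type*} [Field F] [Fintype F] (hF : Fintype.card F = 11) : ∃ H : Subgroup (Matrix.ProjectiveSpecialLinearGroup (Fin 2) F), H.index = 11 ∧ Nonempty (H ≃* alternatingGroup (Fin 5)) ∧ MulAction.IsMultiplyPretransitive (Matrix.ProjectiveSpecialLinearGroup (Fin 2) F) ((Matrix.ProjectiveSpecialLinearGroup (Fin 2) F) ⧸ H) 2 := by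
  classical
  obtain ⟨H, ⟨e⟩⟩ := L.Dk.exists_subgroup_of_injective (L.Dk.exists_A5_psl (F := F) (by rw [hF]; norm_num))
  have hG : Nat.card (Matrix.ProjectiveSpecialLinearGroup (Fin 2) F) = 660 :=
    L.Dk.card_psl_of hF (by norm_num)
  have hi : H.index = 11 := by
    have := H.card_mul_index
    rw [Nat.card_congr e.toEquiv, L.Dk.card_A5, hG] at this
    omega
  refine ⟨H, hi, ⟨e⟩, ?_⟩
  set G := Matrix.ProjectiveSpecialLinearGroup (Fin 2) F
  have : IsSimpleGroup G := L.Dk.psl_simple (by omega)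
  have : Finite G := Nat.finite_of_card_ne_zero (by omega)
  let _ := Fintype.ofFinite (G ⧸ H)
  let φ := MulAction.toPermHom G (G ⧸ H)
  have : MulAction.IsPretransitive φ.range (G ⧸ H) := ⟨fun x y => by
    obtain ⟨g, hg⟩ := MulAction.exists_smul_eq G x y
    exact ⟨⟨φ g, g, rfl⟩, hg⟩⟩
  have hinj : Function.Injective φ := by
    rw [← MonoidHom.ker_eq_bot_iff, ← Subgroup.normalCore_eq_ker]
    refine (H.normalCore_normal.eq_bot_or_eq_top).resolve_right fun h => ?_
    have h2 : H = ⊤ := top_le_iff.1 (h ▸ H.normalCore_le)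
    rw [h2, Subgroup.index_top] at hi
    omega
  rcases Cfsg.Agent.S0675.result (α := G ⧸ H) (by
    rw [← Nat.card_eq_fintype_card]; change H.index.Prime; rw [hi]; norm_num) φ.range with h | h
  · exact absurd (Group.isSolvable_of_isSolvable_injective (f := φ.rangeRestrict)
      (φ.rangeRestrict_injective_iff.2 hinj)) (L.Dk.not_solvable_psl (by omega))
  · refine ⟨fun x y => ?_⟩
    obtain ⟨⟨_, g, rfl⟩, hg⟩ := h.exists_smul_eq x y
    exact ⟨g, hg⟩

end Cfsg.Agent.S2542
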