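import Mathlib
import Cfsg.Statements.S2543
import Cfsg.Agent.L.PSL2Max4

set_option autoImplicit false
open scoped Pointwise
open Cfsg

namespace Cfsg.Agent.S2543

open L.Dk Matrix Subgroup in
open scoped MatrixGroups in
theorem norm_eq {F : Type*} [Field F] [Fintype F] (hF : Fintype.card F = 11) {H : Subgroup PGL(2, F)}
    (e : H ≃* alternatingGroup (Fin 5)) : normalizer (H : Set PGL(2, F)) = H := by
  have : Fact (Nat.Prime 11) := ⟨by norm_num⟩
  have : CharP F 11 := by
    obtain ⟨p, hp⟩ := CharP.exists F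
    obtain ⟨n, hpp, hn⟩ := FiniteField.card F p
    rwa [eq_of_pow_eq_prime (by norm_num : Nat.Prime 11) (hn.symm.trans hF)] at hp
  set N := normalizer (H : Set PGL(2, F))
  have hle : H ≤ N := le_normalizer
  have hH : Nat.card H = 60 := by rw [Nat.card_congr e.toEquiv, card_A5]
  have hns : ¬ Group.IsSolvable N := fun h => not_solvable_A5
    (Group.isSolvable_of_isSolvable_injective (f := (inclusion hle).comp e.symm.toMonoidHom)
      ((inclusion_injective hle).comp e.symm.injective))
  have hG : Nat.card PSL(2, F) = 660 := card_psl_of hF (by norm_num)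
  have hno : ¬ pslRange F ≤ N := fun h => by
    have : IsSimpleGroup (pslRange F) := by
      have := psl_simple (F := F) (by omega)
      exact (pslEquiv F).symm.isSimpleGroup
    have hn : (H.subgroupOf (pslRange F)).Normal := normal_subgroupOf_of_le_normalizer h
    have hc := Nat.card_congr (subgroupOfEquivOfLe (A5_le_pslRange e)).toEquiv
    rcases hn.eq_bot_or_eq_top with h1 | h1 <;> rw [h1, hH] at hc
    · simp at hc
    · rw [card_top, card_pslRange, hG] at hc; omega
  have hsub : ∀ F₀ : Subfield F, F₀ = ⊤ := fun F₀ => by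
    by_contra h0
    obtain ⟨F₁, r, -, hr, h1⟩ := exists_max_subfield h0
    rw [hF] at h1
    have := eq_of_pow_eq_prime (by norm_num : Nat.Prime 11) h1
    rw [this] at h1
    have := Nat.pow_right_injective (by norm_num : 2 ≤ 11) (h1.trans (pow_one 11).symm)
    exact hr.one_lt.ne' this
  have hd : 60 ∣ Nat.card N := hH ▸ card_dvd_of_le hle
  rcases clsX 11 N with ⟨x, h⟩ | ⟨h, -⟩ | ⟨C, h, -, hi, -⟩ | ⟨⟨h⟩⟩ | ⟨⟨h⟩⟩ | ⟨⟨h⟩⟩ | ⟨F₀, σ, h⟩ | ⟨F₀, σ, h⟩
  · exact absurd (isSolvable_of_fix N fun g hg => h ⟨g, hg⟩) hns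
  · exact absurd (Group.isSolvable_of_comm h.isMulCommutative.is_comm.comm) hns
  · exact absurd (isSolvable_of_index_two C hi) hns
  · rw [Nat.card_congr h.toEquiv, card_A4] at hd; omega
  · rw [Nat.card_congr h.toEquiv, card_S4] at hd; omega
  · exact (eq_of_le_of_card_ge hle (by rw [Nat.card_congr h.toEquiv, card_A5, hH])).symm
  · rw [hsub F₀, subPGL_top, cj_top] at h
    exact absurd (h ▸ le_top) hno
  · rw [hsub F₀, subPSL_top, cj_pslRange] at h
    exact absurd h.ge hno

/-- Let F be a field with 11 elements. PSL_2(F) has exactly 22 subgroups isomorphic to the alternating group A_5, and they form two conjugacy classes: there are two such subgroups that are not conjugate, and every such subgroup is conjugate to one of these two. -/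
theorem result {F : Type*} [Field F] [Fintype F] (hF : Fintype.card F = 11) : Nat.card {H : Subgroup (Matrix.ProjectiveSpecialLinearGroup (Fin 2) F) // Nonempty (H ≃* alternatingGroup (Fin 5))} = 22 ∧ ∃ H K : Subgroup (Matrix.ProjectiveSpecialLinearGroup (Fin 2) F), Nonempty (H ≃* alternatingGroup (Fin 5)) ∧ Nonempty (K ≃* alternatingGroup (Fin 5)) ∧ (∀ g : Matrix.ProjectiveSpecialLinearGroup (Fin 2) F, MulAut.conj g • H ≠ K) ∧ ∀ L : Subgroup (Matrix.ProjectiveSpecialLinearGroup (Fin 2) F), Nonempty (L ≃* alternatingGroup (Fin 5)) → ∃ g : Matrix.ProjectiveSpecialLinearGroup (Fin 2) F, MulAut.conj g • L = H ∨ MulAut.conj g • L = K := by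
  open L.Dk Matrix Subgroup in
  open scoped MatrixGroups in
  obtain ⟨H, ⟨e⟩⟩ := exists_subgroup_of_injective (exists_A5_psl (F := F) (by rw [hF]; norm_num))
  let π : PSL(2, F) →* PGL(2, F) := ProjectiveSpecialLinearGroup.toPGL
  have hπ : Function.Injective π := ProjectiveSpecialLinearGroup.toPGL_injective
  have e' := (L.Dk.mapEquiv H).trans e
  have hN := norm_eq hF e'
  have hcj : ∀ (g : PSL(2, F)) (K : Subgroup PSL(2, F)),
      (MulAut.conj g • K).map π = L.Dk.cj (π g) (K.map π) := by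
    intro g K
    change (K.map (MulAut.conj g).toMonoidHom).map π = _
    rw [Subgroup.map_map, L.Dk.cj, Subgroup.map_map]
    congr 1
    ext x; simp
  have hback : ∀ σ : PGL(2, F), ((L.Dk.cj σ (H.map π)).comap π).map π = L.Dk.cj σ (H.map π) :=
    fun σ => Subgroup.map_comap_eq_self (L.Dk.cj_le_pslRange (L.Dk.A5_le_pslRange e'))
  have hiso : ∀ σ : PGL(2, F), Nonempty ((L.Dk.cj σ (H.map π)).comap π ≃* alternatingGroup (Fin 5)) :=
    fun σ => ⟨(L.Dk.comapEquiv (L.Dk.cj_le_pslRange (L.Dk.A5_le_pslRange e'))).trans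
      ((L.Dk.cjEquiv σ _).symm.trans e')⟩
  constructor
  · have h1 : Nat.card {K : Subgroup PSL(2, F) // Nonempty (K ≃* alternatingGroup (Fin 5))} =
        Nat.card (MulAction.orbit (ConjAct PGL(2, F)) (H.map π)) := by
      refine Nat.card_congr (Equiv.ofBijective (fun K => ⟨K.1.map π, ?_⟩) ⟨?_, ?_⟩)
      · obtain ⟨σ, hσ⟩ := L.Dk.conj_A5 e' ((L.Dk.mapEquiv K.1).trans K.2.some)
        exact ⟨ConjAct.toConjAct σ, hσ.symm⟩
      · intro K K' h
        exact Subtype.ext (Subgroup.map_injective hπ (congrArg Subtype.val h))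
      · rintro ⟨_, σ, rfl⟩
        exact ⟨⟨_, hiso (ConjAct.ofConjAct σ)⟩, Subtype.ext (hback _)⟩
    rw [h1, Nat.card_coe_set_eq, ← MulAction.index_stabilizer]
    let c : ConjAct PGL(2, F) →* PGL(2, F) := ConjAct.ofConjAct.toMonoidHom
    have h2 : MulAction.stabilizer (ConjAct PGL(2, F)) (H.map π) = (H.map π).comap c := by
      ext σ
      conv_rhs => rw [← hN]
      exact (Subgroup.conjAct_pointwise_smul_iff (g := ConjAct.ofConjAct σ))
    rw [h2, Subgroup.index_comap_of_surjective _ (f := c) ConjAct.ofConjAct.surjective]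
    have := (H.map π).card_mul_index
    rw [Nat.card_congr e'.toEquiv, L.Dk.card_A5, L.Dk.card_PGL2, hF] at this
    omega
  · obtain ⟨σ, hσ⟩ : ∃ σ : PGL(2, F), σ ∉ L.Dk.pslRange F := by
      by_contra hno
      push Not at hno
      exact L.Dk.pslRange_ne_top (F := F) (by rw [hF]; decide) (eq_top_iff.2 fun x _ => hno x)
    have hidx : (L.Dk.pslRange F).index = 2 := by
      have := (L.Dk.pslRange F).card_mul_index
      rw [L.Dk.card_pslRange, L.Dk.card_psl_of (n := 660) hF (by norm_num), L.Dk.card_PGL2, hF] at this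
      omega
    refine ⟨H, (L.Dk.cj σ (H.map π)).comap π, ⟨e⟩, hiso σ, fun g hg => hσ ?_, fun K ⟨eK⟩ => ?_⟩
    · have h1 := congrArg (Subgroup.map π) hg
      rw [hcj, hback] at h1
      have h2 : L.Dk.cj (σ⁻¹ * π g) (H.map π) = H.map π := by
        rw [← L.Dk.cj_cj, h1, L.Dk.cj_cj, inv_mul_cancel, L.Dk.cj_one]
      have h3 : σ⁻¹ * π g ∈ H.map π := by
        rw [← hN]
        exact (Subgroup.conjAct_pointwise_smul_iff).1 h2
      have h4 := L.Dk.A5_le_pslRange e' h3
      have h5 : π g ∈ L.Dk.pslRange F := ⟨g, rfl⟩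
      simpa using (L.Dk.pslRange F).mul_mem h5 ((L.Dk.pslRange F).inv_mem h4)
    · obtain ⟨τ, hτ⟩ := L.Dk.conj_A5 ((L.Dk.mapEquiv K).trans eK) e'
      by_cases ht : τ ∈ L.Dk.pslRange F
      · obtain ⟨g, rfl⟩ := ht
        exact ⟨g, Or.inl (Subgroup.map_injective hπ (by rw [hcj]; exact hτ.symm))⟩
      · obtain ⟨g, hg⟩ : σ * τ ∈ L.Dk.pslRange F := by
          rw [Subgroup.mul_mem_iff_of_index_two hidx]; exact iff_of_false hσ ht
        refine ⟨g, Or.inr (Subgroup.map_injective hπ ?_)⟩
        rw [hcj, hback, show π g = σ * τ from hg, ← L.Dk.cj_cj]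
        exact congrArg _ hτ.symm

end Cfsg.Agent.S2543
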