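import Mathlib
import Cfsg.Statements.S2545
import Cfsg.Agent.H12.LtS
import Cfsg.Agent.S0244
import Cfsg.Agent.S0247
import Cfsg.Agent.S1058

set_option autoImplicit false
open Cfsg

namespace Cfsg.Agent.S2545

open H12.Lt

/-- Let F be a finite field of characteristic p and consider the projective symplectic group PSp_{2m}(F) with m ≥ 1. This group has an irreducible complex character χ whose degree equals the order of a Sylow p-subgroup (namely q^(m²) when #F = q) and whose restriction to any Sylow p-subgroup P is the regular character of P: χ vanishes on the non-identity elements of P. (This is the Steinberg character.) -/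
theorem result {F : Type*} [Field F] [Fintype F] (p : ℕ) [Fact p.Prime] [CharP F p] (m : ℕ) (hm : 1 ≤ m) : ∃ χ : Cfsg.PSp m F → ℂ, Cfsg.IsIrrCharacter (Cfsg.PSp m F) χ ∧ ∀ P : Sylow p (Cfsg.PSp m F), χ 1 = Nat.card P ∧ ∀ x : Cfsg.PSp m F, x ∈ P → x ≠ 1 → χ x = 0 := by
  change HasSt p _
  obtain rfl | ⟨n, rfl⟩ : m = 1 ∨ ∃ k, m = k + 2 := (em _).imp_right fun h => ⟨m - 2, by omega⟩
  · let e : Matrix.symplecticGroup (Fin 1) F ≃* Matrix.SpecialLinearGroup (Fin 2) F :=
      { toFun := fun A => ⟨Matrix.reindex finSumFinEquiv finSumFinEquiv A.1, by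
          rw [Matrix.det_reindex_self]; exact (S0244.result _).1 A.2⟩
        invFun := fun A => ⟨(Matrix.reindex finSumFinEquiv finSumFinEquiv).symm A.1, (S0244.result _).2 (by simp)⟩
        left_inv := fun A => by simp
        right_inv := fun A => Subtype.ext (by simp)
        map_mul' := fun A B => Subtype.ext (Matrix.submatrix_mul_equiv _ _ _ finSumFinEquiv.symm _).symm }
    exact (hasSt_PSL le_rfl).equiv (H10.quotCenterEquiv e)
  by_cases h : 1 ≤ n ∨ ∃ a : F, a ≠ 0 ∧ a ≠ 1
  · exact ((twG_C h (.refl _)).dat p).elim fun C _ => C.hasSt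
  obtain rfl : n = 0 := by omega
  have h2 : Fintype.card F = 2 := le_antisymm (by
    simpa using Fintype.card_le_of_surjective ![(0 : F), 1] fun a => by
      by_contra! e; exact h (.inr ⟨a, (e 0).symm, (e 1).symm⟩)) Fintype.one_lt_card
  obtain ⟨e⟩ := S0247.result h2
  obtain ⟨f⟩ := S1058.result h2
  have : Nonempty (H11.Node Lie.chevB2) := ⟨⟨0, by decide⟩⟩
  exact ((twG_one (H11.grpSys_grp Lie.chevB2 F) (H10.quotCenterEquiv (e.trans f.symm))).dat p).elim fun C _ => C.hasSt

end Cfsg.Agent.S2545
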