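import Mathlib
import Cfsg.Statements.S2546
import Cfsg.Agent.H12.LtS

set_option autoImplicit false
open Cfsg

namespace Cfsg.Agent.S2546

open H12.Lt

/-- Let F be a finite field of characteristic p and consider the projective special unitary group PSU_n(q), n ≥ 2, realised over the field F with q² elements. This group has an irreducible complex character χ whose degree equals the order of a Sylow p-subgroup (namely q^(n(n−1)/2)) and whose restriction to any Sylow p-subgroup P is the regular character of P: χ vanishes on the non-identity elements of P. (This is the Steinberg character.) -/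
theorem result {F : Type*} [Field F] [Fintype F] (p : ℕ) [Fact p.Prime] [CharP F p] (n q : ℕ) (hn : 2 ≤ n) (hF : Fintype.card F = q ^ 2) : ∃ χ : Cfsg.PSU n F q → ℂ, Cfsg.IsIrrCharacter (Cfsg.PSU n F q) χ ∧ ∀ P : Sylow p (Cfsg.PSU n F q), χ 1 = Nat.card P ∧ ∀ x : Cfsg.PSU n F q, x ∈ P → x ≠ 1 → χ x = 0 := by
  change HasSt p _
  obtain rfl | ⟨n, rfl⟩ : n = 2 ∨ ∃ k, n = k + 3 := (em _).imp_right fun h => ⟨n - 3, by omega⟩
  · obtain ⟨k, hp, hk⟩ := FiniteField.card F p
    obtain ⟨j, -, rfl⟩ := (Nat.dvd_prime_pow hp).1 (hk ▸ hF ▸ dvd_pow_self q two_ne_zero)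
    obtain ⟨K, _, _, hK⟩ := L.Dk.exists_field_card p j (by rintro rfl; exact Fintype.one_lt_card.ne' hF)
    have := charP_of_card_eq_prime_pow hK
    obtain ⟨e⟩ := H10.su_two hK hF
    exact (hasSt_PSL le_rfl).equiv (H10.quotCenterEquiv e)
  · exact ((twG_2A hF (.refl _)).dat p).elim fun C _ => C.hasSt

end Cfsg.Agent.S2546
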