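import Mathlib
import Cfsg.Statements.S2566
import Cfsg.Agent.H10.Quad2
import Cfsg.Agent.H02.Basic

set_option autoImplicit false
open Cfsg

namespace Cfsg.Agent.S2566

open Matrix

/-- `S₃ = SL₂(2)` acting by left multiplication on `2 × 2` matrices -/
def mat (σ : Equiv.Perm (Fin 3)) : Matrix (Fin 2 ⊕ Fin 2) (Fin 2 ⊕ Fin 2) (ZMod 2) :=
  let a : ZMod 2 := if σ 2 = 0 then 0 else 1
  let b : ZMod 2 := if σ 0 = 0 then 0 else 1
  let c : ZMod 2 := if σ 2 = 2 then 0 else 1
  let d : ZMod 2 := if σ 0 = 2 then 0 else 1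
  fromBlocks !![a, 0; 0, a] !![0, b; b, 0] !![0, c; c, 0] !![d, 0; 0, d]

/-- transposition -/
def tr : Matrix (Fin 2 ⊕ Fin 2) (Fin 2 ⊕ Fin 2) (ZMod 2) :=
  fromBlocks !![1, 0; 0, 0] !![0, 0; 0, 1] !![0, 0; 0, 1] !![1, 0; 0, 0]

/-- the first factor -/
def hom : Equiv.Perm (Fin 3) →* isometryGroup (ZMod 2) (quadFormPlus 2 (ZMod 2)) :=
  (MonoidHom.toHomUnits ⟨⟨mat, by decide +kernel⟩, by decide +kernel⟩).codRestrict _ fun σ u _ => by
    change quadFormPlus 2 _ (mat σ *ᵥ u) = quadFormPlus 2 _ u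
    revert σ u; decide +kernel

/-- the swap -/
def sw : isometryGroup (ZMod 2) (quadFormPlus 2 (ZMod 2)) :=
  ⟨⟨tr, tr, by decide +kernel, by decide +kernel⟩, fun u _ => by
    change quadFormPlus 2 _ (tr *ᵥ u) = quadFormPlus 2 _ u
    revert u; decide +kernel⟩

open H10 in

/-- The full orthogonal group of the plus-type form x₁y₁ + x₂y₂ in dimension 4 over the field of two elements has order 72 and is isomorphic to the wreath product of the symmetric group of degree 3 by a group of order 2: it has a normal subgroup isomorphic to the direct product of two symmetric groups of degree 3, of index 2, whose two direct factors are interchanged by conjugation by some element. -/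
theorem result :
    Nat.card ↥(Cfsg.isometryGroup (ZMod 2) (Cfsg.quadFormPlus 2 (ZMod 2))) = 72 ∧
    ∃ (A B : Subgroup ↥(Cfsg.isometryGroup (ZMod 2) (Cfsg.quadFormPlus 2 (ZMod 2)))),
      Nonempty (↥A ≃* Equiv.Perm (Fin 3)) ∧ Nonempty (↥B ≃* Equiv.Perm (Fin 3)) ∧ A ⊓ B = ⊥ ∧ (∀ a ∈ A, ∀ b ∈ B, a * b = b * a) ∧
      (A ⊔ B).index = 2 ∧ ∃ g : ↥(Cfsg.isometryGroup (ZMod 2) (Cfsg.quadFormPlus 2 (ZMod 2))), A.map (MulAut.conj g).toMonoidHom = B := by
  have h0 : Nat.card ↥(Cfsg.isometryGroup (ZMod 2) (Cfsg.quadFormPlus 2 (ZMod 2))) = 72 :=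
    (Nat.card_congr (isometryEquiv (qPlus 2 (ZMod 2))).toEquiv).trans
      (((Form.isQuad_ofQuad _).card_Isom_plus (m := 1) (by simp) qPlus_hasTS).trans
        (by simp [oPlus]))
  have h1 : ∀ σ τ, mat σ = tr * mat τ * tr → σ = 1 := by decide +kernel
  have h2 : ∀ σ τ, mat σ * (tr * mat τ * tr) = tr * mat τ * tr * mat σ := by decide +kernel
  have h3 : Function.Injective hom := (injective_iff_map_eq_one _).2 fun σ h =>
    h1 σ 1 ((congrArg (·.1.1) h).trans (by decide +kernel))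
  have e := MonoidHom.ofInjective h3
  have e' := (MulAut.conj sw).subgroupMap hom.range
  have h4 : hom.range ⊓ hom.range.map (MulAut.conj sw).toMonoidHom = ⊥ := eq_bot_iff.2 (by
    rintro _ ⟨⟨σ, rfl⟩, _, ⟨τ, rfl⟩, h⟩
    rw [h1 σ τ (congrArg (·.1.1) h).symm]; exact map_one hom)
  have h5 : ∀ a ∈ hom.range, ∀ b ∈ hom.range.map (MulAut.conj sw).toMonoidHom, a * b = b * a := by
    rintro _ ⟨σ, rfl⟩ _ ⟨_, ⟨τ, rfl⟩, rfl⟩
    exact Subtype.ext (Units.ext (h2 σ τ))
  refine ⟨h0, _, _, ⟨e.symm⟩, ⟨e'.symm.trans e.symm⟩, h4, h5, ?_, sw, rfl⟩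
  have h6 := Subgroup.card_mul_index (hom.range ⊔ hom.range.map (MulAut.conj sw).toMonoidHom)
  have h7 := H02.card_sup_of_disjoint (H := hom.range) (K := hom.range.map (MulAut.conj sw).toMonoidHom)
    ((Subgroup.le_centralizer_iff.2 fun b hb a ha => h5 a ha b hb).trans
      (Subgroup.centralizer_le_normalizer _)) (by simpa using h4)
  rw [← Nat.card_congr e.toEquiv] at h7
  rw [h7, h0, ← show _ = Nat.card (hom.range.map (MulAut.conj sw).toMonoidHom) from
    Nat.card_congr (e.trans e').toEquiv] at h6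
  simp [Fintype.card_perm, Nat.factorial] at h6
  omega

end Cfsg.Agent.S2566
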