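import Cfsg.Statements.S2548
import Cfsg.Agent.H12.LtS
import Cfsg.Agent.S0305
import Cfsg.Agent.S0299
import Cfsg.Agent.S0250
import Cfsg.Agent.S2566
-- import your own Cfsg.Agent.* helpers here

set_option autoImplicit false
open Cfsg

namespace Cfsg.Agent.S2548
open H11

open H12.Lt Subgroup Equiv Matrix

theorem dec : (∀ σ τ, S2566.mat σ * (S2566.tr * S2566.mat τ * S2566.tr) = S2566.tr * S2566.mat τ * S2566.tr * S2566.mat σ) ∧
    (∀ x : Perm (Fin 3) × Perm (Fin 3), S2566.mat x.1 * (S2566.tr * S2566.mat x.2 * S2566.tr) = 1 → x = 1) ∧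
    ∀ σ τ, S2566.tr * (S2566.mat σ * (S2566.tr * S2566.mat τ * S2566.tr)) * S2566.tr = S2566.mat τ * (S2566.tr * S2566.mat σ * S2566.tr) := by
  decide +kernel

theorem key {G : Type*} [Group G] [Finite G] (h0 : Nat.card G = 72) (ψ : Perm (Fin 3) × Perm (Fin 3) →* G) (hψ : Function.Injective ψ) (s : G)
    (hs : ∀ x, s * ψ x * s⁻¹ = ψ x.swap) (h : HasSt 2 (Perm (Fin 3) ⧸ center (Perm (Fin 3)))) : HasSt 2 (commutator G ⧸ center (commutator G)) := by
  let χ : Perm (Fin 3) × Perm (Fin 3) →* ℤˣ := Perm.sign.coprod Perm.sign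
  have h1 : s ∉ ψ.range := by
    rintro ⟨y, rfl⟩
    have := congrArg Prod.fst (hψ ((by simp : ψ (y * (swap 0 1, 1) * y⁻¹) = _).trans (hs (swap 0 1, 1))))
    simp at this
  have h2 : ψ.range.index = 2 := by
    have := ψ.range.card_mul_index
    rw [h0, ← Nat.card_congr (MonoidHom.ofInjective hψ).toEquiv] at this
    simp [Fintype.card_perm, Nat.factorial] at this; omega
  have h3 : Nat.card (χ.ker.map ψ) = 18 := by
    rw [card_map_of_injective hψ]
    exact (Nat.card_eq_fintype_card (α := {x // χ x = 1})).trans (by decide +kernel)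
  have : (χ.ker.map ψ).Normal := ⟨by
    rintro _ ⟨k, hk, rfl⟩ g
    by_cases e : g ∈ ψ.range
    · obtain ⟨y, rfl⟩ := e
      exact ⟨y * k * y⁻¹, Normal.conj_mem inferInstance _ hk _, by simp⟩
    obtain ⟨y, e⟩ : g * s⁻¹ ∈ ψ.range := (mul_mem_iff_of_index_two h2).2 (by simp [e, h1])
    exact ⟨y * k.swap * y⁻¹, Normal.conj_mem inferInstance _ (by simpa [χ, mul_comm] using hk) _, by simp [e, ← hs, mul_assoc]⟩⟩
  have h4 : commutator G ≤ χ.ker.map ψ := Normal.quotient_commutative_iff_commutator_le.1 (IsPGroup.isMulCommutative_of_card_eq_prime_sq (p := 2) (by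
    have := (χ.ker.map ψ).card_mul_index
    rw [h0, h3, index] at this; omega))
  let f : commutator G →* Perm (Fin 3) := (MonoidHom.fst _ _).comp ((MonoidHom.ofInjective hψ).symm.toMonoidHom.comp (inclusion (h4.trans (map_le_range _ _))))
  have h5 : Function.Surjective f := fun a => ⟨⟨_, commutator_mem_commutator (mem_top (ψ (a, 1))) (mem_top s)⟩, show _ = (a, a⁻¹).1 from
    congrArg Prod.fst (hψ ((MonoidHom.apply_ofInjective_symm hψ _).trans (by
      simp [commutatorElement_def, mul_assoc (ψ _), ← map_inv, hs, ← map_mul])))⟩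
  have h6 : Function.Surjective (QuotientGroup.map (center _) (center _) f fun z hz => mem_center_iff.2 fun a => by
      obtain ⟨a, rfl⟩ := h5 a; rw [← map_mul, mem_center_iff.1 hz, map_mul]) := fun a => by
    obtain ⟨a, rfl⟩ := QuotientGroup.mk_surjective a
    obtain ⟨a, rfl⟩ := h5 a
    exact ⟨a, rfl⟩
  have h7 : Nat.card (Perm (Fin 3) ⧸ center (Perm (Fin 3))) = 6 := by
    rw [← index, show center (Perm (Fin 3)) = ⊥ from eq_bot_iff.2 fun a h => (by decide : ∀ a : Perm (Fin 3), (∀ b, b * a = a * b) → a = 1) a (mem_center_iff.1 h)]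
    simp [Fintype.card_perm, Nat.factorial]
  have h8 := card_dvd_of_surjective _ h6
  have h9 := ((center (commutator G)).index_dvd_card.trans (card_dvd_of_le h4)).trans h3.dvd
  refine h.of_surj _ h6 ?_
  rw [h7] at h8 ⊢
  rw [index] at h9
  obtain ⟨k, e⟩ := h8
  rw [e] at h9 ⊢
  obtain rfl | rfl := (Nat.dvd_prime Nat.prime_three).1 (Nat.dvd_of_mul_dvd_mul_left (by simp) (show 6 * k ∣ 6 * 3 from h9))
  exacts [rfl, by decide +kernel]

/-- Let F be a finite field of characteristic p and consider the group PΩ⁺_{2m}(F) of the hyperbolic quadratic form Σ x_i y_i with m ≥ 1, where Ω denotes the commutator subgroup of the full isometry group. This group has an irreducible complex character χ whose degree equals the order of a Sylow p-subgroup (equal to q^(m(m−1)) when #F = q, except in the degenerate case m = 2, q = 2, where this commutator subgroup has order 18 and its Sylow 2-subgroups have order 2) and whose restriction to any Sylow p-subgroup P is the regular character of P: χ vanishes on the non-identity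 elements of P. (This is the Steinberg character.) -/
theorem result {F : Type*} [Field F] [Fintype F] (p : ℕ) [Fact p.Prime] [CharP F p] (m : ℕ) (hm : 1 ≤ m) : ∃ χ : Cfsg.POmega F (Cfsg.quadFormPlus m F) → ℂ, Cfsg.IsIrrCharacter (Cfsg.POmega F (Cfsg.quadFormPlus m F)) χ ∧ ∀ P : Sylow p (Cfsg.POmega F (Cfsg.quadFormPlus m F)), χ 1 = Nat.card P ∧ ∀ x : Cfsg.POmega F (Cfsg.quadFormPlus m F), x ∈ P → x ≠ 1 → χ x = 0 := by
  change HasSt p _
  obtain rfl | rfl | ⟨n, rfl⟩ : m = 1 ∨ m = 2 ∨ ∃ k, m = k + 3 := (em _).imp_right fun h => (em _).imp_right fun h => ⟨m - 3, by omega⟩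
  · exact (S0305.result rfl).elim hasSt_dihedral
  · by_cases h : 3 ≤ Fintype.card F
    · exact (S0299.result h).elim ((hasSt_PSL le_rfl).prod (hasSt_PSL le_rfl)).equiv
    have h2 : Fintype.card F = 2 := by have := Fintype.one_lt_card (α := F); omega
    obtain rfl : p = 2 := CharP.eq F inferInstance (charP_of_card_eq_prime h2)
    let e := (ZMod.ringEquivOfPrime F Nat.prime_two h2)
    let ι : isometryGroup (ZMod 2) (quadFormPlus 2 (ZMod 2)) →* isometryGroup F (quadFormPlus 2 F) :=
      ((GeneralLinearGroup.map e.toRingHom).comp (Subgroup.subtype _)).codRestrict _ fun g u _ => by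
        obtain ⟨u, rfl⟩ := e.surjective.comp_left u
        have := congrArg e (g.2 u 0)
        simp only [quadFormPlus, map_sum, map_mul] at this ⊢
        simpa [show ∀ i, (g.1.1.map e *ᵥ e ∘ u) i = e ((g.1.1 *ᵥ u) i) from fun i => (RingHom.map_mulVec e.toRingHom _ _ i).symm] using this
    have hι : Function.Injective ι := fun a b h => Subtype.ext (Units.ext (Matrix.ext fun i j => e.injective (congrArg (·.1.1 i j) h)))
    refine key ((Nat.card_congr (H10.isometryEquiv (H10.qPlus 2 F)).toEquiv).trans (((H10.Form.isQuad_ofQuad _).card_Isom_plus (m := 1) (by simp)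
      H10.qPlus_hasTS).trans (by simp [H10.oPlus, h2]))) (ι.comp (S2566.hom.noncommCoprod ((MulAut.conj S2566.sw).toMonoidHom.comp S2566.hom) fun σ τ =>
        Subtype.ext (Units.ext (dec.1 σ τ))))
      (hι.comp ((injective_iff_map_eq_one _).2 fun x h => dec.2.1 x (congrArg (·.1.1) h))) (ι S2566.sw) (fun x => ?_)
      ((S0250.result h2).elim fun f => (hasSt_PSL le_rfl).equiv (H10.quotCenterEquiv f.symm))
    simp only [MonoidHom.comp_apply, ← map_inv, ← map_mul]
    exact congrArg ι (Subtype.ext (Units.ext (dec.2.2 x.1 x.2)))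
  · exact ((twG_D (.refl _)).dat p).elim fun C _ => C.hasSt

end Cfsg.Agent.S2548
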