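import Mathlib
import Cfsg.Statements.S2550
import Cfsg.Agent.H09.L34
import Cfsg.Agent.S0256

set_option autoImplicit false
open Cfsg

namespace Cfsg.Agent.S2550

/-- Let F be a field with 2 elements and K a field with 4 elements. PSL_4(F) and PSL_3(K) have the same order (20160) but are not isomorphic. -/
theorem result {F K : Type*} [Field F] [Fintype F] [Field K] [Fintype K] (hF : Fintype.card F = 2) (hK : Fintype.card K = 4) : Nat.card (Matrix.ProjectiveSpecialLinearGroup (Fin 4) F) = Nat.card (Matrix.ProjectiveSpecialLinearGroup (Fin 3) K) ∧ ¬ Nonempty (Matrix.ProjectiveSpecialLinearGroup (Fin 4) F ≃* Matrix.ProjectiveSpecialLinearGroup (Fin 3) K) := by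
  obtain ⟨e⟩ := Cfsg.Agent.S0256.result hF
  refine ⟨?_, fun ⟨e'⟩ => ?_⟩
  · have h1 := H09.card_PSL_mul (ι := Fin 3) (F := K)
    have h2 := H09.card_SL_mul (ι := Fin 3) (F := K)
    have h3 := H09.card_PSL_mul (ι := Fin 4) (F := F)
    have h4 := H09.card_SL_mul (ι := Fin 4) (F := F)
    rw [H09.card_GL] at h2 h4
    rw [hK, Fintype.card_fin] at h1 h2
    rw [hF, Fintype.card_fin] at h3 h4
    rw [Fin.prod_univ_three] at h2
    rw [Fin.prod_univ_four] at h4
    norm_num [-Nat.card_eq_fintype_card] at h1 h2 h3 h4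
    omega
  · let x : alternatingGroup (Fin 8) := ⟨c[0, 1, 2] * c[3, 4, 5, 6, 7], Equiv.Perm.mem_alternatingGroup.2 (by decide)⟩
    refine H09.L34.no_fifteen hK (e' (e.symm x)) ?_
    rw [MulEquiv.orderOf_eq, MulEquiv.orderOf_eq, ← Subgroup.orderOf_coe, orderOf_eq_iff (by norm_num)]
    decide +kernel

end Cfsg.Agent.S2550
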