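import Mathlib
import Cfsg.Statements.S2552

set_option autoImplicit false
open Cfsg

namespace Cfsg.Agent.S2552

/-- Let F be a finite field and n ≥ 1. For every k, the special linear group SL_n(F) acts transitively on the set of k-dimensional subspaces of F^n: any two subspaces of the same dimension are carried onto each other by some matrix of determinant 1. -/
theorem result {F : Type*} [Field F] [Fintype F] (n : ℕ) (hn : 1 ≤ n) (U₁ U₂ : Submodule F (Fin n → F)) (h : Module.finrank F U₁ = Module.finrank F U₂) : ∃ g : Matrix.SpecialLinearGroup (Fin n) F, U₁.map ((Matrix.SpecialLinearGroup.toLin' g : (Fin n → F) ≃ₗ[F] (Fin n → F)) : (Fin n → F) →ₗ[F] (Fin n → F)) = U₂ := by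
  classical
  obtain ⟨e, he⟩ : ∃ e : (Fin n → F) ≃ₗ[F] (Fin n → F), U₁.map (e : (Fin n → F) →ₗ[F] (Fin n → F)) = U₂ := by
    obtain ⟨e0⟩ := FiniteDimensional.nonempty_linearEquiv_of_finrank_eq h
    obtain ⟨g, hg⟩ := Submodule.exists_linearEquiv_restrict_eq e0
    refine ⟨g, ?_⟩
    ext x
    constructor
    · rintro ⟨y, hy, rfl⟩
      have := hg ⟨y, hy⟩
      simp only [LinearEquiv.coe_coe]
      rw [← this]; exact (e0 ⟨y, hy⟩).2
    · intro hx
      refine ⟨e0.symm ⟨x, hx⟩, (e0.symm ⟨x, hx⟩).2, ?_⟩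
      have := hg (e0.symm ⟨x, hx⟩)
      simp only [LinearEquiv.coe_coe]
      rw [← this]; simp
  obtain ⟨v, hv0, hv⟩ : ∃ v : Fin n → F, v ≠ 0 ∧ (v ∈ U₂ ∨ U₂ = ⊥) := by
    by_cases hU : U₂ = ⊥
    · refine ⟨fun _ => 1, fun h0 => ?_, Or.inr hU⟩
      exact one_ne_zero (congrFun h0 ⟨0, hn⟩)
    · obtain ⟨v, hv, hv0⟩ := Submodule.exists_mem_ne_zero_of_ne_bot hU
      exact ⟨v, hv0, Or.inl hv⟩
  obtain ⟨φ, hφ⟩ := Module.Projective.exists_dual_eq_one F hv0
  set c : F := LinearMap.det (e : (Fin n → F) →ₗ[F] (Fin n → F)) with hc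
  have hc0 : c ≠ 0 := (LinearEquiv.isUnit_det' e).ne_zero
  let d : (Fin n → F) →ₗ[F] (Fin n → F) := LinearMap.transvection φ ((c⁻¹ - 1) • v)
  have hd : LinearMap.det d = c⁻¹ := by
    simp [d, LinearMap.transvection.det, hφ]
  have hdU : U₂.map d ≤ U₂ := by
    rintro _ ⟨x, hx, rfl⟩
    rcases hv with hv | hv
    · exact U₂.add_mem hx (U₂.smul_mem _ (U₂.smul_mem _ hv))
    · rw [hv] at hx ⊢
      rw [(Submodule.mem_bot F).1 hx]; simp
  let m := d ∘ₗ (e : (Fin n → F) →ₗ[F] (Fin n → F))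
  have hm : LinearMap.det m = 1 := by
    rw [LinearMap.det_comp, hd, ← hc, inv_mul_cancel₀ hc0]
  let g : Matrix.SpecialLinearGroup (Fin n) F := ⟨LinearMap.toMatrix' m, by rw [LinearMap.det_toMatrix', hm]⟩
  refine ⟨g, ?_⟩
  have hg : ((Matrix.SpecialLinearGroup.toLin' g : (Fin n → F) ≃ₗ[F] (Fin n → F)) : (Fin n → F) →ₗ[F] (Fin n → F)) = m := by
    rw [Matrix.SpecialLinearGroup.toLin'_to_linearMap]
    exact Matrix.toLin'_toMatrix' m
  apply Submodule.eq_of_le_of_finrank_eq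
  · rw [hg, Submodule.map_comp, he]; exact hdU
  · rw [LinearEquiv.finrank_map_eq, h]

end Cfsg.Agent.S2552
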