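import Mathlib
import Cfsg.Statements.S2561
import Cfsg.Agent.H09.QTwo

set_option autoImplicit false
open Cfsg

namespace Cfsg.Agent.S2561

open H09 H10 H10.Form in

/-- Fix the non-singular alternating form on the 2m-dimensional space over the field of two elements obtained by polarizing the plus-type form Σ xᵢyᵢ (m ≥ 1). The functions q on the space with q(u + v) = q(u) + q(v) + f(u, v) (the quadratic forms polarizing to f) number 2^(2m); each is equivalent under an invertible linear map either to the plus-type form or to the minus-type form Σ xᵢyᵢ + (z₁² + z₁z₂ + z₂²); and those of plus type number 2^(2m−1) + 2^(m−1), those of minus type 2^(2m−1) − 2^(m−1). -/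
theorem result (m : ℕ) (hm : 1 ≤ m) :
    Nat.card {q : (Fin m ⊕ Fin m → ZMod 2) → ZMod 2 // (∀ u v : (Fin m ⊕ Fin m → ZMod 2), q (u + v) = q u + q v + (Cfsg.quadFormPlus m (ZMod 2) (u + v) - Cfsg.quadFormPlus m (ZMod 2) u - Cfsg.quadFormPlus m (ZMod 2) v))} = 2 ^ (2 * m) ∧
    (∀ q : (Fin m ⊕ Fin m → ZMod 2) → ZMod 2, (∀ u v : (Fin m ⊕ Fin m → ZMod 2), q (u + v) = q u + q v + (Cfsg.quadFormPlus m (ZMod 2) (u + v) - Cfsg.quadFormPlus m (ZMod 2) u - Cfsg.quadFormPlus m (ZMod 2) v)) →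
      (∃ g : (Fin m ⊕ Fin m → ZMod 2) ≃ₗ[ZMod 2] (Fin m ⊕ Fin m → ZMod 2), ∀ v, q v = Cfsg.quadFormPlus m (ZMod 2) (g v)) ∨
      (∃ g : (Fin m ⊕ Fin m → ZMod 2) ≃ₗ[ZMod 2] ((Fin (m - 1) ⊕ Fin (m - 1)) ⊕ Fin 2 → ZMod 2), ∀ v, q v = Cfsg.quadFormMinus (m - 1) (ZMod 2) 1 1 (g v))) ∧
    Nat.card {q : (Fin m ⊕ Fin m → ZMod 2) → ZMod 2 // (∀ u v : (Fin m ⊕ Fin m → ZMod 2), q (u + v) = q u + q v + (Cfsg.quadFormPlus m (ZMod 2) (u + v) - Cfsg.quadFormPlus m (ZMod 2) u - Cfsg.quadFormPlus m (ZMod 2) v)) ∧ ∃ g : (Fin m ⊕ Fin m → ZMod 2) ≃ₗ[ZMod 2] (Fin m ⊕ Fin m → ZMod 2), ∀ v, q v = Cfsg.quadFormPlus m (ZMod 2) (g v)} = 2 ^ (2 * m - 1) + 2 ^ (m - 1) ∧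
    Nat.card {q : (Fin m ⊕ Fin m → ZMod 2) → ZMod 2 // (∀ u v : (Fin m ⊕ Fin m → ZMod 2), q (u + v) = q u + q v + (Cfsg.quadFormPlus m (ZMod 2) (u + v) - Cfsg.quadFormPlus m (ZMod 2) u - Cfsg.quadFormPlus m (ZMod 2) v)) ∧ ∃ g : (Fin m ⊕ Fin m → ZMod 2) ≃ₗ[ZMod 2] ((Fin (m - 1) ⊕ Fin (m - 1)) ⊕ Fin 2 → ZMod 2), ∀ v, q v = Cfsg.quadFormMinus (m - 1) (ZMod 2) 1 1 (g v)} = 2 ^ (2 * m - 1) - 2 ^ (m - 1) := by
  obtain ⟨k, rfl⟩ : ∃ k, m = k + 1 := ⟨m - 1, by omega⟩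
  have hQ := isQuad_ofQuad (qPlus (k + 1) (ZMod 2))
  have hn : Module.finrank (ZMod 2) (Fin (k + 1) ⊕ Fin (k + 1) → ZMod 2) = 2 * k + 2 := by simp; ring
  have key : ∀ P : (_ → ZMod 2) → Prop, Nat.card {q // Pol (qPlus (k + 1) (ZMod 2)) q ∧ P q} =
      Nat.card {w // P fun v => qPlus (k + 1) (ZMod 2) v + (ofQuad (qPlus (k + 1) (ZMod 2))).B v w} :=
    fun P => (Nat.card_eq_of_bijective (fun w => ⟨_, pol_self.shift w.1, w.2⟩) ⟨fun w w' h =>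
      Subtype.ext (sub_eq_zero.1 ((ofQuad (qPlus (k + 1) (ZMod 2))).eq_zero_of_B_left fun v => by
        rw [hQ.B_comm, map_sub, sub_eq_zero]
        exact add_left_cancel (congrFun (congrArg Subtype.val h) v))), fun ⟨q, h, h'⟩ => by
      obtain ⟨w, rfl⟩ := h.exists_shift
      exact ⟨⟨w, h'⟩, rfl⟩⟩).symm
  have h1 := hQ.cnt_plus hn qPlus_hasTS
  have h2 := cnt_add (ofQuad (qPlus (k + 1) (ZMod 2)))
  have h3 : Nat.card (Fin (k + 1) ⊕ Fin (k + 1) → ZMod 2) = 2 ^ (2 * (k + 1)) := by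
    simp [two_mul]
  obtain ⟨t, ht⟩ : ∃ t, 2 ^ k = t + 1 := Nat.exists_eq_succ_of_ne_zero (by positivity)
  have h4 : 2 ^ (2 * (k + 1) - 1) = 2 * (2 ^ k * 2 ^ k) := by
    rw [show 2 * (k + 1) - 1 = k + k + 1 by omega]; ring
  rw [Nat.card_zmod, pow_succ, ht, show (t + 1) * 2 - 1 = 2 * t + 1 by omega] at h1
  refine ⟨?_, fun q hq => (Pol.plus_or_minus (Q := qPlus (k + 1) (ZMod 2)) hq hn).imp And.left And.left,
    (key _).trans ?_, (key _).trans ?_⟩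
  · rw [← h3]
    exact (Nat.card_congr (Equiv.subtypeEquivRight fun _ => (and_iff_left trivial).symm)).trans
      ((key fun _ => True).trans (Nat.card_congr (Equiv.subtypeUnivEquiv fun _ => trivial)))
  · rw [h4, add_tsub_cancel_right, ht]
    exact (Nat.card_congr (Equiv.subtypeEquivRight (pol_self.equiv_shift_iff hn))).trans
      (h1.trans (by ring))
  · rw [h4, add_tsub_cancel_right, ht]
    refine (Nat.card_congr (Equiv.subtypeEquivRight (q := fun w => qPlus (k + 1) (ZMod 2) w = 1)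
      fun w => ?_)).trans (Nat.eq_sub_of_add_eq ?_)
    · rw [show ∀ a : ZMod 2, a = 1 ↔ ¬ a = 0 by decide, ← pol_self.equiv_shift_iff hn]
      exact (xor_iff_iff_not.1 ((pol_self.shift w).plus_or_minus hn).symm)
    · rw [h1, h3, show 2 ^ (2 * (k + 1)) = 4 * (2 ^ k * 2 ^ k) by ring, ht] at h2
      change (ofQuad (qPlus (k + 1) (ZMod 2))).cnt 1 + _ = _
      nlinarith

end Cfsg.Agent.S2561
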