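import Mathlib
import Cfsg.Statements.S2562
import Cfsg.Agent.H09.QTwo

set_option autoImplicit false
open Cfsg

namespace Cfsg.Agent.S2562

open H09 H10 H10.Form in

/-- Witt indices over the field of two elements, m ≥ 1: for the plus-type form Σ xᵢyᵢ in dimension 2m some m-dimensional subspace is totally singular and no totally singular subspace has larger dimension; for the minus-type form Σ xᵢyᵢ + (z₁² + z₁z₂ + z₂²) in dimension 2m the maximal dimension of a totally singular subspace is m − 1. -/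
theorem result (m : ℕ) (hm : 1 ≤ m) :
    (∃ U : Submodule (ZMod 2) (Fin m ⊕ Fin m → ZMod 2), (∀ u ∈ U, Cfsg.quadFormPlus m (ZMod 2) u = 0) ∧ Module.finrank (ZMod 2) ↥U = m) ∧
    (∀ U : Submodule (ZMod 2) (Fin m ⊕ Fin m → ZMod 2), (∀ u ∈ U, Cfsg.quadFormPlus m (ZMod 2) u = 0) → Module.finrank (ZMod 2) ↥U ≤ m) ∧
    (∃ U : Submodule (ZMod 2) ((Fin (m - 1) ⊕ Fin (m - 1)) ⊕ Fin 2 → ZMod 2), (∀ u ∈ U, Cfsg.quadFormMinus (m - 1) (ZMod 2) 1 1 u = 0) ∧ Module.finrank (ZMod 2) ↥U = m - 1) ∧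
    (∀ U : Submodule (ZMod 2) ((Fin (m - 1) ⊕ Fin (m - 1)) ⊕ Fin 2 → ZMod 2), (∀ u ∈ U, Cfsg.quadFormMinus (m - 1) (ZMod 2) 1 1 u = 0) → Module.finrank (ZMod 2) ↥U ≤ m - 1) := by
  obtain ⟨k, rfl⟩ : ∃ k, m = k + 1 := ⟨m - 1, by omega⟩
  have h1 := isQuad_ofQuad (qPlus (k + 1) (ZMod 2))
  have h2 := isQuad_ofQuad (qMinus k (ZMod 2) 1 1)
  refine ⟨let ⟨U, h, h'⟩ := qPlus_hasTS (m := k + 1) (F := ZMod 2); ⟨U, h.Q, h'⟩, fun U hU => ?_,
    let ⟨U, h, h'⟩ := h2.hasTS_pred (m := k) (by simp; ring); ⟨U, h.Q, h'⟩, fun U hU => ?_⟩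
  · have := (h1.ts hU).finrank_le
    simp at this; omega
  · exact not_lt.1 fun h => qMinus_two_not k (HasTS.of_le ⟨U, h2.ts hU, rfl⟩ h)

end Cfsg.Agent.S2562
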