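import Cfsg.Statements.S2567
import Cfsg.Agent.H24.Sim3
-- import your own Cfsg.Agent.* helpers here

set_option autoImplicit false
open Cfsg

namespace Cfsg.Agent.S2567

/-- Lifting elements of prime order from PGL to GL: let F be a finite field with q elements, r a prime not dividing q − 1, and x an element of order r in GL_n(F) modulo its centre (the scalar matrices). Then x has exactly one preimage in GL_n(F) of order r. -/
theorem result {F : Type*} [Field F] [Fintype F] {q n r : ℕ} (hF : Fintype.card F = q) (hr : r.Prime) (hdiv : ¬ r ∣ q - 1) (x : GL (Fin n) F ⧸ Subgroup.center (GL (Fin n) F)) (hx : orderOf x = r) : ∃! g : GL (Fin n) F, (QuotientGroup.mk g : GL (Fin n) F ⧸ Subgroup.center (GL (Fin n) F)) = x ∧ orderOf g = r := by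
  classical
  obtain ⟨g, rfl⟩ := QuotientGroup.mk_surjective x
  haveI := Fact.mk hr
  have hZ : ∀ z ∈ Subgroup.center (GL (Fin n) F), z ^ (q - 1) = 1 := fun z hz => by
    rw [Matrix.GeneralLinearGroup.center_eq_range_scalar] at hz
    obtain ⟨c, rfl⟩ := hz
    rw [← map_pow, ← hF, ← Fintype.card_units, pow_card_eq_one, map_one]
  have hc : r.Coprime (q - 1) := (Nat.Prime.coprime_iff_not_dvd hr).2 hdiv
  have hq : q - 1 ≠ 0 := fun h => hdiv (h ▸ dvd_zero r)
  have hgr : g ^ r ∈ Subgroup.center (GL (Fin n) F) := by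
    rw [← QuotientGroup.eq_one_iff, QuotientGroup.mk_pow, ← hx, pow_orderOf_eq_one]
  obtain ⟨k, hk1, hk2⟩ := Nat.chineseRemainder hc 1 0
  have hmk : (QuotientGroup.mk (g ^ k) : GL (Fin n) F ⧸ Subgroup.center (GL (Fin n) F)) = QuotientGroup.mk g := by
    rw [QuotientGroup.mk_pow]
    conv_rhs => rw [← pow_one (QuotientGroup.mk g : GL (Fin n) F ⧸ Subgroup.center (GL (Fin n) F))]
    rw [pow_eq_pow_iff_modEq, hx]; exact hk1
  obtain ⟨c, hc'⟩ := (Nat.modEq_zero_iff_dvd.1 hk2)
  have ho : orderOf (g ^ k) = r := orderOf_eq_prime (by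
    rw [← pow_mul, mul_comm, pow_mul, hc', pow_mul, hZ _ hgr, one_pow]) fun h => by
    rw [h] at hmk
    rw [← hmk] at hx
    exact hr.one_lt.ne (by simpa using hx)
  refine ⟨g ^ k, ⟨hmk, ho⟩, fun h ⟨h1, h2⟩ => ?_⟩
  have hz : (g ^ k)⁻¹ * h ∈ Subgroup.center (GL (Fin n) F) := QuotientGroup.eq.1 (hmk.trans h1.symm)
  set z := (g ^ k)⁻¹ * h
  have h3 : h = g ^ k * z := by simp [z]
  have h4 : z ^ r = 1 := by
    have : h ^ r = (g ^ k) ^ r * z ^ r := by
      rw [h3]; exact Commute.mul_pow (Subgroup.mem_center_iff.1 hz _) r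
    rw [← h2, pow_orderOf_eq_one, h2] at this
    conv at this => rw [← ho, pow_orderOf_eq_one, ho, one_mul]
    exact this.symm
  have h5 : z = 1 := by
    have := pow_gcd_eq_one.2 ⟨h4, hZ z hz⟩
    rwa [hc, pow_one] at this
  rw [h3, h5, mul_one]

end Cfsg.Agent.S2567
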