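import Cfsg.Statements.S2568
import Cfsg.Agent.H24.Sim3
-- import your own Cfsg.Agent.* helpers here

set_option autoImplicit false
open Cfsg

namespace Cfsg.Agent.S2568

open Polynomial

section
variable {α : Type*} [DecidableEq α] (o : α) (S : Finset α) (ho : o ∉ S)

include ho in
theorem cnt1 (w : α → ℕ) (i N : ℕ) (h1 : w o = 1) (h2 : ∀ f ∈ S, w f = i) :
    Nat.card {M : Multiset α // (∀ f ∈ M, f ∈ insert o S) ∧ (M.map w).sum = N} =
      Nat.card {A : Multiset α // (∀ f ∈ A, f ∈ S) ∧ i * A.card ≤ N} := by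
  have h3 : ∀ A : Multiset α, (∀ f ∈ A, f ∈ S) → (A.map w).sum = i * A.card := fun A hA => by
    rw [Multiset.map_congr rfl fun f hf => h2 f (hA f hf)]; simp [mul_comm]
  refine (Nat.card_eq_of_bijective (fun A => ⟨A.1 + Multiset.replicate (N - i * A.1.card) o, fun f hf => by
    rcases Multiset.mem_add.1 hf with h | h
    · exact Finset.mem_insert_of_mem (A.2.1 f h)
    · rw [Multiset.eq_of_mem_replicate h]; exact Finset.mem_insert_self _ _, by
    have := A.2.2
    simp [h3 _ A.2.1, h1]; omega⟩) ⟨fun A B h => Subtype.ext ?_, fun M => ?_⟩).symm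
  · have h4 : ∀ (A : Multiset α) k, (∀ f ∈ A, f ∈ S) → (A + Multiset.replicate k o).filter (· ∈ S) = A := fun A k hA => by
      rw [Multiset.filter_add, Multiset.filter_eq_self.2 hA, Multiset.filter_eq_nil.2 fun f hf =>
        Multiset.eq_of_mem_replicate hf ▸ ho, add_zero]
    rw [← h4 A.1 _ A.2.1, ← h4 B.1 _ B.2.1]
    exact congrArg (fun M => M.1.filter (· ∈ S)) h
  · obtain ⟨M, h4, h5⟩ := M
    have h6 := Multiset.filter_add_not (· ∈ S) M
    have h7 := Multiset.eq_replicate_card.2 fun f (hf : f ∈ M.filter (¬ · ∈ S)) =>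
      (Finset.mem_insert.1 (h4 f (Multiset.mem_filter.1 hf).1)).resolve_right (Multiset.mem_filter.1 hf).2
    have h8 := h3 (M.filter (· ∈ S)) fun f hf => (Multiset.mem_filter.1 hf).2
    rw [← h6, Multiset.map_add, Multiset.sum_add, h8, h7] at h5
    simp only [Multiset.map_replicate, Multiset.sum_replicate, h1, smul_eq_mul, mul_one] at h5
    refine ⟨⟨M.filter (· ∈ S), fun f hf => (Multiset.mem_filter.1 hf).2, by omega⟩, Subtype.ext ?_⟩
    change M.filter (· ∈ S) + Multiset.replicate (N - i * (M.filter (· ∈ S)).card) o = M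
    rw [← h5, Nat.add_sub_cancel_left, ← h7, h6]

include ho in
theorem cnt2 (w : α → ℕ) (i N : ℕ) (hi : 0 < i) (h1 : w o = 1) (h2 : ∀ f ∈ S, w f = i) :
    Nat.card {M : Multiset α // (∀ f ∈ M, f ∈ insert o S) ∧ (M.map w).sum = N} = (N / i + S.card).choose S.card := by
  rw [cnt1 o S ho w i N h1 h2, Nat.card_congr (Equiv.subtypeEquivRight fun A => and_congr_right fun _ =>
    show _ ↔ 1 * A.card ≤ N / i by rw [one_mul, Nat.le_div_iff_mul_le hi, mul_comm]),
    ← cnt1 o S ho (fun _ => 1) 1 (N / i) rfl fun _ _ => rfl, ← Nat.choose_symm_add, add_comm,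
    show S.card + N / i = (insert o S).card + N / i - 1 by rw [Finset.card_insert_of_notMem ho, add_right_comm]; rfl,
    ← Finset.card_finsuppAntidiag_nat_eq_choose, ← Nat.card_eq_finsetCard]
  refine Nat.card_congr (Multiset.toFinsupp.toEquiv.subtypeEquiv fun M => ?_)
  rw [Finset.mem_finsuppAntidiag', and_comm]
  refine and_congr ?_ (by simp [Finset.subset_iff])
  have := Finsupp.card_toMultiset (Multiset.toFinsupp M)
  rw [Multiset.toFinsupp_toMultiset] at this
  simp only [Multiset.map_const', Multiset.sum_replicate, smul_eq_mul, mul_one, this]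
  rfl

end

/-- Number of conjugacy classes of elements of a given prime order r, coprime to the characteristic, in GL_n(q): if i is the multiplicative order of q modulo r and t = (r − 1)/i, the classes correspond to the non-zero t-tuples of natural numbers (a_1, …, a_t) with i(a_1 + ⋯ + a_t) ≤ n (a_j is the multiplicity of the j-th Frobenius orbit of nontrivial r-th roots of unity among the eigenvalues), so there are exactly C(⌊n/i⌋ + t, t) − 1 of them. -/
theorem result {F : Type*} [Field F] [Fintype F] {p q : ℕ} [Fact p.Prime] [CharP F p] (hF : Fintype.card F = q) (n r i t : ℕ) (hr : r.Prime) (hrp : r ≠ p) (hi : i = orderOf (q : ZMod r)) (ht : t * i = r - 1) : Nat.card {C : ConjClasses (GL (Fin n) F) // ∃ g : GL (Fin n) F, ConjClasses.mk g = C ∧ orderOf g = r} = Nat.choose (n / i + t) t - 1 := by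
  classical
  haveI := Fact.mk hr
  obtain ⟨f, -, hf⟩ := FiniteField.card F p
  have hc : p.Coprime r := (Nat.coprime_primes Fact.out hr).2 hrp.symm
  have hi' : orderOf (ZMod.unitOfCoprime _ (hc.pow_left f)) = i := by
    rw [hi, ← orderOf_units, ZMod.coe_unitOfCoprime, ← hf, hF]
  have hi0 : 0 < i := hi' ▸ orderOf_pos _
  obtain ⟨S, hS, h1⟩ : ∃ S : Finset F[X], S.card = t ∧ ∀ g, g ∈ S ↔ Irreducible g ∧ g.Monic ∧ g ∣ cyclotomic r F :=
    ⟨(UniqueFactorizationMonoid.normalizedFactors (cyclotomic r F)).toFinset, by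
      rw [normalizedFactors_cyclotomic_card hf hc, hi', Nat.totient_prime hr, ← ht, Nat.mul_div_cancel _ hi0], fun g => by
      rw [Multiset.mem_toFinset, Polynomial.mem_normalizedFactors_iff (cyclotomic_ne_zero r F)]⟩
  have hr0 : (r : F) ≠ 0 := fun h => hrp ((Nat.prime_dvd_prime_iff_eq Fact.out hr).1 ((CharP.cast_eq_zero_iff F p r).1 h)).symm
  have ho : (X - 1 : F[X]) ∉ S := fun h => hr0 (by
    have := dvd_iff_isRoot.1 (show X - C 1 ∣ cyclotomic r F by rw [map_one]; exact ((h1 _).1 h).2.2)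
    rwa [IsRoot, eval_one_cyclotomic_prime] at this)
  have h2 : ∀ g ∈ insert (X - 1) S, Irreducible g ∧ g.Monic ∧ g ∣ X ^ r - 1 := fun g hg => by
    rw [← cyclotomic_prime_mul_X_sub_one]
    rcases Finset.mem_insert.1 hg with rfl | hg
    · exact ⟨H24.Sim.irred_X_sub_one, H24.Sim.monic_X_sub_one, dvd_mul_left _ _⟩
    · exact ⟨((h1 _).1 hg).1, ((h1 _).1 hg).2.1, ((h1 _).1 hg).2.2.mul_right _⟩
  have h3 := cnt2 _ S ho natDegree i n hi0 H24.Sim.natDegree_X_sub_one fun g hg =>
    (natDegree_of_dvd_cyclotomic_of_irreducible hf hc ((h1 g).1 hg).2.2 ((h1 g).1 hg).1).trans hi'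
  rw [hS] at h3
  rw [H24.Sim.card_classes _ (fun M => (∀ g ∈ M, g ∈ insert (X - 1) S) ∧ ¬ ∀ g ∈ M, g ∣ X - 1) fun g => ?_]
  · haveI := Nat.finite_of_card_ne_zero (h3.trans_ne (Nat.choose_pos (Nat.le_add_left _ _)).ne')
    let o : {M : Multiset F[X] // (∀ f ∈ M, f ∈ insert (X - 1) S) ∧ (M.map natDegree).sum = n} :=
      ⟨Multiset.replicate n (X - 1), fun g hg => Multiset.eq_of_mem_replicate hg ▸ Finset.mem_insert_self _ _, by
        simp [H24.Sim.natDegree_X_sub_one]⟩
    rw [← h3, ← Nat.card_congr (Equiv.optionSubtypeNe o), Finite.card_option, Nat.add_sub_cancel,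
      Nat.card_congr (Equiv.subtypeEquivRight fun M => Subtype.ext_iff.not),
      Nat.card_congr (Equiv.subtypeSubtypeEquivSubtypeInter _ fun M => ¬ M = o.1)]
    refine Nat.card_congr (Equiv.subtypeEquivRight fun M => ?_)
    rw [Fintype.card_fin]
    constructor
    · rintro ⟨-, e1, -, e2, e3⟩
      exact ⟨⟨e2, e1⟩, fun h => e3 fun g hg => by rw [h] at hg; rw [Multiset.eq_of_mem_replicate hg]⟩
    · rintro ⟨⟨e1, e2⟩, e3⟩
      refine ⟨fun g hg => ⟨g, 1, (h2 g (e1 g hg)).2.1, (h2 g (e1 g hg)).1, one_pos, (pow_one g).symm⟩, e2,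
        fun g hg h => ?_, e1, fun h => e3 ?_⟩
      · have := X_dvd_iff.1 (h.trans (h2 g (e1 g hg)).2.2)
        simp [hr.ne_zero, hr.ne_zero.symm] at this
      · have e4 := Multiset.eq_replicate_card.2 fun g hg => eq_of_monic_of_associated (h2 g (e1 g hg)).2.1
          H24.Sim.monic_X_sub_one ((h2 g (e1 g hg)).1.associated_of_dvd H24.Sim.irred_X_sub_one (h g hg))
        rw [e4] at e2 ⊢
        simp only [Multiset.map_replicate, Multiset.sum_replicate, H24.Sim.natDegree_X_sub_one, smul_eq_mul,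
          mul_one] at e2
        rw [e2]
  · have e1 := H24.Sim.aeval_eq_zero_iff g.1 (X ^ r - 1)
    have e2 := H24.Sim.aeval_eq_zero_iff g.1 (X - 1)
    simp only [map_sub, map_pow, aeval_X, map_one, sub_eq_zero] at e1 e2
    rw [orderOf_eq_prime_iff, ← e2, ne_eq, Units.ext_iff, Units.ext_iff, Units.val_pow_eq_pow_val, Units.val_one]
    refine and_congr_left fun _ => ⟨fun h a ha => ?_, fun h => e1.2 fun a ha => (h2 a (h a ha)).2.2⟩
    have e3 := H24.Sim.irred_of_pow_eq_one p hc.symm h a ha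
    have e4 := (H24.Sim.isTyp_typ _).monic ha
    have e5 := e1.1 h a ha
    rw [← cyclotomic_prime_mul_X_sub_one] at e5
    rcases e3.prime.dvd_or_dvd e5 with e6 | e6
    · exact Finset.mem_insert_of_mem ((h1 a).2 ⟨e3, e4, e6⟩)
    · rw [eq_of_monic_of_associated e4 H24.Sim.monic_X_sub_one (e3.associated_of_dvd H24.Sim.irred_X_sub_one e6)]
      exact Finset.mem_insert_self _ _

end Cfsg.Agent.S2568
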