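import Cfsg.Statements.S2570
import Cfsg.Agent.H24.Sim3
-- import your own Cfsg.Agent.* helpers here

set_option autoImplicit false
open Cfsg

namespace Cfsg.Agent.S2570

/-- Number of conjugacy classes of elements of order p in GL_n over a finite field of characteristic p: they correspond to the Jordan types, that is, to the partitions of n with all parts at most p other than the partition into ones, so there are (number of partitions of n with parts ≤ p) − 1 of them. -/
theorem result {F : Type*} [Field F] [Fintype F] {p : ℕ} [Fact p.Prime] [CharP F p] (n : ℕ) : Nat.card {C : ConjClasses (GL (Fin n) F) // ∃ g : GL (Fin n) F, ConjClasses.mk g = C ∧ orderOf g = p} = (Finset.univ.filter (fun μ : Nat.Partition n => ∀ a ∈ μ.parts, a ≤ p)).card - 1 := by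
  classical
  have h1 : ∀ g : GL (Fin n) F, orderOf g = p ↔ ((g : Matrix (Fin n) (Fin n) F) - 1) ^ p = 0 ∧
      ¬ ((g : Matrix (Fin n) (Fin n) F) - 1) ^ 1 = 0 := fun g => by
    have := H24.Sim.pow_char_pow_eq_one_iff p (g : Matrix (Fin n) (Fin n) F) 1
    rw [pow_one] at this
    rw [orderOf_eq_prime_iff, ← this, pow_one, sub_eq_zero, Units.ext_iff, ne_eq, Units.ext_iff]
    simp
  rw [H24.Sim.card_unip_classes (F := F) n (fun g => orderOf g = p) (fun μ => (∀ a ∈ μ, a ≤ p) ∧ ¬ ∀ a ∈ μ, a ≤ 1)
    (fun g hg => ⟨p, ((h1 g).1 hg).1⟩)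
    (fun g μ _ ht => by rw [h1, H24.Sim.pow_eq_zero_iff_utyp ht, H24.Sim.pow_eq_zero_iff_utyp ht])]
  let o : Nat.Partition n := ⟨Multiset.replicate n 1, fun h => by rw [Multiset.eq_of_mem_replicate h]; exact one_pos, by simp⟩
  have ho : ∀ μ : Nat.Partition n, (∀ a ∈ μ.parts, a ≤ 1) ↔ μ = o := fun μ => by
    constructor
    · intro h
      have h2 : μ.parts = Multiset.replicate μ.parts.card 1 :=
        Multiset.eq_replicate_card.2 fun a ha => le_antisymm (h a ha) (μ.parts_pos ha)
      have h3 := μ.parts_sum
      rw [h2] at h3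
      ext1
      rw [h2]; simp only [o]; congr 1; simpa using h3
    · rintro rfl a ha
      exact (Multiset.eq_of_mem_replicate ha).le
  rw [← Finset.card_erase_of_mem (a := o) (by
    simp only [Finset.mem_filter, Finset.mem_univ, true_and]
    exact fun a ha => ((ho o).2 rfl a ha).trans (Fact.out : p.Prime).one_le), Nat.card_eq_fintype_card,
    Fintype.card_subtype]
  congr 1
  ext μ
  simp only [Finset.mem_filter, Finset.mem_univ, true_and, Finset.mem_erase, ho, and_comm]

end Cfsg.Agent.S2570
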