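import Cfsg.Statements.S2571
import Cfsg.Agent.H24.Sim3
-- import your own Cfsg.Agent.* helpers here

set_option autoImplicit false
open Cfsg

namespace Cfsg.Agent.S2571

/-- Centraliser of a regular unipotent element in GL_n(q): if u is an invertible n × n matrix over the field with q elements, n ≥ 1, with (u − 1)^n = 0 and rank(u − 1) = n − 1 (a single unipotent Jordan block), then its centraliser in GL_n(q) has order (q − 1) q^(n−1). -/
theorem result {F : Type*} [Field F] [Fintype F] {q n : ℕ} (hF : Fintype.card F = q) (hn : 1 ≤ n) (u : GL (Fin n) F) (hnil : ((u : Matrix (Fin n) (Fin n) F) - 1) ^ n = 0) (hreg : ((u : Matrix (Fin n) (Fin n) F) - 1).rank = n - 1) : Nat.card ↥(Subgroup.centralizer ({u} : Set (GL (Fin n) F))) = (q - 1) * q ^ (n - 1) := by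
  open Polynomial in
  have ht := H24.Sim.typ_of_regular ⟨n, hnil⟩ (by rw [hreg, Fintype.card_fin]; omega)
  rw [Fintype.card_fin] at ht
  rw [H24.Sim.card_centralizer_cyclic ht]
  set f : Polynomial F := (Polynomial.X - 1) ^ n with hf
  have hf0 : f ≠ 0 := pow_ne_zero _ H24.Sim.irred_X_sub_one.ne_zero
  haveI := H24.Sim.finite_adjoinRoot hf0
  haveI : Finite (AdjoinRoot f) := Module.finite_of_finite F
  let φ : AdjoinRoot f →ₐ[F] F := AdjoinRoot.liftAlgHom f (AlgHom.id F F) 1 (by
    simp [hf, Polynomial.eval₂_pow, show n ≠ 0 by omega])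
  have hφ : ∀ g, φ (AdjoinRoot.mk f g) = g.eval 1 := fun g => by
    rw [← AdjoinRoot.aeval_eq, ← Polynomial.aeval_algHom_apply]; simp [φ, Polynomial.aeval_def]
  have hu : ∀ x, IsUnit x ↔ φ x ≠ 0 := fun x => by
    refine ⟨fun h => (h.map φ).ne_zero, fun h => ?_⟩
    obtain ⟨g, rfl⟩ := AdjoinRoot.mk_surjective x
    rw [hφ] at h
    have : IsCoprime g f := IsCoprime.pow_right ((H24.Sim.irred_X_sub_one.coprime_iff_not_dvd).2 fun hd => h (by
      have := Polynomial.dvd_iff_isRoot.1 (show Polynomial.X - Polynomial.C (1 : F) ∣ g by simpa using hd)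
      exact this)).symm
    obtain ⟨a, b, hab⟩ := this
    refine IsUnit.of_mul_eq_one (AdjoinRoot.mk f a) ?_
    have := congrArg (AdjoinRoot.mk f) hab
    simpa [mul_comm] using this
  have hk : Nat.card (LinearMap.ker φ.toLinearMap) = q ^ (n - 1) := by
    have h1 := LinearMap.finrank_range_add_finrank_ker φ.toLinearMap
    have h2 : LinearMap.range φ.toLinearMap = ⊤ := LinearMap.range_eq_top.2 fun c => ⟨algebraMap F _ c, φ.commutes c⟩
    rw [h2, finrank_top, Module.finrank_self, H24.Sim.finrank_adjoinRoot, H24.Sim.natDegree_X_sub_one_pow] at h1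
    rw [Module.natCard_eq_pow_finrank (K := F), Nat.card_eq_fintype_card, hF]; congr 1; omega
  have hc : Nat.card (AdjoinRoot f) = q ^ n := by
    rw [Module.natCard_eq_pow_finrank (K := F), Nat.card_eq_fintype_card, hF, H24.Sim.finrank_adjoinRoot,
      H24.Sim.natDegree_X_sub_one_pow]
  have h3 : Nat.card (AdjoinRoot f)ˣ = Nat.card {x : AdjoinRoot f // ¬ x ∈ LinearMap.ker φ.toLinearMap} :=
    Nat.card_congr (Equiv.ofBijective (fun x => ⟨x, (hu _).1 x.isUnit⟩) ⟨fun x y h => Units.ext (congrArg Subtype.val h),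
      fun ⟨x, hx⟩ => by obtain ⟨y, rfl⟩ := (hu x).2 hx; exact ⟨y, rfl⟩⟩)
  classical
  haveI := Fintype.ofFinite (AdjoinRoot f)
  rw [h3, Nat.card_eq_fintype_card, Fintype.card_subtype_compl, ← Nat.card_eq_fintype_card, ← Nat.card_eq_fintype_card, hc]
  change _ - Nat.card (LinearMap.ker φ.toLinearMap) = _
  rw [hk, Nat.sub_mul, one_mul, ← pow_succ']
  congr 2; omega

end Cfsg.Agent.S2571
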