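import Cfsg.Statements.S2572
import Cfsg.Agent.H24.Jor
-- import your own Cfsg.Agent.* helpers here

set_option autoImplicit false
open Cfsg

namespace Cfsg.Agent.S2572

/-- Centraliser of a transvection in GL_n(q), n ≥ 2: if t − 1 has rank one and square zero, the centraliser of t in GL_n(q) has order q^(2n−3) (q − 1) |GL_(n−2)(q)| (a group of order q^(2n−3) extended by GL_1(q) × GL_(n−2)(q)). -/
theorem result {F : Type*} [Field F] [Fintype F] {q n : ℕ} (hF : Fintype.card F = q) (hn : 2 ≤ n) (t : GL (Fin n) F) (ht : Cfsg.IsTransvection (t : Matrix (Fin n) (Fin n) F)) : Nat.card ↥(Subgroup.centralizer ({t} : Set (GL (Fin n) F))) = q ^ (2 * n - 3) * (q - 1) * ∏ i : Fin (n - 2), (q ^ (n - 2) - q ^ (i : ℕ)) := by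
  classical
  subst hF
  obtain ⟨m, rfl⟩ : ∃ m, n = m + 2 := ⟨n - 2, by omega⟩
  let d : Fin (m + 1) → ℕ := Fin.cons 2 fun _ => 1
  have hd : ∀ k, 1 ≤ d k := fun k => Fin.cases (by simp [d]) (fun k => by simp [d]) k
  let e : H24.Jor.I d ≃ Fin (m + 2) := Fintype.equivFinOfCardEq (by simp [d, Fin.sum_univ_succ, add_comm])
  have h2 : (t.1 - 1) ^ 2 = 0 := by rw [pow_two, ht.2]
  have h := (H24.Jor.isConj_iff e (u := t.1)).2 ⟨⟨2, h2⟩, fun j => by
    have e1 := LinearMap.finrank_range_add_finrank_ker (Matrix.toLin' ((t.1 - 1) ^ j))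
    change Matrix.rank _ + _ = _ at e1
    simp only [d, Fin.sum_univ_succ, Fin.cons_zero, Fin.cons_succ, Finset.sum_const, Finset.card_univ, Fintype.card_fin,
      smul_eq_mul, Module.finrank_fin_fun] at e1 ⊢
    rcases j with _ | _ | j
    · simp
    · rw [zero_add, pow_one] at e1 ⊢; rw [ht.1] at e1; simp; omega
    · rw [pow_eq_zero_of_le (by omega) h2, Matrix.rank_zero] at e1
      rw [pow_eq_zero_of_le (by omega) h2, min_eq_left (by omega), min_eq_left (by omega)]; omega⟩
  have hs : Finset.univ.sup d = 2 := le_antisymm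
    (Finset.sup_le fun k _ => Fin.cases (by simp [d]) (fun k => by simp [d]) k) (Finset.le_sup (f := d) (Finset.mem_univ 0))
  have c0 : (Finset.univ.filter fun k => d k = 0).card = 0 := by
    rw [Finset.card_filter, Fin.sum_univ_succ]; simp [d]
  have c1 : (Finset.univ.filter fun k => d k = 1).card = m := by
    rw [Finset.card_filter, Fin.sum_univ_succ]; simp [d]
  have c2 : (Finset.univ.filter fun k => d k = 2).card = 1 := by
    rw [Finset.card_filter, Fin.sum_univ_succ]; simp [d]
  rw [H24.Jor.card_cent hd h, H24.Jor.gam, hs]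
  simp only [Finset.sum_range_succ, Finset.prod_range_succ]
  rw [c0, c1, c2, show 2 * (m + 2) - 3 = 2 * m + 1 by omega, Nat.add_sub_cancel]
  simp
  ring

end Cfsg.Agent.S2572
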