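import Cfsg.Statements.S2573
import Cfsg.Agent.H24.Sim3
-- import your own Cfsg.Agent.* helpers here

set_option autoImplicit false
open Cfsg

namespace Cfsg.Agent.S2573

/-- The invariant subspaces of a regular unipotent matrix form a chain: over a finite field, if u is an n × n matrix with (u − 1)^n = 0 and rank(u − 1) = n − 1, then every subspace W of F^n with u W ⊆ W is the kernel of (u − 1)^(dim W); so u has at most one invariant subspace of each dimension. -/
theorem result {F : Type*} [Field F] [Finite F] {n : ℕ} (u : Matrix (Fin n) (Fin n) F) (hnil : (u - 1) ^ n = 0) (hreg : (u - 1).rank = n - 1) (W : Submodule F (Fin n → F)) (hW : ∀ v ∈ W, u.mulVec v ∈ W) : W = LinearMap.ker (Matrix.mulVecLin ((u - 1) ^ Module.finrank F W)) := by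
  classical
  rcases Nat.eq_zero_or_pos n with rfl | hn
  · exact Subsingleton.elim _ _
  obtain ⟨μ, hμ, hs, ht⟩ := H24.Sim.exists_utyp ⟨n, hnil⟩
  have h1 := H24.Sim.rank_add_card hμ ht
  rw [Fintype.card_fin] at h1 hs
  obtain ⟨e, rfl⟩ := Multiset.card_eq_one.1 (by omega : μ.card = 1)
  have he : e = n := by simpa using hs
  subst he
  have hk : Module.finrank F W ≤ e := by simpa using Submodule.finrank_le W
  have h2 := H24.Sim.rank_pow_add ht (Module.finrank F W)
  have h3 := LinearMap.finrank_range_add_finrank_ker (Matrix.mulVecLin ((u - 1) ^ Module.finrank F W))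
  simp only [Multiset.map_singleton, Multiset.sum_singleton, min_eq_right hk, Fintype.card_fin] at h2
  rw [Module.finrank_fin_fun] at h3
  refine Submodule.eq_of_le_of_finrank_le ?_ (by change Matrix.rank _ + _ = _ at h3; omega)
  let N : Module.End F (Fin e → F) := Matrix.toLin' (u - 1)
  have hN : ∀ v ∈ W, N v ∈ W := fun v hv => by
    simp only [N, Matrix.toLin'_apply, Matrix.sub_mulVec, Matrix.one_mulVec]
    exact W.sub_mem (hW v hv) hv
  have hnil' : IsNilpotent (N.restrict hN) := Module.End.isNilpotent.restrict hN ⟨e, by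
    simp only [N]; rw [← Matrix.toLin'_pow, hnil, map_zero]⟩
  have h4 : (N.restrict hN) ^ Module.finrank F W = 0 := by
    have := LinearMap.aeval_self_charpoly (N.restrict hN)
    rwa [hnil'.charpoly_eq_X_pow_finrank, map_pow, Polynomial.aeval_X] at this
  intro v hv
  have h5 := congrArg Subtype.val (LinearMap.congr_fun h4 ⟨v, hv⟩)
  rw [Module.End.pow_restrict, LinearMap.restrict_coe_apply] at h5
  simp only [N, ← Matrix.toLin'_pow] at h5
  exact h5

end Cfsg.Agent.S2573
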