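import Cfsg.Statements.S2574
import Cfsg.Agent.H24.Reg
-- import your own Cfsg.Agent.* helpers here

set_option autoImplicit false
open Cfsg

namespace Cfsg.Agent.S2574

open Module Matrix

/-- A regular unipotent element of the symplectic group has totally isotropic small invariant subspaces: over a finite field, if u ∈ Sp_2m(F) satisfies (u − 1)^(2m) = 0 and rank(u − 1) = 2m − 1, and W is a u-invariant subspace with 2 dim W ≤ 2m, then the alternating form vanishes identically on W. -/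
theorem result {F : Type*} [Field F] [Finite F] {m : ℕ} (u : Matrix.symplecticGroup (Fin m) F) (hnil : ((u : Matrix (Fin m ⊕ Fin m) (Fin m ⊕ Fin m) F) - 1) ^ (2 * m) = 0) (hreg : ((u : Matrix (Fin m ⊕ Fin m) (Fin m ⊕ Fin m) F) - 1).rank = 2 * m - 1) (W : Submodule F (Fin m ⊕ Fin m → F)) (hW : ∀ v ∈ W, (u : Matrix (Fin m ⊕ Fin m) (Fin m ⊕ Fin m) F).mulVec v ∈ W) (hdim : 2 * Module.finrank F W ≤ 2 * m) : ∀ v ∈ W, ∀ w ∈ W, Cfsg.sympForm m F v w = 0 := by
  classical
  rcases Nat.eq_zero_or_pos m with rfl | hm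
  · intro v _ w _; simp [Cfsg.sympForm, dotProduct]
  have hc : Fintype.card (Fin m ⊕ Fin m) = 2 * m := by simp [two_mul]
  have hr : (u.1 - 1).rank + 1 = Fintype.card (Fin m ⊕ Fin m) := by omega
  let W' := (H09.spB (Fin m) F).orthogonal W
  have hs : ∀ w ∈ W, ∃ w' ∈ W, u.1 *ᵥ w' = w := fun w hw => by
    have hi : Function.Injective ((toLin' u.1).restrict (p := W) (q := W) hW) := fun x y h => by
      have h1 : u.1 *ᵥ x.1 = u.1 *ᵥ y.1 := congrArg Subtype.val h
      have h2 := congrArg ((u⁻¹).1 *ᵥ ·) h1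
      simp only [mulVec_mulVec, H24.Reg.inv_mul, one_mulVec] at h2
      exact Subtype.ext h2
    obtain ⟨w', h⟩ := LinearMap.injective_iff_surjective.1 hi ⟨w, hw⟩
    exact ⟨w'.1, w'.2, congrArg Subtype.val h⟩
  have hW' : ∀ v ∈ W', u.1 *ᵥ v ∈ W' := fun v hv w hw => by
    obtain ⟨w', hw', rfl⟩ := hs w hw
    exact (H09.mem_sp_iff.1 u.2 w' v).trans (hv w' hw')
  have hd : finrank F W' = 2 * m - finrank F W := by
    rw [LinearMap.BilinForm.finrank_orthogonal H09.spB_nondeg, finrank_fintype_fun_eq_card, hc]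
  have e1 := H24.Reg.inv_eq_ker ⟨_, hnil⟩ hr W hW
  have e2 := H24.Reg.inv_eq_ker ⟨_, hnil⟩ hr W' hW'
  intro v hv w hw
  rw [H09.sympForm_eq]
  refine (?_ : w ∈ W') v hv
  rw [e1] at hw
  rw [e2, show finrank F W' = (finrank F W' - finrank F W) + finrank F W by omega, pow_add]
  simp only [LinearMap.mem_ker, mulVecLin_apply] at hw ⊢
  rw [← mulVec_mulVec, hw, mulVec_zero]

end Cfsg.Agent.S2574
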