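import Cfsg.Statements.S2575
import Cfsg.Agent.H24.Sim3
-- import your own Cfsg.Agent.* helpers here

set_option autoImplicit false
open Cfsg

namespace Cfsg.Agent.S2575

/-- Which diagonal involutions of PGL_n(q) lie in PSL_n(q), q odd: for the diagonal matrix t with i entries −1 and n − i entries 1, some non-zero scalar multiple of t has determinant one if and only if i is even or the 2-part of q − 1 exceeds the 2-part of n (that is, −1 is an n-th power in the field exactly in the latter case). -/
theorem result {F : Type*} [Field F] [Fintype F] {q : ℕ} (hF : Fintype.card F = q) (hq : Odd q) {n : ℕ} (hn : 1 ≤ n) (i : ℕ) (hi : i ≤ n) : (∃ c : F, c ≠ 0 ∧ (c • Matrix.diagonal (fun j : Fin n => if (j : ℕ) < i then (-1 : F) else 1)).det = 1) ↔ (Even i ∨ padicValNat 2 n < padicValNat 2 (q - 1)) := by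
  classical
  have hdet : (Matrix.diagonal (fun j : Fin n => if (j : ℕ) < i then (-1 : F) else 1)).det = (-1) ^ i := by
    rw [Matrix.det_diagonal, Finset.prod_ite]
    simp [Fin.card_filter_val_lt, hi]
  have h2 : (-1 : F) ≠ 1 := by
    intro h
    have : ringChar F = 2 := by
      have h3 : ((2 : ℕ) : F) = 0 := by push_cast; linear_combination -h
      exact ((Nat.dvd_prime Nat.prime_two).1 (ringChar.dvd h3)).resolve_left CharP.ringChar_ne_one
    have := FiniteField.even_card_of_char_two this
    rw [hF, Nat.odd_iff.1 hq] at this; omega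
  have hq1 : 0 < q - 1 := by have := Fintype.one_lt_card (α := F); omega
  simp only [Matrix.det_smul, hdet, Fintype.card_fin]
  rcases Nat.even_or_odd i with he | ho
  · simp only [he, true_or, iff_true, he.neg_one_pow]
    exact ⟨1, one_ne_zero, by simp⟩
  simp only [ho.neg_one_pow, Nat.not_even_iff_odd.2 ho, false_or]
  have hcard : Nat.card Fˣ = q - 1 := by rw [Nat.card_units, Nat.card_eq_fintype_card, hF]
  constructor
  · rintro ⟨c, hc, h⟩
    by_contra hle
    push Not at hle
    obtain ⟨m, hm, hm'⟩ := Nat.exists_eq_two_pow_mul_odd hq1.ne'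
    obtain ⟨hodd, hm'⟩ := hm'
    have hv : padicValNat 2 (q - 1) = m := by
      rw [hm', padicValNat.mul (by positivity) hodd.pos.ne', padicValNat.prime_pow,
        padicValNat.eq_zero_of_not_dvd hodd.not_two_dvd_nat, add_zero]
    obtain ⟨k, hk⟩ : 2 ^ m ∣ n := (padicValNat_dvd_iff_le (by omega)).2 (hv ▸ hle)
    have h3 : c ^ n = -1 := by linear_combination -h
    have h4 : c ^ (q - 1) = 1 := hF ▸ FiniteField.pow_card_sub_one_eq_one c hc
    have : (c ^ n) ^ hm = 1 := by
      rw [← pow_mul, hk, mul_right_comm, ← hm', pow_mul, h4, one_pow]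
    rw [h3, hodd.neg_one_pow] at this
    exact h2 this
  · intro hlt
    obtain ⟨m, hm, hodd, hm'⟩ := Nat.exists_eq_two_pow_mul_odd (show n ≠ 0 by omega)
    have hv : padicValNat 2 n = m := by
      rw [hm', padicValNat.mul (by positivity) hodd.pos.ne', padicValNat.prime_pow,
        padicValNat.eq_zero_of_not_dvd hodd.not_two_dvd_nat, add_zero]
    have hd : 2 ^ (m + 1) ∣ Nat.card Fˣ := hcard ▸ (padicValNat_dvd_iff_le hq1.ne').2 (hv ▸ hlt)
    obtain ⟨g, hg⟩ := IsCyclic.exists_ofOrder_eq_natCard (α := Fˣ)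
    have ho := orderOf_pow_orderOf_div (x := g) (by rw [hg, hcard]; omega) (hg ▸ hd)
    set u := g ^ (orderOf g / 2 ^ (m + 1))
    have h5 : ((u : F) ^ 2 ^ m) = -1 := by
      have h6 : ((u : F) ^ 2 ^ m) ^ 2 = 1 := by
        rw [← pow_mul, ← pow_succ, ← ho, ← Units.val_pow_eq_pow_val, pow_orderOf_eq_one, Units.val_one]
      refine (sq_eq_one_iff.1 h6).resolve_left fun h7 => ?_
      have := orderOf_dvd_of_pow_eq_one (x := u) (n := 2 ^ m) (Units.ext (by simpa using h7))
      rw [ho, Nat.pow_dvd_pow_iff_le_right one_lt_two] at this; omega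
    exact ⟨u, u.ne_zero, by rw [hm', pow_mul, h5, hodd.neg_one_pow]; ring⟩

end Cfsg.Agent.S2575
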