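import Cfsg.Statements.S2576
import Cfsg.Agent.H24.Sim3
-- import your own Cfsg.Agent.* helpers here

set_option autoImplicit false
open Cfsg

namespace Cfsg.Agent.S2576

/-- Which involutions of PGL_2m(q) coming from a scalar of the quadratic extension field lie in PSL_2m(q), q odd: let μ generate the Sylow 2-subgroup of the multiplicative group of the field with q elements (μ has order the 2-part of q − 1) and let t be the block-diagonal matrix with m diagonal blocks [[0, 1], [μ, 0]] (so t² is the scalar μ and t is an involution modulo scalars). Then some non-zero scalar multiple of t has determinant one if and only if q ≡ 3 (mod 4) or the 2-part of q − 1 is less than the 2-part of 2m. -/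
theorem result {F : Type*} [Field F] [Fintype F] {q : ℕ} (hF : Fintype.card F = q) (hq : Odd q) {m : ℕ} (hm : 1 ≤ m) (μ : F) (hμ : orderOf μ = 2 ^ padicValNat 2 (q - 1)) : (∃ c : F, c ≠ 0 ∧ (c • Matrix.blockDiagonal (fun _ : Fin m => !![(0 : F), 1; μ, 0])).det = 1) ↔ (q % 4 = 3 ∨ padicValNat 2 (q - 1) < padicValNat 2 (2 * m)) := by
  classical
  have hdet : (Matrix.blockDiagonal (fun _ : Fin m => !![(0 : F), 1; μ, 0])).det = (-μ) ^ m := by
    rw [Matrix.det_blockDiagonal]; simp [Matrix.det_fin_two]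
  have h2 : (-1 : F) ≠ 1 := by
    intro h
    have : ringChar F = 2 := by
      have h3 : ((2 : ℕ) : F) = 0 := by push_cast; linear_combination -h
      exact ((Nat.dvd_prime Nat.prime_two).1 (ringChar.dvd h3)).resolve_left CharP.ringChar_ne_one
    have := FiniteField.even_card_of_char_two this
    rw [hF, Nat.odd_iff.1 hq] at this; omega
  have hq1 : 0 < q - 1 := by have := Fintype.one_lt_card (α := F); omega
  have hq2 := Nat.odd_iff.1 hq
  simp only [Matrix.det_smul, hdet, Fintype.card_prod, Fintype.card_fin]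
  obtain ⟨a, o, hodd, hao⟩ := Nat.exists_eq_two_pow_mul_odd hq1.ne'
  have hv : padicValNat 2 (q - 1) = a := by
    rw [hao, padicValNat.mul (by positivity) hodd.pos.ne', padicValNat.prime_pow,
      padicValNat.eq_zero_of_not_dvd hodd.not_two_dvd_nat, add_zero]
  rw [hv] at hμ ⊢
  have hv2 : padicValNat 2 (2 * m) = padicValNat 2 m + 1 := by
    rw [padicValNat.mul two_ne_zero (by omega), padicValNat_self, add_comm]
  have ho2 := Nat.odd_iff.1 hodd
  obtain ⟨a, rfl⟩ : ∃ b, a = b + 1 := ⟨a - 1, by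
    rcases a with _ | a
    · simp at hao; omega
    · rfl⟩
  have h5 : μ ^ 2 ^ a = -1 := by
    have h6 : (μ ^ 2 ^ a) ^ 2 = 1 := by rw [← pow_mul, ← pow_succ, ← hμ, pow_orderOf_eq_one]
    refine (sq_eq_one_iff.1 h6).resolve_left fun h7 => ?_
    have := orderOf_dvd_of_pow_eq_one h7
    rw [hμ, Nat.pow_dvd_pow_iff_le_right one_lt_two] at this; omega
  rcases a with _ | a
  · have h3 : q % 4 = 3 := by simp at hao; omega
    simp only [h3, true_or, iff_true]
    exact ⟨1, one_ne_zero, by simp at h5; simp [h5]⟩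
  have h3 : q % 4 ≠ 3 := by
    have : 4 ∣ q - 1 := ⟨2 ^ a * o, by rw [hao]; ring⟩
    omega
  have h6 : (-μ) ^ 2 ^ (a + 1) = -1 := by rw [Even.neg_pow (by simp [Nat.even_pow]), h5]
  simp only [h3, false_or, hv2]
  constructor
  · rintro ⟨c, hc, h⟩
    by_contra hle
    obtain ⟨b, o', hodd', hbo⟩ := Nat.exists_eq_two_pow_mul_odd (show m ≠ 0 by omega)
    have hv' : padicValNat 2 m = b := by
      rw [hbo, padicValNat.mul (by positivity) hodd'.pos.ne', padicValNat.prime_pow,
        padicValNat.eq_zero_of_not_dvd hodd'.not_two_dvd_nat, add_zero]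
    obtain ⟨k, hk⟩ : ∃ k, a + 1 = b + k := ⟨a + 1 - b, by omega⟩
    have h4 : c ^ (q - 1) = 1 := hF ▸ FiniteField.pow_card_sub_one_eq_one c hc
    have h7 : (c ^ (2 * m) * (-μ) ^ m) ^ (2 ^ k * o) = (c ^ (q - 1)) ^ o' * ((-μ) ^ 2 ^ (a + 1)) ^ (o * o') := by
      rw [mul_pow, ← pow_mul, ← pow_mul, ← pow_mul, ← pow_mul, hao, hbo, pow_succ 2 (a + 1), hk]
      congr 2 <;> ring
    rw [h, h4, h6, (hodd.mul hodd').neg_one_pow] at h7
    exact h2 (by simpa using h7.symm)
  · intro hlt
    obtain ⟨k, hk⟩ : 2 ^ (a + 1 + 1) ∣ m := (padicValNat_dvd_iff_le (by omega)).2 (by omega)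
    exact ⟨1, one_ne_zero, by rw [one_pow, one_mul, hk, pow_mul, pow_succ 2 (a + 1), pow_mul, h6]; simp⟩

end Cfsg.Agent.S2576
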