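import Cfsg.Statements.S2577
import Cfsg.Agent.H24.Reg
-- import your own Cfsg.Agent.* helpers here

set_option autoImplicit false
open Cfsg

namespace Cfsg.Agent.S2577

open Polynomial Matrix H24.Sim

section
variable {F : Type*} [Field F] {n : ℕ}

theorem rank_of_rep (h2 : (2 : F) ≠ 0) {A : Matrix (Fin n) (Fin n) F} {a b : ℕ}
    (h : typ A = Multiset.replicate a (X - 1) + Multiset.replicate b (X + 1)) :
    a + b = n ∧ (A - 1).rank = b ∧ (A + 1).rank = a := by
  have d1 : (X + 1 : F[X]).natDegree = 1 := by rw [← C_1, natDegree_X_add_C]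
  have hc : IsCoprime (X + 1 : F[X]) (X - 1) := ⟨C 2⁻¹, -C 2⁻¹, by
    rw [show C (2⁻¹ : F) * (X + 1) + -C 2⁻¹ * (X - 1) = C 2⁻¹ * C 2 by rw [map_ofNat C 2]; ring, ← map_mul,
      inv_mul_cancel₀ h2, map_one]⟩
  have h0 := deg_typ A
  have h1 := rank_add_sum A (X - 1)
  have h3 := rank_add_sum A (X + 1)
  simp only [h, Multiset.map_add, Multiset.map_replicate, Multiset.sum_add, Multiset.sum_replicate, kd1_of_dvd dvd_rfl,
    kd1_of_coprime hc, kd1_of_coprime hc.symm, d1, natDegree_X_sub_one, map_sub, map_add, aeval_X, map_one, smul_eq_mul,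
    Fintype.card_fin] at h0 h1 h3
  omega

theorem typ_inv (h2 : (2 : F) ≠ 0) {A : Matrix (Fin n) (Fin n) F} (h : A ^ 2 = 1) :
    typ A = Multiset.replicate (n - (A - 1).rank) (X - 1) + Multiset.replicate (A - 1).rank (X + 1) ∧
      (A + 1).rank + (A - 1).rank = n := by
  classical
  have h1 := (aeval_eq_zero_iff A ((X - 1) * (X + 1))).1 (by
    simp only [map_mul, map_sub, map_add, aeval_X, map_one]; rw [← sub_eq_zero] at h; rw [← h]; noncomm_ring)
  have i1 : Irreducible (X + 1 : F[X]) := by simpa using irreducible_X_sub_C (-1 : F)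
  have m1 : (X + 1 : F[X]).Monic := by simpa using monic_X_add_C (1 : F)
  have h3 := Multiset.filter_add_not (· = X - 1) (typ A)
  rw [Multiset.filter_eq', Multiset.eq_replicate_card.2 fun f (hf : f ∈ (typ A).filter (¬ · = X - 1)) =>
    show f = X + 1 by
      obtain ⟨h4, h5⟩ := Multiset.mem_filter.1 hf
      obtain ⟨p, e, hp, hi, he, rfl⟩ := isTyp_typ A f h4
      have h6 : Squarefree ((X - 1) * (X + 1) : F[X]) := by
        rw [show ((X - 1) * (X + 1) : F[X]) = X ^ 2 - C 1 by simp; ring]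
        exact (separable_X_pow_sub_C 1 (by exact_mod_cast h2) one_ne_zero).squarefree
      obtain rfl : e = 1 := by
        by_contra h7
        exact hi.not_isUnit (h6 p (pow_two p ▸ (pow_dvd_pow p (by omega : 2 ≤ e)).trans (h1 _ h4)))
      rw [pow_one] at *
      rcases hi.prime.dvd_or_dvd (h1 _ h4) with h7 | h7
      · exact absurd (eq_of_monic_of_associated hp monic_X_sub_one (hi.associated_of_dvd irred_X_sub_one h7)) h5
      · exact eq_of_monic_of_associated hp m1 (hi.associated_of_dvd i1 h7)] at h3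
  obtain ⟨e1, e2, e3⟩ := rank_of_rep h2 h3.symm
  rw [e2, e3, Nat.sub_eq_of_eq_add e1.symm]
  exact ⟨h3.symm, e1⟩

theorem typ_ns {μ : F} (hμ : ¬ IsSquare μ) {A : Matrix (Fin n) (Fin n) F} (h : A ^ 2 = μ • 1) :
    typ A = Multiset.replicate (n / 2) (X ^ 2 - C μ) ∧ Even n := by
  have h1 := (aeval_eq_zero_iff A (X ^ 2 - C μ)).1 (by simp [h, Algebra.algebraMap_eq_smul_one])
  have hi := X_pow_sub_C_irreducible_of_prime Nat.prime_two (a := μ) fun b hb => hμ ⟨b, by rw [← hb, pow_two]⟩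
  have h3 := Multiset.eq_replicate_card.2 fun f (hf : f ∈ typ A) => eq_of_monic_of_associated ((isTyp_typ A).monic hf)
    (monic_X_pow_sub_C μ two_ne_zero) (((hi.dvd_iff.1 (h1 f hf)).resolve_left
      (not_isUnit_of_natDegree_pos _ ((isTyp_typ A).natDegree_pos hf))).symm)
  have h4 := deg_typ A
  rw [h3] at h4
  simp only [Multiset.map_replicate, Multiset.sum_replicate, natDegree_X_pow_sub_C, smul_eq_mul, Fintype.card_fin] at h4
  exact ⟨by rw [h3]; congr 1; omega, ⟨(typ A).card, by omega⟩⟩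

theorem rank_neg (A : Matrix (Fin n) (Fin n) F) : (-A).rank = A.rank := by
  rw [← neg_one_mul]
  exact rank_mul_eq_right_of_isUnit_det _ _ ((isUnit_iff_isUnit_det _).1 isUnit_one.neg)

theorem eq_zero_of_rank {A : Matrix (Fin n) (Fin n) F} (h : A.rank = 0) : A = 0 :=
  toLin'.injective (by rw [map_zero, ← LinearMap.range_eq_bot]; exact Submodule.finrank_eq_zero.1 h)

/-- the invariant -/
noncomputable def mm (x : GL (Fin n) F ⧸ Subgroup.center (GL (Fin n) F)) : ℕ :=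
  sInf {r | ∃ g : GL (Fin n) F, QuotientGroup.mk g = x ∧ (g.1 - 1).rank = r}

theorem mk_eq {g h : GL (Fin n) F} : (QuotientGroup.mk g : GL (Fin n) F ⧸ Subgroup.center (GL (Fin n) F)) =
    QuotientGroup.mk h ↔ ∃ c : Fˣ, h.1 = c.1 • g.1 := by
  rw [QuotientGroup.eq, GeneralLinearGroup.center_eq_range_scalar]
  refine exists_congr fun c => ?_
  rw [eq_inv_mul_iff_mul_eq, Units.ext_iff, eq_comm]
  simp [GeneralLinearGroup.scalar, ← smul_eq_mul_diagonal]

theorem exists_mk (g : GL (Fin n) F) {c : F} (hc : c ≠ 0) : ∃ h : GL (Fin n) F,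
    (QuotientGroup.mk h : GL (Fin n) F ⧸ Subgroup.center (GL (Fin n) F)) = QuotientGroup.mk g ∧ h.1 = c • g.1 := by
  obtain ⟨h, e⟩ : IsUnit (c • g.1) := by
    rw [isUnit_iff_isUnit_det, det_smul]; exact (hc.isUnit.pow _).mul ((isUnit_iff_isUnit_det _).1 g.isUnit)
  exact ⟨h, (mk_eq.2 ⟨Units.mk0 c hc, e⟩).symm, e⟩

theorem rank_full {A : Matrix (Fin n) (Fin n) F} {ν c : F} (h : A ^ 2 = ν • 1) (hc : c ^ 2 * ν ≠ 1) :
    (c • A - 1).rank = n := by
  have : (c • A - 1) * ((c ^ 2 * ν - 1)⁻¹ • (c • A + 1)) = 1 := by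
    rw [Matrix.mul_smul, show ∀ B : Matrix (Fin n) (Fin n) F, (B - 1) * (B + 1) = B ^ 2 - 1 from fun B => by noncomm_ring, _root_.smul_pow, h, smul_smul,
      ← one_smul F (1 : Matrix (Fin n) (Fin n) F), smul_smul, mul_one, ← sub_smul, smul_smul,
      inv_mul_cancel₀ (sub_ne_zero.2 hc)]
  rw [rank_of_isUnit _ (IsUnit.of_mul_eq_one _ this), Fintype.card_fin]

theorem mm_inv (h2 : (2 : F) ≠ 0) {g : GL (Fin n) F} (h : g.1 ^ 2 = 1) :
    mm (QuotientGroup.mk g) = min (g.1 - 1).rank (n - (g.1 - 1).rank) := by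
  have h1 := (typ_inv h2 h).2
  have h3 : ((-1 : F) • g.1 - 1).rank = n - (g.1 - 1).rank := by
    rw [show (-1 : F) • g.1 - 1 = -(g.1 + 1) by simp; abel, rank_neg]; omega
  refine le_antisymm (le_min (Nat.sInf_le ⟨g, rfl, rfl⟩) ?_) (le_csInf ⟨_, g, rfl, rfl⟩ ?_)
  · obtain ⟨g', e1, e2⟩ := exists_mk g (c := -1) (by simp)
    exact Nat.sInf_le ⟨g', e1, by rw [e2, h3]⟩
  · rintro _ ⟨g', e, rfl⟩
    obtain ⟨c, e⟩ := mk_eq.1 e.symm
    rw [e]
    by_cases hc : c.1 ^ 2 * 1 = 1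
    · rcases sq_eq_one_iff.1 (by simpa using hc : c.1 ^ 2 = 1) with e1 | e1 <;> rw [e1]
      · simp
      · rw [h3]; exact min_le_right _ _
    · rw [rank_full (by rw [h, one_smul]) hc]; omega

theorem mm_ns {μ : F} (hμ : ¬ IsSquare μ) {g : GL (Fin n) F} (h : g.1 ^ 2 = μ • 1) : mm (QuotientGroup.mk g) = n := by
  obtain ⟨g', e, e1⟩ := Nat.sInf_mem (s := {r | ∃ g' : GL (Fin n) F, (QuotientGroup.mk g' :
    GL (Fin n) F ⧸ Subgroup.center (GL (Fin n) F)) = QuotientGroup.mk g ∧ (g'.1 - 1).rank = r}) ⟨_, g, rfl, rfl⟩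
  obtain ⟨c, e⟩ := mk_eq.1 e.symm
  rw [mm, ← e1, e, rank_full h fun hc => hμ ⟨c.1⁻¹, by field_simp; linear_combination hc⟩]

theorem mm_conj {x y : GL (Fin n) F ⧸ Subgroup.center (GL (Fin n) F)} (h : IsConj x y) : mm x = mm y := by
  have h1 : ∀ x y : GL (Fin n) F ⧸ Subgroup.center (GL (Fin n) F), IsConj x y → ∀ r,
      (∃ g : GL (Fin n) F, QuotientGroup.mk g = x ∧ (g.1 - 1).rank = r) →
      ∃ g : GL (Fin n) F, QuotientGroup.mk g = y ∧ (g.1 - 1).rank = r := by
    rintro _ y h _ ⟨g, rfl, rfl⟩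
    obtain ⟨k, rfl⟩ := isConj_iff.1 h
    obtain ⟨k, rfl⟩ := QuotientGroup.mk_surjective k
    exact ⟨k * g * k⁻¹, rfl, (IsConj.rank_sub_one ((isConj_GL_iff _ _).1 (isConj_iff.2 ⟨k, rfl⟩))).symm⟩
  exact congrArg sInf (Set.ext fun r => ⟨h1 x y h r, h1 y x h.symm r⟩)

theorem mm_eq_zero {x : GL (Fin n) F ⧸ Subgroup.center (GL (Fin n) F)} : mm x = 0 ↔ x = 1 := by
  refine ⟨fun h => ?_, fun h => Nat.eq_zero_of_le_zero (Nat.sInf_le ⟨1, h.symm, by simp⟩)⟩
  obtain ⟨g, rfl⟩ := QuotientGroup.mk_surjective x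
  obtain ⟨g', e, e1⟩ := Nat.sInf_mem (s := {r | ∃ g' : GL (Fin n) F, (QuotientGroup.mk g' :
    GL (Fin n) F ⧸ Subgroup.center (GL (Fin n) F)) = QuotientGroup.mk g ∧ (g'.1 - 1).rank = r}) ⟨_, g, rfl, rfl⟩
  rw [← e, show g' = 1 from Units.ext (sub_eq_zero.1 (eq_zero_of_rank (e1.trans h)))]; rfl

end

/-- Number of conjugacy classes of involutions in PGL_n(q) for q odd and n ≥ 2: there are ⌊n/2⌋ classes represented by diagonal matrices with i entries −1 (1 ≤ i ≤ n/2) and, when n is even, one more class represented by a block-diagonal matrix of 2 × 2 blocks [[0, 1], [μ, 0]] with μ a non-square (a matrix squaring to a scalar but having no eigenvalue in the field); in all ⌊n/2⌋ + 1 classes if n is even and ⌊n/2⌋ if n is odd. -/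
theorem result {F : Type*} [Field F] [Fintype F] {q : ℕ} (hF : Fintype.card F = q) (hq : Odd q) {n : ℕ} (hn : 2 ≤ n) : Nat.card {C : ConjClasses (GL (Fin n) F ⧸ Subgroup.center (GL (Fin n) F)) // ∃ g : GL (Fin n) F ⧸ Subgroup.center (GL (Fin n) F), ConjClasses.mk g = C ∧ orderOf g = 2} = n / 2 + (if Even n then 1 else 0) := by
  classical
  subst hF
  have h2 := H24.Diag.two_ne hq
  have h2' : ringChar F ≠ 2 := by
    intro h; apply h2; have := ringChar.Nat.cast_ringChar (R := F); rw [h] at this; exact_mod_cast this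
  obtain ⟨μ, hμ⟩ := FiniteField.exists_nonsquare h2'
  have μ0 : μ ≠ 0 := by rintro rfl; exact hμ IsSquare.zero
  have key : ∀ x : GL (Fin n) F ⧸ Subgroup.center (GL (Fin n) F), orderOf x = 2 →
      (∃ g : GL (Fin n) F, QuotientGroup.mk g = x ∧ g.1 ^ 2 = 1 ∧ (g.1 - 1).rank = mm x ∧ 1 ≤ mm x ∧ mm x ≤ n / 2) ∨
      ∃ g : GL (Fin n) F, QuotientGroup.mk g = x ∧ g.1 ^ 2 = μ • 1 ∧ mm x = n := fun x hx => by
    obtain ⟨g, rfl⟩ := QuotientGroup.mk_surjective x
    obtain ⟨h3, h4⟩ := orderOf_eq_prime_iff.1 hx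
    obtain ⟨c, hc⟩ := mk_eq.1 (h3.symm : QuotientGroup.mk 1 = QuotientGroup.mk (g ^ 2))
    rw [Units.val_pow_eq_pow_val, Units.val_one] at hc
    by_cases h5 : IsSquare c.1
    · obtain ⟨a, ha⟩ := h5
      have a0 : a ≠ 0 := left_ne_zero_of_mul (ha ▸ c.ne_zero)
      obtain ⟨g', e1, e2⟩ := exists_mk g (inv_ne_zero a0)
      have e3 : g'.1 ^ 2 = 1 := by rw [e2, _root_.smul_pow, hc, smul_smul, ha, show a⁻¹ ^ 2 * (a * a) = 1 by field_simp, one_smul]
      have e4 := mm_inv h2 e3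
      have e5 := (typ_inv h2 e3).2
      have e6 := mm_eq_zero.not.2 h4
      rw [e1] at e4
      left
      by_cases e7 : (g'.1 - 1).rank ≤ n - (g'.1 - 1).rank
      · exact ⟨g', e1, e3, by omega, by omega, by omega⟩
      · obtain ⟨g'', e8, e9⟩ := exists_mk g' (c := -1) (by simp)
        refine ⟨g'', e8.trans e1, by rw [e9, _root_.smul_pow, e3]; simp, ?_, by omega, by omega⟩
        rw [e9, show (-1 : F) • g'.1 - 1 = -(g'.1 + 1) by simp; abel, rank_neg]; omega
    · obtain ⟨a, ha⟩ : IsSquare (c.1 * μ) := by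
        rw [← quadraticChar_one_iff_isSquare (mul_ne_zero c.ne_zero μ0), map_mul,
          quadraticChar_neg_one_iff_not_isSquare.2 h5, quadraticChar_neg_one_iff_not_isSquare.2 hμ]; simp
      have a0 : a ≠ 0 := left_ne_zero_of_mul (ha ▸ mul_ne_zero c.ne_zero μ0)
      obtain ⟨g', e1, e2⟩ := exists_mk g (div_ne_zero μ0 a0)
      have e3 : g'.1 ^ 2 = μ • 1 := by
        rw [e2, _root_.smul_pow, hc, smul_smul]; congr 1; field_simp; linear_combination ha
      exact Or.inr ⟨g', e1, e3, e1 ▸ mm_ns hμ e3⟩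
  refine H24.Wall.card_classes_eq _ (fun x => min (mm x - 1) (n / 2)) _ (fun x y hx hy => ⟨fun h => by rw [mm_conj h],
    fun h => ?_⟩) fun k => ⟨?_, fun hk => ?_⟩
  · rcases key x hx with ⟨g, rfl, e1, e2, e3, e4⟩ | ⟨g, rfl, e1, e2⟩ <;>
      rcases key y hy with ⟨g', rfl, e5, e6, e7, e8⟩ | ⟨g', rfl, e5, e6⟩
    · refine (QuotientGroup.mk' _).map_isConj ((isConj_GL_iff _ _).2 ((typ_eq_iff _ _).1 ?_))
      rw [(typ_inv h2 e1).1, (typ_inv h2 e5).1, e2, e6, show mm (QuotientGroup.mk g) = mm (QuotientGroup.mk g') by omega]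
    · omega
    · omega
    · exact (QuotientGroup.mk' _).map_isConj ((isConj_GL_iff _ _).2 ((typ_eq_iff _ _).1
        ((typ_ns hμ e1).1.trans (typ_ns hμ e5).1.symm)))
  · rintro ⟨x, hx, rfl⟩
    rcases key x hx with ⟨g, rfl, e1, e2, e3, e4⟩ | ⟨g, rfl, e1, e2⟩
    · omega
    · rw [if_pos (typ_ns hμ e1).2]; omega
  · by_cases h : k < n / 2
    · obtain ⟨A, hA⟩ := exists_typ_eq (n := Fin n) (M := Multiset.replicate (n - (k + 1)) (X - 1 : F[X]) +
        Multiset.replicate (k + 1) (X + 1)) (fun f hf => by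
          rcases Multiset.mem_add.1 hf with h | h <;> rw [Multiset.eq_of_mem_replicate h]
          · exact ⟨_, 1, monic_X_sub_one, irred_X_sub_one, one_pos, (pow_one _).symm⟩
          · exact ⟨_, 1, by simpa using monic_X_add_C (1 : F), by simpa using irreducible_X_sub_C (-1 : F), one_pos,
              (pow_one _).symm⟩) (by
          have d1 : (X + 1 : F[X]).natDegree = 1 := by rw [← C_1, natDegree_X_add_C]
          simp [d1, natDegree_X_sub_one]; omega)
      have e1 := (aeval_eq_zero_iff A ((X - 1) * (X + 1))).2 fun f hf => by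
        rcases Multiset.mem_add.1 (hA ▸ hf) with h | h <;> rw [Multiset.eq_of_mem_replicate h] <;> simp
      have e2 : A ^ 2 = 1 := by
        simp only [map_mul, map_sub, map_add, aeval_X, map_one] at e1
        rw [← sub_eq_zero, ← e1]; noncomm_ring
      obtain ⟨g, rfl⟩ : IsUnit A := IsUnit.of_mul_eq_one A (by rw [← e2, pow_two])
      have e3 := mm_inv h2 e2
      rw [(rank_of_rep h2 hA).2.1] at e3
      refine ⟨QuotientGroup.mk g, orderOf_eq_prime_iff.2 ⟨?_, mm_eq_zero.not.1 (by omega)⟩, by omega⟩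
      rw [← QuotientGroup.mk_pow, show g ^ 2 = 1 from Units.ext e2]; rfl
    · have he : Even n := by by_contra he; rw [if_neg he] at hk; omega
      obtain ⟨A, hA⟩ := exists_typ_eq (n := Fin n) (M := Multiset.replicate (n / 2) (X ^ 2 - C μ)) (fun f hf => by
        rw [Multiset.eq_of_mem_replicate hf]
        exact ⟨_, 1, monic_X_pow_sub_C μ two_ne_zero, X_pow_sub_C_irreducible_of_prime Nat.prime_two (a := μ)
          fun b hb => hμ ⟨b, by rw [← hb, pow_two]⟩, one_pos, (pow_one _).symm⟩) (by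
        obtain ⟨m, rfl⟩ := he; simp; omega)
      have e1 := (aeval_eq_zero_iff A (X ^ 2 - C μ)).2 fun f hf => by
        rw [hA] at hf; rw [Multiset.eq_of_mem_replicate hf]
      have e2 : A ^ 2 = μ • 1 := by simpa [Algebra.algebraMap_eq_smul_one, sub_eq_zero] using e1
      obtain ⟨g, rfl⟩ : IsUnit A := IsUnit.of_mul_eq_one (μ⁻¹ • A) (by
        rw [Matrix.mul_smul, ← pow_two, e2, smul_smul, inv_mul_cancel₀ μ0, one_smul])
      have e3 := mm_ns hμ e2
      rw [if_pos he] at hk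
      refine ⟨QuotientGroup.mk g, orderOf_eq_prime_iff.2 ⟨?_, mm_eq_zero.not.1 (by omega)⟩, by omega⟩
      exact (mk_eq.2 ⟨Units.mk0 μ μ0, e2⟩ : QuotientGroup.mk 1 = QuotientGroup.mk (g ^ 2)).symm

end Cfsg.Agent.S2577
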