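import Cfsg.Statements.S2578
import Cfsg.Agent.H24.Sim3
-- import your own Cfsg.Agent.* helpers here

set_option autoImplicit false
open Cfsg

namespace Cfsg.Agent.S2578

/-- Regular unipotent classes of SL_n(q): for n ≥ 2 over the field with q elements, the matrices u of determinant one with (u − 1)^n = 0 and rank(u − 1) = n − 1 form a single GL_n(q)-class which splits into exactly gcd(n, q − 1) conjugacy classes of SL_n(q). -/
theorem result {F : Type*} [Field F] [Fintype F] {q : ℕ} (hF : Fintype.card F = q) {n : ℕ} (hn : 2 ≤ n) : Nat.card {C : ConjClasses (Matrix.SpecialLinearGroup (Fin n) F) // ∃ u : Matrix.SpecialLinearGroup (Fin n) F, ConjClasses.mk u = C ∧ ((u : Matrix (Fin n) (Fin n) F) - 1) ^ n = 0 ∧ ((u : Matrix (Fin n) (Fin n) F) - 1).rank = n - 1} = Nat.gcd n (q - 1) := by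
  haveI : Nonempty (Fin n) := ⟨⟨0, by omega⟩⟩
  obtain ⟨g, hg⟩ := H24.Sim.exists_of_utyp (F := F) (n := Fin n) (μ := {n}) (by simp; omega) (by simp)
  have hnil := H24.Sim.nilpotent_of_utyp hg
  let a : Matrix.SpecialLinearGroup (Fin n) F := ⟨g, H24.Sim.det_of_unip hnil⟩
  have ht : H24.Sim.typ (a : Matrix (Fin n) (Fin n) F) = {(Polynomial.X - 1) ^ n} := hg
  have key : ∀ u : Matrix.SpecialLinearGroup (Fin n) F, (((u : Matrix (Fin n) (Fin n) F) - 1) ^ n = 0 ∧
      ((u : Matrix (Fin n) (Fin n) F) - 1).rank = n - 1) ↔ IsConj (a : Matrix (Fin n) (Fin n) F) u := fun u => by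
    rw [← H24.Sim.typ_eq_iff, ht]
    constructor
    · rintro ⟨h1, h2⟩
      rw [H24.Sim.typ_of_regular ⟨n, h1⟩ (by rw [h2, Fintype.card_fin]; omega), Fintype.card_fin]
    · intro h
      have h' : H24.Sim.typ (u : Matrix (Fin n) (Fin n) F) = H24.Sim.utyp F {n} := h.symm
      refine ⟨(H24.Sim.pow_eq_zero_iff_utyp h' n).2 (by simp), ?_⟩
      have := H24.Sim.rank_add_card (by simp; omega) h'
      simp at this; omega
  simp only [key]
  rw [H24.Sim.card_SL_classes a]
  have : (Subgroup.centralizer ({Matrix.SpecialLinearGroup.toGL a} : Set (GL (Fin n) F))).map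
      Matrix.GeneralLinearGroup.det = (powMonoidHom n : Fˣ →* Fˣ).range := by
    ext c
    constructor
    · rintro ⟨b, hb, rfl⟩
      obtain ⟨f, hf⟩ := H24.Sim.exists_aeval_of_commute (B := (b : Matrix (Fin n) (Fin n) F)) ht
        (congrArg Units.val (Subgroup.mem_centralizer_singleton_iff.1 hb))
      have h1 := H24.Sim.det_aeval_unip hnil f
      change (Polynomial.aeval (a : Matrix (Fin n) (Fin n) F) f).det = _ at h1
      rw [← hf, Fintype.card_fin] at h1
      have h2 : f.eval 1 ≠ 0 := fun h => by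
        rw [h, zero_pow (by omega)] at h1
        exact (Matrix.GeneralLinearGroup.det b).ne_zero h1
      exact ⟨Units.mk0 _ h2, Units.ext h1.symm⟩
    · rintro ⟨c, rfl⟩
      refine ⟨Units.map (Matrix.scalar (Fin n) : F →+* _).toMonoidHom c, Subgroup.mem_centralizer_singleton_iff.2
        (Units.ext (Matrix.scalar_commute (c : F) (fun _ => Commute.all _ _) _).eq), Units.ext ?_⟩
      simp
  rw [this, IsCyclic.index_powMonoidHom_range, Nat.card_units, Nat.card_eq_fintype_card, hF, Nat.gcd_comm]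

end Cfsg.Agent.S2578
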