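import Cfsg.Statements.S2581
import Cfsg.Agent.H24.Jor
-- import your own Cfsg.Agent.* helpers here

set_option autoImplicit false
open Cfsg

namespace Cfsg.Agent.S2581

/-- Order of the centraliser in GL of a unipotent matrix of given Jordan type over the field with q elements: if the type has a_i blocks of size i (all block sizes at least 1), the invertible matrices commuting with it number q^γ · Π_i |GL_(a_i)(q)| with γ = 2 Σ_(i<j) i a_i a_j + Σ_i (i − 1) a_i² (a group of order q^γ extended by Π GL_(a_i)(q)). -/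
theorem result {F : Type*} [Field F] [Fintype F] {q : ℕ} (hF : Fintype.card F = q) {t : ℕ} (d : Fin t → ℕ) (hd : ∀ k, 1 ≤ d k) : Nat.card {g : GL ((k : Fin t) × Fin (d k)) F // (g : Matrix ((k : Fin t) × Fin (d k)) ((k : Fin t) × Fin (d k)) F) * Cfsg.jordanTypeMatrix d F = Cfsg.jordanTypeMatrix d F * (g : Matrix ((k : Fin t) × Fin (d k)) ((k : Fin t) × Fin (d k)) F)} = q ^ (2 * (∑ i ∈ Finset.range (Finset.univ.sup d + 1), ∑ j ∈ Finset.range (Finset.univ.sup d + 1), if i < j then i * (Finset.univ.filter (fun k : Fin t => d k = i)).card * (Finset.univ.filter (fun k : Fin t => d k = j)).card else 0) + ∑ i ∈ Finset.range (Finset.univ.sup d + 1), (i - 1) * (Finset.univ.filter (fun k : Fin t => d k = i)).card ^ 2) * ∏ i ∈ Finset.range (Finset.univ.sup d + 1), ∏ j : Fin ((Finset.univ.filter (fun k : Fin t => d k = i)).card), (q ^ (Finset.univ.filter (fun k : Fin t => d k = i)).card - q ^ (j : ℕ)) := by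
  subst hF
  refine Eq.trans ?_ (H24.Jor.card_units hd)
  have h : ∀ x : Matrix (H24.Jor.I d) (H24.Jor.I d) F,
      x * Cfsg.jordanTypeMatrix d F = Cfsg.jordanTypeMatrix d F * x ↔ Commute x (H24.Jor.N F d) := fun x =>
    ⟨fun h => Commute.sub_right h (Commute.one_right _), fun h => by
      have := h.add_right (Commute.one_right x)
      rw [H24.Jor.N, sub_add_cancel] at this
      exact this⟩
  exact Nat.card_eq_of_bijective (fun g => ⟨⟨g.1.1, (h _).1 g.2⟩, g.1.isUnit⟩)
    ⟨fun g g' e => Subtype.ext (Units.ext (congrArg (fun x => x.1.1) e)),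
      fun ⟨⟨_, h1⟩, g, e⟩ => ⟨⟨g, (h _).2 (e ▸ h1)⟩, Subtype.ext (Subtype.ext e)⟩⟩

end Cfsg.Agent.S2581
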