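import Cfsg.Statements.S2582
import Cfsg.Agent.H24.Jor3
-- import your own Cfsg.Agent.* helpers here

set_option autoImplicit false
open Cfsg

namespace Cfsg.Agent.S2582

open Matrix H24.Jor

/-- Which unipotent Jordan types occur in the finite symplectic group: over a finite field, a unipotent matrix with Jordan block sizes d_1, …, d_t (sum 2m, all at least 1) is similar to an element of Sp_2m(F) if and only if every odd block size occurs an even number of times. -/
theorem result {F : Type*} [Field F] [Fintype F] {m t : ℕ} (d : Fin t → ℕ) (hd : ∀ k, 1 ≤ d k) (hsum : ∑ k, d k = 2 * m) : (∃ e : ((k : Fin t) × Fin (d k)) ≃ (Fin m ⊕ Fin m), ∃ A : Matrix.symplecticGroup (Fin m) F, IsConj (Matrix.reindex e e (Cfsg.jordanTypeMatrix d F)) (A : Matrix (Fin m ⊕ Fin m) (Fin m ⊕ Fin m) F)) ↔ ∀ j : ℕ, Odd j → Even (Finset.univ.filter (fun k : Fin t => d k = j)).card := by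
  classical
  constructor
  · rintro ⟨e, A, h⟩
    refine even_alt (A := toLin' A.1) H09.spB_nondeg (H09.mem_sp_iff.1 A.2) (fun j => ?_) H09.spB_alt
    have := ((isConj_iff e).1 h).2 j
    rwa [toLin'_pow, map_sub, toLin'_one] at this
  · intro h
    let e : I d ≃ (Fin m ⊕ Fin m) := Fintype.equivOfCardEq (by simp [hsum, two_mul])
    obtain ⟨B, A, h1, -, h2, h3, h4⟩ := (real_of (ε := (-1 : F)) (by simp) Even
      (fun e ⟨k, hk⟩ => by rw [hk, ← two_mul]; exact Real.even k) _
      fun j hj => by rw [count_map]; exact h j (Nat.not_even_iff_odd.1 hj)).exists_mat e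
    obtain ⟨ψ, hψ⟩ := H09.exists_equiv_spB h1 (h2 rfl) (m := m) (by simp [two_mul])
    have h5 : ∀ x, LinearMap.toMatrix' (ψ.conj (toLin' A.1)) *ᵥ ψ x = ψ (A.1 *ᵥ x) := fun x => by
      rw [← toLin'_apply, toLin'_toMatrix']; simp [LinearEquiv.conj_apply]
    refine ⟨e, ⟨LinearMap.toMatrix' (ψ.conj (toLin' A.1)), H09.mem_sp_iff.2 fun x y => ?_⟩,
      h4.trans ((H24.Sim.isConj_iff_iso _ _).2 ⟨ψ, fun x => (h5 x).symm⟩)⟩
    obtain ⟨x, rfl⟩ := ψ.surjective x
    obtain ⟨y, rfl⟩ := ψ.surjective y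
    rw [h5, h5, hψ, hψ, h3]

end Cfsg.Agent.S2582
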