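import Cfsg.Statements.S2583
import Cfsg.Agent.H24.Jor3
-- import your own Cfsg.Agent.* helpers here

set_option autoImplicit false
open Cfsg

namespace Cfsg.Agent.S2583

open Matrix H24.Jor

/-- Which unipotent Jordan types occur in a finite orthogonal group in odd characteristic: over a finite field of odd order, a unipotent matrix with Jordan block sizes d_1, …, d_t (sum n, all at least 1) is similar to an isometry of some quadratic form on F^n with non-degenerate polar form if and only if every even block size occurs an even number of times. -/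
theorem result {F : Type*} [Field F] [Fintype F] (h2 : (2 : F) ≠ 0) {n t : ℕ} (d : Fin t → ℕ) (hd : ∀ k, 1 ≤ d k) (hsum : ∑ k, d k = n) : (∃ Q : QuadraticForm F (Fin n → F), (QuadraticMap.polarBilin Q).Nondegenerate ∧ ∃ e : ((k : Fin t) × Fin (d k)) ≃ Fin n, ∃ A : ↥(Cfsg.isometryGroup F ⇑Q), IsConj (Matrix.reindex e e (Cfsg.jordanTypeMatrix d F)) ((A : Matrix.GeneralLinearGroup (Fin n) F) : Matrix (Fin n) (Fin n) F)) ↔ ∀ j : ℕ, Even j → 0 < j → Even (Finset.univ.filter (fun k : Fin t => d k = j)).card := by
  classical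
  constructor
  · rintro ⟨Q, hQ, e, A, h⟩
    refine even_symm (A := toLin' A.1.1) hQ (fun x y => ?_) (fun j => ?_) h2 (QuadraticMap.polar_comm Q)
    · have hA : ∀ v, Q (A.1.1 *ᵥ v) = Q v := fun v => A.2 v v
      simp only [QuadraticMap.polarBilin_apply_apply, QuadraticMap.polar, toLin'_apply, ← mulVec_add, hA]
    · have := ((isConj_iff e).1 h).2 j
      rwa [toLin'_pow, map_sub, toLin'_one] at this
  · intro h
    let e : I d ≃ Fin n := Fintype.equivOfCardEq (by simp [hsum])
    obtain ⟨B, A, h1, h3, -, h4, h5⟩ := (real_of (ε := (1 : F)) (by simp) Odd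
      (fun e ⟨k, hk⟩ => by rw [hk]; exact Real.odd h2 k) _ fun j hj => by
        rw [count_map]
        rcases Nat.eq_zero_or_pos j with rfl | h0
        · rw [Finset.filter_false_of_mem fun k _ => Nat.pos_iff_ne_zero.1 (hd k)]; simp
        · exact h j (Nat.not_odd_iff_even.1 hj) h0).exists_mat e
    have h6 : ∀ x y, QuadraticMap.polarBilin B.toQuadraticMap x y = 2 * B x y := fun x y => by
      rw [QuadraticMap.polarBilin_apply_apply, LinearMap.BilinMap.polar_toQuadraticMap, h3 x y]; ring
    refine ⟨B.toQuadraticMap, ⟨fun x hx => h1.1 x fun y => ?_, fun x hx => h1.2 x fun y => ?_⟩, e,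
      ⟨A, fun u _ => h4 u u⟩, h5⟩
    · simpa [h6, h2] using (h6 x y).symm.trans (hx y)
    · simpa [h6, h2] using (h6 y x).symm.trans (hx y)

end Cfsg.Agent.S2583
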