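import Cfsg.Statements.S2585
import Cfsg.Agent.H09.Sp
-- import your own Cfsg.Agent.* helpers here

set_option autoImplicit false
open Cfsg

namespace Cfsg.Agent.S2585

open Matrix

/-- Over a finite field of characteristic two every element of the symplectic group is orthogonal for a suitable quadratic form: for each A in Sp_2m(F) there is a quadratic form Q on F^(2m) whose polar form is the alternating form defining Sp_2m(F) (so Q is non-degenerate) and which A preserves. Equivalently, for m ≥ 1, Sp_2m(F) is the union of the conjugates of its two orthogonal subgroups O⁺_2m(F) and O⁻_2m(F). -/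
theorem result {F : Type*} [Field F] [Fintype F] [CharP F 2] {m : ℕ} (A : Matrix.symplecticGroup (Fin m) F) : ∃ Q : QuadraticForm F (Fin m ⊕ Fin m → F), (∀ u v : Fin m ⊕ Fin m → F, QuadraticMap.polar ⇑Q u v = Cfsg.sympForm m F u v) ∧ ∀ v : Fin m ⊕ Fin m → F, Q ((A : Matrix (Fin m ⊕ Fin m) (Fin m ⊕ Fin m) F).mulVec v) = Q v := by
  classical
  let Q0 : QuadraticForm F (Fin m ⊕ Fin m → F) := ∑ i : Fin m, QuadraticMap.proj (Sum.inl i) (Sum.inr i)
  have h2 : (2 : F) = 0 := CharP.cast_eq_zero F 2
  have hQ : ∀ u v, Q0 (u + v) = Q0 u + Q0 v + H09.spB (Fin m) F u v := fun u v => by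
    simp only [Q0, QuadraticMap.sum_apply, QuadraticMap.proj_apply, H09.spB_apply', ← Finset.sum_add_distrib, Pi.add_apply]
    exact Finset.sum_congr rfl fun i _ => by linear_combination (u (Sum.inl i) * v (Sum.inr i)) * h2
  let φ := frobeniusEquiv F 2
  have hφ : ∀ x, φ x = x ^ 2 := fun x => rfl
  let lam : Module.Dual F (Fin m ⊕ Fin m → F) :=
    { toFun := fun v => φ.symm (Q0 (A.1 *ᵥ v) - Q0 v)
      map_add' := fun u v => by
        rw [← map_add, mulVec_add, hQ, hQ, H09.mem_sp_iff.1 A.2]; congr 1; ring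
      map_smul' := fun c v => φ.injective (by
        rw [RingHom.id_apply, smul_eq_mul, map_mul, φ.apply_symm_apply, φ.apply_symm_apply, mulVec_smul,
          QuadraticMap.map_smul, QuadraticMap.map_smul, hφ]; simp [pow_two, mul_sub]) }
  have hl : ∀ v, lam v ^ 2 = Q0 (A.1 *ᵥ v) - Q0 v := fun v => φ.apply_symm_apply _
  obtain ⟨μ, hμ⟩ : lam ∈ LinearMap.range (toLin' (A.1 - 1)).dualMap := by
    rw [LinearMap.range_dualMap_eq_dualAnnihilator_ker, Submodule.mem_dualAnnihilator]
    intro v hv
    rw [LinearMap.mem_ker, toLin'_apply, sub_mulVec, one_mulVec, sub_eq_zero] at hv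
    have := hl v
    rwa [hv, sub_self, sq_eq_zero_iff] at this
  refine ⟨Q0 + QuadraticMap.linMulLin μ μ, fun u v => ?_, fun v => ?_⟩
  · simp only [QuadraticMap.polar, QuadraticMap.add_apply, QuadraticMap.linMulLin_apply, hQ, map_add, H09.sympForm_eq]
    linear_combination (μ u * μ v) * h2
  · have h3 := LinearMap.congr_fun hμ v
    rw [LinearMap.dualMap_apply, toLin'_apply, sub_mulVec, one_mulVec, map_sub] at h3
    have h4 := hl v
    rw [← h3] at h4
    simp only [QuadraticMap.add_apply, QuadraticMap.linMulLin_apply]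
    linear_combination -h4 + (μ (A.1 *ᵥ v) ^ 2 - μ (A.1 *ᵥ v) * μ v) * h2

end Cfsg.Agent.S2585
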