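import Cfsg.Statements.S2584
import Cfsg.Agent.S2582
import Cfsg.Agent.S2585
-- import your own Cfsg.Agent.* helpers here

set_option autoImplicit false
open Cfsg

namespace Cfsg.Agent.S2584

open Matrix H24.Jor

/-- Which unipotent Jordan types occur in a finite orthogonal group in characteristic two: over a finite field of characteristic 2 and in even dimension 2m, a unipotent matrix with Jordan block sizes d_1, …, d_t (sum 2m, all at least 1) is similar to an isometry of some quadratic form on F^(2m) with non-degenerate polar form if and only if every odd block size occurs an even number of times (the same condition as for the symplectic group, which contains these orthogonal groups). -/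
theorem result {F : Type*} [Field F] [Fintype F] [CharP F 2] {m t : ℕ} (d : Fin t → ℕ) (hd : ∀ k, 1 ≤ d k) (hsum : ∑ k, d k = 2 * m) : (∃ Q : QuadraticForm F (Fin (2 * m) → F), (QuadraticMap.polarBilin Q).Nondegenerate ∧ ∃ e : ((k : Fin t) × Fin (d k)) ≃ Fin (2 * m), ∃ A : ↥(Cfsg.isometryGroup F ⇑Q), IsConj (Matrix.reindex e e (Cfsg.jordanTypeMatrix d F)) ((A : Matrix.GeneralLinearGroup (Fin (2 * m)) F) : Matrix (Fin (2 * m)) (Fin (2 * m)) F)) ↔ ∀ j : ℕ, Odd j → Even (Finset.univ.filter (fun k : Fin t => d k = j)).card := by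
  classical
  constructor
  · rintro ⟨Q, hQ, e, A, h⟩
    refine even_alt (A := toLin' A.1.1) hQ (fun x y => ?_) (fun j => ?_) fun x => ?_
    · have hA : ∀ v, Q (A.1.1 *ᵥ v) = Q v := fun v => A.2 v v
      simp only [QuadraticMap.polarBilin_apply_apply, QuadraticMap.polar, toLin'_apply, ← mulVec_add, hA]
    · have := ((isConj_iff e).1 h).2 j
      rwa [toLin'_pow, map_sub, toLin'_one] at this
    · rw [QuadraticMap.polarBilin_apply_apply, QuadraticMap.polar_self, two_nsmul, CharTwo.add_self_eq_zero]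
  · intro h
    obtain ⟨e, A, h1⟩ := (Cfsg.Agent.S2582.result (F := F) d hd hsum).2 h
    obtain ⟨Q, h2, h3⟩ := Cfsg.Agent.S2585.result A
    let e' : I d ≃ Fin (2 * m) := Fintype.equivOfCardEq (by simp [hsum])
    let ψ : (Fin m ⊕ Fin m → F) ≃ₗ[F] (Fin (2 * m) → F) := LinearEquiv.ofFinrankEq _ _ (by simp [two_mul])
    have h5 : ∀ x, LinearMap.toMatrix' (ψ.conj (toLin' A.1)) *ᵥ ψ x = ψ (A.1 *ᵥ x) := fun x => by
      rw [← toLin'_apply, toLin'_toMatrix']; simp [LinearEquiv.conj_apply]
    have h6 : IsConj (reindex e' e' (Cfsg.jordanTypeMatrix d F)) (LinearMap.toMatrix' (ψ.conj (toLin' A.1))) :=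
      (H24.Sim.isConj_iff_iso _ _).2 ((H24.Sim.iso_reindex e' _).symm.trans ((H24.Sim.iso_reindex e _).trans
        (((H24.Sim.isConj_iff_iso _ _).1 h1).trans ⟨ψ, fun x => (h5 x).symm⟩)))
    obtain ⟨g, hg⟩ := H24.Sim.isUnit_of_unip ((isConj_iff e').1 h6).1
    have h7 : ∀ x y, QuadraticMap.polarBilin (Q.comp ψ.symm.toLinearMap) x y =
        H09.spB (Fin m) F (ψ.symm x) (ψ.symm y) := fun x y => by
      rw [← H09.sympForm_eq, ← h2]; simp [QuadraticMap.polar]
    refine ⟨Q.comp ψ.symm.toLinearMap, ⟨fun x hx => ψ.symm.map_eq_zero_iff.1 (H09.spB_nondeg.1 _ fun y => ?_),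
      fun x hx => ψ.symm.map_eq_zero_iff.1 (H09.spB_nondeg.2 _ fun y => ?_)⟩, e', ⟨g, fun u _ => ?_⟩, hg ▸ h6⟩
    · simpa using (h7 x (ψ y)).symm.trans (hx _)
    · simpa using (h7 (ψ y) x).symm.trans (hx _)
    · obtain ⟨u, rfl⟩ := ψ.surjective u
      change Q (ψ.symm (g.1 *ᵥ ψ u)) = Q (ψ.symm (ψ u))
      rw [hg, h5, ψ.symm_apply_apply, ψ.symm_apply_apply, h3]

end Cfsg.Agent.S2584
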