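import Cfsg.Statements.S2590
import Cfsg.Agent.H24.Adj
-- import your own Cfsg.Agent.* helpers here

set_option autoImplicit false
open Cfsg

namespace Cfsg.Agent.S2590

/-- Two semisimple elements of odd order of a finite orthogonal group (isometry group of a quadratic form on F^n with non-degenerate polar form, F finite of characteristic p; the elements have odd order prime to p) are conjugate in the orthogonal group if and only if they are conjugate in GL_n(F). -/
theorem result {F : Type*} [Field F] [Fintype F] {p : ℕ} [Fact p.Prime] [CharP F p] {n : ℕ} (Q : QuadraticForm F (Fin n → F)) (hQ : (QuadraticMap.polarBilin Q).Nondegenerate) (A B : ↥(Cfsg.isometryGroup F ⇑Q)) (hodd : Odd (orderOf A)) (hA : (orderOf A).Coprime p) : IsConj A B ↔ IsConj ((A : Matrix.GeneralLinearGroup (Fin n) F) : Matrix (Fin n) (Fin n) F) ((B : Matrix.GeneralLinearGroup (Fin n) F) : Matrix (Fin n) (Fin n) F) := by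
  refine ⟨fun h => (Units.coeHom _).map_isConj ((Cfsg.isometryGroup F ⇑Q).subtype.map_isConj h), fun h => ?_⟩
  obtain ⟨k, hk⟩ := (H24.Sim.isConj_iff_iso _ _).1 h
  haveI := H10.Form.ofQuad_nondeg hQ
  refine (H24.Wall.isConj_equiv_iff (H10.isometryEquiv Q) _ _).1 (H24.Adj.isConj_odd (n := orderOf A) ?_ hodd ?_ k hk)
  · rw [ne_eq, CharP.cast_eq_zero_iff F p]; exact (Nat.Prime.coprime_iff_not_dvd Fact.out).1 hA.symm
  · rw [← map_pow, pow_orderOf_eq_one, map_one]

end Cfsg.Agent.S2590
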