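import Cfsg.Statements.S2591
import Cfsg.Agent.H24.Reg
-- import your own Cfsg.Agent.* helpers here

set_option autoImplicit false
open Cfsg

namespace Cfsg.Agent.S2591

open Module Matrix Polynomial H24.Reg

section
variable {F : Type*} [Field F] {l : Type*} [Fintype l] [DecidableEq l]

/-- the quadratic invariant -/
noncomputable def bt (u : symplecticGroup l F) (v : l ⊕ l → F) : F :=
  H09.spB l F v ((u.1 - (u⁻¹).1) ^ (Fintype.card (l ⊕ l) - 1) *ᵥ v)

theorem bt_conj {u u' : symplecticGroup l F} {g : Matrix (l ⊕ l) (l ⊕ l) F} (h : g * u.1 = u'.1 * g) (v : l ⊕ l → F) :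
    bt u' (g *ᵥ v) = H09.spB l F v ((st g * g * (u.1 - (u⁻¹).1) ^ (Fintype.card (l ⊕ l) - 1)) *ᵥ v) := by
  have h1 : g * (u⁻¹).1 = (u'⁻¹).1 * g := by
    have : (u'⁻¹).1 * (g * u.1) * (u⁻¹).1 = (u'⁻¹).1 * (u'.1 * g) * (u⁻¹).1 := by rw [h]
    rw [← Matrix.mul_assoc _ u'.1, H24.Reg.inv_mul, Matrix.one_mul, Matrix.mul_assoc, Matrix.mul_assoc,
      H24.Reg.mul_inv, Matrix.mul_one] at this
    exact this.symm
  have h2 : SemiconjBy g (u.1 - (u⁻¹).1) (u'.1 - (u'⁻¹).1) := SemiconjBy.sub_right h h1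
  rw [bt, B_st, mulVec_mulVec, mulVec_mulVec, Matrix.mul_assoc, ← (h2.pow_right _).eq, Matrix.mul_assoc]

theorem bt_val [Nonempty l] (h2 : (2 : F) ≠ 0) {u : symplecticGroup l F} (hnil : IsNilpotent (u.1 - 1))
    (hr : (u.1 - 1).rank + 1 = Fintype.card (l ⊕ l)) :
    ∃ b : F, b ≠ 0 ∧ ∀ x, (∃ v, bt u v = x) ↔ ∃ c, x = c ^ 2 * b := by
  obtain ⟨t, h1, -, -, -, h5, h6⟩ := exists_gen hnil hr h2
  have h7 : st t.1 = -t.1 := congrArg Subtype.val h1
  set T := t.1 ^ (Fintype.card (l ⊕ l) - 1) with hT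
  have ho : Odd (Fintype.card (l ⊕ l) - 1) := by
    have := Fintype.card_pos (α := l)
    rw [Fintype.card_sum]; exact ⟨Fintype.card l - 1, by omega⟩
  have h8 : ∀ v w, H09.spB l F v (T *ᵥ w) = H09.spB l F w (T *ᵥ v) := fun v w => by
    rw [← H09.spB_alt.neg_eq, B_st, hT, st_pow, h7, ho.neg_pow, neg_mulVec, map_neg, neg_neg]
  obtain ⟨⟨_, v0, rfl⟩, h9, h10⟩ := finrank_eq_one_iff'.1 h6
  have h11 : ∀ v, ∃ c : F, c • T *ᵥ v0 = T *ᵥ v := fun v => by
    obtain ⟨c, hc⟩ := h10 ⟨_, v, rfl⟩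
    exact ⟨c, congrArg Subtype.val hc⟩
  have h12 : ∀ v, bt u v = H09.spB l F v (T *ᵥ v) := fun v => by rw [bt, ← h5]
  refine ⟨bt u v0, fun h => h9 (Subtype.ext (H09.spB_nondeg.2 _ fun v => ?_)), fun x => ⟨?_, ?_⟩⟩
  · obtain ⟨c, hc⟩ := h11 v
    change H09.spB l F v (T *ᵥ v0) = 0
    rw [h8, ← hc, map_smul, ← h12, h, smul_zero]
  · rintro ⟨v, rfl⟩
    obtain ⟨c, hc⟩ := h11 v
    refine ⟨c, ?_⟩
    rw [h12, h12, ← hc, map_smul, h8, ← hc, map_smul]; simp [pow_two, mul_assoc]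
  · rintro ⟨c, rfl⟩
    refine ⟨c • v0, ?_⟩
    rw [h12, h12, mulVec_smul]; simp [pow_two, mul_assoc]

theorem sq_iff {b : F} (hb : b ≠ 0) : (∃ c : F, 1 = c ^ 2 * b) ↔ IsSquare b := by
  constructor
  · rintro ⟨c, hc⟩
    have : c ≠ 0 := by rintro rfl; simp at hc
    exact ⟨c⁻¹, by field_simp; linear_combination -hc⟩
  · rintro ⟨c, rfl⟩
    exact ⟨c⁻¹, by have := left_ne_zero_of_mul hb; field_simp⟩

theorem key [Finite F] [Nonempty l] (h2 : (2 : F) ≠ 0) {u u' : symplecticGroup l F} (hnil : IsNilpotent (u.1 - 1))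
    (hr : (u.1 - 1).rank + 1 = Fintype.card (l ⊕ l)) (hnil' : IsNilpotent (u'.1 - 1))
    (hr' : (u'.1 - 1).rank + 1 = Fintype.card (l ⊕ l)) {g : Matrix (l ⊕ l) (l ⊕ l) F} (h : g * u.1 = u'.1 * g) {a : F}
    (ha : a ≠ 0) (hb : ∀ v, bt u' (g *ᵥ v) = a * bt u v) :
    IsSquare a ↔ ((∃ v, bt u v = 1) ↔ ∃ v, bt u' v = 1) := by
  classical
  haveI := Fintype.ofFinite F
  obtain ⟨b, b0, hb1⟩ := bt_val h2 hnil hr
  obtain ⟨b', b0', hb1'⟩ := bt_val h2 hnil' hr'
  rw [hb1, hb1', sq_iff b0, sq_iff b0']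
  obtain ⟨v, hv⟩ := (hb1 b).2 ⟨1, by simp⟩
  obtain ⟨c, hc⟩ := (hb1' _).1 ⟨_, hb v⟩
  rw [hv] at hc
  have c0 : c ≠ 0 := by rintro rfl; simp [ha, b0] at hc
  have e := congrArg (quadraticChar F) hc
  rw [map_mul, map_mul, quadraticChar_sq_one' c0, one_mul] at e
  rw [← quadraticChar_one_iff_isSquare ha, ← quadraticChar_one_iff_isSquare b0, ← quadraticChar_one_iff_isSquare b0', ← e]
  rcases quadraticChar_dichotomy ha with e1 | e1 <;> rcases quadraticChar_dichotomy b0 with e2 | e2 <;> simp [e1, e2]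

end

/-- Over a finite field of odd order and for m ≥ 1, the regular unipotent elements of Sp_2m(F) (u − 1 nilpotent of rank 2m − 1, a single Jordan block) form exactly two conjugacy classes of Sp_2m(F) (one class under the similarity group, which splits in two). -/
theorem result {F : Type*} [Field F] [Fintype F] {q : ℕ} (hF : Fintype.card F = q) (hq : Odd q) {m : ℕ} (hm : 1 ≤ m) : Nat.card {C : ConjClasses ↥(Matrix.symplecticGroup (Fin m) F) // ∃ u : Matrix.symplecticGroup (Fin m) F, ConjClasses.mk u = C ∧ ((u : Matrix (Fin m ⊕ Fin m) (Fin m ⊕ Fin m) F) - 1) ^ (2 * m) = 0 ∧ ((u : Matrix (Fin m ⊕ Fin m) (Fin m ⊕ Fin m) F) - 1).rank = 2 * m - 1} = 2 := by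
  classical
  subst hF
  haveI : Nonempty (Fin m) := ⟨⟨0, hm⟩⟩
  have hc : Fintype.card (Fin m ⊕ Fin m) = 2 * m := by simp [two_mul]
  have h2 := H24.Diag.two_ne hq
  refine H24.Wall.card_classes_eq _ (fun u => if ∃ v, bt u v = 1 then 0 else 1) 2 (fun u u' hu hu' => ?_) fun k => ?_
  · have hnil : IsNilpotent (u.1 - 1) := ⟨_, hu.1⟩
    have hnil' : IsNilpotent (u'.1 - 1) := ⟨_, hu'.1⟩
    have hr : (u.1 - 1).rank + 1 = Fintype.card (Fin m ⊕ Fin m) := by have := hu.2; omega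
    have hr' : (u'.1 - 1).rank + 1 = Fintype.card (Fin m ⊕ Fin m) := by have := hu'.2; omega
    constructor
    · intro h
      obtain ⟨g, hg⟩ := isConj_iff.1 h
      have h3 : g.1 * u.1 = u'.1 * g.1 := congrArg Subtype.val (mul_inv_eq_iff_eq_mul.1 hg)
      have := (key h2 hnil hr hnil' hr' h3 one_ne_zero fun v => by
        rw [bt_conj h3, mem_sp_iff.1 g.2, Matrix.one_mul, one_mul, bt]).1 IsSquare.one
      simp only [this]
    · intro h
      obtain ⟨g, hg⟩ := (H24.Sim.isConj_iff_GL _ _).1 (H24.Sim.isConj_of_unip_rank hnil hnil' fun k => by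
        have := rank_pow hnil hr k; have := rank_pow hnil' hr' k; omega)
      have h3 : g.1 * u.1 = u'.1 * g.1 := by rw [← hg, Units.inv_mul_cancel_right]
      letI := cenRing hnil hr
      obtain ⟨t, h4, h5, h6, h7, h8, -⟩ := exists_gen hnil hr h2
      haveI : Nontrivial (Cen u) := nontrivial_of_ne _ _ h7
      have h9 : Commute (st g.1 * g.1) u.1 := by
        have e := congrArg st h3
        rw [st_mul, st_mul, st_sp, st_sp] at e
        change _ = _
        rw [Matrix.mul_assoc, h3, ← Matrix.mul_assoc, ← Matrix.mul_assoc, ← Matrix.one_mul (st g.1 * u'.1),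
          ← H24.Reg.mul_inv u, Matrix.mul_assoc u.1, ← Matrix.mul_assoc (u⁻¹).1, e, Matrix.mul_assoc (st g.1),
          H24.Reg.inv_mul, Matrix.mul_one]
      let s : Cen u := ⟨_, mem_Cen.2 h9⟩
      obtain ⟨a, y, hy⟩ := exists_loc h5 s
      have hsu : IsUnit s.1 := by
        refine IsUnit.mul (IsUnit.of_mul_eq_one (st (g⁻¹).1) ?_) g.isUnit
        rw [← st_mul, Units.inv_mul, st_one]
      have hty : IsNilpotent (t * y) := (Commute.all _ _).isNilpotent_mul_right ⟨_, h6⟩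
      have ha : a ≠ 0 := by
        rintro rfl
        rw [map_zero, zero_add] at hy
        exact hsu.not_isNilpotent (hy ▸ hty.map (Cen u).val)
      obtain ⟨c, rfl⟩ := (key h2 hnil hr hnil' hr' h3 ha fun v => by
        have e : s * t ^ (Fintype.card (Fin m ⊕ Fin m) - 1) = a • t ^ (Fintype.card (Fin m ⊕ Fin m) - 1) := by
          rw [hy, add_mul, Algebra.smul_def, mul_right_comm, ← pow_succ', Nat.sub_add_cancel (by omega), h6]; simp
        have e' : st g.1 * g.1 * t.1 ^ (Fintype.card (Fin m ⊕ Fin m) - 1) = a • t.1 ^ _ := congrArg Subtype.val e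
        rw [bt_conj h3, ← h8, e', smul_mulVec, map_smul, bt, h8, smul_eq_mul]).2 (by
          by_cases e1 : ∃ v, bt u v = 1 <;> by_cases e2 : ∃ v, bt u' v = 1 <;> simp [e1, e2] at h ⊢)
      obtain ⟨r, r1, r2⟩ := exists_sqrt (sig hnil hr) h2 (left_ne_zero_of_mul ha) (s := s)
        (Subtype.ext (by change st (st g.1 * g.1) = st g.1 * g.1; rw [st_mul, st_st])) (by
          rw [hy, pow_two, add_sub_cancel_left]; exact hty)
      obtain ⟨r', r3⟩ := (isUnit_of_mul_isUnit_left (r2 ▸ isUnit_of_nilp ha (by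
        rw [hy, add_sub_cancel_left]; exact hty) : IsUnit (r * r))).exists_right_inv
      have r4 := congrArg (sig hnil hr) r3
      rw [map_mul, r1, map_one] at r4
      have r5 : sig hnil hr r' * s * r' = 1 := by
        rw [← r2]; linear_combination (r * r') * r4 + r3
      refine isConj_iff.2 ⟨⟨g.1 * r'.1, mem_sp_iff.2 ?_⟩, mul_inv_eq_iff_eq_mul.2 (Subtype.ext ?_)⟩
      · have e : st r'.1 * (st g.1 * g.1) * r'.1 = 1 := congrArg Subtype.val r5
        rw [st_mul, ← e]; simp only [Matrix.mul_assoc]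
      · change g.1 * r'.1 * u.1 = u'.1 * (g.1 * r'.1)
        rw [Matrix.mul_assoc, (mem_Cen.1 r'.2).eq, ← Matrix.mul_assoc, h3, Matrix.mul_assoc]
  · refine ⟨?_, fun hk => ?_⟩
    · rintro ⟨u, -, rfl⟩; split_ifs <;> omega
    obtain ⟨u, hu⟩ := exists_reg F m
    obtain ⟨a, ha⟩ := FiniteField.exists_nonsquare (F := F) (by
      intro h; apply h2; have := ringChar.Nat.cast_ringChar (R := F); rw [h] at this; exact_mod_cast this)
    have a0 : a ≠ 0 := by rintro rfl; exact ha IsSquare.zero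
    let g : Matrix (Fin m ⊕ Fin m) (Fin m ⊕ Fin m) F := fromBlocks 1 0 0 (a • 1)
    let g' : Matrix (Fin m ⊕ Fin m) (Fin m ⊕ Fin m) F := fromBlocks 1 0 0 (a⁻¹ • 1)
    have g1 : g * g' = 1 := by simp [g, g', fromBlocks_multiply, smul_smul, a0]
    have g2 : g' * g = 1 := by simp [g, g', fromBlocks_multiply, smul_smul, a0]
    have g3 : st g = a • g' := by
      change -J _ F * gᵀ * J _ F = _
      simp [g, g', J, fromBlocks_multiply, fromBlocks_transpose, fromBlocks_neg, fromBlocks_smul, smul_smul, a0]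
    have g4 : st g' = a⁻¹ • g := by
      rw [← st_st g', ← one_smul F (st g'), ← inv_mul_cancel₀ a0, mul_smul, ← map_smul, ← g3, st_st, st_st]
    let u' : symplecticGroup (Fin m) F := ⟨g * u.1 * g', mem_sp_iff.2 (by
      rw [st_mul, st_mul, g3, g4, st_sp]
      simp only [Matrix.mul_assoc, Matrix.smul_mul, Matrix.mul_smul, smul_smul, mul_inv_cancel₀ a0, one_smul]
      rw [← Matrix.mul_assoc g', g2, Matrix.one_mul, ← Matrix.mul_assoc (u⁻¹).1, H24.Reg.inv_mul, Matrix.one_mul, g1])⟩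
    have h3 : g * u.1 = u'.1 * g := by
      change _ = g * u.1 * g' * g
      rw [Matrix.mul_assoc _ g', g2, Matrix.mul_one]
    have h4 : IsConj u.1 u'.1 := ⟨⟨g, g', g1, g2⟩, h3⟩
    have hu' : (u'.1 - 1) ^ (2 * m) = 0 ∧ (u'.1 - 1).rank = 2 * m - 1 := by
      refine ⟨?_, (H24.Sim.IsConj.rank_sub_one h4).symm.trans hu.2⟩
      rw [H24.Sim.sub_one_pow_eq_zero_iff, ← (H24.Sim.typ_eq_iff _ _).2 h4, ← H24.Sim.sub_one_pow_eq_zero_iff]
      exact hu.1
    have h5 := key h2 ⟨_, hu.1⟩ (by have := hu.2; omega) ⟨_, hu'.1⟩ (by have := hu'.2; omega) h3 a0 fun v => by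
      rw [bt_conj h3, g3, Matrix.smul_mul, g2, Matrix.smul_mul, Matrix.one_mul, smul_mulVec, map_smul, bt, smul_eq_mul]
    by_cases e1 : ∃ v, bt u v = 1 <;> by_cases e2 : ∃ v, bt u' v = 1 <;> simp only [e1, e2, ha] at h5
    · simp at h5
    · interval_cases k
      exacts [⟨u, hu, if_pos e1⟩, ⟨u', hu', if_neg e2⟩]
    · interval_cases k
      exacts [⟨u', hu', if_pos e2⟩, ⟨u, hu, if_neg e1⟩]
    · simp at h5

end Cfsg.Agent.S2591
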