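import Cfsg.Statements.S2592
import Cfsg.Agent.H24.Reg
-- import your own Cfsg.Agent.* helpers here

set_option autoImplicit false
open Cfsg

namespace Cfsg.Agent.S2592

open Module Matrix

/-- Over a finite field with q elements, q odd, the centraliser in Sp_2m(F) (m ≥ 1) of a regular unipotent element (u − 1 nilpotent of rank 2m − 1) has order 2 q^m. -/
theorem result {F : Type*} [Field F] [Fintype F] {q : ℕ} (hF : Fintype.card F = q) (hq : Odd q) {m : ℕ} (hm : 1 ≤ m) (u : Matrix.symplecticGroup (Fin m) F) (hnil : ((u : Matrix (Fin m ⊕ Fin m) (Fin m ⊕ Fin m) F) - 1) ^ (2 * m) = 0) (hreg : ((u : Matrix (Fin m ⊕ Fin m) (Fin m ⊕ Fin m) F) - 1).rank = 2 * m - 1) : Nat.card ↥(Subgroup.centralizer ({u} : Set ↥(Matrix.symplecticGroup (Fin m) F))) = 2 * q ^ m := by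
  classical
  subst hF
  have hc : Fintype.card (Fin m ⊕ Fin m) = 2 * m := by simp [two_mul]
  have hr : (u.1 - 1).rank + 1 = Fintype.card (Fin m ⊕ Fin m) := by omega
  have h2 := H24.Diag.two_ne hq
  letI := H24.Reg.cenRing ⟨_, hnil⟩ hr
  obtain ⟨t, h1, h3, h4, h5, -⟩ := H24.Reg.exists_gen ⟨_, hnil⟩ hr h2
  rw [hc] at h4 h5
  haveI : Nontrivial (H24.Reg.Cen u) := nontrivial_of_ne _ _ h5
  have e1 := H24.Reg.card_unitary h2 h1 h3 ⟨_, h4⟩
  rw [H24.Reg.card_skew h2 h1 h3 h4 h5, Nat.card_eq_fintype_card (α := F)] at e1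
  rw [← e1]
  refine Nat.card_congr
    { toFun := fun g => ⟨⟨g.1.1, H24.Reg.mem_Cen.2
        (congrArg Subtype.val (Subgroup.mem_centralizer_singleton_iff.1 g.2))⟩, Subtype.ext (H24.Reg.mem_sp_iff.1 g.1.2)⟩
      invFun := fun x => ⟨⟨x.1.1, H24.Reg.mem_sp_iff.2 (congrArg Subtype.val x.2)⟩,
        Subgroup.mem_centralizer_singleton_iff.2 (Subtype.ext (H24.Reg.mem_Cen.1 x.1.2).eq)⟩
      left_inv := fun _ => rfl
      right_inv := fun _ => rfl }

end Cfsg.Agent.S2592
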