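import Cfsg.Statements.S2594
import Cfsg.Agent.H24.Wall5
-- import your own Cfsg.Agent.* helpers here

set_option autoImplicit false
open Cfsg

namespace Cfsg.Agent.S2594

/-- Over a finite field with q elements, q even, an element t of Sp_2m(F) with rank(t − 1) = 1 (a symplectic transvection) has centraliser in Sp_2m(F) of order q^(2m−1) · |Sp_(2m−2)(q)| = q^(2m−1) · q^((m−1)²) · Π_(i=1)^(m−1) (q^(2i) − 1). -/
theorem result {F : Type*} [Field F] [Fintype F] [CharP F 2] {q : ℕ} (hF : Fintype.card F = q) {m : ℕ} (hm : 1 ≤ m) (t : Matrix.symplecticGroup (Fin m) F) (ht : ((t : Matrix (Fin m ⊕ Fin m) (Fin m ⊕ Fin m) F) - 1).rank = 1) : Nat.card ↥(Subgroup.centralizer ({t} : Set ↥(Matrix.symplecticGroup (Fin m) F))) = q ^ (2 * m - 1) * (q ^ ((m - 1) ^ 2) * ∏ i : Fin (m - 1), (q ^ (2 * ((i : ℕ) + 1)) - 1)) := by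
  have hr := (H24.Wall.rank_eq (g := H09.spIsomEquiv (Fin m) F t) (fun _ => rfl)).trans ht
  have hg : H09.spIsomEquiv (Fin m) F t * H09.spIsomEquiv (Fin m) F t = 1 := by
    rw [H24.Wall.mul_self_iff]
    intro u hu v hv
    obtain ⟨w, -, hw⟩ := finrank_eq_one_iff'.1 hr
    obtain ⟨a, ha⟩ := hw ⟨u, hu⟩
    obtain ⟨b, hb⟩ := hw ⟨v, hv⟩
    obtain rfl : a • w.1 = u := congrArg Subtype.val ha
    obtain rfl : b • w.1 = v := congrArg Subtype.val hb
    have : H09.spB (Fin m) F w w = 0 := H09.spB_alt _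
    simp [this]
  rw [H24.Wall.card_centralizer_congr (H09.spIsomEquiv (Fin m) F),
    H24.Wall.card_cent_sp H09.isAltF_spForm hg hr (m := m) (by simp; omega),
    H24.Wall.card_autChi_odd H09.isAltF_spForm.σ_eq hg (k := 0) hr, H24.Wall.spOrd_eq, H24.Wall.spOrd_eq,
    Nat.card_eq_fintype_card, hF]
  simp

end Cfsg.Agent.S2594
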