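import Mathlib
import Cfsg.Statements.S2599
import Cfsg.Agent.H09.QFacts

set_option autoImplicit false
open Cfsg

namespace Cfsg.Agent.S2599

/-- An irreducible invariant subspace of a semisimple isometry is non-degenerate or totally singular: let Q be a quadratic form on F^n (F finite of characteristic p) with non-degenerate polar form f, x an isometry of Q of order prime to p, and U a non-zero x-invariant subspace containing no x-invariant subspace other than 0 and U. Then U meets its f-orthogonal trivially, or Q vanishes on U, or p = 2, U is a line spanned by a non-singular vector and x fixes U pointwise. -/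
theorem result {F : Type*} [Field F] [Fintype F] {p : ℕ} [Fact p.Prime] [CharP F p] {n : ℕ} (Q : QuadraticForm F (Fin n → F)) (hQ : (QuadraticMap.polarBilin Q).Nondegenerate) (x : ↥(Cfsg.isometryGroup F ⇑Q)) (hx : (orderOf x).Coprime p) (U : Submodule F (Fin n → F)) (hU0 : U ≠ ⊥) (hUx : ∀ u ∈ U, ((x : Matrix.GeneralLinearGroup (Fin n) F) : Matrix (Fin n) (Fin n) F).mulVec u ∈ U) (hirr : ∀ W : Submodule F (Fin n → F), W ≤ U → (∀ w ∈ W, ((x : Matrix.GeneralLinearGroup (Fin n) F) : Matrix (Fin n) (Fin n) F).mulVec w ∈ W) → W = ⊥ ∨ W = U) : U ⊓ LinearMap.BilinForm.orthogonal (QuadraticMap.polarBilin Q) U = ⊥ ∨ (∀ u ∈ U, Q u = 0) ∨ (p = 2 ∧ Module.finrank F U = 1 ∧ (∃ u ∈ U, Q u ≠ 0) ∧ ∀ u ∈ U, ((x : Matrix.GeneralLinearGroup (Fin n) F) : Matrix (Fin n) (Fin n) F).mulVec u = u) := by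
  have := H10.Form.ofQuad_nondeg hQ
  have hq := H10.Form.isQuad_ofQuad Q
  set φ := H10.Form.ofQuad Q
  let g := H10.isometryEquiv Q x
  have h1 : g ∈ φ.stab U := φ.mem_stab_of_le hUx
  rcases hirr (U ⊓ φ.perp U) inf_le_left (fun w hw =>
    ⟨hUx w hw.1, (φ.stab_le_stab_perp U h1 w).1 hw.2⟩) with h | h
  · exact Or.inl h
  have h2 : ∀ a ∈ U, ∀ b ∈ U, φ.B a b = 0 := fun a ha b hb => (h.ge hb).2 a ha
  let W : Submodule F (Fin n → F) :=
    { carrier := {w | w ∈ U ∧ φ.Q w = 0}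
      zero_mem' := ⟨zero_mem _, φ.Q_zero⟩
      add_mem' := fun {a b} ha hb => ⟨add_mem ha.1 hb.1, by
        rw [hq.Q_add, ha.2, hb.2, h2 a ha.1 b hb.1]; simp⟩
      smul_mem' := fun c a ha => ⟨U.smul_mem c ha.1, φ.Q_smul_of_sing ha.2 c⟩ }
  rcases hirr W (fun _ h => h.1) (fun w hw => ⟨hUx w hw.1, (g.2.Q w).trans hw.2⟩) with h3 | h3
  swap
  · exact Or.inr (Or.inl fun u hu => (h3.ge hu).2)
  obtain ⟨u, hu, hu0⟩ := Submodule.exists_mem_ne_zero_of_ne_bot hU0
  have h4 : φ.Q u ≠ 0 := fun e => hu0 ((Submodule.eq_bot_iff _).1 h3 u ⟨hu, e⟩)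
  have h5 : (2 : F) = 0 := (mul_eq_zero.1 ((hq.B_self u).symm.trans (h2 u hu u hu))).resolve_right h4
  have h6 : ∀ v ∈ U, g.1 v = v := fun v hv => sub_eq_zero.1 ((Submodule.eq_bot_iff _).1 h3 _
    ⟨sub_mem (hUx v hv) hv, by
      rw [hq.Q_sub, h2 (g.1 v) (hUx v hv) v hv, show φ.Q (g.1 v) = φ.Q v from g.2.Q v]
      linear_combination φ.Q v * h5⟩)
  refine Or.inr (Or.inr ⟨(Nat.prime_dvd_prime_iff_eq Fact.out Nat.prime_two).1
    ((CharP.cast_eq_zero_iff F p 2).1 (by exact_mod_cast h5)), ?_, ⟨u, hu, h4⟩, h6⟩)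
  have h7 : (F ∙ u) ≤ U := (Submodule.span_singleton_le_iff_mem _ _).2 hu
  rw [← (hirr _ h7 fun w hw =>
    ((h6 w (h7 hw)).symm ▸ hw : g.1 w ∈ F ∙ u)).resolve_left (by simpa using hu0),
    finrank_span_singleton hu0]

end Cfsg.Agent.S2599
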