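import Mathlib
import Cfsg.Statements.S2600
import Cfsg.Agent.H09.AutSp4

set_option autoImplicit false
open Cfsg

namespace Cfsg.Agent.S2600

/-- Outer automorphism group of PSp_4(q) for q = 2^f even: it is cyclic of order 2f, generated by the class of the exceptional (graph-field) automorphism whose square is the Frobenius field automorphism. -/
theorem result {F : Type*} [Field F] [Fintype F] {f : ℕ} (hf : 1 ≤ f) (hF : Fintype.card F = 2 ^ f) : IsCyclic (Cfsg.Out (Cfsg.PSp 2 F)) ∧ Nat.card (Cfsg.Out (Cfsg.PSp 2 F)) = 2 * f := by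
  have := H09.charP_of_card hF
  have h := H09.spRep F (Fin 2)
  have hA : H09.IsAltF (H09.spForm (Fin 2) F) := H09.isAltF_spForm
  have h1 := H09.card_range_spAut (F := F) 2 le_rfl
  rw [H09.card_ringAut hF, Nat.card_eq_fintype_card (α := F), hF,
    Nat.Coprime.gcd_eq_one (by
      obtain ⟨k, rfl⟩ : ∃ k, f = k + 1 := ⟨f - 1, by omega⟩
      have : 0 < 2 ^ k := by positivity
      rw [Nat.coprime_two_left]; exact ⟨2 ^ k - 1, by omega⟩), one_mul] at h1
  refine ⟨?_, h.card_out_eq hA.tComp (by simp) (by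
    rw [← (H09.spAut F 2).range.index_mul_card, H09.Sp4.index_range_spAut, h1, mul_assoc])⟩
  let t : Cfsg.Out (Cfsg.PSp 2 F) := QuotientGroup.mk H09.Sp4.graph
  have h2 : ∀ σ : RingAut F, σ ∈ Subgroup.zpowers (frobeniusEquiv F 2 : RingAut F) := by
    intro σ
    let _ : Algebra (ZMod 2) F := ZMod.algebra F 2
    obtain ⟨k, hk⟩ := (FiniteField.bijective_frobeniusAlgEquivOfAlgebraic_pow (ZMod 2) F).2
      (AlgEquiv.ofRingEquiv (f := σ) fun x => by
        rcases (show x = 0 ∨ x = 1 by revert x; decide) with rfl | rfl <;> simp)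
    refine ⟨(k.1 : ℕ), RingEquiv.ext fun x => ?_⟩
    have := DFunLike.congr_fun hk x
    simp only [AlgEquiv.coe_pow, FiniteField.coe_frobeniusAlgEquivOfAlgebraic] at this
    change (_ ^ ((k.1 : ℕ) : ℤ) : RingAut F) x = _
    rw [zpow_natCast, RingAut.coe_pow]
    simpa [iterate_frobenius] using this
  have h3 : ∀ γ, h.pout hA.tComp γ ∈ Subgroup.zpowers t := by
    intro γ
    obtain ⟨k, hk⟩ := h2 (H09.Gam.fld γ)
    obtain ⟨a, ha⟩ := FiniteField.isSquare_of_char_two (ringChar.eq F 2)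
      (H09.Gam.mult (γ * (H09.Gam.fieldHom H09.spStd (frobeniusEquiv F 2) ^ k)⁻¹))
    obtain ⟨g, h0, hg⟩ := H09.Gam.exists_eq_mul_scal (a := a) (by
      rw [map_mul, map_inv, map_zpow, ← hk, H09.Gam.fld_fieldHom, mul_inv_cancel]) ha
    rw [mul_inv_eq_iff_eq_mul.1 hg, map_mul, map_mul, h.pout_scal,
      h.pout_ofIsom _ (hA.E_eq_top ▸ Subgroup.mem_top g), one_mul, one_mul, map_zpow]
    refine zpow_mem ?_ k
    have : t * t = h.pout hA.tComp (H09.Gam.fieldHom H09.spStd (frobeniusEquiv F 2)) :=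
      congrArg QuotientGroup.mk (H09.Sp4.graph_mul_graph (F := F))
    exact this ▸ mul_mem (Subgroup.mem_zpowers t) (Subgroup.mem_zpowers t)
  refine ⟨⟨t, fun x => ?_⟩⟩
  obtain ⟨x, rfl⟩ := QuotientGroup.mk_surjective x
  by_cases hx : x ∈ (H09.spAut F 2).range
  · obtain ⟨γ, rfl⟩ := hx; exact h3 γ
  · obtain ⟨γ, hγ⟩ := H09.Sp4.inv_mul_mem H09.Sp4.graph_not_mem hx
    rw [← mul_inv_cancel_left H09.Sp4.graph x, ← hγ]
    exact mul_mem (Subgroup.mem_zpowers t) (h3 γ)

end Cfsg.Agent.S2600
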