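import Mathlib
import Cfsg.Statements.S2603
import Cfsg.Agent.H09.AutForm7

set_option autoImplicit false
open Cfsg

namespace Cfsg.Agent.S2603

/-- Structure of the outer automorphism group of PSU_n(q), n ≥ 3, (n, q) ≠ (3, 2), q = p^f, realised over the field with q² elements: it has a normal cyclic subgroup of order gcd(n, q + 1) (diagonal automorphisms) with cyclic quotient of order 2f (generated by the Frobenius field automorphism of the field with q² elements, whose f-th power is the graph automorphism). -/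
theorem result {K : Type*} [Field K] [Fintype K] {p f q n : ℕ} [Fact p.Prime] (hf : 1 ≤ f) (hq : q = p ^ f) (hK : Fintype.card K = q ^ 2) (hn : 3 ≤ n) (h32 : ¬ (n = 3 ∧ q = 2)) : ∃ φ : Cfsg.Out (Cfsg.PSU n K q) →* Multiplicative (ZMod (2 * f)), Function.Surjective φ ∧ IsCyclic φ.ker ∧ Nat.card φ.ker = Nat.gcd n (q + 1) := by
  have hK' : Fintype.card K = p ^ (2 * f) := by rw [hK, hq, ← pow_mul, mul_comm]
  obtain ⟨e⟩ := H09.nonempty_ringAut_equiv hK'
  have h1 := H09.card_ringAut hK'
  rw [← Nat.card_eq_fintype_card] at hK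
  have h := H09.suRep hK hn
  have hU := H10.stdU_isUnitary hK n
  have hT := H09.hermT hU.herm
  have h3 : 3 ≤ Module.finrank K (Fin n → K) := by simpa using hn
  have hs := H09.suAut_surjective hK hn h32
  obtain ⟨π, hπ⟩ := h.exists_outFld hT h3 hs
  have hπs : Function.Surjective π := fun σ => ⟨_, hπ (H09.Gam.fieldHom (H09.suStd hK n) σ)⟩
  have hk : (e.toMonoidHom.comp π).ker = π.ker := by ext x; simp
  refine ⟨e.toMonoidHom.comp π, e.surjective.comp hπs, ?_, ?_⟩
  · let j := (h.pout hT).comp H09.Gam.ofIsom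
    have hj : (H10.stdU hK n).det.ker ≤ j.ker := fun g hg =>
      h.pout_ofIsom hT (by rw [hU.E_eq_SIsom h3]; exact hg)
    have : IsCyclic ((H10.stdU hK n).Isom ⧸ (H10.stdU hK n).det.ker) :=
      isCyclic_of_surjective _ (QuotientGroup.quotientKerEquivRange _).symm.surjective
    have h4 : π.ker = (QuotientGroup.lift _ j hj).range := by
      ext x
      obtain ⟨γ, rfl⟩ := h.pout_surjective hT hs x
      rw [MonoidHom.mem_ker, hπ]
      constructor
      · intro h5
        obtain ⟨g, hg⟩ := H09.su_exists_mult_one hK hn γ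
        rw [h5, map_one, mul_one] at hg
        exact ⟨QuotientGroup.mk g, congrArg QuotientGroup.mk hg.symm⟩
      · rintro ⟨g, hg⟩
        obtain ⟨g, rfl⟩ := QuotientGroup.mk_surjective g
        rw [← hπ, ← hg]; exact hπ _
    rw [hk, h4]
    exact isCyclic_of_surjective _ (MonoidHom.rangeRestrict_surjective _)
  · have := h.finite
    have h5 := H09.card_mulAut_eq (h.center_quot_eq_bot hT h3)
    rw [H09.card_of_surjective hs, H09.card_range_suAut, H09.card_eq_of_surjective π hπs,
      mul_assoc] at h5
    rw [hk]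
    exact (Nat.eq_of_mul_eq_mul_right Nat.card_pos
      (Nat.eq_of_mul_eq_mul_left (h1 ▸ by omega) h5)).symm

end Cfsg.Agent.S2603
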