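import Mathlib
import Cfsg.Statements.S2605
import Cfsg.Agent.H09.AutForm8
import Cfsg.Agent.S0818

set_option autoImplicit false
open Cfsg

namespace Cfsg.Agent.S2605

/-- Outer automorphism group of PΩ⁻_2m(q), m ≥ 4, q = 2^f: cyclic of order 2f, generated by a semilinear map inducing the Frobenius automorphism of the field (its f-th power is a graph automorphism, an orthogonal transvection). -/
theorem result {F : Type*} [Field F] [Fintype F] {f m : ℕ} (hf : 1 ≤ f) (hF : Fintype.card F = 2 ^ f) (hm : 4 ≤ m) (a b : F) (hab : ∀ z₁ z₂ : F, z₁ ^ 2 + a * z₁ * z₂ + b * z₂ ^ 2 = 0 → z₁ = 0 ∧ z₂ = 0) : IsCyclic (Cfsg.Out (Cfsg.POmega F (Cfsg.quadFormMinus (m - 1) F a b))) ∧ Nat.card (Cfsg.Out (Cfsg.POmega F (Cfsg.quadFormMinus (m - 1) F a b))) = 2 * f := by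
  have hc := S0818.result 2 f hf hF m hm a b hab
  rw [if_pos rfl] at hc
  obtain ⟨k, rfl⟩ : ∃ k, m = k + 1 := ⟨m - 1, by omega⟩
  have := H10.qMinus_nondeg (m := k) (H10.disc_ne_zero_of_aniso hab)
  have h5 : 5 ≤ Fintype.card ((Fin k ⊕ Fin k) ⊕ Fin 2) := by simp; omega
  have h5' : 5 ≤ Module.finrank F ((Fin k ⊕ Fin k) ⊕ Fin 2 → F) := by simpa using h5
  have h := H09.omRep (H10.qMinus k F a b) h5
  have hQ := H10.Form.isQuad_ofQuad (H10.qMinus k F a b)
  have hs := H09.omAut_surjective (H10.qMinus k F a b) h5 (by simp; omega) fun h8 => by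
    obtain rfl : k = 3 := by simp at h8; omega
    exact H10.qMinus_not_hasTS (H10.disc_ne_zero_of_aniso hab) hab
  refine ⟨?_, h.card_out_eq (H09.quadT hQ) (by omega) hc⟩
  have := H09.charP_of_card hF
  obtain ⟨τ, h1, h2⟩ := H09.exists_generator_ringAut hF
  obtain ⟨x, n, rfl, h4, h6, h7⟩ := H09.qMinus_exists_frob (m := k) hab τ
  obtain ⟨y, h8, -, h9⟩ := h.exists_pow_eq_oo hQ h5' h4 h7
  exact h.isCyclic_out hQ h5' CharTwo.two_eq_zero hs h6 (h8 ▸ h1) h9

end Cfsg.Agent.S2605
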