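import Mathlib
import Cfsg.Statements.S2606
import Cfsg.Agent.H09.AutForm8
import Cfsg.Agent.S0818

set_option autoImplicit false
open Cfsg

namespace Cfsg.Agent.S2606

/-- Outer automorphism group of PΩ⁻_2m(q), m ≥ 4, q = p^f odd: it is dihedral of order 8 times cyclic of order f when q ≡ 3 (mod 4) and m is odd, and otherwise the direct product of a group of order 2 with a cyclic group of order 2f. -/
theorem result {F : Type*} [Field F] [Fintype F] {p f m : ℕ} [Fact p.Prime] (hf : 1 ≤ f) (hF : Fintype.card F = p ^ f) (hp : p ≠ 2) (hm : 4 ≤ m) (a b : F) (hab : ∀ z₁ z₂ : F, z₁ ^ 2 + a * z₁ * z₂ + b * z₂ ^ 2 = 0 → z₁ = 0 ∧ z₂ = 0) : if p ^ f % 4 = 3 ∧ Odd m then Nonempty (Cfsg.Out (Cfsg.POmega F (Cfsg.quadFormMinus (m - 1) F a b)) ≃* DihedralGroup 4 × Multiplicative (ZMod f)) else Nonempty (Cfsg.Out (Cfsg.POmega F (Cfsg.quadFormMinus (m - 1) F a b)) ≃* Multiplicative (ZMod 2 × ZMod (2 * f))) := by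
  have hodd := (Fact.out : p.Prime).odd_of_ne_two hp
  have hc := S0818.result p f hf hF m hm a b hab
  have hmod := H09.pow_mod_four (q := p ^ f) hodd.pow m
  have hiff := H09.pow_mod_four_eq_three (q := p ^ f) hodd.pow m
  have h2 := H10.two_ne_zero_of_odd_card (F := F) (hF ▸ hodd.pow)
  have hchi := H10.chi_neg_one_pow h2 m
  rw [Nat.card_eq_fintype_card, hF] at hchi
  rw [if_neg hp] at hc
  obtain ⟨k, rfl⟩ : ∃ k, m = k + 1 := ⟨m - 1, by omega⟩
  have := H10.qMinus_nondeg (m := k) (H10.disc_ne_zero_of_aniso hab)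
  have h5 : 5 ≤ Fintype.card ((Fin k ⊕ Fin k) ⊕ Fin 2) := by simp; omega
  have h5' : 5 ≤ Module.finrank F ((Fin k ⊕ Fin k) ⊕ Fin 2 → F) := by simpa using h5
  have hn : Fintype.card ((Fin k ⊕ Fin k) ⊕ Fin 2) = 2 * (k + 1) := by simp; ring
  have h := H09.omRep (H10.qMinus k F a b) h5
  have hQ := H10.Form.isQuad_ofQuad (H10.qMinus k F a b)
  have h0 := H10.qMinus_not_hasTS (m := k) (H10.disc_ne_zero_of_aniso hab) hab
  have hs := H09.omAut_surjective (H10.qMinus k F a b) h5 (by simp; omega) fun h8 => by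
    obtain rfl : k = 3 := by simp at h8; omega
    exact h0
  obtain ⟨τ, h1, h3⟩ := H09.exists_generator_ringAut hF
  obtain ⟨x, n, rfl, h4, h6, h7⟩ := H09.qMinus_exists_frob (m := k) hab τ
  obtain ⟨y, h8, h9, h10⟩ := h.exists_pow_eq_oo hQ h5' h4 h7
  rw [h3] at h10
  split_ifs with hcase
  · rw [if_neg (fun e => by rw [if_pos e, hiff.2 hcase] at hmod; omega)] at hc
    exact h.out_d8_odd hQ h2 h5' hn hs ((H09.pow_mod_four_eq_three hodd f).1 hcase.1).2 (h8 ▸ h1)
      (by rw [h8, ← h3, pow_orderOf_eq_one]) h9 h10 (h.card_out_eq (H09.quadT hQ) (by omega) hc)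
  · have h11 := hiff.not.2 hcase
    rw [if_pos (by by_contra e; rw [if_neg e] at hmod; omega)] at hc
    have hd := hQ.disc_of_not_hasTS h2 (by simpa using hn) h0
    rw [(hchi.resolve_right fun e => h11 e.2).1] at hd
    exact h.out_two_two_mul hQ h2 h5' hn hd hs h6 (by omega) (h8 ▸ h1) h10
      (h.card_out_eq (H09.quadT hQ) (by omega) hc)

end Cfsg.Agent.S2606
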