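import Mathlib
import Cfsg.Statements.S2607
import Cfsg.Agent.H09.AutTri
import Cfsg.Agent.S0817

set_option autoImplicit false
open Cfsg

namespace Cfsg.Agent.S2607

/-- Outer automorphism group of PΩ⁺_2m(q), q = 2^f: for m ≥ 5 it is the direct product of a group of order 2 (graph automorphism, an orthogonal transvection) and a cyclic group of order f (field automorphisms); for m = 4 triality enlarges it to S_3 × C_f. -/
theorem result {F : Type*} [Field F] [Fintype F] {f m : ℕ} (hf : 1 ≤ f) (hF : Fintype.card F = 2 ^ f) (hm : 4 ≤ m) : if m = 4 then Nonempty (Cfsg.Out (Cfsg.POmega F (Cfsg.quadFormPlus m F)) ≃* Equiv.Perm (Fin 3) × Multiplicative (ZMod f)) else Nonempty (Cfsg.Out (Cfsg.POmega F (Cfsg.quadFormPlus m F)) ≃* Multiplicative (ZMod 2 × ZMod f)) := by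
  have hc := S0817.result 2 f hf hF m hm
  have := H09.charP_of_card hF
  have h2 : (2 : F) = 0 := CharTwo.two_eq_zero
  have h5 : 5 ≤ Fintype.card (Fin m ⊕ Fin m) := by simp; omega
  have h5' : 5 ≤ Module.finrank F (Fin m ⊕ Fin m → F) := by simpa using h5
  have : Nonempty (Fin m ⊕ Fin m) := ⟨.inl ⟨0, by omega⟩⟩
  have h := H09.omRep (H10.qPlus m F) h5
  have hQ := H10.Form.isQuad_ofQuad (H10.qPlus m F)
  obtain ⟨τ, h0, h3⟩ := H09.exists_generator_ringAut hF
  have h1 : ∀ σ, σ ∈ Subgroup.zpowers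
    (H09.Gam.fld (H09.Gam.fieldHom (H09.qPlus_std (m := m)) τ)) := h0
  have h4 : H09.Gam.fieldHom (H09.qPlus_std (m := m)) τ ^ f = 1 := by
    rw [← map_pow, ← h3, pow_orderOf_eq_one, map_one]
  split_ifs with hm4
  · subst hm4
    exact h.out_s3 hQ (by simp) (H09.octo F) (by omega) h1 (H09.Gam.mult_fieldHom _ _) h4
      (H09.octo_fieldHom τ) h2 (h.card_out_eq (H09.quadT hQ) (by omega) hc)
  · rw [if_neg hm4, if_pos rfl, one_mul] at hc
    exact h.out_two_cyc hQ h5' h2 (H09.omAut_surjective (H10.qPlus m F) h5 (by simp; omega)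
      fun e => by simp at e; omega) (by omega) h1 h4 (h.card_out_eq (H09.quadT hQ) (by omega) hc)

end Cfsg.Agent.S2607
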