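import Mathlib
import Cfsg.Statements.S2608
import Cfsg.Agent.H09.AutTri
import Cfsg.Agent.S0817

set_option autoImplicit false
open Cfsg

namespace Cfsg.Agent.S2608

/-- Outer automorphism group of PΩ⁺_2m(q), q = p^f odd: for m = 4 it is S_4 × C_f (triality); for m ≥ 5 it is C_2 × C_2 × C_f when q ≡ 3 (mod 4) and m is odd, and D_8 × C_f otherwise. -/
theorem result {F : Type*} [Field F] [Fintype F] {p f m : ℕ} [Fact p.Prime] (hf : 1 ≤ f) (hF : Fintype.card F = p ^ f) (hp : p ≠ 2) (hm : 4 ≤ m) : if m = 4 then Nonempty (Cfsg.Out (Cfsg.POmega F (Cfsg.quadFormPlus m F)) ≃* Equiv.Perm (Fin 4) × Multiplicative (ZMod f)) else if p ^ f % 4 = 3 ∧ Odd m then Nonempty (Cfsg.Out (Cfsg.POmega F (Cfsg.quadFormPlus m F)) ≃* Multiplicative (ZMod 2 × ZMod 2 × ZMod f)) else Nonempty (Cfsg.Out (Cfsg.POmega F (Cfsg.quadFormPlus m F)) ≃* DihedralGroup 4 × Multiplicative (ZMod f)) := by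
  have hodd := (Fact.out : p.Prime).odd_of_ne_two hp
  have hc := S0817.result p f hf hF m hm
  have hmod := H09.pow_mod_four (q := p ^ f) hodd.pow m
  have hiff := H09.pow_mod_four_eq_three (q := p ^ f) hodd.pow m
  have h2 := H10.two_ne_zero_of_odd_card (F := F) (hF ▸ hodd.pow)
  have hchi := H10.chi_neg_one_pow h2 m
  rw [Nat.card_eq_fintype_card, hF] at hchi
  rw [if_neg hp] at hc
  have h5 : 5 ≤ Fintype.card (Fin m ⊕ Fin m) := by simp; omega
  have h5' : 5 ≤ Module.finrank F (Fin m ⊕ Fin m → F) := by simpa using h5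
  have hn : Fintype.card (Fin m ⊕ Fin m) = 2 * m := by simp; ring
  have : Nonempty (Fin m ⊕ Fin m) := ⟨.inl ⟨0, by omega⟩⟩
  have h := H09.omRep (H10.qPlus m F) h5
  have hQ := H10.Form.isQuad_ofQuad (H10.qPlus m F)
  obtain ⟨τ, h0, h3⟩ := H09.exists_generator_ringAut hF
  have h1 : ∀ σ, σ ∈ Subgroup.zpowers
    (H09.Gam.fld (H09.Gam.fieldHom (H09.qPlus_std (m := m)) τ)) := h0
  have h4 : H09.Gam.fieldHom (H09.qPlus_std (m := m)) τ ^ f = 1 := by
    rw [← map_pow, ← h3, pow_orderOf_eq_one, map_one]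
  by_cases hm4 : m = 4
  · subst hm4
    rw [if_pos rfl, if_pos ⟨p ^ f - 1, by omega⟩] at hc
    rw [if_pos rfl]
    exact h.out_s4 hQ (by simp) (H09.octo F) (by omega) h1 (H09.Gam.mult_fieldHom _ _) h4
      (H09.octo_fieldHom τ) h2 (h.card_out_eq (H09.quadT hQ) (by omega) hc)
  have hs := H09.omAut_surjective (H10.qPlus m F) h5 (by simp; omega) fun e => by simp at e; omega
  rw [if_neg hm4, one_mul] at hc
  rw [if_neg hm4]
  split_ifs with hcase
  · rw [if_neg (fun e => by rw [if_pos e, hiff.2 hcase] at hmod; omega)] at hc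
    have hd := (hQ.hasTS_iff_disc h2 (by simpa using hn)).1 H10.qPlus_hasTS
    rw [(hchi.resolve_left fun e => by have := hiff.2 hcase; omega).1] at hd
    exact h.out_two_two hQ h2 h5' hn hd hs (by omega) h1 (H09.Gam.mult_fieldHom _ _) h4
      (h.card_out_eq (H09.quadT hQ) (by omega) hc)
  · have h11 := hiff.not.2 hcase
    rw [if_pos (by by_contra e; rw [if_neg e] at hmod; omega)] at hc
    exact h.out_d8 hQ h2 h5' hn hs (by omega) h1 (H09.Gam.mult_fieldHom _ _)
      (by rw [← map_pow, h4, map_one]) (h.card_out_eq (H09.quadT hQ) (by omega) hc)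

end Cfsg.Agent.S2608
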