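import Mathlib
import Cfsg.Statements.S2609
import Cfsg.Agent.H09.QFacts

set_option autoImplicit false
open Cfsg

namespace Cfsg.Agent.S2609

/-- Spinor norm criterion for Ω over a finite field of odd order: let Q be a quadratic form on F^n, n ≥ 2, with non-degenerate polar form, and let g be an isometry written as a product of reflections in non-singular vectors v_1, …, v_k. Then g lies in Ω (the commutator subgroup of the orthogonal group) if and only if k is even and Q(v_1)⋯Q(v_k) is a square; in particular, for g of determinant one, whether that product is a square does not depend on the chosen factorisation (it is the spinor norm of g). -/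
theorem result {F : Type*} [Field F] [Fintype F] (h2 : (2 : F) ≠ 0) {n : ℕ} (hn : 2 ≤ n) (Q : QuadraticForm F (Fin n → F)) (hQ : (QuadraticMap.polarBilin Q).Nondegenerate) (g : ↥(Cfsg.isometryGroup F ⇑Q)) (vs : List (Fin n → F)) (hvs : ∀ v ∈ vs, Q v ≠ 0) (hg : ((g : Matrix.GeneralLinearGroup (Fin n) F) : Matrix (Fin n) (Fin n) F) = (vs.map (fun v => Cfsg.reflectionMatrix ⇑Q v)).prod) : g ∈ Cfsg.Omega F ⇑Q ↔ (Even vs.length ∧ IsSquare (vs.map (fun v => Q v)).prod) := by
  have := H10.Form.ofQuad_nondeg hQ
  have hq := H10.Form.isQuad_ofQuad Q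
  have hd := hq.good_of_two_ne_zero h2
  have h1 : H10.isometryEquiv Q g = (vs.map (H10.Form.ofQuad Q).refl).prod :=
    H10.Form.Isom.ext fun x => by
      rw [H10.isometryEquiv_apply, hg]
      clear hg hvs
      induction vs with
      | nil => simp
      | cons a l ih =>
        rw [List.map_cons, List.map_cons, List.prod_cons, List.prod_cons, ← Matrix.mulVec_mulVec, ih,
          H10.Form.Isom.mul_apply, H09.refl_eq_mulVec]
  rw [← H10.mem_commutator_equiv (H10.isometryEquiv Q), H09.mem_commutator_iff' hq hd, h1,
    H09.dickson_list hq hd vs hvs, H09.spinor_list hq hd vs hvs, H10.chi_eq_one_iff,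
    neg_one_pow_eq_one_iff_even (by decide)]
  rfl

end Cfsg.Agent.S2609
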