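import Mathlib
import Cfsg.Statements.S2612
import Cfsg.Agent.H09.QFacts

set_option autoImplicit false
open Cfsg

namespace Cfsg.Agent.S2612

/-- For the hyperbolic quadratic form Σ x_i y_i on F^(2m) (F finite, m ≥ 1, excluding m = 2 over the field of two elements), Ω⁺_2m(F) (the commutator subgroup of the orthogonal group) contains an element interchanging the two complementary maximal totally singular subspaces {y = 0} and {x = 0} if and only if m is even (dimension divisible by 4). -/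
theorem result {F : Type*} [Field F] [Fintype F] {m : ℕ} (hm : 1 ≤ m) (h : Fintype.card F ≠ 2 ∨ m ≠ 2) : (∃ g : ↥(Cfsg.isometryGroup F (Cfsg.quadFormPlus m F)), g ∈ Cfsg.Omega F (Cfsg.quadFormPlus m F) ∧ (∀ v : Fin m ⊕ Fin m → F, (∀ i, v (Sum.inr i) = 0) → ∀ i, (((g : Matrix.GeneralLinearGroup (Fin m ⊕ Fin m) F) : Matrix (Fin m ⊕ Fin m) (Fin m ⊕ Fin m) F).mulVec v) (Sum.inl i) = 0) ∧ (∀ v : Fin m ⊕ Fin m → F, (∀ i, v (Sum.inl i) = 0) → ∀ i, (((g : Matrix.GeneralLinearGroup (Fin m ⊕ Fin m) F) : Matrix (Fin m ⊕ Fin m) (Fin m ⊕ Fin m) F).mulVec v) (Sum.inr i) = 0)) ↔ Even m := by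
  have hq := H10.Form.isQuad_ofQuad (H10.qPlus m F)
  have hd := H09.good_of_or hq (h.imp id fun h => by simp; omega)
  have hn : Module.finrank F (Fin m ⊕ Fin m → F) = 2 * m := by simp; ring
  refine (H09.exists_omega_iff (H10.qPlus m F) (fun A => (∀ v : Fin m ⊕ Fin m → F,
    (∀ i, v (Sum.inr i) = 0) → ∀ i, A.mulVec v (Sum.inl i) = 0) ∧ ∀ v : Fin m ⊕ Fin m → F,
    (∀ i, v (Sum.inl i) = 0) → ∀ i, A.mulVec v (Sum.inr i) = 0) (fun k => (∀ v : Fin m ⊕ Fin m → F,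
    (∀ i, v (Sum.inr i) = 0) → ∀ i, k.1 v (Sum.inl i) = 0) ∧ ∀ v : Fin m ⊕ Fin m → F,
    (∀ i, v (Sum.inl i) = 0) → ∀ i, k.1 v (Sum.inr i) = 0) fun _ => Iff.rfl).trans ?_
  have key : ∀ k : (H10.Form.ofQuad (H10.qPlus m F)).Isom, (∀ v : Fin m ⊕ Fin m → F,
      (∀ i, v (Sum.inr i) = 0) → ∀ i, k.1 v (Sum.inl i) = 0) →
      ((H10.Form.ofQuad (H10.qPlus m F)).dickson k = 1 ↔ Even m) := fun k hk => by
    rw [hq.dickson_eq_one_iff_fam hd hn H09.ts_stdTS H09.finrank_stdTS,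
      show H09.stdTS F m ⊓ _ = ⊥ from eq_bot_iff.2 ?_, finrank_bot, zero_add]
    rintro _ ⟨h1, v, h2, rfl⟩
    ext (i | i)
    exacts [hk v (H09.mem_stdTS.1 h2) i, H09.mem_stdTS.1 h1 i]
  refine ⟨fun ⟨k, h1, h2, _⟩ => (key k h2).1 ((H09.mem_commutator_iff' hq hd).1 h1).1, fun he => ?_⟩
  let s : (H10.Form.ofQuad (H10.qPlus m F)).Isom :=
    ⟨LinearEquiv.funCongrLeft F F (Equiv.sumComm _ _), H10.Form.ofQuad_isIsom
      (g := LinearEquiv.toLinearMap _) fun v => by simp [H10.coe_qPlus, quadFormPlus, mul_comm]⟩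
  obtain ⟨c, hc0, hc⟩ := H09.exists_chi_eq_spinor hq hd s
  have hyp := H09.isHyp_qPlus (F := F) (⟨0, hm⟩ : Fin m)
  refine ⟨s * (H10.Form.ofQuad _).rot (Pi.single (.inl ⟨0, hm⟩) 1) (Pi.single (.inr ⟨0, hm⟩) 1) c,
    (H09.mem_commutator_iff' hq hd).2 ⟨?_, ?_⟩,
    fun v hv i => ?_, fun v hv i => ?_⟩
  · rw [map_mul, hq.dickson_rot hd hyp hc0, mul_one]
    exact (key s fun v hv i => hv i).2 he
  · rw [map_mul, hq.spinor_rot hd hyp hc0, hc, Int.units_mul_self]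
  all_goals
    rw [H10.Form.Isom.mul_apply, H10.Form.rot_apply _ hyp hc0]
    simp [s, hv, H10.coe_qPlus, H10.polar_quadFormPlus]

end Cfsg.Agent.S2612
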