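import Mathlib
import Cfsg.Statements.S2616
import Cfsg.Agent.H09.QFacts

set_option autoImplicit false
open Cfsg

namespace Cfsg.Agent.S2616

/-- Standard bases of a non-degenerate quadratic space of even dimension 2m over a finite field: either there is a hyperbolic basis e_i, f_i (Q(e_i) = Q(f_i) = 0, B(e_i, f_j) = δ_ij, the e's pairwise orthogonal and the f's pairwise orthogonal, B the polar form), or there is an elliptic basis: hyperbolic pairs e_i, f_i for i < m − 1 together with x, y orthogonal to them with Q(x) = 1, B(x, y) = 1, Q(y) = ζ where t² + t + ζ has no root in the field. -/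
theorem result {F V : Type*} [Field F] [Finite F] [AddCommGroup V] [Module F V] [FiniteDimensional F V] {m : ℕ} (hm : 1 ≤ m) (hV : Module.finrank F V = 2 * m) (Q : QuadraticForm F V) (hQ : (QuadraticMap.polarBilin Q).Nondegenerate) : (∃ b : Module.Basis (Fin m ⊕ Fin m) F V, (∀ i, Q (b (Sum.inl i)) = 0 ∧ Q (b (Sum.inr i)) = 0) ∧ (∀ i j, QuadraticMap.polar ⇑Q (b (Sum.inl i)) (b (Sum.inr j)) = if i = j then 1 else 0) ∧ (∀ i j, QuadraticMap.polar ⇑Q (b (Sum.inl i)) (b (Sum.inl j)) = 0 ∧ QuadraticMap.polar ⇑Q (b (Sum.inr i)) (b (Sum.inr j)) = 0)) ∨ (∃ (b : Module.Basis ((Fin (m - 1) ⊕ Fin (m - 1)) ⊕ Fin 2) F V) (ζ : F), (∀ t : F, t ^ 2 + t + ζ ≠ 0) ∧ (∀ i, Q (b (Sum.inl (Sum.inl i))) = 0 ∧ Q (b (Sum.inl (Sum.inr i))) = 0) ∧ (∀ i j, QuadraticMap.polar ⇑Q (b (Sum.inl (Sum.inl i))) (b (Sum.inl (Sum.inr j))) = if i = j then 1 else 0) ∧ (∀ i j, QuadraticMap.polar ⇑Q (b (Sum.inl (Sum.inl i))) (b (Sum.inl (Sum.inl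 j))) = 0 ∧ QuadraticMap.polar ⇑Q (b (Sum.inl (Sum.inr i))) (b (Sum.inl (Sum.inr j))) = 0) ∧ (∀ i (k : Fin 2), QuadraticMap.polar ⇑Q (b (Sum.inl (Sum.inl i))) (b (Sum.inr k)) = 0 ∧ QuadraticMap.polar ⇑Q (b (Sum.inl (Sum.inr i))) (b (Sum.inr k)) = 0) ∧ Q (b (Sum.inr 0)) = 1 ∧ QuadraticMap.polar ⇑Q (b (Sum.inr 0)) (b (Sum.inr 1)) = 1 ∧ Q (b (Sum.inr 1)) = ζ) := by
  have := H10.Form.ofQuad_nondeg hQ
  have hq := H10.Form.isQuad_ofQuad Q
  by_cases h : (H10.Form.ofQuad Q).HasTS m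
  · obtain ⟨e, he⟩ := (H10.Form.isQuad_ofQuad (H10.qPlus m F)).exists_isEquiv_even hq
      (by simp; ring) hV (iff_of_true H10.qPlus_hasTS h)
    have h1 : ∀ x, Q (e x) = _ := he.Q
    have h2 : ∀ x y, QuadraticMap.polar Q (e x) (e y) = _ := he.B
    refine Or.inl ⟨(Pi.basisFun F _).map e, ?_⟩
    simp [h1, h2, H10.coe_qPlus, H10.polar_quadFormPlus, quadFormPlus, Pi.single_apply, eq_comm]
  obtain ⟨ζ, hζ⟩ : ∃ ζ : F, ∀ t : F, t ^ 2 + t + ζ ≠ 0 := by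
    by_contra h0
    push Not at h0
    have := (Finite.injective_iff_surjective (f := fun t : F => -(t ^ 2 + t))).2
      (fun ζ => (h0 ζ).imp fun t ht => by linear_combination -ht) (a₁ := 0) (a₂ := -1) (by ring)
    simp at this
  have hab : ∀ z₁ z₂ : F, z₁ ^ 2 + 1 * z₁ * z₂ + ζ * z₂ ^ 2 = 0 → z₁ = 0 ∧ z₂ = 0 := fun x y e => by
    by_cases hy : y = 0
    · simpa [hy] using e
    · exact absurd (by field_simp; linear_combination e) (hζ (x / y))
  have hd := H10.disc_ne_zero_of_aniso hab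
  have := H10.qMinus_nondeg (m := m - 1) hd
  have h0 := H10.qMinus_not_hasTS (m := m - 1) hd hab
  rw [Nat.sub_add_cancel hm] at h0
  obtain ⟨e, he⟩ := (H10.Form.isQuad_ofQuad (H10.qMinus (m - 1) F 1 ζ)).exists_isEquiv_even hq
    (by simp; omega) hV (iff_of_false h0 h)
  have h1 : ∀ x, Q (e x) = _ := he.Q
  have h2 : ∀ x y, QuadraticMap.polar Q (e x) (e y) = _ := he.B
  refine Or.inr ⟨(Pi.basisFun F _).map e, ζ, hζ, ?_⟩
  simp [h1, h2, H10.coe_qMinus, H10.polar_quadFormMinus, quadFormMinus, Pi.single_apply, eq_comm]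

end Cfsg.Agent.S2616
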