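import Mathlib
import Cfsg.Statements.S2617
import Cfsg.Agent.H09.QFacts

set_option autoImplicit false
open Cfsg

namespace Cfsg.Agent.S2617

/-- The two standard quadratic forms of even dimension 2m over a finite field are not isometric: there is no linear isomorphism carrying the elliptic form Σ_(i<m−1) x_i y_i + z₁² + z₁z₂ + ζ z₂² (t² + t + ζ without roots) to the hyperbolic form Σ_(i<m) x_i y_i (they have different Witt index). -/
theorem result {F : Type*} [Field F] [Finite F] {m : ℕ} (hm : 1 ≤ m) (ζ : F) (hζ : ∀ t : F, t ^ 2 + t + ζ ≠ 0) (g : (Fin m ⊕ Fin m → F) ≃ₗ[F] ((Fin (m - 1) ⊕ Fin (m - 1)) ⊕ Fin 2 → F)) : ¬ (∀ v : Fin m ⊕ Fin m → F, Cfsg.quadFormMinus (m - 1) F 1 ζ (g v) = Cfsg.quadFormPlus m F v) := by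
  intro h
  have hab : ∀ z₁ z₂ : F, z₁ ^ 2 + 1 * z₁ * z₂ + ζ * z₂ ^ 2 = 0 → z₁ = 0 ∧ z₂ = 0 := fun x y e => by
    by_cases hy : y = 0
    · simpa [hy] using e
    · exact absurd (by field_simp; linear_combination e) (hζ (x / y))
  have h0 := H10.qMinus_not_hasTS (m := m - 1) (H10.disc_ne_zero_of_aniso hab) hab
  rw [Nat.sub_add_cancel hm] at h0
  exact h0 (((H10.Form.isQuad_ofQuad (H10.qPlus m F)).isEquiv 
    (H10.Form.isQuad_ofQuad (H10.qMinus (m - 1) F 1 ζ))
    (e := g) h).hasTS H10.qPlus_hasTS)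

end Cfsg.Agent.S2617
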