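import Mathlib
import Cfsg.Statements.S2620
import Cfsg.Agent.H09.QFacts

set_option autoImplicit false
open Cfsg

namespace Cfsg.Agent.S2620

/-- Discriminant of the hyperbolic quadratic form Σ_(i<m) x_i y_i over a field with q elements, q odd, m ≥ 1: the determinant of the Gram matrix of its polar form in any basis is a square if and only if m(q − 1)/2 is even (equivalently q^m ≡ 1 (mod 4)). -/
theorem result {F : Type*} [Field F] [Fintype F] {q : ℕ} (hF : Fintype.card F = q) (hq : Odd q) {m : ℕ} (hm : 1 ≤ m) {ι : Type*} [Fintype ι] [DecidableEq ι] (b : Module.Basis ι F (Fin m ⊕ Fin m → F)) : IsSquare (Matrix.of (fun i j : ι => QuadraticMap.polar (Cfsg.quadFormPlus m F) (b i) (b j))).det ↔ Even (m * (q - 1) / 2) := by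
  have hq' := H10.Form.isQuad_ofQuad (H10.qPlus m F)
  have h2 := H10.two_ne_zero_of_odd_card (hF ▸ hq)
  have hn : Module.finrank F (Fin m ⊕ Fin m → F) = 2 * m := by simp; ring
  refine (H09.isSquare_det_gram_iff hq' h2 b (by
    rw [← Module.finrank_eq_card_basis b, hn]; exact even_two_mul m)).trans ?_
  have h1 := H09.pow_mod_four hq m
  have h3 := H10.chi_neg_one_pow h2 m
  rw [Nat.card_eq_fintype_card, hF] at h3
  rw [(hq'.hasTS_iff_disc h2 hn).1 H10.qPlus_hasTS]
  split_ifs at h1 with h <;> rcases h3 with h3 | h3 <;> simp [h, h3.1] <;> omega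

end Cfsg.Agent.S2620
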