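import Mathlib
import Cfsg.Statements.S2623
import Cfsg.Agent.H09.QFacts

set_option autoImplicit false
open Cfsg

namespace Cfsg.Agent.S2623

/-- Over a finite field of odd order, two quadratic forms on F^n with non-degenerate polar forms are isometric (related by an invertible linear change of variables) if and only if their discriminants (determinants of the Gram matrices of their polar forms) lie in the same square class. -/
theorem result {F : Type*} [Field F] [Fintype F] (h2 : (2 : F) ≠ 0) {n : ℕ} (Q₁ Q₂ : QuadraticForm F (Fin n → F)) (h₁ : (QuadraticMap.polarBilin Q₁).Nondegenerate) (h₂ : (QuadraticMap.polarBilin Q₂).Nondegenerate) : (∃ g : (Fin n → F) ≃ₗ[F] (Fin n → F), ∀ v, Q₂ (g v) = Q₁ v) ↔ IsSquare ((Matrix.of (fun i j : Fin n => QuadraticMap.polar ⇑Q₁ (Pi.single i 1) (Pi.single j 1))).det * (Matrix.of (fun i j : Fin n => QuadraticMap.polar ⇑Q₂ (Pi.single i 1) (Pi.single j 1))).det) := by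
  have := H10.Form.ofQuad_nondeg h₁
  have := H10.Form.ofQuad_nondeg h₂
  have q₁ := H10.Form.isQuad_ofQuad Q₁
  have q₂ := H10.Form.isQuad_ofQuad Q₂
  let b := Pi.basisFun F (Fin n)
  have n₁ := H09.det_gram_ne_zero q₁ b
  have n₂ := H09.det_gram_ne_zero q₂ b
  have e : ∀ Q : QuadraticForm F (Fin n → F), Matrix.of (fun i j : Fin n => QuadraticMap.polar ⇑Q
    (Pi.single i 1) (Pi.single j 1)) = H09.gram (H10.Form.ofQuad Q) b := fun Q => by
    ext i j; simp [H09.gram, b]
  have key : ∀ (g : (Fin n → F) ≃ₗ[F] (Fin n → F)) (c : F), (∀ v, Q₂ (g v) = c * Q₁ v) →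
      ∃ d, c ^ n * (H09.gram (H10.Form.ofQuad Q₁) b).det =
        d ^ 2 * (H09.gram (H10.Form.ofQuad Q₂) b).det := fun g c h => by
    refine ⟨_, Eq.trans ?_ (H09.det_gram_change q₂ b fun i => g (b i))⟩
    rw [show H09.gram (H10.Form.ofQuad Q₂) (fun i => g (b i)) = c • H09.gram (H10.Form.ofQuad Q₁) b
      from ?_, Matrix.det_smul, Fintype.card_fin]
    ext i j
    simp only [H09.gram, Matrix.of_apply, Matrix.smul_apply, H10.Form.ofQuad_B, QuadraticMap.polar,
      ← map_add, h, smul_eq_mul]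
    ring
  rw [e, e]
  constructor
  · rintro ⟨g, hg⟩
    obtain ⟨d, hd⟩ := key g 1 (by simpa using hg)
    rw [one_pow, one_mul] at hd
    exact ⟨d * (H09.gram (H10.Form.ofQuad Q₂) b).det, by rw [hd]; ring⟩
  intro h
  rcases Nat.even_or_odd' n with ⟨m, hm | hm⟩
  · rw [← H10.chi_eq_one_iff, H10.chi_mul n₁ n₂, H09.chi_det_gram q₁ h2, H09.chi_det_gram q₂ h2,
      mul_mul_mul_comm, Int.units_mul_self, one_mul, mul_eq_one_iff_eq_inv, Int.units_inv_eq_self] at h
    obtain ⟨g, hg⟩ := q₁.exists_isEquiv_even q₂ (m := m) (by simpa using hm) (by simpa using hm) (by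
      rw [q₁.hasTS_iff_disc h2 (by simpa using hm), q₂.hasTS_iff_disc h2 (by simpa using hm), h])
    exact ⟨g, hg.Q⟩
  · obtain ⟨g, c, hc, hg⟩ := q₁.exists_similar_odd q₂ (m := m) (by simpa using hm) (by simpa using hm)
    obtain ⟨d, hd⟩ := key g c hg
    obtain ⟨s, hs⟩ := h
    have hs0 : s ≠ 0 := by rintro rfl; exact mul_ne_zero n₁ n₂ (by simpa using hs)
    have hd0 : d ≠ 0 := by rintro rfl; exact mul_ne_zero (pow_ne_zero n hc) n₁ (by simpa using hd)
    set t := c ^ m * s / (d * (H09.gram (H10.Form.ofQuad Q₂) b).det) with ht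
    have h3 : t * t * c = 1 := by
      rw [show c ^ n = c ^ (2 * m + 1) by rw [← hm]] at hd
      rw [ht]; field_simp
      linear_combination (H09.gram (H10.Form.ofQuad Q₂) b).det * hd - c ^ (2 * m + 1) * hs
    have ht0 : t ≠ 0 := by rintro e; simp [e] at h3
    refine ⟨g.trans (LinearEquiv.smulOfNeZero F _ t ht0), fun v => ?_⟩
    have h4 : Q₂ (g v) = c * Q₁ v := hg v
    simp [QuadraticMap.map_smul, h4, ← mul_assoc, h3]

end Cfsg.Agent.S2623
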