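import Mathlib
import Cfsg.Statements.S2625
import Cfsg.Agent.H09.QFacts

set_option autoImplicit false
open Cfsg

namespace Cfsg.Agent.S2625

/-- For a quadratic form Q on F^n with non-degenerate polar form, F finite and n odd (so |F| is odd), the multiplier of any similarity is a square: if g is an invertible linear map with Q(g v) = c·Q(v) for all v then c is a square. -/
theorem result {F : Type*} [Field F] [Fintype F] {n : ℕ} (hn : Odd n) (Q : QuadraticForm F (Fin n → F)) (hQ : (QuadraticMap.polarBilin Q).Nondegenerate) (g : (Fin n → F) ≃ₗ[F] (Fin n → F)) (c : F) (hg : ∀ v, Q (g v) = c * Q v) : IsSquare c := by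
  have := H10.Form.ofQuad_nondeg hQ
  by_cases hc : c = 0
  · simp [hc]
  have : Nonempty (Fin n) := ⟨⟨0, hn.pos⟩⟩
  have h1 : ∀ x y, (H10.Form.ofQuad Q).B (g x) (g y) = c * (H10.Form.ofQuad Q).B x y := fun x y => by
    simp only [H10.Form.ofQuad_B, QuadraticMap.polar, ← map_add, hg]; ring
  have := H09.quad_odd_mult (H10.Form.isQuad_ofQuad Q) (by simpa using hn)
    (γ := H09.Gam.ofEquiv g hc h1 hg) rfl
  rwa [H09.Gam.mult_eq h1] at this

end Cfsg.Agent.S2625
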