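import Mathlib
import Cfsg.Statements.S2627
import Cfsg.Agent.H09.QFacts

set_option autoImplicit false
open Cfsg

namespace Cfsg.Agent.S2627

/-- For an orthogonal direct sum Q = Q₁ ⊕ Q₂ of quadratic forms with non-degenerate polar forms over a finite field, an isometry g₁ of Q₁ extended by the identity on the second summand lies in Ω(Q) (the commutator subgroup of the orthogonal group of Q) if and only if g₁ lies in Ω(Q₁). (Excluded: the field of two elements when the first summand or the whole space has dimension 4, where the commutator subgroup of O⁺₄(2) is smaller than the group usually called Ω.) -/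
theorem result {F : Type*} [Field F] [Fintype F] {k l : ℕ} (h : Fintype.card F ≠ 2 ∨ (k ≠ 4 ∧ k + l ≠ 4)) (Q₁ : QuadraticForm F (Fin k → F)) (Q₂ : QuadraticForm F (Fin l → F)) (h₁ : (QuadraticMap.polarBilin Q₁).Nondegenerate) (h₂ : (QuadraticMap.polarBilin Q₂).Nondegenerate) (g₁ : ↥(Cfsg.isometryGroup F ⇑Q₁)) : (∃ g : ↥(Cfsg.isometryGroup F (fun v : Fin k ⊕ Fin l → F => Q₁ (v ∘ Sum.inl) + Q₂ (v ∘ Sum.inr))), g ∈ Cfsg.Omega F (fun v : Fin k ⊕ Fin l → F => Q₁ (v ∘ Sum.inl) + Q₂ (v ∘ Sum.inr)) ∧ ((g : Matrix.GeneralLinearGroup (Fin k ⊕ Fin l) F) : Matrix (Fin k ⊕ Fin l) (Fin k ⊕ Fin l) F) = Matrix.fromBlocks ((g₁ : Matrix.GeneralLinearGroup (Fin k) F) : Matrix (Fin k) (Fin k) F) 0 0 1) ↔ g₁ ∈ Cfsg.Omega F ⇑Q₁ := by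
  have := H10.Form.ofQuad_nondeg h₁
  have := H10.Form.ofQuad_nondeg h₂
  have := H09.qSum_nondeg Q₁ Q₂
  have q₁ := H10.Form.isQuad_ofQuad Q₁
  have q := H10.Form.isQuad_ofQuad (H09.qSum Q₁ Q₂)
  have d₁ := H09.good_of_or q₁ (h.imp id fun h => by simpa using h.1)
  have d := H09.good_of_or q (h.imp id fun h => by simpa using h.2)
  refine (H09.exists_omega_eq_iff (H09.qSum Q₁ Q₂) (H09.blockHom_eq_mulVec Q₁ Q₂ g₁ 1)).trans ?_
  let j := (H09.blockHom Q₁ Q₂).comp (MonoidHom.inl _ _)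
  have h1 : ∀ v, j ((H10.Form.ofQuad Q₁).refl v) = _ := H09.blockHom_refl Q₁ Q₂
  have h2 : ∀ v, (H10.Form.ofQuad (H09.qSum Q₁ Q₂)).Q (Sum.elim v 0) = (H10.Form.ofQuad Q₁).Q v :=
    fun v => by simp [H09.qSum_apply]
  have h3 := q₁.hom_ext d₁ (f := (H10.Form.ofQuad (H09.qSum Q₁ Q₂)).dickson.comp j)
    (g := (H10.Form.ofQuad Q₁).dickson) fun v hv => by
    rw [MonoidHom.comp_apply, h1, q.dickson_refl d (h2 v ▸ hv), q₁.dickson_refl d₁ hv]
  have h4 := q₁.hom_ext d₁ (f := (H10.Form.ofQuad (H09.qSum Q₁ Q₂)).spinor.comp j)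
    (g := (H10.Form.ofQuad Q₁).spinor) fun v hv => by
    rw [MonoidHom.comp_apply, h1, q.spinor_refl d (h2 v ▸ hv), h2, q₁.spinor_refl d₁ hv]
  rw [← H10.mem_commutator_equiv (H10.isometryEquiv Q₁), H09.mem_commutator_iff' q d,
    H09.mem_commutator_iff' q₁ d₁, ← h3, ← h4, map_one]
  rfl

end Cfsg.Agent.S2627
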