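import Mathlib
import Cfsg.Statements.S2628
import Cfsg.Agent.H09.QFacts

set_option autoImplicit false
open Cfsg

namespace Cfsg.Agent.S2628

/-- For the orthogonal direct sum Q ⊕ Q of two copies of a quadratic form Q with non-degenerate polar form on F^k (F finite), every isometry g of Q acting diagonally, diag(g, g), lies in Ω(Q ⊕ Q), the commutator subgroup of the orthogonal group of Q ⊕ Q. (Excluded: k = 2 over the field of two elements, where Q ⊕ Q is the hyperbolic 4-space whose orthogonal group's commutator subgroup is smaller than the group usually called Ω.) -/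
theorem result {F : Type*} [Field F] [Fintype F] {k : ℕ} (h : Fintype.card F ≠ 2 ∨ k ≠ 2) (Q : QuadraticForm F (Fin k → F)) (hQ : (QuadraticMap.polarBilin Q).Nondegenerate) (g : ↥(Cfsg.isometryGroup F ⇑Q)) : ∃ x : ↥(Cfsg.isometryGroup F (fun v : Fin k ⊕ Fin k → F => Q (v ∘ Sum.inl) + Q (v ∘ Sum.inr))), x ∈ Cfsg.Omega F (fun v : Fin k ⊕ Fin k → F => Q (v ∘ Sum.inl) + Q (v ∘ Sum.inr)) ∧ ((x : Matrix.GeneralLinearGroup (Fin k ⊕ Fin k) F) : Matrix (Fin k ⊕ Fin k) (Fin k ⊕ Fin k) F) = Matrix.fromBlocks ((g : Matrix.GeneralLinearGroup (Fin k) F) : Matrix (Fin k) (Fin k) F) 0 0 ((g : Matrix.GeneralLinearGroup (Fin k) F) : Matrix (Fin k) (Fin k) F) := by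
  have := H10.Form.ofQuad_nondeg hQ
  have := H09.qSum_nondeg Q Q
  have q := H10.Form.isQuad_ofQuad (H09.qSum Q Q)
  have d := H09.good_of_or q (h.imp id fun h => by simp; omega)
  refine (H09.exists_omega_eq_iff (H09.qSum Q Q) (H09.blockHom_eq_mulVec Q Q g g)).2 ?_
  let s : (H10.Form.ofQuad (H09.qSum Q Q)).Isom :=
    ⟨LinearEquiv.funCongrLeft F F (Equiv.sumComm _ _), H10.Form.ofQuad_isIsom
      (g := LinearEquiv.toLinearMap _) fun v => add_comm _ _⟩
  have h1 : H09.blockHom Q Q (1, H10.isometryEquiv Q g) * s =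
      s * H09.blockHom Q Q (H10.isometryEquiv Q g, 1) :=
    H10.Form.Isom.ext fun x => by ext (i | i) <;> rfl
  rw [← Prod.fst_mul_snd (_, _), map_mul, eq_mul_inv_of_mul_eq h1, H09.mem_commutator_iff' q d]
  have h2 : ∀ a b : ℤˣ, a * (b * a * b⁻¹) = 1 := by decide
  simp only [map_mul, map_inv, h2, and_self]

end Cfsg.Agent.S2628
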