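import Mathlib
import Cfsg.Statements.S2629
import Cfsg.Agent.H09.QFacts

set_option autoImplicit false
open Cfsg

namespace Cfsg.Agent.S2629

/-- For the hyperbolic form Σ x_i y_i on F^(2m) over a finite field of odd order (m ≥ 1), an isometry g preserves the class of the maximal totally singular subspace U₀ = {y = 0} (that is, m − dim(U₀ ∩ gU₀) is even) if and only if det g = 1: the stabiliser of each of the two classes of maximal totally singular subspaces is SO. -/
theorem result {F : Type*} [Field F] [Fintype F] (h2 : (2 : F) ≠ 0) {m : ℕ} (hm : 1 ≤ m) (g : ↥(Cfsg.isometryGroup F (Cfsg.quadFormPlus m F))) : Even (m - Module.finrank F ↥(LinearMap.ker (LinearMap.funLeft F F (Sum.inr : Fin m → Fin m ⊕ Fin m)) ⊓ (LinearMap.ker (LinearMap.funLeft F F (Sum.inr : Fin m → Fin m ⊕ Fin m))).map (Matrix.mulVecLin ((g : Matrix.GeneralLinearGroup (Fin m ⊕ Fin m) F) : Matrix (Fin m ⊕ Fin m) (Fin m ⊕ Fin m) F)))) ↔ ((g : Matrix.GeneralLinearGroup (Fin m ⊕ Fin m) F) : Matrix (Fin m ⊕ Fin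 m) (Fin m ⊕ Fin m) F).det = 1 := by
  have hq := H10.Form.isQuad_ofQuad (H10.qPlus m F)
  have h1 := hq.dickson_eq_one_iff_fam (hq.good_of_two_ne_zero h2) (m := m) (by simp; ring)
    H09.ts_stdTS H09.finrank_stdTS (H10.isometryEquiv _ g)
  rw [hq.dickson_eq_one_iff h2, H10.Form.mem_SIsom, ← H10.Form.coe_det] at h1
  refine Iff.trans ?_ (h1.symm.trans (by rw [H10.isometryEquiv_det (H10.qPlus m F) g]; rfl))
  rw [Nat.even_sub ((Submodule.finrank_mono inf_le_left).trans H09.finrank_stdTS.le), Nat.even_add]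
  exact Iff.comm

end Cfsg.Agent.S2629
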