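import Mathlib
import Cfsg.Statements.S2630
import Cfsg.Agent.H09.QFacts

set_option autoImplicit false
open Cfsg

namespace Cfsg.Agent.S2630

/-- For the hyperbolic form Σ x_i y_i on F^(2m) over a finite field of characteristic two (m ≥ 1, excluding m = 2 over the field of two elements), an isometry g preserves the class of the maximal totally singular subspace U₀ = {y = 0} (m − dim(U₀ ∩ gU₀) even) if and only if g lies in Ω (the commutator subgroup of the orthogonal group): the stabiliser of each class is Ω. -/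
theorem result {F : Type*} [Field F] [Fintype F] [CharP F 2] {m : ℕ} (hm : 1 ≤ m) (h : Fintype.card F ≠ 2 ∨ m ≠ 2) (g : ↥(Cfsg.isometryGroup F (Cfsg.quadFormPlus m F))) : Even (m - Module.finrank F ↥(LinearMap.ker (LinearMap.funLeft F F (Sum.inr : Fin m → Fin m ⊕ Fin m)) ⊓ (LinearMap.ker (LinearMap.funLeft F F (Sum.inr : Fin m → Fin m ⊕ Fin m))).map (Matrix.mulVecLin ((g : Matrix.GeneralLinearGroup (Fin m ⊕ Fin m) F) : Matrix (Fin m ⊕ Fin m) (Fin m ⊕ Fin m) F)))) ↔ g ∈ Cfsg.Omega F (Cfsg.quadFormPlus m F) := by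
  have hq := H10.Form.isQuad_ofQuad (H10.qPlus m F)
  have hd := H09.good_of_or hq (h.imp id fun h => by simp; omega)
  have h1 := hq.dickson_eq_one_iff_fam hd (m := m) (by simp; ring)
    H09.ts_stdTS H09.finrank_stdTS (H10.isometryEquiv _ g)
  rw [← MonoidHom.mem_ker, ← hq.commutator_eq_ker_dickson hd (by simp; omega) CharTwo.two_eq_zero] at h1
  refine Iff.trans ?_ (h1.symm.trans (H10.mem_commutator_equiv _))
  rw [Nat.even_sub ((Submodule.finrank_mono inf_le_left).trans H09.finrank_stdTS.le), Nat.even_add]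
  exact Iff.comm

end Cfsg.Agent.S2630
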