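import Mathlib
import Cfsg.Statements.S2631
import Cfsg.Agent.H09.QFacts

set_option autoImplicit false
open Cfsg

namespace Cfsg.Agent.S2631

/-- For the hyperbolic form Σ x_i y_i on F^(2m) over a finite field (m ≥ 1, excluding m = 2 over the field of two elements), Ω (the commutator subgroup of the orthogonal group) acts transitively on each of the two classes of maximal totally singular subspaces: if U and W are m-dimensional totally singular subspaces with m − dim(U ∩ W) even, some element of Ω carries U to W. -/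
theorem result {F : Type*} [Field F] [Fintype F] {m : ℕ} (hm : 1 ≤ m) (h : Fintype.card F ≠ 2 ∨ m ≠ 2) (U W : Submodule F (Fin m ⊕ Fin m → F)) (hU : Module.finrank F U = m) (hW : Module.finrank F W = m) (hU0 : ∀ u ∈ U, Cfsg.quadFormPlus m F u = 0) (hW0 : ∀ w ∈ W, Cfsg.quadFormPlus m F w = 0) (he : Even (m - Module.finrank F ↥(U ⊓ W))) : ∃ g : ↥(Cfsg.isometryGroup F (Cfsg.quadFormPlus m F)), g ∈ Cfsg.Omega F (Cfsg.quadFormPlus m F) ∧ U.map (Matrix.mulVecLin ((g : Matrix.GeneralLinearGroup (Fin m ⊕ Fin m) F) : Matrix (Fin m ⊕ Fin m) (Fin m ⊕ Fin m) F)) = W := by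
  have hq := H10.Form.isQuad_ofQuad (H10.qPlus m F)
  have hd := H09.good_of_or hq (h.imp id fun h => by simp; omega)
  refine (H09.exists_omega_map_iff (H10.qPlus m F) U W).2 ?_
  obtain ⟨g, hg⟩ := (hq.ts hU0).exists_map (hq.ts hW0) (hU.trans hW.symm)
  obtain ⟨r, h1, h2, h3⟩ := H09.exists_stab_spinor hq hd (hq.ts hW0) (by rintro rfl; simp at hW; omega) g
  refine H09.exists_commutator_map hq hd hg h1 (h2.trans (Eq.symm ?_)) h3
  rw [hq.dickson_eq_one_iff_fam hd (m := m) (by simp; ring) (hq.ts hU0) hU, hg, Nat.even_add]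
  exact ((Nat.even_sub ((Submodule.finrank_mono inf_le_left).trans hU.le)).1 he).symm

end Cfsg.Agent.S2631
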