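import Mathlib
import Cfsg.Statements.S2632
import Cfsg.Agent.H09.QFacts

set_option autoImplicit false
open Cfsg

namespace Cfsg.Agent.S2632

/-- Ω is transitive on non-degenerate subspaces of each isometry type: for a quadratic form Q on F^n, n ≥ 3, with non-degenerate polar form (F finite; excluding dimension 4 over the field of two elements), if U and W are subspaces on which the polar form is non-degenerate and there is a Q-preserving linear isomorphism U → W, then some element of Ω (the commutator subgroup of the orthogonal group) carries U to W. (In dimension 2 this fails: Ω can be {±1}, which fixes every line.) -/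
theorem result {F : Type*} [Field F] [Fintype F] {n : ℕ} (hn : 3 ≤ n) (h : Fintype.card F ≠ 2 ∨ n ≠ 4) (Q : QuadraticForm F (Fin n → F)) (hQ : (QuadraticMap.polarBilin Q).Nondegenerate) (U W : Submodule F (Fin n → F)) (hU : U ⊓ LinearMap.BilinForm.orthogonal (QuadraticMap.polarBilin Q) U = ⊥) (hW : W ⊓ LinearMap.BilinForm.orthogonal (QuadraticMap.polarBilin Q) W = ⊥) (e : U ≃ₗ[F] W) (he : ∀ u : U, Q (e u : Fin n → F) = Q (u : Fin n → F)) : ∃ g : ↥(Cfsg.isometryGroup F ⇑Q), g ∈ Cfsg.Omega F ⇑Q ∧ U.map (Matrix.mulVecLin ((g : Matrix.GeneralLinearGroup (Fin n) F) : Matrix (Fin n) (Fin n) F)) = W := by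
  have := H10.Form.ofQuad_nondeg hQ
  have hq := H10.Form.isQuad_ofQuad Q
  have hd := H09.good_of_or hq (h.imp id fun h => by simpa using h)
  refine (H09.exists_omega_map_iff Q U W).2 ?_
  have hW' : (H10.Form.ofQuad Q).NondegOn W := (H10.Form.nondegOn_iff_disjoint _).2 (disjoint_iff.2 hW)
  obtain ⟨g, hg⟩ := (H10.Form.ofQuad Q).witt_equiv U W e
    ((hq.restrict U).isEquiv (hq.restrict W) he).B he
  have h1 : U.map (g.1 : (Fin n → F) →ₗ[F] (Fin n → F)) = W := by
    refine Submodule.eq_of_le_of_finrank_eq ?_ (by rw [LinearEquiv.finrank_map_eq, e.finrank_eq])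
    rintro _ ⟨x, hx, rfl⟩
    exact (hg ⟨x, hx⟩).symm ▸ (e ⟨x, hx⟩).2
  by_cases h2 : 2 ≤ Module.finrank F W
  · obtain ⟨r, h3, h4, h5⟩ := hq.exists_fix_same hd hW' h2 g
    exact H09.exists_commutator_map hq hd h1
      ((H10.Form.ofQuad Q).stab_perp W ▸ H10.Form.fix_le_stab _ _ h3) h4 h5
  · obtain ⟨r, h3, h4, h5⟩ := hq.exists_fix_same hd hW'.perp
      (by have := (H10.Form.ofQuad Q).finrank_perp W; simp at this; omega) g
    rw [H10.Form.perp_perp] at h3
    exact H09.exists_commutator_map hq hd h1 (H10.Form.fix_le_stab _ _ h3) h4 h5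

end Cfsg.Agent.S2632
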