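import Mathlib
import Cfsg.Statements.S2633
import Cfsg.Agent.H09.QFacts

set_option autoImplicit false
open Cfsg

namespace Cfsg.Agent.S2633

/-- Ω is transitive on totally singular subspaces of each dimension less than half the dimension: for a quadratic form Q on F^n with non-degenerate polar form (F finite; excluding dimension 4 over the field of two elements), if U and W are subspaces of the same dimension k with 2k < n on which Q vanishes, then some element of Ω (the commutator subgroup of the orthogonal group) carries U to W. -/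
theorem result {F : Type*} [Field F] [Fintype F] {n : ℕ} (h : Fintype.card F ≠ 2 ∨ n ≠ 4) (Q : QuadraticForm F (Fin n → F)) (hQ : (QuadraticMap.polarBilin Q).Nondegenerate) (U W : Submodule F (Fin n → F)) {k : ℕ} (hk : 2 * k < n) (hU : Module.finrank F U = k) (hW : Module.finrank F W = k) (hU0 : ∀ u ∈ U, Q u = 0) (hW0 : ∀ w ∈ W, Q w = 0) : ∃ g : ↥(Cfsg.isometryGroup F ⇑Q), g ∈ Cfsg.Omega F ⇑Q ∧ U.map (Matrix.mulVecLin ((g : Matrix.GeneralLinearGroup (Fin n) F) : Matrix (Fin n) (Fin n) F)) = W := by
  have := H10.Form.ofQuad_nondeg hQ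
  have hq := H10.Form.isQuad_ofQuad Q
  have hd := H09.good_of_or hq (h.imp id fun h => by simpa using h)
  refine (H09.exists_omega_map_iff Q U W).2 ?_
  obtain ⟨g, hg⟩ := (hq.ts hU0).exists_map (hq.ts hW0) (hU.trans hW.symm)
  by_cases h0 : W = ⊥
  · subst h0
    exact ⟨1, one_mem _, by rw [Submodule.finrank_eq_zero.1 (hU.trans (by simpa using hW.symm))]; simp⟩
  rcases Int.units_eq_one_or ((H10.Form.ofQuad Q).dickson g) with e | e
  · obtain ⟨r, h1, h2, h3⟩ := H09.exists_stab_spinor hq hd (hq.ts hW0) h0 g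
    exact H09.exists_commutator_map hq hd hg h1 (h2.trans e.symm) h3
  obtain ⟨v, hv, hv0⟩ : ∃ v ∈ (H10.Form.ofQuad Q).perp W, (H10.Form.ofQuad Q).Q v ≠ 0 := by
    by_contra h1
    push Not at h1
    have h2 := (hq.ts h1).finrank_le
    have h3 := (H10.Form.ofQuad Q).finrank_perp W
    simp at h2 h3; omega
  obtain ⟨r, h1, h2, h3⟩ := H09.exists_stab_spinor hq hd (hq.ts hW0) h0 (g * (H10.Form.ofQuad Q).refl v)
  refine H09.exists_commutator_map hq hd hg (mul_mem h1 (H10.Form.fix_le_stab _ _
    (H10.Form.fix_anti _ (H10.Form.le_perp_perp _ W) (hq.refl_mem_fix hv)))) ?_ ?_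
  · simp [h2, e, hq.dickson_refl hd hv0]
  · simp [h3, mul_assoc]

end Cfsg.Agent.S2633
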