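import Mathlib
import Cfsg.Statements.S2634
import Cfsg.Agent.H09.QFacts

set_option autoImplicit false
open Cfsg

namespace Cfsg.Agent.S2634

/-- Over a finite field of characteristic two, Ω (the commutator subgroup of the orthogonal group of a quadratic form Q on F^n with non-degenerate polar form; excluding dimension 4 over the field of two elements) acts transitively on the non-singular 1-spaces: for u, v with Q(u) ≠ 0 and Q(v) ≠ 0 some element of Ω carries the line through u to the line through v. -/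
theorem result {F : Type*} [Field F] [Fintype F] [CharP F 2] {n : ℕ} (h : Fintype.card F ≠ 2 ∨ n ≠ 4) (Q : QuadraticForm F (Fin n → F)) (hQ : (QuadraticMap.polarBilin Q).Nondegenerate) (u v : Fin n → F) (hu : Q u ≠ 0) (hv : Q v ≠ 0) : ∃ g : ↥(Cfsg.isometryGroup F ⇑Q), g ∈ Cfsg.Omega F ⇑Q ∧ (F ∙ ((g : Matrix.GeneralLinearGroup (Fin n) F) : Matrix (Fin n) (Fin n) F).mulVec u) = F ∙ v := by
  have := H10.Form.ofQuad_nondeg hQ
  have hq := H10.Form.isQuad_ofQuad Q
  have hd := H09.good_of_or hq (h.imp id fun h => by simpa using h)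
  have h2 : (2 : F) = 0 := CharTwo.two_eq_zero
  refine (H09.exists_omega_iff Q (fun A => (F ∙ A.mulVec u) = F ∙ v)
    (fun k => (F ∙ k.1 u) = F ∙ v) fun _ => Iff.rfl).2 ?_
  obtain ⟨c, hc, h1⟩ := H10.exists_eq_mul_sq_of_chi_eq hu hv
    (by simp [H10.chi_eq_one_of_two_eq_zero h2])
  obtain ⟨g, hg⟩ := (H10.Form.ofQuad Q).witt_vec (u := u) (v := c • v) (by rintro rfl; simp at hu)
    (smul_ne_zero hc (by rintro rfl; simp at hv)) (by rw [hq.Q_smul]; exact h1)
  have h3 : (F ∙ g.1 u) = F ∙ v := by rw [hg, Submodule.span_singleton_smul_eq (IsUnit.mk0 c hc)]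
  simp only [H09.mem_commutator_iff' hq hd, hq.spinor_eq_one hd h2]
  rcases Int.units_eq_one_or ((H10.Form.ofQuad Q).dickson g) with e | e
  · exact ⟨g, ⟨e, rfl⟩, h3⟩
  · refine ⟨g * (H10.Form.ofQuad Q).refl u, ⟨by simp [e, hq.dickson_refl hd hu], rfl⟩, ?_⟩
    rw [H10.Form.Isom.mul_apply, hq.refl_self hu, map_neg, ← h3, ← Set.neg_singleton, Submodule.span_neg]

end Cfsg.Agent.S2634
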