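import Mathlib
import Cfsg.Statements.S2635
import Cfsg.Agent.H09.QFacts

set_option autoImplicit false
open Cfsg

namespace Cfsg.Agent.S2635

/-- Over a finite field of characteristic two, for a quadratic form Q on F^n with non-degenerate polar form, n ≥ 2, other than dimension 4 over the field of two elements, Ω (the commutator subgroup of the orthogonal group) is exactly the subgroup generated by the products of two reflections (orthogonal transvections) x ↦ x − Q(v)⁻¹ f(x, v) v, Q(v) ≠ 0: the products of an even number of reflections. -/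
theorem result {F : Type*} [Field F] [Fintype F] [CharP F 2] {n : ℕ} (hn : 2 ≤ n) (h : Fintype.card F ≠ 2 ∨ n ≠ 4) (Q : QuadraticForm F (Fin n → F)) (hQ : (QuadraticMap.polarBilin Q).Nondegenerate) : Cfsg.Omega F ⇑Q = Subgroup.closure {g : ↥(Cfsg.isometryGroup F ⇑Q) | ∃ u v : Fin n → F, Q u ≠ 0 ∧ Q v ≠ 0 ∧ ((g : Matrix.GeneralLinearGroup (Fin n) F) : Matrix (Fin n) (Fin n) F) = Cfsg.reflectionMatrix ⇑Q u * Cfsg.reflectionMatrix ⇑Q v} := by
  have := H10.Form.ofQuad_nondeg hQ
  have hq := H10.Form.isQuad_ofQuad Q
  have hd := H09.good_of_or hq (h.imp id fun h => by simpa using h)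
  ext g
  refine Iff.trans ?_ (H10.mem_closure_equiv (H10.isometryEquiv Q)
    (T := {k | ∃ u v, Q u ≠ 0 ∧ Q v ≠ 0 ∧ k = (H10.Form.ofQuad Q).refl u * (H10.Form.ofQuad Q).refl v})
    fun g => exists₂_congr fun u v => and_congr_right fun _ => and_congr_right fun _ => by
      rw [H10.matrix_eq_iff_mulVec]
      simp only [← Matrix.mulVec_mulVec, ← H09.refl_eq_mulVec]
      exact ⟨fun e v => by rw [← H10.Form.Isom.mul_apply, ← e]; rfl, fun e => H10.Form.Isom.ext e⟩)
  rw [← H10.mem_commutator_equiv (H10.isometryEquiv Q), hq.commutator_eq_ker_dickson hd (by simpa using hn) CharTwo.two_eq_zero]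
  generalize H10.isometryEquiv Q g = k
  refine ⟨fun hk => ?_, fun hk => (Subgroup.closure_le _).2 ?_ hk⟩
  · obtain ⟨l, hl, rfl⟩ := H09.exists_list_refl hq hd k
    rw [MonoidHom.mem_ker, H09.dickson_list hq hd l hl, neg_one_pow_eq_one_iff_even (by decide)] at hk
    induction l using List.twoStepInduction with
    | nil => exact one_mem _
    | singleton a => simp at hk
    | cons_cons a b l ih _ =>
      rw [List.map_cons, List.map_cons, List.prod_cons, List.prod_cons, ← mul_assoc]
      exact mul_mem (Subgroup.subset_closure ⟨a, b, hl a (by simp), hl b (by simp), rfl⟩)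
        (ih (fun v hv => hl v (by simp [hv])) (by simpa [Nat.even_add_one] using hk))
  · rintro _ ⟨u, v, hu, hv, rfl⟩
    simp [hq.dickson_refl hd hu, hq.dickson_refl hd hv]

end Cfsg.Agent.S2635
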