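import Mathlib
import Cfsg.Statements.S2636
import Cfsg.Agent.H09.FixCount

set_option autoImplicit false
open Cfsg

namespace Cfsg.Agent.S2636

open H09 in

/-- Centraliser of a field automorphism in PGL_n: let F be the field with q = q₀^r elements, σ a field automorphism of F of prime order r (so its fixed field has q₀ elements) and n ≥ 1. The invertible matrices g whose entrywise image under σ is a scalar multiple of g — those whose coset modulo scalars is fixed by σ — number (q − 1)/(q₀ − 1) · |GL_n(q₀)|; equivalently the centraliser in PGL_n(q) of the induced automorphism has the order of PGL_n(q₀). -/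
theorem result {F : Type*} [Field F] [Fintype F] {q₀ r n : ℕ} (hr : r.Prime) (hn : 1 ≤ n) (hF : Fintype.card F = q₀ ^ r) (σ : F ≃+* F) (hσ : orderOf σ = r) : Nat.card {g : GL (Fin n) F // ∃ c : F, c ≠ 0 ∧ (g : Matrix (Fin n) (Fin n) F).map σ = c • (g : Matrix (Fin n) (Fin n) F)} = (q₀ ^ r - 1) / (q₀ - 1) * ∏ i : Fin n, (q₀ ^ n - q₀ ^ (i : ℕ)) := by
  have : NeZero n := ⟨by omega⟩
  have hj := fixEmb_subtype σ
  have : Fintype (fixF σ) := Fintype.ofFinite _
  have h0 : Fintype.card (fixF σ) = q₀ := by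
    have := card_fixF σ
    rwa [hσ, Nat.card_eq_fintype_card, Nat.card_eq_fintype_card, hF, pow_left_inj₀ (by simp) (by simp) hr.ne_zero] at this
  have h := card_fix_upto_scalar (j := (fixF σ).subtype) ⊤ (⊤ : Subgroup (GL (Fin n) (fixF σ))) (by simp)
    (X := {g : GL (Fin n) F // ∃ c : F, c ≠ 0 ∧ (g : Matrix (Fin n) (Fin n) F).map σ = c • (g : Matrix (Fin n) (Fin n) F)})
    Subtype.val Subtype.val_injective fun g => ⟨by
      rintro ⟨⟨g, c, -, hc⟩, rfl⟩
      obtain ⟨b, g₀, e⟩ := exists_desc_mat hj (hσ ▸ hr.ne_zero) hc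
      exact ⟨b⁻¹, trivial, g₀, trivial, by rw [← e]; simp⟩, by
      rintro ⟨b, -, g₀, -, rfl⟩
      exact ⟨⟨_, map_scal_mul hj b g₀⟩, rfl⟩⟩
  rw [Subgroup.comap_top, Subgroup.card_top, Subgroup.card_top, Subgroup.card_top, card_units_field,
    card_units_field, card_GL, h0, hF, Fintype.card_fin] at h
  have h1 : 0 < q₀ - 1 := h0 ▸ Nat.sub_pos_of_lt Fintype.one_lt_card
  obtain ⟨k, hk⟩ := Nat.sub_one_dvd_pow_sub_one q₀ r
  refine Nat.eq_of_mul_eq_mul_right h1 (h.trans ?_)
  rw [hk, Nat.mul_div_cancel_left _ h1]; ring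

end Cfsg.Agent.S2636
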