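import Mathlib
import Cfsg.Statements.S2637
import Cfsg.Agent.H09.UFacts
import Cfsg.Agent.H09.Embed

set_option autoImplicit false
open Cfsg

namespace Cfsg.Agent.S2637

open H10 H10.Form H09 Module in
theorem aux {F V : Type*} [Field F] [Finite F] [AddCommGroup V] [Module F V] [FiniteDimensional F V]
    {φ : Form F V} [φ.Nondeg] (hA : IsAltF φ) (h3 : ∀ r : F, r ^ 2 ≠ -1 + -1 * r) (x : φ.Isom)
    (hx : ∀ v, x.1 (x.1 v) = -v - x.1 v) {m : ℕ} (hm : finrank F V = 2 * m) :
    Nat.card (Subgroup.centralizer {x}) = guOrd (Nat.card F) m := by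
  have : Fact (∀ r : F, r ^ 2 ≠ -1 + -1 * r) := ⟨h3⟩
  let K := QuadraticAlgebra F (-1) (-1)
  let : Module K V := Module.compHom V (QuadraticAlgebra.lift ⟨(x.1 : V →ₗ[F] V), LinearMap.ext fun v => by
    simp [hx, sub_eq_add_neg]⟩ : K →ₐ[F] Module.End F V).toRingHom
  have hs : ∀ (z : K) (v : V), z • v = z.re • v + z.im • x.1 v := fun _ _ => rfl
  have : IsScalarTower F K V := ⟨fun a z v => by simp [hs, smul_smul, K]⟩
  have : Finite K := Module.finite_of_finite F
  have : FiniteDimensional K V := Module.Finite.of_restrictScalars_finite F K V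
  have hl : ∀ (a : F) u v, φ.B (a • u) v = a * φ.B u v := fun a u v => by rw [B_smul_left, hA.σ_eq]
  have hc : ∀ u v, φ.B v u = -φ.B u v := fun u v => (hA.bilin_alt.neg_eq u v).symm
  have h1 : ∀ u v, φ.B (x.1 u) v = -φ.B u v - φ.B u (x.1 v) := fun u v => by
    have := x.2.B u (x.1 v)
    rw [hx, map_sub, map_neg, x.2.B] at this
    linear_combination -this
  have hσ : starRingEnd K ≠ RingHom.id K := fun h => by
    have := congrArg QuadraticAlgebra.im (RingHom.congr_fun h QuadraticAlgebra.omega)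
    have h2 := congrArg QuadraticAlgebra.re (RingHom.congr_fun h QuadraticAlgebra.omega)
    simp [K, starRingEnd_apply] at h2
  let ψ : Form K V := ofHerm (starRingEnd K) star_star (exists_theta hσ star_star)
    (LinearMap.mk₂'ₛₗ _ (RingHom.id K) (fun u v => (⟨φ.B u (x.1 v) + φ.B u v, φ.B u v⟩ : K))
      (fun _ _ _ => by ext <;> simp [K]; ring)
      (fun _ _ _ => by ext <;> simp [K, hs, hA.σ_eq, h1, hx, starRingEnd_apply] <;> ring)
      (fun _ _ _ => by ext <;> simp [K]; ring)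
      (fun _ _ _ => by ext <;> simp [K, hs, hx] <;> ring))
    ⟨fun u v => by ext <;> simp [K, starRingEnd_apply, hc u, hc (x.1 u) v, h1]⟩
  have hB : ∀ u v, ψ.B u v = ⟨φ.B u (x.1 v) + φ.B u v, φ.B u v⟩ := fun _ _ => rfl
  have : ψ.Nondeg := ⟨fun u hu => φ.eq_zero_of_B_left fun v => congrArg QuadraticAlgebra.im (hu v)⟩
  obtain ⟨q, hq, hq'⟩ := exists_q_of_involutive hσ star_star
  have hK : Nat.card K = Nat.card F ^ 2 := by
    rw [Nat.card_congr (QuadraticAlgebra.equivProd _ _), Nat.card_prod, sq]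
  obtain rfl : q = Nat.card F := (pow_left_inj₀ (by simp) (by simp) two_ne_zero).1 (hq.symm.trans hK)
  have hU : ψ.IsUnitary (Nat.card F) := ⟨isHerm_ofHerm _ _ _ _ _, hK, hq'⟩
  have h2 := hU.finrank_res rfl
  rw [← show finrank K V = m by omega, ← hU.card_Isom]
  let f := resIsom ψ φ fun g => ⟨fun u v => congrArg QuadraticAlgebra.im (g.2.B u v),
    fun _ => (hA.Q_eq _).trans (hA.Q_eq _).symm⟩
  rw [Nat.card_congr (MonoidHom.ofInjective (f := f) (resIsom_injective _)).toEquiv]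
  congr 2
  ext g
  rw [Subgroup.mem_centralizer_singleton_iff]
  refine ⟨fun h => ?_, ?_⟩
  · have h4 : ∀ v, g.1 (x.1 v) = x.1 (g.1 v) := fun v => congrArg (fun t : φ.Isom => t.1 v) h
    exact ⟨⟨{ g.1 with map_smul' := fun z v => by simp [hs, h4] }, hU.herm.isIsom fun u v => by
      simp [hB, ← h4]⟩, rfl⟩
  · rintro ⟨g, rfl⟩
    refine Isom.ext fun v => ?_
    simpa [hs, f, resIsom_apply] using g.1.map_smul QuadraticAlgebra.omega v

/-- Centraliser of a fixed-point-free element of order three in Sp_2m(q) when q ≡ 2 (mod 3): if x ∈ Sp_2m(F) (|F| = q, m ≥ 1) satisfies x³ = 1 and x − 1 is invertible, then its centraliser in Sp_2m(F) has the order of the unitary group GU_m(q), namely q^(m(m−1)/2) Π_(i=1)^m (q^i − (−1)^i) (x lies in the centre of a subgroup GU_m(q) of Sp_2m(q)). -/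
theorem result {F : Type*} [Field F] [Fintype F] {q : ℕ} (hF : Fintype.card F = q) (hq : q % 3 = 2) {m : ℕ} (hm : 1 ≤ m) (x : Matrix.symplecticGroup (Fin m) F) (hx3 : x ^ 3 = 1) (hfpf : IsUnit ((x : Matrix (Fin m ⊕ Fin m) (Fin m ⊕ Fin m) F) - 1)) : (Nat.card ↥(Subgroup.centralizer ({x} : Set ↥(Matrix.symplecticGroup (Fin m) F))) : ℤ) = (q : ℤ) ^ (m * (m - 1) / 2) * ∏ i : Fin m, ((q : ℤ) ^ ((i : ℕ) + 1) - (-1) ^ ((i : ℕ) + 1)) := by
  have h := aux H09.isAltF_spForm (fun r hr => ?_) (H09.spIsomEquiv _ F x) (fun v => ?_) (m := m)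
    (by simp [two_mul])
  · rw [← H09.cast_guOrd (by omega), ← hF, ← Nat.card_eq_fintype_card, ← h, Nat.cast_inj]
    refine Nat.card_congr (Equiv.subtypeEquiv (H09.spIsomEquiv _ F).toEquiv fun g => ?_)
    simp only [Subgroup.mem_centralizer_singleton_iff, MulEquiv.toEquiv_eq_coe, MulEquiv.coe_toEquiv, ← map_mul,
      EmbeddingLike.apply_eq_iff_eq]
  · have h1 : r ^ 3 = 1 := by linear_combination (r - 1) * hr
    have h2 := FiniteField.pow_card r
    rw [hF, ← Nat.div_add_mod q 3, hq, pow_add, pow_mul, h1, one_pow, one_mul] at h2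
    have h0 : r ≠ 0 := fun e => by simp [e] at h1
    have h4 : r = 1 := mul_left_cancel₀ h0 (by linear_combination h2)
    have h5 : ((3 : ℕ) : F) = 0 := by rw [h4] at hr; push_cast; linear_combination hr
    have h6 := (CharP.cast_eq_zero_iff F (ringChar F) 3).1 h5
    obtain ⟨n, hp, hn⟩ := FiniteField.card F (ringChar F)
    rw [(Nat.prime_dvd_prime_iff_eq hp Nat.prime_three).1 h6, hF] at hn
    have : 3 ∣ q := hn ▸ dvd_pow_self 3 n.ne_zero
    omega
  · have h1 : (x.1 - 1) * (x.1 * x.1 + x.1 + 1) = 0 := by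
      have : x.1 ^ 3 = 1 := congrArg Subtype.val hx3
      rw [← sub_eq_zero.2 this]; noncomm_ring
    rw [hfpf.mul_right_eq_zero] at h1
    change x.1.mulVec (x.1.mulVec v) = -v - x.1.mulVec v
    rw [Matrix.mulVec_mulVec, show x.1 * x.1 = -1 - x.1 by rw [← sub_eq_zero, ← h1]; abel, Matrix.sub_mulVec,
      Matrix.neg_mulVec, Matrix.one_mulVec]

end Cfsg.Agent.S2637
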