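import Mathlib
import Cfsg.Statements.S2638

set_option autoImplicit false
open Cfsg

namespace Cfsg.Agent.S2638

/-- If an element x of GL_n(q), n ≥ 1, has prime order r and the multiplicative order of q modulo r is n (r is a primitive prime divisor of q^n − 1, so x acts irreducibly), then the centraliser of x in GL_n(q) is cyclic of order q^n − 1 (the multiplicative group of the field with q^n elements, a Singer cycle). -/
theorem result {F : Type*} [Field F] [Fintype F] {p q : ℕ} [Fact p.Prime] [CharP F p] (hF : Fintype.card F = q) {n r : ℕ} (hn : 1 ≤ n) (hr : r.Prime) (hrp : r ≠ p) (hi : orderOf (q : ZMod r) = n) (x : GL (Fin n) F) (hx : orderOf x = r) : IsCyclic ↥(Subgroup.centralizer ({x} : Set (GL (Fin n) F))) ∧ Nat.card ↥(Subgroup.centralizer ({x} : Set (GL (Fin n) F))) = q ^ n - 1 := by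
  classical
  have := Fact.mk hr
  let X : Module.End F (Fin n → F) := Matrix.toLin' x.1
  have hX : X ^ r = 1 := by
    rw [← Matrix.toLin'_pow, ← Units.val_pow_eq_pow_val, ← hx, pow_orderOf_eq_one, Units.val_one, Matrix.toLin'_one]; rfl
  have h1 : ∀ W : Submodule F (Fin n → F), (∀ w ∈ W, X w ∈ W) → (∀ w ∈ W, X w = w → w = 0) → W = ⊥ ∨ W = ⊤ :=
    fun W h1 h2 => by
      have h3 := Equiv.Perm.card_fixedPoints_modEq (f := (X.restrict h1 : W → W)) (p := r) (n := 1) (by
        funext w
        change (X.restrict h1)^[r ^ 1] w = w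
        rw [pow_one, ← Module.End.pow_apply, Module.End.pow_restrict]
        exact Subtype.ext (by simp [hX]))
      rw [(Fintype.card_eq_one_iff (α := Function.fixedPoints (X.restrict h1))).2
        ⟨⟨0, map_zero (X.restrict h1)⟩, fun w => Subtype.ext (Subtype.ext
        (h2 _ w.1.2 (congrArg Subtype.val w.2)))⟩, Module.card_eq_pow_finrank (K := F), hF,
        ← ZMod.natCast_eq_natCast_iff, Nat.cast_pow, Nat.cast_one, ← orderOf_dvd_iff_pow_eq_one, hi] at h3
      rcases (Module.finrank F W).eq_zero_or_pos with h | h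
      · exact .inl (Submodule.finrank_eq_zero.1 h)
      · exact .inr (Submodule.eq_top_of_finrank_eq (le_antisymm W.finrank_le (by simpa using Nat.le_of_dvd h h3)))
  have h2 : ∀ v, X (X v - v) = X v - v → X v - v = 0 := fun v hv => by
    have : ∀ k : ℕ, (X ^ k) v = v + (k : F) • (X v - v) := fun k => by
      induction k with
      | zero => simp
      | succ k ih => rw [pow_succ', Module.End.mul_apply, ih, map_add, map_smul, hv]; push_cast; module
    have h := this r
    rw [hX, Module.End.one_apply, left_eq_add, smul_eq_zero, CharP.cast_eq_zero_iff F p,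
      Nat.prime_dvd_prime_iff_eq Fact.out hr] at h
    exact h.resolve_left hrp.symm
  have h3 : LinearMap.range (X - 1) = ⊤ := (h1 _ (by rintro _ ⟨v, rfl⟩; exact ⟨X v, by simp⟩) (by
    rintro _ ⟨v, rfl⟩; exact h2 v)).resolve_left fun h => hr.one_lt.ne' (by
      rw [← hx, orderOf_eq_one_iff]
      exact Units.ext (Matrix.toLin'.injective ((sub_eq_zero.1 (LinearMap.range_eq_bot.1 h)).trans
        Matrix.toLin'_one.symm)))
  have h4 : ∀ W : Submodule F (Fin n → F), (∀ w ∈ W, X w ∈ W) → W = ⊥ ∨ W = ⊤ := fun W h => h1 W h fun w _ hw => by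
    obtain ⟨v, rfl⟩ := LinearMap.range_eq_top.1 h3 w
    exact h2 v hw
  let C := Subalgebra.centralizer F {x.1}
  have hC : ∀ (c : C) v, X (c.1.mulVec v) = c.1.mulVec (X v) := fun c v => by
    simp [X, c.2 x.1 rfl]
  have h5 : ∀ c : C, c ≠ 0 → IsUnit c.1 := fun c hc => by
    rw [← Matrix.mulVec_injective_iff_isUnit, ← Matrix.coe_mulVecLin, ← LinearMap.ker_eq_bot]
    refine (h4 _ fun w hw => ?_).resolve_right fun h => hc (Subtype.ext (Matrix.toLin'.injective ?_))
    · change c.1.mulVec (X w) = 0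
      rw [← hC, show c.1.mulVec w = 0 from hw, map_zero]
    · exact (LinearMap.ker_eq_top.1 h).trans (map_zero _).symm
  have : NeZero n := ⟨by omega⟩
  have : NoZeroDivisors C := ⟨fun {a b} h => or_iff_not_imp_left.2 fun ha =>
    Subtype.ext ((h5 a ha).mul_right_eq_zero.1 (congrArg Subtype.val h))⟩
  have : IsDomain C := NoZeroDivisors.to_isDomain C
  let := (Finite.isDomain_to_isField C).toField
  let f : Subgroup.centralizer ({x} : Set (GL (Fin n) F)) →* C :=
    { toFun g := ⟨g.1.1, fun y hy => hy ▸ congrArg Units.val (g.2 x rfl)⟩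
      map_one' := rfl, map_mul' _ _ := rfl }
  have hf : Function.Injective f := fun a b e => Subtype.ext (Units.ext (congrArg Subtype.val e))
  refine ⟨isCyclic_of_subgroup_isDomain f hf, ?_⟩
  let ev : C →ₗ[F] (Fin n → F) :=
    { toFun c := c.1.mulVec 1, map_add' _ _ := Matrix.add_mulVec _ _ _, map_smul' _ _ := Matrix.smul_mulVec _ _ _ }
  have h6 : Nat.card C = q ^ n := by
    refine (Nat.card_congr (Equiv.ofBijective ev ⟨(injective_iff_map_eq_zero ev).2 fun c hc => ?_,
      LinearMap.range_eq_top.1 ((h4 _ ?_).resolve_left fun h => ?_)⟩)).trans (by simp [hF])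
    · by_contra h
      exact one_ne_zero (Matrix.mulVec_injective_iff_isUnit.2 (h5 c h) (hc.trans (Matrix.mulVec_zero _).symm))
    · rintro _ ⟨c, rfl⟩
      exact ⟨⟨x.1, fun y hy => hy ▸ rfl⟩ * c, by simp [ev, X]⟩
    · simpa [ev] using congrArg (fun t : C →ₗ[F] _ => t 1) (LinearMap.range_eq_bot.1 h)
  rw [← h6, ← Nat.card_units]
  refine Nat.card_congr (Equiv.ofBijective f.toHomUnits ⟨fun a b e => hf (congrArg Units.val e), fun c => ?_⟩)
  exact ⟨⟨(h5 c c.ne_zero).unit, fun y hy => hy ▸ Units.ext (c.1.2 x.1 rfl)⟩, Units.ext (Subtype.ext rfl)⟩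

end Cfsg.Agent.S2638
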