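import Mathlib
import Cfsg.Statements.S2639
import Cfsg.Agent.H09.Embed

set_option autoImplicit false
open Cfsg

namespace Cfsg.Agent.S2639

/-- The unitary group embeds in the symplectic group of twice the dimension over the subfield: for a field K with q² elements and a field F with q elements (isomorphic to the subfield of K of order q), there is an injective homomorphism GU_m(q) → Sp_2m(F). -/
theorem result {K F : Type*} [Field K] [Fintype K] [Field F] [Fintype F] {q : ℕ} (hK : Fintype.card K = q ^ 2) (hF : Fintype.card F = q) (m : ℕ) : ∃ φ : ↥(Cfsg.GU m K q) →* ↥(Matrix.symplecticGroup (Fin m) F), Function.Injective φ := by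
  have hK' := Nat.card_eq_fintype_card.trans hK
  have hF' := Nat.card_eq_fintype_card.trans hF
  obtain ⟨_⟩ := H10.nonempty_algebra_of_card (F := F) two_ne_zero (hK'.trans (by rw [hF']))
  have h := H09.gu_le_sp hF' (H10.stdU_isUnitary hK' m)
  rw [Module.finrank_fin_fun] at h
  obtain ⟨f, hf⟩ := h
  exact ⟨f.comp (H10.GUEquiv hK' m).toMonoidHom, hf.comp (H10.GUEquiv hK' m).injective⟩

end Cfsg.Agent.S2639
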