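import Mathlib
import Cfsg.Statements.S2640
import Cfsg.Agent.H09.Embed

set_option autoImplicit false
open Cfsg

namespace Cfsg.Agent.S2640

/-- For m even, the unitary group GU_m(q) (over the field with q² elements) embeds in the orthogonal group O⁺_2m(q) of the hyperbolic form Σ x_i y_i over the field with q elements (there is an injective homomorphism). -/
theorem result {K F : Type*} [Field K] [Fintype K] [Field F] [Fintype F] {q : ℕ} (hK : Fintype.card K = q ^ 2) (hF : Fintype.card F = q) (m : ℕ) (hm : Even m) : ∃ φ : ↥(Cfsg.GU m K q) →* ↥(Cfsg.isometryGroup F (Cfsg.quadFormPlus m F)), Function.Injective φ := by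
  have hK' := Nat.card_eq_fintype_card.trans hK
  have hF' := Nat.card_eq_fintype_card.trans hF
  obtain ⟨_⟩ := H10.nonempty_algebra_of_card (F := F) two_ne_zero (hK'.trans (by rw [hF']))
  have h := H10.stdU_isUnitary hK' m
  obtain ⟨f, hf⟩ := H09.gu_le_res hF' h
  have := h.res_nondeg hF'
  have h1 := h.res_hasTS_iff hF'
  have h2 := h.finrank_res hF'
  rw [Module.finrank_fin_fun] at h1 h2
  obtain ⟨g, hg⟩ := (h.isQuad_res hF').exists_isEquiv_even (H10.Form.isQuad_ofQuad (H10.qPlus m F)) h2
    (by simp [two_mul]) (iff_of_true (h1.2 hm) H10.qPlus_hasTS)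
  let e := hg.isomEquiv.trans (H10.isometryEquiv (H10.qPlus m F)).symm
  exact ⟨e.toMonoidHom.comp (f.comp (H10.GUEquiv hK' m).toMonoidHom),
    e.injective.comp (hf.comp (H10.GUEquiv hK' m).injective)⟩

end Cfsg.Agent.S2640
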