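import Mathlib
import Cfsg.Statements.S2641
import Cfsg.Agent.H09.Embed

set_option autoImplicit false
open Cfsg

namespace Cfsg.Agent.S2641

/-- For m odd, the unitary group GU_m(q) (over the field with q² elements) embeds in the orthogonal group O⁻_2m(q) of an elliptic form (Σ_(i<m−1) x_i y_i plus an anisotropic binary form) over the field with q elements (there is an injective homomorphism). -/
theorem result {K F : Type*} [Field K] [Fintype K] [Field F] [Fintype F] {q : ℕ} (hK : Fintype.card K = q ^ 2) (hF : Fintype.card F = q) (m : ℕ) (hm : Odd m) (a b : F) (hab : ∀ z₁ z₂ : F, z₁ ^ 2 + a * z₁ * z₂ + b * z₂ ^ 2 = 0 → z₁ = 0 ∧ z₂ = 0) : ∃ φ : ↥(Cfsg.GU m K q) →* ↥(Cfsg.isometryGroup F (Cfsg.quadFormMinus (m - 1) F a b)), Function.Injective φ := by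
  have hK' := Nat.card_eq_fintype_card.trans hK
  have hF' := Nat.card_eq_fintype_card.trans hF
  obtain ⟨_⟩ := H10.nonempty_algebra_of_card (F := F) two_ne_zero (hK'.trans (by rw [hF']))
  have h := H10.stdU_isUnitary hK' m
  obtain ⟨f, hf⟩ := H09.gu_le_res hF' h
  have := h.res_nondeg hF'
  have h1 := h.res_hasTS_iff hF'
  have h2 := h.finrank_res hF'
  rw [Module.finrank_fin_fun] at h1 h2
  have h3 : m - 1 + 1 = m := Nat.sub_add_cancel hm.pos
  obtain ⟨e⟩ := H10.isom_equiv_minus (h.isQuad_res hF') (m := m - 1) (by omega)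
    (by rw [h3, h1]; exact Nat.not_even_iff_odd.2 hm) hab
  exact ⟨e.symm.toMonoidHom.comp (f.comp (H10.GUEquiv hK' m).toMonoidHom),
    e.symm.injective.comp (hf.comp (H10.GUEquiv hK' m).injective)⟩

end Cfsg.Agent.S2641
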