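import Cfsg.Statements.S2642
import Cfsg.Agent.H24.Uni
import Cfsg.Agent.S2570
-- import your own Cfsg.Agent.* helpers here

set_option autoImplicit false
open Cfsg

namespace Cfsg.Agent.S2642

/-- Number of conjugacy classes of elements of order p in the general unitary group GU_n(q), q a power of p: every unipotent Jordan type occurs and the classes correspond to the partitions of n with all parts at most p other than the all-ones partition, exactly as in GL_n; so there are (number of partitions of n with parts ≤ p) − 1 classes. -/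
theorem result {K : Type*} [Field K] [Fintype K] {p q n : ℕ} [Fact p.Prime] [CharP K p] (hK : Fintype.card K = q ^ 2) : Nat.card {C : ConjClasses ↥(Cfsg.GU n K q) // ∃ g : ↥(Cfsg.GU n K q), ConjClasses.mk g = C ∧ orderOf g = p} = (Finset.univ.filter (fun μ : Nat.Partition n => ∀ a ∈ μ.parts, a ≤ p)).card - 1 := by
  have hK' := Nat.card_eq_fintype_card.trans hK
  rw [← Cfsg.Agent.S2570.result (F := K) n]
  refine H24.Uni.card_classes_of_fused (Cfsg.GU n K q).subtype _ (fun g => orderOf g = p)
    (fun a b _ _ h => (H24.Uni.isConj_GU_iff hK' a b).2 h) (fun a ha => (Subgroup.orderOf_coe a).trans ha) fun g hg => ?_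
  obtain ⟨b, hb⟩ := (H24.Uni.exists_GU_iff hK' g).2 (H24.Uni.selfdual_of_unip hK' g
    ((H24.Sim.pElt_iff_nilpotent p g).1 ⟨1, by rw [hg, pow_one]⟩))
  refine ⟨b, ?_, hb⟩
  obtain ⟨c, hc⟩ := isConj_iff.1 hb
  rw [← Subgroup.orderOf_coe, ← hc, ← hg]
  exact (MulAut.conj c).orderOf_eq g

end Cfsg.Agent.S2642
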