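import Cfsg.Statements.S2643
import Cfsg.Agent.H24.Uni
-- import your own Cfsg.Agent.* helpers here

set_option autoImplicit false
open Cfsg

namespace Cfsg.Agent.S2643

/-- Regular unipotent classes of SU_n(q), n ≥ 2: the elements u of the special unitary group (isometries of Σ u_i v_i^q of determinant one over the field with q² elements) with (u − 1)^n = 0 and rank(u − 1) = n − 1 form exactly gcd(n, q + 1) conjugacy classes of SU_n(q). -/
theorem result {K : Type*} [Field K] [Fintype K] {q n : ℕ} (hK : Fintype.card K = q ^ 2) (hn : 2 ≤ n) : Nat.card {C : ConjClasses ↥(Cfsg.SU n K q) // ∃ u : ↥(Cfsg.SU n K q), ConjClasses.mk u = C ∧ (((u : GL (Fin n) K) : Matrix (Fin n) (Fin n) K) - 1) ^ n = 0 ∧ (((u : GL (Fin n) K) : Matrix (Fin n) (Fin n) K) - 1).rank = n - 1} = Nat.gcd n (q + 1) := by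
  have hK' := Nat.card_eq_fintype_card.trans hK
  obtain ⟨g, hg⟩ := H24.Sim.exists_of_utyp (F := K) (n := Fin n) (μ := {n}) (by simp; omega) (by simp)
  obtain ⟨b, hb⟩ := (H24.Uni.exists_GU_iff hK' g).2 (H24.Uni.selfdual_of_unip hK' g (H24.Sim.nilpotent_of_utyp hg))
  rw [(H24.Sim.typ_eq_iff _ _).2 ((H24.Sim.isConj_GL_iff _ _).1 hb)] at hg
  have hnil := H24.Sim.nilpotent_of_utyp hg
  let a : Cfsg.SU n K q := ⟨⟨b.1, H24.Sim.det_of_unip hnil⟩, b.2⟩
  have ht : H24.Sim.typ a.1.1 = {(Polynomial.X - 1) ^ n} := hg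
  have key : ∀ u : Cfsg.SU n K q, ((((u : GL (Fin n) K) : Matrix (Fin n) (Fin n) K) - 1) ^ n = 0 ∧
      (((u : GL (Fin n) K) : Matrix (Fin n) (Fin n) K) - 1).rank = n - 1) ↔
        IsConj (H24.Uni.toGU K q n a) (H24.Uni.toGU K q n u) := fun u => by
    rw [H24.Uni.isConj_GU_iff hK', H24.Sim.isConj_GL_iff, ← H24.Sim.typ_eq_iff]
    change ((u.1.1 - 1) ^ n = 0 ∧ (u.1.1 - 1).rank = n - 1) ↔ H24.Sim.typ a.1.1 = H24.Sim.typ u.1.1
    rw [ht]
    constructor
    · rintro ⟨h1, h2⟩
      rw [H24.Sim.typ_of_regular ⟨n, h1⟩ (by rw [h2, Fintype.card_fin]; omega), Fintype.card_fin]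
    · intro h
      have h' : H24.Sim.typ u.1.1 = H24.Sim.utyp K {n} := h.symm
      refine ⟨(H24.Sim.pow_eq_zero_iff_utyp h' n).2 (by simp), ?_⟩
      have := H24.Sim.rank_add_card (by simp; omega) h'
      simp at this; omega
  simp only [key]
  rw [H24.Uni.card_ker_classes _ (H24.Uni.detU K q n) H24.Uni.toGU_injective H24.Uni.range_toGU a,
    H24.Uni.range_det hK' (by omega)]
  set U := (powMonoidHom (q + 1) : Kˣ →* Kˣ).ker with hU
  have hU' : ∀ c : Kˣ, c ∈ U ↔ H10.conj hK' c * c = 1 := fun c => by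
    rw [hU, MonoidHom.mem_ker, powMonoidHom_apply, Units.ext_iff, pow_succ]; simp [H10.conj_apply]
  have : ((Subgroup.centralizer ({H24.Uni.toGU K q n a} : Set (Cfsg.GU n K q))).map (H24.Uni.detU K q n)).subgroupOf U =
      (powMonoidHom n : U →* U).range := by
    ext c
    rw [Subgroup.mem_subgroupOf]
    constructor
    · rintro ⟨x, hx, hc⟩
      obtain ⟨f, hf⟩ := H24.Sim.exists_aeval_of_commute (B := x.1.1) ht
        (congrArg (fun y : Cfsg.GU n K q => y.1.1) (Subgroup.mem_centralizer_singleton_iff.1 hx))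
      have h1 := H24.Sim.det_aeval_unip hnil f
      change (Polynomial.aeval a.1.1 f).det = _ at h1
      rw [← hf, Fintype.card_fin] at h1
      have h2 : f.eval 1 ≠ 0 := fun h => by
        rw [h, zero_pow (by omega)] at h1
        exact (Matrix.GeneralLinearGroup.det x.1).ne_zero h1
      have h3 : H10.conj hK' (f.eval 1) * f.eval 1 = 1 := by
        haveI : Nonempty (Fin n) := ⟨⟨0, by omega⟩⟩
        have n1 : IsNilpotent (x.1.1 - f.eval 1 • 1) := by
          obtain ⟨k, hk⟩ := Polynomial.X_sub_C_dvd_sub_C_eval (p := f) (a := (1 : K))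
          have := congrArg (Polynomial.aeval a.1.1) hk
          simp only [map_sub, map_mul, Polynomial.aeval_C, Polynomial.aeval_X, Algebra.algebraMap_eq_smul_one,
            one_smul] at this
          rw [hf, this]
          exact Commute.isNilpotent_mul_right
            (H24.Sim.commute_aeval ((Commute.refl _).sub_left (Commute.one_left _)) k) hnil
        have n2 : IsNilpotent (H24.Uni.st hK' x.1.1 - H10.conj hK' (f.eval 1) • 1) := by
          obtain ⟨k, hk⟩ := n1
          exact ⟨k, by rw [← H24.Uni.st_one hK', ← H24.Uni.st_smul, ← map_sub, ← H24.Uni.st_pow, hk, map_zero]⟩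
        have x1 := (H24.Uni.mem_GU_iff hK' _).1 x.2
        have x2 : Commute (H24.Uni.st hK' x.1.1) x.1.1 := x1.trans (mul_eq_one_comm.1 x1).symm
        have x3 : Commute (H24.Uni.st hK' x.1.1) (x.1.1 - f.eval 1 • 1) :=
          x2.sub_right ((Commute.one_right _).smul_right _)
        have n3 := Commute.isNilpotent_add (((((Commute.refl _).mul_left x3.symm).sub_right
          ((Commute.one_right _).smul_right _))).smul_right _) (x3.isNilpotent_mul_left n1) (n2.smul (f.eval 1))
        by_contra h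
        refine n3.not_isUnit ?_
        convert H24.Uni.isUnit_smul_one (n := n) (sub_ne_zero.2 (Ne.symm h)) using 1
        rw [mul_sub, x1, smul_sub, smul_smul, sub_smul, mul_comm (f.eval 1)]; simp
      exact ⟨⟨Units.mk0 _ h2, (hU' _).2 h3⟩, Subtype.ext (Units.ext (h1.symm.trans (congrArg Units.val hc)))⟩
    · rintro ⟨c, rfl⟩
      refine ⟨⟨Units.map (Matrix.scalar (Fin n) : K →+* _).toMonoidHom c, (H24.Uni.mem_GU_iff hK' _).2 ?_⟩,
        Subgroup.mem_centralizer_singleton_iff.2 (Subtype.ext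
        (Units.ext (Matrix.scalar_commute (c.1 : K) (fun _ => Commute.all _ _) _).eq)), Units.ext ?_⟩
      · change H24.Uni.st hK' (Matrix.scalar (Fin n) c.1.1) * Matrix.scalar (Fin n) c.1.1 = 1
        rw [Matrix.scalar_apply, ← Matrix.smul_one_eq_diagonal, H24.Uni.st_smul, H24.Uni.st_one]
        rw [smul_mul_smul_comm, (hU' _).1 c.2, one_mul, one_smul]
      · simp [H24.Uni.detU]
  rw [Subgroup.relIndex, this, IsCyclic.index_powMonoidHom_range, Nat.gcd_comm]
  rw [hU, H10.card_ker_pow_add hK']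

end Cfsg.Agent.S2643
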