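import Mathlib
import Cfsg.Statements.S2644
import Cfsg.Agent.H09.UFacts

set_option autoImplicit false
open Cfsg

namespace Cfsg.Agent.S2644

open H10 H10.Form H09 Matrix in
theorem aux {K : Type*} [Field K] [Finite K] {q n : ℕ} (hK : Nat.card K = q ^ 2) (s : ↥(Cfsg.SU n K q))
    (hs : Cfsg.IsTransvection (((s : GL (Fin n) K) : Matrix (Fin n) (Fin n) K))) :
    ∃ p k, p ≠ 0 ∧ k ≠ 0 ∧ (stdU hK n).Q p = 0 ∧ (stdU hK n).T k = 0 ∧
      (SUEquiv hK n s).1 = (stdU hK n).quasi p k := by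
  refine exists_eq_quasi (stdU_isUnitary hK n).herm _ ?_ fun x => ?_
  · rw [← hs.1, Matrix.rank]
    exact congrArg (fun f : _ →ₗ[K] _ => Module.finrank K (LinearMap.range f))
      (LinearMap.ext fun x => by simp [SUEquiv_apply, sub_mulVec])
  · have := congrArg (· *ᵥ x) hs.2
    simp only [← mulVec_mulVec, sub_mulVec, one_mulVec, zero_mulVec, sub_eq_zero] at this
    exact this

/-- In the special unitary group SU_n(q) with n ≥ 3 (isometries of Σ u_i v_i^q of determinant one over the field with q² elements), any two transvections (elements t with t − 1 of rank one and square zero) are conjugate. -/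
theorem result {K : Type*} [Field K] [Fintype K] {q n : ℕ} (hK : Fintype.card K = q ^ 2) (hn : 3 ≤ n) (s t : ↥(Cfsg.SU n K q)) (hs : Cfsg.IsTransvection (((s : GL (Fin n) K) : Matrix (Fin n) (Fin n) K))) (ht : Cfsg.IsTransvection (((t : GL (Fin n) K) : Matrix (Fin n) (Fin n) K))) : IsConj s t := by
  have hK' := Nat.card_eq_fintype_card.trans hK
  obtain ⟨p, k, h1, h2, h3, h4, e⟩ := aux hK' s hs
  obtain ⟨p', k', h1', h2', h3', h4', e'⟩ := aux hK' t ht
  obtain ⟨g, hg, h⟩ := H09.quasi_conj_of_sing (H10.stdU_isUnitary hK' n) (by simpa using hn) h1 h2 h3 h4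
    h1' h2' h3' h4'
  obtain ⟨g, rfl⟩ : ∃ x, (H10.SUEquiv hK' n x).1 = g :=
    ⟨(H10.SUEquiv hK' n).symm ⟨g, hg⟩, by simp⟩
  refine isConj_iff.2 ⟨g, (H10.SUEquiv hK' n).injective (Subtype.ext ?_)⟩
  rw [e', ← h, ← e]; simp

end Cfsg.Agent.S2644
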