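import Mathlib
import Cfsg.Statements.S2645
import Cfsg.Agent.H16.Cc2

set_option autoImplicit false
open Cfsg

namespace Cfsg.Agent.S2645

open Module H28.El

/-- Number of conjugacy classes of elements of odd prime order r, r different from the characteristic, in the symplectic group Sp_2m(q): let i be the multiplicative order of q modulo r and t = (r − 1)/i. If i is odd the eigenvalue orbits pair off (Λ ≠ Λ⁻¹) and the classes correspond to the non-zero (t/2)-tuples (a_j) with 2i Σ a_j ≤ 2m, giving C(⌊m/i⌋ + t/2, t/2) − 1 classes; if i is even (Λ = Λ⁻¹) they correspond to the non-zero t-tuples with i Σ a_j ≤ 2m, giving C(⌊2m/i⌋ + t, t) − 1 classes. -/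
theorem result {F : Type*} [Field F] [Fintype F] {p q : ℕ} [Fact p.Prime] [CharP F p] (hF : Fintype.card F = q) (m r i t : ℕ) (hr : r.Prime) (hr2 : r ≠ 2) (hrp : r ≠ p) (hi : i = orderOf (q : ZMod r)) (ht : t * i = r - 1) : Nat.card {C : ConjClasses ↥(Matrix.symplecticGroup (Fin m) F) // ∃ g : Matrix.symplecticGroup (Fin m) F, ConjClasses.mk g = C ∧ orderOf g = r} = if Odd i then Nat.choose (m / i + t / 2) (t / 2) - 1 else Nat.choose (2 * m / i + t) t - 1 := by
  subst hF hi
  haveI := Fact.mk hr
  classical
  rw [H24.Wall.card_inv_classes_congr (H09.spIsomEquiv (Fin m) F), H16.Cc.count_alt (natCast_ne_zero hr hrp)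
    (hr.odd_of_ne_two hr2) H09.isAltF_spForm ht, show finrank F (Fin m ⊕ Fin m → F) = 2 * m by simp [two_mul],
    Nat.mul_div_mul_left _ _ two_pos]

end Cfsg.Agent.S2645
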