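import Mathlib
import Cfsg.Statements.S2665

set_option autoImplicit false
open scoped MatrixGroups
open Cfsg

namespace Cfsg.Agent.S2665

open Polynomial in
theorem exists_fixed {K V : Type*} [Field K] [IsAlgClosed K] [AddCommGroup V] [Module K V]
    [FiniteDimensional K V] {σ : K →+* K} {q : ℕ} (hq : 2 ≤ q) (hσ : ∀ a, σ a = a ^ q) (φ : V →ₛₗ[σ] V)
    (hφ : Function.Injective φ) {v : V} (hv : v ≠ 0) : ∃ w, w ≠ 0 ∧ φ w = w := by
  classical
  have hex : ∃ r, ¬ LinearIndependent K fun i : Fin (r + 1) => φ^[i] v :=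
    ⟨Module.finrank K V, fun h => by simpa using h.fintype_card_le_finrank⟩
  obtain ⟨r, hr, hr'⟩ : ∃ r, LinearIndependent K (fun i : Fin (r + 1) => φ^[i] v) ∧
      ¬ LinearIndependent K fun i : Fin (r + 1 + 1) => φ^[i] v := by
    have h0 : Nat.find hex ≠ 0 := fun h => by
      have := Nat.find_spec hex
      rw [h] at this
      exact this ((linearIndependent_unique_iff (ι := Fin 1)).2 hv)
    obtain ⟨r, hr⟩ := Nat.exists_eq_succ_of_ne_zero h0
    exact ⟨r, not_not.1 (Nat.find_min hex (by omega)), by have := Nat.find_spec hex; rwa [hr] at this⟩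
  rw [linearIndependent_finSucc', not_and, not_not] at hr'
  obtain ⟨a', ha⟩ := (Submodule.mem_span_range_iff_exists_fun K).1 (hr' hr)
  let a : ℕ → K := fun i => if h : i < r + 1 then a' ⟨i, h⟩ else 0
  replace ha : ∑ i ∈ Finset.range (r + 1), a i • φ^[i] v = φ^[r + 1] v := by
    rw [Finset.sum_range]
    simpa [a, Fin.init, Nat.lt_succ_iff, Fin.is_le] using ha
  let P : ℕ → K[X] := fun k => Nat.rec 0 (fun i Q => Q ^ q + C (a i) * X ^ q) k
  have hP : ∀ k, P (k + 1) = P k ^ q + C (a k) * X ^ q := fun _ => rfl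
  have h1 : ∀ k, X ^ 2 ∣ P k := fun k => by
    induction k with
    | zero => exact dvd_zero _
    | succ k ih => exact dvd_add (ih.trans (dvd_pow_self _ (by omega))) ((pow_dvd_pow _ hq).mul_left _)
  have h2 : ∀ k, P k = 0 → ∀ i < k, a i = 0 := fun k => by
    induction k with
    | zero => simp
    | succ k ih =>
      intro h i hi
      have h3 : a k = 0 := by
        have := congrArg (coeff · q) h
        rwa [hP, coeff_add, coeff_C_mul_X_pow, if_pos rfl, X_pow_dvd_iff.1
          (pow_mul (X : K[X]) 2 q ▸ pow_dvd_pow_of_dvd (h1 k) q) q (by omega), zero_add] at this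
      rw [hP, h3, C_0, zero_mul, add_zero] at h
      rcases (Nat.lt_succ_iff_lt_or_eq.1 hi) with hi | rfl
      exacts [ih (pow_eq_zero_iff (by omega) |>.1 h) i hi, h3]
  have h3 : ∀ (t : K) k, φ (∑ i ∈ Finset.range k, (P (i + 1)).eval t • φ^[i] v) =
      ∑ i ∈ Finset.range k, (P (i + 1)).eval t • φ^[i] v - t ^ q • ∑ i ∈ Finset.range k, a i • φ^[i] v +
        (P k).eval t ^ q • φ^[k] v := fun t k => by
    induction k with
    | zero => simp [P, show q ≠ 0 by omega]
    | succ k ih =>
      rw [Finset.sum_range_succ, map_add, ih, map_smulₛₗ, hσ, Finset.sum_range_succ,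
        Function.iterate_succ_apply', hP k]
      simp only [eval_add, eval_pow, eval_mul, eval_C, eval_X]
      module
  obtain ⟨S, hS⟩ := h1 (r + 1)
  have hS0 : S ≠ 0 := fun h => by
    rw [Finset.sum_eq_zero fun i hi => by
      rw [h2 _ (by rw [hS, h, mul_zero]) i (Finset.mem_range.1 hi), zero_smul]] at ha
    exact hv ((hφ.iterate (r + 1)) (by rw [← ha, Function.iterate_fixed (map_zero φ)]))
  obtain ⟨t, ht⟩ := IsAlgClosed.exists_root (X * S - C 1) (by
    have : 0 < (X * S).degree := natDegree_pos_iff_degree_pos.1 (by rw [natDegree_X_mul hS0]; omega)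
    rw [degree_sub_C this]; exact this.ne')
  simp only [IsRoot.def, eval_sub, eval_mul, eval_X, eval_C, sub_eq_zero] at ht
  have h4 : (P (r + 1)).eval t = t := by simp [hS, sq, mul_assoc, ht]
  refine ⟨_, fun h => ?_, by rw [h3 t (r + 1), ha, h4, sub_add_cancel]⟩
  rw [Finset.sum_range] at h
  have := Fintype.linearIndependent_iff.1 hr _ h (Fin.last r)
  rw [Fin.val_last, h4] at this
  simp [this] at ht

theorem span_fixed {K V : Type*} [Field K] [IsAlgClosed K] [AddCommGroup V] [Module K V]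
    [FiniteDimensional K V] {σ : K →+* K} {q : ℕ} (hq : 2 ≤ q) (hσ : ∀ a, σ a = a ^ q) (φ : V →ₛₗ[σ] V)
    (hφ : Function.Injective φ) : Submodule.span K {v | φ v = v} = ⊤ := by
  set W := Submodule.span K {v | φ v = v}
  have key : ∀ w ∈ W, φ w ∈ W ∧ (∃ u ∈ W, φ u = w) ∧ ∃ u ∈ W, φ u - u = w := fun w hw => by
    induction hw using Submodule.closure_induction with
    | zero => exact ⟨by simp, ⟨0, by simp⟩, 0, by simp⟩
    | add x y _ _ h1 h2 =>
      obtain ⟨h1, ⟨u, hu, rfl⟩, u', hu', h3⟩ := h1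
      obtain ⟨h2, ⟨v, hv, rfl⟩, v', hv', h4⟩ := h2
      exact ⟨by rw [map_add]; exact add_mem h1 h2, ⟨_, add_mem hu hv, map_add _ _ _⟩, _, add_mem hu' hv',
        by rw [← h3, ← h4, map_add]; abel⟩
    | smul_mem c x hx =>
      have hx' : φ x = x := hx
      have hW : ∀ a : K, a • x ∈ W := fun a => W.smul_mem _ (Submodule.subset_span hx)
      obtain ⟨a, ha⟩ := IsAlgClosed.exists_pow_nat_eq c (n := q) (by omega)
      obtain ⟨t, ht⟩ := IsAlgClosed.exists_root (Polynomial.X ^ q - (Polynomial.X + Polynomial.C c)) (by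
        rw [Polynomial.degree_sub_eq_left_of_degree_lt (by
          rw [Polynomial.degree_X_add_C, Polynomial.degree_X_pow]; exact_mod_cast hq), Polynomial.degree_X_pow]
        exact_mod_cast (show q ≠ 0 by omega))
      refine ⟨by rw [map_smulₛₗ, hx']; exact hW _, ⟨_, hW a, by rw [map_smulₛₗ, hx', hσ, ha]⟩, _, hW t, ?_⟩
      rw [map_smulₛₗ, hx', hσ, ← sub_smul, show t ^ q - t = c by
        simp [sub_eq_zero] at ht; rw [ht]; ring]
  by_contra h
  obtain ⟨v, hv⟩ : ∃ v : V ⧸ W, v ≠ 0 := by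
    have := Submodule.Quotient.nontrivial_iff.2 h
    exact exists_ne 0
  obtain ⟨w, hw, hw'⟩ := exists_fixed hq hσ (W.mapQ W φ fun w hw => (key w hw).1) (by
    rw [← LinearMap.ker_eq_bot, eq_bot_iff]
    intro x hx
    obtain ⟨x, rfl⟩ := W.mkQ_surjective x
    obtain ⟨u, hu, e⟩ := (key _ ((Submodule.Quotient.mk_eq_zero W).1 hx)).2.1
    exact (Submodule.Quotient.mk_eq_zero W).2 (hφ e ▸ hu)) hv
  obtain ⟨w, rfl⟩ := W.mkQ_surjective w
  obtain ⟨u, hu, e⟩ := (key _ ((Submodule.Quotient.eq W).1 hw')).2.2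
  refine hw ((Submodule.Quotient.mk_eq_zero W).2 ?_)
  have : w - u ∈ W := Submodule.subset_span (show φ (w - u) = w - u by
    rw [map_sub, sub_eq_sub_iff_sub_eq_sub, e])
  simpa using add_mem this hu

/-- The Lang–Steinberg Theorem for the general linear group. Let `K` be an algebraically closed field of prime characteristic `p`, let `q = p^f` with `f ≥ 1`, and let `σ` be the endomorphism of GL_n(K) raising every matrix entry to the `q`-th power. Then every element `g` of GL_n(K) can be written `g = x · σ(x)⁻¹` for some `x` in GL_n(K): the map `x ↦ x σ(x)⁻¹` is surjective. -/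
theorem result {K : Type*} [Field K] [IsAlgClosed K] (p : ℕ) [Fact p.Prime] [CharP K p]
    (f : ℕ) (hf : 1 ≤ f) (n : ℕ) (g : GL (Fin n) K) :
    ∃ x : GL (Fin n) K, g = x * (Matrix.GeneralLinearGroup.map (iterateFrobenius K p f) x)⁻¹ := by
  let φ : (Fin n → K) →ₛₗ[iterateFrobenius K p f] (Fin n → K) :=
    { toFun v := g.1.mulVec fun i => iterateFrobenius K p f (v i)
      map_add' u v := by rw [← Matrix.mulVec_add]; congr 1; ext; simp
      map_smul' a v := by rw [← Matrix.mulVec_smul]; congr 1; ext; simp }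
  have h := span_fixed (q := p ^ f) (Nat.one_lt_pow (by omega) (Fact.out : p.Prime).one_lt)
    (iterateFrobenius_def p f) φ fun u v e => funext fun i => (iterateFrobenius K p f).injective
      (congrFun (Matrix.mulVec_injective_iff_isUnit.2 g.isUnit e) i)
  have h1 := Submodule.exists_fun_fin_finrank_span_eq K {v | φ v = v}
  rw [h, finrank_top, Module.finrank_fin_fun] at h1
  obtain ⟨b, h1, -, h2⟩ := h1
  obtain ⟨x, hx⟩ := (Matrix.linearIndependent_cols_iff_isUnit (A := (Matrix.of b).transpose)).1 h2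
  refine ⟨x, eq_mul_inv_of_mul_eq (Units.ext (Matrix.ext fun i k => ?_))⟩
  have := congrFun (h1 k : φ (b k) = b k) i
  simpa [φ, hx, Matrix.mul_apply, Matrix.mulVec, dotProduct] using this

end Cfsg.Agent.S2665
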