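import Mathlib
import Cfsg.Statements.S2670
import Cfsg.Agent.H16.Cc3

set_option autoImplicit false
open Cfsg

namespace Cfsg.Agent.S2670

open Module H16.Cc H24.Sim

/-- Number of conjugacy classes of elements of prime order r in PGL_n(q) = GL_n(q)/scalars when r divides q − 1 (n ≥ 2): the classes of elements with a diagonalisable lift correspond to the orbits of the cyclic rotation on the r-tuples of eigenvalue multiplicities (a_0, …, a_(r−1)) summing to n with every a_j < n, and when r divides n there are r − 1 further classes (lifts acting irreducibly on blocks of size r); in all (C(n+r−1, r−1) − r − [r ∣ n])/r + r·[r ∣ n] classes. -/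
theorem result {F : Type*} [Field F] [Fintype F] {q : ℕ} (hF : Fintype.card F = q) {n r : ℕ} (hn : 2 ≤ n) (hr : r.Prime) (hrq : r ∣ q - 1) : Nat.card {C : ConjClasses (GL (Fin n) F ⧸ Subgroup.center (GL (Fin n) F)) // ∃ g : GL (Fin n) F ⧸ Subgroup.center (GL (Fin n) F), ConjClasses.mk g = C ∧ orderOf g = r} = (Nat.choose (n + r - 1) (r - 1) - r - (if r ∣ n then 1 else 0)) / r + r * (if r ∣ n then 1 else 0) := by
  subst hF
  have := count_proj (glEnd F n) ⊤ hr (by rwa [Subgroup.card_top, H28.El.card_units']) (by simp; omega) (fun g => ?_)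
    (fun a b h => (isConj_GL_iff a b).2 ((isConj_iff_iso _ _).2 h))
    (fun y z h => (exists_glEnd hr.ne_zero h).elim fun g hg => ⟨g, hg ▸ Iso.refl _⟩) fun _ _ => trivial
  · rwa [finrank_fin_fun] at this
  haveI : Nonempty (Fin n) := ⟨⟨0, by omega⟩⟩
  rw [Matrix.GeneralLinearGroup.mem_center_iff_val_mem_range_scalar, glEnd_apply]
  constructor
  · rintro ⟨c, hc⟩
    have h0 : c ≠ 0 := by rintro rfl; exact g.ne_zero (by simpa using hc.symm)
    refine ⟨⟨Units.mk0 c h0, trivial⟩, ?_⟩
    rw [← hc, Matrix.scalar_apply, ← Matrix.smul_one_eq_diagonal, map_smul, Matrix.toLin'_one]; rfl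
  · rintro ⟨c, hc⟩
    refine ⟨c.1, Matrix.toLin'.injective ?_⟩
    rw [hc, Matrix.scalar_apply, ← Matrix.smul_one_eq_diagonal, map_smul, Matrix.toLin'_one]; rfl

end Cfsg.Agent.S2670
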