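import Mathlib
import Cfsg.Statements.S2671
import Cfsg.Agent.H16.Cc2

set_option autoImplicit false
open Cfsg

namespace Cfsg.Agent.S2671

open Module H28.El

/-- Number of conjugacy classes of elements of odd prime order r in the general unitary group GU_n(q), for r not dividing q(q + 1): let i be the multiplicative order of q modulo r, b = i if i is odd and b = i/2 if i is even, and s = (r − 1)/b. If i ≢ 2 (mod 4) the eigenvalue orbits pair off into dual pairs of totally isotropic blocks and there are C(⌊n/(2b)⌋ + s/2, s/2) − 1 classes; if i ≡ 2 (mod 4) each orbit gives a non-degenerate block of dimension i/2 and there are C(⌊2n/i⌋ + s, s) − 1 classes. -/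
theorem result {K : Type*} [Field K] [Fintype K] {p q n r i b s : ℕ} [Fact p.Prime] [CharP K p] (hK : Fintype.card K = q ^ 2) (hr : r.Prime) (hr2 : r ≠ 2) (hrp : r ≠ p) (hi : i = orderOf (q : ZMod r)) (hi2 : i ≠ 2) (hb : b = if Odd i then i else i / 2) (hs : s * b = r - 1) : Nat.card {C : ConjClasses ↥(Cfsg.GU n K q) // ∃ g : ↥(Cfsg.GU n K q), ConjClasses.mk g = C ∧ orderOf g = r} = if i % 4 = 2 then Nat.choose (2 * n / i + s) s - 1 else Nat.choose (n / (2 * b) + s / 2) (s / 2) - 1 := by
  haveI := Fact.mk hr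
  classical
  have hK' := Nat.card_eq_fintype_card.trans hK
  have h1 : orderOf ((Fintype.card K : ℕ) : ZMod r) = b := by
    rw [hK, Nat.cast_pow, orderOf_pow' _ two_ne_zero, ← hi, hb]
    split_ifs with h
    · rw [Nat.coprime_two_right.2 h, Nat.div_one]
    · rw [Nat.gcd_eq_right (even_iff_two_dvd.1 (Nat.not_odd_iff_even.1 h))]
  rw [H24.Wall.card_inv_classes_congr (H10.GUEquiv hK' n), H16.Cc.count_unit (natCast_ne_zero hr hrp)
    (hr.odd_of_ne_two hr2) (H10.stdU_isUnitary hK' n) (t := s) (h1 ▸ hs), h1, ← hi, finrank_fin_fun]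
  split_ifs with h
  · rw [if_neg (by rw [Nat.odd_iff]; omega)] at hb
    rw [show i = 2 * b by omega, Nat.mul_div_mul_left _ _ two_pos]
  · rfl

end Cfsg.Agent.S2671
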