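import Mathlib
import Cfsg.Statements.S2672
import Cfsg.Agent.H16.Cc3
import Cfsg.Agent.H28.El14

set_option autoImplicit false
open Cfsg

namespace Cfsg.Agent.S2672

open Module H16.Cc H24.Sim

/-- Number of conjugacy classes of elements of odd prime order r in PGU_n(q) = GU_n(q)/scalars (n ≥ 3) when r divides q + 1: as in the linear case with q − 1 replaced by q + 1, the classes correspond to the rotation orbits on r-tuples of eigenvalue multiplicities summing to n with every entry < n, plus r − 1 further classes when r divides n; in all (C(n+r−1, r−1) − r − [r ∣ n])/r + r·[r ∣ n]. -/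
theorem result {K : Type*} [Field K] [Fintype K] {q n r : ℕ} (hK : Fintype.card K = q ^ 2) (hn : 3 ≤ n) (hr : r.Prime) (hr2 : r ≠ 2) (hrq : r ∣ q + 1) : Nat.card {C : ConjClasses (↥(Cfsg.GU n K q) ⧸ Subgroup.center ↥(Cfsg.GU n K q)) // ∃ g : ↥(Cfsg.GU n K q) ⧸ Subgroup.center ↥(Cfsg.GU n K q), ConjClasses.mk g = C ∧ orderOf g = r} = (Nat.choose (n + r - 1) (r - 1) - r - (if r ∣ n then 1 else 0)) / r + r * (if r ∣ n then 1 else 0) := by
  have hK' := Nat.card_eq_fintype_card.trans hK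
  have hU := H10.stdU_isUnitary hK' n
  have hq := hU.two_le
  have h1 : q ^ 2 - 1 = (q + 1) * (q - 1) := by simpa using Nat.sq_sub_sq q 1
  have h2 : r ∣ Nat.card (powMonoidHom (q + 1) : Kˣ →* Kˣ).ker := by
    rwa [IsCyclic.card_powMonoidHom_ker, H28.El.card_units', hK, h1, Nat.gcd_eq_right (dvd_mul_right _ _)]
  have h3 : ∀ w : Kˣ, w ∈ (powMonoidHom (q + 1) : Kˣ →* Kˣ).ker ↔ H10.conj hK' w * w = 1 := fun w => by
    rw [H10.conj_apply, ← pow_succ, MonoidHom.mem_ker, powMonoidHom_apply, Units.ext_iff]; simp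
  have h4 : ∀ w : Kˣ, w ^ r ∈ (powMonoidHom (q + 1) : Kˣ →* Kˣ).ker → w ∈ (powMonoidHom (q + 1) : Kˣ →* Kˣ).ker := fun w h => by
    rw [MonoidHom.mem_ker, powMonoidHom_apply] at h ⊢
    refine (pow_eq_one_iff_of_coprime (m := r) (n := q - 1) ((Nat.Prime.coprime_iff_not_dvd hr).2 fun e => hr2 ?_)).1
      ⟨by rw [← pow_mul, mul_comm, pow_mul, h], by rw [← pow_mul, ← h1, ← hK, ← H28.El.card_units', pow_card_eq_one']⟩
    exact (Nat.prime_dvd_prime_iff_eq hr Nat.prime_two).1 ((by omega : q + 1 - (q - 1) = 2) ▸ Nat.dvd_sub hrq e)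
  obtain ⟨ζ, hζ⟩ : ∃ ζ : K, IsPrimitiveRoot ζ r := by
    haveI := Fact.mk hr
    obtain ⟨s, hs⟩ := exists_prime_orderOf_dvd_card' r h2
    exact ⟨s.1, IsPrimitiveRoot.iff_orderOf.2 (by rw [orderOf_units, Subgroup.orderOf_coe, hs])⟩
  have := count_proj ((glEnd K n).comp (Cfsg.GU n K q).subtype) _ hr h2 (by simp; omega) (fun g => ?_)
    (fun a b h => (H24.Uni.isConj_GU_iff hK' a b).2 ((isConj_GL_iff _ _).2 ((isConj_iff_iso _ _).2 h))) (fun y z h => ?_) h4
  · rwa [finrank_fin_fun] at this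
  · haveI : Nonempty (Fin n) := ⟨⟨0, by omega⟩⟩
    refine (MulEquivClass.apply_mem_center_iff (H10.GUEquiv hK' n)).symm.trans
      ((hU.mem_center_Isom_iff (by simp; omega)).trans ⟨fun ⟨c, hc⟩ => ?_, fun ⟨c, hc⟩ => ⟨c.1, LinearMap.congr_fun hc⟩⟩)
    have h5 := H28.El.norm_of_smul (φ := H10.stdU hK' n) (c := c) (by
      have h6 : (H10.stdU hK' n).IsIsom (H10.GUEquiv hK' n g).1 := (H10.GUEquiv hK' n g).2
      rwa [funext hc] at h6)
    exact ⟨⟨Units.mk0 c (right_ne_zero_of_mul_eq_one h5), (h3 _).2 h5⟩, LinearMap.ext hc⟩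
  · obtain ⟨g, rfl⟩ := exists_glEnd hr.ne_zero h
    obtain ⟨b, hb⟩ := (H24.Uni.exists_GU_iff hK' g).2 (selfdual_of_pow hK' hr hζ g (z := z.1) (Matrix.toLin'.injective (by
      rw [Matrix.toLin'_pow, map_smul, Matrix.toLin'_one]; exact h)) ((h3 _).1 z.2) fun c hc => by
      have h5 : c ≠ 0 := fun e => z.1.ne_zero (by rw [← hc, e, zero_pow hr.ne_zero])
      exact (h3 (Units.mk0 c h5)).1 (h4 _ ((Units.ext (by simpa using hc) : Units.mk0 c h5 ^ r = z.1) ▸ z.2)))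
    exact ⟨b, (isConj_iff_iso _ _).1 ((isConj_GL_iff _ _).1 hb)⟩

end Cfsg.Agent.S2672
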