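import Mathlib
import Cfsg.Statements.S2674
import Cfsg.Agent.H16.Cc2

set_option autoImplicit false
open Cfsg

namespace Cfsg.Agent.S2674

open Module H28.El

/-- Number of conjugacy classes of elements of odd prime order r ≠ p in the orthogonal group O⁺_2m(q) of Σ x_j y_j (m ≥ 1): with i the multiplicative order of q mod r and t = (r − 1)/i — if i is odd, C(⌊m/i⌋ + t/2, t/2) − 1; if i is even, C(⌊2m/i⌋ + t, t) − 1 minus, when i divides 2m with odd quotient, the C(2m/i + t − 1, t − 1) tuples using the whole space (an odd number of elliptic i-blocks fills an elliptic, not a hyperbolic, space). -/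
theorem result {F : Type*} [Field F] [Fintype F] {p q : ℕ} [Fact p.Prime] [CharP F p] (hF : Fintype.card F = q) (m r i t : ℕ) (hm : 1 ≤ m) (hr : r.Prime) (hr2 : r ≠ 2) (hrp : r ≠ p) (hi : i = orderOf (q : ZMod r)) (ht : t * i = r - 1) : Nat.card {C : ConjClasses ↥(Cfsg.isometryGroup F (Cfsg.quadFormPlus m F)) // ∃ g : ↥(Cfsg.isometryGroup F (Cfsg.quadFormPlus m F)), ConjClasses.mk g = C ∧ orderOf g = r} = if Odd i then Nat.choose (m / i + t / 2) (t / 2) - 1 else Nat.choose (2 * m / i + t) t - 1 - (if i ∣ 2 * m ∧ Odd (2 * m / i) then Nat.choose (2 * m / i + t - 1) (t - 1) else 0) := by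
  subst hF hi
  haveI := Fact.mk hr
  classical
  have hn : finrank F (Fin m ⊕ Fin m → F) = 2 * m := by simp; omega
  rw [← H10.coe_qPlus, H24.Wall.card_inv_classes_congr (H10.isometryEquiv _), H16.Cc.count_quad (natCast_ne_zero hr hrp)
    (hr.odd_of_ne_two hr2) (H10.Form.isQuad_ofQuad _) ht (c := False)
    (d := orderOf ((Fintype.card F : ℕ) : ZMod r) ∣ 2 * m ∧ Odd (2 * m / orderOf ((Fintype.card F : ℕ) : ZMod r))) (by simp [pl_plus])
    (fun h => by rw [hn, iff_true_intro (pl_plus m), true_iff, Nat.not_even_iff_odd]), hn, Nat.mul_div_mul_left _ _ two_pos]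
  simp

end Cfsg.Agent.S2674
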