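import Mathlib
import Cfsg.Statements.S2676
import Cfsg.Agent.H16.Cc4

set_option autoImplicit false
open Classical
open Cfsg

namespace Cfsg.Agent.S2676

/-- Number of conjugacy classes of elements of order p in Sp_2m(q), q a power of the odd prime p: the classes correspond to the signed partitions of 2m — partitions with all parts at most p in which every odd part has even multiplicity, each even part size that occurs carrying a sign — other than the all-ones partition; so the count is the sum over such partitions of 2^(number of distinct even parts), minus one. -/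
theorem result {F : Type*} [Field F] [Fintype F] {p : ℕ} [Fact p.Prime] [CharP F p] (hp : p ≠ 2) (m : ℕ) : Nat.card {C : ConjClasses ↥(Matrix.symplecticGroup (Fin m) F) // ∃ g : Matrix.symplecticGroup (Fin m) F, ConjClasses.mk g = C ∧ orderOf g = p} = (∑ μ ∈ Finset.univ.filter (fun μ : Nat.Partition (2 * m) => (∀ a ∈ μ.parts, a ≤ p) ∧ ∀ j : ℕ, Odd j → Even (μ.parts.count j)), 2 ^ ((μ.parts.toFinset.filter (fun j : ℕ => Even j)).card)) - 1 := by
  rw [H24.Wall.card_inv_classes_congr (H09.spIsomEquiv (Fin m) F)]
  convert H16.Cc.count_unip (p := p) H09.isAltF_spForm (Ring.two_ne_zero (by rw [ringChar.eq F p]; exact hp))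
    (show Module.finrank F (Fin m ⊕ Fin m → F) = 2 * m by simp [two_mul])

end Cfsg.Agent.S2676
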