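import Mathlib
import Cfsg.Statements.S2677
import Cfsg.Agent.H09.UFacts

set_option autoImplicit false
open Cfsg

namespace Cfsg.Agent.S2677

open H09 H10 in

/-- Centraliser of a field automorphism of odd prime order in PGU_n(q): let q = q₀^r with r an odd prime, K the field with q² elements and σ a field automorphism of K of order r (fixed field of order q₀²). The elements g of GU_n(q) whose entrywise image under σ is a scalar multiple of g — those whose coset modulo the q + 1 unitary scalars is fixed by σ — number (q + 1)/(q₀ + 1) · |GU_n(q₀)|; equivalently the centraliser in PGU_n(q) of the induced automorphism has the order of PGU_n(q₀). -/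
theorem result {K : Type*} [Field K] [Fintype K] {q₀ q r n : ℕ} (hr : r.Prime) (hr2 : r ≠ 2) (hn : 1 ≤ n) (hq : q = q₀ ^ r) (hK : Fintype.card K = q ^ 2) (σ : K ≃+* K) (hσ : orderOf σ = r) : (Nat.card {g : ↥(Cfsg.GU n K q) // ∃ c : K, c ≠ 0 ∧ ((g : GL (Fin n) K) : Matrix (Fin n) (Fin n) K).map σ = c • ((g : GL (Fin n) K) : Matrix (Fin n) (Fin n) K)} : ℤ) = ((q + 1) / (q₀ + 1) : ℕ) * ((q₀ : ℤ) ^ (n * (n - 1) / 2) * ∏ i : Fin n, ((q₀ : ℤ) ^ ((i : ℕ) + 1) - (-1) ^ ((i : ℕ) + 1))) := by
  have : NeZero n := ⟨by omega⟩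
  have hj := fixEmb_subtype σ
  have hK' := Nat.card_eq_fintype_card.trans hK
  have h0 : Nat.card (fixF σ) = q₀ ^ 2 := by
    have := card_fixF σ
    rwa [hσ, hK', hq, ← pow_mul, mul_comm, pow_mul, pow_left_inj₀ (by simp) (by simp) hr.ne_zero] at this
  have hb : ∀ a : fixF σ, (fixF σ).subtype a ^ q = (fixF σ).subtype (a ^ q₀) := fun a => by
    rw [← map_pow, hq, pow_pow_odd h0 (hr.odd_of_ne_two hr2)]
  have hZ : ∀ c : (fixF σ)ˣ, Units.map (fixF σ).subtype c ∈ normOne K q ↔ glScal c ∈ GU n (fixF σ) q₀ :=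
    fun c => by rw [← map_mem_GU_iff hK' h0 hb, map_glScal, glScal_mem_GU_iff hK']
  have h := card_fix_upto_scalar (j := (fixF σ).subtype) (normOne K q) (GU n (fixF σ) q₀) hZ
    (X := {g : ↥(Cfsg.GU n K q) // ∃ c : K, c ≠ 0 ∧ ((g : GL (Fin n) K) : Matrix (Fin n) (Fin n) K).map σ = c • ((g : GL (Fin n) K) : Matrix (Fin n) (Fin n) K)})
    (fun x => x.1.1) (Subtype.val_injective.comp Subtype.val_injective) fun g => ⟨by
      rintro ⟨⟨⟨g, hg⟩, c, -, hc⟩, rfl⟩
      obtain ⟨b, g₀, e⟩ := exists_desc_mat hj (hσ ▸ hr.ne_zero) hc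
      have h1 : ((g₀.1.map (· ^ q₀)).transpose * g₀.1).map (fixF σ).subtype = ((b : K) ^ q * b) • 1 := by
        have e1 : g₀.1.map (fixF σ).subtype = (b : K) • g.1 := by
          simpa [glScal_val] using congrArg Units.val e.symm
        rw [← (mem_GU_iff hK').1 hg, Matrix.map_mul, e1, mul_smul, ← Matrix.mul_smul, ← Matrix.smul_mul]
        congr 1
        ext i k
        have := congrFun (congrFun e1 k) i
        simp only [Matrix.map_apply, Matrix.transpose_apply, Matrix.smul_apply, smul_eq_mul] at this ⊢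
        rw [← hb, this, mul_pow]
      set c₀ := ((g₀.1.map (· ^ q₀)).transpose * g₀.1) 0 0
      have h2 : (fixF σ).subtype c₀ = (b : K) ^ q * b := by simpa using congrFun (congrFun h1 0) 0
      have h3 : c₀ ≠ 0 := fun e => by simp [e, eq_comm] at h2
      obtain ⟨k, hk, a, rfl⟩ := exists_GU_of_sim h0 (barAut_apply h0) hn (h := g₀) (c := Units.mk0 c₀ h3)
        fun u v => by
          have := (star_eq_iff (σ := barAut h0) (M := 1) (N := 1) (a := g₀) (c := Units.mk0 c₀ h3)).1
            (Units.ext (Matrix.map_injective (fixF σ).subtype.injective (by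
              simp only [mul_one, glScal_val, Units.val_mk0, Units.val_mul, glStar_val]
              refine h1.trans ?_
              rw [← h2]; ext i k; by_cases h : i = k <;> simp [Matrix.one_apply, h]))) v u
          simpa only [Units.val_one, sform_one (barAut_apply h0)] using this
      have e2 : g = glScal (b⁻¹ * Units.map (fixF σ).subtype a) * Matrix.GeneralLinearGroup.map (fixF σ).subtype k := by
        rw [map_mul, map_inv, mul_assoc, ← map_glScal, ← map_mul, ← e]; simp
      refine ⟨_, (glScal_mem_GU_iff (n := n) hK').1 ?_, k, hk, e2⟩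
      rw [← mul_inv_eq_iff_eq_mul.2 e2]
      exact mul_mem hg (inv_mem ((map_mem_GU_iff hK' h0 hb).2 hk)), by
      rintro ⟨b, h1, g₀, h2, rfl⟩
      exact ⟨⟨⟨_, mul_mem ((glScal_mem_GU_iff hK').2 h1) ((map_mem_GU_iff hK' h0 hb).2 h2)⟩,
        map_scal_mul hj b g₀⟩, rfl⟩⟩
  rw [show (normOne K q).comap (Units.map ((fixF σ).subtype : fixF σ →* K)) = normOne _ q₀ from
      Subgroup.ext fun c => (hZ c).trans (glScal_mem_GU_iff h0), card_ker_pow_add hK', card_ker_pow_add h0,
    Nat.card_congr (GUEquiv h0 n).toEquiv, (stdU_isUnitary h0 n).card_Isom, Module.finrank_fin_fun] at h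
  obtain ⟨k, hk⟩ : q₀ + 1 ∣ q + 1 := by simpa [hq] using (hr.odd_of_ne_two hr2).nat_add_dvd_pow_add_pow q₀ 1
  rw [← cast_guOrd (by have := two_le_q h0; omega), hk, Nat.mul_div_cancel_left _ q₀.succ_pos, ← Nat.cast_mul,
    Nat.cast_inj]
  refine Nat.eq_of_mul_eq_mul_right q₀.succ_pos (h.trans ?_)
  rw [hk, Nat.succ_eq_add_one]; ring

end Cfsg.Agent.S2677
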