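import Mathlib
import Cfsg.Statements.S2678
import Cfsg.Agent.H09.Embed

set_option autoImplicit false
open Cfsg

namespace Cfsg.Agent.S2678

/-- Field-extension embedding of symplectic groups: for a field K with q² elements and a field F with q elements there is an injective homomorphism Sp_2a(K) → Sp_4a(F). -/
theorem result {K F : Type*} [Field K] [Fintype K] [Field F] [Fintype F] {q : ℕ} (hK : Fintype.card K = q ^ 2) (hF : Fintype.card F = q) (a : ℕ) : ∃ φ : ↥(Matrix.symplecticGroup (Fin a) K) →* ↥(Matrix.symplecticGroup (Fin (2 * a)) F), Function.Injective φ := by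
  have hK' := Nat.card_eq_fintype_card.trans hK
  have hF' := Nat.card_eq_fintype_card.trans hF
  obtain ⟨_⟩ := H10.nonempty_algebra_of_card (F := F) two_ne_zero (hK'.trans (by rw [hF']))
  obtain ⟨f, hf⟩ := H09.sp_le_sp hF' hK' (H09.isAltF_spForm (l := Fin a) (F := K)) (m := 2 * a) (by simp [two_mul])
  exact ⟨f.comp (H09.spIsomEquiv _ K).toMonoidHom, hf.comp (H09.spIsomEquiv _ K).injective⟩

end Cfsg.Agent.S2678
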