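import Mathlib
import Cfsg.Statements.S2679
import Cfsg.Agent.H09.Embed

set_option autoImplicit false
open Cfsg

namespace Cfsg.Agent.S2679

open H10 H10.Form H09 in

/-- An elliptic orthogonal group embeds in the hyperbolic orthogonal group of the same dimension over the quadratic extension: for a field F with q elements and a field K with q² elements there is an injective homomorphism from O⁻_2m(F) (isometries of Σ_(j<m−1) x_j y_j + z₁² + a z₁z₂ + c z₂², binary part anisotropic) to O⁺_2m(K) (isometries of Σ_(j<m) x_j y_j over K). -/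
theorem result {F K : Type*} [Field F] [Fintype F] [Field K] [Fintype K] {q : ℕ} (hF : Fintype.card F = q) (hK : Fintype.card K = q ^ 2) {m : ℕ} (hm : 1 ≤ m) (a c : F) (hac : ∀ z₁ z₂ : F, z₁ ^ 2 + a * z₁ * z₂ + c * z₂ ^ 2 = 0 → z₁ = 0 ∧ z₂ = 0) : ∃ φ : ↥(Cfsg.isometryGroup F (Cfsg.quadFormMinus (m - 1) F a c)) →* ↥(Cfsg.isometryGroup K (Cfsg.quadFormPlus m K)), Function.Injective φ := by
  have hK' := Nat.card_eq_fintype_card.trans hK
  have hF' := Nat.card_eq_fintype_card.trans hF
  obtain ⟨_⟩ := H10.nonempty_algebra_of_card (F := F) two_ne_zero (hK'.trans (by rw [hF']))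
  obtain ⟨m, rfl⟩ := Nat.exists_eq_add_of_le' hm
  rw [Nat.add_sub_cancel]
  have := qMinus_nondeg (m := m) (a := algebraMap F K a) (b := algebraMap F K c) fun h0 =>
    disc_ne_zero_of_aniso hac ((algebraMap F K).injective (by simpa [map_ofNat] using h0))
  have hQ : ∀ u, qMinus m K (algebraMap F K a) (algebraMap F K c) (entry _ (algebraMap F K) u) =
    algebraMap F K (qMinus m F a c u) := fun u => by simp [coe_qMinus, quadFormMinus, entry_apply]
  have d : Desc (Form.ofQuad (qMinus m F a c)) (Form.ofQuad (qMinus m K (algebraMap F K a)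
      (algebraMap F K c))) (algebraMap F K) 1 (entry _ _) := ⟨frame_entry _ _, one_ne_zero, rfl,
    fun u v => by simp only [ofQuad_B, QuadraticMap.polar, ← map_add, hQ, map_sub, one_mul],
    fun u => by simpa using hQ u⟩
  obtain ⟨t, ht⟩ := exists_root_quadratic (finrank_ext_two hF' hK') (-c) (-a)
  obtain ⟨g, hg⟩ := (isQuad_ofQuad _).exists_isEquiv_even (isQuad_ofQuad (qPlus (m + 1) K)) (m := m + 1)
    (by simp; ring) (by simp [two_mul]) (iff_of_true (qMinus_hasTS_of_root (a := algebraMap F K a)
      (b := algebraMap F K c) (t := t) (by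
        simp only [Algebra.smul_def, map_neg] at ht; linear_combination ht)) qPlus_hasTS)
  let e := hg.isomEquiv.trans (isometryEquiv (qPlus (m + 1) K)).symm
  exact ⟨e.toMonoidHom.comp ((d.upHom (quadT (isQuad_ofQuad _))).comp (isometryEquiv (qMinus m F a c)).toMonoidHom),
    e.injective.comp ((d.upHom_injective (quadT (isQuad_ofQuad _))).comp (isometryEquiv (qMinus m F a c)).injective)⟩

end Cfsg.Agent.S2679
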