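import Cfsg.Statements.S2682
import Cfsg.Agent.H24.Wall5
-- import your own Cfsg.Agent.* helpers here

set_option autoImplicit false
open Cfsg

namespace Cfsg.Agent.S2682

/-- Centraliser order of an involution t of Sp_2m(q), q even, with s = rank(t − 1) even and f(v, tv) ≠ 0 for some v, f the symplectic form (type c_s): |C(t)| = q^(2ms − (3s² − 3s)/2 − 1) · |Sp_(s−2)(q)| · |Sp_(2m−2s)(q)|. -/
theorem result {F : Type*} [Field F] [Fintype F] [CharP F 2] {q : ℕ} (hF : Fintype.card F = q) {m s : ℕ} (t : Matrix.symplecticGroup (Fin m) F) (ht : t ^ 2 = 1) (hs : ((t : Matrix (Fin m ⊕ Fin m) (Fin m ⊕ Fin m) F) - 1).rank = s) (heven : Even s) (hna : ∃ v : Fin m ⊕ Fin m → F, Cfsg.sympForm m F v ((t : Matrix (Fin m ⊕ Fin m) (Fin m ⊕ Fin m) F).mulVec v) ≠ 0) : Nat.card ↥(Subgroup.centralizer ({t} : Set ↥(Matrix.symplecticGroup (Fin m) F))) = q ^ (2 * m * s - (3 * s ^ 2 - 3 * s) / 2 - 1) * ((q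 : ℕ) ^ (((s - 2) / 2) ^ 2) * ∏ i : Fin ((s - 2) / 2), (q ^ (2 * ((i : ℕ) + 1)) - 1)) * ((q : ℕ) ^ ((m - s) ^ 2) * ∏ i : Fin (m - s), (q ^ (2 * ((i : ℕ) + 1)) - 1)) := by
  have hg : H09.spIsomEquiv (Fin m) F t * H09.spIsomEquiv (Fin m) F t = 1 := by rw [← map_mul, ← pow_two, ht, map_one]
  have hr := (H24.Wall.rank_eq (g := H09.spIsomEquiv (Fin m) F t) (fun _ => rfl)).trans hs
  have ha : ¬ H24.Wall.Alt (H09.spIsomEquiv (Fin m) F t) := fun h => by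
    obtain ⟨v, hv⟩ := hna
    exact hv ((H09.sympForm_eq m _ _).trans
      ((H24.Wall.alt_iff (g := H09.spIsomEquiv (Fin m) F t) (fun _ => rfl) H09.spB_alt).1 h v))
  have h0 : 0 < s := hr ▸ H24.Wall.rank_pos (fun h => ha fun x => by simp [H24.Wall.N_apply, h])
  have h1 := H24.Wall.two_mul_rank_le hg
  obtain ⟨k, rfl⟩ : ∃ k, s = 2 * k + 2 := by obtain ⟨k, rfl⟩ := heven; exact ⟨k - 1, by omega⟩
  rw [H24.Wall.card_centralizer_congr (H09.spIsomEquiv (Fin m) F),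
    H24.Wall.card_cent_sp H09.isAltF_spForm hg hr (m := m) (by simp; omega),
    H24.Wall.card_autChi_even H09.isAltF_spForm.σ_eq hg ha hr, H24.Wall.spOrd_eq, H24.Wall.spOrd_eq,
    Nat.card_eq_fintype_card, hF, show (2 * k + 2 - 2) / 2 = k by omega, ← mul_assoc (q ^ _) (q ^ _), ← pow_add]
  congr 3
  rw [hr] at h1
  simp at h1
  obtain ⟨r, rfl⟩ : ∃ r, m = 2 * k + 2 + r := ⟨m - (2 * k + 2), by omega⟩
  have h3 : (2 * k + 2) ^ 2 = 4 * k ^ 2 + 8 * k + 4 := by ring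
  have h4 : 2 * (2 * k + 2 + r) * (2 * k + 2) = 8 * k ^ 2 + 16 * k + 8 + 4 * (k * r) + 4 * r := by ring
  omega

end Cfsg.Agent.S2682
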