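import Cfsg.Statements.S2683
import Cfsg.Agent.H24.Wall5
-- import your own Cfsg.Agent.* helpers here

set_option autoImplicit false
open Cfsg

namespace Cfsg.Agent.S2683

/-- For the hyperbolic form Σ x_j y_j on F^(2m) over a finite field with q elements, q even (excluding m = 2 over the field of two elements), and an involution x of the orthogonal group with s = rank(x − 1) odd (type b_s; such x lie outside Ω): the elements of Ω (the commutator subgroup of the orthogonal group) commuting with x number q^(2m(s−1) − (3s² − 3s)/2) · |Sp_(s−1)(q)| · |Sp_(2m−2s)(q)|, where |Sp_2k(q)| = q^(k²) Π_(i=1)^k (q^(2i) − 1). -/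
theorem result {F : Type*} [Field F] [Fintype F] [CharP F 2] {q : ℕ} (hF : Fintype.card F = q) {m s : ℕ} (h : Fintype.card F ≠ 2 ∨ m ≠ 2) (x : ↥(Cfsg.isometryGroup F (Cfsg.quadFormPlus m F))) (hx : x ^ 2 = 1) (hs : (((x : Matrix.GeneralLinearGroup (Fin m ⊕ Fin m) F) : Matrix (Fin m ⊕ Fin m) (Fin m ⊕ Fin m) F) - 1).rank = s) (hodd : Odd s) : Nat.card {g : ↥(Cfsg.Omega F (Cfsg.quadFormPlus m F)) // (g : ↥(Cfsg.isometryGroup F (Cfsg.quadFormPlus m F))) * x = x * (g : ↥(Cfsg.isometryGroup F (Cfsg.quadFormPlus m F)))} = q ^ (2 * m * (s - 1) - (3 * s ^ 2 - 3 * s) / 2) * ((q : ℕ) ^ (((s - 1) / 2) ^ 2) * ∏ i : Fin ((s - 1) / 2), (q ^ (2 * ((i : ℕ) + 1)) - 1)) * ((q : ℕ) ^ ((m - s) ^ 2) * ∏ i : Fin (m - s), (q ^ (2 * ((i : ℕ) + 1)) - 1)) := by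
  have hQ := H10.Form.isQuad_ofQuad (H10.qPlus m F)
  have hG := H09.good_of_or hQ (h.imp id fun h => by simp; omega)
  have hn : Module.finrank F (Fin m ⊕ Fin m → F) = 2 * m := by simp; omega
  have hg : H10.isometryEquiv (H10.qPlus m F) x * H10.isometryEquiv (H10.qPlus m F) x = 1 :=
    ((H10.isometryEquiv (H10.qPlus m F)).map_mul x x).symm.trans
      ((H10.isometryEquiv (H10.qPlus m F)).map_eq_one_iff.2 ((pow_two x).symm.trans hx))
  have hr := (H24.Wall.rank_eq (H10.isometryEquiv_apply (H10.qPlus m F) x)).trans hs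
  have h0 : 0 < s := hodd.pos
  have h1 := H24.Wall.two_mul_rank_le hg
  refine (H24.Wall.card_cent_omega (H10.qPlus m F) hG (by simp; omega) x).trans ?_
  rw [H24.Wall.card_ker_odd hQ hG hn H10.qPlus_hasTS hg hr hodd, H24.Wall.spOrd_eq, H24.Wall.spOrd_eq, Nat.card_eq_fintype_card, hF]

end Cfsg.Agent.S2683
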