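import Cfsg.Statements.S2685
import Cfsg.Agent.H24.Wall5
-- import your own Cfsg.Agent.* helpers here

set_option autoImplicit false
open Cfsg

namespace Cfsg.Agent.S2685

/-- For the hyperbolic form Q = Σ x_j y_j on F^(2m) over a finite field with q elements, q even (excluding m = 2 over the field of two elements), and an involution x of the orthogonal group with s = rank(x − 1) even and Q not vanishing on the image of x − 1 (f(v, xv) ≠ 0 for some v, where f(u, w) = Q(u + w) − Q(u) − Q(w) is the bilinear form of Q; type c_s, which lies in Ω): its centraliser in Ω (the commutator subgroup of the orthogonal group) has order q^(2m(s−1) − (3s² − 5s)/2 − 1) · |Sp_(s−2)(q)| · |Sp_(2m−2s)(q)|. -/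
theorem result {F : Type*} [Field F] [Fintype F] [CharP F 2] {q : ℕ} (hF : Fintype.card F = q) {m s : ℕ} (h : Fintype.card F ≠ 2 ∨ m ≠ 2) (x : ↥(Cfsg.isometryGroup F (Cfsg.quadFormPlus m F))) (hx : x ^ 2 = 1) (hs : (((x : Matrix.GeneralLinearGroup (Fin m ⊕ Fin m) F) : Matrix (Fin m ⊕ Fin m) (Fin m ⊕ Fin m) F) - 1).rank = s) (heven : Even s) (hna : ∃ v : Fin m ⊕ Fin m → F, Cfsg.quadFormPlus m F ((((x : Matrix.GeneralLinearGroup (Fin m ⊕ Fin m) F) : Matrix (Fin m ⊕ Fin m) (Fin m ⊕ Fin m) F) - 1).mulVec v) ≠ 0) : Nat.card {g : ↥(Cfsg.Omega F (Cfsg.quadFormPlus m F)) // (g : ↥(Cfsg.isometryGroup F (Cfsg.quadFormPlus m F))) * x = x * (g : ↥(Cfsg.isometryGroup F (Cfsg.quadFormPlus m F)))} = q ^ (2 * m * (s - 1) - (3 * s ^ 2 - 5 * s) / 2 - 1) * ((q : ℕ) ^ (((s - 2) / 2) ^ 2) * ∏ i : Fin ((s - 2) / 2), (q ^ (2 * ((i : ℕ) + 1)) - 1)) * ((q : ℕ) ^ ((m - s) ^ 2) * ∏ i : Fin (m - s), (q ^ (2 * ((i : ℕ) + 1)) - 1)) := by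
  have hQ := H10.Form.isQuad_ofQuad (H10.qPlus m F)
  have hG := H09.good_of_or hQ (h.imp id fun h => by simp; omega)
  have hn : Module.finrank F (Fin m ⊕ Fin m → F) = 2 * m := by simp; omega
  have hg : H10.isometryEquiv (H10.qPlus m F) x * H10.isometryEquiv (H10.qPlus m F) x = 1 :=
    ((H10.isometryEquiv (H10.qPlus m F)).map_mul x x).symm.trans
      ((H10.isometryEquiv (H10.qPlus m F)).map_eq_one_iff.2 ((pow_two x).symm.trans hx))
  have hr := (H24.Wall.rank_eq (H10.isometryEquiv_apply (H10.qPlus m F) x)).trans hs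
  have ha : ¬ H24.Wall.Alt (H10.isometryEquiv (H10.qPlus m F) x) := fun h => by
    obtain ⟨v, hv⟩ := hna
    have := (H24.Wall.alt_iff_Q hQ _).1 h v
    rw [H24.Wall.N_eq (H10.isometryEquiv_apply (H10.qPlus m F) x)] at this
    exact hv this
  have h0 : 0 < s := hr ▸ H24.Wall.rank_pos (fun h => ha fun x => by simp [H24.Wall.N_apply, h])
  have h1 := H24.Wall.two_mul_rank_le hg
  refine (H24.Wall.card_cent_omega (H10.qPlus m F) hG (by simp; omega) x).trans ?_
  rw [H24.Wall.card_ker_even hQ hG hn H10.qPlus_hasTS hg hr heven ha, H24.Wall.spOrd_eq, H24.Wall.spOrd_eq, Nat.card_eq_fintype_card, hF]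

end Cfsg.Agent.S2685
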