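import Mathlib
import Cfsg.Statements.S2690
import Cfsg.Agent.H09.AutPSL2

set_option autoImplicit false
open Cfsg

namespace Cfsg.Agent.S2690

/-- Every automorphism of a simple projective special linear group PSL_n(F) over a finite field (n ≥ 2; |F| ≥ 4 when n = 2) is a product δ φ γ of an inner-diagonal automorphism δ (induced by an invertible matrix), a standard field automorphism φ (one automorphism of F applied to every entry, possibly the identity) and γ either the identity or the inverse-transpose automorphism. -/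
theorem result {F : Type*} [Field F] [Fintype F] {p f : ℕ} [Fact p.Prime] (hF : Fintype.card F = p ^ f) (hf : 1 ≤ f) {n : ℕ} (hn : 2 ≤ n) (hs : n = 2 → 4 ≤ Fintype.card F) (β : MulAut (Matrix.ProjectiveSpecialLinearGroup (Fin n) F)) :
    ∃ (δ φ γ : MulAut (Matrix.ProjectiveSpecialLinearGroup (Fin n) F)) (σ : F ≃+* F), Cfsg.IsInnerDiagonalAutPSL δ ∧ Cfsg.IsStdFieldAutPSL σ φ ∧ (γ = 1 ∨ Cfsg.IsInverseTransposeAutPSL γ) ∧ β = δ * φ * γ := by
  have := H09.charP_of_card hF
  obtain ⟨g, σ, h⟩ := H09.psl_aut_decomp p (ι := Fin n) (by simpa using hn) β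
  have hD : Cfsg.IsInnerDiagonalAutPSL (H09.pslD g) :=
    ⟨g, fun s s' e => by rw [H09.pslD_mk, show H09.slConj g s = s' from Subtype.ext e.symm]⟩
  have hσ : Cfsg.IsStdFieldAutPSL σ (H09.pslF (ι := Fin n) σ) := fun s s' e => by
    rw [H09.pslF_mk, show H09.slField σ s = s' from Subtype.ext e.symm]
  rcases h with h | h
  · exact ⟨_, _, 1, σ, hD, hσ, Or.inl rfl, by rw [mul_one, h]⟩
  · exact ⟨_, _, H09.pslT, σ, hD, hσ, Or.inr fun s s' e => by
      rw [H09.pslT_mk, show H09.slInvT s = s' from Subtype.ext e.symm], h⟩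

end Cfsg.Agent.S2690
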