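import Mathlib
import Cfsg.Statements.S2697
import Cfsg.Agent.H09.FieldPSL2

set_option autoImplicit false
open Cfsg

namespace Cfsg.Agent.S2697

/-- Let T = PSL_n(F) be simple over a finite field (n ≥ 2; |F| ≥ 4 when n = 2) and let x be a field automorphism or a graph-field automorphism of T of prime order r. Then an element y of the coset Inndiag(T)·x (that is, y = δ x with δ in the inner-diagonal group, the image of PGL_n(F)) has order r if and only if y is conjugate to x by an element of Inndiag(T). -/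
theorem result {F : Type*} [Field F] [Fintype F] {p f : ℕ} [Fact p.Prime] (hF : Fintype.card F = p ^ f) (hf : 1 ≤ f) {n : ℕ} (hn : 2 ≤ n) (hs : n = 2 → 4 ≤ Fintype.card F) (x δ : MulAut (Matrix.ProjectiveSpecialLinearGroup (Fin n) F)) (hx : Cfsg.IsFieldAutClassPSL x ∨ Cfsg.IsGraphFieldAutClassPSL x) {r : ℕ} (hr : r.Prime) (hxr : orderOf x = r) (hδ : δ ∈ Cfsg.inndiagPSL n F) :
    orderOf (δ * x) = r ↔ Cfsg.IsConjUnder (Cfsg.inndiagPSL n F) x (δ * x) := by
  refine ⟨fun h => ?_, fun h => (H09.orderOf_eq_of_isConjUnder h).trans hxr⟩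
  rw [H09.inndiagPSL_eq] at hδ ⊢
  obtain ⟨d, rfl⟩ := hδ
  rcases hx with hx | hx
  · obtain ⟨γ, h1, rfl⟩ := H09.fieldClass_PSL hn hx
    rw [← H09.gP_glGam_one, ← map_mul] at h ⊢
    exact H09.gP_conj (by simpa using hn) h1 (by rw [map_mul, H09.fld_glGam, one_mul]) hr
      (hxr ▸ pow_orderOf_eq_one _) (h ▸ pow_orderOf_eq_one _)
  · have h3 := hx.1
    obtain ⟨σ, M, h1, rfl⟩ := H09.graphFieldClass_PSL hx
    obtain rfl := H09.eq_two_of_orderOf_corr (by simpa using h3) hr hxr
    rw [H09.pslD_mul_corr] at h ⊢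
    obtain ⟨q, hq, hσ⟩ := H09.exists_q_of_mul_self h1 ((H09.orderOf_corr (by simpa using h3)).1 h).1
    exact H09.IsConjUnder.trans (H09.IsConjUnder.symm (H09.isConjUnder_corr_herm hq hσ h3 hxr))
      (H09.isConjUnder_corr_herm hq hσ h3 h)

end Cfsg.Agent.S2697
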