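import Mathlib
import Cfsg.Statements.S2703
import Cfsg.Agent.H03.GA2

set_option autoImplicit false
open Cfsg

namespace Cfsg.Agent.S2703

/-- Let T = PSL_n(F) over the field with q elements, q odd, n = 2m ≥ 4 even, and ι the inverse-transpose automorphism. Its centralizer in G = Inndiag(T) (the image of PGL_n(F)) is isomorphic to the projective conformal orthogonal group of the plus-type form Σ xᵢ yᵢ in dimension n when n(q − 1)/4 is even, and to that of a minus-type form (Σ xᵢ yᵢ + z₁² + a z₁ z₂ + b z₂² with anisotropic binary part) when n(q − 1)/4 is odd. -/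
theorem result {F : Type*} [Field F] [Fintype F] (hodd : Odd (Fintype.card F)) {n m : ℕ} (hm : 2 ≤ m) (hnm : n = 2 * m) (ι : MulAut (Matrix.ProjectiveSpecialLinearGroup (Fin n) F)) (hι : Cfsg.IsInverseTransposeAutPSL ι) :
    (Even (n * (Fintype.card F - 1) / 4) → Nonempty (↥(Cfsg.inndiagPSL n F ⊓ Subgroup.centralizer {ι}) ≃* Cfsg.PGO F (Cfsg.quadFormPlus m F))) ∧ (¬ Even (n * (Fintype.card F - 1) / 4) → ∃ a b : F, (∀ z₁ z₂ : F, z₁ ^ 2 + a * z₁ * z₂ + b * z₂ ^ 2 = 0 → z₁ = 0 ∧ z₂ = 0) ∧ Nonempty (↥(Cfsg.inndiagPSL n F ⊓ Subgroup.centralizer {ι}) ≃* Cfsg.PGO F (Cfsg.quadFormMinus (m - 1) F a b))) := by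
  have h := (H03.GA.gs_PSL (F := F) (n := n) (by omega)).dot (H10.two_ne_zero_of_odd_card hodd) hm hnm
    (γ := ι) ⟨1, by rw [H09.corr_one, map_one, one_mul, H09.eq_pslT hι], by
      refine LinearMap.ext₂ fun u v => ?_; simp [Matrix.toBilin'_apply']⟩
  have e : Even (n * (Fintype.card F - 1) / 4) ↔ Fintype.card F ^ m % 4 = 1 := by
    obtain ⟨k, hk⟩ := hodd
    rw [hk, hnm, show 2 * m * (2 * k + 1 - 1) / 4 = m * k from
      Nat.div_eq_of_eq_mul_left (by norm_num) (by simp; ring), Nat.even_mul, Nat.pow_mod]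
    rcases Nat.even_or_odd' k with ⟨l, rfl | rfl⟩
    · simp [show (2 * (2 * l) + 1) % 4 = 1 by omega]
    · rw [show (2 * (2 * l + 1) + 1) % 4 = 3 by omega]
      rcases Nat.even_or_odd' m with ⟨r, rfl | rfl⟩
      · simp [pow_mul, Nat.pow_mod]
      · simp [pow_succ, pow_mul, Nat.pow_mod, Nat.mul_mod]
  rwa [e]

end Cfsg.Agent.S2703
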