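import Mathlib
import Cfsg.Statements.S2704
import Cfsg.Agent.H09.FieldPSL2

set_option autoImplicit false
open Cfsg

namespace Cfsg.Agent.S2704

/-- Let T = PSL_n(F) over the field F with p^f elements, n ≥ 3, and G = Inndiag(T) the image of PGL_n(F). If x is an involutory graph-field automorphism of T then f is even; x is G-conjugate to every other involutory graph-field automorphism; C_G(x) is isomorphic to the projective general unitary group PGU_n(q₀) with q₀² = p^f, realised over F itself through the Hermitian form Σ uᵢ vᵢ^{q₀}; and the G-class of x is the union of exactly gcd(n, q₀ − 1) T-classes. -/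
theorem result {F : Type*} [Field F] [Fintype F] {p f : ℕ} [Fact p.Prime] (hF : Fintype.card F = p ^ f) (hf : 1 ≤ f) {n : ℕ} (hn : 3 ≤ n) (x : MulAut (Matrix.ProjectiveSpecialLinearGroup (Fin n) F)) (hx : Cfsg.IsGraphFieldAutClassPSL x) (hx2 : orderOf x = 2) :
    Even f ∧ (∀ y : MulAut (Matrix.ProjectiveSpecialLinearGroup (Fin n) F), Cfsg.IsGraphFieldAutClassPSL y → orderOf y = 2 → Cfsg.IsConjUnder (Cfsg.inndiagPSL n F) x y) ∧ Nonempty (↥(Cfsg.inndiagPSL n F ⊓ Subgroup.centralizer {x}) ≃* Cfsg.PGU n F (p ^ (f / 2))) ∧ Cfsg.splitClassCount (Cfsg.inndiagPSL n F) (Cfsg.Inn (Matrix.ProjectiveSpecialLinearGroup (Fin n) F)) x = Nat.gcd n (p ^ (f / 2) - 1) := by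
  have h3 : 3 ≤ Fintype.card (Fin n) := by simpa using hn
  have key : ∀ y : MulAut (Matrix.ProjectiveSpecialLinearGroup (Fin n) F),
      Cfsg.IsGraphFieldAutClassPSL y → orderOf y = 2 → Even f ∧ ∃ (σ : RingAut F) (M : GL (Fin n) F),
        (∀ a, σ a = a ^ p ^ (f / 2)) ∧ y = H09.corr σ M := by
    intro y hy h2
    obtain ⟨σ, M, h1, rfl⟩ := H09.graphFieldClass_PSL hy
    have h4 := ((H09.orderOf_corr h3).1 h2).1
    obtain ⟨q, hq, hσ⟩ := H09.exists_q_of_mul_self h1 h4
    have ho : orderOf σ = 2 := orderOf_eq_prime (by rw [sq, h4]) h1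
    have he : 2 ∣ f := ho ▸ H09.dvd_of_orderOf hF σ
    obtain rfl : q = p ^ (f / 2) := Nat.pow_left_injective two_ne_zero (by
      dsimp only
      rw [← hq, Nat.card_eq_fintype_card, hF, ← pow_mul, Nat.div_mul_cancel he])
    exact ⟨even_iff_two_dvd.2 he, σ, M, hσ, rfl⟩
  obtain ⟨he, σ, M, hσ, rfl⟩ := key x hx hx2
  have hq : Nat.card F = (p ^ (f / 2)) ^ 2 := by
    rw [Nat.card_eq_fintype_card, hF, ← pow_mul, Nat.div_mul_cancel he.two_dvd]
  have hc := H09.isConjUnder_corr_herm hq hσ hn hx2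
  obtain ⟨h1, h2⟩ := H09.corr_herm_cent (n := n) hq hσ (by omega)
  rw [H09.inndiagPSL_eq]
  refine ⟨he, fun y hy hy2 => ?_, H09.cent_of_conj hc h1, (H09.split_eq_of_conj _ hc).trans h2⟩
  obtain ⟨-, τ, N, hτ, rfl⟩ := key y hy hy2
  obtain rfl : σ = τ := RingEquiv.ext fun a => (hσ a).trans (hτ a).symm
  exact H09.IsConjUnder.trans (H09.IsConjUnder.symm hc) (H09.isConjUnder_corr_herm hq hσ hn hy2)

end Cfsg.Agent.S2704
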