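import Mathlib
import Cfsg.Statements.S2710
import Cfsg.Agent.H03.GA3

set_option autoImplicit false
open Cfsg

namespace Cfsg.Agent.S2710

/-- Let T = PSU_n(q) with n ≥ 4 divisible by 4 (n = 2m) and q odd, realised over the field F with q² elements, G = Inndiag(T) the image of PGU_n(q), and φ the standard field automorphism of T attached to the q-th power map of F (it induces inverse-transpose on the unitary matrices and is a graph automorphism). Its centralizer in G is isomorphic to the projective conformal orthogonal group of the plus-type form Σ xᵢ yᵢ in dimension n over a field F₀ with q elements. (Dimensions n ≡ 2 (mod 4) are not covered.) -/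
theorem result {F : Type*} [Field F] [Fintype F] {q : ℕ} (hodd : Odd q) (hF : Fintype.card F = q ^ 2) {n m : ℕ} (hm : 2 ≤ m) (hnm : n = 2 * m) (h4 : 4 ∣ n) (F₀ : Type*) [Field F₀] [Fintype F₀] (hF₀ : Fintype.card F₀ = q) (σ : F ≃+* F) (hσ : ∀ a : F, σ a = a ^ q) (φ : MulAut (Cfsg.PSU n F q)) (hφ : Cfsg.IsFieldAutPSUOf σ φ) :
    Nonempty (↥(Cfsg.inndiagPSU n F q ⊓ Subgroup.centralizer {φ}) ≃* Cfsg.PGO F₀ (Cfsg.quadFormPlus m F₀)) := by
  have hF' : Nat.card F = q ^ 2 := by rwa [Nat.card_eq_fintype_card]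
  have h3 : 3 ≤ n := by omega
  obtain ⟨j, hj⟩ := H09.exists_fixEmb σ F₀ (by
    rw [H03.GA.orderOf_σ hF' hσ, hF', Nat.card_eq_fintype_card, hF₀])
  refine ((H03.GA.gs_PSU hF' h3 hσ hj).dot (H10.two_ne_zero_of_odd_card (hF₀ ▸ hodd)) hm hnm
    (H03.GA.RU_field hF' h3 hσ hj hφ)).1 ?_
  obtain ⟨k, rfl⟩ : ∃ k, m = 2 * k := ⟨m / 2, by omega⟩
  obtain ⟨l, hl⟩ := hodd
  rw [hF₀, pow_mul, Nat.pow_mod, hl, show (2 * l + 1) ^ 2 = 4 * (l ^ 2 + l) + 1 by ring]
  simp

end Cfsg.Agent.S2710
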