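import Mathlib
import Cfsg.Statements.S2711
import Cfsg.Agent.H09.FieldSU

set_option autoImplicit false
open Cfsg

namespace Cfsg.Agent.S2711

/-- Let T = PSU_n(q) be simple (n ≥ 3, (n,q) ≠ (3,2)), realised over the field F with q² elements, and let x be a field automorphism of T (conjugate to a standard field automorphism of odd order) of prime order r. Then an element y of the coset Inndiag(T)·x (y = δ x with δ in the image of PGU_n(q)) has order r if and only if y is conjugate to x by an element of Inndiag(T). (T has no graph-field automorphisms.) -/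
theorem result {F : Type*} [Field F] [Fintype F] {p f q : ℕ} [Fact p.Prime] (hq : q = p ^ f) (hf : 1 ≤ f) (hF : Fintype.card F = q ^ 2) {n : ℕ} (hn : 3 ≤ n) (hs : ¬ (n = 3 ∧ q = 2)) (x δ : MulAut (Cfsg.PSU n F q)) (hx : Cfsg.IsFieldAutClassPSU x) {r : ℕ} (hr : r.Prime) (hxr : orderOf x = r) (hδ : δ ∈ Cfsg.inndiagPSU n F q) :
    orderOf (δ * x) = r ↔ Cfsg.IsConjUnder (Cfsg.inndiagPSU n F q) x (δ * x) := by
  have : NeZero n := ⟨by omega⟩
  have hF' : Nat.card F = q ^ 2 := by rw [Nat.card_eq_fintype_card, hF]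
  refine ⟨fun h => ?_, fun h => (H09.orderOf_eq_of_isConjUnder h).trans hxr⟩
  obtain ⟨d, hd, rfl⟩ := (H09.inndiagPSU_eq hF' hn).le hδ
  obtain ⟨γ, h1, hro, rfl⟩ := H09.fieldClass_PSU hF' hn hs hx
  obtain ⟨ho, -⟩ := H09.Gam.exists_norm _ (H09.ker_suAut hF' hn) h1 hr
    (hxr ▸ pow_orderOf_eq_one _)
  rw [ho] at hro
  have hd' : r ∣ f := by
    have := H09.dvd_of_orderOf (p := p) (f := f * 2) (by rw [hF, hq, pow_mul]) (H09.Gam.fld γ)
    exact (Nat.coprime_two_right.2 hro).dvd_of_dvd_mul_right (ho ▸ this)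
  have h0 : 2 * (f / r) ≠ 0 := by
    have := Nat.div_pos (Nat.le_of_dvd hf hd') hr.pos
    omega
  rw [← map_mul] at h ⊢
  exact H09.suAut_conj hF' hn (F₀ := GaloisField p (2 * (f / r))) (q₀ := p ^ (f / r))
    (by rw [GaloisField.card p _ h0, ← pow_mul, mul_comm]) hro
    (by rw [hq, ← pow_mul, Nat.div_mul_cancel hd']) h1
    (by rw [map_mul, show H09.Gam.fld d = 1 from hd, one_mul]) hr
    (hxr ▸ pow_orderOf_eq_one _) (h ▸ pow_orderOf_eq_one _)

end Cfsg.Agent.S2711
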