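import Mathlib
import Cfsg.Statements.S2712
import Cfsg.Agent.H09.FieldSp

set_option autoImplicit false
open Cfsg

namespace Cfsg.Agent.S2712

/-- Let T = PSp_{2m}(F) be simple over the field F with p^f elements (m ≥ 2, (2m, |F|) ≠ (4, 2)), G = Inndiag(T) the image of the projective conformal symplectic group PGSp_{2m}(F), and x a field automorphism of T of prime order r. Then r divides f; C_G(x) is isomorphic to PGSp_{2m}(F₀) for a field F₀ with p^(f/r) elements; and the G-class of x is the union of exactly gcd(gcd(2, p^f − 1), r) T-classes. -/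
theorem result {F : Type*} [Field F] [Fintype F] {p f : ℕ} [Fact p.Prime] (hF : Fintype.card F = p ^ f) (hf : 1 ≤ f) {m : ℕ} (hm : 2 ≤ m) (hs : m = 2 → 3 ≤ Fintype.card F) (x : MulAut (Cfsg.PSp m F)) (hx : Cfsg.IsFieldAutClassPSp x) {r : ℕ} (hr : r.Prime) (hxr : orderOf x = r) (F₀ : Type*) [Field F₀] [Fintype F₀] (hF₀ : Fintype.card F₀ = p ^ (f / r)) :
    r ∣ f ∧ Nonempty (↥(Cfsg.inndiagPSp m F ⊓ Subgroup.centralizer {x}) ≃* Cfsg.PGSp m F₀) ∧ Cfsg.splitClassCount (Cfsg.inndiagPSp m F) (Cfsg.Inn (Cfsg.PSp m F)) x = Nat.gcd (Nat.gcd 2 (p ^ f - 1)) r := by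
  have : NeZero m := ⟨by omega⟩
  obtain ⟨γ, h1, rfl⟩ := H09.fieldClass_PSp hm hx
  obtain ⟨ho, b, hb, e⟩ := H09.Gam.exists_norm _ (H09.ker_spAut hm) h1 hr
    (hxr ▸ pow_orderOf_eq_one _)
  obtain ⟨j, hj⟩ := H09.exists_fixEmb' hF (H09.Gam.fld γ) F₀ (by rw [ho, hF₀])
  have hd : r ∣ f := ho ▸ H09.dvd_of_orderOf hF _
  rw [← H09.Gam.fld_scal_mul b] at ho hj
  have := H09.spAut_cent hm ho hb hj
  have h2 : p ^ f = Fintype.card F₀ ^ r := by rw [hF₀, ← pow_mul, Nat.div_mul_cancel hd]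
  rw [e, Nat.card_eq_fintype_card, Nat.card_eq_fintype_card, hF, h2,
    H09.gcd_two_geom Fintype.one_lt_card, ← h2] at this
  exact ⟨hd, this⟩

end Cfsg.Agent.S2712
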