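import Mathlib
import Cfsg.Statements.S2714
import Cfsg.Agent.H09.FieldOm4

set_option autoImplicit false
open Cfsg

namespace Cfsg.Agent.S2714

/-- Let T = Ω_{2m+1}(F) (m ≥ 3, |F| = p^f odd; realised as PΩ of the form x₀² + Σ xᵢ yᵢ), G = Inndiag(T) the image of the conformal orthogonal group in Aut(T), and x a field automorphism of T of prime order r. Then r divides f; C_G(x) is isomorphic to Inndiag(Ω_{2m+1}(F₀)) for a field F₀ with p^(f/r) elements; and the G-class of x is a single T-class when r is odd and the union of exactly two T-classes when r = 2. -/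
theorem result {F : Type*} [Field F] [Fintype F] {p f : ℕ} [Fact p.Prime] (hF : Fintype.card F = p ^ f) (hf : 1 ≤ f) (hodd : Odd (Fintype.card F)) {m : ℕ} (hm : 3 ≤ m) (x : MulAut (Cfsg.POmega F (Cfsg.quadFormOdd m F))) (hx : Cfsg.IsFieldAutClassPOmega (Cfsg.quadFormOdd m F) x) {r : ℕ} (hr : r.Prime) (hxr : orderOf x = r) (F₀ : Type*) [Field F₀] [Fintype F₀] (hF₀ : Fintype.card F₀ = p ^ (f / r)) :
    r ∣ f ∧ Nonempty (↥(Cfsg.inndiagPOmegaOdd m F ⊓ Subgroup.centralizer {x}) ≃* ↥(Cfsg.inndiagPOmegaOdd m F₀)) ∧ (Odd r → Cfsg.splitClassCount (Cfsg.inndiagPOmegaOdd m F) (Cfsg.Inn (Cfsg.POmega F (Cfsg.quadFormOdd m F))) x = 1) ∧ (r = 2 → Cfsg.splitClassCount (Cfsg.inndiagPOmegaOdd m F) (Cfsg.Inn (Cfsg.POmega F (Cfsg.quadFormOdd m F))) x = 2) := by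
  have := H10.qOdd_nondeg (F := F) (m := m) (H10.odd_card_iff.1 (by rwa [Nat.card_eq_fintype_card]))
  have := H10.qOdd_nondeg (F := F₀) (m := m) (H10.odd_card_iff.1 (by
    rw [hF, Nat.odd_pow_iff (by omega)] at hodd
    rw [Nat.card_eq_fintype_card, hF₀]; exact hodd.pow))
  have h5 : 5 ≤ Fintype.card (Unit ⊕ Fin m ⊕ Fin m) := by simp; omega
  obtain ⟨γ, h1, rfl⟩ := H09.fieldClass_odd h5 hx
  rw [H09.inndiagOdd_eq h5, H09.inndiagOdd_eq h5]
  obtain ⟨h2, h3, h4, h6, -⟩ := H09.om_field _ h5 h1 hr hxr hF hF₀ (H10.qOdd m F₀) rfl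
    fun k hk => by simp at hk; omega
  exact ⟨h2, h3, fun h => h4 (.inl h), fun h => h6 h ⟨m, by simp; ring⟩⟩

end Cfsg.Agent.S2714
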