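import Mathlib
import Cfsg.Statements.S2717
import Cfsg.Agent.H09.FieldOm4

set_option autoImplicit false
open Cfsg

namespace Cfsg.Agent.S2717

open H09 H10 Gam in
theorem aux {F : Type*} [Field F] [Finite F] {ι : Type} [Fintype ι] [DecidableEq ι] [Nonempty ι]
    (Q : QuadraticForm F (ι → F)) [(Form.ofQuad Q).Nondeg] (h5 : 5 ≤ Fintype.card ι)
    {γ δ : Gam (Form.ofQuad Q)} (h1 : fld γ ≠ 1) (h2 : fld δ ≠ 1)
    (h3 : fam (Form.isQuad_ofQuad Q) γ = fam (Form.isQuad_ofQuad Q) δ)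
    (hx : orderOf (omAut Q h5 γ) = 2) (hy : orderOf (omAut Q h5 δ) = 2) :
    IsConjUnder ((GSO _).map (omAut Q h5)) (omAut Q h5 γ) (omAut Q h5 δ) := by
  have e1 := orderOf_dvd_iff_pow_eq_one.1 hx.dvd
  have e2 := orderOf_dvd_iff_pow_eq_one.1 hy.dvd
  obtain ⟨q, h9, h10⟩ := exists_q_of_mul_self h1 ((sq _).symm.trans (orderOf_dvd_iff_pow_eq_one.1
    (exists_norm _ (ker_omAut h5) h1 Nat.prime_two e1).1.dvd))
  obtain ⟨q', h11, h12⟩ := exists_q_of_mul_self h2 ((sq _).symm.trans (orderOf_dvd_iff_pow_eq_one.1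
    (exists_norm _ (ker_omAut h5) h2 Nat.prime_two e2).1.dvd))
  obtain rfl : q = q' := Nat.pow_left_injective two_ne_zero (h9.symm.trans h11)
  exact om_conj _ h5 _ (ker_omAut h5) h1 (RingEquiv.ext fun a => (h10 a).trans (h12 a).symm) h3
    Nat.prime_two e1 e2

set_option maxHeartbeats 1000000 in
/-- Let T = PΩ⁺_{2m}(F) with m ≥ 5 (dimension 2m ≠ 8) and |F| = p^f, G = Inndiag(T), and x an involutory graph-field automorphism of T. Then f is even; any two involutory graph-field automorphisms of T are G-conjugate; C_G(x) is isomorphic to Inndiag(PΩ⁻_{2m}(F₀)) for a field F₀ with p^(f/2) elements (some anisotropic binary part over F₀); and the G-class of x is the union of exactly c T-classes with c = 1 if p = 2, c = 4 if p is odd, m is odd and p^(f/2) ≡ 1 (mod 4), and c = 2 otherwise. -/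
theorem result {F : Type*} [Field F] [Fintype F] {p f : ℕ} [Fact p.Prime] (hF : Fintype.card F = p ^ f) (hf : 1 ≤ f) {m : ℕ} (hm : 5 ≤ m) (x : MulAut (Cfsg.POmega F (Cfsg.quadFormPlus m F))) (hx : Cfsg.IsGraphFieldAutClassPOmegaPlus m x) (hx2 : orderOf x = 2) (F₀ : Type*) [Field F₀] [Fintype F₀] (hF₀ : Fintype.card F₀ = p ^ (f / 2)) :
    Even f ∧ (∀ y : MulAut (Cfsg.POmega F (Cfsg.quadFormPlus m F)), Cfsg.IsGraphFieldAutClassPOmegaPlus m y → orderOf y = 2 → Cfsg.IsConjUnder (Cfsg.inndiagPOmegaPlus m F) x y) ∧ (∃ a₀ b₀ : F₀, (∀ z₁ z₂ : F₀, z₁ ^ 2 + a₀ * z₁ * z₂ + b₀ * z₂ ^ 2 = 0 → z₁ = 0 ∧ z₂ = 0) ∧ Nonempty (↥(Cfsg.inndiagPOmegaPlus m F ⊓ Subgroup.centralizer {x}) ≃* ↥(Cfsg.inndiagPOmegaMinus (m - 1) F₀ a₀ b₀))) ∧ (p = 2 → Cfsg.splitClassCount (Cfsg.inndiagPOmegaPlus m F) (Cfsg.Inn (Cfsg.POmega F (Cfsg.quadFormPlus m F))) x = 1) ∧ ((p ≠ 2 ∧ Odd m ∧ p ^ (f / 2) % 4 =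 1) → Cfsg.splitClassCount (Cfsg.inndiagPOmegaPlus m F) (Cfsg.Inn (Cfsg.POmega F (Cfsg.quadFormPlus m F))) x = 4) ∧ ((p ≠ 2 ∧ ¬ (Odd m ∧ p ^ (f / 2) % 4 = 1)) → Cfsg.splitClassCount (Cfsg.inndiagPOmegaPlus m F) (Cfsg.Inn (Cfsg.POmega F (Cfsg.quadFormPlus m F))) x = 2) := by
  obtain ⟨m, rfl⟩ : ∃ k, m = k + 1 := ⟨m - 1, by omega⟩
  have h5 : 5 ≤ Fintype.card (Fin (m + 1) ⊕ Fin (m + 1)) := by simp; omega
  have h5' : 5 ≤ Fintype.card ((Fin m ⊕ Fin m) ⊕ Fin 2) := by simp; omega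
  have hc : Fintype.card (Fin (m + 1) ⊕ Fin (m + 1)) = 2 * (m + 1) := by simp [two_mul]
  obtain ⟨a₀, b₀, h₀⟩ := H09.exists_aniso F₀
  have := H10.qMinus_nondeg (m := m) (H10.disc_ne_zero_of_aniso h₀)
  have hn := H10.qMinus_not_hasTS (m := m) (H10.disc_ne_zero_of_aniso h₀) h₀
  obtain ⟨γ, h1, h0, rfl⟩ := H09.graphFieldClass_plus hm h5 hx
  rw [H09.inndiagPlus_eq h5, Nat.add_sub_cancel]
  obtain ⟨h2, h3, h4, -, h6⟩ := H09.om_field _ h5 h1 Nat.prime_two hx2 hF hF₀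
    (H10.qMinus m F₀ a₀ b₀) (by simp; omega) fun k hk => by
      obtain rfl : m + 1 = k := by omega
      exact iff_of_false hn (by simp [h0])
  have key : p ≠ 2 → ((-1) ^ (m + 1) * (H10.Form.ofQuad (H10.qMinus m F₀ a₀ b₀)).disc = 1 ↔
      Odd (m + 1) ∧ p ^ (f / 2) % 4 = 1) := fun h' => by
    have h7 : (2 : F₀) ≠ 0 := H10.odd_card_iff.1 (by
      rw [Nat.card_eq_fintype_card, hF₀]; exact ((Fact.out : p.Prime).odd_of_ne_two h').pow)
    rw [(H10.Form.isQuad_ofQuad _).disc_of_not_hasTS h7 (by simp; omega) hn, mul_neg,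
      H09.neg_one_pow_mul_chi h7, Nat.card_eq_fintype_card, hF₀]
    split_ifs with h <;> simp [h]
  refine ⟨even_iff_two_dvd.2 h2, fun y hy hy2 => ?_, ⟨a₀, b₀, h₀, ?_⟩, fun h => h4 (.inr h),
    fun h => (h6 rfl h.1 _ hc).trans (if_pos ((key h.1).2 h.2)),
    fun h => (h6 rfl h.1 _ hc).trans (if_neg (mt (key h.1).1 h.2))⟩
  · obtain ⟨δ, h7, h8, rfl⟩ := H09.graphFieldClass_plus hm h5 hy
    exact aux _ h5 h1 h7 (h0.trans h8.symm) hx2 hy2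
  · exact ⟨h3.some.trans (MulEquiv.subgroupCongr (H09.inndiagMinus_eq (m := m) h₀ _).symm)⟩

end Cfsg.Agent.S2717
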