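import Mathlib
import Cfsg.Statements.S2718
import Cfsg.Agent.H03.GA4

set_option autoImplicit false
open Cfsg

namespace Cfsg.Agent.S2718

/-- Let T = PΩ⁺_{2m}(F) with m ≥ 4 and |F| = q odd, G = Inndiag(T), and γ an involutory graph automorphism of T induced by a similarity (one interchanging the two classes of maximal totally singular subspaces). Then the G-class of γ is either a single T-class or the union of exactly two T-classes, and it is the union of two unless m is odd and q ≡ 3 (mod 4). -/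
theorem result {F : Type*} [Field F] [Fintype F] (hodd : Odd (Fintype.card F)) {m : ℕ} (hm : 4 ≤ m) (γ : MulAut (Cfsg.POmega F (Cfsg.quadFormPlus m F))) (hγ : Cfsg.IsSimilarityGraphAutPOmegaPlus m γ) (hγ2 : orderOf γ = 2) :
    (Cfsg.splitClassCount (Cfsg.inndiagPOmegaPlus m F) (Cfsg.Inn (Cfsg.POmega F (Cfsg.quadFormPlus m F))) γ = 1 ∨ Cfsg.splitClassCount (Cfsg.inndiagPOmegaPlus m F) (Cfsg.Inn (Cfsg.POmega F (Cfsg.quadFormPlus m F))) γ = 2) ∧ (¬ (Odd m ∧ Fintype.card F % 4 = 3) → Cfsg.splitClassCount (Cfsg.inndiagPOmegaPlus m F) (Cfsg.Inn (Cfsg.POmega F (Cfsg.quadFormPlus m F))) γ = 2) := by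
  have : NeZero m := ⟨by omega⟩
  have h5 : 5 ≤ Fintype.card (Fin m ⊕ Fin m) := by simp; omega
  have hm' : Fintype.card (Fin m ⊕ Fin m) = 2 * m := by simp; ring
  have h2 := H10.two_ne_zero_of_odd_card hodd
  obtain ⟨g, ⟨h1, h3⟩, rfl⟩ := (H09.sim_induced_iff (Q := H10.qPlus m F) h5
    (fun g => ¬ Cfsg.PreservesSingularClasses (Cfsg.quadFormPlus m F) g.1)).1 hγ
  have h := H03.GA.split_graph (H10.Form.isQuad_ofQuad (H10.qPlus m F)) h2 hm' (H09.omRep _ h5) h5 h1
    (fun h => h3 ((H09.preserves_iff h5 hm' H10.qPlus_hasTS h1).2 h)) (hγ2 ▸ pow_orderOf_eq_one _)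
  rw [H09.inndiagPlus_eq h5]
  refine ⟨h.1, fun H => h.2 (.inl ?_)⟩
  rw [H09.disc_qPlus h2, Nat.card_eq_fintype_card, if_neg H]

end Cfsg.Agent.S2718
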