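import Mathlib
import Cfsg.Statements.S2719
import Cfsg.Agent.H03.GA4

set_option autoImplicit false
open Cfsg

namespace Cfsg.Agent.S2719

/-- Let T = PΩ⁻_{2m+2}(F) with m ≥ 3 and |F| = q odd (form with anisotropic binary part z₁² + a z₁ z₂ + b z₂²), G = Inndiag(T), and γ an involutory graph automorphism of T (an automorphism in the image of the semisimilarity group, not inner-diagonal, of order 2). Then the G-class of γ is either a single T-class or the union of exactly two T-classes, and it is the union of two unless m is even and q ≡ 1 (mod 4). -/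
theorem result {F : Type*} [Field F] [Fintype F] (hodd : Odd (Fintype.card F)) {m : ℕ} (hm : 3 ≤ m) (a b : F) (hab : (∀ z₁ z₂ : F, z₁ ^ 2 + a * z₁ * z₂ + b * z₂ ^ 2 = 0 → z₁ = 0 ∧ z₂ = 0)) (γ : MulAut (Cfsg.POmega F (Cfsg.quadFormMinus m F a b))) (hγ : Cfsg.IsGraphAutClassPOmegaMinus m a b γ) (hγ2 : orderOf γ = 2) :
    (Cfsg.splitClassCount (Cfsg.inndiagPOmegaMinus m F a b) (Cfsg.Inn (Cfsg.POmega F (Cfsg.quadFormMinus m F a b))) γ = 1 ∨ Cfsg.splitClassCount (Cfsg.inndiagPOmegaMinus m F a b) (Cfsg.Inn (Cfsg.POmega F (Cfsg.quadFormMinus m F a b))) γ = 2) ∧ (¬ (Even m ∧ Fintype.card F % 4 = 1) → Cfsg.splitClassCount (Cfsg.inndiagPOmegaMinus m F a b) (Cfsg.Inn (Cfsg.POmega F (Cfsg.quadFormMinus m F a b))) γ = 2) := by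
  have := H10.qMinus_nondeg (m := m) (H10.disc_ne_zero_of_aniso hab)
  have h5 : 5 ≤ Fintype.card ((Fin m ⊕ Fin m) ⊕ Fin 2) := by simp; omega
  have hm' : Fintype.card ((Fin m ⊕ Fin m) ⊕ Fin 2) = 2 * (m + 1) := by simp; ring
  have h2 := H10.two_ne_zero_of_odd_card hodd
  have hQ := H10.Form.isQuad_ofQuad (H10.qMinus m F a b)
  obtain ⟨h3, h4, -⟩ := hγ
  obtain ⟨g, rfl⟩ := (H09.range_omAut (H10.qMinus m F a b) h5).ge h3
  rw [H09.inndiagMinus_eq hab h5] at h4 ⊢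
  have ho : H09.omAut (H10.qMinus m F a b) h5 g ^ 2 = 1 := orderOf_dvd_iff_pow_eq_one.1 hγ2.dvd
  have h1 : H09.Gam.fld g = 1 := by
    by_contra h1
    exact H10.qMinus_not_hasTS (H10.disc_ne_zero_of_aniso hab) hab
      (H03.GA.hasTS_of_fld hQ h2 hm' (H09.omRep _ h5) h5 h1 ho)
  have h := H03.GA.split_graph hQ h2 hm' (H09.omRep _ h5) h5 h1 (fun h => h4 ⟨g, h, rfl⟩) ho
  refine ⟨h.1, fun H => h.2 ?_⟩
  rw [H09.disc_qMinus h2 m hab, Nat.card_eq_fintype_card]
  by_cases he : Even m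
  · refine .inl (if_pos ⟨he, ?_⟩)
    obtain ⟨k, hk⟩ := hodd
    have : Fintype.card F % 4 ≠ 1 := fun h => H ⟨he, h⟩
    omega
  · exact .inr (by simpa [Nat.even_add_one] using he)

end Cfsg.Agent.S2719
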