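import Mathlib
import Cfsg.Statements.S2722
import Cfsg.Agent.H09.FieldOm5

set_option autoImplicit false
open Cfsg

namespace Cfsg.Agent.S2722

/-- Let T = PΩ⁺_{2m}(F) with m ≥ 4 and |F| = q odd. Inside Aut(T), the image G̃ of the conformal orthogonal group of the form modulo the image of the special orthogonal group is elementary abelian of order 4. -/
theorem result {F : Type*} [Field F] [Fintype F] (hodd : Odd (Fintype.card F)) {m : ℕ} (hm : 4 ≤ m) :
    (∃ φ : ↥(Cfsg.pgoAut F (Cfsg.quadFormPlus m F)) →* Multiplicative (ZMod 2 × ZMod 2), Function.Surjective φ ∧ φ.ker = (Cfsg.psoAut F (Cfsg.quadFormPlus m F)).subgroupOf (Cfsg.pgoAut F (Cfsg.quadFormPlus m F))) := by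
  have : NeZero m := ⟨by omega⟩
  have h5 : 5 ≤ Fintype.card (Fin m ⊕ Fin m) := by simp; omega
  have hc : Fintype.card (Fin m ⊕ Fin m) = 2 * m := by simp [two_mul]
  have h2 : (2 : F) ≠ 0 := H10.odd_card_iff.1 (by rwa [Nat.card_eq_fintype_card])
  have hd := H09.disc_qPlus h2 m
  rw [Nat.card_eq_fintype_card] at hd
  exact H09.pgo_pso (H10.qPlus m F) h5 h2 hc

end Cfsg.Agent.S2722
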