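import Cfsg.Statements.S2734
import Cfsg.Agent.H11.FixG
-- import your own Cfsg.Agent.* helpers here

set_option autoImplicit false
open Cfsg

namespace Cfsg.Agent.S2734
open H11 Cfsg.Lie

theorem fix_inv {G : Type*} [Group G] (φ : MulAut G) : fixS φ⁻¹ = fixS φ :=
  Subgroup.ext fun _ => by simp only [mem_fixS]; exact φ.symm_apply_eq.trans eq_comm

theorem aux {F : Type*} [Field F] [Finite F] {τ : MulAut (chevD4.group F)}
    (h : (grpSys chevD4 F).SimpAct τ symD4a 1 fun _ => RingEquiv.refl F) : Nonempty (fixS τ ≃* chevG2.group F) := by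
  obtain ⟨σ, hσ⟩ := exists_isTw_D4 (RingEquiv.refl F)
  obtain rfl := h.ext (grpSys_grp _ _) (TD4.simpAct hσ)
  obtain ⟨f, h2, h3, -⟩ := foldD4 hσ (grpSys_grp _ _) (grpSys_θ_injective _ _)
  rw [← h3]
  exact ⟨(MonoidHom.ofInjective h2).symm⟩

/-- In the Chevalley group of type D₄ over a finite field F (the matrix group generated by the root elements), a graph automorphism attached to a symmetry π of the Dynkin diagram (sending each fundamental root element x_p(t) to x_{π(p)}(t) and each x_{−p}(t) to x_{−π(p)}(t)) that has order 3 — a standard triality graph automorphism, π being a 3-cycle of the three outer nodes — has fixed-point subgroup isomorphic to the Chevalley group of type G₂ over F. -/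
theorem result {F : Type*} [Field F] [Fintype F] (τ : MulAut ↥(Cfsg.Lie.chevD4.group F)) (hτ : Cfsg.Lie.chevD4.IsGraphAut τ) (hτ3 : orderOf τ = 3) :
    Nonempty (↥(MonoidHom.eqLocus τ.toMonoidHom (MonoidHom.id ↥(Cfsg.Lie.chevD4.group F))) ≃* ↥(Cfsg.Lie.chevG2.group F)) := by
  obtain ⟨π, hπ, h⟩ := isGraphAut_iff.1 hτ
  have h1 := h.simpAct_one (by decide +kernel)
  have h2 : π * π ≠ 1 := fun e => by
    have h3 := h1.mul h1
    rw [e] at h3
    have : τ ^ 2 = 1 := (sq τ).trans (h3.ext (grpSys_grp _ _) (by convert StSys.SimpAct.one (D := chevD4) using 1; exacts [by ext; simp, rfl]))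
    exact absurd (hτ3 ▸ orderOf_dvd_of_pow_eq_one this) (by decide)
  have := symD4 hπ
  simp only [List.mem_cons, List.not_mem_nil, or_false] at this
  change Nonempty (fixS τ ≃* _)
  rcases this with rfl | rfl | rfl | rfl | rfl | rfl
  · exact absurd (by decide) h2
  · exact aux h1
  · rw [← fix_inv]
    exact aux (by convert h1.inv using 1; exacts [by decide, by ext; simp, rfl])
  all_goals exact absurd (by decide) h2

end Cfsg.Agent.S2734
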