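import Mathlib
import Cfsg.Statements.S2738
import Cfsg.Agent.H09.SLBasic

set_option autoImplicit false
open Cfsg

namespace Cfsg.Agent.S2738

open scoped commutatorElement

/-- The special linear group SL(3, 4) has centre of order 3 and does not split over it: no subgroup is a complement to the centre (so SL(3, 4) is a non-split central extension of PSL(3, 4) by a group of order 3). -/
theorem result (F : Type*) [Field F] [Fintype F] (hF : Fintype.card F = 4) : Nat.card ↥(Subgroup.center (Matrix.SpecialLinearGroup (Fin 3) F)) = 3 ∧ ¬ ∃ K : Subgroup (Matrix.SpecialLinearGroup (Fin 3) F), Subgroup.IsComplement' (Subgroup.center (Matrix.SpecialLinearGroup (Fin 3) F)) K := by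
  classical
  have hc : Nat.card ↥(Subgroup.center (Matrix.SpecialLinearGroup (Fin 3) F)) = 3 := by
    rw [H09.card_center_SL, hF]; simp
  refine ⟨hc, ?_⟩
  rintro ⟨K, hK⟩
  have hle : commutator (Matrix.SpecialLinearGroup (Fin 3) F) ≤ K := by
    rw [commutator_def, Subgroup.commutator_le]
    intro x _ y _
    obtain ⟨⟨z, k⟩, rfl⟩ := hK.2 x
    obtain ⟨⟨z', k'⟩, rfl⟩ := hK.2 y
    have h1 := fun g => Subgroup.mem_center_iff.1 z.2 g
    have h2 := fun g => Subgroup.mem_center_iff.1 z'.2 g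
    have : ⁅(z : Matrix.SpecialLinearGroup (Fin 3) F) * k, (z' : Matrix.SpecialLinearGroup (Fin 3) F) * k'⁆ = ⁅(k : Matrix.SpecialLinearGroup (Fin 3) F), (k' : Matrix.SpecialLinearGroup (Fin 3) F)⁆ := by
      simp only [commutatorElement_def, mul_inv_rev]
      calc (z : Matrix.SpecialLinearGroup (Fin 3) F) * k * (z' * k') * ((k : Matrix.SpecialLinearGroup (Fin 3) F)⁻¹ * (z : Matrix.SpecialLinearGroup (Fin 3) F)⁻¹) * ((k' : Matrix.SpecialLinearGroup (Fin 3) F)⁻¹ * (z' : Matrix.SpecialLinearGroup (Fin 3) F)⁻¹)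
          = z * ((k * z') * k' * (k : Matrix.SpecialLinearGroup (Fin 3) F)⁻¹) * (z : Matrix.SpecialLinearGroup (Fin 3) F)⁻¹ * ((k' : Matrix.SpecialLinearGroup (Fin 3) F)⁻¹ * (z' : Matrix.SpecialLinearGroup (Fin 3) F)⁻¹) := by group
        _ = (k * z') * k' * (k : Matrix.SpecialLinearGroup (Fin 3) F)⁻¹ * ((k' : Matrix.SpecialLinearGroup (Fin 3) F)⁻¹ * (z' : Matrix.SpecialLinearGroup (Fin 3) F)⁻¹) := by
          rw [← h1]; group
        _ = z' * (k * k' * (k : Matrix.SpecialLinearGroup (Fin 3) F)⁻¹ * (k' : Matrix.SpecialLinearGroup (Fin 3) F)⁻¹) * (z' : Matrix.SpecialLinearGroup (Fin 3) F)⁻¹ := by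
          rw [h2]; group
        _ = _ := by rw [← h2]; group
    simp only
    rw [this, commutatorElement_def]
    exact K.mul_mem (K.mul_mem (K.mul_mem k.2 k'.2) (K.inv_mem k.2)) (K.inv_mem k'.2)
  rw [H09.SL_commutator_eq_top (by simp), top_le_iff] at hle
  have := hK.disjoint.eq_bot
  rw [hle, inf_top_eq] at this
  rw [this] at hc
  simp at hc

end Cfsg.Agent.S2738
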