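import Mathlib
import Cfsg.Statements.S2739
import Cfsg.Agent.H09.L34

set_option autoImplicit false
open scoped Pointwise
open Cfsg

namespace Cfsg.Agent.S2739

/-- In the projective special linear group PSL(3, 4) all subgroups of order 3 are conjugate. -/
theorem result (F : Type*) [Field F] [Fintype F] (hF : Fintype.card F = 4) (X Y : Subgroup (Matrix.ProjectiveSpecialLinearGroup (Fin 3) F)) (hX : Nat.card ↥X = 3) (hY : Nat.card ↥Y = 3) : ∃ g : Matrix.ProjectiveSpecialLinearGroup (Fin 3) F, MulAut.conj g • X = Y := by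
  have := Fact.mk Nat.prime_three
  obtain ⟨⟨x, hx⟩, h1⟩ := exists_prime_orderOf_dvd_card' (G := X) 3 hX.symm.dvd
  obtain ⟨⟨y, hy⟩, h2⟩ := exists_prime_orderOf_dvd_card' (G := Y) 3 hY.symm.dvd
  rw [Subgroup.orderOf_mk] at h1 h2
  obtain ⟨g, rfl⟩ := isConj_iff.1 (H09.L34.psl_isConj_three hF h1 h2)
  refine ⟨g, ?_⟩
  rw [← Subgroup.eq_of_le_of_card_ge (Subgroup.zpowers_le.2 hx) (by rw [Nat.card_zpowers, h1, hX]),
    ← Subgroup.eq_of_le_of_card_ge (Subgroup.zpowers_le.2 hy) (by rw [Nat.card_zpowers, h2, hY])]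
  exact MonoidHom.map_zpowers _ _

end Cfsg.Agent.S2739
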