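import Mathlib
import Cfsg.Statements.S2751
import Cfsg.Agent.H26.Gs6

set_option autoImplicit false
open Cfsg

namespace Cfsg.Agent.S2751
open H26

/-- Goldschmidt's bound for amalgams of index (3, 3): let M₁ and M₂ be finite subgroups of a group G such that M₁ ⊓ M₂ is a Sylow 2-subgroup of both M₁ and M₂, each quotient Mᵢ / O₂(Mᵢ) is isomorphic to the symmetric group of degree 3, and no nontrivial subgroup of M₁ ⊓ M₂ is normal in both M₁ and M₂. Then M₁ ⊓ M₂ has order at most 2^7. -/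
theorem result {G : Type*} [Group G] (M₁ M₂ : Subgroup G) [Finite M₁] [Finite M₂] (ha₁ : ∃ P : Sylow 2 M₁, (P : Subgroup M₁) = (M₁ ⊓ M₂).subgroupOf M₁) (ha₂ : ∃ P : Sylow 2 M₂, (P : Subgroup M₂) = (M₁ ⊓ M₂).subgroupOf M₂) (hb₁ : Nonempty (M₁ ⧸ Cfsg.pCore 2 M₁ ≃* Equiv.Perm (Fin 3))) (hb₂ : Nonempty (M₂ ⧸ Cfsg.pCore 2 M₂ ≃* Equiv.Perm (Fin 3))) (hc : ∀ N : Subgroup G, N ≤ M₁ ⊓ M₂ → (N.subgroupOf M₁).Normal → (N.subgroupOf M₂).Normal → N = ⊥) : Nat.card ↥(M₁ ⊓ M₂) ≤ 2 ^ 7 := by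
  have key : ∀ (P : Subgroup G) [Finite P], (∃ S : Sylow 2 P, (S : Subgroup P) = (M₁ ⊓ M₂).subgroupOf P) →
      Nonempty (P ⧸ Cfsg.pCore 2 P ≃* Equiv.Perm (Fin 3)) → Cfsg.Agent.H26.Gs.SW (⊤ : Subgroup P) ((M₁ ⊓ M₂).subgroupOf P) := by
    rintro P _ ⟨S, hS⟩ ⟨e⟩
    refine Cfsg.Agent.H26.Gs.sw_of (hS ▸ H26.isSyl_top S) ?_
    rw [H26.pCoreOf_top, Subgroup.relIndex_top_right, Subgroup.index, Nat.card_congr e.toEquiv, Nat.card_perm]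
    simp [Nat.factorial]
  have l1 := key M₁ ha₁ hb₁
  have l2 := key M₂ ha₂ hb₂
  have t1 : M₁ ⊓ M₂ ≤ M₁ := inf_le_left
  have t2 : M₁ ⊓ M₂ ≤ M₂ := inf_le_right
  generalize M₁ ⊓ M₂ = T at *
  obtain ⟨f₁, f₂, i1, i2, e⟩ := H01.completion t1 t2 (by
    have a1 := BG.card_mul_relIndex l1.le
    have a2 := BG.card_mul_relIndex l2.le
    rw [l1.idx_aux.2, H26.card_subgroupOf t1, Subgroup.card_top] at a1
    rw [l2.idx_aux.2, H26.card_subgroupOf t2, Subgroup.card_top] at a2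
    omega)
  have e1 : (T.subgroupOf M₂).map f₂ = (T.subgroupOf M₁).map f₁ := le_antisymm
    (by rintro _ ⟨t, ht, rfl⟩; exact ⟨⟨t, t1 ht⟩, ht, e t ht⟩) (by rintro _ ⟨t, ht, rfl⟩; exact ⟨⟨t, t2 ht⟩, ht, (e t ht).symm⟩)
  have h := Cfsg.Agent.H26.Gs.gold (l1.map i1) (e1 ▸ l2.map i2) fun X a b c => by
    have m1 : ∀ t (ht : t ∈ T), t ∈ (X.comap f₁).map M₁.subtype ↔ f₁ ⟨t, t1 ht⟩ ∈ X := fun t ht =>
      ⟨by rintro ⟨y, hy, rfl⟩; exact hy, fun hy => ⟨⟨t, t1 ht⟩, hy, rfl⟩⟩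
    have m2 : (X.comap f₁).map M₁.subtype ≤ T := by
      rintro _ ⟨y, hy, rfl⟩
      obtain ⟨z, hz, e2⟩ := a hy
      exact i1 e2 ▸ hz
    have m3 : (X.comap f₁).map M₁.subtype = ⊥ := by
      refine hc _ m2 ((Subgroup.normal_subgroupOf_iff_le_normalizer (m2.trans t1)).mpr (BG.le_norm_iff.mpr fun g hg => ?_))
        ((Subgroup.normal_subgroupOf_iff_le_normalizer (m2.trans t2)).mpr (BG.le_norm_iff.mpr fun g hg => ?_))
      · rintro _ ⟨y, hy, rfl⟩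
        refine ⟨⟨g, hg⟩ * y * ⟨g, hg⟩⁻¹, ?_, rfl⟩
        have := BG.le_norm_iff.mp b _ ⟨⟨g, hg⟩, trivial, rfl⟩ _ hy
        simpa using this
      · intro y hy
        have y1 := m2 hy
        have y2 := BG.le_norm_iff.mp c _ ⟨⟨g, hg⟩, trivial, rfl⟩ _ (e y y1 ▸ (m1 y y1).mp hy)
        rw [← map_inv, ← map_mul, ← map_mul] at y2
        obtain ⟨z, hz, e2⟩ := e1.ge (a y2)
        have y3 : g * y * g⁻¹ ∈ T := (show (z : G) = g * y * g⁻¹ from congrArg Subtype.val (i2 e2)) ▸ hz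
        exact (m1 _ y3).mpr (e _ y3 ▸ y2)
    refine le_bot_iff.mp fun x hx => ?_
    obtain ⟨z, hz, rfl⟩ := a hx
    have : (z : G) = 1 := Subgroup.mem_bot.mp (m3 ▸ ⟨z, hx, rfl⟩)
    rw [show z = 1 from Subtype.ext this, map_one]
    exact one_mem _
  rwa [Subgroup.card_map_of_injective i1, H26.card_subgroupOf t1] at h

end Cfsg.Agent.S2751
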