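import Mathlib
import Cfsg.Statements.S2762
import Cfsg.Agent.H03.Qd2

set_option autoImplicit false
open Cfsg

namespace Cfsg.Agent.S2762

open H03 H03.QA Matrix

/-- Structure of Qd over a finite field F of characteristic p (the affine subgroup of SL₃(F)): its largest normal p-subgroup is the group of translations (matrices with upper-left block the identity), the block-diagonal matrices form a complement isomorphic to SL₂(F), and the translation subgroup is a natural SL₂(F)-module for that complement. -/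
theorem result {F : Type*} [Field F] [Fintype F] {p : ℕ} [Fact p.Prime] [CharP F p] : (∀ M : ↥(Cfsg.qdOver F), M ∈ Cfsg.pCore p ↥(Cfsg.qdOver F) ↔ ((M : Matrix.SpecialLinearGroup (Fin 3) F) : Matrix (Fin 3) (Fin 3) F) 0 0 = 1 ∧ ((M : Matrix.SpecialLinearGroup (Fin 3) F) : Matrix (Fin 3) (Fin 3) F) 0 1 = 0 ∧ ((M : Matrix.SpecialLinearGroup (Fin 3) F) : Matrix (Fin 3) (Fin 3) F) 1 0 = 0 ∧ ((M : Matrix.SpecialLinearGroup (Fin 3) F) : Matrix (Fin 3) (Fin 3) F) 1 1 = 1) ∧ ∃ K : Subgroup ↥(Cfsg.qdOver F), (∀ M : ↥(Cfsg.qdOver F), M ∈ K ↔ ((M : Matrix.SpecialLinearGroup (Fin 3) F) : Matrix (Fin 3) (Fin 3) F) 0 2 = 0 ∧ ((M : Matrix.SpecialLinearGroup (Fin 3) F) : Matrix (Fin 3) (Fin 3) F) 1 2 = 0) ∧ K ⊓ Cfsg.pCore p ↥(Cfsg.qdOver F) = ⊥ ∧ K ⊔ Cfsg.pCore p ↥(Cfsg.qdOver F) = ⊤ ∧ Nonempty (↥K ≃* Matrix.SpecialLinearGroup (Fin 2) F) ∧ Cfsg.IsNaturalSL2Module F (Cfsg.pCore p ↥(Cfsg.qdOver F)) K := by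
  let e := equiv (F := F)
  have h1 : Cfsg.pCore p (Cfsg.qdOver F) = V.map e.toMonoidHom := by
    rw [← pCore_eq (p := p)]; exact (H02.pCore_map_equiv e).symm
  have hV : ∀ g, e g ∈ Cfsg.pCore p (Cfsg.qdOver F) ↔ g.s = 1 := fun g => by
    rw [h1]; exact Subgroup.mem_map_iff_mem e.injective
  let f : Matrix.SpecialLinearGroup (Fin 2) F →* QA F := MonoidHom.mk' (fun s => ⟨0, s⟩) fun s t =>
    QA.ext (by simp) rfl
  let f' := e.toMonoidHom.comp f
  have hf : Function.Injective f' := e.injective.comp fun s t h => congrArg QA.s h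
  have hK : ∀ g, e g ∈ f'.range ↔ g.x = 0 := fun g =>
    ⟨fun ⟨s, h⟩ => (congrArg QA.x (e.injective h)).symm, fun h => ⟨g.s, congrArg e (QA.ext h.symm rfl)⟩⟩
  refine ⟨fun M => ?_, f'.range, fun M => ?_, ?_, ?_, ⟨(MonoidHom.ofInjective hf).symm⟩,
    Subgroup.le_normalizer_of_normal, ?_⟩
  · obtain ⟨g, rfl⟩ := e.surjective M
    rw [hV, H09.SL2.ext_iff']; rfl
  · obtain ⟨g, rfl⟩ := e.surjective M
    rw [hK]
    exact ⟨fun h => ⟨congrFun h 0, congrFun h 1⟩, fun h => by ext i; fin_cases i; exacts [h.1, h.2]⟩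
  · refine eq_bot_iff.2 fun M hM => ?_
    obtain ⟨g, rfl⟩ := e.surjective M
    rw [show g = 1 from QA.ext ((hK g).1 hM.1) ((hV g).1 hM.2), map_one]; exact one_mem _
  · refine eq_top_iff.2 fun M _ => ?_
    obtain ⟨g, rfl⟩ := e.surjective M
    rw [show g = ⟨g.x, 1⟩ * ⟨0, g.s⟩ from QA.ext (by simp) (by simp), map_mul]
    exact mul_mem (Subgroup.mem_sup_right ((hV _).2 rfl)) (Subgroup.mem_sup_left ((hK _).2 rfl))
  have hs : ∀ v : Cfsg.pCore p (Cfsg.qdOver F), (e.symm v).s = 1 := fun v =>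
    (hV _).1 (by rw [e.apply_symm_apply]; exact v.2)
  let ψ : Additive (Cfsg.pCore p (Cfsg.qdOver F)) ≃+ (Fin 2 → F) :=
    { toFun := fun v => (e.symm v.toMul).x
      invFun := fun y => Additive.ofMul ⟨e ⟨y, 1⟩, (hV _).2 rfl⟩
      left_inv := fun v => Subtype.ext (e.symm.injective
        ((e.symm_apply_apply _).trans (QA.ext rfl (hs v.toMul).symm)))
      right_inv := fun y => by simp
      map_add' := fun v w => by
        simp only [toMul_add, Subgroup.coe_mul, map_mul, mul_x, hs]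
        exact congrArg _ (one_mulVec _) }
  let ρ := lin.comp (e.symm.toMonoidHom.comp f'.range.subtype)
  refine ⟨ρ, ψ, fun s => ⟨⟨f' s, s, rfl⟩, congrArg QA.s (e.symm_apply_apply (f s))⟩, ?_, fun l v => ?_⟩
  · ext l
    rw [Subgroup.mem_subgroupOf]
    refine ⟨fun h => ?_, fun h => ?_⟩
    · have : l = 1 := Subtype.ext (e.symm.injective ((QA.ext (y := 1) ((hK _).1 (by simp))
        (show (e.symm l).s = 1 from h)).trans (map_one _).symm))
      rw [this]; exact one_mem _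
    · exact (hV _).1 (by simpa using cent_pCore e h)
  refine ⟨⟨_, (inferInstance : (Cfsg.pCore p (Cfsg.qdOver F)).Normal).conj_mem _ v.2 l⟩, rfl, ?_⟩
  change (e.symm (_ * _ * _)).x = _
  rw [map_mul, map_mul, map_inv, show e.symm v = ⟨(e.symm v).x, 1⟩ from QA.ext rfl (hs v), conj_tr]
  rfl

end Cfsg.Agent.S2762
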