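import Mathlib
import Cfsg.Statements.S2763
import Cfsg.Agent.H03.Qd

set_option autoImplicit false
open Cfsg

namespace Cfsg.Agent.S2763

/-- In the group Qd(p) (p prime; the natural semidirect product of an elementary abelian group of order p² by SL₂(p)), the normalizer of every nontrivial characteristic subgroup of a Sylow p-subgroup S equals the normalizer of S, which is a proper subgroup; in particular no such characteristic subgroup is normal. -/
theorem result {p : ℕ} [Fact p.Prime] (S : Sylow p ↥(Cfsg.qd p)) (T : Subgroup ↥(S : Subgroup ↥(Cfsg.qd p))) (hT : T ≠ ⊥) (hTc : T.Characteristic) : Subgroup.normalizer ((T.map (S : Subgroup ↥(Cfsg.qd p)).subtype : Subgroup ↥(Cfsg.qd p)) : Set ↥(Cfsg.qd p)) = Subgroup.normalizer ((S : Subgroup ↥(Cfsg.qd p)) : Set ↥(Cfsg.qd p)) ∧ Subgroup.normalizer ((S : Subgroup ↥(Cfsg.qd p)) : Set ↥(Cfsg.qd p)) ≠ ⊤ := by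
  obtain ⟨e, he⟩ := H03.QA.sylow_equiv (H03.QA.equivP p) S
  have h1 := H03.QA.normalizer_char e he T hT
  have h2 := H03.QA.normalizer_char e he ⊤ (fun h => hT (eq_bot_iff.2 (h ▸ le_top)))
  rw [← MonoidHom.range_eq_map, Subgroup.range_subtype] at h2
  refine ⟨h1.trans h2.symm, fun h => H03.QA.B_ne_top (F := ZMod p) (eq_top_iff.2 fun g _ => ?_)⟩
  rw [h] at h2
  exact (Subgroup.mem_map_iff_mem e.injective).1 (h2 ▸ Subgroup.mem_top _)

end Cfsg.Agent.S2763
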