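import Mathlib
import Cfsg.Statements.S2765
import Cfsg.Agent.H26.NC

set_option autoImplicit false
open Cfsg

namespace Cfsg.Agent.S2765
open H26

open H17 H01 in
open scoped commutatorElement in
theorem exp_sq {G : Type*} [Group G] {p : ℕ} (hp : p.Prime) {S : Subgroup G} (h1 : ∀ s ∈ S, s ^ (p * p) = 1)
    {x : G} (hx : x ∈ S) (h2 : x ^ p ≠ 1) : Monoid.exponent S = p * p := by
  have a : Monoid.exponent S ∣ p ^ 2 := Monoid.exponent_dvd_of_forall_pow_eq_one fun s => Subtype.ext (pow_two p ▸ h1 s s.2)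
  obtain ⟨i, b, c⟩ := (Nat.dvd_prime_pow hp).mp a
  rw [c, ← pow_two]
  congr 1
  by_contra d
  exact h2 (congrArg Subtype.val (Monoid.exponent_dvd_iff_forall_pow_eq_one.mp
    (c ▸ (pow_dvd_pow p (by omega : i ≤ 1)).trans (pow_one p).dvd) ⟨x, hx⟩))

/-- In the same pushing-up situation (G finite, C_G(O_p(G)) ≤ O_p(G), G/K ≅ PSL₂(p^n) with n ≥ 1, a Sylow p-subgroup S in exactly one maximal subgroup, no nontrivial characteristic subgroup of S normal in G), one of the following holds: (I) S has nilpotency class 2, exponent 4 if p = 2 and exponent p otherwise, and G has exactly one noncentral chief factor inside O_p(G); or (II) p = 3, S has class 3 and exponent 9, and G has exactly two noncentral chief factors inside O_p(G). 'Exactly one' is phrased as: some noncentral chief factor U/W inside O_p(G) with G acting hypercentrally on W and on O_p(G)/U; 'exactly two' analogously with a chain.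 -/
theorem result {G : Type*} [Group G] [Finite G] {p : ℕ} [Fact p.Prime] (S : Sylow p G) (hE₁ : Subgroup.centralizer (Cfsg.pCore p G : Set G) ≤ Cfsg.pCore p G) (hE₂ : ∃! M : Subgroup G, IsCoatom M ∧ (S : Subgroup G) ≤ M) (K : Subgroup G) [K.Normal] (F : Type) [Field F] [Fintype F] (n : ℕ) (hn : 1 ≤ n) (hF : Fintype.card F = p ^ n) (hE₃ : Nonempty (G ⧸ K ≃* Matrix.ProjectiveSpecialLinearGroup (Fin 2) F)) (hd : ∀ T : Subgroup ↥(S : Subgroup G), T ≠ ⊥ → T.Characteristic → ¬ (T.map (S : Subgroup G).subtype).Normal) : ((S : Subgroup G).lowerCentralSeries 2 = ⊥ ∧ (S : Subgroup G).lowerCentralSeries 1 ≠ ⊥ ∧ (p = 2 → Monoid.exponent ↥(S : Subgroup G) = 4) ∧ (p ≠ 2 → Monoid.exponent ↥(S : Subgroup G) = p) ∧ (∃ U W : Subgroup G, W ≤ U ∧ U ≤ (Cfsg.pCore p G) ∧ Cfsg.IsChiefFactor U W ∧ ¬ ⁅U, (⊤ : Subgroup G)⁆ ≤ W ∧ (∃ k : ℕ, Cfsg.iterCommutator W ⊤ k = ⊥) ∧ (∃ k : ℕ, Cfsg.iterCommutator (Cfsg.pCore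 p G) ⊤ k ≤ U))) ∨ (p = 3 ∧ (S : Subgroup G).lowerCentralSeries 3 = ⊥ ∧ (S : Subgroup G).lowerCentralSeries 2 ≠ ⊥ ∧ Monoid.exponent ↥(S : Subgroup G) = 9 ∧ (∃ U₁ W₁ U₂ W₂ : Subgroup G, W₁ ≤ U₁ ∧ U₁ ≤ W₂ ∧ W₂ ≤ U₂ ∧ U₂ ≤ (Cfsg.pCore p G) ∧ Cfsg.IsChiefFactor U₁ W₁ ∧ Cfsg.IsChiefFactor U₂ W₂ ∧ ¬ ⁅U₁, (⊤ : Subgroup G)⁆ ≤ W₁ ∧ ¬ ⁅U₂, (⊤ : Subgroup G)⁆ ≤ W₂ ∧ (∃ k : ℕ, Cfsg.iterCommutator W₁ ⊤ k = ⊥) ∧ (∃ k : ℕ, Cfsg.iterCommutator W₂ ⊤ k ≤ U₁) ∧ (∃ k : ℕ, Cfsg.iterCommutator (Cfsg.pCore p G) ⊤ k ≤ U₂))) := by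
  obtain ⟨M, h, hq⟩ := pu_of_quot (isSyl_top S) hE₂ hF hE₃
  obtain ⟨hh, k, hc⟩ := PUC.nc ⟨h, inf_le_right.trans hE₁⟩ hd
  obtain ⟨p1, p2, p3, p4⟩ := NoChar.phi hd h
  have c0 : ⁅(S : Subgroup G), (S : Subgroup G)⁆ ≤ Phi S := ((Phi_le_iff h.pS).mp le_rfl).1
  have z : ∃ j : ℕ, iterCommutator (pCore p G ⊓ Subgroup.centralizer (pCore p G : Set G) ⊓
      Subgroup.centralizer ((⊤ : Subgroup G) : Set G)) ⊤ j = ⊥ :=
    ⟨1, Subgroup.commutator_eq_bot_iff_le_centralizer.mpr inf_le_right⟩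
  have na : ⁅(S : Subgroup G), (S : Subgroup G)⁆ ≠ ⊥ := fun a =>
    k.not_V_le (k.VS.trans (Subgroup.commutator_eq_bot_iff_le_centralizer.mp a))
  rcases hc with hE | ⟨U, Y, g⟩
  · obtain ⟨a1, a2, a3⟩ := k.caseI hh hE
    refine Or.inl ⟨le_bot_iff.mp ((Subgroup.commutator_mono c0 le_rfl).trans (p1 a1).le), na, fun e => ?_, fun e => ?_,
      _, _, inf_le_left, inf_le_left, k.toFF.chief.1, k.toFF.chief.2, z,
      exists_iter_le h.syl h.pT le_top h.nT k.nV hE⟩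
    · subst e
      by_contra d
      refine na (Subgroup.commutator_self_eq_bot_iff.mpr ⟨⟨fun a b => Commute.of_orderOf_dvd_two (fun s => ?_) a b⟩⟩)
      by_contra e
      exact d (exp_sq Nat.prime_two (p3 a2) s.2 fun f => e (orderOf_dvd_of_pow_eq_one (Subtype.ext f)))
    · have : Nontrivial (S : Subgroup G) := (Subgroup.nontrivial_iff_ne_bot _).mpr fun a => h.ne (a.le.trans bot_le)
      exact ((Fact.out : p.Prime).eq_one_or_self_of_dvd _ (Monoid.exponent_dvd_of_forall_pow_eq_one fun x =>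
        Subtype.ext (p4 (a3 e) x x.2))).resolve_left Monoid.one_lt_exponent.ne'
  · obtain rfl := g.three
    obtain ⟨x, hx, y, hy, e1, e2⟩ := g.ex
    refine Or.inr ⟨rfl, le_bot_iff.mp ((Subgroup.commutator_mono (Subgroup.commutator_mono c0 le_rfl) le_rfl).trans
      (p2 g.c3).le), fun a => e1 ?_, exp_sq Nat.prime_three (p3 g.pp) (mul_mem hy hx) e2, _, _, Y, _, inf_le_left, le_rfl,
      g.VU.trans g.UY, g.YT, k.toFF.chief.1, (g.chief k).1, k.toFF.chief.2, (g.chief k).2, z, ⟨0, le_rfl⟩,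
      exists_iter_le h.syl h.pT le_top h.nT g.nY g.TE⟩
    rw [← commutatorElement_inv, inv_eq_one]
    exact a.le (Subgroup.commutator_mem_commutator (Subgroup.commutator_mem_commutator hx hy) hx)

end Cfsg.Agent.S2765
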