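import Mathlib
import Cfsg.Statements.S2766
import Cfsg.Agent.H26.MaxLoc

set_option autoImplicit false
open Cfsg

namespace Cfsg.Agent.S2766
open H26

/-- Let p ≥ 5 be prime and G a maximal p-local subgroup of a finite group H (G is the normalizer of a nontrivial p-subgroup and lies in no other such normalizer). Suppose C_G(O_p(G)) ≤ O_p(G), G/K ≅ PSL₂(p^n) for some normal K and n ≥ 1, a Sylow p-subgroup S of G lies in exactly one maximal subgroup of G, and N_H(S) is not contained in G. Then G = G₀ × E for subgroups G₀ ≅ Qd(p^n) (the natural semidirect product of the plane over the field with p^n elements by SL₂) and E an elementary abelian p-group. -/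
theorem result {H : Type*} [Group H] [Finite H] {p : ℕ} [Fact p.Prime] (hp : 5 ≤ p) (G : Subgroup H) (hloc : ∃ R : Subgroup H, IsPGroup p ↥R ∧ R ≠ ⊥ ∧ G = Subgroup.normalizer (R : Set H)) (hmax : ∀ R : Subgroup H, IsPGroup p ↥R → R ≠ ⊥ → G ≤ Subgroup.normalizer (R : Set H) → Subgroup.normalizer (R : Set H) = G) (S : Sylow p ↥G) (hE₁ : Subgroup.centralizer (Cfsg.pCore p ↥G : Set ↥G) ≤ Cfsg.pCore p ↥G) (hE₂ : ∃! M : Subgroup ↥G, IsCoatom M ∧ (S : Subgroup ↥G) ≤ M) (K : Subgroup ↥G) [K.Normal] (F : Type) [Field F] [Fintype F] (n : ℕ) (hn : 1 ≤ n) (hF : Fintype.card F = p ^ n) (hE₃ : Nonempty (↥G ⧸ K ≃* Matrix.ProjectiveSpecialLinearGroup (Fin 2) F)) (hN : ¬ Subgroup.normalizer (((S : Subgroup ↥G).map G.subtype : Subgroup H) : Set H) ≤ G) : ∃ G₀ E : Subgroup H, Cfsg.IsInternalDirectProduct G₀ E G ∧ Cfsg.IsElementaryAbelian p E ∧ Nonempty (↥G₀ ≃* ↥(Cfsg.qdOver F)) := by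
  obtain ⟨M, h, hq⟩ := pu_of_quot (isSyl_top S) hE₂ hF hE₃
  have hm : MaxLoc p G := fun R _ a b c => (hmax R a b c).le
  obtain ⟨hh, k, hc⟩ := PUC.nc ⟨h, inf_le_right.trans hE₁⟩ (noChar_of_maxLoc hm h.pS hN)
  have i := G.subtype_injective
  have hE := Subgroup.map_mono (f := G.subtype) (hc.resolve_right fun ⟨_, _, g⟩ => by have := g.three; omega)
  have k' := k.map hh i
  rw [Subgroup.map_commutator, ← cent_map i, map_pResidualOf, map_top_subtype] at hE
  rw [map_top_subtype] at k'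
  have := SL.charP hF
  have c : orderOf (-1 : Matrix.SpecialLinearGroup (Fin 2) F) = 2 := orderOf_eq_prime (by simp) fun a => by
    have b : (-1 : F) = 1 := congrArg (fun x : Matrix.SpecialLinearGroup (Fin 2) F => x.1 0 0) a
    have := (CharP.cast_eq_zero_iff F p 2).mp (by linear_combination -b)
    have := Nat.le_of_dvd two_pos this
    omega
  have : (Subgroup.zpowers (-1 : Matrix.SpecialLinearGroup (Fin 2) F)).Normal := normal_of_top_le
    ((Subgroup.le_centralizer_iff.mp (Subgroup.zpowers_le.mpr fun g _ => by simp)).trans (centralizer_le_normalizer _))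
  obtain ⟨G₀, C, a, b, ⟨e⟩, -⟩ := k'.maxLoc_dprod (hh.map i) hE hm hN (hF.trans (hq.symm.trans
    (Subgroup.relIndex_map_map_of_injective _ _ i).symm)) (Subgroup.zpowers (-1))
    (fun a => by rw [Subgroup.zpowers_eq_bot, ← orderOf_eq_one_iff] at a; omega)
    (by rw [Nat.card_zpowers, c]; exact (Nat.coprime_primes Nat.prime_two Fact.out).mpr (by omega))
  exact ⟨G₀, C, ⟨a.le_left, a.le_right, fun x hx y hy => a.cent hy x hx, a.disj, a.sup⟩, b, ⟨e.trans H03.QA.equiv⟩⟩

end Cfsg.Agent.S2766
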