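import Mathlib
import Cfsg.Statements.S2769
import Cfsg.Agent.H26.Baum
import Cfsg.Agent.H26.PUSL

set_option autoImplicit false
open Cfsg

namespace Cfsg.Agent.S2769
open H26

/-- Let G be a finite group and p a prime with C_G(O_p(G)) ≤ O_p(G), S a Sylow p-subgroup lying in exactly one maximal subgroup of G, and G/K ≅ PSL₂(p^n) for some normal K and n ≥ 1. Let J(S) be generated by the abelian subgroups of S of largest order. If [Z(J(S)), S] ≠ 1, then either [Z(J(S)), S] ∩ Z(S) is normal in G or C_S(Z(J(S))) is normal in G. -/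
theorem result {G : Type*} [Group G] [Finite G] {p : ℕ} [Fact p.Prime] (S : Sylow p G) (hE₁ : Subgroup.centralizer (Cfsg.pCore p G : Set G) ≤ Cfsg.pCore p G) (hE₂ : ∃! M : Subgroup G, IsCoatom M ∧ (S : Subgroup G) ≤ M) (K : Subgroup G) [K.Normal] (F : Type) [Field F] [Fintype F] (n : ℕ) (hn : 1 ≤ n) (hF : Fintype.card F = p ^ n) (hE₃ : Nonempty (G ⧸ K ≃* Matrix.ProjectiveSpecialLinearGroup (Fin 2) F)) (h : ⁅(Cfsg.centerThompsonAOf (S : Subgroup G)), (S : Subgroup G)⁆ ≠ ⊥) : (⁅(Cfsg.centerThompsonAOf (S : Subgroup G)), (S : Subgroup G)⁆ ⊓ ((S : Subgroup G) ⊓ Subgroup.centralizer ((S : Subgroup G) : Set G))).Normal ∨ (((S : Subgroup G) ⊓ Subgroup.centralizer (Cfsg.centerThompsonAOf (S : Subgroup G) : Set G))).Normal := by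
  obtain ⟨M, hM, -⟩ := pu_of_quot (isSyl_top S) hE₂ hF hE₃
  have h : PUC p ⊤ S (Cfsg.pCore p G) M := ⟨hM, inf_le_right.trans hE₁⟩
  have key : ∀ X : Subgroup G, ⊤ ≤ Subgroup.centralizer (X : Set G) → X.Normal := fun X a =>
    normal_of_top_le (a.trans (centralizer_le_normalizer _))
  by_cases hZ : ⊤ ≤ Subgroup.centralizer (Cfsg.omegaOneCenter 0 (S : Subgroup G) : Set G)
  · rw [omegaOneCenter_zero] at hZ
    exact Or.inl (key _ (hZ.trans (centralizer_anti inf_le_right)))
  by_cases hJ : Cfsg.thompsonSubgroupOf 0 (S : Subgroup G) ≤ Cfsg.pCore p G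
  · have := h.normal_of_J_le hZ hJ
    rw [H17.omegaOne_zero, ← H17.centerThompsonAOf_eq] at this
    exact Or.inr (normal_of_top_le this)
  obtain ⟨A, hA, hT⟩ := PUC.exists_A hJ
  have := h.comm_ZJ_le hZ hA hT
  rw [H17.omegaOne_zero, ← H17.centerThompsonAOf_eq] at this
  exact Or.inl (key _ (h.le_of_res_le (Subgroup.le_centralizer_iff.mp (inf_le_right.trans inf_le_right))
    (Subgroup.le_centralizer_iff.mp (inf_le_left.trans this))))

end Cfsg.Agent.S2769
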