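import Mathlib
import Cfsg.Statements.S2770
import Cfsg.Agent.H26.Baum
import Cfsg.Agent.H26.PUSL

set_option autoImplicit false
open Cfsg

namespace Cfsg.Agent.S2770
open H26

/-- Let G be a finite group and p a prime with C_G(O_p(G)) ≤ O_p(G), S a Sylow p-subgroup lying in exactly one maximal subgroup of G, and G/K ≅ PSL₂(p^n) for some normal K and n ≥ 1. If Z(S) is not elementary abelian, then either ℧¹(Z(S)) (the subgroup generated by the p-th powers of the elements of Z(S)) is normal in G or C_S(Z(J(S))) is normal in G, J(S) being generated by the abelian subgroups of S of largest order. -/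
theorem result {G : Type*} [Group G] [Finite G] {p : ℕ} [Fact p.Prime] (S : Sylow p G) (hE₁ : Subgroup.centralizer (Cfsg.pCore p G : Set G) ≤ Cfsg.pCore p G) (hE₂ : ∃! M : Subgroup G, IsCoatom M ∧ (S : Subgroup G) ≤ M) (K : Subgroup G) [K.Normal] (F : Type) [Field F] [Fintype F] (n : ℕ) (hn : 1 ≤ n) (hF : Fintype.card F = p ^ n) (hE₃ : Nonempty (G ⧸ K ≃* Matrix.ProjectiveSpecialLinearGroup (Fin 2) F)) (h : ¬ Cfsg.IsElementaryAbelian p ((S : Subgroup G) ⊓ Subgroup.centralizer ((S : Subgroup G) : Set G))) : (Cfsg.powerClosure p 1 ((S : Subgroup G) ⊓ Subgroup.centralizer ((S : Subgroup G) : Set G))).Normal ∨ (((S : Subgroup G) ⊓ Subgroup.centralizer (Cfsg.centerThompsonAOf (S : Subgroup G) : Set G))).Normal := by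
  obtain ⟨M, hM, -⟩ := pu_of_quot (isSyl_top S) hE₂ hF hE₃
  have h : PUC p ⊤ S (Cfsg.pCore p G) M := ⟨hM, inf_le_right.trans hE₁⟩
  have key : ∀ X : Subgroup G, X ≤ Subgroup.centralizer ((⊤ : Subgroup G) : Set G) → X.Normal := fun X a =>
    normal_of_top_le ((Subgroup.le_centralizer_iff.mp a).trans (centralizer_le_normalizer _))
  by_cases hZ : ⊤ ≤ Subgroup.centralizer (Cfsg.omegaOneCenter 0 (S : Subgroup G) : Set G)
  · rw [omegaOneCenter_zero] at hZ
    refine Or.inl (key _ ((Subgroup.closure_le _).mpr ?_))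
    rintro _ ⟨x, hx, rfl⟩
    exact pow_mem (Subgroup.le_centralizer_iff.mp hZ hx) _
  by_cases hJ : Cfsg.thompsonSubgroupOf 0 (S : Subgroup G) ≤ Cfsg.pCore p G
  · have := h.normal_of_J_le hZ hJ
    rw [H17.omegaOne_zero, ← H17.centerThompsonAOf_eq] at this
    exact Or.inr (normal_of_top_le this)
  obtain ⟨A, hA, hT⟩ := PUC.exists_A hJ
  refine Or.inl (key _ ((Subgroup.closure_le _).mpr ?_))
  rintro _ ⟨x, hx, rfl⟩
  rw [← omegaOneCenter_zero, ← h.W_eq] at hx
  rw [pow_one]
  exact (h.ffA hZ hA hT).1.pow_mem_C hx.1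

end Cfsg.Agent.S2770
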