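import Mathlib
import Cfsg.Statements.S2772
import Cfsg.Agent.H26.MaxLoc

set_option autoImplicit false
open Cfsg

namespace Cfsg.Agent.S2772
open H26

/-- Sims' Theorem in local form: let H be a finite non-abelian simple group and G a maximal subgroup of H with C_G(O₂(G)) ≤ O₂(G), such that N_H(S) is not contained in G for a Sylow 2-subgroup S of G and G/O₂(G) is dihedral of order 2q for a prime q. Then G is isomorphic to the symmetric group of degree 4 or to its direct product with a group of order 2. -/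
theorem result {H : Type*} [Group H] [Finite H] [IsSimpleGroup H] (hna : ¬ IsMulCommutative H) (G : Subgroup H) (hG : IsCoatom G) (hchar : Subgroup.centralizer (Cfsg.pCore 2 ↥G : Set ↥G) ≤ Cfsg.pCore 2 ↥G) (S : Sylow 2 ↥G) (hN : ¬ Subgroup.normalizer (((S : Subgroup ↥G).map G.subtype : Subgroup H) : Set H) ≤ G) (q : ℕ) (hq : q.Prime) (hD : Nonempty (↥G ⧸ Cfsg.pCore 2 ↥G ≃* DihedralGroup q)) : Nonempty (↥G ≃* Equiv.Perm (Fin 4)) ∨ Nonempty (↥G ≃* Equiv.Perm (Fin 4) × Multiplicative (ZMod 2)) := by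
  obtain ⟨d⟩ := hD
  have c : Nat.card (G ⧸ pCore 2 G) = 2 * q := by rw [Nat.card_congr d.toEquiv, DihedralGroup.nat_card]
  have c0 : pCore 2 (G ⧸ pCore 2 G) = ⊥ := pCore_quotient_pCore
  obtain ⟨S'⟩ : Nonempty (Sylow 2 (G ⧸ pCore 2 G)) := inferInstance
  have q2 : q ≠ 2 := by
    rintro rfl
    have := c0 ▸ le_pCore (Q := ⊤) ((IsPGroup.of_card (n := 2) c).to_subgroup ⊤)
    rw [← Subgroup.card_top, le_bot_iff.mp this, Subgroup.card_bot] at c
    omega
  have c1 : Nat.card (S' : Subgroup (G ⧸ pCore 2 G)) = 2 := by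
    rw [S'.card_eq_multiplicity, c, Nat.factorization_mul two_ne_zero hq.ne_zero, hq.factorization,
      Nat.prime_two.factorization]
    simp [q2]
  have c2 := (S' : Subgroup (G ⧸ pCore 2 G)).card_mul_index
  rw [c, c1] at c2
  obtain ⟨M, h, hq⟩ := pu_of_pu_ker (isSyl_top S) (QuotientGroup.mk' _) (QuotientGroup.mk'_surjective _)
    (by rw [QuotientGroup.ker_mk']; exact isPGroup_pCore)
    (pu_of_prime_index (isSyl_top S') c1 (by rwa [Nat.eq_of_mul_eq_mul_left two_pos c2]) c0)
  have hm : MaxLoc 2 G := fun R a _ b c => ((hG.le_iff.mp c).resolve_left fun d => hG.1 (top_le_iff.mp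
    (((normal_of_top_le d.ge).eq_bot_or_eq_top.resolve_left b).ge.trans a))).le
  obtain ⟨hh, k, hc⟩ := PUC.nc ⟨h, inf_le_right.trans hchar⟩ (noChar_of_maxLoc hm h.pS hN)
  have i := G.subtype_injective
  have hE := Subgroup.map_mono (f := G.subtype) (hc.resolve_right fun ⟨_, _, g⟩ => by have := g.three; omega)
  have k' := k.map hh i
  rw [Subgroup.map_commutator, ← cent_map i, map_pResidualOf, map_top_subtype] at hE
  rw [map_top_subtype] at k'
  have c3 := H09.card_SL_two (F := ZMod 2)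
  rw [ZMod.card] at c3
  have : Fact (Nat.Prime 3) := ⟨Nat.prime_three⟩
  obtain ⟨x, hx⟩ := exists_prime_orderOf_dvd_card' (G := Matrix.SpecialLinearGroup (Fin 2) (ZMod 2)) 3 (by rw [c3]; norm_num)
  have c4 := (Subgroup.zpowers x).card_mul_index
  rw [Nat.card_zpowers, hx, c3] at c4
  have := Subgroup.normal_of_index_eq_two (H := Subgroup.zpowers x) (by omega)
  have r := (Subgroup.relIndex_map_map_of_injective _ _ i).trans (hq.trans c1)
  obtain ⟨G₀, C, a, b, ⟨e⟩, f⟩ := k'.maxLoc_dprod (hh.map i) hE hm hN ((ZMod.card 2).trans r.symm) (Subgroup.zpowers x)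
    (fun a => by rw [Subgroup.zpowers_eq_bot, ← orderOf_eq_one_iff] at a; omega)
    (by rw [Nat.card_zpowers, hx]; norm_num)
  obtain ⟨e'⟩ := QA.iso_S4
  rw [r] at f
  have f0 : 0 < Nat.card C := Nat.card_pos
  rcases (by omega : Nat.card C = 1 ∨ Nat.card C = 2) with g | g
  · exact Or.inl ⟨(MulEquiv.subgroupCongr (a.sdprod.eq_left (Subgroup.card_eq_one.mp g)).symm).trans (e.trans e')⟩
  · exact Or.inr ⟨(H01.dprodEquiv a).trans ((e.trans e').prodCongr (mulEquivOfPrimeCardEq g (by simp)))⟩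

end Cfsg.Agent.S2772
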