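import Mathlib
import Cfsg.Statements.S2773
import Cfsg.Agent.H26.Bk26

set_option autoImplicit false
universe u
open Cfsg

namespace Cfsg.Agent.S2773
open H26

/-- For every nontrivial finite 3-group S there is a nontrivial characteristic subgroup K of S such that, in every finite group G containing S as a Sylow 3-subgroup, S ∩ G' is the product of S ∩ (C_G(Z(S)))' and S ∩ (N_G(K))' (derived subgroups; product taken elementwise). -/
theorem result {S : Type u} [Group S] [Finite S] [Nontrivial S] (hS : IsPGroup 3 S) : ∃ K : Subgroup S, K ≠ ⊥ ∧ K.Characteristic ∧ ∀ (G : Type u) [Group G] [Finite G] (τ : S →* G), Function.Injective τ → (∃ P : Sylow 3 G, (P : Subgroup G) = τ.range) → ∀ g : G, g ∈ τ.range ⊓ commutator G ↔ ∃ a ∈ τ.range ⊓ ⁅Subgroup.centralizer ((τ.range ⊓ Subgroup.centralizer (τ.range : Set G) : Subgroup G) : Set G), Subgroup.centralizer ((τ.range ⊓ Subgroup.centralizer (τ.range : Set G) : Subgroup G) : Set G)⁆, ∃ b ∈ τ.range ⊓ ⁅Subgroup.normalizer ((K.map τ : Subgroup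 G) : Set G), Subgroup.normalizer ((K.map τ : Subgroup G) : Set G)⁆, g = a * b := by
  have : Fact (Nat.Prime 3) := ⟨Nat.prime_three⟩
  have hW := char_tk.{u} (p := 3) (by decide)
  refine ⟨TK 3 S, hW.1 S hS ‹_›, Subgroup.characteristic_iff_map_eq.mpr (hW.2 S S hS), fun G _ _ τ hτ ⟨P, e⟩ g => ?_⟩
  have c : ∀ W ∈ {W | W = @ZF.{u} ∨ W = @TK 3}, IsCharPFunctor.{u} 3 W := by
    rintro _ (rfl | rfl)
    exacts [char_center, hW]
  have h := (H17.famTr_iff (H := ⊤) (H17.fam_isConj c) (isSyl_top P)).mp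
    (H17.famTr_of_min (G := G) c (fun H _ _ _ h => tr_false2 (by decide) h) G H03.sec_refl)
  have eK : (TK 3 S).map τ = inducedFunctor (TK 3) (P : Subgroup G) := by
    rw [e, inducedFunctor, ← hW.2 S _ hS (MonoidHom.ofInjective hτ), Subgroup.map_map]; rfl
  rw [← e, eK]
  have nK := H17.cf_normalizer_le (H17.isConj_ind hW) P.2
  refine ⟨fun hg => ?_, ?_⟩
  · rw [H17.famT_eq] at h
    obtain ⟨a, ha, b, hb, k⟩ := (mem_sup_of_le_normalizer (inf_le_left.trans (le_normalizer_inf Subgroup.le_normalizer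
      (Subgroup.le_normalizer.trans (nK.trans (le_normalizer_commutator Subgroup.le_normalizer Subgroup.le_normalizer)))))).mp
      (h.trans (iSup₂_le (by
        rintro _ (rfl | rfl) <;> rw [top_inf_eq]
        · rw [inducedFunctor, ZF, map_subtype_center]; exact focal_two (isSyl_top P) nK
        · exact le_sup_right)) hg)
    exact ⟨a, ha, b, hb, k.symm⟩
  · rintro ⟨a, ha, b, hb, rfl⟩
    exact ⟨P.1.mul_mem ha.1 hb.1, mul_mem (Subgroup.commutator_mono le_top le_top ha.2) (Subgroup.commutator_mono le_top le_top hb.2)⟩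

end Cfsg.Agent.S2773
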