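import Mathlib
import Cfsg.Statements.S2774
import Cfsg.Agent.H26.Bk23

set_option autoImplicit false
open Cfsg

namespace Cfsg.Agent.S2774
open H26

/-- Let p be an odd prime and S a nontrivial Sylow p-subgroup of a finite group G. Then S ∩ G' is generated by the subgroups S ∩ (N_G(K))' as K ranges over the nontrivial characteristic subgroups of S (derived subgroups of the normalizers). -/
theorem result {G : Type*} [Group G] [Finite G] {p : ℕ} [Fact p.Prime] (hp : p ≠ 2) (S : Sylow p G) (hS : (S : Subgroup G) ≠ ⊥) : (S : Subgroup G) ⊓ commutator G = ⨆ K : {K : Subgroup ↥(S : Subgroup G) // K ≠ ⊥ ∧ K.Characteristic}, (S : Subgroup G) ⊓ ⁅Subgroup.normalizer ((((K : Subgroup ↥(S : Subgroup G))).map (S : Subgroup G).subtype : Subgroup G) : Set G), Subgroup.normalizer ((((K : Subgroup ↥(S : Subgroup G))).map (S : Subgroup G).subtype : Subgroup G) : Set G)⁆ := by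
  have h := (H17.famTr_iff (H := ⊤) (by rintro _ ⟨W, hW, rfl⟩; exact H17.isConj_ind hW) (isSyl_top S)).mp
    (H17.famTr_of_min (G := G) (𝓦 := {W | IsCharPFunctor p W}) (fun _ h => h) (fun H _ _ _ h => tr_false hp h) G H03.sec_refl)
  refine le_antisymm (h.trans (iSup₂_le ?_)) (iSup_le fun K => inf_le_inf_left _ (Subgroup.commutator_mono le_top le_top))
  rintro _ ⟨W, hW, rfl⟩
  haveI := (Subgroup.nontrivial_iff_ne_bot _).mpr hS
  rw [top_inf_eq]
  exact le_iSup_of_le ⟨W S, hW.1 _ S.2 ‹_›, Subgroup.characteristic_iff_map_eq.mpr (hW.2 _ _ S.2)⟩ le_rfl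

end Cfsg.Agent.S2774
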