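import Mathlib
import Cfsg.Statements.S2781
import Cfsg.Agent.H26.Avg
import Cfsg.Agent.H26.Misc

set_option autoImplicit false
open Cfsg

namespace Cfsg.Agent.S2781
open H26

/-- Let H act faithfully by conjugation on the elementary abelian p-subgroup V of a finite group, let O^p(H) be the subgroup of H generated by its elements of order prime to p, and T a Sylow p-subgroup of O^p(H). If V is generated by the H-conjugates of C_V(T) (V is the smallest H-invariant subgroup containing C_V(T)), then V = [V, O^p(H)]·C_V(O^p(H)). -/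
theorem result {G : Type*} [Group G] [Finite G] {p : ℕ} [Fact p.Prime] (V H : Subgroup G) (hV : Cfsg.IsElementaryAbelian p V) (hHV : H ≤ Subgroup.normalizer (V : Set G)) (hf : H ⊓ Subgroup.centralizer (V : Set G) = ⊥) (R : Subgroup G) (hR : R = (Cfsg.pResidual p ↥H).map H.subtype) (S : Sylow p ↥R) (T : Subgroup G) (hT : T = ((S : Subgroup ↥R).map R.subtype)) (hgen : ∀ W : Subgroup G, H ≤ Subgroup.normalizer (W : Set G) → (V ⊓ Subgroup.centralizer ((T : Subgroup G) : Set G)) ≤ W → V ≤ W) : ⁅V, R⁆ ⊔ (V ⊓ Subgroup.centralizer ((R : Subgroup G) : Set G)) = V := by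
  have h1 : IsSyl p T R := hT ▸ isSyl_map_subtype S
  replace hR : R = pResidualOf p H := hR
  have h2 : H ≤ Subgroup.normalizer (R : Set G) := hR ▸ le_normalizer_pResidualOf H
  have h3 : R ≤ Subgroup.normalizer (V : Set G) := (hR ▸ pResidualOf_le H : R ≤ H).trans hHV
  refine le_antisymm (sup_le (commutator_le_of_le_normalizer h3) inf_le_left) (hgen _ (le_normalizer_sup
    (le_normalizer_commutator hHV h2) (le_normalizer_inf hHV (le_normalizer_centralizer h2))) ?_)
  exact (h1.inf_centralizer_le hV.1 (H17.elemAb_isPGroup hV) h3).trans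
    (sup_le le_sup_right ((Subgroup.commutator_mono le_rfl (pResidualOf_le R)).trans le_sup_left))

end Cfsg.Agent.S2781
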