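import Mathlib
import Cfsg.Statements.S2787
import Cfsg.Agent.H17.QuadPSL

set_option autoImplicit false
open Cfsg

namespace Cfsg.Agent.S2787

/-- Let p be a prime and let H act by conjugation on the elementary abelian p-subgroup V of a finite group, irreducibly (no H-invariant subgroups of V other than 1 and V) and nontrivially, and suppose H/C_H(V) is isomorphic to PSL₂(F) for a field F with p^n elements, p^n odd, or p = 3 and H/C_H(V) is isomorphic to a Ree group ²G₂(3^(2m+1)), m ≥ 1. Then no subgroup A of H acting nontrivially on V acts quadratically: [V, A, A] = 1 forces [V, A] = 1. -/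
theorem result {G : Type*} [Group G] [Finite G] {p : ℕ} [Fact p.Prime] (V H : Subgroup G) (hV : Cfsg.IsElementaryAbelian p V) (hHV : H ≤ Subgroup.normalizer (V : Set G)) (hirr : ∀ U : Subgroup G, U ≤ V → H ≤ Subgroup.normalizer (U : Set G) → U = ⊥ ∨ U = V) (hnt : ¬ H ≤ Subgroup.centralizer (V : Set G)) [hn : ((Subgroup.centralizer (V : Set G)).subgroupOf H).Normal] (hq : (∃ (F : Type) (_ : Field F) (_ : Fintype F) (n : ℕ), Fintype.card F = p ^ n ∧ Odd (Fintype.card F) ∧ Nonempty (↥H ⧸ (Subgroup.centralizer (V : Set G)).subgroupOf H ≃* Matrix.ProjectiveSpecialLinearGroup (Fin 2) F)) ∨ (p = 3 ∧ Cfsg.Lie.IsoRee (↥H ⧸ (Subgroup.centralizer (V : Set G)).subgroupOf H))) (A : Subgroup G) (hA : A ≤ H) (hquad : ⁅⁅V, A⁆, A⁆ = ⊥) : ⁅V, A⁆ = ⊥ := by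
  have hp : p ≠ 2 := by
    rcases hq with ⟨F, _, _, n, h1, h2, -⟩ | ⟨rfl, -⟩
    · rintro rfl
      rcases n with _ | n
      · exact absurd h1 Fintype.one_lt_card.ne'
      · rw [h1, pow_succ] at h2
        exact absurd h2 (by simp)
    · decide
  refine H17.QP.comm_eq_bot_of_not_sec hp hV hHV hirr ?_ hA hquad
  rcases hq with ⟨F, _, _, n, -, h2, ⟨e⟩⟩ | ⟨-, h⟩
  · exact fun h => H17.QP.not_sec_psl hp h2 (h.of_injective e.toMonoidHom e.injective)
  · exact H17.QP.not_sec_ree hp h

end Cfsg.Agent.S2787
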