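import Mathlib
import Cfsg.Statements.S2792
import Cfsg.Agent.H03.HallW

set_option autoImplicit false
open Cfsg

namespace Cfsg.Agent.S2792

open Subgroup in
theorem coe_iter {G : Type*} [Group G] {T : Subgroup G} (z u : T) (k : ℕ) :
    (((fun y : T => y⁻¹ * z⁻¹ * y * z)^[k] u : T) : G) = (fun y : G => y⁻¹ * (z : G)⁻¹ * y * z)^[k] u := by
  induction k with
  | zero => rfl
  | succ k ih => rw [Function.iterate_succ_apply', Function.iterate_succ_apply', ← ih]; rfl

/-- Let S be a Sylow p-subgroup of the finite group G and W a subgroup of S weakly closed in S with respect to G. If S ∩ G' ≠ S ∩ (N_G(W))', then there are x ∈ S, z ∈ W and a maximal subgroup W₀ of W such that the iterated commutator [x, z; p−1] (with [x, z] = x⁻¹z⁻¹xz and [x, z; i+1] = [[x, z; i], z]) lies in W₀ but not in the Frattini subgroup of W₀; in particular [x, z; p−1] ≠ 1. -/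
theorem result {G : Type*} [Group G] [Finite G] {p : ℕ} [Fact p.Prime] (S : Sylow p G) (W : Subgroup G) (hW : Cfsg.IsWeaklyClosed W (S : Subgroup G)) (h : (S : Subgroup G) ⊓ commutator G ≠ (S : Subgroup G) ⊓ ⁅Subgroup.normalizer (W : Set G), Subgroup.normalizer (W : Set G)⁆) : ∃ x ∈ (S : Subgroup G), ∃ z ∈ W, ∃ W₀ : Subgroup ↥W, IsCoatom W₀ ∧ (fun y : G => y⁻¹ * z⁻¹ * y * z)^[p - 1] x ∈ W₀.map W.subtype ∧ (fun y : G => y⁻¹ * z⁻¹ * y * z)^[p - 1] x ∉ ((frattini ↥W₀).map W₀.subtype).map W.subtype := by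
  open Subgroup in
  have hp : p.Prime := Fact.out
  obtain ⟨u, huS, M, hM, u', z, hu, hu', hMi, hzW, hz, ψ, hψ⟩ := H03.hallWielandt_core S hW h
  let T := W ⊔ zpowers u
  have hWT : W ≤ T := le_sup_left
  have hTN : T ≤ normalizer (W : Set G) := (sup_le hW.1 (zpowers_le.mpr huS)).trans (H03.IsWC.le_normalizer hW)
  have hWn : (W.subgroupOf T).Normal := (normal_subgroupOf_iff_le_normalizer hWT).mpr hTN
  have hmem : ((fun y : T => y⁻¹ * z⁻¹ * y * z)^[p - 1] u' : T) ∈ W.subgroupOf T := by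
    obtain ⟨k, hk⟩ := Nat.exists_eq_add_of_le' (Nat.le_sub_one_of_lt hp.one_lt)
    rw [hk, Function.iterate_succ_apply']
    exact mul_mem (hWn.conj_mem' _ (inv_mem hzW) _) hzW
  refine ⟨u', by rw [hu']; exact huS, z, hzW, M.comap (inclusion hWT), ?_, ?_, ?_⟩
  · refine H04.isCoatom_of_index_prime ?_
    rw [index_comap, inclusion_range]
    have h0 : M.relIndex (W.subgroupOf T) ∣ p := by
      rw [← hMi]; exact relIndex_dvd_index_of_normal M _
    rcases hp.eq_one_or_self_of_dvd _ h0 with h1 | h1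
    · exact absurd (relIndex_eq_one.mp h1 (show z ∈ W.subgroupOf T from hzW)) hz
    · rw [h1]; exact hp
  · rw [← coe_iter]
    exact ⟨⟨_, hmem⟩, H03.iter_mem z hu _, rfl⟩
  · rw [← coe_iter]
    rintro ⟨_, ⟨x, hx, rfl⟩, e⟩
    have h1 := H04.map_frattini_le (p := p) (H := Multiplicative (ZMod p))
      (IsPGroup.of_card (n := 1) (by simp)) (ψ.comp ((inclusion hWT).subgroupComap M))
      (mem_map_of_mem _ hx)
    rw [(H04.frattini_eq_bot_iff (p := p) (IsPGroup.of_card (n := 1) (by simp))).mpr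
      ⟨inferInstance, fun x => by rw [← ofAdd_toAdd x, ← ofAdd_nsmul]; simp⟩, mem_bot] at h1
    exact hψ (Eq.trans (congrArg ψ (Subtype.ext (Subtype.ext e.symm))) h1)

end Cfsg.Agent.S2792
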