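import Mathlib
import Cfsg.Statements.S2793
import Cfsg.Agent.H23.FP3

set_option autoImplicit false
open Cfsg

namespace Cfsg.Agent.S2793

open BG Subgroup

/-- Let p be an odd prime, S a Sylow p-subgroup of the finite group G, J(S) the subgroup generated by the abelian subgroups of S of largest order, and suppose Z(J(S)) does not control strong fusion in G. Put H = N_G(Z(J(S))). Then the group F(p) of upper triangular 3 × 3 matrices (a b c; 0 a⁻¹ d; 0 0 1) over the field with p elements is involved in H, and Z(J(S)) contains a subgroup C of order p with |N_H(C) : C_H(C)| = p − 1. -/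
theorem result {G : Type*} [Group G] [Finite G] {p : ℕ} [Fact p.Prime] (hp : p ≠ 2) (S : Sylow p G) (h : ¬ Cfsg.ControlsStrongFusion p (Cfsg.centerThompsonAOf (S : Subgroup G))) (H : Subgroup G) (hH : H = Subgroup.normalizer ((Cfsg.centerThompsonAOf (S : Subgroup G)) : Set G)) : Cfsg.Involves ↥(Cfsg.fOver (ZMod p)) ↥H ∧ ∃ C : Subgroup G, C ≤ (Cfsg.centerThompsonAOf (S : Subgroup G)) ∧ Nat.card C = p ∧ (H ⊓ Subgroup.centralizer (C : Set G)).relIndex (H ⊓ Subgroup.normalizer (C : Set G)) = p - 1 := by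
  subst hH
  rw [H17.centerThompsonAOf_eq] at h ⊢
  have hpp : p.Prime := Fact.out
  obtain ⟨c1, x, hx, c2, k, hk, l, c3, c4⟩ : H23.FP.Concl p (centerThompsonOf 0 (S : Subgroup G)) := by
    by_contra hc
    refine h ⟨S, H17.centerThompsonOf_le 0 _, fun A hA => ⟨hA, fun g hg => ?_⟩⟩
    obtain ⟨y, hy, e⟩ := H23.FP.main hp _ G rfl _ (isSylowIn_top hpp S) hc (closure A) ((closure_le _).2 hA) g
      (cj_le_iff.2 ((closure_le _).2 fun a ha => mem_cj_inv.2 (hg ⟨a, ha, rfl⟩)))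
    exact ⟨y, hy, fun a ha => e a (subset_closure ha)⟩
  refine ⟨H17.sec_iff_involves.1 c1, zpowers x, zpowers_le.2 hx, by rw [Nat.card_zpowers, c2], ?_⟩
  obtain ⟨H, hH⟩ : ∃ H, H = N_(centerThompsonOf 0 (S : Subgroup G)) := ⟨_, rfl⟩
  rw [← hH] at hk ⊢
  let f := (zpowers x).normalizerMonoidHom.comp (inclusion (inf_le_right : H ⊓ N_(zpowers x) ≤ _))
  have h1 : (H ⊓ C_(zpowers x)).subgroupOf (H ⊓ N_(zpowers x)) = f.ker := by
    rw [← MonoidHom.comap_ker, normalizerMonoidHom_ker]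
    ext y
    exact ⟨fun h => h.2, fun h => ⟨y.2.1, h⟩⟩
  have h2 : Nat.card (MulAut (zpowers x)) = p - 1 := by
    rw [IsCyclic.card_mulAut, Nat.card_zpowers, c2, Nat.totient_prime hpp]
  rw [relIndex, h1, index_ker]
  refine Nat.dvd_antisymm (h2 ▸ card_subgroup_dvd_card _) ?_
  have hkN : k ∈ H ⊓ N_(zpowers x) := ⟨hk, mem_norm_of_cj_le (by
    rw [cj_zpowers, c4]; exact zpowers_le.2 (pow_mem (mem_zpowers x) l))⟩
  have h3 : ∀ n : ℕ, k ^ n * x * (k ^ n)⁻¹ = x ^ l ^ n := fun n => by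
    induction n with
    | zero => simp
    | succ n ih =>
      calc k ^ (n + 1) * x * (k ^ (n + 1))⁻¹ = k * (k ^ n * x * (k ^ n)⁻¹) * k⁻¹ := by group
        _ = _ := by rw [ih, ← conj_pow, c4, ← pow_mul, pow_succ']
  have h4 : (⟨k, hkN⟩ : ↥(H ⊓ N_(zpowers x))) ^ Nat.card f.range ∈ f.ker := by
    rw [← index_ker]; exact f.ker.pow_index_mem _
  rw [← h1] at h4
  have h5 := h3 (Nat.card f.range)
  rw [show k ^ Nat.card f.range * x = x * k ^ Nat.card f.range from (mem_cent.1 h4.2 x (mem_zpowers x)).symm,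
    mul_inv_cancel_right] at h5
  nth_rewrite 1 [← pow_one x] at h5
  rw [pow_eq_pow_iff_modEq, c2, ← ZMod.natCast_eq_natCast_iff] at h5
  rw [← c3]
  exact orderOf_dvd_of_pow_eq_one (by simpa using h5.symm)

end Cfsg.Agent.S2793
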