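import Mathlib
import Cfsg.Statements.S2794
import Cfsg.Agent.H03.Qd

set_option autoImplicit false
open Cfsg

namespace Cfsg.Agent.S2794

/-- For an odd prime p and a finite group G, the group Qd(p) is not involved in G if and only if in every section K/R of G, for every Sylow p-subgroup S* of K/R, the centre of J(S*) (J generated by the abelian subgroups of largest order) controls strong fusion in K/R. -/
theorem result {G : Type*} [Group G] [Finite G] {p : ℕ} [Fact p.Prime] (hp : p ≠ 2) : ¬ Cfsg.Involves ↥(Cfsg.qd p) G ↔ ∀ (K R : Subgroup G) [hR : (R.subgroupOf K).Normal], ∀ T : Sylow p (K ⧸ R.subgroupOf K), Cfsg.ControlsStrongFusion p (Cfsg.centerThompsonAOf (T : Subgroup (K ⧸ R.subgroupOf K))) := by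
  refine ⟨fun h K R _ T => ?_, fun h ⟨K, R, hR, ⟨e⟩⟩ => ?_⟩
  · rw [H17.centerThompsonAOf_eq]
    exact (H03.AmbF.ctl_of_not_sec_qd (H03.AmbF.zjlike_zj hp (Or.inl rfl)) hp
      (fun h' => h (H17.sec_iff_involves.1 h'.of_quotient.of_subgroup)) T
      (H03.sc_self _)).controlsStrongFusion (H17.centerThompsonOf_le _ _)
  obtain ⟨T⟩ : Nonempty (Sylow p (K ⧸ R.subgroupOf K)) := inferInstance
  have h1 := h K R T
  rw [H17.centerThompsonAOf_eq, ← H03.map_zj_top] at h1
  have := H03.characteristic_zj_top (G := T) 0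
  refine H03.QA.not_ctl ((H03.QA.equivP p).trans e.symm) T _ (fun h0 => ?_) h1
  obtain ⟨e', he'⟩ := H03.QA.sylow_equiv ((H03.QA.equivP p).trans e.symm) T
  refine (H03.AmbF.zj 0 (Or.inl rfl)).ne _ _ T.2 (fun h2 => ?_)
    (by rw [← Subgroup.map_bot (T : Subgroup (K ⧸ R.subgroupOf K)).subtype, ← h0, H03.map_zj_top]; rfl)
  rw [h2, Subgroup.map_eq_bot_iff_of_injective _ e'.injective] at he'
  exact H03.QA.V_ne_bot (eq_bot_iff.2 (he' ▸ H03.QA.V_le_S0))

end Cfsg.Agent.S2794
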