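import Mathlib
import Cfsg.Statements.S2946
import Cfsg.Agent.H01.KS122b

set_option autoImplicit false
open Cfsg

namespace Cfsg.Agent.S2946

/-- Let G be a finite group of characteristic 2 type in which every 2-local subgroup is solvable and the centralizer of Ω₁(Z(S)) lies in N_G(S) for every Sylow 2-subgroup S, and let T be a nontrivial 2-subgroup (below, J is the Thompson subgroup generated by the elementary abelian 2-subgroups of largest order), K a J(T)-component and Z₀ = Ω₁(Z(J(T))). Then Z₀ meets W_K = [Ω₁(Z(O₂(K))), K] in a subgroup of order 2, and Z₀ is the product of Z₀ ∩ Z(⟨K, J(T)⟩) and Z₀ ∩ W_K. -/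
theorem result {G : Type*} [Group G] [Finite G] (hL : Cfsg.IsCharacteristicTwoType G) (hN : ∀ N : Subgroup G, Cfsg.IsTwoLocal N → Group.IsSolvable ↥N)
    (hZ : ∀ S : Sylow 2 G, Subgroup.centralizer (Cfsg.omegaCenterOf (S : Subgroup G) : Set G) ≤ Subgroup.normalizer ((S : Subgroup G) : Set G)) (T : Subgroup G) (hT : IsPGroup 2 ↥T) (hT1 : T ≠ ⊥) (K : Subgroup G) (hK : Cfsg.IsJComponent T K)
    (Z₀ : Subgroup G) (hZ₀ : Z₀ = Cfsg.omegaCenterOf (Cfsg.thompsonSubgroupOf 2 T)) :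
    Nat.card ↥(Z₀ ⊓ Cfsg.wOf K) = 2 ∧
      (Z₀ ⊓ ((K ⊔ Cfsg.thompsonSubgroupOf 2 T) ⊓ Subgroup.centralizer ((K ⊔ Cfsg.thompsonSubgroupOf 2 T) : Set G))) ⊔ (Z₀ ⊓ Cfsg.wOf K) = Z₀ := by
  subst hZ₀
  obtain ⟨h1, h2⟩ := (H01.isJComponent_iff.mp hK).omega hT
  refine ⟨h1, le_antisymm (sup_le inf_le_left inf_le_left) (h2.ge.trans (sup_le_sup_right (le_inf inf_le_left
    (le_inf (inf_le_left.trans ((H01.oz_le _).trans le_sup_right)) ?_)) _))⟩
  have := BG.le_cent_sup (inf_le_right : Cfsg.omegaCenterOf (Cfsg.thompsonSubgroupOf 2 T) ⊓ Subgroup.centralizer (K : Set G) ≤ _) (inf_le_left.trans (H01.oz_cent _))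
  intro x hx
  have h3 := this hx
  rw [Subgroup.mem_centralizer_iff] at h3 ⊢
  rintro y (hy | hy)
  · exact h3 y (Subgroup.mem_sup_left hy)
  · exact h3 y (Subgroup.mem_sup_right hy)

end Cfsg.Agent.S2946
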