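import Mathlib
import Cfsg.Statements.S2947
import Cfsg.Agent.H26.Chain

set_option autoImplicit false
open Cfsg

namespace Cfsg.Agent.S2947
open H26

/-- Let G be a finite group of characteristic 2 type in which every 2-local subgroup is solvable and the centralizer of Ω₁(Z(S)) lies in N_G(S) for every Sylow 2-subgroup S; suppose O₂(G) = 1, fix a Sylow 2-subgroup S and a 2-local subgroup M containing N_G(J(S)) (J the Thompson subgroup generated by the elementary abelian 2-subgroups of largest order). Then M is strongly embedded in G (a proper subgroup of even order whose intersection with each conjugate by an element outside M has odd order) if and only if no nontrivial 2-subgroup of M lies in a 2-local subgroup of G not contained in M. -/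
theorem result {G : Type*} [Group G] [Finite G] (hL : Cfsg.IsCharacteristicTwoType G) (hN : ∀ N : Subgroup G, Cfsg.IsTwoLocal N → Group.IsSolvable ↥N)
    (hZ : ∀ S : Sylow 2 G, Subgroup.centralizer (Cfsg.omegaCenterOf (S : Subgroup G) : Set G) ≤ Subgroup.normalizer ((S : Subgroup G) : Set G)) (hO : Cfsg.pCore 2 G = ⊥) (S : Sylow 2 G) (M : Subgroup G) (hM : Cfsg.IsTwoLocal M)
    (hMJ : Subgroup.normalizer (Cfsg.thompsonSubgroupOf 2 (S : Subgroup G) : Set G) ≤ M) :
    Cfsg.IsStronglyEmbedded M ↔ Cfsg.straddlingTwoSubgroups M = ∅ := by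
  have h0 : IsStronglyEmbedded M ↔ SPE 2 M := by
    simp only [IsStronglyEmbedded, spe_iff_classical, even_iff_two_dvd, ← Nat.not_even_iff_odd]
  rw [h0, Set.eq_empty_iff_forall_notMem]
  constructor
  · rintro h T ⟨a, b, c, _, ⟨Q, d, e, rfl⟩, f, k⟩
    refine k (h.normalizer_le (le_sup_right.trans (h.le_of_inf_ne_bot (isPGroup_sup a d f) fun l => b ?_)) d e)
    exact le_bot_iff.mp (l ▸ le_inf le_sup_left c)
  · intro h
    obtain ⟨Q, d, e, rfl⟩ := hM
    refine spe_of_normalizer (fun a => ?_) (dvd_card_of_isPGroup d e Subgroup.le_normalizer)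
      fun A a b c => by_contra fun f => h A ⟨b, c, a, _, ⟨A, b, c, rfl⟩, Subgroup.le_normalizer, f⟩
    have := normal_of_top_le a.ge
    exact e (le_bot_iff.mp (hO ▸ le_pCore d))

end Cfsg.Agent.S2947
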