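import Mathlib
import Cfsg.Statements.S3099
import Cfsg.Agent.H08.DQ1
import Cfsg.Agent.S0483

set_option autoImplicit false
open Cfsg

namespace Cfsg.Agent.S3099

open Subgroup H08

/-- Let X be a finite perfect group of 2-rank exactly 1 (X has even order and contains no Klein four-group). Then X modulo its largest normal subgroup of odd order is isomorphic to the special linear group of dimension 2 over a field with q elements for some odd q > 3, or is a non-split double cover of the alternating group of degree 7. -/
theorem result {X : Type*} [Group X] [Finite X] (hP : Group.IsPerfect X) (h1 : Cfsg.PRankLE 2 1 X) (h2 : Even (Nat.card X)) :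
    (∃ (F : Type) (_ : Field F) (_ : Fintype F), Odd (Fintype.card F) ∧ 3 < Fintype.card F ∧
        Nonempty (X ⧸ Cfsg.oddCore X ≃* Matrix.SpecialLinearGroup (Fin 2) F)) ∨
      Cfsg.IsNonsplitDoubleCover (X ⧸ Cfsg.oddCore X) ↥(alternatingGroup (Fin 7)) := by
  obtain ⟨z, hz⟩ := even_card_iff'.1 h2
  obtain ⟨S⟩ : Nonempty (Sylow 2 X) := inferInstance
  have hS := unique_invol_sylow S.2 fun a b ha hb hc => by_contra fun hne => by
    have k := isKleinFour_closure ha hb hne hc
    have := h1 (closure {a, b}) k.isMulCommutative fun x hx =>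
      congrArg Subtype.val (k.exponent_two ▸ Monoid.pow_exponent_eq_one (⟨x, hx⟩ : closure ({a, b} : Set X)))
    rw [k.card_four] at this
    omega
  have e := equivMapOdd S.2 (oddCore X) (odd_card_oddCore X)
  have hz' := orderOf_mk_of_odd hz _ (odd_card_oddCore X)
  obtain ⟨hZ, h⟩ := perfect_rank_one (fun X _ _ _ S n hn hS => S0483.result S n hn hS)
    (H02.pPrimeCore_quotient_pPrimeCore 2 X) hz' (unique_of_sylow (S.mapSurjective (QuotientGroup.mk'_surjective _))
      fun a b ha hb => e.symm.injective (hS _ _ ((e.symm.orderOf_eq a).trans ha) ((e.symm.orderOf_eq b).trans hb)))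
  have hc : Nat.card (center (X ⧸ oddCore X)) = 2 := by rw [hZ, Nat.card_zpowers, hz']
  exact h.imp_right fun h => ⟨hc, h, fun L hL => index_ne_two_of_perfect L (hL.index_eq_card.trans hc)⟩

end Cfsg.Agent.S3099
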