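import Mathlib
import Cfsg.Statements.S3105
import Cfsg.Agent.H04.L3e
import Cfsg.Agent.H09.SLBasic
import Cfsg.Agent.H17.Constr

set_option autoImplicit false
open Cfsg

namespace Cfsg.Agent.S3105

/-- Let X be a finite nonsolvable 2-constrained group with no nontrivial normal subgroup of odd order and of sectional 2-rank at most 4, and suppose X/O₂(X) is isomorphic to the projective special linear group of dimension 3 over the field with 2 elements. Then O₂(X) is elementary abelian of order 8 or 16, or is isomorphic to the direct product of a cyclic group of order 4 and an elementary abelian group of order 8. -/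
theorem result {X : Type*} [Group X] [Finite X] (hns : ¬ Group.IsSolvable X) (hc : Cfsg.IsPConstrained 2 X) (hO : Cfsg.oddCore X = ⊥)
    (h4 : Cfsg.SectionalPRankLE 2 4 X) {F : Type*} [Field F] [Fintype F] (hF : Fintype.card F = 2)
    (hQ : Nonempty (X ⧸ Cfsg.pCore 2 X ≃* Matrix.ProjectiveSpecialLinearGroup (Fin 3) F)) :
    (Cfsg.IsElementaryAbelian 2 (Cfsg.pCore 2 X) ∧ (Nat.card ↥(Cfsg.pCore 2 X) = 8 ∨ Nat.card ↥(Cfsg.pCore 2 X) = 16)) ∨
      Nonempty (↥(Cfsg.pCore 2 X) ≃* Multiplicative (ZMod 4) × (Fin 3 → Multiplicative (ZMod 2))) := by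
  open Subgroup in
  obtain ⟨e⟩ := hQ
  have := H09.PSL_isSimpleGroup (ι := Fin 3) (F := F) (by simp)
  have := e.isSimpleGroup
  have sf := QuotientGroup.mk'_surjective (pCore 2 X)
  refine H04.L3.main h4 (H02.pCore_isPGroup 2 X) (fun K hK le => ((hK.map _ sf).eq_bot_or_eq_top).imp (fun h => le_antisymm ?_ le) fun h => ?_)
    ?_ ((H17.isPConstrained_iff_of_bot hO).1 hc)
  · rwa [Subgroup.map_eq_bot_iff, QuotientGroup.ker_mk'] at h
  · rw [← comap_map_eq_self (f := QuotientGroup.mk' (pCore 2 X)) (H := K) (by rwa [QuotientGroup.ker_mk']), h, comap_top]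
  classical
  have h1 := H09.card_PSL_mul (ι := Fin 3) (F := F)
  have h2 := H09.card_SL_mul (ι := Fin 3) (F := F)
  rw [Matrix.card_GL_field, hF] at h2
  rw [hF] at h1
  simp [Fin.prod_univ_three] at h1 h2
  exact (Nat.card_congr e.toEquiv).trans (Nat.card_eq_fintype_card.trans (h1.trans h2))

end Cfsg.Agent.S3105
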