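import Mathlib
import Cfsg.Statements.S3106
import Cfsg.Agent.H04.A5b

set_option autoImplicit false
open Cfsg

namespace Cfsg.Agent.S3106

/-- Let X be a finite nonsolvable 2-constrained group with no nontrivial normal subgroup of odd order and of sectional 2-rank at most 4, and suppose X/O₂(X) contains a subgroup isomorphic to the alternating group of degree 5. Then O₂(X) is elementary abelian of order 16, or O₂(X) is a central product of a quaternion group of order 8 and a dihedral group of order 8 (it has order 32 and is generated by two elementwise-commuting subgroups, one quaternion of order 8 and one dihedral of order 8, meeting in the centre). -/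
theorem result {X : Type*} [Group X] [Finite X] (hns : ¬ Group.IsSolvable X) (hc : Cfsg.IsPConstrained 2 X) (hO : Cfsg.oddCore X = ⊥)
    (h4 : Cfsg.SectionalPRankLE 2 4 X)
    (hQ : ∃ A : Subgroup (X ⧸ Cfsg.pCore 2 X), Nonempty (↥A ≃* ↥(alternatingGroup (Fin 5)))) :
    (Cfsg.IsElementaryAbelian 2 (Cfsg.pCore 2 X) ∧ Nat.card ↥(Cfsg.pCore 2 X) = 16) ∨
      (Nat.card ↥(Cfsg.pCore 2 X) = 32 ∧ ∃ A B : Subgroup ↥(Cfsg.pCore 2 X),
        Nonempty (↥A ≃* QuaternionGroup 2) ∧ Nonempty (↥B ≃* DihedralGroup 4) ∧ (∀ a ∈ A, ∀ b ∈ B, a * b = b * a) ∧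
          A ⊔ B = ⊤ ∧ A ⊓ B = Subgroup.center ↥(Cfsg.pCore 2 X)) := by
  open Subgroup in
  obtain ⟨A, ⟨e⟩⟩ := hQ
  have pg := H02.pCore_isPGroup 2 X
  let j : alternatingGroup (Fin 5) →* X ⧸ pCore 2 X := A.subtype.comp e.symm.toMonoidHom
  have hj : Function.Injective j := A.subtype_injective.comp e.symm.injective
  obtain ⟨F, T, R, a1, a2, a3, a4, a5, a6⟩ : ∃ F T R : alternatingGroup (Fin 5), F ^ 5 = 1 ∧ F ≠ 1 ∧ T * F * T⁻¹ = F⁻¹ ∧ T * T = 1 ∧
      R ^ 3 = 1 ∧ R ≠ 1 := ⟨⟨finRotate 5, Equiv.Perm.mem_alternatingGroup.2 (by decide)⟩, ⟨.swap 1 4 * .swap 2 3, Equiv.Perm.mem_alternatingGroup.2 (by decide)⟩,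
      ⟨.swap 0 1 * .swap 0 2, Equiv.Perm.mem_alternatingGroup.2 (by decide)⟩, by simp only [Ne, Subtype.ext_iff]; decide⟩
  obtain ⟨f, hf⟩ := QuotientGroup.mk'_surjective _ (j F)
  obtain ⟨t, ht⟩ := QuotientGroup.mk'_surjective _ (j T)
  obtain ⟨r, hr⟩ := QuotientGroup.mk'_surjective _ (j R)
  have k : ∀ x, x ∈ pCore 2 X ↔ QuotientGroup.mk' (pCore 2 X) x = 1 := fun x => (QuotientGroup.eq_one_iff x).symm
  obtain ⟨n, n1, n2⟩ := H04.A5.lift pg (p := 5) (by decide) (x := f) (by rw [k, map_pow, hf, ← map_pow, a1, map_one])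
    (by rwa [k, hf, map_eq_one_iff _ hj])
  obtain ⟨m, m1, m2⟩ := H04.A5.lift pg (p := 3) (by decide) (x := r) (by rw [k, map_pow, hr, ← map_pow, a5, map_one])
    (by rwa [k, hr, map_eq_one_iff _ hj])
  refine H04.A5.main h4 pg ((H17.isPConstrained_iff_of_bot hO).1 hc) (τ := t) n1 n2 ?_ ?_ m1 m2 fun N _ h1 h2 => ?_
  · simp only [k, map_mul, map_inv, map_pow, hf, ht]
    rw [← conj_pow, ← map_inv, ← map_mul, ← map_mul, a3, map_inv, inv_pow, inv_mul_cancel]
  · rw [k, map_mul, ht, ← map_mul, a4, map_one]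
  have := (Normal.comap (Normal.map ‹N.Normal› _ (QuotientGroup.mk'_surjective (pCore 2 X))) j).eq_bot_or_eq_top.resolve_left fun h => by
    have : F ^ n ∈ (N.map (QuotientGroup.mk' (pCore 2 X))).comap j := ⟨_, h2, by rw [map_pow, hf, map_pow]⟩
    exact n2 (by rw [k, map_pow, hf, ← map_pow, mem_bot.1 (h.le this), map_one])
  have h := this.ge (mem_top R)
  rw [mem_comap, ← hr, ← mem_comap, comap_map_eq_self (by rwa [QuotientGroup.ker_mk'])] at h
  exact pow_mem h m

end Cfsg.Agent.S3106
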