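import Mathlib
import Cfsg.Statements.S3117
import Cfsg.Agent.H17.AutGen
import Cfsg.Agent.H23.OutSol2

set_option autoImplicit false
open Cfsg

namespace Cfsg.Agent.S3117

open Subgroup

/-- If X is a finite 2-group containing exactly three involutions, then the automorphism group of X is solvable. -/
theorem result {X : Type*} [Group X] [Finite X] (h2 : IsPGroup 2 X) (h3 : Nat.card {x : X // orderOf x = 2} = 3) : Group.IsSolvable (MulAut X) := by
  classical
  suffices Group.IsSolvable (⊤ : Subgroup (MulAut X)) from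
    Group.isSolvable_of_surjective (f := (⊤ : Subgroup (MulAut X)).subtype) fun a => ⟨⟨a, trivial⟩, rfl⟩
  refine H23.OS.sol_of_perf fun K _ hK => ?_
  let I := {x : X // orderOf x = 2}
  let f : MulAut X →* Equiv.Perm I := MonoidHom.mk'
    (fun a => a.toEquiv.subtypeEquiv fun x => by rw [MulEquiv.toEquiv_eq_coe, EquivLike.coe_coe, a.orderOf_eq])
    fun a b => rfl
  have hf : K.map f = ⊥ := H23.OS.perf_23 (H23.OS.perf_map hK f) fun r hr h => by
    have := Fintype.ofFinite I
    have h6 : r ∣ 2 * 3 := h.trans ((card_subgroup_dvd_card _).trans (by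
      rw [Nat.card_eq_fintype_card, Fintype.card_perm, ← Nat.card_eq_fintype_card, h3]; rfl))
    exact ((Nat.Prime.dvd_mul hr).1 h6).imp (Nat.prime_dvd_prime_iff_eq hr Nat.prime_two).1
      (Nat.prime_dvd_prime_iff_eq hr Nat.prime_three).1
  have hc := H23.OS.cent_of_invol (H23.OS.perf_map hK (SemidirectProduct.inr : MulAut X →* H24.Hol X))
    ((h2.to_subgroup ⊤).map SemidirectProduct.inl) (H17.hol_norm fun _ _ _ _ => trivial) (by
      rintro _ ⟨x, -, rfl⟩ hx _ ⟨a, ha, rfl⟩
      rw [← map_mul, ← map_one (SemidirectProduct.inl : X →* H24.Hol X), SemidirectProduct.inl_inj] at hx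
      rw [← mul_inv_eq_iff_eq_mul, H17.hol_conj']
      congr 1
      by_cases h1 : x = 1
      · rw [h1, map_one]
      · exact congrArg Subtype.val (Equiv.ext_iff.1 (mem_bot.1 (hf.le ⟨a, ha, rfl⟩))
          ⟨x, orderOf_eq_prime (pow_two x ▸ hx) h1⟩))
  refine eq_bot_iff.2 fun a ha => MulEquiv.ext fun x => SemidirectProduct.inl_injective (φ := MonoidHom.id _) ?_
  rw [← H17.hol_conj', mul_inv_eq_iff_eq_mul]
  exact hc ⟨x, trivial, rfl⟩ _ ⟨a, ha, rfl⟩

end Cfsg.Agent.S3117
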