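import Mathlib
import Cfsg.Statements.S3356
import Cfsg.Agent.H05.Half

set_option autoImplicit false
open Cfsg

namespace Cfsg.Agent.S3356

/-- Let G be a finite 3/2-transitive permutation group: G acts faithfully and transitively on a finite set, the point stabilizers are non-trivial, and for each point a all orbits of G_a on the remaining points have the same size. Suppose G has a regular normal subgroup N and G is not a Frobenius group (some two-point stabilizer is non-trivial). Then N is an elementary abelian p-group for some prime p, and every non-trivial normal subgroup of G contains N (so N is the unique minimal normal subgroup). -/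
theorem result {G Ω : Type*} [Group G] [Finite G]
    [MulAction G Ω] [FaithfulSMul G Ω] [Finite Ω] (htrans : MulAction.IsPretransitive G Ω)
    (hne : ∀ a : Ω, MulAction.stabilizer G a ≠ ⊥)
    (hhalf : ∀ a b c : Ω, b ≠ a → c ≠ a →
      Nat.card (MulAction.orbit (MulAction.stabilizer G a) b) = Nat.card (MulAction.orbit (MulAction.stabilizer G a) c))
    (N : Subgroup G) [hN : N.Normal] (hNt : MulAction.IsPretransitive N Ω) (hNr : ∀ a : Ω, MulAction.stabilizer N a = ⊥)
    (hnotF : ∃ a b : Ω, a ≠ b ∧ MulAction.stabilizer G a ⊓ MulAction.stabilizer G b ≠ ⊥) :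
    (∃ p : ℕ, p.Prime ∧ IsMulCommutative N ∧ ∀ x ∈ N, x ^ p = 1) ∧
    (∀ M : Subgroup G, M.Normal → M ≠ ⊥ → N ≤ M) := by
  classical
  obtain ⟨a, b, hab, hF⟩ := hnotF
  let H := MulAction.stabilizer G a
  letI : MulDistribMulAction H N := MulDistribMulAction.compHom N ((MulAut.conjNormal (H := N)).comp H.subtype)
  have hsm : ∀ (h : H) (n : N), ((h • n : N) : G) = h * n * (h : G)⁻¹ := fun h n => rfl
  have hreg : ∀ n m : N, (n : G) • a = (m : G) • a → n = m := by
    intro n m e
    have : m⁻¹ * n ∈ MulAction.stabilizer N a := by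
      rw [MulAction.mem_stabilizer_iff, mul_smul, inv_smul_eq_iff]; exact e
    rw [hNr, Subgroup.mem_bot] at this
    exact (inv_mul_eq_one.1 this).symm
  have hact : ∀ (h : H) (n : N), ((h • n : N) : G) • a = (h : G) • ((n : G) • a) := by
    intro h n
    have : (h : G)⁻¹ • a = a := (H.inv_mem h.2)
    rw [hsm, mul_smul, mul_smul, this]
  have hstab : ∀ n : N, MulAction.stabilizer H n = MulAction.stabilizer H ((n : G) • a) := by
    intro n
    ext h
    rw [MulAction.mem_stabilizer_iff, MulAction.mem_stabilizer_iff]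
    constructor
    · intro e
      show (h : G) • ((n : G) • a) = _
      rw [← hact, e]
    · intro e
      exact hreg _ _ ((hact h n).trans e)
  have hos : ∀ x : Ω, Nat.card (MulAction.orbit H x) * Nat.card (MulAction.stabilizer H x) = Nat.card H := by
    intro x
    rw [← Nat.card_prod]
    exact Nat.card_congr (MulAction.orbitProdStabilizerEquivGroup H x)
  have hc : ∀ y : N, y ≠ 1 → Nat.card (MulAction.stabilizer H y) = Nat.card (MulAction.stabilizer H b) := by
    intro y hy
    have hya : (y : G) • a ≠ a := fun e => hy (hreg _ _ (by simpa using e))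
    rw [hstab]
    have e := (hos ((y : G) • a)).trans (hos b).symm
    rw [hhalf a _ b hya hab.symm] at e
    have : Nonempty (MulAction.orbit H b) := ⟨⟨b, MulAction.mem_orbit_self b⟩⟩
    exact Nat.eq_of_mul_eq_mul_left Nat.card_pos e
  have h1 : 1 < Nat.card (MulAction.stabilizer H b) := by
    rw [Subgroup.one_lt_card_iff_ne_bot]
    intro e
    apply hF
    rw [eq_bot_iff]
    rintro g ⟨h1, h2⟩
    have : (⟨g, h1⟩ : H) ∈ MulAction.stabilizer H b := h2
    rw [e, Subgroup.mem_bot] at this
    exact congrArg Subtype.val this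
  have hfaith : FaithfulSMul H N := by
    refine ⟨fun {h k} e => Subtype.ext (eq_of_smul_eq_smul (α := Ω) fun x => ?_)⟩
    obtain ⟨n, rfl⟩ := hNt.exists_smul_eq a x
    show (h : G) • ((n : G) • a) = (k : G) • ((n : G) • a)
    rw [← hact, ← hact, e]
  have hnt : Nontrivial N := by
    obtain ⟨n, hn⟩ := hNt.exists_smul_eq a b
    refine ⟨n, 1, fun e => hab ?_⟩
    rw [← hn, e, one_smul]
  obtain ⟨p, hp, hexp⟩ := H05.Half.exists_exp hc h1
  have hcomm := H05.Half.comm hc h1
  refine ⟨⟨p, hp, ⟨⟨hcomm⟩⟩, fun x hx => congrArg Subtype.val (hexp ⟨x, hx⟩)⟩, fun M hM hM1 => ?_⟩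
  rcases H05.Half.inv_eq hc h1 (M.subgroupOf N) (fun h x hx => by
    rw [Subgroup.mem_subgroupOf] at hx ⊢
    rw [hsm]
    exact hM.conj_mem _ hx _) with h | h
  · exfalso
    apply hM1
    have hd : Disjoint M N := by
      rw [Subgroup.disjoint_def]
      intro x h1 h2
      have : (⟨x, h2⟩ : N) ∈ M.subgroupOf N := h1
      rw [h, Subgroup.mem_bot] at this
      exact congrArg Subtype.val this
    rw [eq_bot_iff]
    intro m hm
    obtain ⟨n, hn⟩ := hNt.exists_smul_eq a (m • a)
    have hn : (n : G) • a = m • a := hn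
    have hmem : (n : G)⁻¹ * m ∈ H := by
      show ((n : G)⁻¹ * m) • a = a
      rw [mul_smul, ← hn, inv_smul_smul]
    have : (⟨_, hmem⟩ : H) = 1 := by
      refine eq_of_smul_eq_smul (α := N) fun x => Subtype.ext ?_
      rw [one_smul, hsm]
      have e1 := (Subgroup.commute_of_normal_of_disjoint M N hM hN hd m x hm x.2).eq
      have e2 : (n : G) * x = x * n := congrArg Subtype.val (hcomm n x)
      show (n : G)⁻¹ * m * x * ((n : G)⁻¹ * m)⁻¹ = x
      rw [mul_assoc _ m, e1]
      have : (n : G)⁻¹ * (x * m) * ((n : G)⁻¹ * m)⁻¹ = (n : G)⁻¹ * (x * n) := by group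
      rw [this, ← e2]; group
    have e : (n : G)⁻¹ * m = 1 := congrArg Subtype.val this
    have hmN : m ∈ N := by
      rw [← inv_mul_eq_one.1 e]; exact n.2
    exact Subgroup.disjoint_def.1 hd hm hmN
  · exact Subgroup.subgroupOf_eq_top.1 h

end Cfsg.Agent.S3356
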