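import Mathlib
import Cfsg.Statements.S3357
import Cfsg.Agent.H18.FC1

set_option autoImplicit false
open Cfsg

namespace Cfsg.Agent.S3357

theorem aux {K V G : Type*} [Field K] [AddCommGroup V] [Module K V] [Group G] [Nontrivial G]
    (σ : Representation K G V) (hσ : ∀ g, g ≠ 1 → ∀ v, σ g v = v → v = 0)
    (W₀ : Submodule K V) [FiniteDimensional K W₀] (h0 : W₀ ≠ ⊥) (hW₀ : ∀ g, ∀ w ∈ W₀, σ g w ∈ W₀) :
    ∃ (n : ℕ) (ρ : G →* GL (Fin n) K), 0 < n ∧ Function.Injective ρ ∧
      (∀ W : Submodule K (Fin n → K),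
        (∀ g : G, ∀ w ∈ W, ((ρ g : GL (Fin n) K) : Matrix (Fin n) (Fin n) K).mulVec w ∈ W) →
          W = ⊥ ∨ W = ⊤) ∧
      ∀ g : G, g ≠ 1 → ∀ v : Fin n → K,
        ((ρ g : GL (Fin n) K) : Matrix (Fin n) (Fin n) K).mulVec v = v → v = 0 := by
  classical
  have hex : ∃ n, ∃ W : Submodule K V, W ≤ W₀ ∧ W ≠ ⊥ ∧ (∀ g, ∀ w ∈ W, σ g w ∈ W) ∧
      Module.finrank K W = n := ⟨_, W₀, le_rfl, h0, hW₀, rfl⟩
  obtain ⟨W, hle, hne, hinv, hn⟩ := Nat.find_spec hex
  have hmin : ∀ W' : Submodule K V, W' ≤ W → W' ≠ ⊥ → (∀ g, ∀ w ∈ W', σ g w ∈ W') → W' = W := by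
    intro W' h1 h2 h3
    have : FiniteDimensional K W := Submodule.finiteDimensional_of_le hle
    refine Submodule.eq_of_le_of_finrank_le h1 ?_
    rw [hn]
    exact Nat.find_min' hex ⟨W', h1.trans hle, h2, h3, rfl⟩
  have : FiniteDimensional K W := Submodule.finiteDimensional_of_le hle
  set n := Module.finrank K W with hn'
  let e : W ≃ₗ[K] (Fin n → K) := (Module.finBasis K W).equivFun
  let τ : Representation K G W := σ.subrepresentation W (fun g w hw => hinv g w hw)
  let μ : G →* Matrix (Fin n) (Fin n) K :=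
    ((LinearMap.toMatrixAlgEquiv' (R := K) (n := Fin n)).toMonoidHom.comp
      (e.conjRingEquiv.toMonoidHom)).comp τ
  let ι : (Fin n → K) →ₗ[K] V := W.subtype.comp e.symm.toLinearMap
  have hι : Function.Injective ι := W.subtype_injective.comp e.symm.injective
  have hμ : ∀ g v, ι ((μ g).mulVec v) = σ g (ι v) := by
    intro g v
    have : (μ g).mulVec v = e (τ g (e.symm v)) := by
      show (LinearMap.toMatrix' (e.conj (τ g))).mulVec v = _
      rw [LinearMap.toMatrix'_mulVec]; rfl
    rw [this]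
    show ((e.symm (e (τ g (e.symm v))) : W) : V) = _
    rw [e.symm_apply_apply]; rfl
  have hpos : 0 < n := by
    have : Nontrivial W := Submodule.nontrivial_iff_ne_bot.2 hne
    exact Module.finrank_pos
  have hfix : ∀ g : G, g ≠ 1 → ∀ v : Fin n → K, (μ g).mulVec v = v → v = 0 := by
    intro g hg v hv
    apply hι
    rw [map_zero]
    exact hσ g hg _ (by rw [← hμ, hv])
  refine ⟨n, μ.toHomUnits, hpos, ?_, ?_, hfix⟩
  · rw [injective_iff_map_eq_one]
    intro g hg
    by_contra h1
    have h2 : μ g = 1 := congrArg Units.val hg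
    have := hfix g h1 (fun _ => 1) (by rw [h2, Matrix.one_mulVec])
    exact one_ne_zero (congrFun this ⟨0, hpos⟩)
  · intro U hU
    by_cases hU0 : U = ⊥
    · exact Or.inl hU0
    right
    have h := hmin (U.map ι) (by rintro _ ⟨u, -, rfl⟩; exact (e.symm u).2)
      (fun h => hU0 (by
        rw [eq_bot_iff]
        intro u hu
        have : ι u ∈ U.map ι := ⟨u, hu, rfl⟩
        rw [h, Submodule.mem_bot] at this
        exact hι (this.trans (map_zero ι).symm))) (by
        rintro g _ ⟨u, hu, rfl⟩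
        exact ⟨_, hU g u hu, hμ g u⟩)
    rw [eq_top_iff]
    intro v _
    have : ι v ∈ U.map ι := h ▸ (e.symm v).2
    obtain ⟨u, hu, e'⟩ := this
    exact hι e' ▸ hu

/-- Let G be a finite group that occurs as a Frobenius complement. Then G has a faithful irreducible representation over an algebraic closure of the rationals in which no non-identity element of G has 1 as an eigenvalue: there are n ≥ 1 and an injective homomorphism ρ from G to GL(n) over that field, with no invariant subspace other than 0 and the whole space, such that for g ≠ 1 the only vector fixed by ρ(g) is 0. -/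
theorem result {G : Type*} [Group G] [Finite G]
    (hFC : ∃ (L : Type) (_ : Group L) (_ : Finite L) (H : Subgroup L), Cfsg.IsFrobeniusComplement H ∧ Nonempty (G ≃* H)) :
    ∃ (n : ℕ) (ρ : G →* GL (Fin n) (AlgebraicClosure ℚ)), 0 < n ∧ Function.Injective ρ ∧
      (∀ W : Submodule (AlgebraicClosure ℚ) (Fin n → AlgebraicClosure ℚ),
        (∀ g : G, ∀ w ∈ W, ((ρ g : GL (Fin n) (AlgebraicClosure ℚ)) : Matrix (Fin n) (Fin n) (AlgebraicClosure ℚ)).mulVec w ∈ W) → W = ⊥ ∨ W = ⊤) ∧
      ∀ g : G, g ≠ 1 → ∀ v : Fin n → AlgebraicClosure ℚ,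
        ((ρ g : GL (Fin n) (AlgebraicClosure ℚ)) : Matrix (Fin n) (Fin n) (AlgebraicClosure ℚ)).mulVec v = v → v = 0 := by
  have hG : Nontrivial G := by
    obtain ⟨L, _, _, H, hH, ⟨e⟩⟩ := hFC
    have : Nontrivial H := (Subgroup.nontrivial_iff_ne_bot H).2 hH.1
    exact e.toEquiv.nontrivial
  obtain ⟨n, ρ, hρ⟩ := (H18.IsFC.of_frob hFC).exists_rep
  haveI : Algebra.IsAlgebraic ℚ (AlgebraicClosure ℚ) := AlgebraicClosure.isAlgebraic ℚ
  letI : Algebra (AlgebraicClosure ℚ) ℂ :=
    (IsAlgClosed.lift (R := ℚ) (S := AlgebraicClosure ℚ) (M := ℂ)).toRingHom.toAlgebra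
  let σ : Representation (AlgebraicClosure ℚ) G (Fin (n + 1) → ℂ) :=
    { toFun := fun g => (ρ g).restrictScalars (AlgebraicClosure ℚ)
      map_one' := by rw [map_one]; rfl
      map_mul' := fun a b => by rw [map_mul]; rfl }
  let v₀ : Fin (n + 1) → ℂ := fun _ => 1
  have : FiniteDimensional (AlgebraicClosure ℚ)
      (Submodule.span (AlgebraicClosure ℚ) (Set.range fun g : G => σ g v₀)) :=
    FiniteDimensional.span_of_finite _ (Set.finite_range _)
  refine aux σ ?_ (Submodule.span (AlgebraicClosure ℚ) (Set.range fun g : G => σ g v₀)) ?_ ?_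
  · intro g hg v hv
    have hv : ρ g v = v := hv
    have hi := (Module.End.isUnit_iff _).1 (hρ g hg)
    apply hi.1
    simp [hv]
  · intro h
    have : σ 1 v₀ ∈ Submodule.span (AlgebraicClosure ℚ) (Set.range fun g : G => σ g v₀) :=
      Submodule.subset_span ⟨1, rfl⟩
    rw [h, Submodule.mem_bot, map_one] at this
    exact one_ne_zero (congrFun this 0)
  · intro g w hw
    have : (Submodule.span (AlgebraicClosure ℚ) (Set.range fun g : G => σ g v₀)).map (σ g) ≤
        Submodule.span (AlgebraicClosure ℚ) (Set.range fun g : G => σ g v₀) := by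
      rw [Submodule.map_span, Submodule.span_le]
      rintro _ ⟨_, ⟨k, rfl⟩, rfl⟩
      exact Submodule.subset_span ⟨g * k, by simp only [map_mul]; rfl⟩
    exact this ⟨w, hw, rfl⟩

end Cfsg.Agent.S3357
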