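import Mathlib
import Cfsg.Statements.S3358
import Cfsg.Agent.H18.FC5
import Cfsg.Agent.H04.TwoGroups

set_option autoImplicit false
open Cfsg

namespace Cfsg.Agent.S3358

open Subgroup
open scoped commutatorElement

abbrev rel (n m r : ℕ) : Set (FreeGroup (Fin 2)) :=
  {FreeGroup.of (0 : Fin 2) ^ n, FreeGroup.of (1 : Fin 2) ^ m,
    (FreeGroup.of (0 : Fin 2))⁻¹ * FreeGroup.of 1 * FreeGroup.of 0 * (FreeGroup.of (1 : Fin 2) ^ r)⁻¹}

theorem card_le {P : Type*} [Group P] {a b : P} {n m r : ℕ} (hn : 0 < n) (hm : 0 < m) (ha : a ^ n = 1)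
    (hb : b ^ m = 1) (h : a⁻¹ * b * a = b ^ r) (hg : closure {a, b} = ⊤) :
    Finite P ∧ Nat.card P ≤ n * m := by
  haveI : Finite (zpowers a) := finite_zpowers.2 (isOfFinOrder_iff_pow_eq_one.2 ⟨n, hn, ha⟩)
  haveI : Finite (zpowers b) := finite_zpowers.2 (isOfFinOrder_iff_pow_eq_one.2 ⟨m, hm, hb⟩)
  haveI : (zpowers b).Normal := by
    rw [← normalizer_eq_top_iff, eq_top_iff, ← hg, closure_le]
    rintro _ (rfl | rfl)
    · rw [SetLike.mem_coe, ← inv_mem_iff]
      apply mem_normalizer_fintype
      rintro _ ⟨j, rfl⟩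
      simp only
      rw [← conj_zpow, inv_inv, h]
      exact zpow_mem (pow_mem (mem_zpowers _) _) _
    · exact le_normalizer (mem_zpowers _)
  have hs : Function.Surjective fun x : zpowers a × zpowers b => (x.1 : P) * x.2 := by
    intro g
    have : g ∈ ((zpowers a ⊔ zpowers b : Subgroup P) : Set P) := by
      have : zpowers a ⊔ zpowers b = ⊤ := by
        rw [eq_top_iff, ← hg, closure_le]
        rintro _ (rfl | rfl)
        · exact mem_sup_left (mem_zpowers _)
        · exact mem_sup_right (mem_zpowers _)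
      rw [this]; trivial
    rw [mul_normal] at this
    obtain ⟨u, hu, v, hv, rfl⟩ := this
    exact ⟨(⟨u, hu⟩, ⟨v, hv⟩), rfl⟩
  refine ⟨Finite.of_surjective _ hs, (Nat.card_le_card_of_surjective _ hs).trans ?_⟩
  rw [Nat.card_prod, Nat.card_zpowers, Nat.card_zpowers]
  exact Nat.mul_le_mul (orderOf_le_of_pow_eq_one hn ha) (orderOf_le_of_pow_eq_one hm hb)

theorem pres {X : Type*} [Group X] [Finite X] {x y : X} {n m r : ℕ} (hn : 0 < n) (hm : 0 < m)
    (hx : x ^ n = 1) (hy : y ^ m = 1) (h : x⁻¹ * y * x = y ^ r) (hg : closure {x, y} = ⊤)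
    (hc : Nat.card X = n * m) : Nonempty (X ≃* PresentedGroup (rel n m r)) := by
  let f : PresentedGroup (rel n m r) →* X := PresentedGroup.toGroup (f := ![x, y]) (by
    rintro _ (rfl | rfl | rfl) <;> simp [hx, hy, h])
  have h0 : f (PresentedGroup.of 0) = x := PresentedGroup.toGroup.of _
  have h1 : f (PresentedGroup.of 1) = y := PresentedGroup.toGroup.of _
  have hs : Function.Surjective f := by
    rw [← MonoidHom.range_eq_top, eq_top_iff, ← hg, closure_le]
    rintro _ (rfl | rfl)
    · exact ⟨_, h0⟩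
    · exact ⟨_, h1⟩
  obtain ⟨_, hle⟩ := card_le (P := PresentedGroup (rel n m r)) (a := PresentedGroup.of 0)
    (b := PresentedGroup.of 1) (r := r) hn hm
    (PresentedGroup.one_of_mem (rels := rel n m r) (x := FreeGroup.of 0 ^ n) (by simp))
    (PresentedGroup.one_of_mem (rels := rel n m r) (x := FreeGroup.of 1 ^ m) (by simp))
    (mul_inv_eq_one.1 (PresentedGroup.one_of_mem (rels := rel n m r)
      (x := (FreeGroup.of (0 : Fin 2))⁻¹ * FreeGroup.of 1 * FreeGroup.of 0 *
        (FreeGroup.of (1 : Fin 2) ^ r)⁻¹) (by simp))) (by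
      rw [← PresentedGroup.closure_range_of]
      congr 1
      ext z
      simp [Fin.exists_fin_two, eq_comm])
  exact ⟨(MulEquiv.ofBijective f ((Nat.bijective_iff_surjective_and_card f).2
    ⟨hs, le_antisymm (hc ▸ hle) (Nat.card_le_card_of_surjective f hs)⟩)).symm⟩

theorem zpres {X : Type*} [Group X] [Finite X] (h : H18.IsFC X) [IsZGroup X] :
    ∃ n m r : ℕ, 0 < n ∧ 0 < m ∧ Nat.Coprime (r - 1) m ∧ Nat.Coprime n m ∧ 1 ≤ r ∧
        r ^ (n / ∏ p ∈ n.primeFactors, p) % m = 1 % m ∧
        Nonempty (X ≃* PresentedGroup (rel n m r)) := by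
  have hcop := IsZGroup.coprime_commutator_index (G := X)
  obtain ⟨C, hC⟩ := exists_right_complement'_of_coprime hcop
  have hD := IsZGroup.isCyclic_commutator (G := X)
  have hCc : IsCyclic C := by
    have : IsCyclic (X ⧸ commutator X) := IsZGroup.isCyclic_abelianization (G := X)
    exact isCyclic_of_surjective _ hC.symm.QuotientMulEquiv.surjective
  obtain ⟨y, hy⟩ := BG.cyclic_iff.1 hD
  obtain ⟨x, rfl⟩ := BG.cyclic_iff.1 hCc
  haveI hyn : (zpowers y).Normal := hy ▸ inferInstance
  have hm : 0 < orderOf y := orderOf_pos y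
  have hn : 0 < orderOf x := orderOf_pos x
  obtain ⟨r₀, hr₀⟩ := (mem_powers_iff_mem_zpowers).2 (hyn.conj_mem y (mem_zpowers y) x⁻¹)
  have hr : x⁻¹ * y * x = y ^ (r₀ + orderOf y) := by
    rw [pow_add, pow_orderOf_eq_one, mul_one]
    simpa using hr₀.symm
  set r := r₀ + orderOf y with hrdef
  have hsup : zpowers y ⊔ zpowers x = ⊤ := by rw [hy]; exact hC.sup_eq_top
  have hcop' : (orderOf x).Coprime (orderOf y) := by
    rw [hC.symm.index_eq_card, ← hy, Nat.card_zpowers, Nat.card_zpowers] at hcop
    exact hcop.symm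
  refine ⟨orderOf x, orderOf y, r, hn, hm, ?_, hcop', by omega, ?_,
    pres hn hm (pow_orderOf_eq_one x) (pow_orderOf_eq_one y) hr ?_ ?_⟩
  · have h1 := H04.commutator_eq_zpowers (a := y) (b := x⁻¹) (by rw [zpowers_inv, hsup])
    have h2 : ⁅y, x⁻¹⁆ = (y ^ (r - 1))⁻¹ := by
      have : y ^ r = y ^ (r - 1) * y := by rw [← pow_succ]; congr 1; omega
      rw [this] at hr
      have e : ⁅y, x⁻¹⁆ = y * (x⁻¹ * y * x)⁻¹ := by rw [commutatorElement_def]; group
      rw [e, hr]; group
    rw [h2, zpowers_inv, ← hy] at h1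
    have h3 := congrArg (fun K : Subgroup X => Nat.card K) h1
    simp only [Nat.card_zpowers] at h3
    rw [orderOf_pow, eq_comm, Nat.div_eq_self] at h3
    exact Nat.Coprime.symm (h3.resolve_left hm.ne')
  · have key : ∀ q ∈ (orderOf x).primeFactors, x ^ (orderOf x / q) ∈ centralizer (zpowers y : Set X) := by
      intro q hq
      have hq' := Nat.prime_of_mem_primeFactors hq
      have ho : orderOf (x ^ (orderOf x / q)) = q :=
        orderOf_pow_orderOf_div hn.ne' (Nat.dvd_of_mem_primeFactors hq)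
      refine (?_ : zpowers (x ^ (orderOf x / q)) ≤ _) (mem_zpowers _)
      refine H01.le_centralizer_of_prime_order le_normalizer_of_normal ?_ fun v hv hp a ha => ?_
      · rw [Nat.card_zpowers, Nat.card_zpowers, ho]
        exact hcop'.coprime_dvd_left (Nat.dvd_of_mem_primeFactors hq)
      · have := H16.normal_of_le_isCyclic (zpowers y) (zpowers_le.2 hv)
        exact (H02.le_centralizer_of_pq_cyclic (A := ⊤) (X := zpowers v)
          (fun B _ p q hp hq hB => h.isCyclic_pq B hp hq hB) le_top le_top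
          (by rwa [Nat.card_zpowers]) (by rwa [Nat.card_zpowers, ho]) le_normalizer_of_normal ha v
          (mem_zpowers v)).symm
    have k2 : x ^ (orderOf x / ∏ p ∈ (orderOf x).primeFactors, p) ∈ centralizer (zpowers y : Set X) := by
      have : ∀ s : Finset ℕ, s ⊆ (orderOf x).primeFactors →
          x ^ (orderOf x / ∏ p ∈ s, p) ∈ centralizer (zpowers y : Set X) := by
        intro s
        induction s using Finset.induction_on with
        | empty => intro _; simp [pow_orderOf_eq_one]
        | insert q s hq ih =>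
          intro hs
          have h1 := ih ((Finset.subset_insert _ _).trans hs)
          have h2 := key q (hs (Finset.mem_insert_self _ _))
          have hq' := Nat.prime_of_mem_primeFactors (hs (Finset.mem_insert_self _ _))
          have hco : q.Coprime (∏ p ∈ s, p) := Nat.Coprime.prod_right fun p hp =>
            (Nat.coprime_primes hq' (Nat.prime_of_mem_primeFactors (hs (Finset.mem_insert_of_mem hp)))).2
              (fun e => hq (e ▸ hp))
          obtain ⟨t, ht⟩ : (∏ p ∈ insert q s, p) ∣ orderOf x :=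
            (Finset.prod_dvd_prod_of_subset _ _ _ hs).trans (Nat.prod_primeFactors_dvd _)
          rw [Finset.prod_insert hq] at ht ⊢
          have hP : 0 < ∏ p ∈ s, p := Finset.prod_pos fun p hp =>
            (Nat.prime_of_mem_primeFactors (hs (Finset.mem_insert_of_mem hp))).pos
          have e1 : orderOf x / (q * ∏ p ∈ s, p) = t := by
            rw [ht]; exact Nat.mul_div_cancel_left _ (Nat.mul_pos hq'.pos hP)
          have e2 : orderOf x / q = t * ∏ p ∈ s, p := by
            rw [ht, mul_assoc, Nat.mul_div_cancel_left _ hq'.pos, mul_comm]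
          have e3 : orderOf x / ∏ p ∈ s, p = t * q := by
            rw [ht, mul_comm q, mul_assoc, Nat.mul_div_cancel_left _ hP, mul_comm]
          rw [e1]
          rw [e3, pow_mul] at h1
          rw [e2, pow_mul] at h2
          have := zpow_mem h1 (Nat.gcdA q (∏ p ∈ s, p))
          have := mul_mem this (zpow_mem h2 (Nat.gcdB q (∏ p ∈ s, p)))
          rwa [← zpow_natCast, ← zpow_natCast (x ^ t), ← zpow_mul, ← zpow_mul, ← zpow_add,
            ← Nat.gcd_eq_gcd_ab, hco, Nat.cast_one, zpow_one] at this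
      exact this _ subset_rfl
    have k3 : ∀ k : ℕ, (x ^ k)⁻¹ * y * x ^ k = y ^ r ^ k := by
      intro k
      induction k with
      | zero => simp
      | succ k ih =>
        have : (x ^ (k + 1))⁻¹ * y * x ^ (k + 1) = x⁻¹ * ((x ^ k)⁻¹ * y * x ^ k) * x⁻¹⁻¹ := by group
        rw [this, ih, ← conj_pow, inv_inv, hr, ← pow_mul, pow_succ']
    have k4 := k3 (orderOf x / ∏ p ∈ (orderOf x).primeFactors, p)
    rw [mul_assoc, k2 y (mem_zpowers y), inv_mul_cancel_left] at k4
    exact (pow_eq_pow_iff_modEq.1 ((pow_one y).trans k4)).symm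
  · rw [eq_top_iff, ← hsup]
    exact sup_le (zpowers_le.2 (subset_closure (by simp))) (zpowers_le.2 (subset_closure (by simp)))
  · rw [← hC.card_mul_card, ← hy, Nat.card_zpowers, Nat.card_zpowers, mul_comm]

theorem quat_sub (n : ℕ) : ∃ f : QuaternionGroup n →* Equiv.Perm (Fin 4), IsCyclic f.ker := by
  let f : QuaternionGroup n →* Equiv.Perm (Fin 4) := MonoidHom.mk'
    (fun x => match x with
      | .a _ => 1
      | .xa _ => Equiv.swap 0 1) (by rintro (i | i) (j | j) <;> simp)
  refine ⟨f, ?_⟩
  have : f.ker = zpowers (QuaternionGroup.a 1) := by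
    ext x
    rcases x with i | i
    · refine ⟨fun _ => ?_, fun _ => rfl⟩
      refine ⟨(i.cast : ℤ), ?_⟩
      have key : ∀ k : ℤ, (QuaternionGroup.a 1 : QuaternionGroup n) ^ k = QuaternionGroup.a k := by
        intro k
        induction k using Int.induction_on with
        | zero => rw [zpow_zero, Int.cast_zero]; rfl
        | succ k ih => rw [zpow_add_one, ih]; simp
        | pred k ih => rw [zpow_sub_one, ih, mul_inv_eq_iff_eq_mul]; simp
      simp [key]
    · constructor
      · intro h
        exact absurd (show Equiv.swap (0 : Fin 4) 1 = 1 from h) (by decide)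
      · rintro ⟨k, hk⟩
        have : f (QuaternionGroup.xa i) = 1 := by
          rw [← hk, map_zpow]; exact one_zpow k
        exact this
  rw [this]; infer_instance

/-- Structure of solvable Frobenius complements. Let G be a finite solvable group that occurs as a Frobenius complement. Then G has a normal subgroup G₀ such that G/G₀ is isomorphic to a subgroup of Sym(4) (G₀ is the kernel of a homomorphism to Sym(4)), all Sylow subgroups of G₀ are cyclic, and G₀ has a presentation ⟨x, y | x^n = 1, y^m = 1, x⁻¹ y x = y^r⟩ with n, m ≥ 1, gcd(r − 1, m) = gcd(n, m) = 1 and r^(n/n′) ≡ 1 (mod m), where n′ is the product of the distinct primes dividing n. -/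
theorem result {G : Type*} [Group G] [Finite G] (hsol : Group.IsSolvable G)
    (hFC : ∃ (L : Type) (_ : Group L) (_ : Finite L) (H : Subgroup L), Cfsg.IsFrobeniusComplement H ∧ Nonempty (G ≃* H)) :
    ∃ G₀ : Subgroup G, G₀.Normal ∧
      (∃ f : G →* Equiv.Perm (Fin 4), f.ker = G₀) ∧
      (∀ (p : ℕ) [Fact p.Prime] (P : Sylow p G₀), IsCyclic P) ∧
      ∃ n m r : ℕ, 0 < n ∧ 0 < m ∧ Nat.Coprime (r - 1) m ∧ Nat.Coprime n m ∧ 1 ≤ r ∧
        r ^ (n / ∏ p ∈ n.primeFactors, p) % m = 1 % m ∧
        Nonempty (G₀ ≃* PresentedGroup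
          ({FreeGroup.of (0 : Fin 2) ^ n, FreeGroup.of (1 : Fin 2) ^ m,
            (FreeGroup.of (0 : Fin 2))⁻¹ * FreeGroup.of 1 * FreeGroup.of 0 * (FreeGroup.of (1 : Fin 2) ^ r)⁻¹} :
            Set (FreeGroup (Fin 2)))) := by
  have h := H18.IsFC.of_frob hFC
  have main : ∃ f : G →* Equiv.Perm (Fin 4), IsZGroup f.ker := by
    by_cases h2 : HasNormalPComplement 2 G
    · obtain ⟨P, N, hN, hc⟩ := h2
      rcases h.cyc_or_quat P.isPGroup' with h1 | ⟨-, n, ⟨e⟩⟩
      · refine ⟨1, ?_⟩
        have : IsZGroup G := h.zgroup fun Q hQ => by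
          obtain ⟨R, hR⟩ := hQ.exists_le_sylow
          have : IsCyclic R := isCyclic_of_surjective _ (P.equiv R).surjective
          exact isCyclic_of_le hR
        infer_instance
      · obtain ⟨f, hf⟩ := quat_sub (2 ^ n)
        let π : G →* QuaternionGroup (2 ^ n) :=
          (hc.symm.QuotientMulEquiv.trans e).toMonoidHom.comp (QuotientGroup.mk' N)
        have hπ : π.ker = N := by
          ext x
          rw [MonoidHom.mem_ker, ← QuotientGroup.eq_one_iff]
          exact (hc.symm.QuotientMulEquiv.trans e).map_eq_one_iff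
        refine ⟨f.comp π, (h.sub _).zgroup fun Q hQ => ?_⟩
        let φ : Q →* f.ker := ((π.comp (f.comp π).ker.subtype).comp Q.subtype).codRestrict f.ker
          (fun x => x.1.2)
        refine isCyclic_of_injective φ ((injective_iff_map_eq_one φ).2 fun x hx => ?_)
        have h1 : ((x : (f.comp π).ker) : G) ∈ N := hπ ▸ congrArg Subtype.val hx
        obtain ⟨k, hk⟩ := hQ x
        have h3 : orderOf ((x : (f.comp π).ker) : G) ∣ 2 ^ k := by
          rw [orderOf_coe, orderOf_coe]; exact orderOf_dvd_of_pow_eq_one hk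
        have h4 := N.orderOf_dvd_natCard h1
        have h5 : (Nat.card N).Coprime (2 ^ k) := by
          rw [← hc.index_eq_card]
          exact ((Nat.prime_two.coprime_iff_not_dvd.2 P.not_dvd_index).symm).pow_right k
        exact Subtype.ext (Subtype.ext (orderOf_eq_one_iff.1 (Nat.eq_one_of_dvd_coprimes h5 h4 h3)))
    · obtain ⟨⟨e⟩, -⟩ := h.q8_normal h2
      obtain ⟨f, -, hf, -⟩ := h.c4 e
      exact ⟨f, hf⟩
  obtain ⟨f, hf⟩ := main
  exact ⟨f.ker, inferInstance, ⟨f, rfl⟩, fun p _ P => inferInstance, zpres (h.sub _)⟩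

end Cfsg.Agent.S3358
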