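import Mathlib
import Cfsg.Statements.S3362
import Cfsg.Agent.H14.Mono
import Cfsg.Agent.H14.PK3

set_option autoImplicit false
open Cfsg

namespace Cfsg.Agent.S3362

/-- the chain -/
def ch : H14.PK.Ch := [(2, [nat_lit 0xba9876543210, nat_lit 0x687a9b543120, nat_lit 0x9ba768543021, nat_lit 0xb9867a540321, nat_lit 0x9a678b350421, nat_lit 0x53b9a4870621, nat_lit 0xab7869430521, nat_lit 0x75b649380a21, nat_lit 0x349ab5680721, nat_lit 0x83975a460b21, nat_lit 0x538674ba1920, nat_lit 0x5964b7a30821]),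
  (1, [nat_lit 0xba9876543210, nat_lit 0x876ba9543201, nat_lit 0xa6798b540231, nat_lit 0x49a3b5870261, nat_lit 0x467385ba1290, nat_lit 0x4b8095a63271, nat_lit 0x78934b6502a1, nat_lit 0x6473a9b80251, nat_lit 0x4760a59812b3, nat_lit 0x7a536b491280, nat_lit 0x6583b9a71240]),
  (0, [nat_lit 0xba9876543210, nat_lit 0x98ba67540213, nat_lit 0x3b549a870216, nat_lit 0x954b8a63217, nat_lit 0x658734ba0219, nat_lit 0x34b78965021a, nat_lit 0x3a9647b80215, nat_lit 0x496ab753218, nat_lit 0x75a60498321b, nat_lit 0x59b836a70214]),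
  (3, [nat_lit 0xba9876543210, nat_lit 0x543ba9876210, nat_lit 0x876543ba9210, nat_lit 0xb7349865a210, nat_lit 0x963a74b85210, nat_lit 0x65ab73498210, nat_lit 0xb85963a74210, nat_lit 0xa8364b597210, nat_lit 0x8a395746b210]),
  (4, [nat_lit 0xba9876543210, nat_lit 0x49865ab73210, nat_lit 0xa74b85963210, nat_lit 0x786ab9453210, nat_lit 0x64b597a83210, nat_lit 0x95746b8a3210, nat_lit 0x56a9487b3210, nat_lit 0x8b57a4693210])]

theorem c1 : H14.PK.ssOk 4 12 [nat_lit 0x9ba687354210, nat_lit 0x543ba9876210, nat_lit 0xa74b85963210, nat_lit 0x49865ab73210, nat_lit 0x95746b8a3210, nat_lit 0x98ba67540213, nat_lit 0x876ba9543201, nat_lit 0x687a9b543120]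
  [] ch
  [([nat_lit 0x9ba687354210, nat_lit 0x95746b8a3210, nat_lit 0x687a9b543120], nat_lit 0x4000100040003000300010003000500020001000100000001000500000000000000040000000300000002ffffffff),
  ([nat_lit 0x876ba9543201], nat_lit 0x50004000400030003000100030004000200030001000100000000000000020000000100000000ffffffff),
  ([nat_lit 0x98ba67540213], nat_lit 0x400030003000000030003000300030002000200010001000000000000000100000000ffffffff),
  ([nat_lit 0x543ba9876210], nat_lit 0x3000100030002000300020002000100020002000100010000000000000000ffffffff),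
  ([nat_lit 0x49865ab73210, nat_lit 0xa74b85963210], nat_lit 0x30001000200000002000000020001000100000001000100000000ffffffff)] = true := by decide +kernel

theorem c2 : H14.PK.genOk 4 12 [nat_lit 0x9ba687354210, nat_lit 0x543ba9876210, nat_lit 0xa74b85963210, nat_lit 0x49865ab73210, nat_lit 0x95746b8a3210, nat_lit 0x98ba67540213, nat_lit 0x876ba9543201]
  [[], [6, 1, 6], [0, 5, 0, 0], [6, 1, 6, 9, 6], [0, 1, 1, 1], [2, 2, 2, 1, 2], [1, 1], [1, 2], [3, 2], [4, 2], [4, 3], [8, 8], [8, 8], [10, 1], [10, 2], [12, 2], [13, 1], [23, 20], [16, 21], [22, 17], [18, 18], [24, 3], [28, 2], [29, 2], [24, 24], [26, 25], [30, 26], [28, 28], [32, 29], [35, 34], [31, 5]]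
  [(3, [nat_lit 0xba9876543210, nat_lit 0x9ba687354210, nat_lit 0x543ba9876210, nat_lit 0x98ba67540213, nat_lit 0xa9b768435210, nat_lit 0x3549ba687210, nat_lit 0x795b4638a210, nat_lit 0x876543ba9210, nat_lit 0x8a395746b210, nat_lit 0x6b879a541203, nat_lit 0x435a9b768210]),
  (4, [nat_lit 0xba9876543210, nat_lit 0x49865ab73210, nat_lit 0x87b96a053214, nat_lit 0x46b9578a3201, nat_lit 0x5b9a07863214, nat_lit 0x6548a90b3217, nat_lit 0x968ba7403215, nat_lit 0x7a48b5693201, nat_lit 0x954b7618320a, nat_lit 0x69b87a413205]),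
  (0, [nat_lit 0xba9876543210, nat_lit 0x97a5b0643218, nat_lit 0xa5b860943271, nat_lit 0xab7698043215, nat_lit 0x59a801b43267, nat_lit 0x79b0a5843216, nat_lit 0x5a60b8143279, nat_lit 0x6a758194320b, nat_lit 0x6708951432ba]),
  (1, [nat_lit 0xba9876543210, nat_lit 0x6ba159843270, nat_lit 0x758b916432a0, nat_lit 0x96b78a143250, nat_lit 0x175a68b43290, nat_lit 0x5816a79432b0, nat_lit 0xa9651b743280, nat_lit 0x8179b5a43260])] 7920 = true := by decide +kernel

theorem cl_eq {G : Type*} [Group G] {w n : ℕ} (S : H14.PK.TS G w n) (L : List G) :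
    S.cl (L.map S.tb) = Subgroup.closure {g | g ∈ L} := by
  unfold H14.PK.TS.cl; congr 1; ext g; simp [H14.PK.TS.el_tb]

/-- An explicit construction of the Mathieu groups of degrees 11 and 12. On the points 0, …, 11 let s = (3 4 5)(6 7 8)(9 10 11), t = (3 6 9)(4 7 10)(5 8 11), u = (4 6 5 9)(7 8 11 10), v = (4 7 5 11)(6 10 9 8), w = (4 10 5 8)(6 11 9 7), x₁ = (0 3)(6 7)(8 10)(9 11), x₂ = (0 1)(6 9)(7 10)(8 11), x₃ = (1 2)(6 11)(7 9)(8 10) (each written as a product of transpositions). Then the group M₁₂ generated by all eight permutations is sharply 5-transitive on the 12 points and has order 95040, and the group M₁₁ generated by the first seven has order 7920 and is the stabilizer of the point 2 in M₁₂. -/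
theorem result
    (s t u v w x₁ x₂ x₃ : Equiv.Perm (Fin 12))
    (hs : s = Equiv.swap (3 : Fin 12) 5 * Equiv.swap (3 : Fin 12) 4 * Equiv.swap (6 : Fin 12) 8 * Equiv.swap (6 : Fin 12) 7 * Equiv.swap (9 : Fin 12) 11 * Equiv.swap (9 : Fin 12) 10) (ht : t = Equiv.swap (3 : Fin 12) 9 * Equiv.swap (3 : Fin 12) 6 * Equiv.swap (4 : Fin 12) 10 * Equiv.swap (4 : Fin 12) 7 * Equiv.swap (5 : Fin 12) 11 * Equiv.swap (5 : Fin 12) 8)
    (hu : u = Equiv.swap (4 : Fin 12) 9 * Equiv.swap (4 : Fin 12) 5 * Equiv.swap (4 : Fin 12) 6 * Equiv.swap (7 : Fin 12) 10 * Equiv.swap (7 : Fin 12) 11 * Equiv.swap (7 : Fin 12) 8) (hv : v = Equiv.swap (4 : Fin 12) 11 * Equiv.swap (4 : Fin 12) 5 * Equiv.swap (4 : Fin 12) 7 * Equiv.swap (6 : Fin 12) 8 * Equiv.swap (6 : Fin 12) 9 * Equiv.swap (6 : Fin 12) 10) (hw : w = Equiv.swap (4 : Fin 12) 8 * Equiv.swap (4 : Fin 12) 5 * Equiv.swap (4 : Fin 12) 10 * Equiv.swap (6 : Fin 12) 7 * Equiv.swap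 (6 : Fin 12) 9 * Equiv.swap (6 : Fin 12) 11)
    (hx₁ : x₁ = Equiv.swap (0 : Fin 12) 3 * Equiv.swap (6 : Fin 12) 7 * Equiv.swap (8 : Fin 12) 10 * Equiv.swap (9 : Fin 12) 11) (hx₂ : x₂ = Equiv.swap (0 : Fin 12) 1 * Equiv.swap (6 : Fin 12) 9 * Equiv.swap (7 : Fin 12) 10 * Equiv.swap (8 : Fin 12) 11)
    (hx₃ : x₃ = Equiv.swap (1 : Fin 12) 2 * Equiv.swap (6 : Fin 12) 11 * Equiv.swap (7 : Fin 12) 9 * Equiv.swap (8 : Fin 12) 10)
    (M₁₂ M₁₁ : Subgroup (Equiv.Perm (Fin 12))) (hM₁₂ : M₁₂ = Subgroup.closure {s, t, u, v, w, x₁, x₂, x₃})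
    (hM₁₁ : M₁₁ = Subgroup.closure {s, t, u, v, w, x₁, x₂}) :
    MulAction.IsMultiplyPretransitive M₁₂ (Fin 12) 5 ∧ (∀ y : Fin 5 ↪ Fin 12, MulAction.stabilizer M₁₂ y = ⊥) ∧
    Nat.card M₁₂ = 95040 ∧ Nat.card M₁₁ = 7920 ∧
    M₁₁ = M₁₂ ⊓ MulAction.stabilizer (Equiv.Perm (Fin 12)) (2 : Fin 12) := by
  let S := H14.PK.permTS 4 12 (by norm_num)
  have es : S.tb s = nat_lit 0x9ba687354210 := H14.PK.permTS_tb (by norm_num) (by rw [hs]; decide +kernel)
  have et : S.tb t = nat_lit 0x543ba9876210 := H14.PK.permTS_tb (by norm_num) (by rw [ht]; decide +kernel)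
  have eu : S.tb u = nat_lit 0xa74b85963210 := H14.PK.permTS_tb (by norm_num) (by rw [hu]; decide +kernel)
  have ev : S.tb v = nat_lit 0x49865ab73210 := H14.PK.permTS_tb (by norm_num) (by rw [hv]; decide +kernel)
  have ew : S.tb w = nat_lit 0x95746b8a3210 := H14.PK.permTS_tb (by norm_num) (by rw [hw]; decide +kernel)
  have ex₁ : S.tb x₁ = nat_lit 0x98ba67540213 := H14.PK.permTS_tb (by norm_num) (by rw [hx₁]; decide +kernel)
  have ex₂ : S.tb x₂ = nat_lit 0x876ba9543201 := H14.PK.permTS_tb (by norm_num) (by rw [hx₂]; decide +kernel)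
  have ex₃ : S.tb x₃ = nat_lit 0x687a9b543120 := H14.PK.permTS_tb (by norm_num) (by rw [hx₃]; decide +kernel)
  have a : S.cl [nat_lit 0x9ba687354210, nat_lit 0x543ba9876210, nat_lit 0xa74b85963210, nat_lit 0x49865ab73210, nat_lit 0x95746b8a3210, nat_lit 0x98ba67540213, nat_lit 0x876ba9543201, nat_lit 0x687a9b543120] = M₁₂ := by
    rw [hM₁₂, ← es, ← et, ← eu, ← ev, ← ew, ← ex₁, ← ex₂, ← ex₃]; exact (cl_eq S [s, t, u, v, w, x₁, x₂, x₃]).trans (by congr 1; ext; simp)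
  have b : S.cl [nat_lit 0x9ba687354210, nat_lit 0x543ba9876210, nat_lit 0xa74b85963210, nat_lit 0x49865ab73210, nat_lit 0x95746b8a3210, nat_lit 0x98ba67540213, nat_lit 0x876ba9543201] = M₁₁ := by
    rw [hM₁₁, ← es, ← et, ← eu, ← ev, ← ew, ← ex₁, ← ex₂]; exact (cl_eq S [s, t, u, v, w, x₁, x₂]).trans (by congr 1; ext; simp)
  have i : ∀ g ∈ [s, t, u, v, w, x₁, x₂, x₃], S.In M₁₂ (S.tb g) := fun g hg =>
    H14.PK.TS.in_tb.2 (hM₁₂ ▸ Subgroup.subset_closure (by simpa using hg))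
  have f : S.Full M₁₂ ch := a ▸ H14.PK.TS.full_of_ss (by
    rw [← es, ← et, ← eu, ← ev, ← ew, ← ex₁, ← ex₂, ← ex₃]; simp only [List.forall_mem_cons]; simp [H14.PK.TS.in_tb]) c1
  have c : Nat.card M₁₂ = 95040 := f.card.trans (by decide +kernel)
  have st : S.st 2 = MulAction.stabilizer (Equiv.Perm (Fin 12)) (2 : Fin 12) := Subgroup.ext fun g => by
    rw [H14.PK.TS.mem_st (by norm_num), MulAction.mem_stabilizer_iff, Fin.ext_iff]
    exact Eq.congr_left (H14.PK.permTS_ap g 2)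
  have d : Nat.card ↥(M₁₂ ⊓ S.st 2) = 7920 := (H14.PK.TS.Full.card f.2.2.2.2).trans (by decide +kernel)
  have e : M₁₁ = M₁₂ ⊓ S.st 2 := by
    rw [← b]
    refine H14.PK.TS.cl_eq d ?_ c2
    rw [← es, ← et, ← eu, ← ev, ← ew, ← ex₁, ← ex₂, st]
    simp only [List.forall_mem_cons, H14.PK.TS.in_tb, Subgroup.mem_inf, MulAction.mem_stabilizer_iff] at i ⊢
    refine ⟨⟨i.1, ?_⟩, ⟨i.2.1, ?_⟩, ⟨i.2.2.1, ?_⟩, ⟨i.2.2.2.1, ?_⟩, ⟨i.2.2.2.2.1, ?_⟩, ⟨i.2.2.2.2.2.1, ?_⟩, ⟨i.2.2.2.2.2.2.1, ?_⟩,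
      by simp⟩ <;> subst_vars <;> decide +kernel
  have sh : H14.Sharp M₁₂ (Fin 12) 5 := H14.sharp_of_card ⟨![2, 1, 0, 3, 4], by decide⟩ (by
    refine (Subgroup.eq_bot_iff_forall _).2 fun g hg => Subtype.ext (f.eq_one g.2 ?_)
    have k : ∀ j : Fin 5, S.ap g (![2, 1, 0, 3, 4] j : Fin 12) = (![2, 1, 0, 3, 4] j : Fin 12) := fun j =>
      (H14.PK.permTS_ap _ _).trans (congrArg Fin.val (DFunLike.congr_fun hg j))
    simp only [ch, List.forall_mem_cons]
    exact ⟨k 0, k 1, k 2, k 3, k 4, by simp⟩) (c.trans (by decide +kernel))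
  exact ⟨sh.1, sh.2, c, e ▸ d, st ▸ e⟩

end Cfsg.Agent.S3362
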