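import Mathlib
import Cfsg.Statements.S3374
import Cfsg.Agent.H12.SL2Pres
import Cfsg.Agent.H27.FrobConstr

set_option autoImplicit false
open Cfsg

namespace Cfsg.Agent.S3374

open Matrix

instance fact5 : Fact (Nat.Prime 5) := ⟨by norm_num⟩
instance fact11 : Fact (Nat.Prime 11) := ⟨by norm_num⟩

abbrev S11 := SpecialLinearGroup (Fin 2) (ZMod 11)

def X : S11 := ⟨!![3, 0; 0, 4], by rw [det_fin_two]; decide⟩
def Y : S11 := ⟨!![2, 1; 9, 5], by rw [det_fin_two]; decide⟩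
def x (t : ZMod 5) : S11 := X ^ t.val
def y (t : ZMod 5) : S11 := Y ^ t.val

theorem inv5 : ∀ t : ZMod 5, t⁻¹ = t ^ 3 := by
  intro t
  by_cases h : t = 0
  · simp [h]
  · apply inv_eq_of_mul_eq_one_right
    revert t; decide

def w (t : ZMod 5) : S11 := x t * y (-t ^ 3) * x t

theorem w_eq (t : ZMod 5) : H12.wEl x y t = w t := by rw [H12.wEl, inv5, w]

theorem h1 : ∀ t u, (x (t + u)).1 = (x t * x u).1 := by decide +kernel
theorem h2 : ∀ t u, (y (t + u)).1 = (y t * y u).1 := by decide +kernel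
theorem h3 : ∀ t u, t ≠ 0 → (w t * x u).1 = (y (-((t ^ 3) ^ 2 * u)) * w t).1 := by decide +kernel

theorem rel : H12.SL2Rel x y :=
  ⟨fun t u => Subtype.ext (h1 t u), fun t u => Subtype.ext (h2 t u), fun t u ht => by
    rw [w_eq, inv5, mul_inv_eq_iff_eq_mul]; exact Subtype.ext (h3 t u ht)⟩

def tr (g : S11) : ZMod 11 := g.1 0 0 + g.1 1 1

theorem h4 : ∀ a b : ZMod 5, b ≠ 0 → tr (x a * (w b * w (-1))) = 2 → a = 0 ∧ b = 1 := by decide +kernel
theorem h5 : ∀ a b c : ZMod 5, b ≠ 0 → tr (x a * w b * x c) ≠ 2 := by decide +kernel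

theorem tr_eq {g : S11} {v : Fin 2 → ZMod 11} (hv : v ≠ 0) (h : g.1 *ᵥ v = v) : tr g = 2 := by
  have h0 : (g.1 - 1).det = 0 := by
    rw [← exists_mulVec_eq_zero_iff]
    exact ⟨v, hv, by rw [sub_mulVec, h, one_mulVec, sub_self]⟩
  have h1 := g.2
  rw [det_fin_two] at h0 h1
  simp only [Matrix.sub_apply, one_apply_eq, one_apply_ne (show (0 : Fin 2) ≠ 1 by decide),
    one_apply_ne (show (1 : Fin 2) ≠ 0 by decide)] at h0
  unfold tr
  linear_combination h1 - h0

/-- SL(2,5) occurs as a Frobenius complement: there is a finite group L with a subgroup H isomorphic to SL(2,5) which is a non-trivial proper subgroup meeting each conjugate gHg⁻¹ with g outside H trivially. -/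
theorem result :
    ∃ (L : Type) (_ : Group L) (_ : Finite L) (H : Subgroup L),
      Cfsg.IsFrobeniusComplement H ∧ Nonempty (H ≃* Matrix.SpecialLinearGroup (Fin 2) (ZMod 5)) := by
  obtain ⟨φ, hu, hl⟩ := rel.exists_hom (fun t u ht hu => rel.h_mul_of_finite t u ht hu)
  have hw : ∀ t, φ (H12.wEl H12.upSL H12.loSL t) = w t := by
    intro t; rw [← w_eq]; simp [H12.wEl, hu, hl]
  let _ : DistribMulAction (SpecialLinearGroup (Fin 2) (ZMod 5)) (Fin 2 → ZMod 11) :=
    { smul := fun g v => (φ g).1 *ᵥ v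
      one_smul := fun v => by change (φ 1).1 *ᵥ v = v; simp
      mul_smul := fun g h v => by change (φ (g * h)).1 *ᵥ v = (φ g).1 *ᵥ (φ h).1 *ᵥ v; rw [map_mul, mulVec_mulVec]; rfl
      smul_zero := fun g => mulVec_zero _
      smul_add := fun g v w => mulVec_add _ _ _ }
  have : Nontrivial (SpecialLinearGroup (Fin 2) (ZMod 5)) := ⟨H12.upSL 1, 1, fun h => by
    have := congrArg (fun g : SpecialLinearGroup (Fin 2) (ZMod 5) => g.1 0 1) h
    simp at this⟩
  apply H27.exists_frob_of_fpf _ (Fin 2 → ZMod 11)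
  intro g hg v hv
  by_contra hv0
  have ht := tr_eq hv0 hv
  obtain ⟨b1, b2⟩ := H12.sl2_bruhat g
  by_cases h : g.1 1 0 = 0
  · obtain ⟨h0, e⟩ := b1 h
    rw [e, H12.hEl, map_mul, map_mul, hu, hw, hw] at ht
    obtain ⟨e1, e2⟩ := h4 _ _ h0 ht
    apply hg
    rw [e, e1, e2, H12.sl2Rel.h_one, H12.sl2Rel.x_zero, one_mul]
  · rw [b2 h, map_mul, map_mul, hu, hu, hw] at ht
    exact h5 _ _ _ (neg_ne_zero.2 (inv_ne_zero h)) ht

end Cfsg.Agent.S3374
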