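import Mathlib
import Cfsg.Statements.S3375
import Cfsg.Agent.H18.InvCfg

set_option autoImplicit false
open Cfsg

namespace Cfsg.Agent.S3375

/-- Let γ be an automorphism of order 2 of a finite group H. (i) If γ fixes only the identity, then H is abelian and γ inverts every element. (ii) If γ has exactly two fixed points and H has a subgroup of index 2, then H has a γ-invariant abelian subgroup of index 2 on which γ acts by inversion. -/
theorem result {H : Type*} [Group H] [Finite H] (γ : MulAut H) (hγ : orderOf γ = 2) :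
    ((∀ h : H, γ h = h → h = 1) → (∀ a b : H, a * b = b * a) ∧ ∀ h : H, γ h = h⁻¹) ∧
    ((Nat.card {h : H // γ h = h} = 2 ∧ ∃ M : Subgroup H, M.index = 2) →
      ∃ A : Subgroup H, A.index = 2 ∧ IsMulCommutative A ∧ (∀ a ∈ A, γ a ∈ A) ∧ ∀ a ∈ A, γ a = a⁻¹) := by
  classical
  have h2 : ∀ h, γ (γ h) = h := by
    intro h
    have : γ ^ 2 = 1 := by rw [← hγ, pow_orderOf_eq_one]
    rw [← MulAut.mul_apply, ← sq, this]; rfl
  refine ⟨fun hf => ?_, fun ⟨hc, M, hM⟩ => ?_⟩
  · have hfpf : MonoidHom.FixedPointFree γ := hf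
    exact ⟨fun a b => (hfpf.commute_all_of_involutive h2 a b).eq,
      fun h => congrFun (hfpf.coe_eq_inv_of_involutive h2) h⟩
  · -- an invariant homomorphism onto `±1`
    obtain ⟨f, hf1, hf2⟩ : ∃ f : H →* ℤˣ, (∃ g, f g ≠ 1) ∧ ∀ g, f (γ g) = f g := by
      have hne : M ≠ ⊤ := by rintro rfl; simp at hM
      obtain ⟨g, hg⟩ : ∃ g, g ∉ M := by
        by_contra h; push Not at h; exact hne (eq_top_iff.2 fun g _ => h g)
      by_cases h : ∀ g, H18.signHom M hM (γ g) = H18.signHom M hM g
      · exact ⟨_, ⟨g, fun e => hg ((H18.signHom_eq_one_iff hM).1 e)⟩, h⟩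
      · push Not at h
        obtain ⟨x, hx⟩ := h
        refine ⟨H18.signHom M hM * (H18.signHom M hM).comp γ.toMonoidHom, ⟨x, fun e => hx ?_⟩, fun g => ?_⟩
        · simp only [MonoidHom.mul_apply, MonoidHom.comp_apply, MulEquiv.coe_toMonoidHom] at e
          rw [eq_inv_of_mul_eq_one_right e, Int.units_inv_eq_self]
        · simp only [MonoidHom.mul_apply, MonoidHom.comp_apply, MulEquiv.coe_toMonoidHom, h2]
          exact mul_comm _ _
    obtain ⟨g, hg⟩ := hf1
    have hi := H18.index_ker_eq_two f hg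
    let C : Subgroup H := MonoidHom.eqLocus γ.toMonoidHom (MonoidHom.id H)
    have hC : Nat.card C = 2 := hc
    let F : H ⧸ C → f.ker := fun q => ⟨q.out * (γ q.out)⁻¹, by
      rw [MonoidHom.mem_ker, map_mul, map_inv, hf2, mul_inv_cancel]⟩
    have hFi : Function.Injective F := by
      intro a b hab
      have h1 : a.out * (γ a.out)⁻¹ = b.out * (γ b.out)⁻¹ := congrArg Subtype.val hab
      rw [← a.out_eq, ← b.out_eq, QuotientGroup.eq]
      change γ (a.out⁻¹ * b.out) = a.out⁻¹ * b.out
      rw [map_mul, map_inv]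
      calc (γ a.out)⁻¹ * γ b.out = a.out⁻¹ * (a.out * (γ a.out)⁻¹) * γ b.out := by group
        _ = _ := by rw [h1]; group
    have hcard : Nat.card (H ⧸ C) = Nat.card f.ker := by
      have e1 := C.card_mul_index
      have e2 := f.ker.card_mul_index
      rw [hC] at e1; rw [hi] at e2
      rw [← Subgroup.index_eq_card]; omega
    have hFs := (hFi.bijective_of_nat_card_le hcard.ge).2
    have hinv : ∀ a ∈ f.ker, γ a = a⁻¹ := by
      intro a ha
      obtain ⟨q, hq⟩ := hFs ⟨a, ha⟩
      have : q.out * (γ q.out)⁻¹ = a := congrArg Subtype.val hq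
      rw [← this, map_mul, map_inv, h2]; group
    refine ⟨f.ker, hi, ⟨⟨fun a b => Subtype.ext ?_⟩⟩, fun a ha => ?_, hinv⟩
    · have := hinv _ (f.ker.mul_mem a.2 b.2)
      rw [map_mul, hinv _ a.2, hinv _ b.2, ← mul_inv_rev, inv_inj] at this
      exact this.symm
    · rw [hinv a ha]; exact f.ker.inv_mem ha

end Cfsg.Agent.S3375
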