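import Mathlib
import Cfsg.Statements.S3377

set_option autoImplicit false
open Cfsg

namespace Cfsg.Agent.S3377

theorem enum {G X : Type*} [Group G] [MulAction G X] {x y : G} (h1 : x ^ 3 = 1) (h2 : y ^ 5 = 1) (h3 : (x * y) ^ 2 = 1)
    {p0 : X} (hy0 : y • p0 = p0) : ∃ S : Finset X, S.card ≤ 12 ∧ ∀ g ∈ Subgroup.closure {x, y}, g • p0 ∈ S := by
  classical
  have Rx : ∀ q : X, x • x • x • q = q := fun q => by
    rw [← mul_smul, ← mul_smul, ← pow_three', h1, one_smul]
  have Ry : ∀ q : X, y • y • y • y • y • q = q := fun q => by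
    rw [← mul_smul, ← mul_smul, ← mul_smul, ← mul_smul, show y * y * y * y * y = y ^ 5 by simp only [pow_succ, pow_zero, one_mul],
      h2, one_smul]
  have Rxy : ∀ q : X, x • y • x • y • q = q := fun q => by
    rw [← mul_smul, ← mul_smul, ← mul_smul, mul_assoc (x * y), ← sq, h3, one_smul]
  have Ryx : ∀ q : X, y • x • y • x • q = q := fun q => by
    have := Rxy (x • q)
    exact smul_left_cancel x this
  obtain ⟨p1, hx0⟩ : ∃ q, x • p0 = q := ⟨_, rfl⟩
  obtain ⟨p2, hx2⟩ : ∃ q, x • q = p0 := ⟨x⁻¹ • p0, smul_inv_smul _ _⟩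
  have hx1 : x • p1 = p2 := by have := Rx p2; rwa [hx2, hx0] at this
  have hy1 : y • p1 = p2 := by have := Ryx p2; rwa [hx2, hy0, hx0] at this
  obtain ⟨p3, hy3⟩ : ∃ q, y • q = p1 := ⟨y⁻¹ • p1, smul_inv_smul _ _⟩
  obtain ⟨p4, hy2⟩ : ∃ q, y • p2 = q := ⟨_, rfl⟩
  have hx4 : x • p4 = p3 := by have := Rxy p3; rwa [hy3, hx1, hy2] at this
  obtain ⟨p5, hx3⟩ : ∃ q, x • p3 = q := ⟨_, rfl⟩
  have hx5 : x • p5 = p4 := by have := Rx p4; rwa [hx4, hx3] at this
  obtain ⟨p6, hy6⟩ : ∃ q, y • q = p3 := ⟨y⁻¹ • p3, smul_inv_smul _ _⟩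
  have hy4 : y • p4 = p6 := by have := Ry p6; rwa [hy6, hy3, hy1, hy2] at this
  obtain ⟨p7, hy5⟩ : ∃ q, y • p5 = q := ⟨_, rfl⟩
  have hx7 : x • p7 = p6 := by have := Rxy p6; rwa [hy6, hx3, hy5] at this
  obtain ⟨p8, hy8⟩ : ∃ q, y • q = p5 := ⟨y⁻¹ • p5, smul_inv_smul _ _⟩
  have hx6 : x • p6 = p8 := by have := Rxy p8; rwa [hy8, hx5, hy4] at this
  have hx8 : x • p8 = p7 := by have := Rx p7; rwa [hx7, hx6] at this
  obtain ⟨p9, hy7⟩ : ∃ q, y • p7 = q := ⟨_, rfl⟩
  obtain ⟨p10, hy10⟩ : ∃ q, y • q = p8 := ⟨y⁻¹ • p8, smul_inv_smul _ _⟩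
  have hy9 : y • p9 = p10 := by have := Ry p10; rwa [hy10, hy8, hy5, hy7] at this
  have hx9 : x • p9 = p10 := by have := Rxy p10; rwa [hy10, hx8, hy7] at this
  obtain ⟨p11, hx11⟩ : ∃ q, x • q = p9 := ⟨x⁻¹ • p9, smul_inv_smul _ _⟩
  have hx10 : x • p10 = p11 := by have := Rx p11; rwa [hx11, hx9] at this
  have hy11 : y • p11 = p11 := by have := Ryx p11; rwa [hx11, hy9, hx10] at this
  let S : Finset X := [p0, p1, p2, p3, p4, p5, p6, p7, p8, p9, p10, p11].toFinset
  have hx : ∀ q ∈ S, x • q ∈ S := by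
    simp only [S, List.mem_toFinset, List.mem_cons, List.not_mem_nil, or_false]
    rintro _ (rfl | rfl | rfl | rfl | rfl | rfl | rfl | rfl | rfl | rfl | rfl | rfl) <;> simp only [*, true_or, or_true]
  have hy : ∀ q ∈ S, y • q ∈ S := by
    simp only [S, List.mem_toFinset, List.mem_cons, List.not_mem_nil, or_false]
    rintro _ (rfl | rfl | rfl | rfl | rfl | rfl | rfl | rfl | rfl | rfl | rfl | rfl) <;> simp only [*, true_or, or_true]
  refine ⟨S, List.toFinset_card_le _, fun g hg => ?_⟩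
  have key : ∀ q ∈ S, g • q ∈ S := by
    induction hg using Subgroup.closure_induction'' with
    | one => simp
    | mem g hg => rcases hg with rfl | rfl; exacts [hx, hy]
    | inv_mem g hg =>
      intro q hq
      rcases hg with rfl | rfl
      · rw [← Rx q, inv_smul_smul]; exact hx _ (hx _ hq)
      · rw [← Ry q, inv_smul_smul]; exact hy _ (hy _ (hy _ (hy _ hq)))
    | mul a b _ _ ha hb => intro q hq; rw [mul_smul]; exact ha _ (hb _ hq)
  exact key _ (by simp [S])

theorem card_le {G : Type*} [Group G] {x y : G} (h1 : x ^ 3 = 1) (h2 : y ^ 5 = 1) (h3 : (x * y) ^ 2 = 1)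
    (h : Subgroup.closure {x, y} = ⊤) : Finite G ∧ Nat.card G ≤ 60 := by
  let H := Subgroup.zpowers y
  obtain ⟨S, hS, hS'⟩ := enum (X := G ⧸ H) h1 h2 h3 (p0 := ((1 : G) : G ⧸ H)) (by
    rw [MulAction.Quotient.smul_coe, QuotientGroup.eq]; simp [H])
  have hu : ∀ q : G ⧸ H, q ∈ S := by
    intro q
    obtain ⟨g, rfl⟩ := QuotientGroup.mk_surjective q
    simpa using hS' g (h ▸ Subgroup.mem_top g)
  have : Finite (G ⧸ H) := Finite.of_surjective (fun s : S => (s : G ⧸ H)) fun q => ⟨⟨q, hu q⟩, rfl⟩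
  have hf : IsOfFinOrder y := isOfFinOrder_iff_pow_eq_one.2 ⟨5, by norm_num, h2⟩
  have : Finite H := finite_zpowers.2 hf
  refine ⟨Finite.of_equiv _ (Subgroup.groupEquivQuotientProdSubgroup (s := H)).symm, ?_⟩
  rw [Subgroup.card_eq_card_quotient_mul_card_subgroup H]
  have e1 : Nat.card (G ⧸ H) ≤ 12 := by
    refine le_trans (Nat.card_le_card_of_surjective (fun s : S => (s : G ⧸ H)) fun q => ⟨⟨q, hu q⟩, rfl⟩) ?_
    simpa using hS
  have e2 : Nat.card H ≤ 5 := by
    rw [Nat.card_zpowers]; exact Nat.le_of_dvd (by norm_num) (orderOf_dvd_of_pow_eq_one h2)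
  exact (Nat.mul_le_mul e1 e2)

abbrev rel : Set (FreeGroup (Fin 2)) := {FreeGroup.of (0 : Fin 2) ^ 3, FreeGroup.of (1 : Fin 2) ^ 5,
        (FreeGroup.of (0 : Fin 2) * FreeGroup.of 1) ^ 2}

open Equiv Equiv.Perm in
def a : alternatingGroup (Fin 5) := ⟨swap 0 2 * swap 0 4, by rw [mem_alternatingGroup]; decide⟩
open Equiv Equiv.Perm in
def b : alternatingGroup (Fin 5) := ⟨finRotate 5, by rw [mem_alternatingGroup]; decide⟩

/-- The alternating group of degree 5 has the presentation ⟨x, y | x³ = 1, y⁵ = 1, (xy)² = 1⟩: the group so presented is isomorphic to Alt(5). -/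
theorem result :
    Nonempty (PresentedGroup ({FreeGroup.of (0 : Fin 2) ^ 3, FreeGroup.of (1 : Fin 2) ^ 5,
        (FreeGroup.of (0 : Fin 2) * FreeGroup.of 1) ^ 2} : Set (FreeGroup (Fin 2))) ≃* alternatingGroup (Fin 5)) := by
  let x : PresentedGroup rel := PresentedGroup.of 0
  let y : PresentedGroup rel := PresentedGroup.of 1
  have h1 : x ^ 3 = 1 := PresentedGroup.one_of_mem (rels := rel) (x := FreeGroup.of 0 ^ 3) (by simp)
  have h2 : y ^ 5 = 1 := PresentedGroup.one_of_mem (rels := rel) (x := FreeGroup.of 1 ^ 5) (by simp)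
  have h3 : (x * y) ^ 2 = 1 := PresentedGroup.one_of_mem (rels := rel) (x := (FreeGroup.of 0 * FreeGroup.of 1) ^ 2) (by simp)
  obtain ⟨hf, hc⟩ := card_le h1 h2 h3 (by
    rw [← PresentedGroup.closure_range_of]
    congr 1
    ext z
    simp [x, y, Fin.exists_fin_two, eq_comm])
  have a3 : a ^ 3 = 1 := by decide
  have b5 : b ^ 5 = 1 := by decide
  have ab : (a * b) ^ 2 = 1 := by decide
  let g : PresentedGroup rel →* alternatingGroup (Fin 5) := PresentedGroup.toGroup (f := ![a, b]) (by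
    rintro _ (rfl | rfl | rfl) <;> simp [a3, b5, ab])
  have ga : g x = a := PresentedGroup.toGroup.of _
  have gb : g y = b := PresentedGroup.toGroup.of _
  have hA : Nat.card (alternatingGroup (Fin 5)) = 60 := by
    have := two_mul_nat_card_alternatingGroup (α := Fin 5)
    rw [Nat.card_perm, Nat.card_fin] at this
    have e : Nat.factorial 5 = 120 := rfl
    omega
  have d : ∀ (p : ℕ) (z : alternatingGroup (Fin 5)), p.Prime → z ∈ g.range → z ^ p = 1 → z ≠ 1 → p ∣ Nat.card g.range := by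
    intro p z hp hz h h'
    have := Fact.mk hp
    rw [← orderOf_eq_prime h h']
    exact Subgroup.orderOf_dvd_natCard _ hz
  have d2 := d 2 (a * b) Nat.prime_two ⟨x * y, by rw [map_mul, ga, gb]⟩ ab (by decide)
  have d3 := d 3 a Nat.prime_three ⟨x, ga⟩ a3 (by decide)
  have d5 := d 5 b Nat.prime_five ⟨y, gb⟩ b5 (by decide)
  have hi := g.range.card_mul_index
  have ht : g.range = ⊤ := by
    have h30 : 30 ∣ Nat.card g.range := by omega
    obtain ⟨k, hk⟩ := h30
    have hpos : 0 < Nat.card g.range := Nat.card_pos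
    rw [hA, hk] at hi
    have hk2 : k * g.range.index = 2 := by nlinarith
    have hi2 : g.range.index ∣ 2 := Dvd.intro_left _ hk2
    rcases (Nat.dvd_prime Nat.prime_two).1 hi2 with e | e
    · exact Subgroup.index_eq_one.1 e
    · have : IsSimpleGroup (alternatingGroup (Fin 5)) := alternatingGroup.isSimpleGroup (by simp)
      refine (IsSimpleGroup.eq_bot_or_eq_top_of_normal g.range (Subgroup.normal_of_index_eq_two e)).resolve_left fun e' => ?_
      rw [e', Subgroup.card_bot] at hk; omega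
  have hs : Function.Surjective g := MonoidHom.range_eq_top.1 ht
  refine ⟨MulEquiv.ofBijective g ?_⟩
  exact (Nat.bijective_iff_surjective_and_card _).2 ⟨hs, le_antisymm (hA ▸ hc) (Nat.card_le_card_of_surjective _ hs)⟩

end Cfsg.Agent.S3377
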