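import Mathlib
import Cfsg.Statements.S3379
import Cfsg.Agent.H02.FrobCompl
import Cfsg.Agent.H16.Super

set_option autoImplicit false
open Cfsg

namespace Cfsg.Agent.S3379

/-- Let G be a finite group all of whose Sylow subgroups are cyclic. Then G is generated by two elements x and y of coprime orders n and m with x⁻¹yx = y^r, where gcd(r − 1, m) = 1 and r^n ≡ 1 (mod m). -/
theorem result {G : Type*} [Group G] [Finite G]
    (hZ : ∀ (p : ℕ) [Fact p.Prime] (P : Sylow p G), IsCyclic (P : Subgroup G)) :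
    ∃ (x y : G) (n m r : ℕ), Subgroup.closure {x, y} = ⊤ ∧ orderOf x = n ∧ orderOf y = m ∧
      x⁻¹ * y * x = y ^ r ∧ Nat.Coprime (r - 1) m ∧ Nat.Coprime n m ∧ 1 ≤ r ∧ r ^ n % m = 1 % m := by
  classical
  have hZG : IsZGroup G := ⟨fun p hp P => @hZ p ⟨hp⟩ P⟩
  have hc := IsZGroup.isCyclic_commutator G
  have hcop := IsZGroup.coprime_commutator_index G
  obtain ⟨K, hK⟩ := Subgroup.exists_right_complement'_of_coprime hcop
  have hKc : IsCyclic K := by
    have : IsCyclic (G ⧸ commutator G) := IsZGroup.isCyclic_abelianization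
    exact isCyclic_of_surjective _ (hK.symm.QuotientMulEquiv).surjective
  obtain ⟨⟨y, hy⟩, hy'⟩ := hc.exists_generator
  obtain ⟨⟨x, hx⟩, hx'⟩ := hKc.exists_generator
  have hyz : Subgroup.zpowers y = commutator G := by
    apply le_antisymm (by simpa using hy)
    intro g hg
    obtain ⟨k, hk⟩ := hy' ⟨g, hg⟩
    exact ⟨k, congrArg Subtype.val hk⟩
  have hxz : Subgroup.zpowers x = K := by
    apply le_antisymm (by simpa using hx)
    intro g hg
    obtain ⟨k, hk⟩ := hx' ⟨g, hg⟩
    exact ⟨k, congrArg Subtype.val hk⟩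
  have htop : Subgroup.closure {x, y} = ⊤ := by
    rw [eq_top_iff, ← hK.sup_eq_top, ← hyz, ← hxz]
    simp only [sup_le_iff, Subgroup.zpowers_le]
    exact ⟨Subgroup.subset_closure (by simp), Subgroup.subset_closure (by simp)⟩
  have hmem : x⁻¹ * y * x ∈ Subgroup.zpowers y := by
    rw [hyz]; simpa using (inferInstance : (commutator G).Normal).conj_mem y hy x⁻¹
  obtain ⟨r₀, -, hr₀⟩ := Finset.mem_image.1 (mem_zpowers_iff_mem_range_orderOf.1 hmem)
  have hm0 := orderOf_pos y
  have hr : x⁻¹ * y * x = y ^ (r₀ + orderOf y) := by rw [pow_add, pow_orderOf_eq_one, mul_one, hr₀]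
  set r := r₀ + orderOf y with hrd
  refine ⟨x, y, _, _, r, htop, rfl, rfl, hr, ?_, ?_, by omega, ?_⟩
  · let N := Subgroup.zpowers (y ^ (r - 1))
    have hNle : N ≤ commutator G := by
      rw [← hyz]; simpa [N] using Subgroup.pow_mem _ (Subgroup.mem_zpowers y) _
    have hNn : N.Normal := H16.normal_of_le_isCyclic _ hNle
    have hcomm : commutator G ≤ N := by
      rw [← Subgroup.Normal.quotient_commutative_iff_commutator_le]
      have h1 : Subgroup.closure {(x : G ⧸ N), (y : G ⧸ N)} = ⊤ := by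
        have := MonoidHom.map_closure (QuotientGroup.mk' N) {x, y}
        rw [htop, Subgroup.map_top_of_surjective _ (QuotientGroup.mk'_surjective N)] at this
        rw [this, Set.image_pair]; rfl
      have h2 : (x : G ⧸ N) * y = y * x := by
        rw [← QuotientGroup.mk_mul, ← QuotientGroup.mk_mul, QuotientGroup.eq]
        have : (x * y)⁻¹ * (y * x) = y⁻¹ * (x⁻¹ * y * x) := by group
        rw [this, hr, show r = 1 + (r - 1) by omega, pow_add, pow_one, inv_mul_cancel_left]
        exact Subgroup.mem_zpowers _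
      have h3 : IsMulCommutative (Subgroup.closure ({(x : G ⧸ N), (y : G ⧸ N)} : Set (G ⧸ N))) := by
        apply Subgroup.isMulCommutative_closure
        rintro a (rfl | rfl) b (rfl | rfl)
        exacts [rfl, h2, h2.symm, rfl]
      refine ⟨⟨fun a b => ?_⟩⟩
      exact congrArg Subtype.val (h3.is_comm.comm ⟨a, h1 ▸ Subgroup.mem_top a⟩ ⟨b, h1 ▸ Subgroup.mem_top b⟩)
    have he : N = Subgroup.zpowers y := le_antisymm (hyz ▸ hNle) (hyz ▸ hcomm)
    have h1 : orderOf (y ^ (r - 1)) = orderOf y := by rw [← Nat.card_zpowers, ← Nat.card_zpowers, ← he]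
    rw [orderOf_pow] at h1
    have h2 := Nat.div_mul_cancel (Nat.gcd_dvd_left (orderOf y) (r - 1))
    rw [h1] at h2
    exact Nat.Coprime.symm (Nat.eq_of_mul_eq_mul_left hm0 (h2.trans (mul_one _).symm))
  · rw [← Nat.card_zpowers, ← Nat.card_zpowers, hxz, hyz, ← hK.symm.index_eq_card]
    exact hcop.symm
  · have h1 : ∀ j : ℕ, (x ^ j)⁻¹ * y * x ^ j = y ^ r ^ j := by
      intro j
      induction j with
      | zero => simp
      | succ j ih =>
        have e : (x ^ (j + 1))⁻¹ * y * x ^ (j + 1) = x⁻¹ * ((x ^ j)⁻¹ * y * x ^ j) * x := by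
          rw [pow_succ]; group
        have e2 : x⁻¹ * y ^ r ^ j * x = (x⁻¹ * y * x) ^ r ^ j := by
          have := map_pow (MulAut.conj x⁻¹) y (r ^ j)
          simpa using this
        rw [e, ih, e2, hr, ← pow_mul, pow_succ, mul_comm]
    have h2 := h1 (orderOf x)
    rw [pow_orderOf_eq_one, inv_one, one_mul, mul_one] at h2
    have h3 : y ^ r ^ orderOf x = y ^ 1 := by rw [pow_one]; exact h2.symm
    exact pow_eq_pow_iff_modEq.1 h3

end Cfsg.Agent.S3379
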