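import Mathlib
import Cfsg.Statements.S3382
import Cfsg.Agent.H08.Fus

set_option autoImplicit false
open Cfsg

namespace Cfsg.Agent.S3382

section
variable {F : Type*} [Field F]

def IsD (f : (Fin 2 → F) ≃ₗ[F] (Fin 2 → F)) (a b : F) : Prop := ∀ v, f v = ![a * v 0, b * v 1]
def IsA (f : (Fin 2 → F) ≃ₗ[F] (Fin 2 → F)) (a b : F) : Prop := ∀ v, f v = ![b * v 1, a * v 0]

variable {f g : (Fin 2 → F) ≃ₗ[F] (Fin 2 → F)} {a b c d : F}

theorem DD (h : IsD f a b) (k : IsD g c d) : IsD (f * g) (a * c) (b * d) := fun v => by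
  rw [LinearEquiv.mul_apply, k, h]; simp [mul_assoc]
theorem DA (h : IsD f a b) (k : IsA g c d) : IsA (f * g) (b * c) (a * d) := fun v => by
  rw [LinearEquiv.mul_apply, k, h]; simp [mul_assoc]
theorem AD (h : IsA f a b) (k : IsD g c d) : IsA (f * g) (a * c) (b * d) := fun v => by
  rw [LinearEquiv.mul_apply, k, h]; simp [mul_assoc]
theorem AA (h : IsA f a b) (k : IsA g c d) : IsD (f * g) (b * c) (a * d) := fun v => by
  rw [LinearEquiv.mul_apply, k, h]; simp [mul_assoc]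
theorem D_ext (h : IsD f a b) (k : IsD g a b) : f = g := LinearEquiv.ext fun v => by rw [h, k]
theorem A_ext (h : IsA f a b) (k : IsA g a b) : f = g := LinearEquiv.ext fun v => by rw [h, k]
theorem D_one : IsD (1 : (Fin 2 → F) ≃ₗ[F] (Fin 2 → F)) 1 1 := fun v => by
  ext i; fin_cases i <;> simp
theorem D_inj (h : IsD f a b) (k : IsD f c d) : a = c ∧ b = d := by
  have := (h ![1, 1]).symm.trans (k ![1, 1])
  exact ⟨by simpa using congrFun this 0, by simpa using congrFun this 1⟩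
theorem A_inj (h : IsA f a b) (k : IsA f c d) : a = c ∧ b = d := by
  have := (h ![1, 1]).symm.trans (k ![1, 1])
  exact ⟨by simpa using congrFun this 1, by simpa using congrFun this 0⟩
theorem not_DA (h : IsD f a b) (k : IsA f c d) (hc : c ≠ 0) : False := by
  have := (h ![1, 0]).symm.trans (k ![1, 0])
  exact hc (by simpa using (congrFun this 1).symm)
theorem D_pow (h : IsD f a b) (n : ℕ) : IsD (f ^ n) (a ^ n) (b ^ n) := by
  induction n with
  | zero => simpa using D_one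
  | succ n ih => rw [pow_succ, pow_succ, pow_succ]; exact DD ih h
theorem D_inv (h : IsD f a b) (ha : a ≠ 0) (hb : b ≠ 0) : IsD f⁻¹ a⁻¹ b⁻¹ := fun v => by
  show f.symm v = _
  rw [LinearEquiv.symm_apply_eq, h]
  ext i; fin_cases i <;> simp [ha, hb]
theorem D_congr (h : IsD f a b) (h1 : a = c) (h2 : b = d) : IsD f c d := h1 ▸ h2 ▸ h
theorem A_congr (h : IsA f a b) (h1 : a = c) (h2 : b = d) : IsA f c d := h1 ▸ h2 ▸ h
theorem exists_D (ha : a ≠ 0) (hb : b ≠ 0) : ∃ f : (Fin 2 → F) ≃ₗ[F] (Fin 2 → F), IsD f a b :=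
  ⟨LinearEquiv.piCongrRight fun i => LinearEquiv.smulOfNeZero F F (![a, b] i)
    (by fin_cases i <;> simpa), fun v => by ext i; fin_cases i <;> simp⟩
theorem exists_A : ∃ f : (Fin 2 → F) ≃ₗ[F] (Fin 2 → F), IsA f 1 1 :=
  ⟨LinearEquiv.funCongrLeft F F (Equiv.swap 0 1), fun v => by ext i; fin_cases i <;> simp⟩

end

/-- Let q = 2^m + 1 be a prime other than 5. Then the automorphism group of the group of linear maps of F_q² of the forms (x, y) ↦ (a x, ± a⁻¹ y) and (x, y) ↦ (± a⁻¹ y, a x) with a ≠ 0 is itself a 2-group. -/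
theorem result (q m : ℕ) [Fact q.Prime] (hq : q = 2 ^ m + 1) (hq5 : q ≠ 5)
    (T : Subgroup ((Fin 2 → ZMod q) ≃ₗ[ZMod q] (Fin 2 → ZMod q)))
    (hT : ∀ f, f ∈ T ↔ ∃ a s : ZMod q, a ≠ 0 ∧ (s = 1 ∨ s = -1) ∧
      ((∀ v, f v = ![a * v 0, s * a⁻¹ * v 1]) ∨ (∀ v, f v = ![s * a⁻¹ * v 1, a * v 0]))) :
    IsPGroup 2 (MulAut T) := by
  have hp : q.Prime := Fact.out
  have hT' : ∀ f, f ∈ T ↔ ∃ a b : ZMod q, (a * b = 1 ∨ a * b = -1) ∧ (IsD f a b ∨ IsA f a b) := by
    intro f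
    rw [hT]
    constructor
    · rintro ⟨a, s, ha, hs, h⟩
      refine ⟨a, s * a⁻¹, ?_, h⟩
      have : a * (s * a⁻¹) = s := by field_simp
      rwa [this]
    · rintro ⟨a, b, hab, h⟩
      have ha : a ≠ 0 := by
        rintro rfl
        simp at hab
      refine ⟨a, a * b, ha, hab, ?_⟩
      have : a * b * a⁻¹ = b := by field_simp
      rw [this]; exact h
  have hne : ∀ {a b : ZMod q}, (a * b = 1 ∨ a * b = -1) → a ≠ 0 ∧ b ≠ 0 := by
    intro a b h
    constructor <;> rintro rfl <;> simp at h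
  have hsq : ∀ {a b : ZMod q}, (a * b = 1 ∨ a * b = -1) → (a * b) ^ 2 = 1 := by
    rintro a b (h | h) <;> simp [h]
  have hferm : ∀ a : ZMod q, a ≠ 0 → a ^ 2 ^ m = 1 := fun a ha => by
    have := ZMod.pow_card_sub_one_eq_one ha
    rwa [show q - 1 = 2 ^ m from by rw [hq]; rfl] at this
  have hA4 : ∀ {f : (Fin 2 → ZMod q) ≃ₗ[ZMod q] (Fin 2 → ZMod q)} {a b : ZMod q},
      (a * b = 1 ∨ a * b = -1) → IsA f a b → f ^ 4 = 1 := by
    intro f a b hab h
    have := D_pow (AA h h) 2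
    rw [mul_comm b a, hsq hab, ← pow_two, ← pow_mul] at this
    exact D_ext this D_one
  have hP : IsPGroup 2 T := by
    rintro ⟨f, hf⟩
    obtain ⟨a, b, hab, h | h⟩ := (hT' f).1 hf
    · refine ⟨m, Subtype.ext ?_⟩
      have := D_pow h (2 ^ m)
      rw [hferm a (hne hab).1, hferm b (hne hab).2] at this
      exact D_ext this D_one
    · exact ⟨2, Subtype.ext (hA4 hab h)⟩
  have : Finite ((Fin 2 → ZMod q) ≃ₗ[ZMod q] (Fin 2 → ZMod q)) := DFunLike.finite _
  obtain ⟨w, hw⟩ := exists_D (F := ZMod q) (a := -1) (b := -1) (by simp) (by simp)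
  have hwT : w ∈ T := (hT' w).2 ⟨-1, -1, by simp, Or.inl hw⟩
  obtain ⟨σ, hσ⟩ := exists_A (F := ZMod q)
  have hσT : σ ∈ T := (hT' σ).2 ⟨1, 1, by simp, Or.inr hσ⟩
  refine H08.isPGroup_of_odd fun α hα => ?_
  by_cases hm0 : m = 0
  · have hq2 : q = 2 := by rw [hq, hm0]; rfl
    have h1 : ∀ a : ZMod q, a ≠ 0 → a = 1 := fun a ha => by simpa [hm0] using hferm a ha
    have h2 : ∀ x : T, x ≠ 1 → x = ⟨σ, hσT⟩ := by
      rintro ⟨f, hf⟩ hx
      obtain ⟨a, b, hab, h | h⟩ := (hT' f).1 hf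
      · rw [h1 a (hne hab).1, h1 b (hne hab).2] at h
        exact absurd (Subtype.ext (D_ext h D_one)) hx
      · rw [h1 a (hne hab).1, h1 b (hne hab).2] at h
        exact Subtype.ext (A_ext h hσ)
    ext1 x
    by_cases hx : x = 1
    · simp [hx]
    · exact (h2 _ (by simpa using hx)).trans (h2 x hx).symm
  have h2 : (2 : ZMod q) ≠ 0 := by
    intro h
    have h3 : q ∣ 2 := (ZMod.natCast_eq_zero_iff 2 q).1 (by exact_mod_cast h)
    have := Nat.le_of_dvd (by norm_num) h3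
    have : 2 ≤ 2 ^ m := Nat.le_self_pow hm0 2
    omega
  have h11 : (1 : ZMod q) ≠ -1 := fun h => h2 (by linear_combination h)
  obtain ⟨δ, hδ⟩ := exists_D (F := ZMod q) (a := 1) (b := -1) (by simp) (by simp)
  have hδT : δ ∈ T := (hT' δ).2 ⟨1, -1, by simp, Or.inl hδ⟩
  have hcen : ∀ x : T, x ∈ Subgroup.center T → ∃ a, IsD (x : (Fin 2 → ZMod q) ≃ₗ[ZMod q] _) a a := by
    rintro ⟨f, hf⟩ hx
    obtain ⟨a, b, hab, h | h⟩ := (hT' f).1 hf
    · have e : σ * f = f * σ := congrArg Subtype.val (Subgroup.mem_center_iff.1 hx ⟨σ, hσT⟩)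
      have := A_inj (e ▸ AD hσ h) (DA h hσ)
      have e2 : a = b := by simpa using this.1
      exact ⟨a, by rw [← e2] at h; exact h⟩
    · have e : δ * f = f * δ := congrArg Subtype.val (Subgroup.mem_center_iff.1 hx ⟨δ, hδT⟩)
      have := (A_inj (e ▸ DA hδ h) (AD h hδ)).1
      exact absurd (mul_right_cancel₀ (hne hab).1 (by linear_combination -this)) h11
  have hwc : (⟨w, hwT⟩ : T) ∈ Subgroup.center T := by
    rw [Subgroup.mem_center_iff]
    rintro ⟨f, hf⟩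
    obtain ⟨a, b, hab, h | h⟩ := (hT' f).1 hf
    · exact Subtype.ext (D_ext (DD h hw) (by simpa using DD hw h))
    · exact Subtype.ext (A_ext (AD h hw) (by simpa using DA hw h))
  have hw2 : (⟨w, hwT⟩ : T) * ⟨w, hwT⟩ = 1 := Subtype.ext (D_ext (DD hw hw) (by simpa using D_one))
  have hw1 : (⟨w, hwT⟩ : T) ≠ 1 := fun e => by
    have e : w = 1 := congrArg Subtype.val e
    exact h11 (D_inj D_one (e ▸ hw)).1
  have hαc : ∀ x, α x ∈ Subgroup.center T ↔ x ∈ Subgroup.center T := fun x => by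
    have := Subgroup.characteristic_iff_comap_eq.1 (inferInstance : (Subgroup.center T).Characteristic) α
    conv_rhs => rw [← this]
    rfl
  have hinv : ∀ x : T, x ∈ Subgroup.center T → x * x = 1 → x ≠ 1 → x = ⟨w, hwT⟩ := by
    intro x hx h1 h2
    obtain ⟨a, ha⟩ := hcen x hx
    have e : x.1 * x.1 = 1 := congrArg Subtype.val h1
    have := (D_inj (e ▸ DD ha ha) D_one).1
    rcases mul_self_eq_one_iff.1 this with rfl | rfl
    · exact absurd (Subtype.ext (D_ext ha D_one)) h2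
    · exact Subtype.ext (D_ext ha hw)
  have hαw : α ⟨w, hwT⟩ = ⟨w, hwT⟩ :=
    hinv _ ((hαc _).2 hwc) (by rw [← map_mul, hw2, map_one]) (by simpa using hw1)
  by_cases hm1 : m = 1
  · have h1 : ∀ a : ZMod q, a ≠ 0 → a = 1 ∨ a = -1 := fun a ha =>
      mul_self_eq_one_iff.1 (by simpa [hm1, pow_two] using hferm a ha)
    let W : Subgroup T :=
      { carrier := {x | ∃ a b, a ≠ 0 ∧ b ≠ 0 ∧ ((IsD (x : (Fin 2 → ZMod q) ≃ₗ[ZMod q] _) a b ∧ a = b) ∨
          (IsA (x : (Fin 2 → ZMod q) ≃ₗ[ZMod q] _) a b ∧ a = -b))}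
        one_mem' := ⟨1, 1, one_ne_zero, one_ne_zero, Or.inl ⟨D_one, rfl⟩⟩
        mul_mem' := by
          rintro x y ⟨a, b, ha, hb, h⟩ ⟨c, d, hc, hd, k⟩
          rcases h with ⟨h, rfl⟩ | ⟨h, rfl⟩ <;> rcases k with ⟨k, rfl⟩ | ⟨k, rfl⟩
          · exact ⟨_, _, mul_ne_zero ha hc, mul_ne_zero ha hc, Or.inl ⟨DD h k, rfl⟩⟩
          · exact ⟨_, _, mul_ne_zero ha hc, mul_ne_zero ha hd, Or.inr ⟨DA h k, by ring⟩⟩
          · exact ⟨_, _, mul_ne_zero ha hc, mul_ne_zero hb hc, Or.inr ⟨AD h k, by ring⟩⟩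
          · exact ⟨_, _, mul_ne_zero hb hc, mul_ne_zero ha hd, Or.inl ⟨AA h k, by ring⟩⟩
        inv_mem' := by
          rintro x ⟨a, b, ha, hb, ⟨h, rfl⟩ | ⟨h, rfl⟩⟩
          · exact ⟨_, _, inv_ne_zero ha, inv_ne_zero ha, Or.inl ⟨D_inv h ha ha, rfl⟩⟩
          · have h3 := DA (D_inv (AA h h) (mul_ne_zero hb ha) (mul_ne_zero ha hb)) h
            refine ⟨_, _, mul_ne_zero (inv_ne_zero (mul_ne_zero ha hb)) ha,
              mul_ne_zero (inv_ne_zero (mul_ne_zero hb ha)) hb, Or.inr ⟨by simpa using h3, ?_⟩⟩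
            field_simp }
    have hW : ∀ x : T, x ∈ W ↔ x ∈ Subgroup.center T ∨ x * x ≠ 1 := by
      rintro ⟨f, hf⟩
      constructor
      · rintro ⟨a, b, ha, hb, ⟨h, rfl⟩ | ⟨h, rfl⟩⟩
        · left
          rcases h1 a ha with rfl | rfl
          · rw [show (⟨f, hf⟩ : T) = 1 from Subtype.ext (D_ext h D_one)]; exact Subgroup.one_mem _
          · rw [show (⟨f, hf⟩ : T) = ⟨w, hwT⟩ from Subtype.ext (D_ext h hw)]; exact hwc
        · right
          intro e
          have e : f * f = 1 := congrArg Subtype.val e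
          have := (D_inj (e ▸ AA h h) D_one).1
          rcases h1 b hb with rfl | rfl <;> exact h11 (by linear_combination -this)
      · rintro (h | h)
        · obtain ⟨a, ha⟩ := hcen _ h
          obtain ⟨c, d, hcd, k | k⟩ := (hT' f).1 hf
          · have := D_inj ha k
            exact ⟨c, d, (hne hcd).1, (hne hcd).2, Or.inl ⟨k, this.1.symm.trans this.2⟩⟩
          · exact (not_DA ha k (hne hcd).1).elim
        · obtain ⟨c, d, hcd, k | k⟩ := (hT' f).1 hf
          · refine absurd (Subtype.ext (D_ext (DD k k) ?_)) h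
            rcases h1 c (hne hcd).1 with rfl | rfl <;> rcases h1 d (hne hcd).2 with rfl | rfl <;>
              simpa using D_one
          · refine ⟨c, d, (hne hcd).1, (hne hcd).2, Or.inr ⟨k, ?_⟩⟩
            by_contra hh
            refine h (Subtype.ext (D_ext (AA k k) ?_))
            rcases h1 c (hne hcd).1 with rfl | rfl <;> rcases h1 d (hne hcd).2 with rfl | rfl <;>
              first | (simpa using D_one) | simp at hh
    refine H08.aut_eq_one hP hα (W := W) ?_ ?_ ?_ hαw ?_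
    · rintro x ⟨a, b, ha, hb, h⟩ y ⟨c, d, hc, hd, k⟩
      rcases h with ⟨h, rfl⟩ | ⟨h, rfl⟩ <;> rcases k with ⟨k, rfl⟩ | ⟨k, rfl⟩
      · exact Subtype.ext (D_ext (DD h k) (D_congr (DD k h) (by ring) (by ring)))
      · exact Subtype.ext (A_ext (DA h k) (A_congr (AD k h) (by ring) (by ring)))
      · exact Subtype.ext (A_ext (AD h k) (A_congr (DA k h) (by ring) (by ring)))
      · exact Subtype.ext (D_ext (AA h k) (D_congr (AA k h) (by ring) (by ring)))
    · intro x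
      rw [hW, hW, hαc, ← map_mul, α.map_ne_one_iff]
    · rintro ⟨f, hf⟩ hx ⟨g, hg⟩ hy
      obtain ⟨a, b, hab, h⟩ := (hT' f).1 hf
      obtain ⟨c, d, hcd, k⟩ := (hT' g).1 hg
      have ha := (hne hab).1
      have hb := (hne hab).2
      have hc := (hne hcd).1
      have hd := (hne hcd).2
      have key : ∀ a b : ZMod q, a ≠ 0 → b ≠ 0 → a = b ∨ a = -b := fun a b ha hb => by
        rcases h1 a ha with rfl | rfl <;> rcases h1 b hb with rfl | rfl <;> simp
      rcases h with h | h <;> rcases k with k | k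
      · have e1 := (key a b ha hb).resolve_left fun e => hx ⟨a, b, ha, hb, Or.inl ⟨h, e⟩⟩
        have e2 := (key c d hc hd).resolve_left fun e => hy ⟨c, d, hc, hd, Or.inl ⟨k, e⟩⟩
        exact ⟨_, _, mul_ne_zero ha hc, mul_ne_zero hb hd, Or.inl ⟨DD h k, by rw [e1, e2]; ring⟩⟩
      · have e1 := (key a b ha hb).resolve_left fun e => hx ⟨a, b, ha, hb, Or.inl ⟨h, e⟩⟩
        have e2 := (key c d hc hd).resolve_right fun e => hy ⟨c, d, hc, hd, Or.inr ⟨k, e⟩⟩
        exact ⟨_, _, mul_ne_zero hb hc, mul_ne_zero ha hd, Or.inr ⟨DA h k, by rw [e1, e2]; ring⟩⟩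
      · have e1 := (key a b ha hb).resolve_right fun e => hx ⟨a, b, ha, hb, Or.inr ⟨h, e⟩⟩
        have e2 := (key c d hc hd).resolve_left fun e => hy ⟨c, d, hc, hd, Or.inl ⟨k, e⟩⟩
        exact ⟨_, _, mul_ne_zero ha hc, mul_ne_zero hb hd, Or.inr ⟨AD h k, by rw [e1, e2]; ring⟩⟩
      · have e1 := (key a b ha hb).resolve_right fun e => hx ⟨a, b, ha, hb, Or.inr ⟨h, e⟩⟩
        have e2 := (key c d hc hd).resolve_right fun e => hy ⟨c, d, hc, hd, Or.inr ⟨k, e⟩⟩
        exact ⟨_, _, mul_ne_zero hb hc, mul_ne_zero ha hd, Or.inl ⟨AA h k, by rw [e1, e2]⟩⟩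
    · intro u hu h1 h2 h3
      exact absurd (hinv u (((hW u).1 hu).resolve_right (by simpa using h1)) h1 h2) h3
  · have hm2 : m ≠ 2 := by rintro rfl; exact hq5 hq
    have hm3 : 3 ≤ m := by omega
    obtain ⟨γ, hγ⟩ := IsCyclic.exists_ofOrder_eq_natCard (α := (ZMod q)ˣ)
    have hγ4 : (γ : ZMod q) ^ 4 ≠ 1 := by
      intro h
      have : γ ^ 4 = 1 := Units.ext (by simpa using h)
      have h4 := Nat.le_of_dvd (by norm_num) (orderOf_dvd_of_pow_eq_one this)
      rw [hγ, Nat.card_eq_fintype_card, ZMod.card_units] at h4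
      have : 2 ^ 3 ≤ 2 ^ m := Nat.pow_le_pow_right (by norm_num) hm3
      omega
    let W : Subgroup T :=
      { carrier := {x | ∃ a b, a ≠ 0 ∧ b ≠ 0 ∧ IsD (x : (Fin 2 → ZMod q) ≃ₗ[ZMod q] _) a b}
        one_mem' := ⟨1, 1, one_ne_zero, one_ne_zero, D_one⟩
        mul_mem' := by
          rintro x y ⟨a, b, ha, hb, h⟩ ⟨c, d, hc, hd, k⟩
          exact ⟨_, _, mul_ne_zero ha hc, mul_ne_zero hb hd, DD h k⟩
        inv_mem' := by
          rintro x ⟨a, b, ha, hb, h⟩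
          exact ⟨_, _, inv_ne_zero ha, inv_ne_zero hb, D_inv h ha hb⟩ }
    have hW4 : ∀ x : T, x ^ 4 ≠ 1 → x ∈ W := by
      rintro ⟨f, hf⟩ hx
      obtain ⟨a, b, hab, h | h⟩ := (hT' f).1 hf
      · exact ⟨a, b, (hne hab).1, (hne hab).2, h⟩
      · exact absurd (Subtype.ext (hA4 hab h)) hx
    obtain ⟨τ, hτ⟩ := exists_D (F := ZMod q) γ.ne_zero (inv_ne_zero γ.ne_zero)
    have hτT : τ ∈ T := (hT' τ).2 ⟨_, _, Or.inl (mul_inv_cancel₀ γ.ne_zero), Or.inl hτ⟩
    have hτ4 : (⟨τ, hτT⟩ : T) ^ 4 ≠ 1 := fun e => by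
      have e : τ ^ 4 = 1 := congrArg Subtype.val e
      exact hγ4 (D_inj (e ▸ D_pow hτ 4) D_one).1
    have hc : ∀ x ∈ W, ∀ y ∈ W, x * y = y * x := by
      rintro x ⟨a, b, ha, hb, h⟩ y ⟨c, d, hc, hd, k⟩
      exact Subtype.ext (D_ext (DD h k) (D_congr (DD k h) (by ring) (by ring)))
    have hβ : ∀ β : MulAut T, ∀ x ∈ W, β x ∈ W := by
      intro β x hx
      have h4 : ∀ y : T, y ^ 4 ≠ 1 → β y ∈ W := fun y hy => hW4 _ (by rw [← map_pow, β.map_ne_one_iff]; exact hy)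
      by_cases h : x ^ 4 = 1
      · have h5 : (x * ⟨τ, hτT⟩) ^ 4 ≠ 1 := by
          rw [Commute.mul_pow (hc x hx _ (hW4 _ hτ4)), h, one_mul]; exact hτ4
        have := W.mul_mem (h4 _ h5) (W.inv_mem (h4 _ hτ4))
        simpa using this
      · exact h4 x h
    refine H08.aut_eq_one hP hα (W := W) hc (fun x => ⟨fun h => by simpa using hβ α⁻¹ _ h, hβ α x⟩)
      ?_ hαw ?_
    · rintro ⟨f, hf⟩ hx ⟨g, hg⟩ hy
      obtain ⟨a, b, hab, h | h⟩ := (hT' f).1 hf
      · exact absurd ⟨a, b, (hne hab).1, (hne hab).2, h⟩ hx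
      obtain ⟨c, d, hcd, k | k⟩ := (hT' g).1 hg
      · exact absurd ⟨c, d, (hne hcd).1, (hne hcd).2, k⟩ hy
      exact ⟨_, _, mul_ne_zero (hne hab).2 (hne hcd).1, mul_ne_zero (hne hab).1 (hne hcd).2, AA h k⟩
    · have key : ∀ u ∈ W, u * u = 1 → u ≠ 1 → u ≠ ⟨w, hwT⟩ →
          IsD (u : (Fin 2 → ZMod q) ≃ₗ[ZMod q] _) 1 (-1) ∨ IsD (u : (Fin 2 → ZMod q) ≃ₗ[ZMod q] _) (-1) 1 := by
        rintro u ⟨a, b, -, -, h⟩ h1 h2 h3
        have e : u.1 * u.1 = 1 := congrArg Subtype.val h1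
        have := D_inj (e ▸ DD h h) D_one
        rcases mul_self_eq_one_iff.1 this.1 with rfl | rfl <;>
          rcases mul_self_eq_one_iff.1 this.2 with rfl | rfl
        · exact absurd (Subtype.ext (D_ext h D_one)) h2
        · exact Or.inl h
        · exact Or.inr h
        · exact absurd (Subtype.ext (D_ext h hw)) h3
      intro u hu h1 h2 h3 v hv k1 k2 k3
      rcases key u hu h1 h2 h3 with h | h <;> rcases key v hv k1 k2 k3 with k | k
      · exact Or.inl (Subtype.ext (D_ext k h))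
      · exact Or.inr (Subtype.ext (D_ext k (by simpa using DD hw h)))
      · exact Or.inr (Subtype.ext (D_ext k (by simpa using DD hw h)))
      · exact Or.inl (Subtype.ext (D_ext k h))

end Cfsg.Agent.S3382
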