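import Cfsg.Statements.S3383
import Cfsg.Agent.H02.Frobenius
-- import your own Cfsg.Agent.* helpers here

set_option autoImplicit false
open Cfsg

namespace Cfsg.Agent.S3383

/-- Let H be a Frobenius complement in a finite group L and K the Frobenius kernel (as a subgroup). Then K is characteristic in L, and every normal subgroup of L either contains K or is contained in K. -/
theorem result {L : Type*} [Group L] [Finite L]
    (H : Subgroup L) (hH : Cfsg.IsFrobeniusComplement H)
    (K : Subgroup L) (hK : (K : Set L) = Cfsg.frobeniusKernel H) :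
    K.Characteristic ∧ ∀ N : Subgroup L, N.Normal → K ≤ N ∨ N ≤ K := by
  refine ⟨Subgroup.characteristic_iff_le_comap.mpr fun φ x hx => ?_,
    fun N hN => (H02.IsFrob.le_or_ge_of_normal hH hK N).symm⟩
  have h1 : ∀ y, y ∈ K ↔ y ^ H.index = 1 := fun y => by
    rw [← H02.IsFrob.mem_kernel_iff_pow hH, ← hK]; rfl
  rw [Subgroup.mem_comap, h1, ← map_pow, (h1 x).mp hx, map_one]

end Cfsg.Agent.S3383
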