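import Mathlib
import Cfsg.Statements.S3421
import Cfsg.Agent.H18.ZK
import Cfsg.Agent.H18.ExpTI
import Cfsg.Agent.L.PSL2Sub

set_option autoImplicit false
open scoped Pointwise
open Cfsg

namespace Cfsg.Agent.S3421

open Subgroup MulAction H18 L.Dk
open scoped IsMulCommutative

/-- Let F be a finite field with more than 3 elements. A finite group G is isomorphic to PSL(2, F) if and only if G has the same set of element orders and the same order as PSL(2, F). -/
theorem result {G : Type*} [Group G] [Finite G] {F : Type*} [Field F] [Fintype F] (hF : 3 < Fintype.card F) :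
    Nonempty (G ≃* Matrix.ProjectiveSpecialLinearGroup (Fin 2) F) ↔
      (Set.range (orderOf : G → ℕ) = Set.range (orderOf : Matrix.ProjectiveSpecialLinearGroup (Fin 2) F → ℕ) ∧
        Nat.card G = Nat.card (Matrix.ProjectiveSpecialLinearGroup (Fin 2) F)) := by
  refine ⟨fun ⟨e⟩ => ⟨?_, Nat.card_congr e.toEquiv⟩, fun ⟨ho, hc⟩ => ?_⟩
  · exact Set.ext fun n => ⟨fun ⟨x, hx⟩ => ⟨e x, (e.orderOf_eq x).trans hx⟩,
      fun ⟨x, hx⟩ => ⟨e.symm x, (e.symm.orderOf_eq x).trans hx⟩⟩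
  obtain ⟨p, hp, f, -, hf⟩ : ∃ p, p.Prime ∧ ∃ f, CharP F p ∧ Fintype.card F = p ^ f ∧ CharP F p := by
    obtain ⟨p, h, f, h1, h2⟩ := FiniteField.card' F
    exact ⟨p, h1, f, h, h2, h⟩
  obtain ⟨hf, hch⟩ := hf
  haveI := Fact.mk hp
  have hG := card_psl (F := F)
  obtain ⟨a, ha⟩ := dd_dvd_sub (F := F)
  have hd := dd_cases (F := F)
  obtain ⟨g, hg⟩ := exists_orderOf_add (F := F)
  obtain ⟨g, hg'⟩ := ho.ge ⟨g, rfl⟩
  rw [← hg'] at hg
  have hO : OrdP p G := fun x hx => by
    obtain ⟨y, hy⟩ := ho.le ⟨x, rfl⟩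
    have hq := char_dvd_card (F := F) p
    rw [← hy] at hx ⊢
    rcases orderOf_psl p y with e | e | e
    · exact Nat.dvd_antisymm (orderOf_dvd_of_pow_eq_one e) hx
    · exact absurd (Nat.dvd_one.1 ((Nat.dvd_add_right ((hx.mul_left _).trans e)).1
        (by rwa [Nat.sub_add_cancel (by omega)]))) hp.ne_one
    · exact absurd (Nat.dvd_one.1 ((Nat.dvd_add_right hq).1 ((hx.mul_left _).trans e))) hp.ne_one
  set q := Fintype.card F with hq
  have pq : p ∣ q := hf ▸ dvd_pow_self p (by rintro rfl; rw [pow_zero] at hf; omega)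
  have a0 : 0 < a := Nat.pos_of_ne_zero (by rintro rfl; omega)
  replace hG : Nat.card G = q * (a * (q + 1)) := by
    rw [hc]
    refine Nat.eq_of_mul_eq_mul_left (dd_pos (F := F)) (hG.trans ?_)
    rw [show q ^ 2 - 1 = (q - 1) * (q + 1) by rw [mul_comm, ← Nat.sq_sub_sq q 1], ha]; ring
  obtain ⟨P⟩ : Nonempty (Sylow p G) := inferInstance
  have hP : Nat.card P = q := by
    rw [P.card_eq_multiplicity, hG, Nat.factorization_mul (by omega) (by positivity), Finsupp.add_apply,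
      Nat.factorization_eq_zero_of_not_dvd (n := a * _), hf, Nat.factorization_pow_self hp, add_zero]
    intro h
    rcases (Nat.Prime.dvd_mul hp).1 h with h | h
    · exact hp.ne_one (Nat.dvd_one.1 ((Nat.dvd_add_right (ha ▸ h.mul_left _ : p ∣ q - 1)).1
        (by rwa [Nat.sub_add_cancel (by omega)])))
    · exact hp.ne_one (Nat.dvd_one.1 ((Nat.dvd_add_right pq).1 h))
  have hti := hO.ti P
  have hn : Nat.card (Sylow p G) = Nat.card P + 1 := by
    have h1 := modEq_of_ti P hti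
    obtain ⟨m, hm⟩ := P.card_dvd_index
    have h2 := (P : Subgroup G).card_mul_index
    rw [hP] at h1 ⊢
    rw [hP, hG, Nat.mul_right_inj (by omega), hm] at h2
    by_cases h3 : Nat.card (Sylow p G) = 1
    · exfalso
      haveI := (Nat.card_eq_one_iff_unique.1 h3).1
      have hN := P.normal_of_subsingleton
      obtain ⟨⟨z, hz⟩, z1⟩ := ne_bot_iff_exists_ne_one.1 (show (P : Subgroup G) ≠ ⊥ from fun e => by
        rw [e, card_bot] at hP; omega)
      have h4 := H19.card_conj_mul_card_centralizer z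
      have h5 : Nat.card {g : G // IsConj z g} ≤ Nat.card P := Nat.card_le_card_of_injective
        (fun g => ⟨g.1, by obtain ⟨c, e⟩ := isConj_iff.1 g.2; exact e ▸ hN.conj_mem z hz c⟩)
        fun _ _ e => Subtype.ext (congrArg (fun x : P => (x : G)) e)
      obtain ⟨S, h6⟩ := (H02.isPGroup_of_pow_eq_one fun s hs => hO.pow_of_comm (fun e => z1 (Subtype.ext e))
        (hO.pow_of_pGroup P.2 hz) (mem_centralizer_singleton_iff.1 hs).symm).exists_le_sylow
      replace h6 := card_le_of_le (Subsingleton.elim S P ▸ h6)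
      have h7 := Nat.mul_le_mul h5 h6
      rw [h4, hP, hG] at h7
      have := Nat.le_of_mul_le_mul_left h7 (by omega)
      nlinarith
    obtain ⟨k, hk⟩ := (Nat.modEq_iff_dvd' Nat.card_pos).1 h1.symm
    have := Nat.card_pos (α := Sylow p G)
    obtain ⟨k, rfl⟩ := Nat.exists_eq_succ_of_ne_zero (show k ≠ 0 by rintro rfl; omega)
    rw [show Nat.card (Sylow p G) = q * (k + 1) + 1 by rw [← Nat.succ_eq_add_one k]; omega] at h2 ⊢
    obtain ⟨r, hr⟩ : ∃ r, q = r + 1 := ⟨q - 1, by omega⟩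
    rw [hr, Nat.add_sub_cancel] at ha
    have h3 : ((q * (k + 1) + 1) * (m * dd F) + 1 : ℕ) = q * q := by
      rw [← mul_assoc, h2, hr, ha]; ring
    have h4 : q ∣ m * dd F + 1 := (Nat.dvd_add_right (Dvd.intro ((k + 1) * (m * dd F)) rfl)).1
      ⟨q, by rw [← h3]; ring⟩
    have h5 := Nat.le_of_dvd (Nat.succ_pos _) h4
    rcases k with _ | k
    · simp
    nlinarith
  have hK := isKer_sylow P hti hn
  have hz : Z3 G (Sylow p G) := hK.z3 fun g hg k hk k1 e => by
    have h1 : zpowers g ≤ normalizer (P : Set G) := zpowers_le.2 (Sylow.smul_eq_iff_mem_normalizer.1 hg)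
    have h2 := hO.pow_of_comm k1 (hO.pow_of_pGroup P.2 hk) e.symm
    have h3 := (H02.isPGroup_of_pow_eq_one (N := zpowers g) (by
      rintro _ ⟨n, rfl⟩
      rw [← zpow_natCast, ← zpow_mul, mul_comm, zpow_mul, zpow_natCast, h2, one_zpow])).inf_normalizer_sylow P
    rw [inf_of_le_left h1] at h3
    exact (h3.le (mem_zpowers g)).2
  haveI := Fintype.ofFinite (Sylow p G)
  rw [Nat.card_eq_fintype_card, hP] at hn
  obtain ⟨Q, hQ⟩ := Fintype.exists_ne_of_one_lt_card (by omega) P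
  have hs : Nat.card (st2 G P Q) = a := by
    have := hK.card_group hz hQ.symm
    rw [hP, hG] at this
    exact Nat.eq_of_mul_eq_mul_left (show 0 < (q + 1) * q by positivity) (by rw [← this]; ring)
  haveI := (hK.elemAb_of_large hz hQ.symm (fun e => by rw [e, card_bot] at hP; omega) (by
    rcases hd with ⟨-, e⟩ | ⟨-, e⟩ <;> rw [e] at ha <;> omega)).1
  rcases hK.zk_main hz (by omega) hQ.symm with ⟨h, h1⟩ | ⟨-, K, _, _, -, h, ⟨e⟩⟩ | ⟨r, j, hr, -, hj, K, _, _, Kp, tr, reg⟩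
  · have he : Even q := by rcases hd with ⟨e, -⟩ | ⟨-, e⟩; exact Nat.even_iff.2 e; rw [e] at ha; omega
    obtain ⟨e⟩ := (h.pgl2_of_odd (by omega) (hn ▸ he.add_one)).2 F hn.symm
    obtain ⟨e'⟩ := H19.nonempty_psl_equiv_pgl_of_even he
    exact ⟨e.trans e'.symm⟩
  · obtain ⟨e'⟩ := H09.nonempty_psl_equiv_of_card_eq (ι := Fin 2) (F := K) (K := F) (by omega)
    exact ⟨e.trans e'⟩
  exfalso
  have hKc : Nat.card K = q + 1 := by
    rw [← hn, ← Nat.card_eq_fintype_card]
    exact Nat.card_congr (Equiv.ofBijective (fun n : K => (n : G) • P)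
      ⟨fun x y e => Subtype.ext (regular_unique (reg P) x.2 y.2 e), tr.1 P⟩)
  rcases hd with ⟨he, -⟩ | ⟨he, e⟩
  · obtain rfl : p = 2 := by
      by_contra h
      have := (hp.odd_of_ne_two h).pow (n := f)
      rw [← hf, Nat.odd_iff] at this
      omega
    have k1 : ∀ t ∈ (P : Subgroup G), t ≠ 1 → ∀ k ∈ K, t * k = k * t → k = 1 := fun t ht t1 k hk e => orderOf_eq_one_iff.1
      (Nat.eq_one_of_dvd_coprimes (Nat.coprime_two_left.2 (Nat.odd_iff.2 (by omega)))
        (orderOf_dvd_of_pow_eq_one (hO.pow_of_comm t1 (hO.pow_of_pGroup P.2 ht) e)) (hKc ▸ orderOf_dvd_natCard K hk))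
    have k2 : ∀ t ∈ (P : Subgroup G), t ≠ 1 → ∀ k ∈ K, t * k * t⁻¹ = k⁻¹ := fun t ht t1 k hk =>
      H02.fpf_involution_inverts (by rw [normalizer_eq_top]; trivial) (by rw [← sq, hO.pow_of_pGroup P.2 ht])
        (H02.fpf_iff.2 (k1 t ht t1)) hk
    obtain ⟨⟨k, hk⟩, k3⟩ := ne_bot_iff_exists_ne_one.1 (show K ≠ ⊥ from fun e => by rw [e, card_bot] at hKc; omega)
    haveI := Fintype.ofFinite P
    obtain ⟨s, t, s1, t1, st⟩ : ∃ s t : P, s ≠ 1 ∧ t ≠ 1 ∧ s ≠ t := by
      obtain ⟨x, y, z, a, b, c⟩ := Fintype.two_lt_card_iff.1 (show 2 < Fintype.card P by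
        rw [← Nat.card_eq_fintype_card]; omega)
      exact ⟨x⁻¹ * y, x⁻¹ * z, by simpa [inv_mul_eq_one], by simpa [inv_mul_eq_one], by simpa⟩
    refine k3 (Subtype.ext (k1 _ (s⁻¹ * t).2 (fun e => st (inv_mul_eq_one.1 (Subtype.ext e))) k hk ?_))
    have := (k2 s s.2 (fun e => s1 (Subtype.ext e)) k hk).trans (k2 t t.2 (fun e => t1 (Subtype.ext e)) k hk).symm
    calc (s : G)⁻¹ * t * k = (s : G)⁻¹ * (t * k * (t : G)⁻¹) * t := by group
      _ = k * ((s : G)⁻¹ * t) := by rw [← this]; group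
  rw [e] at ha hg
  obtain rfl : r = 2 := by
    by_contra h
    have := (hr.odd_of_ne_two h).pow (n := j)
    rw [← hj, Nat.odd_iff] at this
    omega
  have h1 := K.card_mul_index
  rw [hKc, hG, show q * (a * (q + 1)) = (q + 1) * (q * a) by ring, Nat.mul_right_inj (by omega)] at h1
  have h2 : (orderOf g).Coprime K.index := by
    rw [h1, show q = a + orderOf g by omega, Nat.coprime_mul_iff_right, Nat.coprime_add_self_right, and_self,
      show orderOf g = a + 1 by omega]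
    simp
  have := Nat.le_of_dvd two_pos (orderOf_dvd_of_pow_eq_one (Kp g ((QuotientGroup.eq_one_iff g).1 (orderOf_eq_one_iff.1
    (Nat.eq_one_of_dvd_coprimes h2 (orderOf_map_dvd (QuotientGroup.mk' K) g) (orderOf_dvd_natCard _))))))
  omega

end Cfsg.Agent.S3421
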