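import Mathlib
import Cfsg.Statements.S3427
import Cfsg.Agent.H19.G2e

set_option autoImplicit false
open Cfsg

namespace Cfsg.Agent.S3427

/-- Let F be the field with 2 elements and let M be the Chevalley group of type G₂ over F (a non-simple group of order 12096 whose derived subgroup, of index 2, is isomorphic to PSU(3, 3)). A finite group G is isomorphic to M if and only if G has the same set of element orders and the same order as M. -/
theorem result {G : Type*} [Group G] [Finite G] {F : Type*} [Field F] [Fintype F] (hF : Fintype.card F = 2) :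
    Nonempty (G ≃* ↥(Cfsg.Lie.chevG2.group F)) ↔
      (Set.range (orderOf : G → ℕ) = Set.range (orderOf : ↥(Cfsg.Lie.chevG2.group F) → ℕ) ∧ Nat.card G = Nat.card ↥(Cfsg.Lie.chevG2.group F)) := by
  have M := H19.G22.g2H F hF
  have : Finite (Cfsg.Lie.chevG2.group F) := Nat.finite_of_card_ne_zero (by rw [M.card]; norm_num)
  refine ⟨fun ⟨e⟩ => ⟨Set.ext fun n => ⟨fun ⟨g, h⟩ => ⟨e g, (e.orderOf_eq g).trans h⟩,
    fun ⟨g, h⟩ => ⟨e.symm g, (e.symm.orderOf_eq g).trans h⟩⟩, Nat.card_congr e.toEquiv⟩, fun ⟨h1, h2⟩ => ?_⟩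
  have key : ∀ k, (∀ x : Cfsg.Lie.chevG2.group F, orderOf x ≠ k) → ∀ g : G, orderOf g ≠ k := fun k h g e => by
    obtain ⟨x, hx⟩ := h1.le ⟨g, e⟩
    exact h x hx
  exact H19.G2H.equiv ⟨h2.trans M.card, key 9 M.ne9, key 14 M.ne14, key 21 M.ne21⟩ M

end Cfsg.Agent.S3427
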