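import Mathlib
import Cfsg.Statements.S3431
import Cfsg.Agent.H05.Nse

set_option autoImplicit false
open Cfsg

namespace Cfsg.Agent.S3431

open H02.NS in
theorem vals_eq {G : Type*} [Group G] [Finite G] (T : Finset ℕ) (h : ∑ d ∈ T, s G d = Nat.card G) (h0 : ∀ d ∈ T, s G d ≠ 0) :
    vals G = (T.image (s G) : Set ℕ) := by
  ext a
  simp only [Finset.coe_image, Set.mem_image, Finset.mem_coe]
  refine ⟨fun ha => ?_, by rintro ⟨d, hd, rfl⟩; exact mem_vals (h0 d hd)⟩
  obtain ⟨m, rfl, hm⟩ := vals_ex ha
  refine ⟨m, by_contra fun c => hm ?_, rfl⟩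
  have : ∑ d ∈ insert m T, s G d ≤ ∑ d ∈ (Nat.card G).divisors, s G d :=
    Finset.sum_le_sum_of_ne_zero fun d _ hd => Nat.mem_divisors.2 ⟨dvd_of_s hd, Nat.card_pos.ne'⟩
  rw [Finset.sum_insert c, sum_card] at this
  omega

open H02.NS in
theorem cnt {G : Type*} [Group G] [Fintype G] [DecidableEq G] {m : ℕ} (hm : m ≠ 0) :
    ∑ d ∈ m.divisors, s G d = (Finset.univ.filter fun g : G => g ^ m = 1).card := by
  rw [sum_s hm, Nat.card_eq_fintype_card, Fintype.card_subtype]

theorem c4 : (Finset.univ.filter fun g : alternatingGroup (Fin 4) => g ^ 2 = 1).card = 4 ∧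
    (Finset.univ.filter fun g : alternatingGroup (Fin 4) => g ^ 3 = 1).card = 9 := by decide +kernel

theorem c5 : (Finset.univ.filter fun g : alternatingGroup (Fin 5) => g ^ 2 = 1).card = 16 ∧
    (Finset.univ.filter fun g : alternatingGroup (Fin 5) => g ^ 3 = 1).card = 21 ∧
    (Finset.univ.filter fun g : alternatingGroup (Fin 5) => g ^ 5 = 1).card = 25 := by decide +kernel

theorem c6 : (Finset.univ.filter fun g : alternatingGroup (Fin 6) => g ^ 2 = 1).card = 46 ∧
    (Finset.univ.filter fun g : alternatingGroup (Fin 6) => g ^ 3 = 1).card = 81 ∧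
    (Finset.univ.filter fun g : alternatingGroup (Fin 6) => g ^ 4 = 1).card = 136 ∧
    (Finset.univ.filter fun g : alternatingGroup (Fin 6) => g ^ 5 = 1).card = 145 := by decide +kernel

theorem cA (n : ℕ) : Nat.card (alternatingGroup (Fin (n + 2))) = (n + 2).factorial / 2 := by
  have := two_mul_nat_card_alternatingGroup (α := Fin (n + 2))
  rw [Nat.card_perm, Nat.card_eq_fintype_card (α := Fin (n + 2)), Fintype.card_fin] at this
  omega

/-- Let n be 4, 5 or 6 and let G be a finite group whose set of sizes of same-order classes (the set of numbers #{g : o(g) = m} over the element orders m of G) equals that of the alternating group of degree n. Then G is isomorphic to that alternating group. -/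
theorem result {G : Type*} [Group G] [Finite G] (n : ℕ) (hn : n = 4 ∨ n = 5 ∨ n = 6)
    (h : ((fun m : ℕ => Nat.card {g : G // orderOf g = m}) '' Set.range (orderOf : G → ℕ)) = ((fun m : ℕ => Nat.card {g : ↥(alternatingGroup (Fin n)) // orderOf g = m}) '' Set.range (orderOf : ↥(alternatingGroup (Fin n)) → ℕ))) :
    Nonempty (G ≃* ↥(alternatingGroup (Fin n))) := by
  change H02.NS.vals G = H02.NS.vals _ at h
  have d2 : Nat.divisors 2 = {1, 2} := by decide
  have d3 : Nat.divisors 3 = {1, 3} := by decide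
  have d4 : Nat.divisors 4 = {1, 2, 4} := by decide
  have d5 : Nat.divisors 5 = {1, 5} := by decide
  rcases hn with rfl | rfl | rfl
  · obtain ⟨a, b⟩ := c4
    rw [← cnt (by decide)] at a b
    simp [d2, d3, H02.NS.s_one] at a b
    have a : H02.NS.s (alternatingGroup (Fin 4)) 2 = 3 := by omega
    have b : H02.NS.s (alternatingGroup (Fin 4)) 3 = 8 := by omega
    rw [vals_eq (G := alternatingGroup (Fin 4)) {1, 2, 3} (by rw [cA 2]; simp [H02.NS.s_one, a, b]; rfl) (by simp [H02.NS.s_one, a, b])] at h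
    exact H05.Nse.a4 (by simpa [H02.NS.s_one, a, b] using h)
  · obtain ⟨a, b, c⟩ := c5
    rw [← cnt (by decide)] at a b c
    simp [d2, d3, d5, H02.NS.s_one] at a b c
    have a : H02.NS.s (alternatingGroup (Fin 5)) 2 = 15 := by omega
    have b : H02.NS.s (alternatingGroup (Fin 5)) 3 = 20 := by omega
    have c : H02.NS.s (alternatingGroup (Fin 5)) 5 = 24 := by omega
    rw [vals_eq (G := alternatingGroup (Fin 5)) {1, 2, 3, 5} (by rw [cA 3]; simp [H02.NS.s_one, a, b, c]; rfl) (by simp [H02.NS.s_one, a, b, c])] at h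
    exact H05.Nse.a5 (by simpa [H02.NS.s_one, a, b, c] using h)
  · obtain ⟨a, b, d, c⟩ := c6
    rw [← cnt (by decide)] at a b c d
    simp [d2, d3, d4, d5, H02.NS.s_one] at a b c d
    have a : H02.NS.s (alternatingGroup (Fin 6)) 2 = 45 := by omega
    have b : H02.NS.s (alternatingGroup (Fin 6)) 3 = 80 := by omega
    have c : H02.NS.s (alternatingGroup (Fin 6)) 5 = 144 := by omega
    have d : H02.NS.s (alternatingGroup (Fin 6)) 4 = 90 := by omega
    rw [vals_eq (G := alternatingGroup (Fin 6)) {1, 2, 3, 4, 5} (by rw [cA 4]; simp [H02.NS.s_one, a, b, c, d]; rfl) (by simp [H02.NS.s_one, a, b, c, d])] at h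
    exact H05.Nse.a6 (by simpa [H02.NS.s_one, a, b, c, d] using h)

end Cfsg.Agent.S3431
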