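import Mathlib
import Cfsg.Agent.H18.Basic
import Cfsg.Statements.S3704

set_option autoImplicit false
open Cfsg

namespace Cfsg.Agent.S3704

/-- Let G be a finite group acting faithfully and 2-transitively on a finite set Ω of size n, and let H be a subgroup of index n in G which is not transitive on Ω and fixes no point of Ω. Then H has exactly two orbits on Ω. -/
theorem result {G Ω : Type*} [Group G] [Finite G] [MulAction G Ω] [FaithfulSMul G Ω] [Finite Ω] (h2 : MulAction.IsMultiplyPretransitive G Ω 2) (H : Subgroup G) (hidx : H.index = Nat.card Ω) (hnt : ¬ MulAction.IsPretransitive H Ω) (hfix : ∀ a : Ω, ∃ h : H, h • a ≠ a) : Nat.card (MulAction.orbitRel.Quotient H Ω) = 2 := by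
  classical
  haveI : Fintype Ω := Fintype.ofFinite Ω
  haveI : Fintype (G ⧸ H) := Fintype.ofFinite _
  rw [H18.mt_two_iff] at h2
  have hge : 1 < Nat.card (MulAction.orbitRel.Quotient H Ω) := by
    rw [Finite.one_lt_card_iff_nontrivial, ← not_subsingleton_iff_nontrivial]
    exact fun h => hnt ((MulAction.pretransitive_iff_subsingleton_quotient H Ω).2 h)
  by_contra hne
  haveI : Fintype (MulAction.orbitRel.Quotient H Ω) := Fintype.ofFinite _
  obtain ⟨o₁, o₂, o₃, h12, h13, h23⟩ := Fintype.two_lt_card_iff.1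
    (show 2 < Fintype.card (MulAction.orbitRel.Quotient H Ω) by rw [← Nat.card_eq_fintype_card]; omega)
  let π : Ω → MulAction.orbitRel.Quotient H Ω := Quotient.mk _
  let A : MulAction.orbitRel.Quotient H Ω → Matrix Ω (G ⧸ H) ℚ := fun o x c =>
    Quotient.liftOn' c (fun g : G => if π (g⁻¹ • x) = o then (1 : ℚ) else 0) (by
      intro a b hab
      have h1 : π (b⁻¹ • x) = π (a⁻¹ • x) := Quotient.sound ⟨⟨_, inv_mem (QuotientGroup.leftRel_apply.1 hab)⟩, by
        simp [Subgroup.smul_def, mul_smul]⟩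
      simp only [h1])
  have hA : ∀ o x (g : G), A o x (g : G ⧸ H) = if π (g⁻¹ • x) = o then (1 : ℚ) else 0 := fun _ _ _ => rfl
  have hAinv : ∀ o x (k : G) (c : G ⧸ H), A o (k • x) (k • c) = A o x c := by
    intro o x k c
    induction c using QuotientGroup.induction_on with
    | H g => rw [MulAction.Quotient.smul_mk, hA, hA]; simp [mul_smul]
  have hsum : ∀ (k : G) (f : G ⧸ H → ℚ), ∑ c, f (k • c) = ∑ c, f c := fun k f =>
    Equiv.sum_comp (MulAction.toPerm k) f
  obtain ⟨x₁, hx₁⟩ := Quotient.exists_rep o₁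
  obtain ⟨x₂, hx₂⟩ := Quotient.exists_rep o₂
  obtain ⟨x₃, hx₃⟩ := Quotient.exists_rep o₃
  have hx12 : x₁ ≠ x₂ := fun h => h12 (by rw [← hx₁, ← hx₂, h])
  have htr : ∀ x y : Ω, ∃ g : G, g • x = y := by
    intro x y
    haveI : Nontrivial Ω := ⟨_, _, hx12⟩
    obtain ⟨x', hx'⟩ := exists_ne x
    obtain ⟨y', hy'⟩ := exists_ne y
    obtain ⟨g, hg, -⟩ := h2 x x' y y' hx'.symm hy'.symm
    exact ⟨g, hg⟩
  have hM : ∀ o o', ∀ x y, ∑ c, A o x c * A o' y c = (if x = y then ∑ c, A o x₁ c * A o' x₁ c - ∑ c, A o x₁ c * A o' x₂ c else 0)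
      + ∑ c, A o x₁ c * A o' x₂ c := by
    intro o o' x y
    split_ifs with h
    · subst h
      obtain ⟨g, rfl⟩ := htr x₁ x
      rw [← hsum g]; simp [hAinv]
    · obtain ⟨g, rfl, rfl⟩ := h2 x₁ x₂ x y hx12 h
      rw [← hsum g]; simp [hAinv]
  have hr : ∀ y, ∑ c, A o₁ y c = ∑ c, A o₁ x₁ c := by
    intro y
    obtain ⟨g, rfl⟩ := htr x₁ y
    rw [← hsum g]; simp [hAinv]
  have h01 : ∀ o x c, A o x c = 0 ∨ A o x c = 1 := by
    intro o x c
    induction c using QuotientGroup.induction_on with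
    | H g => rw [hA]; split_ifs <;> simp
  have hone : ∀ o x, A o x ((1 : G) : G ⧸ H) = if π x = o then (1 : ℚ) else 0 := fun o x => by rw [hA]; simp
  have e11 : A o₁ x₁ ((1 : G) : G ⧸ H) = 1 := by rw [hone, if_pos hx₁]
  have e12 : A o₁ x₂ ((1 : G) : G ⧸ H) = 0 := by rw [hone, if_neg fun h => h12 (h.symm.trans hx₂)]
  have e13 : A o₁ x₃ ((1 : G) : G ⧸ H) = 0 := by rw [hone, if_neg fun h => h13 (h.symm.trans hx₃)]
  have e22 : A o₂ x₂ ((1 : G) : G ⧸ H) = 1 := by rw [hone, if_pos hx₂]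
  have e23 : A o₂ x₃ ((1 : G) : G ⧸ H) = 0 := by rw [hone, if_neg fun h => h23 (h.symm.trans hx₃)]
  have hnn : ∀ o x c, 0 ≤ A o x c := fun o x c => by rcases h01 o x c with h | h <;> simp [h]
  set b := ∑ c, A o₁ x₁ c * A o₁ x₂ c with hb
  set a := ∑ c, A o₁ x₁ c * A o₁ x₁ c - b with ha
  set d := ∑ c, A o₂ x₁ c * A o₁ x₂ c with hd
  set c' := ∑ c, A o₂ x₁ c * A o₁ x₁ c - d with hc'
  set r := ∑ c, A o₁ x₁ c with hr'
  have hb0 : 0 ≤ b := Finset.sum_nonneg fun c _ => mul_nonneg (hnn _ _ _) (hnn _ _ _)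
  have ha0 : 0 < a := by
    rw [ha, hb, ← Finset.sum_sub_distrib]
    refine Finset.sum_pos' (fun c _ => ?_) ⟨((1 : G) : G ⧸ H), Finset.mem_univ _, by simp [e11, e12]⟩
    rcases h01 o₁ x₁ c with h | h <;> rcases h01 o₁ x₂ c with h' | h' <;> simp [h, h']
  have hr0 : 0 < r := Finset.sum_pos' (fun c _ => hnn _ _ _) ⟨((1 : G) : G ⧸ H), Finset.mem_univ _, by simp [e11]⟩
  have hM1 : ∀ x y, ∑ c, A o₁ x c * A o₁ y c = (if x = y then a else 0) + b := hM o₁ o₁
  have hM2 : ∀ x y, ∑ c, A o₂ x c * A o₁ y c = (if x = y then c' else 0) + d := hM o₂ o₁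
  clear_value a b c' d r
  clear hM ha hb hc' hd hr'
  have hinj : Function.Injective (A o₁).vecMulLinear := by
    rw [injective_iff_map_eq_zero]
    intro v hv
    have h1 : ∀ c, ∑ x, v x * A o₁ x c = 0 := fun c => congrFun hv c
    have h3 : ∑ x, ∑ y, v x * v y * ∑ c, A o₁ x c * A o₁ y c = 0 := by
      have : ∑ c, (∑ x, v x * A o₁ x c) * (∑ y, v y * A o₁ y c) = 0 := by simp [h1]
      rw [← this]
      simp only [Finset.mul_sum, Finset.sum_mul]
      rw [Finset.sum_comm]
      conv_rhs => rw [Finset.sum_comm]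
      refine Finset.sum_congr rfl fun y _ => ?_
      rw [Finset.sum_comm]
      exact Finset.sum_congr rfl fun c _ => Finset.sum_congr rfl fun x _ => by ring
    simp only [hM1, mul_add, Finset.sum_add_distrib, mul_ite, mul_zero, Finset.sum_ite_eq,
      Finset.mem_univ, if_true] at h3
    have h4 : ∑ x, ∑ y, v x * v y * b = (∑ x, v x) ^ 2 * b := by
      rw [sq, Finset.sum_mul_sum, Finset.sum_mul]
      simp only [Finset.sum_mul]
    rw [h4, ← Finset.sum_mul] at h3
    have h5 : 0 ≤ ∑ x, v x * v x := Finset.sum_nonneg fun x _ => mul_self_nonneg _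
    have h6 : ∑ x, v x * v x = 0 := by nlinarith [sq_nonneg (∑ x, v x), mul_nonneg (sq_nonneg (∑ x, v x)) hb0]
    funext x
    exact mul_self_eq_zero.1 ((Finset.sum_eq_zero_iff_of_nonneg fun x _ => mul_self_nonneg _).1 h6 x (Finset.mem_univ _))
  have hsurj : Function.Surjective (A o₁).vecMulLinear :=
    (LinearMap.injective_iff_surjective_of_finrank_eq_finrank (by
      simp only [Module.finrank_fintype_fun_eq_card]
      rw [← Nat.card_eq_fintype_card, ← Nat.card_eq_fintype_card, ← hidx]; rfl)).1 hinj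
  have hzero : ∀ w : G ⧸ H → ℚ, (∀ y, ∑ c, w c * A o₁ y c = 0) → w = 0 := by
    intro w hw
    obtain ⟨v, rfl⟩ := hsurj w
    set w := (A o₁).vecMulLinear v with hwv
    have h1 : ∀ c, w c = ∑ x, v x * A o₁ x c := fun c => rfl
    have h3 : ∑ c, w c * w c = 0 := by
      have : ∑ y, v y * ∑ c, w c * A o₁ y c = 0 := by simp [hw]
      rw [← this]
      simp only [Finset.mul_sum]
      rw [Finset.sum_comm]
      refine Finset.sum_congr rfl fun c _ => ?_
      conv_lhs => arg 1; rw [h1 c]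
      rw [Finset.sum_mul]
      exact Finset.sum_congr rfl fun x _ => by ring
    funext c
    exact mul_self_eq_zero.1 ((Finset.sum_eq_zero_iff_of_nonneg fun x _ => mul_self_nonneg _).1 h3 c (Finset.mem_univ _))
  have key : ∀ x, a * A o₂ x ((1 : G) : G ⧸ H) - c' * A o₁ x ((1 : G) : G ⧸ H) - (a * d - c' * b) / r = 0 := by
    intro x
    refine congrFun (hzero (fun c => a * A o₂ x c - c' * A o₁ x c - (a * d - c' * b) / r) fun y => ?_) _
    simp only [sub_mul, Finset.sum_sub_distrib, mul_assoc, ← Finset.mul_sum, hM2, hM1, hr]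
    field_simp
    split_ifs <;> ring
  have k2 := key x₂
  have k3 := key x₃
  rw [e22, e12] at k2
  rw [e23, e13] at k3
  linarith

end Cfsg.Agent.S3704
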