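import Cfsg.Statements.S3733
import Cfsg.Agent.H24.Partition
-- import your own Cfsg.Agent.* helpers here

set_option autoImplicit false
open Cfsg

namespace Cfsg.Agent.S3733

/-- Let A and V be subgroups of a finite group with V abelian and nontrivial and A normalizing V. Suppose a nonempty finite family of proper subgroups of A partitions A: every non-identity element of A lies in exactly one member. If the number of members minus one is coprime to the order of V, then some member B of the family has a non-identity fixed point on V, that is V ∩ C(B) ≠ 1. -/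
theorem result {G : Type*} [Group G] [Finite G] (A V : Subgroup G) (hVab : IsMulCommutative V) (hV : V ≠ ⊥) (hAV : A ≤ Subgroup.normalizer (V : Set G)) (𝒜 : Finset (Subgroup G)) (hne : 𝒜.Nonempty) (hprop : ∀ B ∈ 𝒜, B < A) (hpart : ∀ a ∈ A, a ≠ 1 → ∃! B, B ∈ 𝒜 ∧ a ∈ B) (hk : (𝒜.card - 1).Coprime (Nat.card V)) : ∃ B ∈ 𝒜, V ⊓ Subgroup.centralizer (B : Set G) ≠ ⊥ := by
  by_contra hcon
  push Not at hcon
  obtain ⟨B0, hB0⟩ := hne
  apply hV
  rw [eq_bot_iff]
  intro v hv
  have h1 := H24.pow_eq_one_of_partition hAV (ι := 𝒜) (fun B => B.1) (fun B => (hprop B.1 B.2).le)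
    (fun a ha h1 => by
      obtain ⟨B, ⟨hB, haB⟩, hu⟩ := hpart a ha h1
      exact ⟨⟨B, hB⟩, haB, fun C hC => Subtype.ext (hu C.1 ⟨C.2, hC⟩)⟩) ⟨B0, hB0⟩
    (fun B => hcon B.1 B.2) ⟨v, hv⟩
  rw [Fintype.card_coe] at h1
  have h2 := (powCoprime hk.symm).injective (a₁ := ⟨v, hv⟩) (a₂ := 1) (by simpa using h1)
  exact congrArg Subtype.val h2

end Cfsg.Agent.S3733
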