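import Cfsg.Statements.S3735
import Cfsg.Agent.BG.Api
import Cfsg.Agent.H22.Layer
-- import your own Cfsg.Agent.* helpers here

set_option autoImplicit false
open Cfsg

namespace Cfsg.Agent.S3735

/-- Clifford's Theorem for actions on finite abelian groups, first part. Let H and V be subgroups of a finite group with V abelian and H normalizing V, and let A be a normal subgroup of H. If every H-invariant subgroup of V has an H-invariant complement in V, then every A-invariant subgroup of V has an A-invariant complement in V. -/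
theorem result {G : Type*} [Group G] [Finite G] (H A V : Subgroup G) (hVab : IsMulCommutative V) (hHV : H ≤ Subgroup.normalizer (V : Set G)) (hAH : A ≤ H) (hAn : H ≤ Subgroup.normalizer (A : Set G)) (hss : ∀ U : Subgroup G, U ≤ V → H ≤ Subgroup.normalizer (U : Set G) → ∃ W : Subgroup G, W ≤ V ∧ H ≤ Subgroup.normalizer (W : Set G) ∧ U ⊓ W = ⊥ ∧ U ⊔ W = V) (U : Subgroup G) (hUV : U ≤ V) (hAU : A ≤ Subgroup.normalizer (U : Set G)) : ∃ W : Subgroup G, W ≤ V ∧ A ≤ Subgroup.normalizer (W : Set G) ∧ U ⊓ W = ⊥ ∧ U ⊔ W = V := by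
  open BG in
  -- minimal `A`-invariant subgroups and their join
  let Mn : Set (Subgroup G) := {W | W ≤ V ∧ A ≤ N_(W) ∧ ∀ Y ≤ W, A ≤ N_(Y) → Y = ⊥ ∨ Y = W}
  have hcj : ∀ g ∈ H, ∀ W : Subgroup G, A ≤ N_(W) → A ≤ N_(cj g W) := by
    intro g hg W hW
    rw [← cj_norm, ← cj_of_mem_norm (hAn hg)]
    exact cj_mono g hW
  have hMn : ∀ g ∈ H, ∀ W ∈ Mn, cj g W ∈ Mn := by
    rintro g hg W ⟨a, b, c⟩
    refine ⟨cj_le_of_mem_norm a (hHV hg), hcj g hg W b, fun Y h1 h2 => ?_⟩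
    rcases c (cj g⁻¹ Y) (by rwa [cj_le_iff, inv_inv]) (hcj _ (inv_mem hg) Y h2) with e | e
    · exact Or.inl (cj_eq_bot_iff.1 e)
    · exact Or.inr (by rw [← e, cj_cj_inv])
  have hS : H ≤ N_(sSup Mn) := by
    have key : ∀ g ∈ H, cj g (sSup Mn) ≤ sSup Mn := fun g hg => by
      rw [cj_le_iff]
      exact sSup_le fun W hW => cj_le_iff.1 (le_sSup (hMn g hg W hW))
    intro g hg
    exact cj_eq_self_iff.1 (Subgroup.eq_of_le_of_card_ge (key g hg) (card_cj g _).ge)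
  have hex : ∀ W ≤ V, A ≤ N_(W) → W ≠ ⊥ → ∃ Y ∈ Mn, Y ≤ W ∧ Y ≠ ⊥ := by
    intro W h1 h2 h3
    obtain ⟨Y, ⟨a, b, c⟩, hmin⟩ := (wellFounded_lt (α := Subgroup G)).has_min
      {Y | Y ≤ W ∧ A ≤ N_(Y) ∧ Y ≠ ⊥} ⟨W, le_rfl, h2, h3⟩
    refine ⟨Y, ⟨a.trans h1, b, fun Z d e => ?_⟩, a, c⟩
    by_contra hc
    push Not at hc
    exact hmin Z ⟨d.trans a, e, hc.1⟩ (lt_of_le_of_ne d hc.2)
  have hSV : sSup Mn = V := by
    obtain ⟨W, a, b, c, d⟩ := hss (sSup Mn) (sSup_le fun W hW => hW.1) hS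
    by_cases e : W = ⊥
    · rwa [e, sup_bot_eq] at d
    · obtain ⟨Y, h1, h2, h3⟩ := hex W a (hAH.trans b) e
      exact absurd (le_bot_iff.1 (c ▸ le_inf (le_sSup h1) h2)) h3
  obtain ⟨W, ⟨a, b, c⟩, hmax⟩ := (wellFounded_gt (α := Subgroup G)).has_min
    {W | W ≤ V ∧ A ≤ N_(W) ∧ U ⊓ W = ⊥} ⟨⊥, bot_le, le_norm_bot, inf_bot_eq _⟩
  refine ⟨W, a, b, c, le_antisymm (sup_le hUV a) (hSV ▸ sSup_le fun Y hY => ?_)⟩
  have hn : ∀ X Z : Subgroup G, X ≤ V → Z ≤ V → X ≤ N_(Z) := fun X Z h1 h2 =>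
    (h1.trans ((Subgroup.le_centralizer_iff_isMulCommutative.2 hVab).trans (cent_anti h2))).trans
      (Subgroup.centralizer_le_normalizer _)
  rcases hY.2.2 (Y ⊓ (U ⊔ W)) inf_le_left
    (H01.le_normalizer_inf hY.2.1 (H01.le_normalizer_sup hAU b)) with e | e
  · have h1 : U ⊓ (W ⊔ Y) = ⊥ := by
      rw [eq_bot_iff]
      rintro u ⟨hu, hu'⟩
      obtain ⟨w, hw, y, hy, rfl⟩ := (H01.mem_sup_of_le_normalizer (hn W Y a hY.1)).1 hu'
      have h2 : y ∈ U ⊔ W := by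
        have := (U ⊔ W).mul_mem (inv_mem (Subgroup.mem_sup_right hw)) (Subgroup.mem_sup_left hu)
        rwa [inv_mul_cancel_left] at this
      have h3 := eq_one_of_mem_of_disj e hy h2
      rw [h3, mul_one] at hu ⊢
      exact c ▸ Subgroup.mem_inf.2 ⟨hu, hw⟩
    have h2 := hmax (W ⊔ Y) ⟨sup_le a hY.1, H01.le_normalizer_sup b hY.2.1, h1⟩
    have h3 : W ⊔ Y = W := by
      by_contra hc
      exact h2 (lt_of_le_of_ne le_sup_left (Ne.symm hc))
    exact (le_sup_right.trans h3.le).trans le_sup_right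
  · exact inf_eq_left.1 e

end Cfsg.Agent.S3735
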