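import Mathlib
import Cfsg.Statements.S3738
import Cfsg.Agent.H04.Soft
import Cfsg.Agent.H04.Quad2

set_option autoImplicit false
open Cfsg

open scoped commutatorElement

namespace Cfsg.Agent.S3738

open Subgroup BG H04 in
theorem le_cent_cube {X : Type*} [Group X] [Finite X] {d : X} {n : ℕ} (hd : orderOf d = 3 ^ n)
    {D : Subgroup X} (hD : IsPGroup 2 D) (h : d ∈ N_(D))
    (hc : Nat.card D ≤ 32 * Nat.card ↥(C_[d ^ 3] ⊓ D)) : D ≤ C_[d ^ 3] := by
  haveI : Fact (Nat.Prime 3) := ⟨Nat.prime_three⟩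
  letI : MulAction (zpowers d) X := MulAction.compHom X (MulAut.conj.comp (zpowers d).subtype)
  let S : SubMulAction (zpowers d) X := ⟨(D : Set X) \ C_[d ^ 3], fun g x hx =>
    ⟨conj_mem_of_norm (zpowers_le.mpr h g.2) hx.1, fun h1 => hx.2 ((mem_normalizer_iff.mp
      (norm_cent1 (zpowers_le.mpr (cent1_le_cent1_pow d 3 (mem_cent1_self d))) g.2) x).mpr h1)⟩⟩
  have h1 : 9 ∣ Nat.card S := dvd_card_of_dvd_index_stabilizer (G := zpowers d) fun x => by
    obtain ⟨k, hk⟩ := (IsPGroup.iff_card.mpr ⟨n, (BG.card_zpowers d).trans hd⟩).index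
      (MulAction.stabilizer (zpowers d) x)
    by_contra h1
    have h2 := (MulAction.stabilizer (zpowers d) x).pow_index_mem ⟨d, mem_zpowers d⟩
    have h3 : k ≤ 1 := by_contra fun h3 => h1 (hk ▸ pow_dvd_pow 3 (show 2 ≤ k by omega))
    have h4 : ⟨d, mem_zpowers d⟩ ^ 3 ∈ MulAction.stabilizer (zpowers d) x := by
      interval_cases k
      · exact pow_mem (by simpa [hk] using h2) 3
      · simpa [hk] using h2
    exact x.2.2 (mem_cent1.mpr (mul_inv_eq_iff_eq_mul.mp (congrArg Subtype.val h4)).symm)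
  have h2 : Nat.card S + Nat.card ↥(C_[d ^ 3] ⊓ D) = Nat.card D := by
    rw [inf_comm, add_comm]
    exact Set.ncard_inter_add_ncard_sdiff_eq_ncard (D : Set X) C_[d ^ 3]
  obtain ⟨k, hk⟩ := hD.index (C_[d ^ 3].subgroupOf D)
  obtain ⟨j, hj⟩ := IsPGroup.iff_card.mp (hD.to_le (inf_le_right (a := C_[d ^ 3])))
  have h3 := H04.card_inf_mul_relIndex C_[d ^ 3] D
  rw [relIndex, hk] at h3
  rw [← h3, mul_comm, mul_le_mul_iff_left₀ Nat.card_pos] at hc
  have h4 : k ≤ 5 := (Nat.pow_le_pow_iff_right one_lt_two).mp hc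
  have h5 : Nat.card S = 2 ^ j * (2 ^ k - 1) := by rw [Nat.mul_sub, ← hj, h3]; omega
  have h6 := (Nat.Coprime.pow_right j (by decide)).dvd_of_dvd_mul_left (h5 ▸ h1)
  refine subgroupOf_eq_top.mp (index_eq_one.mp (hk.trans ?_))
  interval_cases k <;> simp_all


/-- Let d be a non-identity 3-element of a finite group and P a 2-subgroup normalized by d on which ⟨d⟩ acts faithfully (no non-identity power of d centralizes P) and without non-identity fixed points (C_P(d) = 1). If every abelian subgroup of P has 2-rank at most 2, then d has order 3. -/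
theorem result {X : Type*} [Group X] [Finite X] (d : X) (n : ℕ) (hn : 1 ≤ n) (hd : orderOf d = 3 ^ n) (P : Subgroup X) (hP : IsPGroup 2 P) (hdP : d ∈ Subgroup.normalizer (P : Set X)) (hfaith : Subgroup.zpowers d ⊓ Subgroup.centralizer (P : Set X) = ⊥) (hfpf : P ⊓ Subgroup.centralizer {d} = ⊥) (hrank : ∀ V : Subgroup X, V ≤ P → IsMulCommutative V → Cfsg.PRankLE 2 2 V) : orderOf d = 3 := by
  open Subgroup BG H04 in
  have h0 : Odd (orderOf d) := hd ▸ Odd.pow (by decide)
  suffices h : d ^ 3 ∈ C_(P) by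
    have h1 := orderOf_dvd_of_pow_eq_one (mem_bot.mp (hfaith.le ⟨pow_mem (mem_zpowers d) 3, h⟩))
    refine ((Nat.dvd_prime Nat.prime_three).mp h1).resolve_left fun h2 => ?_
    rw [h2, eq_comm, Nat.pow_eq_one] at hd
    omega
  by_cases hb : P = ⊥
  · simp [hb]
  let V := omegaOne 2 (P ⊓ C_(P))
  have hV : IsElementaryAbelian 2 V := isElementaryAbelian_omegaOne_of_comm (abelian_center P)
  have h1 : V ≤ P ⊓ C_(P) := omegaOne_le _
  have h2 : d ∈ N_(V) := normalizer_le_normalizer_omegaOne _ (norm_inf le_rfl (norm_cent le_rfl) hdP)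
  have h3 : ∀ W ≤ P, IsElementaryAbelian 2 W → Nat.card W ≤ 2 ^ 2 := fun W h3 h4 =>
    pRankLE_iff.mp (hrank W h3 h4.1) W le_rfl h4
  obtain ⟨z, h4, h5, h6⟩ := exists_fixed_of_normalizes hP hP (le_norm P) hb
  have h7 : V ≠ ⊥ := omegaOne_ne_bot (hP.to_le inf_le_left) (ne_bot_of_mem (mem_inf.mpr ⟨h4, h6⟩) h5)
  have h8 : 2 ^ 2 ≤ Nat.card V := pow_succ_le_of_lt_card (IsElementaryAbelian.isPGroup hV) (not_le.mp fun h => h7
    (eq_bot_mono hfpf (le_inf (h1.trans inf_le_left) (le_cent1_iff.mpr (le_cent_of_isCyclic_two (IsElementaryAbelian.isPGroup hV)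
      (isCyclic_of_card_le_prime (IsElementaryAbelian.isPGroup hV) h) (BG.card_zpowers d ▸ h0) (zpowers_le.mpr h2)
        (mem_zpowers d))))))
  have h9 : ∀ x ∈ P, x ^ 2 = 1 → x ∈ V := fun x hx h9 => (BG.eq_of_le_of_card_le le_sup_left
    ((h3 _ (sup_le (h1.trans inf_le_left) (zpowers_le.mpr hx)) (IsElementaryAbelian.sup_zpowers hV h9
      (cent_symm (h1.trans inf_le_right) hx))).trans h8)).ge (mem_sup_right (mem_zpowers x))
  have h10 := le_cent_cube hd (IsElementaryAbelian.isPGroup hV) h2 ((h3 V (h1.trans inf_le_left) hV).trans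
    (by have : 0 < Nat.card ↥(C_[d ^ 3] ⊓ V) := Nat.card_pos; omega))
  obtain ⟨K, h11, h12, -, h13⟩ := H27.exists_critical_small hP
  have h14 : ∀ x ∈ K.map P.subtype, x ^ 2 ∈ V := by
    rintro _ ⟨x, hx, rfl⟩
    refine h9 _ (pow_mem x.2 2) ((h12 x hx).elim (fun h => ?_) fun h => ?_)
    · rw [show P.subtype x ^ 2 = 1 from congrArg Subtype.val h, one_pow]
    · rw [← pow_mul]; exact congrArg Subtype.val h.2
  have h15 : (K.map P.subtype ⊓ V).relIndex (K.map P.subtype) ≤ 16 := by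
    by_contra h15
    obtain ⟨x, h16, h17, h18⟩ := exists_sq_mem (hP.to_le (map_subtype_le K)) (le_cent_mono
      (h1.trans inf_le_right) le_rfl (map_subtype_le K)) hV h14 (fun a ha b hb => by
        rw [show ⁅a, b⁆ = a ^ 2 * (a⁻¹ * b) ^ 2 * b⁻¹ ^ 2 by simp [commutatorElement_def, sq, mul_assoc]]
        exact mul_mem (mul_mem (h14 a ha) (h14 _ (mul_mem (inv_mem ha) hb))) (h14 _ (inv_mem hb)))
      bot_le inf_le_left (lt_of_le_of_lt (by
        rw [relIndex_bot_left]
        exact Nat.pow_le_pow_left (h3 V (h1.trans inf_le_left) hV) 2) (not_le.mp h15))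
    exact h17 ⟨h16, h9 x (map_subtype_le K h16) h18⟩
  have h16 := le_cent_cube hd (hP.to_le (map_subtype_le K))
    (H01.le_normalizer_map_characteristic le_rfl K hdP) (by
      rw [← H04.card_mul_relIndex (inf_le_left (b := V)), mul_comm]
      exact Nat.mul_le_mul (h15.trans (by decide)) (card_le (le_inf (inf_le_right.trans h10) inf_le_left)))
  refine H17.mem_centralizer_of_conjAut_eq_one P (pow_mem hdP 3) (h13 _ ((Nat.coprime_two_right.mpr
    (h0.of_dvd_nat (orderOf_pow_dvd 3))).coprime_dvd_left (H17.orderOf_conjAut_dvd P _))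
    fun x hx => Subtype.ext ?_)
  rw [H17.conjAut_apply]
  exact mul_inv_eq_iff_eq_mul.mpr (mem_cent1.mp (h16 ⟨x, hx, rfl⟩)).symm

end Cfsg.Agent.S3738
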