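import Cfsg.Statements.S3740
import Mathlib
import Cfsg.Agent.L.Torus
import Cfsg.Agent.H17.Dickson2
import Cfsg.Agent.H09.SL2Basic
import Cfsg.Agent.H09.SLBasic
import Cfsg.Agent.H08.Dihedral
import Cfsg.Agent.H02.Basic
import Cfsg.Agent.H27.ClassSize
-- import your own Cfsg.Agent.* helpers here

set_option autoImplicit false
open Cfsg

namespace Cfsg.Agent.S3740

open scoped Pointwise commutatorElement

open Subgroup Matrix
open scoped MatrixGroups

theorem tr_sq {F : Type} [Field F] [Fintype F] (p : ℕ) [hp : Fact p.Prime] [CharP F p] (x : SL(2, F))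
    (h : p ∣ orderOf x) : (x : L.M2 F).trace ^ 2 = 4 := by
  by_contra hx
  obtain ⟨h1, h2⟩ := (L.orderOf_SL_eq_char_iff p (x ^ (orderOf x / p))).1
    (orderOf_pow_orderOf_div (orderOf_pos x).ne' h)
  have := L.trace_sq_ne_of_mem hx (y := x ^ (orderOf x / p))
    (H27.mem_cent.2 ((Commute.refl x).pow_left _).eq) h1
  rw [h2] at this
  norm_num at this

theorem closure_eq {G : Type*} [Group G] {R : Subgroup G} {z r s : G} (hz0 : z ≠ 1) (hz2 : z * z = 1)
    (h : ∀ t ∈ R, t = 1 ∨ t = z ∨ t * t = z) (hr : r ∈ R) (hs : s ∈ R) (hr2 : r * r = z) (hsr : s ∉ zpowers r) :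
    s * s = z ∧ s * r * s⁻¹ = r⁻¹ ∧ closure {r, s} = R := by
  have key : ∀ x ∈ R, ∀ y ∈ R, x * x = z → y * y = z → y ∈ zpowers x ∨ y * x * y⁻¹ = x⁻¹ := by
    intro x hx y hy hx2 hy2
    rcases h _ (mul_mem hx hy) with e | e | e
    · left; rw [eq_inv_of_mul_eq_one_right e]; exact inv_mem (mem_zpowers x)
    · left; rw [mul_left_cancel (e.trans hx2.symm)]; exact mem_zpowers x
    · right
      rw [← hx2, mul_assoc, mul_left_cancel_iff] at e
      have e2 : y⁻¹ = y * z := by rw [inv_eq_iff_mul_eq_one, ← mul_assoc, hy2, hz2]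
      have e3 : x⁻¹ = x * z := by rw [inv_eq_iff_mul_eq_one, ← mul_assoc, hx2, hz2]
      rw [e2, e3, ← mul_assoc, mul_assoc y x y, e]
  have hzr : z ∈ zpowers r := hr2 ▸ mul_mem (mem_zpowers r) (mem_zpowers r)
  have hs2 : s * s = z := by
    rcases h s hs with e | e | e
    · exact absurd (e ▸ one_mem _) hsr
    · exact absurd (e ▸ hzr) hsr
    · exact e
  have h1 := (key r hr s hs hr2 hs2).resolve_left hsr
  refine ⟨hs2, h1, le_antisymm ((closure_le _).2 (by rintro _ (rfl | rfl) <;> assumption)) fun t ht => ?_⟩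
  have hr' : zpowers r ≤ closure {r, s} := zpowers_le.2 (subset_closure (by simp))
  have hs' : zpowers s ≤ closure {r, s} := zpowers_le.2 (subset_closure (by simp))
  have hrs' : zpowers (r * s) ≤ closure {r, s} := zpowers_le.2 (mul_mem (hr' (mem_zpowers r)) (hs' (mem_zpowers s)))
  rcases h t ht with e | e | e
  · rw [e]; exact one_mem _
  · rw [e]; exact hr' hzr
  rcases key r hr t ht hr2 e with e1 | e1
  · exact hr' e1
  rcases key s hs t ht hs2 e with e2 | e2
  · exact hs' e2
  have hrs2 : r * s * (r * s) = z := by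
    calc r * s * (r * s) = r * (s * r * s⁻¹) * (s * s) := by group
      _ = z := by rw [h1, hs2]; group
  rcases key _ (mul_mem hr hs) t ht hrs2 e with e3 | e3
  · exact hrs' e3
  exfalso
  have e4 : r⁻¹ * s⁻¹ = (r * s)⁻¹ := by rw [← e3, ← e1, ← e2]; group
  have e5 : s * r = r * s := by rw [← _root_.inv_inj, ← e4, _root_.mul_inv_rev]
  rw [e5, mul_inv_cancel_right] at h1
  exact hz0 (by rw [← hr2]; nth_rewrite 1 [h1]; exact inv_mul_cancel r)

/-- Let F be a finite field of odd characteristic p and let a be a p-element of SL₂(F) normalizing a subgroup R of order prime to p with [R, a] ≠ 1. Then p = 3, R is a quaternion group of order 8, and R⟨a⟩ is isomorphic to SL₂(3). -/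
theorem result (F : Type) [Field F] [Fintype F] {p : ℕ} [Fact p.Prime] [CharP F p] (hp : p ≠ 2) (a : Matrix.SpecialLinearGroup (Fin 2) F) (ha : IsPGroup p ↥(Subgroup.zpowers a)) (R : Subgroup (Matrix.SpecialLinearGroup (Fin 2) F)) (hR : (Nat.card R).Coprime p) (haR : a ∈ Subgroup.normalizer (R : Set (Matrix.SpecialLinearGroup (Fin 2) F))) (hnt : ⁅R, Subgroup.zpowers a⁆ ≠ ⊥) : p = 3 ∧ Nonempty (↥R ≃* QuaternionGroup 2) ∧ Nonempty (↥(R ⊔ Subgroup.zpowers a) ≃* Matrix.SpecialLinearGroup (Fin 2) (ZMod 3)) := by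
  have hpp : p.Prime := Fact.out
  have hp2 : ¬ p ∣ 2 := fun h => hp ((Nat.prime_dvd_prime_iff_eq hpp Nat.prime_two).1 h)
  have h2 : (2 : F) ≠ 0 := fun h => hp2 ((CharP.cast_eq_zero_iff F p 2).1 (by exact_mod_cast h))
  have hn1 : (-1 : SL(2, F)) ≠ 1 := fun h => h2 (by
    have := congrArg (fun g : SL(2, F) => g 0 0) h
    simp at this
    linear_combination -this)
  have hnn : (-1 : SL(2, F)) * -1 = 1 := by simp
  have ha1 : a ≠ 1 := by rintro rfl; simp at hnt
  obtain ⟨k, hk⟩ := H27.isPGroup_zpowers_iff.1 ha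
  have hat : (a : L.M2 F).trace = 2 :=
    (L.unip_of_pow_eq_one p (k := k) (by rw [← L.SL2_coe_pow, ← hk, pow_orderOf_eq_one]; rfl)).1
  have hao : orderOf a = p := orderOf_eq_prime (Subtype.ext (L.pow_char_of_unip p hat a.2)) ha1
  have hpow : ∀ n : ℕ, ((a ^ (n + 1) : SL(2, F)) : L.M2 F) = 1 + ((n : F) + 1) • ((a : L.M2 F) - 1) := by
    intro n
    simpa using L.pow_par (A := (a : L.M2 F)) (a := 1) (by simpa using hat) (by simp) n
  have hN : zpowers a ≤ normalizer (R : Set SL(2, F)) := zpowers_le.2 haR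
  have hd : zpowers a ⊓ R = ⊥ := inf_eq_bot_of_coprime (by rw [Nat.card_zpowers, hao]; exact hR.symm)
  have htr : ∀ r ∈ R, ∀ n : ℕ, ¬ p ∣ n + 1 →
      ((r : L.M2 F).trace + ((n : F) + 1) * (((a : L.M2 F) - 1) * r).trace) ^ 2 = 4 := by
    intro r hr n hn
    have h1 : p ∣ orderOf (a ^ (n + 1) * r) := by
      let π := QuotientGroup.mk' (R.subgroupOf (normalizer (R : Set SL(2, F))))
      have h3 : π ⟨a ^ (n + 1) * r, mul_mem (pow_mem haR _) (le_normalizer hr)⟩ = π ⟨a, haR⟩ ^ (n + 1) := by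
        rw [← map_pow]
        exact (QuotientGroup.eq.2 (by simpa [mem_subgroupOf] using hr)).symm
      have h4 : orderOf (π ⟨a, haR⟩) = p := by
        apply orderOf_eq_prime
        · rw [← map_pow, show (⟨a, haR⟩ : normalizer (R : Set SL(2, F))) ^ p = 1 from
            Subtype.ext (by rw [SubmonoidClass.coe_pow, ← hao]; exact pow_orderOf_eq_one a), map_one]
        · intro e
          have : a ∈ zpowers a ⊓ R := ⟨mem_zpowers a, (QuotientGroup.eq_one_iff (N := R.subgroupOf _) _).1 e⟩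
          rw [hd] at this
          exact ha1 this
      have h5 := orderOf_map_dvd π ⟨a ^ (n + 1) * r, mul_mem (pow_mem haR _) (le_normalizer hr)⟩
      rwa [h3, orderOf_mk, Nat.Coprime.orderOf_pow (by rw [h4]; exact (hpp.coprime_iff_not_dvd).2 hn), h4] at h5
    have h3 := tr_sq p _ h1
    rwa [Matrix.SpecialLinearGroup.coe_mul, hpow, add_mul, Matrix.one_mul, smul_mul_assoc, trace_add, trace_smul,
      smul_eq_mul] at h3
  have hcl : ∀ r ∈ R, r = 1 ∨ r = -1 ∨ (r * r = -1 ∧ p = 3) := by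
    intro r hr
    by_cases ht : (r : L.M2 F).trace ^ 2 = 4
    · obtain ⟨e, he, he'⟩ : ∃ e : F, (r : L.M2 F).trace = 2 * e ∧ e ^ 2 = 1 := by
        refine ⟨(r : L.M2 F).trace / 2, by field_simp, ?_⟩
        rw [div_pow, ht]; field_simp; norm_num
      have h3 : (r * r) ^ p = 1 := Subtype.ext (by
        rw [← pow_two, ← pow_mul, mul_comm, pow_mul, L.SL2_coe_pow, L.SL2_coe_pow,
          L.pow_char_of_par p he (by rw [he']; exact r.2), smul_pow, one_pow, ← pow_mul, mul_comm, pow_mul, he',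
          one_pow, one_smul]; rfl)
      have h4 : r * r = 1 := orderOf_eq_one_iff.1 (Nat.eq_one_of_dvd_coprimes hR
        (R.orderOf_dvd_natCard (mul_mem hr hr)) (orderOf_dvd_of_pow_eq_one h3))
      by_cases h5 : r = 1
      · exact Or.inl h5
      · exact Or.inr (Or.inl (H09.SL2.eq_neg_one_of_mul_self h2 h5 h4))
    have h3 := hpp.two_le
    have e1 := htr r hr 0 (by simpa using hpp.ne_one)
    have e2 := htr r hr (p - 2) (fun h => by have := Nat.le_of_dvd (by omega) h; omega)
    rw [Nat.cast_sub h3, CharP.cast_eq_zero F p] at e2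
    set t := (r : L.M2 F).trace
    set c := (((a : L.M2 F) - 1) * r).trace
    push_cast at e1 e2
    have e3 : 2 * 2 * (t * c) = 0 := by linear_combination e1 - e2
    have e4 : t = 0 := by
      rcases mul_eq_zero.1 ((mul_eq_zero.1 e3).resolve_left (mul_ne_zero h2 h2)) with h | h
      · exact h
      · exact absurd (by rw [h] at e1; linear_combination e1) ht
    refine Or.inr (Or.inr ⟨Subtype.ext ?_, ?_⟩)
    · rw [Matrix.SpecialLinearGroup.coe_mul, L.m2_sq, show (r : L.M2 F).trace = 0 from e4, r.2]; simp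
    · have e5 := htr r hr 1 hp2
      change (t + _ * c) ^ 2 = 4 at e5
      rw [e4] at e1 e5
      push_cast at e5
      have e6 : 2 * 2 * (3 : F) = 0 := by linear_combination e5 - 4 * e1
      exact (Nat.prime_dvd_prime_iff_eq hpp Nat.prime_three).1 ((CharP.cast_eq_zero_iff F p 3).1
        (by exact_mod_cast (mul_eq_zero.1 e6).resolve_left (mul_ne_zero h2 h2)))
  obtain ⟨r, hr, hr2, hp3⟩ : ∃ r ∈ R, r * r = -1 ∧ p = 3 := by
    by_contra h
    apply hnt
    rw [commutator_eq_bot_iff_le_centralizer]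
    intro r hr x _
    rcases hcl r hr with rfl | rfl | e
    · simp
    · simp
    · exact absurd ⟨r, hr, e⟩ h
  subst hp3
  have hcard : Nat.card (R ⊔ zpowers a : Subgroup SL(2, F)) = 3 * Nat.card R := by
    rw [sup_comm, H02.card_sup_of_disjoint hN hd, Nat.card_zpowers, hao]
  obtain ⟨ψ, hψ, hψ'⟩ := H17.exists_sl2_of_sylow 3 hp (R ⊔ zpowers a) (by
    by_contra h
    have h1 : Nat.card (Sylow 3 (R ⊔ zpowers a : Subgroup SL(2, F))) = 1 := by
      have := Nat.card_pos (α := Sylow 3 (R ⊔ zpowers a : Subgroup SL(2, F))); omega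
    haveI := (Nat.card_eq_one_iff_unique.1 h1).1
    obtain ⟨P, hP⟩ := (ha.comap_subtype (K := R ⊔ zpowers a)).exists_le_sylow
    haveI := P.normal_of_subsingleton
    haveI : (R.subgroupOf (R ⊔ zpowers a)).Normal := normal_subgroupOf_of_le_normalizer (sup_le le_normalizer hN)
    have h3 : R.subgroupOf (R ⊔ zpowers a) ⊓ P = ⊥ := by
      obtain ⟨j, hj⟩ := P.isPGroup'.exists_card_eq
      exact inf_eq_bot_of_coprime (by rw [H02.card_subgroupOf_of_le le_sup_left, hj]; exact hR.pow_right j)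
    apply hnt
    have h4 := congrArg (Subgroup.map (R ⊔ zpowers a).subtype)
      (le_bot_iff.1 ((commutator_mono le_rfl hP).trans ((commutator_le_inf _ _).trans h3.le)))
    rwa [map_commutator, map_comap_eq_self (by rw [range_subtype]; exact le_sup_right),
      map_subgroupOf_eq_of_le le_sup_left, Subgroup.map_bot] at h4)
  have h24 : Nat.card ψ.range = 24 := by
    rw [← Nat.card_congr (MonoidHom.ofInjective hψ).toEquiv, H09.card_SL_two]; rfl
  have hro : orderOf r = 2 * 2 := by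
    haveI : Fact (Nat.Prime 2) := ⟨Nat.prime_two⟩
    exact orderOf_eq_prime_pow (p := 2) (n := 1) (by rw [pow_one, pow_two, hr2]; exact hn1)
      (by rw [show 2 ^ (1 + 1) = 2 * 2 from rfl, pow_mul, pow_two r, hr2, pow_two, hnn])
  obtain ⟨s, hs, hsr⟩ : ∃ s ∈ R, s ∉ zpowers r := by
    by_contra h
    push Not at h
    have h1 := card_le_of_le (H := R) (K := zpowers r) h
    have h3 := card_le_of_le hψ'
    rw [Nat.card_zpowers, hro] at h1
    omega
  obtain ⟨e1, e2, e3⟩ := closure_eq hn1 hnn (fun t ht => (hcl t ht).imp_right (Or.imp_right And.left)) hr hs hr2 hsr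
  obtain ⟨e⟩ := H08.nonempty_closure_equiv_quaternion two_ne_zero hro (by rw [e1, pow_two, hr2]) e2 hsr
  rw [e3] at e
  have h8 : Nat.card R = 8 := by rw [Nat.card_congr e.toEquiv, Nat.card_eq_fintype_card, QuaternionGroup.card]
  refine ⟨rfl, ⟨e⟩, ⟨?_⟩⟩
  rw [← eq_of_le_of_card_ge hψ' (by omega)]
  exact (MonoidHom.ofInjective hψ).symm

end Cfsg.Agent.S3740
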