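import Mathlib
import Cfsg.Statements.S3744
import Cfsg.Agent.H01.Hall

set_option autoImplicit false
open Cfsg

namespace Cfsg.Agent.S3744

/-- A finite p-soluble group has a p-complement, all its p-complements are conjugate, and every subgroup of order prime to p lies in one of them. Here a p-complement is a subgroup of order prime to p whose index is a power of p. -/
theorem result {G : Type*} [Group G] [Finite G] {p : ℕ} [Fact p.Prime] (hG : Cfsg.IsPSolvable p G) : (∃ H : Subgroup G, (Nat.card H).Coprime p ∧ ∃ n : ℕ, H.index = p ^ n) ∧ (∀ H₁ H₂ : Subgroup G, (Nat.card H₁).Coprime p → (∃ n : ℕ, H₁.index = p ^ n) → (Nat.card H₂).Coprime p → (∃ n : ℕ, H₂.index = p ^ n) → ∃ g : G, H₂ = H₁.map (MulAut.conj g).toMonoidHom) ∧ (∀ U : Subgroup G, (Nat.card U).Coprime p → ∃ H : Subgroup G, (Nat.card H).Coprime p ∧ (∃ n : ℕ, H.index = p ^ n) ∧ ∃ g : G, U.map (MulAut.conj g).toMonoidHom ≤ H) := by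
  have hp : p.Prime := Fact.out
  obtain ⟨n, H, h0, hn, -, hN, h⟩ := hG
  have hsep : H01.PiSep {p}ᶜ G := H01.piSep_of_chain H h0 hn hN (fun i => by
    rcases h i with ⟨m, hm⟩ | h1
    · right; rw [compl_compl, hm]; exact H01.piNum_prime_pow hp (Set.mem_singleton p) m
    · left; exact (H01.piNum_compl_singleton_iff hp).mpr h1)
  have hs : H01.PiPrimeFactorsSolvable {p}ᶜ G := by
    intro Q _ f hf M _ hM
    have := Finite.of_surjective f hf
    rw [compl_compl, H01.piNum_singleton_iff hp Nat.card_pos.ne'] at hM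
    obtain ⟨k, hk⟩ := hM
    have := (IsPGroup.of_card hk).isNilpotent
    infer_instance
  have hiff : ∀ K : Subgroup G, Cfsg.IsPiHall {p}ᶜ K ↔
      (Nat.card K).Coprime p ∧ ∃ n : ℕ, K.index = p ^ n := by
    intro K
    rw [H01.isPiHall_iff, compl_compl, H01.piNum_compl_singleton_iff hp,
      H01.piNum_singleton_iff hp K.index_ne_zero_of_finite]
  obtain ⟨H₀, h₀, hD⟩ := H01.hall_main hsep
  refine ⟨⟨H₀, (hiff _).mp h₀⟩, fun H₁ H₂ h1 h2 h3 h4 => ?_, fun U hU => ?_⟩
  · have e1 := (hiff _).mpr ⟨h1, h2⟩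
    have e2 := (hiff _).mpr ⟨h3, h4⟩
    obtain ⟨g, hg⟩ := H01.isPiHall_conj_of_main h₀ e1 e2 (hD _ e1.1 (Or.inr hs)) (hD _ e2.1 (Or.inr hs))
    exact ⟨g, hg.symm⟩
  · exact ⟨H₀, ((hiff _).mp h₀).1, ((hiff _).mp h₀).2,
      hD U ((H01.piNum_compl_singleton_iff hp).mpr hU) (Or.inr hs)⟩

end Cfsg.Agent.S3744
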