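import Mathlib
import Cfsg.Statements.S3746
import Cfsg.Agent.H22.Layer
import Cfsg.Agent.H01.Coprime
import Cfsg.Agent.H02.Basic

set_option autoImplicit false
open Cfsg

namespace Cfsg.Agent.S3746

/-- Let Z ≤ Z(G) be a central subgroup of a finite group G and E a subgroup of G containing Z whose image E/Z is a component of G/Z (subnormal and quasisimple). Then the derived subgroup [E, E] is a component of G. -/
theorem result {G : Type*} [Group G] [Finite G] (Z : Subgroup G) (hZ : Z ≤ Subgroup.center G) [Z.Normal] (E : Subgroup G) (hZE : Z ≤ E) (hE : Cfsg.IsComponent (E.map (QuotientGroup.mk' Z))) : Cfsg.IsComponent ⁅E, E⁆ := by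
  have hs := QuotientGroup.mk'_surjective Z
  have hEc : (E.map (QuotientGroup.mk' Z)).comap (QuotientGroup.mk' Z) = E :=
    Subgroup.comap_map_eq_self (by rw [QuotientGroup.ker_mk']; exact hZE)
  have hEs : E.IsSubnormal := hEc ▸ hE.1.comap _
  have hle : ⁅E, E⁆ ≤ E := Subgroup.commutator_le_self E
  have hmap : ⁅E, E⁆.map (QuotientGroup.mk' Z) = E.map (QuotientGroup.mk' Z) := by
    rw [Subgroup.map_commutator, H22.comp_perfect hE]
  have hsup : E = ⁅E, E⁆ ⊔ Z := by
    have := Subgroup.comap_map_eq (QuotientGroup.mk' Z) ⁅E, E⁆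
    rwa [hmap, hEc, QuotientGroup.ker_mk'] at this
  have hZc : ∀ X : Subgroup G, Z ≤ Subgroup.centralizer (X : Set G) := fun X =>
    hZ.trans (Subgroup.center_le_centralizer _)
  have hperf : ⁅⁅E, E⁆, ⁅E, E⁆⁆ = ⁅E, E⁆ := by
    refine le_antisymm (Subgroup.commutator_le_self _) ?_
    have := H22.comm_sup_le_of_central (A := ⁅E, E⁆) (B := ⁅E, E⁆) (Z := Z) (W := Z)
      (H22.le_normalizer_of_le_centralizer (hZc _)) (H22.le_normalizer_of_le_centralizer (hZc _))
      (hZc _) (hZc _) (hZc _)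
    rwa [← hsup] at this
  refine ⟨Subgroup.IsSubnormal.trans hle (Subgroup.Normal.isSubnormal
    ((Subgroup.normal_subgroupOf_iff_le_normalizer hle).2 (H01.left_le_normalizer_commutator E E))) hEs, ?_⟩
  haveI : Group.IsPerfect (⁅E, E⁆ : Subgroup G) := Subgroup.isPerfect_iff.2 hperf
  refine H22.qs_of_central_ext ((QuotientGroup.mk' Z).subgroupMap ⁅E, E⁆)
    (MonoidHom.subgroupMap_surjective _ _) ?_ (hmap ▸ hE.2)
  intro x hx
  have : (x : G) ∈ Z := (QuotientGroup.eq_one_iff _).1 (congrArg Subtype.val hx)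
  exact Subgroup.mem_center_iff.2 fun y => Subtype.ext (Subgroup.mem_center_iff.1 (hZ this) y)

end Cfsg.Agent.S3746
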