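import Mathlib
import Cfsg.Statements.S3747
import Cfsg.Agent.H22.FStar
import Cfsg.Agent.H02.MinNormal

set_option autoImplicit false
open Cfsg

namespace Cfsg.Agent.S3747

theorem aux {G : Type*} [Group G] [Finite G] (K : Subgroup G) (hK : Cfsg.IsComponent K)
    (hZ : K ⊓ Subgroup.centralizer (K : Set G) = ⊥) (N : Subgroup G) (hN : N.Normal)
    (hle : N ≤ Subgroup.normalClosure (K : Set G)) :
    N = ⊥ ∨ N = Subgroup.normalClosure (K : Set G) := by
  classical
  rcases H22.comp_le_or_comm_of_subnormal hK hN.isSubnormal with h | h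
  · exact Or.inr (le_antisymm hle (Subgroup.normalClosure_le_normal h))
  left
  haveI := Fintype.ofFinite G
  let S : Finset (Subgroup G) := Finset.univ.image fun g : G => K.map (MulAut.conj g).toMonoidHom
  have hS : ∀ A ∈ S, ∃ g : G, A = K.map (MulAut.conj g).toMonoidHom := fun A hA => by
    obtain ⟨g, -, rfl⟩ := Finset.mem_image.1 hA
    exact ⟨g, rfl⟩
  have hM : Subgroup.normalClosure (K : Set G) ≤ ⨆ A ∈ S, A := by
    rw [Subgroup.normalClosure, Subgroup.closure_le]
    intro x hx
    obtain ⟨k, hk, hc⟩ := Group.mem_conjugatesOfSet_iff.1 hx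
    obtain ⟨g, rfl⟩ := isConj_iff.1 hc
    have : K.map (MulAut.conj g).toMonoidHom ≤ ⨆ A ∈ S, A :=
      le_iSup₂_of_le (f := fun A (_ : A ∈ S) => A) _
        (Finset.mem_image_of_mem _ (Finset.mem_univ g)) le_rfl
    exact this ⟨k, hk, rfl⟩
  rw [Subgroup.commutator_comm, Subgroup.commutator_eq_bot_iff_le_centralizer] at h
  rw [eq_bot_iff]
  intro z hz
  have h1 := H22.mem_iSup_center_of_commuting S (fun A hA B hB hne => by
    obtain ⟨g, rfl⟩ := hS A hA
    obtain ⟨g', rfl⟩ := hS B hB
    exact Subgroup.commutator_eq_bot_iff_le_centralizer.1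
      (H22.comp_comm_of_ne (H22.comp_conj hK g) (H22.comp_conj hK g') hne)) z (hM (hle hz)) (by
    intro A hA
    obtain ⟨g, rfl⟩ := hS A hA
    rintro _ ⟨k, hk, rfl⟩
    have := h (hN.conj_mem' z hz g) k hk
    change g * k * g⁻¹ * z = z * (g * k * g⁻¹)
    calc g * k * g⁻¹ * z = g * (k * (g⁻¹ * z * g)) * g⁻¹ := by group
      _ = _ := by rw [this]; group)
  refine (iSup₂_le fun A hA => ?_ : (⨆ A ∈ S, A ⊓ Subgroup.centralizer (A : Set G)) ≤ ⊥) h1
  obtain ⟨g, rfl⟩ := hS A hA
  rintro _ ⟨⟨k, hk, rfl⟩, hc⟩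
  have : k ∈ K ⊓ Subgroup.centralizer (K : Set G) := ⟨hk, fun y hy => by
    have := hc _ ⟨y, hy, rfl⟩
    rw [← map_mul, ← map_mul] at this
    exact (MulAut.conj g).injective this⟩
  rw [hZ, Subgroup.mem_bot] at this
  rw [this, map_one]; exact one_mem _

/-- Let G be a finite group. (a) If K is a component of G with trivial centre, then the normal closure of K in G is a minimal normal subgroup of G. (b) If the Fitting subgroup of G is trivial, then the layer E(G) is generated by the minimal normal subgroups of G. -/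
theorem result {G : Type*} [Group G] [Finite G] : (∀ K : Subgroup G, Cfsg.IsComponent K → Subgroup.center ↥K = ⊥ → (Subgroup.normalClosure (K : Set G) ≠ ⊥ ∧ ∀ N : Subgroup G, N.Normal → N ≤ Subgroup.normalClosure (K : Set G) → N = ⊥ ∨ N = Subgroup.normalClosure (K : Set G))) ∧ (Cfsg.fittingSubgroup G = ⊥ → sSup {N : Subgroup G | N ≠ ⊥ ∧ N.Normal ∧ ∀ N' : Subgroup G, N'.Normal → N' ≤ N → N' = ⊥ ∨ N' = N} = Cfsg.layer G) := by
  have hne : ∀ K : Subgroup G, Cfsg.IsComponent K → Subgroup.normalClosure (K : Set G) ≠ ⊥ :=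
    fun K hK h => H22.comp_ne_bot hK (eq_bot_iff.2 (h ▸ Subgroup.le_normalClosure))
  refine ⟨fun K hK hZ => ⟨hne K hK, aux K hK (by rw [← H22.map_center_subtype, hZ]; simp)⟩,
    fun hF => ?_⟩
  have hZ : ∀ K : Subgroup G, Cfsg.IsComponent K → K ⊓ Subgroup.centralizer (K : Set G) = ⊥ := by
    intro K hK
    rw [eq_bot_iff, ← hF]
    exact (le_inf (inf_le_left.trans (H22.le_layer hK)) (H22.center_comp_le_centralizer_layer hK)).trans
      H22.layer_inf_centralizer_le_fitting
  apply le_antisymm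
  · refine sSup_le fun N ⟨h0, hN, hmin⟩ => ?_
    by_cases h : ∀ L : Subgroup G, Cfsg.IsComponent L → ¬ L ≤ N
    · have := H22.le_fitting_of_no_comp hN.isSubnormal (by
        rw [hF]; intro x _ y hy; rw [Subgroup.mem_bot.1 hy]; simp) h
      rw [hF, le_bot_iff] at this
      exact absurd this h0
    · push Not at h
      obtain ⟨L, hL, hle⟩ := h
      haveI := H22.layer_normal (G := G)
      rw [← (hmin _ inferInstance (Subgroup.normalClosure_le_normal hle)).resolve_left (hne L hL)]
      exact Subgroup.normalClosure_le_normal (H22.le_layer hL)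
  · exact H22.layer_le_iff.2 fun L hL => Subgroup.le_normalClosure.trans
      (le_sSup ⟨hne L hL, inferInstance, aux L hL (hZ L hL)⟩)

end Cfsg.Agent.S3747
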