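import Mathlib
import Cfsg.Statements.S3749
import Cfsg.Agent.H16.PrimPair

set_option autoImplicit false
open Cfsg

namespace Cfsg.Agent.S3749

open BG Cfsg

/-- Call a proper subgroup M of G primitive when M = N_G(N) for every non-trivial normal subgroup N of M. Let M be a primitive subgroup of the finite group G, p a prime with O_p(M) ≠ 1, and N a normal subgroup of G with M ∩ N = 1. Then p does not divide the order of N; for every prime q there is exactly one Sylow q-subgroup of N normalized by M; and if the order of N has at least two prime divisors then M is not a maximal subgroup of G. -/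
theorem result {G : Type*} [Group G] [Finite G] (M : Subgroup G) (hM : M ≠ ⊤) (hprim : ∀ N : Subgroup G, N ≤ M → M ≤ Subgroup.normalizer (N : Set G) → N ≠ ⊥ → Subgroup.normalizer (N : Set G) = M) {p : ℕ} [Fact p.Prime] (hOp : Cfsg.pCore p ↥M ≠ ⊥) (N : Subgroup G) [N.Normal] (hMN : M ⊓ N = ⊥) : ¬ p ∣ Nat.card N ∧ (∀ q : ℕ, [Fact q.Prime] → ∃! Q : Sylow q ↥N, M ≤ Subgroup.normalizer ((Q : Subgroup ↥N).map N.subtype : Set G)) ∧ ((∃ q r : ℕ, q.Prime ∧ r.Prime ∧ q ≠ r ∧ q ∣ Nat.card N ∧ r ∣ Nat.card N) → ¬ IsCoatom M) := by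
  have hp : p.Prime := Fact.out
  set P := piCoreOf {p} M with hP
  have hP0 : P ≠ ⊥ := by
    rw [hP, H02.piCoreOf_singleton hp]; exact fun e => hOp (H02.pCoreOf_eq_bot_iff.1 e)
  have hNP : N_(P) = M := hprim P (pcore_le _ _) (le_norm_pcore _ _) hP0
  have hn : ∀ A : Subgroup G, A ≤ N_(N) := fun A => Subgroup.le_normalizer_of_normal
  have hC : N ⊓ C_(P) = ⊥ := eq_bot_mono hMN (le_inf (inf_le_right.trans ((cent_le_norm P).trans hNP.le)) inf_le_left)
  have hPp : IsPGroup p P := pcore_pg hp M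
  have h1 : ¬ p ∣ Nat.card N := by
    intro hd
    obtain ⟨S, hS, hPS⟩ := sylow_superset hp hPp (le_sup_right : P ≤ N ⊔ P)
    have h2 : IsSylowIn p (S ⊓ N) N := hS.inf_normal le_sup_left (hn _)
    exact pg_fix_ne_bot hp hPp (h2.pg hp) (norm_inf (norm_of_le hPS) (hn _)) (h2.ne_bot' hp hd)
      (eq_bot_mono hC (inf_le_inf_right _ inf_le_right))
  have hc := pg_coprime hp hPp h1
  have hs : Group.IsSolvable P ∨ Group.IsSolvable N := Or.inl (pg_sol hp hPp)
  have huniq : ∀ q : ℕ, q.Prime → ∀ Q R : Subgroup G, IsSylowIn q Q N → IsSylowIn q R N → P ≤ N_(Q) →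
      P ≤ N_(R) → R = Q := by
    intro q hq Q R hQ hR n1 n2
    obtain ⟨c, hc1, hc2⟩ := coprime_sylow_trans hq hs (hn _) hc hQ hR n1 n2
    rw [hC, Subgroup.mem_bot] at hc1
    rw [hc2, hc1, cj_one]
  have hex : ∀ q : ℕ, q.Prime → ∃ Q : Subgroup G, IsSylowIn q Q N ∧ M ≤ N_(Q) := by
    intro q hq
    obtain ⟨Q, hQ, n1⟩ := coprime_sylow_exists hq hs (hn _) hc
    refine ⟨Q, hQ, le_norm_iff_cj.2 fun m hm => huniq q hq _ _ hQ (hQ.cj_of_norm (hn ⊤ trivial)) n1 ?_⟩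
    rw [← cj_norm, ← cj_of_mem_norm (X := P) (le_norm_pcore {p} M hm)]
    exact cj_mono m n1
  refine ⟨h1, fun q hq => ?_, ?_⟩
  · obtain ⟨Q, hQ, n1⟩ := hex q hq.out
    obtain ⟨Q, rfl⟩ := hQ.exists_sylow hq.out
    refine ⟨Q, n1, fun R hR => ?_⟩
    have := huniq q hq.out _ _ hQ (isSylowIn_map hq.out R) ((pcore_le _ _).trans n1) ((pcore_le _ _).trans hR)
    exact Sylow.ext (Subgroup.map_injective N.subtype_injective this)
  · rintro ⟨q, r, hq, hr, hqr, dq, dr⟩ hmax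
    obtain ⟨Q, hQ, n1⟩ := hex q hq
    have a1 : ¬ Q ≤ M := fun h => hQ.ne_bot' hq dq (eq_bot_mono hMN (le_inf h hQ.le))
    have a2 : M ⊔ Q = ⊤ := hmax.2 _ (left_lt_sup.2 a1)
    have a3 : N ⊓ (Q ⊔ M) = Q ⊔ (N ⊓ M) := dedekind hQ.le (Or.inl n1)
    rw [sup_comm Q M, a2, inf_top_eq, inf_comm, hMN, sup_bot_eq] at a3
    exact pg_not_dvd hr hq (hQ.pg hq) hqr.symm (a3 ▸ dr)

end Cfsg.Agent.S3749
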