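import Mathlib
import Cfsg.Statements.S3750
import Cfsg.Agent.H16.PrimPair

set_option autoImplicit false
open Cfsg

namespace Cfsg.Agent.S3750

open BG Cfsg H22

/-- Call a proper subgroup M of G primitive when M = N_G(N) for every non-trivial normal subgroup N of M. Let M be a primitive subgroup of the finite group G and N a normal subgroup of G with M ∩ F*(N) ≠ 1. Then F(G) = 1 and F*(N) = F*(G) = E(G); in particular every minimal normal subgroup of G is contained in N. -/
theorem result {G : Type*} [Group G] [Finite G] (M : Subgroup G) (hM : M ≠ ⊤) (hprim : ∀ N : Subgroup G, N ≤ M → M ≤ Subgroup.normalizer (N : Set G) → N ≠ ⊥ → Subgroup.normalizer (N : Set G) = M) (N : Subgroup G) [N.Normal] (hMF : M ⊓ (Cfsg.generalizedFittingSubgroup ↥N).map N.subtype ≠ ⊥) : Cfsg.fittingSubgroup G = ⊥ ∧ (Cfsg.generalizedFittingSubgroup ↥N).map N.subtype = Cfsg.generalizedFittingSubgroup G ∧ Cfsg.generalizedFittingSubgroup G = Cfsg.layer G ∧ ∀ K : Subgroup G, K.Normal → K ≠ ⊥ → (∀ K' : Subgroup G, K'.Normal → K' ≤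 K → K' = ⊥ ∨ K' = K) → K ≤ N := by
  change M ⊓ fstarOf N ≠ ⊥ at hMF
  change _ ∧ fstarOf N = _ ∧ _
  have hn : ∀ A : Subgroup G, A ≤ N_(N) := fun A => Subgroup.le_normalizer_of_normal
  have hF : ∀ A : Subgroup G, A ≤ N_(fstarOf N) := fun A => (hn A).trans (normalizer_le_normalizer_fstarOf N)
  have h1 := hprim _ inf_le_left (le_norm_inf (hF M)) hMF
  have hCn : (C_(fstarOf N)).Normal := by
    rw [← Subgroup.normalizer_eq_top_iff, eq_top_iff]; exact norm_cent (hF ⊤)
  have hC : C_(fstarOf N) = ⊥ := H16.prim_subnormal hM hprim hCn.isSubnormal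
    ((cent_anti inf_le_right).trans ((cent_le_norm _).trans h1.le))
  have hle : fstarOf N ≤ generalizedFittingSubgroup G := fstarOf_le_fstar_of_subnormal (Subgroup.Normal.isSubnormal ‹_›)
  have hFG : fittingSubgroup G = ⊥ := by
    by_contra h0
    refine nil_center_ne_bot (H02.fitting_isNilpotent G) h0 (eq_bot_mono hC (le_trans ?_ (cent_anti hle)))
    rw [fstar_def]
    exact le_cent_sup (inf_le_left.trans fitting_le_centralizer_layer) inf_le_right
  have hE : generalizedFittingSubgroup G = layer G := by rw [fstar_def, hFG, sup_bot_eq]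
  have hL : layer G ≤ N := layer_le_iff.2 fun L hL => by
    rcases comp_le_or_comm_of_subnormal hL (Subgroup.Normal.isSubnormal ‹N.Normal›) with h | h
    · exact h
    · exact absurd (eq_bot_mono hC ((comm_eq_bot.1 h).trans (cent_anti (fstarOf_le N)))) (comp_ne_bot hL)
  refine ⟨hFG, ?_, hE, fun K hK h0 hmin => ?_⟩
  · rw [← fstar_inf_eq_of_subnormal (Subgroup.Normal.isSubnormal ‹N.Normal›), inf_eq_left, hE]; exact hL
  · rcases hmin (K ⊓ N) inferInstance inf_le_left with h | h
    · exact absurd (eq_bot_mono hC ((le_cent_of_disj (hn K) Subgroup.le_normalizer_of_normal h).trans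
        (cent_anti (fstarOf_le N)))) h0
    · exact inf_eq_left.1 h

end Cfsg.Agent.S3750
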