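import Mathlib
import Cfsg.Statements.S3751
import Cfsg.Agent.H16.PrimPair

set_option autoImplicit false
open Cfsg

namespace Cfsg.Agent.S3751

open BG Cfsg

def Loc {G : Type*} [Group G] (p : ℕ) (M : Subgroup G) : Prop :=
  ∃ T : Subgroup G, IsPGroup p T ∧ T ≠ ⊥ ∧ M = N_(T)

def Mx {G : Type*} [Group G] (p : ℕ) (M : Subgroup G) : Prop :=
  Loc p M ∧ ∀ L, Loc p L → M ≤ L → L = M

theorem Loc.cj {G : Type*} [Group G] {p : ℕ} {M : Subgroup G} (h : Loc p M) (g : G) : Loc p (cj g M) := by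
  obtain ⟨T, h1, h2, rfl⟩ := h
  exact ⟨BG.cj g T, isPGroup_cj.2 h1, fun e => h2 (cj_eq_bot_iff.1 e), cj_norm g T⟩

theorem Mx.cj {G : Type*} [Group G] {p : ℕ} {M : Subgroup G} (h : Mx p M) (g : G) : Mx p (cj g M) :=
  ⟨h.1.cj g, fun L hL hle => eq_cj_iff.2 (h.2 _ (hL.cj g⁻¹) (cj_le_iff.1 hle))⟩

theorem exists_mx {G : Type*} [Group G] [Finite G] {p : ℕ} {L : Subgroup G} (h : Loc p L) :
    ∃ M, Mx p M ∧ L ≤ M := by
  obtain ⟨M, h1, h2⟩ := Set.Finite.exists_le_maximal (Set.toFinite {M : Subgroup G | Loc p M}) h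
  exact ⟨M, ⟨h2.prop, fun K hK hle => le_antisymm (h2.le_of_ge hK hle) hle⟩, h1⟩

/-- Two distinct subgroups M₁, M₂ of G form a primitive pair when, for {i, j} = {1, 2}, every non-trivial normal subgroup A of M_i contained in M₁ ∩ M₂ satisfies N_{M_j}(A) = M₁ ∩ M₂; the pair has characteristic p when moreover C_{M_i}(O_p(M_i)) ≤ O_p(M_i) for both i and O_p(M₁)O_p(M₂) ≤ M₁ ∩ M₂. Let G be a finite group, p a prime dividing its order, with O_p(G) = 1 and every p-local subgroup of characteristic p. Then either G has a primitive pair of characteristic p, or every maximal p-local subgroup M of G is strongly p-embedded in G: M is a proper subgroup, p divides its order, and for every g ∉ M the order of M ∩ gMg⁻¹ is prime to p. -/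
theorem result {G : Type*} [Group G] [Finite G] {p : ℕ} [Fact p.Prime] (hloc : Cfsg.IsOfLocalCharacteristic p G) (hOp : Cfsg.pCore p G = ⊥) : (∃ M₁ M₂ : Subgroup G, M₁ ≠ M₂ ∧ (∀ A : Subgroup G, A ≠ ⊥ → A ≤ M₁ ⊓ M₂ → (M₁ ≤ Subgroup.normalizer (A : Set G) → M₂ ⊓ Subgroup.normalizer (A : Set G) = M₁ ⊓ M₂) ∧ (M₂ ≤ Subgroup.normalizer (A : Set G) → M₁ ⊓ Subgroup.normalizer (A : Set G) = M₁ ⊓ M₂)) ∧ Subgroup.centralizer (Cfsg.pCore p ↥M₁ : Set ↥M₁) ≤ Cfsg.pCore p ↥M₁ ∧ Subgroup.centralizer (Cfsg.pCore p ↥M₂ : Set ↥M₂) ≤ Cfsg.pCore p ↥M₂ ∧ (Cfsg.pCore p ↥M₁).map M₁.subtype ⊔ (Cfsg.pCore p ↥M₂).map M₂.subtype ≤ M₁ ⊓ M₂) ∨ (∀ M : Subgroup G, (∃ T : Subgroup G, IsPGroup p T ∧ T ≠ ⊥ ∧ M = Subgroup.normalizer (T : Set G)) → (∀ L : Subgroup G, (∃ T : Subgroup G, IsPGroup p T ∧ T ≠ ⊥ ∧ L = Subgroup.normalizer (T : Set G)) → M ≤ L → L = M) → M ≠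 ⊤ ∧ p ∣ Nat.card M ∧ ∀ g : G, g ∉ M → ¬ p ∣ Nat.card ↥(M ⊓ M.map (MulAut.conj g).toMonoidHom)) := by
  have hp : p.Prime := Fact.out
  have hc : ∀ M : Subgroup G, Loc p M → M ⊓ C_(piCoreOf {p} M) ≤ piCoreOf {p} M := by
    rintro _ ⟨T, h1, h2, rfl⟩
    exact (H16.chp_iff hp).1 (hloc.2 T h1 h2)
  have hprim : ∀ M A : Subgroup G, Mx p M → A ≤ M → M ≤ N_(A) → A ≠ ⊥ → N_(A) = M := by
    intro M A hM h1 h2 h0
    have := hM.2 _ ⟨_, pcore_pg hp A, H16.chp_pcore_ne_bot hp (hc M hM.1) h1 h2 h0, rfl⟩ (norm_pcore _ h2)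
    exact le_antisymm ((norm_le_norm_pcore _ _).trans this.le) h2
  have hpair : ∀ M₁ M₂ T : Subgroup G, Mx p M₁ → Mx p M₂ → M₁ ≠ M₂ → IsSylowIn p T M₁ → IsSylowIn p T M₂ →
      ∃ M₁ M₂ : Subgroup G, Mx p M₁ ∧ Mx p M₂ ∧ M₁ ≠ M₂ ∧ piCoreOf {p} M₁ ≤ M₂ ∧ piCoreOf {p} M₂ ≤ M₁ :=
    fun M₁ M₂ T h1 h2 hne s1 s2 => ⟨M₁, M₂, h1, h2, hne, s1.pcore_le.trans s2.le, s2.pcore_le.trans s1.le⟩
  have hbot : ∀ M : Subgroup G, Mx p M → ∃ T : Subgroup G, T ≤ M ∧ IsPGroup p T ∧ T ≠ ⊥ := by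
    rintro M ⟨⟨T, h1, h2, rfl⟩, -⟩
    exact ⟨T, le_norm T, h1, h2⟩
  have hself : ∀ M : Subgroup G, Mx p M → N_(M) = M := fun M hM => by
    obtain ⟨T, h1, -, h3⟩ := hbot M hM
    exact hprim M M hM le_rfl (le_norm M) (ne_bot_mono h3 h1)
  by_cases hex : ∃ M₁ M₂ : Subgroup G, Mx p M₁ ∧ Mx p M₂ ∧ M₁ ≠ M₂ ∧ p ∣ Nat.card ↥(M₁ ⊓ M₂)
  · left
    suffices h : ∃ M₁ M₂ : Subgroup G, Mx p M₁ ∧ Mx p M₂ ∧ M₁ ≠ M₂ ∧ piCoreOf {p} M₁ ≤ M₂ ∧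
        piCoreOf {p} M₂ ≤ M₁ by
      obtain ⟨M₁, M₂, h1, h2, hne, q1, q2⟩ := h
      refine ⟨M₁, M₂, hne, fun A h0 hle => ⟨fun hn => ?_, fun hn => ?_⟩, (H16.chp_iff hp).2 (hc _ h1.1),
        (H16.chp_iff hp).2 (hc _ h2.1), ?_⟩
      · rw [hprim M₁ A h1 (hle.trans inf_le_left) hn h0, inf_comm]
      · rw [hprim M₂ A h2 (hle.trans inf_le_right) hn h0]
      · rw [H02.piCoreOf_singleton hp] at q1 q2
        exact sup_le (le_inf (Subgroup.map_subtype_le _) q1) (le_inf q2 (Subgroup.map_subtype_le _))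
    let 𝒯 : Set (Subgroup G) := {T | IsPGroup p T ∧ T ≠ ⊥ ∧ ∃ M₁ M₂ : Subgroup G, Mx p M₁ ∧ Mx p M₂ ∧ M₁ ≠ M₂ ∧
      T ≤ M₁ ∧ T ≤ M₂}
    have hne : 𝒯.Nonempty := by
      obtain ⟨M₁, M₂, h1, h2, hne, hd⟩ := hex
      obtain ⟨T, hT⟩ := sylow_exists hp (M₁ ⊓ M₂)
      exact ⟨T, hT.pg hp, hT.ne_bot' hp hd, M₁, M₂, h1, h2, hne, hT.le.trans inf_le_left, hT.le.trans inf_le_right⟩
    obtain ⟨T, hTm⟩ := (Set.toFinite 𝒯).exists_maximal hne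
    obtain ⟨hT, hT0, M₁, M₂, h1, h2, hne, l1, l2⟩ := hTm.prop
    obtain ⟨H, hH, hTH⟩ := exists_mx (p := p) ⟨T, hT, hT0, rfl⟩
    have hsyl : ∀ M : Subgroup G, Mx p M → T ≤ M → ∀ K : Subgroup G, Mx p K → M ≠ K → M ⊓ N_(T) ≤ K →
        IsSylowIn p T M := by
      intro M hM hTM K hK hMK hle
      refine IsSylowIn.of_norm hp hTM (sylow_of_max hp hT (le_inf hTM (le_norm T)) fun Y hY a1 a2 => ?_)
      exact le_antisymm (hTm.le_of_ge ⟨hY, ne_bot_mono hT0 a1, M, K, hM, hK, hMK, a2.trans inf_le_left,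
        a2.trans hle⟩ a1) a1
    have main : ∀ M₁ M₂ : Subgroup G, Mx p M₁ → Mx p M₂ → M₁ ≠ M₂ → T ≤ M₂ → IsSylowIn p T M₁ →
        ∃ M₁ M₂ : Subgroup G, Mx p M₁ ∧ Mx p M₂ ∧ M₁ ≠ M₂ ∧ piCoreOf {p} M₁ ≤ M₂ ∧ piCoreOf {p} M₂ ≤ M₁ := by
      intro M₁ M₂ h1 h2 hne l2 s1
      by_cases hN : N_(T) ≤ M₁
      · exact hpair M₁ M₂ T h1 h2 hne s1 (hsyl M₂ h2 l2 M₁ h1 hne.symm (inf_le_right.trans hN))
      · obtain ⟨x, hx, hx1⟩ := SetLike.not_le_iff_exists.1 hN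
        refine hpair M₁ (cj x M₁) T h1 (h1.cj x) (fun e => hx1 ?_) s1 ?_
        · rw [← hself M₁ h1]; exact cj_eq_self_iff.1 e.symm
        · simpa [cj_of_mem_norm hx] using s1.cj x
    by_cases e : M₁ = H
    · subst e
      exact main M₂ M₁ h2 h1 hne.symm l1 (hsyl M₂ h2 l2 M₁ h1 hne.symm (inf_le_right.trans hTH))
    · exact main M₁ M₂ h1 h2 hne l2 (hsyl M₁ h1 l1 H hH e (inf_le_right.trans hTH))
  · right
    intro M hM1 hM2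
    have hM : Mx p M := ⟨hM1, hM2⟩
    obtain ⟨T, h1, h2, h3⟩ := hM1
    refine ⟨fun e => h2 ?_, (pg_dvd hp h1 h2).trans (card_dvd (h3 ▸ le_norm T)), fun g hg hd => ?_⟩
    · haveI : T.Normal := Subgroup.normalizer_eq_top_iff.1 (h3 ▸ e)
      exact eq_bot_mono hOp (H02.le_pCore h1)
    · refine hex ⟨M, cj g M, hM, hM.cj g, fun e => hg ?_, hd⟩
      rw [← hself M hM]; exact cj_eq_self_iff.1 e.symm

end Cfsg.Agent.S3751
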