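import Mathlib
import Cfsg.Statements.S3753
import Cfsg.Agent.H16.PrimPair

set_option autoImplicit false
open Cfsg

namespace Cfsg.Agent.S3753

open BG Cfsg

theorem two {G : Type*} [Group G] [Finite G] {M A : Subgroup G}
    (h : ∀ S : Sylow 2 M, IsMulCommutative (S : Subgroup M))
    (hc : M ⊓ C_(piCoreOf {2} M) ≤ piCoreOf {2} M) (hA : A ≤ M) (hp : IsPGroup 2 A) : A ≤ piCoreOf {2} M := by
  obtain ⟨S, hS, hle⟩ := sylow_superset Nat.prime_two hp hA
  have h1 := hS.pcore_le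
  obtain ⟨S, rfl⟩ := hS.exists_sylow Nat.prime_two
  haveI := h S
  exact (le_inf hA (le_cent_of_abelian (Subgroup.map_isMulCommutative _ _) hle h1)).trans hc

/-- Two distinct subgroups M₁, M₂ of G form a primitive pair when, for {i, j} = {1, 2}, every non-trivial normal subgroup A of M_i contained in M₁ ∩ M₂ satisfies N_{M_j}(A) = M₁ ∩ M₂; the pair has characteristic p when moreover C_{M_i}(O_p(M_i)) ≤ O_p(M_i) for both i and O_p(M₁)O_p(M₂) ≤ M₁ ∩ M₂. If the finite group G has a primitive pair (M₁, M₂) of characteristic p for some prime p, then M₁ or M₂ has non-abelian Sylow 2-subgroups. In particular no group of odd order has a primitive pair of characteristic p. -/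
theorem result {G : Type*} [Group G] [Finite G] {p : ℕ} [Fact p.Prime] (M₁ M₂ : Subgroup G) (hne : M₁ ≠ M₂) (hP : ∀ A : Subgroup G, A ≠ ⊥ → A ≤ M₁ ⊓ M₂ → (M₁ ≤ Subgroup.normalizer (A : Set G) → M₂ ⊓ Subgroup.normalizer (A : Set G) = M₁ ⊓ M₂) ∧ (M₂ ≤ Subgroup.normalizer (A : Set G) → M₁ ⊓ Subgroup.normalizer (A : Set G) = M₁ ⊓ M₂)) (hc₁ : Subgroup.centralizer (Cfsg.pCore p ↥M₁ : Set ↥M₁) ≤ Cfsg.pCore p ↥M₁) (hc₂ : Subgroup.centralizer (Cfsg.pCore p ↥M₂ : Set ↥M₂) ≤ Cfsg.pCore p ↥M₂) (hO : (Cfsg.pCore p ↥M₁).map M₁.subtype ⊔ (Cfsg.pCore p ↥M₂).map M₂.subtype ≤ M₁ ⊓ M₂) : (∃ S : Sylow 2 ↥M₁, ¬ IsMulCommutative (S : Subgroup ↥M₁)) ∨ (∃ S : Sylow 2 ↥M₂, ¬ IsMulCommutative (S : Subgroup ↥M₂)) := by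
  have hp : p.Prime := Fact.out
  by_contra hno
  simp only [not_or, not_exists, not_not] at hno
  have c1 := (H16.chp_iff hp).1 hc₁
  have c2 := (H16.chp_iff hp).1 hc₂
  have q1 : piCoreOf {p} M₁ ≤ M₂ := by
    rw [H02.piCoreOf_singleton hp]; exact (le_sup_left.trans hO).trans inf_le_right
  have q2 : piCoreOf {p} M₂ ≤ M₁ := by
    rw [H02.piCoreOf_singleton hp]; exact (le_sup_right.trans hO).trans inf_le_left
  by_cases h2 : p = 2
  · subst h2
    have a1 := two hno.2 c2 q1 (pcore_pg hp _)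
    have a2 := two hno.1 c1 q2 (pcore_pg hp _)
    have a3 := H16.PP.eq_bot hP hne (pcore_le _ _) q1 (le_norm_pcore _ _)
      (by rw [le_antisymm a1 a2]; exact le_norm_pcore _ _)
    rw [a3, le_bot_iff] at a2
    rw [a3, cent_bot, inf_top_eq, le_bot_iff] at c1
    rw [a2, cent_bot, inf_top_eq, le_bot_iff] at c2
    exact hne (c1.trans c2.symm)
  · obtain ⟨T₁⟩ := (inferInstance : Nonempty (Sylow 2 M₁))
    obtain ⟨T₂⟩ := (inferInstance : Nonempty (Sylow 2 M₂))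
    exact H16.Edge.false hp ⟨hP, hne, c1, c2, q1, q2,
      H16.st_of_weaklyStable (H17.weaklyStable_of_not_sec h2 (H17.not_sec_sl2_of_comm_sylow_two h2 T₁ (hno.1 T₁))),
      H16.st_of_weaklyStable (H17.weaklyStable_of_not_sec h2 (H17.not_sec_sl2_of_comm_sylow_two h2 T₂ (hno.2 T₂)))⟩

end Cfsg.Agent.S3753
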