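import Mathlib
import Cfsg.Statements.S3754
import Cfsg.Agent.H01.PSep
import Cfsg.Agent.H22.SigBasic
import Cfsg.Agent.H17.Stable
import Cfsg.Agent.H03.PResidual
import Cfsg.Agent.H16.Util

set_option autoImplicit false
open Cfsg

namespace Cfsg.Agent.S3754

open BG Cfsg

theorem res_le {M : Type*} [Group M] [Finite M] {p : ℕ} (hp : p.Prime) {X A L : Subgroup M} (hA : IsPGroup p A)
    (hn : A ≤ N_(X)) (hL : L ≤ X ⊔ A) : (pResidual p L).map L.subtype ≤ X := by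
  rw [H03.map_pResidual_eq_closure]
  refine (Subgroup.closure_le _).2 fun g hg => ?_
  haveI : (X.subgroupOf (X ⊔ A)).Normal :=
    (Subgroup.normal_subgroupOf_iff_le_normalizer le_sup_left).2 (sup_le_norm_left hn)
  obtain ⟨k, hk⟩ := pg_card hp hA
  have h1 : (X.subgroupOf (X ⊔ A)).index ∣ p ^ k := by
    rw [← hk]
    exact (relIndex_sup hn).dvd.trans (relIndex_dvd_card X A)
  exact H16.mem_of_coprime_index (N := X.subgroupOf (X ⊔ A)) (x := ⟨g, hL hg.1⟩)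
    (Nat.Coprime.coprime_dvd_right h1 (by simpa using hg.2.pow_right k))

theorem not_cent {M N : Type*} [Group M] [Finite M] [Group N] [Finite N] {p : ℕ} (hp : p.Prime) (φ : M →* N)
    {A : Subgroup M} (hA : IsPGroup p A) {Y : Subgroup N} (hY : ¬ p ∣ Nat.card Y)
    (hn : A.map φ ≤ N_(Y)) {x : M} (hx : φ x ∈ Y)
    (h : ((pResidual p ↥(A ⊔ cj x A)).map (A ⊔ cj x A).subtype).map φ ≤ C_(A.map φ)) : φ x ∈ C_(A.map φ) := by
  rintro _ ⟨a, ha, rfl⟩
  set g := x * a * x⁻¹ * a⁻¹ with hg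
  have hgL : g ∈ A ⊔ cj x A := mul_mem (Subgroup.mem_sup_right (conj_mem_cj x ha)) (Subgroup.mem_sup_left (inv_mem ha))
  have hgY : φ g ∈ Y := by
    have := mul_mem hx (conj_mem_of_norm (hn ⟨a, ha, rfl⟩) (inv_mem hx))
    simpa [hg, mul_assoc] using this
  have hone : ∀ y ∈ Y, ∀ k : ℕ, y ^ p ^ k = 1 → y = 1 := fun y hy k hk =>
    orderOf_eq_one_iff.1 (Nat.Coprime.eq_one_of_dvd ((Nat.Coprime.coprime_dvd_left (orderOf_dvd_card hy)
      ((Nat.Prime.coprime_iff_not_dvd hp).2 hY).symm).pow_right k) (orderOf_dvd_of_pow_eq_one hk))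
  have h1 : φ (piPart {p} g) = 1 := by
    obtain ⟨k, hk⟩ := H16.exists_pow_eq_one_of_mem
      ((isPi_singleton hp).1 (isPiElt_iff.1 (isPiElt_piPart {p} g))) (Subgroup.mem_zpowers _)
    refine hone _ (piPart_mem (A := Y.comap φ) _ hgY) k (by rw [← map_pow, hk, map_one])
  have h2 : φ g ∈ C_(A.map φ) := by
    rw [← piPart_mul_compl {p} g, map_mul, h1, one_mul]
    refine h ⟨_, ?_, rfl⟩
    rw [H03.map_pResidual_eq_closure]
    refine Subgroup.subset_closure ⟨piPart_mem _ hgL, ?_⟩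
    exact ((Nat.Prime.coprime_iff_not_dvd hp).2 (by
      simpa [card_zpowers] using (isPi_compl hp).1 (isPiElt_iff.1 (isPiElt_piPart {p}ᶜ g)))).symm
  obtain ⟨k, hk⟩ := H16.exists_pow_eq_one_of_mem hA ha
  have h3 : Commute (φ g) (φ a) := (h2 _ ⟨a, ha, rfl⟩).symm
  have h4 : φ g = 1 := by
    refine hone _ hgY k ?_
    have e : φ g * φ a = φ (x * a * x⁻¹) := by simp [hg]
    have := h3.mul_pow (p ^ k)
    rw [e, ← map_pow, ← map_pow φ a, conj_pow, hk] at this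
    simpa using this.symm
  rw [hg, map_mul, map_mul, map_mul, map_inv, map_inv, mul_inv_eq_one, mul_inv_eq_iff_eq_mul] at h4
  exact h4.symm

/-- Let M be a finite p-soluble group and A a p-subgroup of M with Φ(A) ≤ O_p(M) but A ≰ O_p(M). Then there is x ∈ O_{p,p'}(M) such that L = ⟨A, xAx⁻¹⟩ satisfies: x ∈ O^p(L) and O^p(L) ≤ O_{p,p'}(M); [O^p(L), A] = O^p(L); A ∩ O_p(L) has index p in A; and [A ∩ O_p(L), L] ≤ O_p(M). Here O^p(L) is the subgroup generated by the p'-elements of L and O_{p,p'}(M) the preimage of O_{p'}(M/O_p(M)). -/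
theorem result {M : Type*} [Group M] [Finite M] {p : ℕ} [Fact p.Prime] (hM : Cfsg.IsPSolvable p M) (A : Subgroup M) (hA : IsPGroup p A) (hΦ : (frattini ↥A).map A.subtype ≤ Cfsg.pCore p M) (hnot : ¬ A ≤ Cfsg.pCore p M) : ∃ x ∈ (Cfsg.pPrimeCore p (M ⧸ Cfsg.pCore p M)).comap (QuotientGroup.mk' (Cfsg.pCore p M)), x ∈ (Cfsg.pResidual p ↥(A ⊔ A.map (MulAut.conj x).toMonoidHom)).map (A ⊔ A.map (MulAut.conj x).toMonoidHom).subtype ∧ (Cfsg.pResidual p ↥(A ⊔ A.map (MulAut.conj x).toMonoidHom)).map (A ⊔ A.map (MulAut.conj x).toMonoidHom).subtype ≤ (Cfsg.pPrimeCore p (M ⧸ Cfsg.pCore p M)).comap (QuotientGroup.mk' (Cfsg.pCore p M)) ∧ ⁅(Cfsg.pResidual p ↥(A ⊔ A.map (MulAut.conj x).toMonoidHom)).map (A ⊔ A.map (MulAut.conj x).toMonoidHom).subtype, A⁆ = (Cfsg.pResidual p ↥(A ⊔ A.map (MulAut.conj x).toMonoidHom)).map (A ⊔ A.map (MulAut.conj x).toMonoidHom).subtype ∧ (A ⊓ (Cfsg.pCore p ↥(A ⊔ A.map (MulAut.conj x).toMonoidHom)).map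 (A ⊔ A.map (MulAut.conj x).toMonoidHom).subtype).relIndex A = p ∧ ⁅A ⊓ (Cfsg.pCore p ↥(A ⊔ A.map (MulAut.conj x).toMonoidHom)).map (A ⊔ A.map (MulAut.conj x).toMonoidHom).subtype, A ⊔ A.map (MulAut.conj x).toMonoidHom⁆ ≤ Cfsg.pCore p M := by
  have hp : p.Prime := Fact.out
  set φ := QuotientGroup.mk' (pCore p M) with hφ
  have hker : φ.ker = pCore p M := QuotientGroup.ker_mk' _
  set K := pPrimeCore p (M ⧸ pCore p M) with hK
  have hKp : ¬ p ∣ Nat.card K := by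
    rw [hK, ← H02.piCore_compl_singleton hp, ← H02.piCoreOf_top]; exact pcore_not_dvd hp _
  have hCK : C_(K) ≤ K := H01.psol_cent_pPrimeCore (H01.psol_quot hM _) (H02.pCore_quotient_pCore p M)
  have hAe : IsElementaryAbelian p (A.map φ) := H17.elemAb_map_frattini hA φ (hΦ.trans hker.ge)
  have hA0 : A.map φ ≠ ⊥ := fun e => hnot (hker ▸ (Subgroup.map_eq_bot_iff _).1 e)
  obtain ⟨n, hn⟩ := hAe.exists_isElem hp
  obtain ⟨n, rfl⟩ : ∃ m, n = m + 1 := Nat.exists_eq_succ_of_ne_zero (by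
    rintro rfl; exact hA0 (card_eq_one.1 (by simpa using hn.card)))
  have hnK : ∀ X : Subgroup (M ⧸ pCore p M), X ≤ N_(K) := fun X => Subgroup.le_normalizer_of_normal
  obtain ⟨U, hU, hUK⟩ : ∃ U, IsElem p n U (A.map φ) ∧ ¬ K ⊓ C_(U) ≤ C_(A.map φ) := by
    by_contra hno
    push Not at hno
    have := (cent_symm (H22.gen_hyp hp hn (hnK _) hKp hno)).trans hCK
    exact hA0 (by rw [← pg_inf_eq_bot hp hAe.pg hKp, inf_eq_left.2 this])
  set Y := K ⊓ C_(U) with hY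
  have hYp : ¬ p ∣ Nat.card Y := not_dvd_of_le hKp inf_le_left
  have hAU : A.map φ ≤ C_(U) := le_cent_of_abelian hAe.abelian le_rfl hU.le
  have hAY : A.map φ ≤ N_(Y) := norm_inf (hnK _) (norm_of_le hAU)
  have hAX : A ≤ N_(Y.comap φ) := le_norm_iff.2 fun a ha k hk => by
    change φ _ ∈ Y
    rw [map_mul, map_mul, map_inv]
    exact conj_mem_of_norm (hAY ⟨a, ha, rfl⟩) hk
  have hne : {x : M | φ x ∈ Y ∧ φ x ∉ C_(A.map φ)}.Nonempty := by
    obtain ⟨y, h1, h2⟩ := SetLike.not_le_iff_exists.1 hUK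
    obtain ⟨y, rfl⟩ := QuotientGroup.mk'_surjective _ y
    exact ⟨y, h1, h2⟩
  obtain ⟨x₀, ⟨hx1, hx2⟩, hmin⟩ := Set.exists_min_image _ (fun x => Nat.card ↥(A ⊔ cj x A)) (Set.toFinite _) hne
  set L := A ⊔ cj x₀ A with hL
  set E := (pResidual p L).map L.subtype with hE
  have hLX : L ≤ Y.comap φ ⊔ A := sup_le le_sup_right (cj_le_of_mem le_sup_right (Subgroup.mem_sup_left hx1))
  have hEX : E ≤ Y.comap φ := res_le hp hA hAX hLX
  have hEL : E ≤ L := Subgroup.map_subtype_le _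
  have hLE : L ≤ N_(E) := H02.le_normalizer_map_subtype _
  have hAE : A ≤ N_(E) := le_sup_left.trans hLE
  have hnc : ¬ E.map φ ≤ C_(A.map φ) := fun h => hx2 (not_cent hp φ hA hYp hAY hx1 h)
  have hEY : E.map φ ≤ Y := Subgroup.map_le_iff_le_comap.2 hEX
  have hAE' : A.map φ ≤ N_(E.map φ) := (Subgroup.map_mono hAE).trans (Subgroup.le_normalizer_map φ)
  obtain ⟨x, hx, hxc⟩ : ∃ x ∈ ⁅E, A⁆, φ x ∉ C_(A.map φ) := by
    by_contra hno
    push Not at hno
    refine hnc (cent_symm (coprime_cent_of_comm hAE' (pg_coprime hp hAe.pg (not_dvd_of_le hYp hEY))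
      (Or.inl (pg_sol hp hAe.pg)) ?_))
    rw [← Subgroup.map_commutator]
    exact Subgroup.map_le_iff_le_comap.2 hno
  have hxE : x ∈ E := comm_le_left hAE hx
  have e : A ⊔ cj x A = L :=
    eq_of_le_of_card_le (sup_le le_sup_left (cj_le_of_mem le_sup_left (hEL hxE))) (hmin x ⟨hEX hxE, hxc⟩)
  have hEA : ⁅E, A⁆ = E := le_antisymm (comm_le_left hAE) (res_le hp hA (right_le_norm_comm _ _)
    (e ▸ sup_le le_sup_right (cj_le_of_mem le_sup_right (Subgroup.mem_sup_left hx))))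
  have hLU : L.map φ ≤ C_(U) := by
    refine (Subgroup.map_mono hLX).trans ?_
    rw [Subgroup.map_sup]
    exact sup_le ((Subgroup.map_comap_le _ _).trans inf_le_right) hAU
  set O := (pCore p L).map L.subtype with hO
  have hO' : O = piCoreOf {p} L := (H02.piCoreOf_singleton hp L).symm
  have h1 : A ⊓ U.comap φ ≤ A ⊓ O := by
    refine le_inf inf_le_left (le_trans (inf_le_inf_right _ (le_sup_left : A ≤ L)) ?_)
    rw [hO']
    refine le_pcore_pg hp (pg_le (hU.pg.comap_of_ker_isPGroup φ (by rw [hker]; exact H02.pCore_isPGroup p M)) inf_le_right)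
      inf_le_left (le_norm_inf (le_norm_iff.2 fun a ha k hk => ?_))
    change φ _ ∈ U
    rw [map_mul, map_mul, map_inv]
    exact conj_mem_of_norm (cent_le_norm _ (hLU ⟨a, ha, rfl⟩)) hk
  have h2 : (A ⊓ U.comap φ).relIndex A = p := by
    rw [Subgroup.inf_relIndex_left, Subgroup.relIndex_comap]
    have := card_mul_relIndex hU.le
    rw [hU.card, hn.card, pow_succ] at this
    exact Nat.eq_of_mul_eq_mul_left (pow_pos hp.pos n) this
  have h3 : (A ⊓ O).relIndex A ≠ 1 := by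
    rw [Ne, Subgroup.relIndex_eq_one, le_inf_iff, hO']
    rintro ⟨-, h⟩
    refine hnc (comm_eq_bot.1 ?_)
    rw [← Subgroup.map_commutator, hEA]
    have a1 : E ≤ piCoreOf {p} L :=
      hEA ▸ (comm_mono le_rfl h).trans (comm_le_right (hEL.trans (le_norm_pcore _ _)))
    exact pg_eq_bot hp ((pg_le (pcore_pg hp L) a1).map φ) (not_dvd_of_le hYp hEY)
  have h4 := relIndex_mul h1 (inf_le_left : A ⊓ O ≤ A)
  rw [h2] at h4
  have h5 : (A ⊓ O).relIndex A = p := ((Nat.dvd_prime hp).1 (Dvd.intro_left _ h4)).resolve_left h3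
  have h6 : A ⊓ O ≤ A ⊓ U.comap φ := by
    rw [h5] at h4
    exact Subgroup.relIndex_eq_one.1 (Nat.eq_of_mul_eq_mul_right hp.pos (h4.trans (one_mul p).symm))
  refine ⟨x, (hEX hxE).1, ?_⟩
  rw [show A ⊔ A.map (MulAut.conj x).toMonoidHom = L from e]
  refine ⟨hxE, hEX.trans (Subgroup.comap_mono inf_le_left), hEA, h5, ?_⟩
  refine le_trans ?_ hker.le
  rw [← Subgroup.map_eq_bot_iff, Subgroup.map_commutator, comm_eq_bot]
  exact le_cent_mono (cent_symm hLU) (Subgroup.map_le_iff_le_comap.2 (h6.trans inf_le_right)) le_rfl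

end Cfsg.Agent.S3754
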