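import Mathlib
import Cfsg.Statements.S3762
import Cfsg.Agent.H04.Symplectic

set_option autoImplicit false
open Cfsg

namespace Cfsg.Agent.S3762

/-- Let G be a finite p-group of symplectic type: every characteristic abelian subgroup of G is cyclic. Then G = E ∗ R is a central product of subgroups E and R (they commute elementwise and generate G) where E is extraspecial or trivial, and R is cyclic, or p = 2 and R is dihedral, semidihedral or generalized quaternion of order at least 16. -/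
theorem result {G : Type*} [Group G] [Finite G] {p : ℕ} [Fact p.Prime] (hG : IsPGroup p G) (hsymp : ∀ A : Subgroup G, A.Characteristic → IsMulCommutative A → IsCyclic A) : ∃ E R : Subgroup G, (∀ e ∈ E, ∀ r ∈ R, e * r = r * e) ∧ E ⊔ R = ⊤ ∧ (E = ⊥ ∨ Cfsg.IsExtraspecial p ↥E) ∧ (IsCyclic R ∨ (p = 2 ∧ 16 ≤ Nat.card R ∧ ((∃ m : ℕ, Nonempty (↥R ≃* DihedralGroup m)) ∨ (∃ m : ℕ, Nonempty (↥R ≃* QuaternionGroup m)) ∨ Cfsg.IsQuasiDihedral ↥R))) := by
  obtain ⟨E, R, h1, h2, h3, h4⟩ := H04.symplectic_type hG hsymp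
  refine ⟨E, R, BG.le_cent_iff.mp h1, h2, h3, h4.imp_right fun ⟨h5, m, a, b, h⟩ => ⟨h5, ?_, h.iso'⟩⟩
  rw [h.card, show 2 ^ (m + 1 + 3) = 2 ^ m * 16 by ring]
  exact Nat.le_mul_of_pos_left _ (Nat.two_pow_pos m)

end Cfsg.Agent.S3762
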