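import Mathlib
import Cfsg.Statements.S3763
import Cfsg.Agent.H04.Extraspecial

set_option autoImplicit false
open Cfsg

namespace Cfsg.Agent.S3763

/-- Let E be an extraspecial 2-group of order 2^(2n+1). Then the largest elementary abelian subgroups of E have order 2^n or 2^(n+1); and two extraspecial 2-groups of the same order whose largest elementary abelian subgroups have the same order are isomorphic. -/
theorem result {E : Type*} [Group E] [Finite E] (hE : Cfsg.IsExtraspecial 2 E) (n : ℕ) (hn : Nat.card E = 2 ^ (2 * n + 1)) : ((Cfsg.PRankLE 2 n E ∧ ¬ Cfsg.PRankLE 2 (n - 1) E) ∨ (Cfsg.PRankLE 2 (n + 1) E ∧ ¬ Cfsg.PRankLE 2 n E)) ∧ ∀ (E' : Type*) [Group E'] [Finite E'], Cfsg.IsExtraspecial 2 E' → Nat.card E' = Nat.card E → (∀ k : ℕ, Cfsg.PRankLE 2 k E ↔ Cfsg.PRankLE 2 k E') → Nonempty (E ≃* E') := by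
  obtain ⟨m, h1, hm⟩ := H04.exists_card_of_isExtraspecial hE
  obtain rfl : m = n := by have := Nat.pow_right_injective le_rfl (hm.symm.trans hn); omega
  have h2 := H04.pRankLE_iff_of_isExtraspecial hE hn
  have h3 := H04.card_sq_eq_one_of_isExtraspecial hE hn
  refine ⟨?_, fun E' _ _ h' hc hr => H04.nonempty_equiv_of_sqCount hE h' hc.symm ?_⟩
  · rcases h3 with h3 | h3
    · right; rw [(h2 _).1 h3, (h2 _).1 h3]; omega
    · left; rw [(h2 _).2 h3, (h2 _).2 h3]; omega
  · have h2' := H04.pRankLE_iff_of_isExtraspecial h' (hc.trans hn) m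
    have h4 := hr m
    rcases h3 with h3 | h3 <;> rcases H04.card_sq_eq_one_of_isExtraspecial h' (hc.trans hn) with h5 | h5
    · omega
    · rw [(h2 _).1 h3, h2'.2 h5] at h4; omega
    · rw [(h2 _).2 h3, h2'.1 h5] at h4; omega
    · omega

end Cfsg.Agent.S3763
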