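import Cfsg.Statements.S3766
import Cfsg.Agent.H03.BG1
import Cfsg.Agent.H26.Misc
import Cfsg.Agent.H22.Layer
-- import your own Cfsg.Agent.* helpers here

set_option autoImplicit false
open Cfsg

namespace Cfsg.Agent.S3766

/-- Let G be a finite solvable group and N a normal subgroup of G. Call a pair V < U of normal subgroups of G a chief factor of G when no normal subgroup of G lies strictly between them; an element g centralizes the chief factor U/V when u g u⁻¹ g⁻¹ ∈ V for all u ∈ U. Then an element of G lies in the Fitting subgroup F(N) if and only if it lies in N and centralizes every chief factor of G; and also if and only if it lies in N and centralizes every chief factor U/V of G with U ≤ F(N). -/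
theorem result {G : Type*} [Group G] [Finite G] (hG : Group.IsSolvable G) (N : Subgroup G) [N.Normal] (g : G) : (g ∈ (Cfsg.fittingSubgroup ↥N).map N.subtype ↔ g ∈ N ∧ ∀ U V : Subgroup G, (U.Normal ∧ V.Normal ∧ V < U ∧ ∀ W : Subgroup G, W.Normal → V ≤ W → W ≤ U → W = V ∨ W = U) → ∀ u ∈ U, u * g * u⁻¹ * g⁻¹ ∈ V) ∧ (g ∈ (Cfsg.fittingSubgroup ↥N).map N.subtype ↔ g ∈ N ∧ ∀ U V : Subgroup G, (U.Normal ∧ V.Normal ∧ V < U ∧ ∀ W : Subgroup G, W.Normal → V ≤ W → W ≤ U → W = V ∨ W = U) → U ≤ (Cfsg.fittingSubgroup ↥N).map N.subtype → ∀ u ∈ U, u * g * u⁻¹ * g⁻¹ ∈ V) := by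
  open BG in
  have hF : (fittingSubgroup ↥N).map N.subtype = fittingOf N := rfl
  rw [hF]
  haveI hFn : (fittingOf N).Normal := Subgroup.normalizer_eq_top_iff.1
    (eq_top_iff.2 (norm_fit (Subgroup.le_normalizer_of_normal (K := ⊤))))
  have hcf : ∀ U V : Subgroup G, (U.Normal ∧ V.Normal ∧ V < U ∧ ∀ W : Subgroup G, W.Normal → V ≤ W → W ≤ U →
      W = V ∨ W = U) ↔ ChiefFactor ⊤ U V := fun U V =>
    ⟨fun ⟨a, b, c, d⟩ => ⟨le_top, c, Subgroup.le_normalizer_of_normal, Subgroup.le_normalizer_of_normal,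
      fun W h1 h2 h3 => d W (Subgroup.normalizer_eq_top_iff.1 (eq_top_iff.2 h3)) h1 h2⟩,
     fun h => ⟨Subgroup.normalizer_eq_top_iff.1 (eq_top_iff.2 h.normU),
      Subgroup.normalizer_eq_top_iff.1 (eq_top_iff.2 h.normV), h.lt,
      fun W _ h1 h2 => h.min W h1 h2 Subgroup.le_normalizer_of_normal⟩⟩
  have h1 : g ∈ fittingOf N → ∀ U V, ChiefFactor ⊤ U V → ∀ u ∈ U, u * g * u⁻¹ * g⁻¹ ∈ V := fun hg U V h u hu =>
    h.comm_le_of_nil le_top Subgroup.le_normalizer_of_normal (fit_nil N) (Subgroup.commutator_mem_commutator hu hg)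
  haveI := H02.isSolvable_top_iff.2 hG
  have h2 : g ∈ N → (∀ U V, ChiefFactor ⊤ U V → U ≤ fittingOf N → ∀ u ∈ U, u * g * u⁻¹ * g⁻¹ ∈ V) →
      g ∈ fittingOf N := by
    intro hg h
    let D : Subgroup G := N ⊓ ⨅ (U : Subgroup G) (V : Subgroup G) (_ : ChiefFactor ⊤ U V) (_ : U ≤ fittingOf N),
      H26.commKer U V
    have hD : ∀ U V, ChiefFactor ⊤ U V → U ≤ fittingOf N → ⁅D, U⁆ ≤ V := fun U V a b =>
      (H26.le_commKer_iff.1 (inf_le_right.trans
        (iInf_le_of_le U (iInf_le_of_le V (iInf_le_of_le a (iInf_le _ b)))))).2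
    have hDn : (⊤ : Subgroup G) ≤ N_(D) := by
      refine H22.le_normalizer_inf Subgroup.le_normalizer_of_normal (H22.le_normalizer_iInf fun U =>
        H22.le_normalizer_iInf fun V => H22.le_normalizer_iInf fun a => H22.le_normalizer_iInf fun b =>
          H26.le_normalizer_commKer a.normU a.normV)
    haveI : D.Normal := Subgroup.normalizer_eq_top_iff.1 (eq_top_iff.2 hDn)
    have hgD : g ∈ D := by
      refine Subgroup.mem_inf.2 ⟨hg, ?_⟩
      simp only [Subgroup.mem_iInf]
      intro U V a b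
      refine ⟨a.normV trivial, fun u hu => ?_⟩
      rw [← commutatorElement_inv]
      exact inv_mem (h U V a b u hu)
    have h3 : ∀ H : Subgroup G, H ≤ D → ⊤ ≤ N_(H) → H ≤ fittingOf N := by
      intro H
      induction H using WellFoundedLT.induction with
      | ind H ih =>
        intro hH hn
        rcases eq_or_ne H ⊥ with rfl | h0
        · exact bot_le
        obtain ⟨L, h1, -⟩ := exists_chiefFactor_below (bot_lt_iff_ne_bot.2 h0) le_top le_norm_bot hn
        have h2 : L ≤ fittingOf N := ih L h1.lt (h1.le'.trans hH) h1.normV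
        refine le_fit (nilMod_bot.1 ?_) (hH.trans inf_le_left) (le_top.trans hn)
        exact nilMod_of_stab bot_le le_top le_norm_bot Subgroup.le_normalizer_of_normal
          (fun U Z a _ c => by
            rw [Subgroup.commutator_comm]; exact (comm_mono hH le_rfl).trans (hD U Z a c))
          (nilMod_of_der_le ((h1.der_le (H02.isSolvable_of_le le_top)).trans h2))
    exact h3 D le_rfl hDn hgD
  simp only [hcf]
  exact ⟨⟨fun h => ⟨fit_le N h, h1 h⟩, fun h => h2 h.1 fun U V a _ => h.2 U V a⟩,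
    ⟨fun h => ⟨fit_le N h, fun U V a _ => h1 h U V a⟩, fun h => h2 h.1 h.2⟩⟩

end Cfsg.Agent.S3766
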