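import Cfsg.Statements.S3768
import Cfsg.Agent.H02.Frobenius
import Cfsg.Agent.H01.Basic
import Cfsg.Agent.S0035
-- import your own Cfsg.Agent.* helpers here

set_option autoImplicit false
open Cfsg

namespace Cfsg.Agent.S3768

/-- Let G be a finite Frobenius group with Frobenius complement R and Frobenius kernel K (the identity together with the elements in no conjugate of R), and let N be a normal subgroup of G not containing K. Then G/N is a Frobenius group with Frobenius complement RN/N whose Frobenius kernel is the image of K. -/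
theorem result {G : Type*} [Group G] [Finite G] (R : Subgroup G) (hR : Cfsg.IsFrobeniusComplement R) (N : Subgroup G) [N.Normal] (hKN : ¬ Cfsg.frobeniusKernel R ⊆ N) : Cfsg.IsFrobeniusComplement (R.map (QuotientGroup.mk' N)) ∧ Cfsg.frobeniusKernel (R.map (QuotientGroup.mk' N)) = QuotientGroup.mk' N '' Cfsg.frobeniusKernel R := by
  obtain ⟨K, hK, hn, hc⟩ := Cfsg.Agent.S0035.result R hR
  have hNK : N ≤ K := (H02.IsFrob.le_or_ge_of_normal hR hK N).resolve_right
    (fun h => hKN (hK ▸ h))
  have hcop : (Nat.card K).Coprime (Nat.card R) := by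
    rw [H02.IsFrob.card_of_coe_eq hR hK]; exact (H02.IsFrob.coprime hR).symm
  have hc' := H01.isComplement'_map hc hcop (QuotientGroup.mk' N) (QuotientGroup.mk'_surjective N)
  have : (K.map (QuotientGroup.mk' N)).Normal := hn.map _ (QuotientGroup.mk'_surjective N)
  have hK1 : K.map (QuotientGroup.mk' N) ≠ ⊥ := by
    rw [Ne, Subgroup.map_eq_bot_iff, QuotientGroup.ker_mk']
    exact fun h => hKN (hK ▸ h)
  have hR1 : R.map (QuotientGroup.mk' N) ≠ ⊥ := by
    rw [Ne, Subgroup.map_eq_bot_iff, QuotientGroup.ker_mk']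
    intro h
    exact hR.1 (eq_bot_iff.mpr ((le_inf (h.trans hNK) le_rfl).trans hc.disjoint.le_bot))
  have hf : ∀ h ∈ R.map (QuotientGroup.mk' N), h ≠ 1 →
      K.map (QuotientGroup.mk' N) ⊓ Subgroup.centralizer {h} = ⊥ := by
    rintro _ ⟨r, hr, rfl⟩ h1
    exact H02.fpf_map_mk' hNK (H02.IsFrob.fpf_of_coe_eq hR hK hr (fun h => h1 (by simp [h])))
  refine ⟨H02.isFrob_of_fpf hc' hK1 hR1 hf, ?_⟩
  rw [← H02.frobKer_eq_of_fpf hc' hK1 hR1 hf, ← hK]
  rfl

end Cfsg.Agent.S3768
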