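import Mathlib
import Cfsg.Statements.S3772
import Cfsg.Agent.H04.Extraspecial

set_option autoImplicit false
open Cfsg

namespace Cfsg.Agent.S3772

/-- Let G be a finite 2-group whose Frattini subgroup Φ(G) has order 2, with |G : Φ(G)| = 2^d, and let j be the number of elements x of G with x² = 1. Then j = 2^d, or j = 2^d + 2^(d−r) or j = 2^d − 2^(d−r) for some positive integer r with 2r ≤ d. Moreover if d = 2r and j is 2^d + 2^r or 2^d − 2^r, then G is extraspecial. -/
theorem result {G : Type*} [Group G] [Finite G] (hG : IsPGroup 2 G) (hΦ : Nat.card (frattini G) = 2) (d : ℕ) (hd : (frattini G).index = 2 ^ d) : (Nat.card {x : G // x ^ 2 = 1} = 2 ^ d ∨ ∃ r : ℕ, 1 ≤ r ∧ 2 * r ≤ d ∧ (Nat.card {x : G // x ^ 2 = 1} = 2 ^ d + 2 ^ (d - r) ∨ Nat.card {x : G // x ^ 2 = 1} + 2 ^ (d - r) = 2 ^ d)) ∧ (∀ r : ℕ, d = 2 * r → (Nat.card {x : G // x ^ 2 = 1} = 2 ^ d + 2 ^ r ∨ Nat.card {x : G // x ^ 2 = 1} + 2 ^ r = 2 ^ d) → Cfsg.IsExtraspecial 2 G) := by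
  obtain ⟨z, h1, h2⟩ := H04.exists_aes_of_frattini hG hΦ
  obtain ⟨n, h3, h4⟩ := h1.sqCount_cases
  rw [H04.inf_cent_top, Subgroup.card_top, H04.sqCount_top] at *
  have h5 : Nat.card G = 2 ^ (d + 1) := by rw [← (frattini G).card_mul_index, hΦ, hd, pow_succ']
  have hz : Subgroup.zpowers z ≤ Subgroup.center G := h1.zpowers_le.trans H04.inf_cent_top.le
  obtain ⟨k, hk⟩ := H04.card_eq_pow hG (Subgroup.center G)
  have hk1 : 1 ≤ k := by
    have := BG.card_le hz
    rw [Nat.card_zpowers, h1.ord, hk] at this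
    exact (Nat.pow_le_pow_iff_right one_lt_two).mp this
  obtain ⟨k, rfl⟩ : ∃ j, k = j + 1 := ⟨k - 1, by omega⟩
  rw [h5, hk, ← pow_add] at h3
  obtain rfl : d = 2 * n + k := by have := Nat.pow_right_injective le_rfl h3; omega
  have h6 : 2 ^ n * 2 ^ (k + 1) = 2 * 2 ^ (2 * n + k - n) := by
    rw [← pow_add, ← pow_succ']; congr 1; omega
  rw [h5, hk, h6, pow_succ] at h4
  have h7 : n = 0 → Nat.card {x : G // x ^ 2 = 1} = 2 ^ (2 * n + k) := by
    rintro rfl
    have h8 := h1.two_le_sqCount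
    rw [H04.sqCount_top] at h8
    rcases h4 with h4 | h4 | h4
    · omega
    · exfalso
      have h9 : Subgroup.center G = ⊤ := BG.eq_of_le_of_card_le le_top
        (by rw [Subgroup.card_top, h5, hk]; simp)
      have h10 : {x : G | x ^ 2 = 1} = Set.univ := Set.eq_of_subset_of_ncard_le (Set.subset_univ _)
        (by
          rw [Set.ncard_univ, h5, pow_succ]
          change _ ≤ Nat.card {x : G // x ^ 2 = 1}
          rw [Nat.sub_zero] at h4; omega)
      refine h1.ne_one (Subgroup.zpowers_eq_bot.mp (h2 ▸ (H04.frattini_eq_bot_iff hG).mpr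
        ⟨⟨⟨fun x y => (H04.commute_of_mem_center (h9 ▸ Subgroup.mem_top x) y)⟩⟩,
        fun x => (h10.ge (Set.mem_univ x))⟩))
    · simp at h4; omega
  refine ⟨?_, fun r hr h8 => ?_⟩
  · by_cases h0 : n = 0
    · exact Or.inl (h7 h0)
    · exact h4.imp (fun h => by omega) fun h => ⟨n, by omega, by omega, by omega⟩
  · have h9 := Nat.two_pow_pos r
    have h10 := Nat.two_pow_pos (2 * n + k - n)
    have h11 : 2 ^ (2 * n + k - n) = 2 ^ r := by omega
    obtain rfl : k = 0 := by have := Nat.pow_right_injective le_rfl h11; omega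
    refine H04.isExtraspecial_of_aes_top h1 (BG.eq_of_le_of_card_le hz
      (by rw [Nat.card_zpowers, h1.ord, hk]; rfl)).ge fun hc => ?_
    have h12 : Subgroup.center G = ⊤ := eq_top_iff.mpr fun x _ =>
      Subgroup.mem_center_iff.mpr fun y => hc.is_comm.comm y x
    rw [h12, Subgroup.card_top, h5] at hk
    have := h7 (by have := Nat.pow_right_injective le_rfl hk; omega)
    omega

end Cfsg.Agent.S3772
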