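import Mathlib
import Cfsg.Statements.S3774
import Cfsg.Agent.H04.Breadth

set_option autoImplicit false
open Cfsg

namespace Cfsg.Agent.S3774

/-- Let G be a nontrivial finite 2-group whose automorphism group permutes the involutions of G transitively. Then every involution of G is central, so that the involutions together with 1 form the subgroup Ω₁(Z(G)), and if this subgroup has order q then |G| is a power of q. -/
theorem result {G : Type*} [Group G] [Finite G] [Nontrivial G] (hG : IsPGroup 2 G) (htrans : ∀ x y : G, x ≠ 1 → x ^ 2 = 1 → y ≠ 1 → y ^ 2 = 1 → ∃ a : MulAut G, a x = y) : (∀ x : G, x ^ 2 = 1 → x ∈ Subgroup.center G) ∧ ∃ m : ℕ, Nat.card G = Nat.card {z : G // z ^ 2 = 1} ^ m := by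
  open Subgroup BG H04 in
  obtain ⟨z, -, h1, h2, h3⟩ := exists_mem_center_pow_eq_one_of_normal hG ⊤ top_ne_bot
  have h4 : ∀ x : G, x ^ 2 = 1 → x ∈ center G := fun x hx => by
    by_cases h4 : x = 1
    · exact h4 ▸ one_mem _
    obtain ⟨a, rfl⟩ := htrans z x h1 h2 h4 hx
    exact (characteristic_iff_map_le.mp inferInstance a) ⟨z, h3, rfl⟩
  refine ⟨h4, ?_⟩
  obtain ⟨n, hn⟩ := IsPGroup.iff_card.mp hG
  obtain ⟨k, hk⟩ := card_eq_pow hG (omegaOne 2 (center G))
  have h5 : {z : G | z ^ 2 = 1} = omegaOne 2 (center G) := Set.ext fun x =>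
    ⟨fun h => mem_omegaOne (h4 x h) h, fun h => ((mem_omegaOne_iff_of_comm inferInstance).mp h).2⟩
  have h6 : {z : G | z ^ 2 = 1}.ncard = 2 ^ k := h5 ▸ hk
  have h7 := ncard_eq_mul_of_fibers (s := {1}ᶜ) (t := {z : G | z ^ 2 = 1} \ {1}) (Set.toFinite _)
    (Set.toFinite _) (fun x => x ^ (orderOf x / 2)) (fun x hx => by
      obtain ⟨j, hj⟩ := IsPGroup.iff_orderOf.mp hG x
      rcases j with _ | j
      · exact absurd (orderOf_eq_one_iff.mp hj) hx
      rw [hj, pow_succ, Nat.mul_div_cancel _ two_pos]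
      exact ⟨show _ = _ by rw [← pow_mul, ← pow_succ, ← hj, pow_orderOf_eq_one],
        pow_ne_one_of_lt_orderOf (by positivity) (hj ▸ Nat.pow_lt_pow_right one_lt_two j.lt_succ_self)⟩)
    (m := {x : G | x ∈ ({1}ᶜ : Set G) ∧ x ^ (orderOf x / 2) = z}.ncard) fun w hw => by
      obtain ⟨a, rfl⟩ := htrans z w h1 h2 hw.2 hw.1
      rw [← Set.ncard_image_of_injective {x : G | x ∈ ({1}ᶜ : Set G) ∧ x ^ (orderOf x / 2) = z}
        a.injective]
      congr 1
      ext x
      obtain ⟨x, rfl⟩ := a.surjective x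
      rw [a.injective.mem_set_image]
      simp [← map_pow]
  rw [Set.ncard_compl, Set.ncard_sdiff_singleton_of_mem (by simp), h6, hn, Set.ncard_singleton] at h7
  have h8 := Nat.gcd_eq_left (Dvd.intro _ h7.symm)
  rw [Nat.pow_sub_one_gcd_pow_sub_one] at h8
  have h9 : k.gcd n = k := Nat.pow_right_injective le_rfl
    ((Nat.sub_add_cancel Nat.one_le_two_pow).symm.trans ((congrArg (· + 1) h8).trans
      (Nat.sub_add_cancel Nat.one_le_two_pow)))
  obtain ⟨m, hm⟩ := h9 ▸ Nat.gcd_dvd_right k n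
  exact ⟨m, by rw [hn, hm, pow_mul, ← h6]; rfl⟩

end Cfsg.Agent.S3774
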