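import Mathlib
import Cfsg.Statements.S3775
import Cfsg.Agent.H04.Soft
import Cfsg.Agent.H01.Gaschutz

set_option autoImplicit false
open Cfsg

namespace Cfsg.Agent.S3775

/-- Invariance under a group of automorphisms. -/
def Inv {A : Type*} [Group A] (X : Subgroup (MulAut A)) (B : Subgroup A) : Prop :=
  ∀ x ∈ X, ∀ b ∈ B, x b ∈ B

theorem inv_iff {A : Type*} [Group A] {X : Subgroup (MulAut A)} {B : Subgroup A} :
    (∀ x ∈ X, B.map x.toMonoidHom = B) ↔ Inv X B :=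
  ⟨fun h x hx b hb => (h x hx).le ⟨b, hb, rfl⟩, fun h x hx => le_antisymm
    (Subgroup.map_le_iff_le_comap.mpr (h x hx)) fun b hb => ⟨x⁻¹ b, h _ (inv_mem hx) b hb, by simp⟩⟩

open Subgroup BG SemidirectProduct in
theorem maschke {A : Type*} [CommGroup A] [Finite A] {p : ℕ} [hp : Fact p.Prime] (hA : IsPGroup p A)
    {X : Subgroup (MulAut A)} (hX : (Nat.card X).Coprime p) {C B O : Subgroup A} (hC : Inv X C)
    (hB : Inv X B) (hO : Inv X O) (h1 : C ≤ B) (h2 : B ≤ O) (h3 : ∀ o ∈ O, o ^ p ∈ C) :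
    ∃ D, Inv X D ∧ C ≤ D ∧ D ≤ O ∧ D ⊓ B ≤ C ∧ O ≤ D ⊔ B := by
  haveI : Finite (A ⋊[X.subtype] X) := Finite.of_equiv _ SemidirectProduct.equivProd.symm
  haveI : (C.map (inl : A →* A ⋊[X.subtype] X)).Normal := ⟨by
    rintro _ ⟨c, hc, rfl⟩ g
    refine ⟨g.right.1 c, hC _ g.right.2 c hc, ?_⟩
    rw [← inl_left_mul_inr_right g, mul_inv_rev, ← mul_assoc, mul_assoc (inl g.left),
      mul_assoc (inl g.left), ← map_inv, ← inl_aut, ← map_inv, ← map_mul, ← map_mul, mul_inv_cancel_comm]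
    simp⟩
  let π := QuotientGroup.mk' (C.map (inl : A →* A ⋊[X.subtype] X))
  let f := π.comp inl
  have hf : f.ker = C := by
    rw [← MonoidHom.comap_ker, QuotientGroup.ker_mk', comap_map_eq_self_of_injective inl_injective]
  have h4 : ∀ (x : X) a, f (x.1 a) = π (inr x) * f a * (π (inr x))⁻¹ := fun x a => by
    rw [← map_inv, ← map_inv]; exact (congrArg π (inl_aut x a)).trans (by simp [f])
  have h5 : ∀ K, Inv X K → (π.comp inr).range ≤ N_(K.map f) := fun K hK => le_norm_iff.mpr (by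
    rintro _ ⟨x, rfl⟩ _ ⟨k, hk, rfl⟩
    exact ⟨_, hK _ x.2 k hk, h4 x k⟩)
  obtain ⟨W, h6, h7, h8, h9⟩ := H01.maschke_elementary hp.out (V := O.map f) (by
      rintro _ ⟨o, ho, rfl⟩; rw [← map_pow]; exact hf.ge (h3 o ho)) (h5 O hO) (map_mono h2) (h5 B hB)
    (H01.coprime_card_of_isPGroup ((hA.to_subgroup B).map f)
      (hX.coprime_dvd_left (Subgroup.card_range_dvd _)))
  refine ⟨W.comap f, fun x hx b hb => ?_, hf.ge.trans (ker_le_comap f W), (comap_mono h6).trans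
    (by rw [comap_map_eq, hf, sup_eq_left.mpr (h1.trans h2)]),
    fun d hd => hf.le (h8.le ⟨⟨d, hd.2, rfl⟩, hd.1⟩), ?_⟩
  · exact mem_comap.mpr (h4 ⟨x, hx⟩ b ▸ conj_mem_of_norm (h7 ⟨⟨x, hx⟩, rfl⟩) hb)
  · refine (le_comap_map f O).trans ?_
    rw [← h9, ← comap_sup_eq_of_le_range f (map_le_range f B) (h6.trans (map_le_range f O)),
      comap_map_eq, hf, sup_eq_left.mpr h1, sup_comm]

open Subgroup BG H04 in
theorem key {A : Type*} [CommGroup A] [Finite A] {p : ℕ} [hp : Fact p.Prime] (hA : IsPGroup p A)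
    {X : Subgroup (MulAut A)} (hX : (Nat.card X).Coprime p)
    (h : ∀ B C : Subgroup A, B ≠ ⊥ → Inv X B → Inv X C → B ⊓ C = ⊥ → B ⊔ C = ⊤ → C = ⊥) {e : ℕ}
    (he : ∀ a : A, a ^ p ^ (e + 1) = 1) {W : Subgroup A} (hW : Inv X W) (h0 : W ≠ ⊥)
    (h1 : W ≤ (⊤ : Subgroup A).map (powMonoidHom (p ^ e))) :
    (∀ a : A, a ^ p ^ e ∈ W) ∧ ∀ a : A, a ^ p ^ e = 1 → ∃ b, b ^ p = a := by
  have i1 : ∀ {K L}, Inv X K → Inv X L → Inv X (K ⊓ L) := fun h1 h2 x hx b hb =>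
    ⟨h1 x hx b hb.1, h2 x hx b hb.2⟩
  have i2 : ∀ {K L}, Inv X K → Inv X L → Inv X (K ⊔ L) := fun h1 h2 x hx b hb => by
    obtain ⟨a, ha, b, hb', rfl⟩ := mem_sup.mp hb
    exact map_mul x a b ▸ mul_mem_sup (h1 x hx a ha) (h2 x hx b hb')
  have i3 : ∀ {K} n, Inv X K → Inv X (K.map (powMonoidHom n)) := fun n h1 x hx => by
    rintro _ ⟨b, hb, rfl⟩; exact ⟨_, h1 x hx b hb, (map_pow x b n).symm⟩
  have i4 : ∀ {K} n, Inv X K → Inv X (K.comap (powMonoidHom n)) := fun n h1 x hx b hb =>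
    mem_comap.mpr ((map_pow x b n).symm ▸ h1 x hx _ hb :)
  have i5 : Inv X ⊥ := fun x _ b hb => by simp [mem_bot.mp hb]
  obtain ⟨H, ⟨h2, h3⟩, h4⟩ := exists_minimal_of_wellFoundedLT
    (fun H : Subgroup A => Inv X H ∧ W ≤ H.map (powMonoidHom (p ^ e))) ⟨⊤, fun _ _ _ _ => trivial, h1⟩
  have h5 : H ≤ W.comap (powMonoidHom (p ^ e)) := (h4 ⟨i1 h2 (i4 _ hW), fun w hw => by
    obtain ⟨a, ha, rfl⟩ := h3 hw
    exact ⟨a, ⟨ha, hw⟩, rfl⟩⟩ inf_le_left).trans inf_le_right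
  have h6 : H ⊓ comap (powMonoidHom (p ^ e)) ⊥ ≤ H.map (powMonoidHom p) := by
    have h6 : H.map (powMonoidHom p) ≤ H ⊓ comap (powMonoidHom (p ^ e)) ⊥ := by
      rintro _ ⟨a, ha, rfl⟩
      exact ⟨pow_mem ha p, (pow_mul a p _).symm.trans (pow_succ' p e ▸ he a)⟩
    obtain ⟨D, d1, d2, d3, d4, d5⟩ := maschke hA hX (i3 p h2) (i1 h2 (i4 _ i5)) h2 h6 inf_le_left
      fun o ho => ⟨o, ho, rfl⟩
    refine le_trans (le_inf (inf_le_left.trans (h4 ⟨d1, fun w hw => ?_⟩ d3)) le_rfl) d4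
    obtain ⟨a, ha, rfl⟩ := h3 hw
    obtain ⟨d, hd, b, hb, rfl⟩ := mem_sup.mp (d5 ha)
    exact ⟨d, hd, by rw [map_mul, mem_bot.mp hb.2, mul_one]⟩
  obtain ⟨C, ⟨h7, h8⟩, h9⟩ := exists_maximal_of_wellFoundedGT
    (fun C : Subgroup A => Inv X C ∧ H ⊓ C = ⊥) ⟨⊥, i5, inf_bot_eq H⟩
  have h10 : H ⊔ C = ⊤ := by
    have c1 : C ≤ C.comap (powMonoidHom p) := fun c hc => pow_mem hc p
    obtain ⟨D, d1, d2, d3, d4, d5⟩ := maschke hA hX h7 (i1 (i4 p h7) (i2 h2 h7)) (i4 p h7)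
      (le_inf c1 le_sup_right) inf_le_left fun o ho => ho
    have d6 : D ≤ C := h9 ⟨d1, eq_bot_iff.mpr ((le_inf inf_le_left ((le_inf inf_le_right (le_inf
      (inf_le_right.trans d3) (inf_le_left.trans le_sup_left))).trans d4)).trans h8.le)⟩ d2
    have d7 := d5.trans (sup_le (d6.trans le_sup_right) inf_le_right)
    by_contra h10
    obtain ⟨a, -, ha⟩ := SetLike.exists_of_lt (Ne.lt_top h10)
    obtain ⟨k, h11, h12⟩ := exists_pow_notMem_pow_mem hA _ ha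
    obtain ⟨x, hx, c, hc, h13⟩ := mem_sup.mp h12
    have h14 : x ^ p ^ e * c ^ p ^ e = 1 := by rw [← mul_pow, h13, ← pow_mul, ← pow_succ', he]
    obtain ⟨y, hy, rfl⟩ := h6 ⟨hx, h8.le (mem_inf.mpr ⟨pow_mem hx (p ^ e),
      (congrArg (· ∈ C) (eq_inv_of_mul_eq_one_left h14)).mpr (inv_mem (pow_mem hc _))⟩)⟩
    refine h11 ((mul_mem_cancel_left (mem_sup_left (inv_mem hy))).mp (d7 (mem_comap.mpr ?_)))
    rw [map_mul, map_inv, powMonoidHom_apply p (a ^ p ^ k), ← h13, inv_mul_cancel_left]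
    exact hc
  obtain rfl : H = ⊤ := by
    rw [← h10, h H C (fun h11 => h0 (by simpa [h11] using h3)) h2 h7 h8 h10, sup_bot_eq]
  exact ⟨fun a => h5 trivial, fun a ha => by simpa using h6 ⟨trivial, ha⟩⟩


/-- Let A be a finite abelian p-group and X a group of automorphisms of A of order prime to p. Call a subgroup of A invariant when every element of X maps it onto itself. Then the following are equivalent: (i) A is not the direct product of two nontrivial invariant subgroups; (ii) every invariant subgroup of A is one of the subgroups Ω_i(A) = {a : a^(p^i) = 1}; (iii) the subgroup Ω₁(A) of elements of order dividing p has no invariant subgroups other than 1 and itself. -/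
theorem result {A : Type*} [CommGroup A] [Finite A] {p : ℕ} [Fact p.Prime] (hA : IsPGroup p A) (X : Subgroup (MulAut A)) (hX : (Nat.card X).Coprime p) : ((¬ ∃ B C : Subgroup A, B ≠ ⊥ ∧ C ≠ ⊥ ∧ (∀ x ∈ X, B.map x.toMonoidHom = B) ∧ (∀ x ∈ X, C.map x.toMonoidHom = C) ∧ B ⊓ C = ⊥ ∧ B ⊔ C = ⊤) ↔ (∀ B : Subgroup A, (∀ x ∈ X, B.map x.toMonoidHom = B) → ∃ i : ℕ, ∀ a : A, a ∈ B ↔ a ^ p ^ i = 1)) ∧ ((∀ B : Subgroup A, (∀ x ∈ X, B.map x.toMonoidHom = B) → ∃ i : ℕ, ∀ a : A, a ∈ B ↔ a ^ p ^ i = 1) ↔ (∀ B : Subgroup A, (∀ x ∈ X, B.map x.toMonoidHom = B) → (∀ b ∈ B, b ^ p = 1) → B = ⊥ ∨ ∀ a : A, a ∈ B ↔ a ^ p = 1)) := by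
  open Subgroup BG H04 in
  have hpp : p.Prime := Fact.out
  simp only [inv_iff]
  have h23 : (∀ B : Subgroup A, Inv X B → ∃ i : ℕ, ∀ a : A, a ∈ B ↔ a ^ p ^ i = 1) ↔
      (∀ B : Subgroup A, Inv X B → (∀ b ∈ B, b ^ p = 1) → B = ⊥ ∨ ∀ a : A, a ∈ B ↔ a ^ p = 1) := by
    refine ⟨fun h B hB h1 => ?_, fun h B hB => ?_⟩
    · obtain ⟨_ | i, hi⟩ := h B hB
      · exact Or.inl (eq_bot_iff.mpr fun a ha => by simpa using (hi a).mp ha)
      · exact Or.inr fun a => ⟨h1 a, fun ha => (hi a).mpr (by rw [pow_succ', pow_mul, ha, one_pow])⟩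
    have h1 : ∀ n, (∃ i : ℕ, ∀ a : A, a ∈ B ↔ a ^ p ^ i = 1) ∨ ∀ a : A, a ^ p ^ n = 1 → a ∈ B := by
      intro n
      induction n with
      | zero => exact Or.inr fun a ha => by simp [show a = 1 by simpa using ha]
      | succ n ih =>
        refine ih.elim Or.inl fun ih => ?_
        by_cases h1 : ∀ a ∈ B, a ^ p ^ n = 1
        · exact Or.inl ⟨n, fun a => ⟨h1 a, ih a⟩⟩
        refine Or.inr fun a ha => ?_
        push Not at h1
        obtain ⟨b, hb, h1⟩ := h1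
        obtain ⟨k, h2, h3⟩ := exists_pow_notMem_pow_mem hA (powMonoidHom (p ^ n)).ker h1
        obtain ⟨c, hc, h4⟩ := ((h ((B ⊓ (powMonoidHom (p ^ (n + 1))).ker).map (powMonoidHom (p ^ n)))
          (fun x hx => by
            rintro _ ⟨b, hb, rfl⟩
            exact ⟨_, ⟨hB x hx b hb.1, show x b ^ p ^ (n + 1) = 1 by
              rw [← map_pow, show b ^ p ^ (n + 1) = 1 from hb.2, map_one]⟩, (map_pow x b _).symm⟩) (by
            rintro _ ⟨b, hb, rfl⟩; exact (pow_mul b _ p).symm.trans hb.2)).resolve_left (fun h4 =>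
          h2 (h4.le ⟨_, ⟨pow_mem hb _, show (b ^ p ^ k) ^ p ^ (n + 1) = 1 by
            rw [pow_succ', pow_mul]; exact h3⟩, rfl⟩)) _).mpr ((pow_mul a _ p).symm.trans ha)
        refine (mul_mem_cancel_left (inv_mem (mem_inf.mp hc).1)).mp (ih _ ?_)
        rw [mul_pow, inv_pow]; exact inv_mul_eq_one.mpr h4
    obtain ⟨n, hn⟩ := IsPGroup.iff_card.mp hA
    exact (h1 n).elim id fun h2 => ⟨n, fun a => iff_of_true (h2 a (hn ▸ pow_card_eq_one'))
      (hn ▸ pow_card_eq_one')⟩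
  refine ⟨⟨fun h => h23.mpr fun B hB h1 => or_iff_not_imp_left.mpr fun h2 a => ⟨h1 a, fun ha => ?_⟩,
    fun h ⟨B, C, h1, h2, h3, h4, h5, _⟩ => ?_⟩, h23⟩
  · classical
    have h3 : ∃ n, ∀ a : A, a ^ p ^ n = 1 :=
      (IsPGroup.iff_card.mp hA).elim fun n hn => ⟨n, fun a => hn ▸ pow_card_eq_one'⟩
    obtain ⟨e, he⟩ := Nat.exists_eq_succ_of_ne_zero (n := Nat.find h3) fun h4 => h2 (eq_bot_iff.mpr
      fun b _ => by simpa [h4] using Nat.find_spec h3 b)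
    have h4 := he ▸ Nat.find_spec h3
    have h5 := fun W => key hA hX (fun B C h1 h2 h3 h4 h5 => by_contra fun h6 =>
      h ⟨B, C, h1, h6, h2, h3, h4, h5⟩) h4 (W := W)
    have h6 := (h5 (map (powMonoidHom (p ^ e)) ⊤) (fun x hx => by
      rintro _ ⟨b, hb, rfl⟩; exact ⟨_, trivial, (map_pow x b _).symm⟩) (fun h6 =>
        Nat.find_min h3 (he ▸ e.lt_succ_self) fun b => h6.le ⟨b, trivial, rfl⟩) le_rfl).2
    have h7 : ∀ a : A, a ^ p = 1 → ∀ j ≤ e, ∃ x, x ^ p ^ j = a := fun a ha j hj => by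
      induction j with
      | zero => exact ⟨a, by simp⟩
      | succ j ih =>
        obtain ⟨x, rfl⟩ := ih (by omega)
        obtain ⟨y, rfl⟩ := h6 x (by
          rw [← Nat.add_sub_cancel' hj, pow_add, pow_mul, pow_succ, pow_mul, ha, one_pow])
        exact ⟨y, by rw [pow_succ', pow_mul]⟩
    obtain ⟨x, rfl⟩ := h7 a ha e le_rfl
    exact (h5 B hB h2 fun b hb => (h7 b (h1 b hb) e le_rfl).imp fun x hx => ⟨trivial, hx⟩).1 x
  · obtain ⟨i, hi⟩ := h B h3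
    obtain ⟨j, hj⟩ := h C h4
    rcases le_total i j with h | h
    · exact h1 (eq_bot_mono h5 (le_inf le_rfl fun a ha => (hj a).mpr (by
        rw [← Nat.add_sub_cancel' h, pow_add, pow_mul, (hi a).mp ha, one_pow])))
    · exact h2 (eq_bot_mono h5 (le_inf (fun a ha => (hi a).mpr (by
        rw [← Nat.add_sub_cancel' h, pow_add, pow_mul, (hj a).mp ha, one_pow])) le_rfl))

end Cfsg.Agent.S3775
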