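import Mathlib
import Cfsg.Statements.S3778
import Cfsg.Agent.H04.Breadth

set_option autoImplicit false
open Cfsg

open scoped commutatorElement

namespace Cfsg.Agent.S3778

/-- If G is a finite p-group in which every conjugacy class has at most p^b elements (every element has centralizer of index at most p^b), then G is abelian when b = 0, and when b ≥ 1 its nilpotency class c satisfies (c − 1)(p − 1) < bp, that is c < bp/(p − 1) + 1, and hence c ≤ 2b. -/
theorem result {G : Type*} [Group G] [Finite G] {p : ℕ} [Fact p.Prime] (hG : IsPGroup p G) (b : ℕ) (hb : ∀ x : G, (Subgroup.centralizer ({x} : Set G)).index ≤ p ^ b) : ∃ c : ℕ, (⊤ : Subgroup G).lowerCentralSeries c = ⊥ ∧ (b ≠ 0 → (c - 1) * (p - 1) < b * p ∧ c ≤ 2 * b) ∧ (b = 0 → c ≤ 1) := by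
  open Subgroup BG H04 in
  have hpp : p.Prime := Fact.out
  haveI := hG.isNilpotent
  classical
  haveI := Fintype.ofFinite G
  set c := Group.nilpotencyClass G
  let Z := Subgroup.upperCentralSeries G
  let D : ℕ → Subgroup G := fun i => (C_((Z (i + 2)).map (QuotientGroup.mk' (Z i)))).comap
    (QuotientGroup.mk' (Z i))
  have hD : ∀ i x, x ∈ D i ↔ ∀ y ∈ Z (i + 2), ⁅y, x⁆ ∈ Z i := fun i x => by
    simp only [D, mem_comap, mem_cent, mem_map, forall_exists_index, and_imp,
      forall_apply_eq_imp_iff₂, ← commutatorElement_eq_one_iff_mul_comm, ← map_commutatorElement]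
    exact forall₂_congr fun y _ => QuotientGroup.eq_one_iff _
  have hZ : ∀ i, Z i ≤ Z (i + 1) := fun i => Subgroup.upperCentralSeries_mono G i.le_succ
  have h1 : ∀ x j, p ^ ((Finset.range j).filter fun i => x ∉ D i).card ≤ (C_[x]).relIndex (Z (j + 1)) :=
    fun x j => by
    induction j with
    | zero => exact Nat.pos_of_ne_zero (BG.relIndex_ne_zero _ _)
    | succ j ih =>
      rw [Finset.range_add_one, Finset.filter_insert]
      split_ifs with h
      swap
      · have h1 : Z (j + 1) ⊔ C_[x] ⊓ Z (j + 2) < Z (j + 2) := lt_of_le_of_ne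
          (sup_le (hZ _) inf_le_right) fun he => h ((hD j x).mpr fun y hy => by
            obtain ⟨a, ha, b, hb, rfl⟩ := mem_sup_of_normal_left.mp (he.ge hy)
            rw [commutatorElement_mul_left_eq_conj_mul, commutatorElement_eq_one_iff_mul_comm.mpr
              (mem_cent1.mp hb.1), mul_one, mul_inv_cancel, one_mul]
            exact ha x)
        have h2 := mul_card_le_of_lt (hG.to_subgroup _) h1
        rw [← H04.card_mul_relIndex (le_sup_right (a := Z (j + 1))), ← H04.card_inf_mul_relIndex C_[x]
          (Z (j + 2)), mul_left_comm, relIndex_sup' le_normalizer_of_normal, ← inf_relIndex_right,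
          inf_assoc, inf_eq_right.mpr (hZ _), inf_relIndex_right] at h2
        rw [Finset.card_insert_of_notMem (by simp), pow_succ']
        exact (Nat.mul_le_mul_left p ih).trans (Nat.le_of_mul_le_mul_left h2 Nat.card_pos)
      · exact ih.trans (relIndex_le_of_le_right (hZ _) (BG.relIndex_ne_zero _ _))
  have h2 : ∀ x, ((Finset.range (c - 1)).filter fun i => x ∉ D i).card ≤ b := fun x =>
    (Nat.pow_le_pow_iff_right hpp.one_lt).mp ((h1 x _).trans ((relIndex_le_of_le_right le_top
      (BG.relIndex_ne_zero _ _)).trans ((relIndex_top_right _).le.trans (hb x))))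
  have h3 : ∀ i ∈ Finset.range (c - 1), Nat.card G * (p - 1) ≤
      (Finset.univ.filter fun x => x ∉ D i).card * p := fun i hi => by
    have h3 := mul_card_le_of_lt (hG.to_subgroup ⊤) (H := D i) (Ne.lt_top fun he => by
      have h3 : Z (i + 1) = Z (i + 2) := (hZ _).antisymm fun y hy x =>
        (hD i x).mp (he.ge (mem_top x)) y hy
      have h4 := Subgroup.upperCentralSeries_eq_top_iff_nilpotencyClass_le.mp
        (Subgroup.upperCentralSeries.eq_top (a := i + 1) (b := i + 2) (by omega) h3)
      have := Finset.mem_range.mp hi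
      omega)
    have h4 := Finset.card_filter_add_card_filter_not (s := Finset.univ) fun x => x ∈ D i
    rw [← Fintype.card_subtype, ← Nat.card_eq_fintype_card, Finset.card_univ,
      ← Nat.card_eq_fintype_card] at h4
    rw [card_top] at h3
    obtain ⟨q, rfl⟩ : ∃ q, p = q + 1 := ⟨p - 1, by have := hpp.pos; omega⟩
    rw [Nat.add_sub_cancel]
    nlinarith
  have h4 := Finset.sum_le_sum h3
  rw [Finset.sum_const, Finset.card_range, ← Finset.sum_mul, smul_eq_mul] at h4
  simp only [Finset.card_filter] at h4 h2
  rw [Finset.sum_comm] at h4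
  have h5 : 0 < Nat.card G := Nat.card_pos
  have h6 := hpp.two_le
  refine ⟨c, Subgroup.lowerCentralSeries_nilpotencyClass, fun h0 => ?_, fun h0 => ?_⟩
  · have h7 := Finset.sum_lt_sum (s := Finset.univ) (fun x _ => h2 x) ⟨1, Finset.mem_univ _, by
      simpa using Nat.pos_of_ne_zero h0⟩
    rw [Finset.sum_const, Finset.card_univ, ← Nat.card_eq_fintype_card, smul_eq_mul] at h7
    have h8 : (c - 1) * (p - 1) < b * p := by
      refine Nat.lt_of_mul_lt_mul_left (a := Nat.card G) ?_
      nlinarith
    refine ⟨h8, ?_⟩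
    obtain ⟨q, rfl⟩ : ∃ q, p = q + 2 := ⟨p - 2, by omega⟩
    by_contra h9
    have : 2 * b ≤ c - 1 := by omega
    rw [show q + 2 - 1 = q + 1 from rfl] at h8
    nlinarith
  · subst h0
    refine Subgroup.upperCentralSeries_eq_top_iff_nilpotencyClass_le.mp ?_
    rw [Subgroup.upperCentralSeries_one, eq_top_iff]
    exact fun x _ => index_cent1_eq_one.mp (le_antisymm (by simpa using hb x)
      (Nat.pos_of_ne_zero index_ne_zero_of_finite))

end Cfsg.Agent.S3778
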