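import Mathlib
import Cfsg.Statements.S3780
import Cfsg.Agent.H04.Breadth

set_option autoImplicit false
open Cfsg

namespace Cfsg.Agent.S3780

theorem card_ker_pow_le {M : Type*} [AddCommGroup M] [Finite M] (f : Module.End ℤ M) (k : ℕ) :
    Nat.card (LinearMap.ker (f ^ k)) ≤ Nat.card (LinearMap.ker f) ^ k := by
  induction k with
  | zero => simp [Module.End.one_eq_id]
  | succ k ih =>
    let g : LinearMap.ker (f ^ (k + 1)) →+ LinearMap.ker (f ^ k) :=
      (LinearMap.codRestrict _ (f.comp (Submodule.subtype _)) fun x =>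
        (LinearMap.congr_fun (pow_succ f k) x.1).symm.trans x.2).toAddMonoidHom
    rw [← g.ker.card_mul_index, pow_succ' (Nat.card _)]
    refine Nat.mul_le_mul (Nat.card_le_card_of_injective
      (fun x => ⟨x.1.1, congrArg Subtype.val x.2⟩) fun x y h =>
        Subtype.ext (Subtype.ext (Subtype.mk.inj h))) (le_trans ?_ ih)
    rw [AddSubgroup.index_ker]
    exact AddSubgroup.card_le_card_addGroup _


/-- Let V be a finite abelian p-group and α an automorphism of V of order p whose fixed-point subgroup has order p^n. Then V can be generated by pn elements: some subset of V with at most pn elements generates V. -/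
theorem result {V : Type*} [CommGroup V] [Finite V] {p : ℕ} [Fact p.Prime] (hV : IsPGroup p V) (α : MulAut V) (hα : orderOf α = p) (n : ℕ) (hfix : Nat.card {v : V // α v = v} = p ^ n) : ∃ S : Finset V, S.card ≤ p * n ∧ Subgroup.closure (S : Set V) = ⊤ := by
  open Subgroup BG H04 in
  have hpp : p.Prime := Fact.out
  let a : Module.End ℤ (Additive V) := (MonoidHom.toAdditive α.toMonoidHom).toIntLinearMap
  have h1 : ∀ k (v : V), (a ^ k) (Additive.ofMul v) = Additive.ofMul ((α ^ k) v) := fun k => by
    induction k with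
    | zero => exact fun v => rfl
    | succ k ih => exact fun v => by rw [pow_succ, pow_succ]; exact ih (α v)
  have h2 : Nat.card (LinearMap.ker (a - 1)) = p ^ n := hfix ▸ Nat.card_congr
    (Equiv.subtypeEquiv Additive.toMul fun v => sub_eq_zero)
  have h3 := card_ker_pow_le (a - 1) p
  have h4 : Nat.card (omegaOne p (⊤ : Subgroup V)) ≤ Nat.card (LinearMap.ker ((a - 1) ^ p)) := by
    refine Nat.card_le_card_of_injective (fun v => ⟨Additive.ofMul v.1, ?_⟩) fun x y h =>
      Subtype.ext (by simpa using h)
    have h4 : p • Additive.ofMul v.1 = 0 := ((mem_omegaOne_iff_of_comm inferInstance).mp v.2).2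
    obtain ⟨r, hr⟩ := (Commute.one_right a).neg_right.exists_add_pow_prime_eq hpp
    rw [LinearMap.mem_ker, sub_eq_add_neg, hr, mul_assoc, mul_assoc, LinearMap.add_apply,
      LinearMap.add_apply, Module.End.mul_apply, Module.End.natCast_apply, ← map_nsmul, h4, map_zero,
      h1, show α ^ p = 1 from hα ▸ pow_orderOf_eq_one α, add_zero]
    rcases hpp.eq_two_or_odd' with rfl | h
    · rw [neg_one_sq, ← h4, two_nsmul]; rfl
    · rw [h.neg_one_pow]; exact add_neg_cancel _
  obtain ⟨k, hk⟩ := hV.index (frattini V)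
  obtain ⟨T, h5, h6⟩ := exists_finset_card_eq_closure_eq_top hV hk
  refine ⟨T, h5 ▸ (Nat.pow_le_pow_iff_right hpp.one_lt).mp ?_, h6⟩
  rw [← hk, mul_comm, pow_mul, ← h2]
  refine le_trans (Nat.le_of_dvd (Nat.pos_of_ne_zero index_ne_zero_of_finite) (index_dvd_of_le
    ((powerClosure_le_iff (H := ⊤) (n := 1)).mpr fun x _ => (pow_one p).symm ▸ pow_mem_frattini hV x)) |>.trans (le_of_eq ?_))
    (h4.trans h3)
  rw [← relIndex_top_right, (regOn_of_comm inferInstance).relIndex_powerClosure (hV.to_subgroup ⊤)]

end Cfsg.Agent.S3780
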