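import Mathlib
import Cfsg.Statements.S3781
import Cfsg.Agent.H04.Breadth

set_option autoImplicit false
open Cfsg

open scoped commutatorElement

namespace Cfsg.Agent.S3781

/-- Let G be a finite p-group and n ≥ 1, and write γ_1(G) = G, γ_{k+1}(G) = [γ_k(G), G], and likewise γ_k(N) for a subgroup N. Let N be a normal subgroup of G contained in γ_n(G). If i > 1 and γ_{i+1}(N) ≠ 1, then |γ_i(N) : γ_{i+1}(N)| ≥ p^n. -/
theorem result {G : Type*} [Group G] [Finite G] {p : ℕ} [Fact p.Prime] (hG : IsPGroup p G) (n : ℕ) (hn : 1 ≤ n) (N : Subgroup G) [N.Normal] (hN : N ≤ (⊤ : Subgroup G).lowerCentralSeries (n - 1)) (i : ℕ) (hi : 1 < i) (hne : N.lowerCentralSeries i ≠ ⊥) : p ^ n ≤ (N.lowerCentralSeries i).relIndex (N.lowerCentralSeries (i - 1)) := by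
  open Subgroup BG H04 in
  have hpp : p.Prime := Fact.out
  obtain ⟨i, rfl⟩ : ∃ j, i = j + 1 := ⟨i - 1, by omega⟩
  obtain ⟨n, rfl⟩ : ∃ j, n = j + 1 := ⟨n - 1, by omega⟩
  rw [Nat.add_sub_cancel] at hN ⊢
  have h0 : ∀ j, (N.lowerCentralSeries j).Normal := fun j => normalizer_eq_top_iff.mp (eq_top_iff.mpr
    (iterComm_eq_lcs N j ▸ le_norm_iterComm le_normalizer_of_normal le_normalizer_of_normal j))
  haveI := h0 i
  haveI := h0 (i + 1)
  obtain ⟨M, hM, h1, h2⟩ := exists_normal_relIndex_eq hG _ hne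
  have h3 : N.lowerCentralSeries (i + 1) ≤ N.lowerCentralSeries i :=
    lcs_succ_eq N i ▸ comm_le_left le_normalizer_of_normal
  by_contra h4
  obtain ⟨k, hk⟩ := (hG.to_subgroup _).index
    ((N.lowerCentralSeries (i + 1)).subgroupOf (N.lowerCentralSeries i))
  have h5 := relIndex_mul_relIndex _ _ _ h1.le h3
  rw [relIndex, hk, Nat.pow_le_pow_iff_right hpp.one_lt] at h4
  let f := QuotientGroup.mk' M
  have hQ := hG.to_quotient M
  haveI := (h0 i).map f (QuotientGroup.mk'_surjective M)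
  have h6 := iterComm_eq_bot (N := (N.lowerCentralSeries i).map f) (hQ.to_subgroup _)
    (hQ.to_subgroup ⊤) le_normalizer_of_normal (n := n + 1) (by
      have h6 := card_map_mk'_mul M (N.lowerCentralSeries i)
      rw [inf_eq_left.mpr (h1.le.trans h3), ← H04.card_mul_relIndex (h1.le.trans h3)] at h6
      rw [Nat.eq_of_mul_eq_mul_left Nat.card_pos h6, ← h5, h2, relIndex, hk, ← pow_succ']
      exact Nat.pow_le_pow_right hpp.pos (by omega))
  refine h1.not_ge ?_
  rw [lcs_succ_eq, commutator_le_iff_map_quotient, eq_bot_iff, ← h6]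
  refine (comm_mono le_rfl ((map_mono hN).trans ?_)).trans (commutator_lcs_le_iterComm n _)
  rw [map_lowerCentralSeries]
  exact Subgroup.lowerCentralSeries_mono n le_top

end Cfsg.Agent.S3781
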