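import Mathlib
import Cfsg.Statements.S3782
import Cfsg.Agent.H16.Alperin

set_option autoImplicit false
open Cfsg

namespace Cfsg.Agent.S3782

open H16

/-- Alperin's Theorem: for each prime p and each n ≥ 0 there is an integer l such that every finite solvable group admitting an automorphism of order p with exactly p^n fixed points has derived length at most l. -/
theorem result (p : ℕ) (hp : p.Prime) (n : ℕ) : ∃ l : ℕ, ∀ (G : Type) [Group G] [Finite G], Group.IsSolvable G → ∀ α : MulAut G, orderOf α = p → Nat.card {g : G // α g = g} = p ^ n → derivedSeries G l = ⊥ := by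
  have : Fact p.Prime := ⟨hp⟩
  obtain ⟨l, hl⟩ := alperin.{0} (p := p) n
  refine ⟨l, fun G _ _ hG α hα hc => hl G hG α (fun g => ?_) hc⟩
  have := mulAut_pow_apply α p g
  rw [← hα, pow_orderOf_eq_one, hα] at this
  exact this.symm

end Cfsg.Agent.S3782
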