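import Mathlib
import Cfsg.Statements.S3785
import Cfsg.Agent.H16.PrimPair
import Cfsg.Agent.H01.BG1

set_option autoImplicit false
open Cfsg

namespace Cfsg.Agent.S3785

open BG Cfsg H22

/-- Let G be a finite solvable group whose Fitting subgroup F(G) has odd order. If an element g of G commutes with every element of prime order of F(G), then g ∈ F(G). -/
theorem result {G : Type*} [Group G] [Finite G] (hG : Group.IsSolvable G) (hodd : Odd (Nat.card (Cfsg.fittingSubgroup G))) (g : G) (hg : ∀ x ∈ Cfsg.fittingSubgroup G, (orderOf x).Prime → g * x = x * g) : g ∈ Cfsg.fittingSubgroup G := by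
  rw [← H02.fittingOf_top] at hodd hg ⊢
  set F := fittingOf (⊤ : Subgroup G) with hF
  let C : Subgroup G := Subgroup.centralizer {x | x ∈ F ∧ (orderOf x).Prime}
  have hCn : (⊤ : Subgroup G) ≤ N_(C) := le_norm_iff.2 fun a _ k hk x hx => by
    have := hk (a⁻¹ * x * a) ⟨conj_mem_of_norm' (le_norm_fit ⊤ (Subgroup.mem_top a)) hx.1, by
      have := orderOf_conj a⁻¹ x
      rw [inv_inv] at this
      rw [this]; exact hx.2⟩
    calc x * (a * k * a⁻¹) = a * (a⁻¹ * x * a * k) * a⁻¹ := by group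
      _ = _ := by rw [this]; group
  have hc : ∀ (s : ℕ) (d : G), s.Prime → d ∈ C → (orderOf d).Coprime s → d ∈ C_(piCoreOf {s} (⊤ : Subgroup G)) := by
    intro s d hs hd hco
    haveI := Fact.mk hs
    by_cases h0 : piCoreOf {s} (⊤ : Subgroup G) = ⊥
    · rw [h0, cent_bot]; trivial
    have h2 : s ≠ 2 := ne_two_of_odd hodd ((pg_dvd hs (pcore_pg hs _) h0).trans (card_dvd (pcore_le_fit hs _)))
    refine H17.mem_centralizer_of_omegaOne h2 (pcore_pg hs _) (le_norm_pcore _ _ (Subgroup.mem_top d)) hco ?_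
    rw [← le_cent1_iff]
    refine (Subgroup.closure_le _).2 fun x hx => ?_
    by_cases h1 : x = 1
    · rw [h1]; exact one_mem _
    · exact mem_cent1.2 (hd x ⟨pcore_le_fit hs _ hx.1, by rwa [orderOf_eq_prime hx.2 h1]⟩)
  have hfc : C_(F) ≤ F := by simpa using fit_cent_le (X := ⊤) inferInstance
  refine H16.le_of_primePow (K := C) (fun q k x hq hx ho => ?_) (fun x hx => (hg x hx.1 hx.2).symm)
  haveI := Fact.mk hq
  let D := C ⊓ C_(piCoreOf {q}ᶜ F)
  have hD : ∀ d ∈ C, (∀ s : ℕ, s.Prime → s ≠ q → d ∈ C_(piCoreOf {s} (⊤ : Subgroup G))) → d ∈ D := by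
    intro d hd h
    refine ⟨hd, le_cent1_iff.1 (nil_le_of_pcores (nil_of_le (fit_nil _) (pcore_le _ _)) fun s hs hs' => ?_)⟩
    have hsq : s ≠ q := fun e => pcore_not_dvd hq F (e ▸ hs')
    rw [pcore_pcore_of_subset (by simpa using hsq.symm), pcore_fit hs]
    exact le_cent1_iff.2 (h s hs hsq)
  have hxD : x ∈ D := hD x hx fun s hs hsq => hc s x hs hx
    (ho ▸ ((Nat.coprime_primes hq hs).2 hsq.symm).pow_left k)
  have h1 := H16.le_pcore_of_coprime_norm hq (H16.isPGroup_zpowers ho) (D := D) (by simpa using hxD) fun d hd hco => by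
    have a1 : d ∈ F := hfc (le_cent_fit (Y := Subgroup.zpowers d) (fun s hs => by
      rw [Subgroup.zpowers_le]
      by_cases e : s = q
      · exact e ▸ hc q d hq hd.1 hco
      · rw [← pcore_fit hs]; exact cent_anti (pcore_mono (by simpa using Ne.symm e) _) hd.2) (Subgroup.mem_zpowers d))
    have a2 : d ∈ piCoreOf {q}ᶜ F := nil_le_pcore (fit_nil _) ((isPi_compl hq).2 (by
      rw [card_zpowers]; exact (Nat.Prime.coprime_iff_not_dvd hq).1 hco.symm)) (by simpa using a1) (Subgroup.mem_zpowers d)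
    refine cent_le_norm _ ?_
    rw [cent_zpowers]
    exact mem_cent1.2 (mem_cent.1 hxD.2 d a2)
  exact pcore_le_fit hq _ (pcore_le_of_norm _ le_top (norm_inf hCn (norm_cent (norm_pcore _ (le_norm_fit _))))
    (h1 (Subgroup.mem_zpowers x)))

end Cfsg.Agent.S3785
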