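import Cfsg.Statements.S3787
import Cfsg.Agent.H24.HH4
import Cfsg.Agent.H17.Sec
import Cfsg.Agent.H24.Sim3
-- import your own Cfsg.Agent.* helpers here

set_option autoImplicit false
open Cfsg

namespace Cfsg.Agent.S3787

open H24 H24.HH Subgroup Module
open scoped commutatorElement

theorem wr {p : ℕ} [hp : Fact p.Prime] {X : Type*} [Group X] [Finite X] {M : Type*} [AddCommGroup M]
    [Module (ZMod p) M] (D : Md p X M) {a : X} (ha : orderOf (a : X ⧸ pCore p X) = p)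
    (h : (D.ρ a - 1) ^ (p - 1) ≠ 0) : ∃ (W : Type) (_ : Group W) (_ : Finite W), (∃ (B : Subgroup W) (t : W), B.Normal ∧ IsMulCommutative B ∧ (∀ b ∈ B, b ^ p = 1) ∧ Nat.card B = p ^ p ∧ orderOf t = p ∧ t ∉ B ∧ Nat.card W = p ^ (p + 1) ∧ Nat.card ↥(B ⊓ Subgroup.centralizer ({t} : Set W)) = p) ∧
      H17.Sec W ((zpowers (a : X ⧸ pCore p X)).comap (QuotientGroup.mk' _)) := by
  have hp0 := hp.out.pos
  obtain ⟨T, hT⟩ : ∃ T, T = D.ρ a - 1 := ⟨_, rfl⟩
  have hap : (a : X ⧸ pCore p X) ^ p = 1 := by have := pow_orderOf_eq_one (a : X ⧸ pCore p X); rwa [ha] at this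
  have hTp : T ^ p = 0 := by
    have := sub_one_pow (F := ZMod p) p (D.ρ a) 1
    rwa [pow_one, ← map_pow, hap, map_one, sub_self, ← hT] at this
  rw [← hT] at h
  obtain ⟨m₀, hm₀⟩ : ∃ m, (T ^ (p - 1)) m ≠ 0 := by by_contra! h'; exact h (LinearMap.ext h')
  obtain ⟨φ, hφ⟩ : ∃ φ : Dual (ZMod p) M, φ ((T ^ (p - 1)) m₀) ≠ 0 := by
    by_contra! h'; exact hm₀ ((forall_dual_apply_eq_zero_iff _ _).1 h')
  let Φ : M →ₗ[ZMod p] (Fin p → ZMod p) := LinearMap.pi fun j => φ.comp (T ^ (j : ℕ))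
  have hΦ : ∀ m j, Φ m j = φ ((T ^ (j : ℕ)) m) := fun _ _ => rfl
  have hz : ∀ i j m, p ≤ i + j → φ ((T ^ i) ((T ^ j) m)) = 0 := fun i j m h => by
    rw [← End.mul_apply, ← pow_add, pow_eq_zero_of_le h hTp, LinearMap.zero_apply, map_zero]
  have hs : Function.Surjective Φ := by
    have : ∀ j ≤ p, ∀ u : Fin p → ZMod p, (∀ i : Fin p, j ≤ i → u i = 0) → u ∈ LinearMap.range Φ := fun j => by
      induction j with
      | zero => intro _ u hu; rw [show u = 0 from funext fun i => hu i (Nat.zero_le _)]; exact zero_mem _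
      | succ j ih =>
        intro hj u hu
        have := ih (by omega) (u - (u ⟨j, hj⟩ / φ ((T ^ (p - 1)) m₀)) • Φ ((T ^ (p - 1 - j)) m₀)) fun i hi => by
          rw [Pi.sub_apply, Pi.smul_apply, hΦ]
          rcases hi.eq_or_lt with e | e
          · rw [← End.mul_apply, ← pow_add, show (i : ℕ) + (p - 1 - j) = p - 1 by omega, smul_eq_mul,
              div_mul_cancel₀ _ hφ, show i = ⟨j, hj⟩ from Fin.ext e.symm, sub_self]
          · rw [hz _ _ _ (by omega), hu i e]; simp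
        exact (Submodule.sub_mem_iff_left _ (Submodule.smul_mem _ _ (LinearMap.mem_range_self _ _))).1 this
    exact fun u => this p le_rfl u fun i hi => absurd i.2 (by omega)
  have hT0 : ∀ m, Φ (T m) = 0 ↔ ∀ j : Fin p, (j : ℕ) ≠ 0 → Φ m j = 0 := fun m => by
    refine ⟨fun h j hj => ?_, fun h => funext fun j => ?_⟩
    · have := congrFun h ⟨j - 1, by omega⟩
      rwa [hΦ, ← End.mul_apply, ← pow_succ, Nat.sub_add_cancel (Nat.pos_of_ne_zero hj)] at this
    · rw [hΦ, ← End.mul_apply, ← pow_succ]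
      by_cases hj : j + 1 < p
      · exact h ⟨j + 1, hj⟩ (Nat.succ_ne_zero _)
      · rw [pow_eq_zero_of_le (by omega) hTp]; simp
  have hst : zpowers (a : X ⧸ pCore p X) ≤ stab D.ρ (LinearMap.ker Φ) := zpowers_le.2 fun m hm => by
    rw [LinearMap.mem_ker, ← sub_add_cancel (D.ρ a) 1, ← hT, LinearMap.add_apply, map_add, End.one_apply,
      LinearMap.mem_ker.1 hm, (hT0 m).2 fun j _ => by rw [LinearMap.mem_ker.1 hm]; rfl, add_zero]
  generalize hL : (zpowers (a : X ⧸ pCore p X)).comap (QuotientGroup.mk' _) = L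
  have hL' : ∀ x : X, x ∈ L ↔ (x : X ⧸ pCore p X) ∈ zpowers (a : X ⧸ pCore p X) := fun x => by rw [← hL]; rfl
  have hq : ∀ m, (D.e m : X ⧸ pCore p X) = 1 := fun m => (QuotientGroup.eq_one_iff _).2 (D.e_mem m)
  let ε : Multiplicative M →* L := MonoidHom.mk' (fun m => ⟨D.e m.toAdd, (hL' _).2 (hq _ ▸ one_mem _)⟩)
    fun _ _ => Subtype.ext (D.add _ _)
  let R : Subgroup L := (AddSubgroup.toSubgroup (LinearMap.ker Φ).toAddSubgroup).map ε
  have : R.Normal := ⟨by
    rintro _ ⟨m, hm, rfl⟩ x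
    exact ⟨Multiplicative.ofAdd (D.ρ (x : X) m.toAdd), hst ((hL' _).1 x.2) _ hm, Subtype.ext (D.conj _ _)⟩⟩
  let π : L →* Shrink.{0} (L ⧸ R) := (Shrink.mulEquiv.symm.toMonoidHom).comp (QuotientGroup.mk' R)
  have hπ : Function.Surjective π := Shrink.mulEquiv.symm.surjective.comp (QuotientGroup.mk'_surjective R)
  have hk : ∀ x, π x = 1 ↔ x ∈ R := fun x => by simp [π]
  have hε : ∀ m, π (ε (Multiplicative.ofAdd m)) = 1 ↔ Φ m = 0 := fun m => by
    rw [hk]
    refine ⟨?_, fun h => ⟨_, h, rfl⟩⟩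
    rintro ⟨m', h1, h2⟩
    rw [← show m'.toAdd = m from D.einj (congrArg Subtype.val h2)]; exact h1
  have hε' : ∀ m m' : Multiplicative M, π (ε m) = π (ε m') ↔ Φ m.toAdd = Φ m'.toAdd := fun m m' => by
    rw [← sub_eq_zero (a := Φ _), ← map_sub, ← hε, ofAdd_sub, map_div, map_div, div_eq_one]; rfl
  obtain ⟨w, hw⟩ := (D.mem (a ^ p)).1 (by rw [← QuotientGroup.eq_one_iff, QuotientGroup.mk_pow, hap])
  have hw' : T w = 0 := D.eq_zero (by rw [hT, D.comm, hw, commutatorElement_def]; group)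
  have hN : ∀ m, Φ (T ((T ^ (p - 1)) m)) = 0 := fun m => by
    rw [← End.mul_apply, ← pow_succ', Nat.sub_add_cancel hp0, hTp]; simp
  have hfix : ∀ m m', Φ (T m) = 0 → Φ (T m') = 0 → (Φ m = Φ m' ↔ φ m = φ m') := fun m m' h1 h2 =>
    ⟨fun h => by simpa [hΦ] using congrFun h ⟨0, hp0⟩, fun h => funext fun j => by
      by_cases hj : (j : ℕ) = 0
      · simpa [hΦ, hj] using h
      · rw [(hT0 _).1 h1 j hj, (hT0 _).1 h2 j hj]⟩
  let m₁ : M := -(φ w / φ ((T ^ (p - 1)) m₀)) • m₀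
  let t : L := ⟨D.e m₁ * a, (hL' _).2 (by rw [QuotientGroup.mk_mul, hq, one_mul]; exact mem_zpowers _)⟩
  have ht : ((t : X) : X ⧸ pCore p X) = a := by rw [QuotientGroup.mk_mul, hq, one_mul]
  have hB : (π.comp ε).range = ((pCore p X).subgroupOf L).map π := by
    rw [MonoidHom.range_comp]; congr 1; ext x
    exact ⟨by rintro ⟨m, rfl⟩; exact D.e_mem _, fun hx => by
      obtain ⟨m, hm⟩ := (D.mem _).1 hx; exact ⟨Multiplicative.ofAdd m, Subtype.ext hm⟩⟩
  have hB' : (π.comp ε).range.comap π = (pCore p X).subgroupOf L := by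
    rw [hB, comap_map_eq, sup_eq_left]
    intro x hx
    obtain ⟨m, -, rfl⟩ := (hk x).1 hx
    exact D.e_mem _
  have htB : π t ∉ (π.comp ε).range := fun h => by
    have : (a : X ⧸ pCore p X) = 1 := ht ▸ (QuotientGroup.eq_one_iff _).2 (show t ∈ (pCore p X).subgroupOf L from hB' ▸ h)
    rw [this, orderOf_one] at ha
    exact hp.out.one_lt.ne ha
  have hcB : Nat.card (π.comp ε).range = p ^ p := by
    rw [Sim.card_eq_of_ker (π.comp ε).rangeRestrict_surjective (ψ := fun m : Multiplicative M => Φ m.toAdd)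
      (fun u => (hs u).imp fun _ h => h) fun m m' => Subtype.ext_iff.trans (hε' m m')]
    simp
  refine ⟨_, inferInstance, Finite.of_surjective _ hπ, ⟨(π.comp ε).range, π t, ?_, inferInstance, ?_, hcB, ?_, htB, ?_, ?_⟩,
    H17.Sec.of_hom (MonoidHom.id _) Function.injective_id π hπ⟩
  · rw [hB]; exact Normal.map inferInstance π hπ
  · rintro _ ⟨m, rfl⟩
    rw [← map_pow, show m ^ p = 1 from congrArg Multiplicative.ofAdd (ZModModule.char_nsmul_eq_zero p m.toAdd),
      map_one]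
  · refine orderOf_eq_prime ?_ fun h => htB (h ▸ one_mem _)
    have h1 : t ^ p = ε (Multiplicative.ofAdd ((T ^ (p - 1)) m₁ + w)) := Subtype.ext (by
      have := D.mul_pow' m₁ a 1
      rw [pow_one, ← hT, ← hw, ← D.add] at this
      exact this)
    rw [← map_pow, h1, hε, ← map_zero Φ, hfix _ _ (by rw [map_add, map_add, hN, hw']; simp) (by simp)]
    simp [m₁, div_mul_cancel₀ _ hφ]
  · rw [← (π.comp ε).range.card_mul_index, hcB, ← index_comap_of_surjective _ hπ, hB', pow_succ, ← hL]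
    congr 1
    exact (H16.relIndex_comap_quot _ _).trans ((Nat.card_zpowers _).trans ha)
  · have hc : ∀ m, π (ε (Multiplicative.ofAdd m)) ∈ centralizer {π t} ↔ Φ (T m) = 0 := fun m => by
      rw [mem_centralizer_singleton_iff, eq_comm, ← commutatorElement_eq_one_iff_mul_comm, ← map_commutatorElement, ← hε]
      rw [show ⁅t, ε (Multiplicative.ofAdd m)⁆ = ε (Multiplicative.ofAdd (T m)) from Subtype.ext (by
        change _ = D.e (T m)
        rw [hT, ← ht, D.comm]; rfl)]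
    rw [Sim.card_eq_of_ker (α := {m // Φ (T m) = 0}) (β := ↥((π.comp ε).range ⊓ centralizer {π t}))
      (φ := fun m => ⟨π (ε (Multiplicative.ofAdd m.1)), ⟨_, rfl⟩, (hc _).2 m.2⟩) (ψ := fun m => φ m.1) ?_ (fun c => ?_)
      fun m m' => Subtype.ext_iff.trans ((hε' _ _).trans (hfix _ _ m.2 m'.2)), Nat.card_zmod]
    · rintro ⟨_, ⟨m, rfl⟩, h⟩
      exact ⟨⟨m.toAdd, (hc _).1 h⟩, rfl⟩
    · exact ⟨⟨(c / φ ((T ^ (p - 1)) m₀)) • (T ^ (p - 1)) m₀, by rw [map_smul, map_smul, hN, smul_zero]⟩, by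
        simp [div_mul_cancel₀ _ hφ]⟩

/-- Let G be a finite p-soluble group, p an odd prime not of the form 2^k + 1, and suppose the wreath product C_p ≀ C_p (of order p^(p+1)) is not involved in a Sylow p-subgroup of G: no section of a Sylow p-subgroup is isomorphic to it. Then G has p-length at most 1. -/
theorem result {G : Type*} [Group G] [Finite G] {p : ℕ} [Fact p.Prime] (hp2 : p ≠ 2) (hnf : (¬ ∃ k : ℕ, p = 2 ^ k + 1)) (hG : Cfsg.IsPSolvable p G) (P : Sylow p G) (hwr : ∀ (W : Type) [Group W] [Finite W], (∃ (B : Subgroup W) (t : W), B.Normal ∧ IsMulCommutative B ∧ (∀ b ∈ B, b ^ p = 1) ∧ Nat.card B = p ^ p ∧ orderOf t = p ∧ t ∉ B ∧ Nat.card W = p ^ (p + 1) ∧ Nat.card ↥(B ⊓ Subgroup.centralizer ({t} : Set W)) = p) → ¬ Cfsg.Involves W ↥(P : Subgroup G)) : Cfsg.PLengthLE p 1 G := by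
  have hp : p.Prime := Fact.out
  obtain ⟨X, _, _, f, M, _, _, _, D, hf, h4⟩ := exists_md hG
  have hs := QuotientGroup.mk'_surjective (pCore p X)
  refine plen_succ_of hf h4 (PS.plen_zero_iff.2 (hp.coprime_iff_not_dvd.2 fun hd => ?_).symm)
  obtain ⟨⟨_, a, ha, rfl⟩, h1⟩ := exists_prime_orderOf_dvd_card' p
    (((P.mapSurjective hf).mapSurjective hs).dvd_card_of_dvd_card hd)
  have h2 : orderOf (a : X ⧸ pCore p X) = p := (Subgroup.orderOf_coe _).trans h1
  have := D.nontrivial (x := a) fun e => hp.one_lt.ne (by rw [← h2, e, orderOf_one])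
  have : Module.Finite (ZMod p) M := Module.Finite.of_finite
  have h3 := NE.nil (p := p) (fun _ _ _ h1 h2 _ _ h5 => (hnf (eq_two_of_odd hp2 h1 h2 h5).2).elim) D.inj
    (PS.quotient (PS.of_surjective hG f hf) _) (H02.pCore_quotient_pCore p X) (h2.trans (pow_one p).symm)
  obtain ⟨W, _, _, h5, h6⟩ := wr D h2 (by rwa [pow_one] at h3)
  refine hwr W h5 (H17.sec_iff_involves.1 (H17.Sec.of_map (f := f) (h6.of_le fun x ⟨i, hi⟩ => ?_)))
  have : x * (a ^ i)⁻¹ ∈ pCore p X := by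
    rw [← div_eq_mul_inv, ← QuotientGroup.eq_iff_div_mem]; exact hi.symm
  exact (mul_mem_cancel_right (inv_mem (zpow_mem ha i))).1 (H02.pCore_le_sylow (P.mapSurjective hf) this)

end Cfsg.Agent.S3787
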