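import Cfsg.Statements.S3788
import Cfsg.Agent.H24.HH4
import Cfsg.Agent.H17.FF
import Cfsg.Agent.H17.Lift
-- import your own Cfsg.Agent.* helpers here

set_option autoImplicit false
open Cfsg

namespace Cfsg.Agent.S3788

open H24 H24.HH Subgroup Module
open scoped commutatorElement

theorem ring4 {R : Type*} [Ring R] {A B : R} (h1 : A * A = 0) (h2 : B * B = 0) (h3 : A * B = 0) :
    ((A + 1) * (B + 1) - 1) ^ 2 ^ 2 = 0 := by
  have e : (A + 1) * (B + 1) - 1 = A * B + (A + B) := by noncomm_ring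
  have e2 : (A + B) ^ 2 = A * A + B * B + A * B + B * A := by noncomm_ring
  rw [e, h3, zero_add, pow_two 2, pow_mul, e2, h1, h2, h3, zero_add, zero_add, zero_add, pow_two, mul_assoc,
    ← mul_assoc A, h3, zero_mul, mul_zero]

theorem tv {p : ℕ} [hp : Fact p.Prime] {X : Type*} [Group X] [Finite X] {M : Type*} [AddCommGroup M]
    [Module (ZMod p) M] (D : Md p X M) (hsol : IsPSolvable p (X ⧸ pCore p X)) {a : X} (ha : a ∉ pCore p X) {w : M}
    (hw : a ^ p = D.e w) (h : ∀ m, ∃ k : ℤ, (D.ρ a - 1) m = k • w) : p = 2 ∧ H17.Sec (Equiv.Perm (Fin 4)) X := by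
  have hO := H02.pCore_quotient_pCore p X
  have ha1 : (a : X ⧸ pCore p X) ≠ 1 := fun e => ha ((QuotientGroup.eq_one_iff a).1 e)
  have hap : (a : X ⧸ pCore p X) ^ p = 1 := by
    rw [← QuotientGroup.mk_pow, hw]; exact (QuotientGroup.eq_one_iff _).2 (D.e_mem w)
  have h1 : D.ρ a w = w := D.einj (by rw [D.conj, ← hw]; group)
  have h2 : (D.ρ a - 1) * (D.ρ a - 1) = 0 := LinearMap.ext fun m => by
    obtain ⟨k, hk⟩ := h m
    rw [End.mul_apply, hk, map_zsmul, LinearMap.sub_apply, h1]; simp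
  by_cases hp2 : p = 2
  · refine ⟨hp2, by_contra fun hS => ?_⟩
    subst hp2
    have h3 : ∀ c ∈ pPrimeCore 2 (X ⧸ pCore 2 X), c ^ 2 ^ 2 = 1 → c = 1 := fun c hc e =>
      orderOf_eq_one_iff.1 (Nat.Coprime.eq_one_of_dvd ((H02.orderOf_coprime_of_mem_pPrimeCore hc).pow_right 2)
        (orderOf_dvd_of_pow_eq_one e))
    refine ha1 (h3 _ (PS.centralizer_pPrimeCore_le hsol hO fun g hg => ?_) (by rw [pow_two 2, pow_mul, hap, one_pow]))
    obtain ⟨g, rfl⟩ := QuotientGroup.mk_surjective g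
    have hi : (a : X ⧸ pCore 2 X)⁻¹ = a := by rw [inv_eq_iff_mul_eq_one, ← pow_two, hap]
    obtain ⟨b, hb⟩ : ∃ b, b = g * a * g⁻¹ := ⟨_, rfl⟩
    have hb' : D.ρ b = D.ρ g * D.ρ a * D.ρ (g : X ⧸ pCore 2 X)⁻¹ := by rw [hb, ← map_mul, ← map_mul]; rfl
    have hg1 : D.ρ (g : X ⧸ pCore 2 X)⁻¹ * D.ρ g = 1 := by rw [← map_mul, inv_mul_cancel, map_one]
    have hg2 : D.ρ g * D.ρ (g : X ⧸ pCore 2 X)⁻¹ = 1 := by rw [← map_mul, mul_inv_cancel, map_one]
    have h4 : D.ρ b (D.ρ g w) = D.ρ g w := by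
      rw [← End.mul_apply, hb', mul_assoc, hg1, mul_one, End.mul_apply, h1]
    have h5 : ∀ m, ∃ k : ℤ, (D.ρ b - 1) m = k • D.ρ g w := fun m => by
      obtain ⟨k, hk⟩ := h (D.ρ (g : X ⧸ pCore 2 X)⁻¹ m)
      refine ⟨k, ?_⟩
      rw [← map_zsmul, ← hk, ← End.mul_apply, ← End.mul_apply, mul_sub, sub_mul, mul_one, hg2, hb']
    have h6 : (D.ρ b - 1) * (D.ρ b - 1) = 0 := LinearMap.ext fun m => by
      obtain ⟨k, hk⟩ := h5 m
      rw [End.mul_apply, hk, map_zsmul, LinearMap.sub_apply, h4]; simp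
    have hc : (a * b : X ⧸ pCore 2 X) ∈ pPrimeCore 2 (X ⧸ pCore 2 X) := by
      have := mul_mem (Normal.conj_mem inferInstance _ hg (a : X ⧸ pCore 2 X)) (inv_mem hg)
      rwa [hi, mul_assoc, mul_assoc, ← mul_assoc (g : X ⧸ pCore 2 X), ← QuotientGroup.mk_inv, ← QuotientGroup.mk_mul,
        ← QuotientGroup.mk_mul, ← hb] at this
    suffices h7 : (a * b : X ⧸ pCore 2 X) = 1 by
      rw [mul_eq_one_iff_inv_eq, hi, hb] at h7
      exact (eq_mul_inv_iff_mul_eq.1 h7).symm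
    have h8 : ∀ x y : X ⧸ pCore 2 X, (D.ρ x - 1) * (D.ρ x - 1) = 0 → (D.ρ y - 1) * (D.ρ y - 1) = 0 →
        (D.ρ x - 1) * (D.ρ y - 1) = 0 → (x * y) ^ 2 ^ 2 = 1 := fun x y e1 e2 e3 => D.inj (by
      have := ring4 e1 e2 e3
      rwa [sub_add_cancel, sub_add_cancel, sub_one_pow (F := ZMod 2), sub_eq_zero, ← map_mul, ← map_pow,
        ← map_one D.ρ] at this)
    have h9 : ∀ (k : ℤ) (m : M), k • m = 0 ∨ k • m = m := fun k m => by
      rw [← Int.cast_smul_eq_zsmul (ZMod 2)]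
      generalize (k : ZMod 2) = c
      fin_cases c
      · exact Or.inl (zero_smul _ _)
      · exact Or.inr (one_smul _ _)
    obtain ⟨k, hk⟩ := h (D.ρ g w)
    obtain ⟨l, hl⟩ := h5 w
    rcases h9 k w with e1 | e1
    · refine h3 _ hc (h8 _ _ h2 h6 (LinearMap.ext fun m => ?_))
      obtain ⟨j, hj⟩ := h5 m
      rw [End.mul_apply, hj, map_zsmul, hk, e1]; simp
    rcases h9 l (D.ρ g w) with e2 | e2
    · have : (b * a : X ⧸ pCore 2 X) ^ 2 ^ 2 = 1 := h8 _ _ h6 h2 (LinearMap.ext fun m => by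
        obtain ⟨j, hj⟩ := h m
        rw [End.mul_apply, hj, map_zsmul, hl, e2]; simp)
      refine h3 _ hc ?_
      rw [show (a * b : X ⧸ pCore 2 X) = a * (b * a) * (a : X ⧸ pCore 2 X)⁻¹ by group, conj_pow, this]; group
    have hw0 : w ≠ 0 := fun e => ha1 (D.inj (by
      rw [map_one, ← sub_eq_zero]
      exact LinearMap.ext fun m => by obtain ⟨k, hk⟩ := h m; rw [hk, e]; simp))
    have hmm : ∀ m : M, D.e m * D.e m = 1 := fun m => by
      rw [← D.add, ← two_smul (ZMod 2), show (2 : ZMod 2) = 0 from rfl, zero_smul, D.zero]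
    rw [e1, LinearMap.sub_apply, End.one_apply, sub_eq_iff_eq_add] at hk
    rw [e2, LinearMap.sub_apply, End.one_apply, sub_eq_iff_eq_add'] at hl
    refine (hS (H17.sec_s4_of_four (u := D.e w) (v := D.e (D.ρ g w)) (a := a) (b := b) (hmm _) (hmm _)
      (by rw [← D.add, ← D.add, add_comm]) (fun e => hw0 (D.eq_zero e)) (fun e => hw0 ?_) (fun e => hw0 ?_)
      (by rw [← D.conj, h1]) (by rw [← D.conj, hk, D.add]) (by rw [← D.conj, hl, D.add]) (by rw [← D.conj, h4]))).elim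
    · rw [← End.one_apply (R := ZMod 2) w, ← hg1, End.mul_apply, D.eq_zero e, map_zero]
    · rw [← D.einj e, h1] at hk
      simpa using hk
  exfalso
  obtain ⟨q, Q, hq, hqp, -, hm⟩ := exists_Q hsol hO (S := zpowers (a : X ⧸ pCore p X)) (A := zpowers (a : X ⧸ pCore p X))
    (IsPGroup.of_card ((Nat.card_zpowers _).trans ((orderOf_eq_prime hap ha1).trans (pow_one p).symm))) le_rfl
    le_normalizer (by rwa [Ne, zpowers_eq_bot])
  have := Fact.mk hq
  obtain ⟨R, hR, h3, h4⟩ := H17.exists_lift_pSubgroup (QuotientGroup.mk'_surjective (pCore p X)) hm.pg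
  obtain ⟨n, hn, h5⟩ : (a : X ⧸ pCore p X) ∈ (normalizer (R : Set X)).map (QuotientGroup.mk' _) :=
    h4 ▸ hm.norm (mem_zpowers _)
  obtain ⟨m, hm'⟩ := (D.mem (n * a⁻¹)).1 (by rw [← div_eq_mul_inv, ← QuotientGroup.eq_iff_div_mem]; exact h5)
  have h6 : D.e w ∈ normalizer (R : Set X) := by
    have := D.mul_pow' m a 1
    rw [hm', inv_mul_cancel_right, pow_one, pow_eq_zero_of_le (n := p - 1) (m := 2)
      (by have := hp.out.two_le; omega) (by rw [pow_two, h2]), LinearMap.zero_apply, D.zero, one_mul, hw] at this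
    exact this ▸ pow_mem hn p
  have h7 : ∀ g ∈ Q, D.ρ g w = w := by
    rw [← h3]
    rintro _ ⟨g, hg, rfl⟩
    have h8 : ⁅g, D.e w⁆ ∈ pCore p X ⊓ R := ⟨D.comm g w ▸ D.e_mem _, by
      rw [commutatorElement_def, mul_assoc, mul_assoc, ← mul_assoc (D.e w)]
      exact mul_mem hg ((mem_normalizer_iff.1 h6 _).1 (inv_mem hg))⟩
    rw [(IsPGroup.disjoint_of_ne p q hqp.symm _ _ (H02.pCore_isPGroup p X) hR).eq_bot, mem_bot, ← D.comm] at h8
    exact sub_eq_zero.1 (D.eq_zero h8)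
  let Z : Subgroup (X ⧸ pCore p X) :=
    { carrier := {c | D.ρ c w = w ∧ ∀ m, ∃ k : ℤ, D.ρ c m = m + k • w}
      mul_mem' := fun {c d} hc hd => ⟨by rw [map_mul, End.mul_apply, hd.1, hc.1], fun m => by
        obtain ⟨k, hk⟩ := hd.2 m
        obtain ⟨l, hl⟩ := hc.2 m
        exact ⟨l + k, by rw [map_mul, End.mul_apply, hk, map_add, map_zsmul, hc.1, hl, add_smul, add_assoc]⟩⟩
      one_mem' := ⟨by simp, fun m => ⟨0, by simp⟩⟩
      inv_mem' := fun {c} hc => by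
        have e : ∀ m, D.ρ c⁻¹ (D.ρ c m) = m := fun m => by
          rw [← End.mul_apply, ← map_mul, inv_mul_cancel, map_one, End.one_apply]
        have e1 : D.ρ c⁻¹ w = w := by conv_lhs => rw [← hc.1, e]
        refine ⟨e1, fun m => ?_⟩
        obtain ⟨k, hk⟩ := hc.2 m
        have := e m
        rw [hk, map_add, map_zsmul, e1] at this
        exact ⟨-k, by rw [neg_smul, ← sub_eq_add_neg, eq_sub_iff_add_eq, this]⟩ }
  have hZ : IsPGroup p Z := fun c => ⟨1, Subtype.ext (D.inj (by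
    rw [Subgroup.coe_pow, map_pow, Subgroup.coe_one, map_one, ← sub_eq_zero, ← sub_one_pow (F := ZMod p)]
    refine pow_eq_zero_of_le (m := 2) (by have := hp.out.two_le; simpa) (LinearMap.ext fun m => ?_)
    obtain ⟨k, hk⟩ := c.2.2 m
    simp [pow_two, hk, c.2.1]))⟩
  have haZ : (a : X ⧸ pCore p X) ∈ Z := ⟨h1, fun m => (h m).imp fun k hk => by
    rwa [LinearMap.sub_apply, End.one_apply, sub_eq_iff_eq_add'] at hk⟩
  refine hm.ne (le_bot_iff.1 ((le_inf (commutator_le.2 fun g hg c hc => ?_) hm.comm_eq.le).trans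
    (IsPGroup.disjoint_of_ne p q hqp.symm _ _ hZ hm.pg).le_bot))
  have hc' := zpowers_le.2 haZ hc
  refine mul_mem ⟨by rw [map_mul, map_mul, End.mul_apply, End.mul_apply, h7 _ (inv_mem hg), hc'.1, h7 g hg],
    fun m => ?_⟩ (inv_mem hc')
  obtain ⟨k, hk⟩ := hc'.2 (D.ρ g⁻¹ m)
  refine ⟨k, ?_⟩
  rw [map_mul, map_mul, End.mul_apply, End.mul_apply, hk, map_add, map_zsmul, h7 g hg, ← End.mul_apply, ← map_mul,
    mul_inv_cancel, map_one, End.one_apply]

/-- Let G be a finite p-soluble group, P a Sylow p-subgroup of G and A a cyclic normal subgroup of P. If p is odd, or if no section of G is isomorphic to the symmetric group of degree 4, then A ≤ O_{p',p}(G). -/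
theorem result {G : Type*} [Group G] [Finite G] {p : ℕ} [Fact p.Prime] (hG : Cfsg.IsPSolvable p G) (P : Sylow p G) (A : Subgroup G) (hAP : A ≤ (P : Subgroup G)) (hAn : (P : Subgroup G) ≤ Subgroup.normalizer (A : Set G)) (hA : IsCyclic A) (h : p ≠ 2 ∨ ¬ Cfsg.Involves (Equiv.Perm (Fin 4)) G) : A ≤ Cfsg.pPrimePCore p G := by
  have hp : p.Prime := Fact.out
  obtain ⟨X, _, _, f, M, _, _, _, D, hf, h4⟩ := exists_md hG
  obtain ⟨a₀, rfl⟩ := (A.isCyclic_iff_exists_zpowers_eq_top).1 hA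
  rw [zpowers_le, ← h4, mem_comap]
  by_contra ha
  obtain ⟨k, hk⟩ := P.2 ⟨a₀, hAP (mem_zpowers _)⟩
  have hk' : ((f a₀ : X) : X ⧸ pCore p X) ^ p ^ k = 1 := by
    rw [← QuotientGroup.mk_pow, ← map_pow, show a₀ ^ p ^ k = 1 from congrArg Subtype.val hk, map_one,
      QuotientGroup.mk_one]
  obtain ⟨n, -, hn⟩ := (Nat.dvd_prime_pow hp).1 (orderOf_dvd_of_pow_eq_one hk')
  have h1 : ∀ i : ℤ, f a₀ ^ i ∈ pCore p X ↔ ((p ^ n : ℕ) : ℤ) ∣ i := fun i => by
    rw [← QuotientGroup.eq_one_iff, QuotientGroup.mk_zpow, ← orderOf_dvd_iff_zpow_eq_one, hn]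
  rcases n with _ | n
  · exact ha (by simpa using (h1 1).2 (by simp))
  obtain ⟨w, hw⟩ := (D.mem _).1 ((h1 _).2 dvd_rfl)
  have he : ∀ k : ℤ, D.e (k • w) = D.e w ^ k := fun k =>
    map_zpow (MonoidHom.mk' (fun m : Multiplicative M => D.e m.toAdd) fun _ _ => D.add _ _) (Multiplicative.ofAdd w) k
  obtain ⟨h2, h3⟩ := tv D (PS.quotient (PS.of_surjective hG f hf) _) (a := f a₀ ^ p ^ n) (w := w) (by
    rw [← zpow_natCast, h1, Int.natCast_dvd_natCast, Nat.pow_dvd_pow_iff_le_right hp.one_lt]; omega)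
    (by rw [hw, ← pow_mul, ← pow_succ, zpow_natCast]) fun m => by
      obtain ⟨g, hg, h5⟩ := H02.pCore_le_sylow (P.mapSurjective hf) (D.e_mem m)
      obtain ⟨i, hi⟩ : ⁅a₀ ^ p ^ n, g⁆ ∈ zpowers a₀ := by
        rw [commutatorElement_def, mul_assoc, mul_assoc, ← mul_assoc g]
        exact mul_mem (npow_mem_zpowers _ _) ((mem_normalizer_iff.1 (hAn hg) _).1 (inv_mem (npow_mem_zpowers _ _)))
      have h6 : D.e ((D.ρ (f a₀ ^ p ^ n : X) - 1) m) = f a₀ ^ i := by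
        rw [D.comm, ← h5, ← map_pow, ← map_commutatorElement, ← hi, map_zpow]
      obtain ⟨j, rfl⟩ := (h1 i).1 (h6 ▸ D.e_mem _)
      exact ⟨j, D.einj (by rw [h6, he, hw, zpow_mul])⟩
  exact h.elim (fun h => h h2) fun h => h (H17.sec_iff_involves.1 (h3.of_surjective f hf))

end Cfsg.Agent.S3788
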