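import Mathlib
import Cfsg.Statements.S3794
import Cfsg.Agent.H03.FP2

set_option autoImplicit false
open Cfsg

namespace Cfsg.Agent.S3794

/-- Let G be a finite solvable group with an automorphism σ satisfying σ⁴ = 1 and fixing only the identity. Then the derived subgroup G' is nilpotent. -/
theorem result {G : Type*} [Group G] [Finite G] (hG : Group.IsSolvable G) (σ : MulAut G) (hσ : σ ^ 4 = 1) (hfpf : ∀ g : G, σ g = g → g = 1) : Group.IsNilpotent (commutator G) := by
  open BG H03 in
  let φ := (Subgroup.zpowers σ).subtype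
  have h1 : ∀ g : G, (∀ b, φ b g = g) → g = 1 := fun g h => hfpf g (h ⟨σ, Subgroup.mem_zpowers σ⟩)
  have h2 : Nat.card (Subgroup.zpowers σ) ∣ 2 ^ 2 := by rw [Nat.card_zpowers]; exact orderOf_dvd_of_pow_eq_one hσ
  obtain ⟨i, -, h3⟩ := (Nat.dvd_prime_pow Nat.prime_two).1 h2
  have h4 := nil_of_le_fit (four_der (isCyclic_of_surjective (sAequiv φ) (MulEquiv.surjective _)) (by rwa [card_sA])
    (sol_sK φ hG) (sA_norm φ) (by
      rw [card_sA, card_sK]
      exact coprime_of_fpf_pg Nat.prime_two (pg_of_card h3) φ h1) (sK_cent φ h1))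
  rw [← Subgroup.map_commutator] at h4
  exact Group.nilpotent_of_mulEquiv (Subgroup.equivMapOfInjective _ _ SemidirectProduct.inl_injective).symm (_h := h4)

end Cfsg.Agent.S3794
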