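import Mathlib
import Cfsg.Statements.S3795
import Cfsg.Agent.H03.FP3

set_option autoImplicit false
open Cfsg

namespace Cfsg.Agent.S3795

/-- Gross's Theorem: let G be a finite solvable group with an automorphism σ of order 2^n, n > 1, fixing only the identity. Then G has Fitting height at most 2n − 2: G has Fitting height at most m when there is a chain of normal subgroups 1 = F₀ ≤ F₁ ≤ ⋯ ≤ F_m = G with each F_{i+1}/F_i nilpotent. -/
theorem result {G : Type*} [Group G] [Finite G] (hG : Group.IsSolvable G) (σ : MulAut G) (n : ℕ) (hn : 1 < n) (hσ : orderOf σ = 2 ^ n) (hfpf : ∀ g : G, σ g = g → g = 1) : ∃ F : Fin ((2 * n - 2) + 1) → Subgroup G, F 0 = ⊥ ∧ F (Fin.last (2 * n - 2)) = ⊤ ∧ Monotone F ∧ (∀ i, (F i).Normal) ∧ ∀ i : Fin (2 * n - 2), ∃ k : ℕ, (F i.succ).lowerCentralSeries k ≤ F i.castSucc := by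
  open BG H03 in
  let φ := (Subgroup.zpowers σ).subtype
  have h1 : ∀ g : G, (∀ b, φ b g = g) → g = 1 := fun g h => hfpf g (h ⟨σ, Subgroup.mem_zpowers σ⟩)
  have h2 : Nat.card (Subgroup.zpowers σ) = 2 ^ n := by rw [Nat.card_zpowers, hσ]
  obtain ⟨m, rfl⟩ : ∃ m, n = m + 2 := ⟨n - 2, by omega⟩
  rw [chain_iff, ← resn_sK φ, show 2 * (m + 2) - 2 = 2 * m + 2 by omega]
  refine gross m (isCyclic_of_surjective (sAequiv φ) (MulEquiv.surjective _)) (by rw [card_sA, h2])
    (sol_sK φ hG) (sA_norm φ) ?_ (sK_cent φ h1)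
  rw [card_sA, card_sK]
  exact coprime_of_fpf_pg Nat.prime_two (pg_of_card h2) φ h1

end Cfsg.Agent.S3795
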