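import Mathlib
import Cfsg.Statements.S3796
import Cfsg.Agent.H03.FP4

set_option autoImplicit false
open Cfsg

namespace Cfsg.Agent.S3796

/-- Ward's Theorem: let G be a finite solvable group and A an elementary abelian group of automorphisms of G of order p² (p a prime) with no non-identity common fixed point. Then G has Fitting height at most 2: G has Fitting height at most m when there is a chain of normal subgroups 1 = F₀ ≤ F₁ ≤ ⋯ ≤ F_m = G with each F_{i+1}/F_i nilpotent. -/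
theorem result {G : Type*} [Group G] [Finite G] (hG : Group.IsSolvable G) {p : ℕ} (hp : p.Prime) (A : Subgroup (MulAut G)) (hA : Cfsg.IsElementaryAbelian p A) (hcard : Nat.card A = p ^ 2) (hfpf : ∀ g : G, (∀ a ∈ A, a g = g) → g = 1) : ∃ F : Fin (2 + 1) → Subgroup G, F 0 = ⊥ ∧ F (Fin.last 2) = ⊤ ∧ Monotone F ∧ (∀ i, (F i).Normal) ∧ ∀ i : Fin 2, ∃ k : ℕ, (F i.succ).lowerCentralSeries k ≤ F i.castSucc := by
  open BG H03 in
  let φ := A.subtype
  have h1 : ∀ g : G, (∀ b, φ b g = g) → g = 1 := fun g h => hfpf g fun a ha => h ⟨a, ha⟩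
  have hE : IsElem p 2 (sA φ) ⊤ := by
    refine ⟨le_top, ⟨abelian_iff.2 (le_cent_iff.2 ?_), ?_⟩, by rw [card_sA, hcard]⟩
    · rintro _ ⟨a, rfl⟩ _ ⟨b, rfl⟩
      rw [← map_mul, ← map_mul]
      exact congrArg _ (Subtype.ext (mul_comm_of_abelian hA.1 a.2 b.2))
    · rintro _ ⟨a, rfl⟩
      rw [← map_pow, show a ^ p = 1 from Subtype.ext (hA.2 a a.2), map_one]
  rw [chain_iff, ← resn_sK φ]
  refine res_two (twoP_of_elem hp hE) (sol_sK φ hG) (sA_norm φ) ?_ (sK_cent φ h1)
  rw [card_sA, card_sK]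
  exact coprime_of_fpf_pg hp (pg_of_card hcard) φ h1

end Cfsg.Agent.S3796
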