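import Mathlib
import Cfsg.Statements.S3799
import Cfsg.Agent.H16.Heis

set_option autoImplicit false
open Cfsg

namespace Cfsg.Agent.S3799

open BG

/-- For every odd prime p and every n ≥ 1 there is an extraspecial p-group of order p^(1+2n) and exponent p; concretely, the general linear group of degree n + 2 over the field with p elements contains such a subgroup. -/
theorem result (p : ℕ) [Fact p.Prime] (hp : p ≠ 2) (n : ℕ) (hn : 1 ≤ n) : ∃ E : Subgroup (Matrix.GeneralLinearGroup (Fin (n + 2)) (ZMod p)), Cfsg.IsExtraspecial p ↥E ∧ Nat.card E = p ^ (1 + 2 * n) ∧ ∀ x ∈ E, x ^ p = 1 := by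
  classical
  haveI : Nonempty (Fin n) := ⟨⟨0, hn⟩⟩
  let b : Module.Basis (Fin (n + 2)) (ZMod p) (ZMod p × (Fin n → ZMod p) × ZMod p) :=
    Module.finBasisOfFinrankEq _ _ (by simp; ring)
  let f0 : H16.Heis (Fin n) (ZMod p) →* Matrix (Fin (n + 2)) (Fin (n + 2)) (ZMod p) :=
    (LinearMap.toMatrixAlgEquiv b).toRingEquiv.toMonoidHom.comp H16.Heis.rep
  have hf0 : Function.Injective f0 :=
    (LinearMap.toMatrixAlgEquiv b).injective.comp H16.Heis.rep_injective
  let f : H16.Heis (Fin n) (ZMod p) →* Matrix.GeneralLinearGroup (Fin (n + 2)) (ZMod p) := f0.toHomUnits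
  have hf : Function.Injective f := fun x y h => hf0 (congrArg Units.val h)
  refine ⟨(⊤ : Subgroup _).map f, ?_, ?_, ?_⟩
  · refine H04.isExtraspecial_of_aes ((H16.Heis.aes hp).map f hf) ?_ ?_
    · rintro _ ⟨⟨x, -, rfl⟩, hx⟩
      have : x ∈ Subgroup.center _ := by
        rw [Subgroup.mem_center_iff]
        intro y
        apply hf
        rw [map_mul, map_mul]
        exact hx (f y) ⟨y, trivial, rfl⟩
      obtain ⟨k, rfl⟩ := H16.Heis.center_le this
      exact ⟨k, by simp⟩
    · intro h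
      apply H16.Heis.not_comm (ι := Fin n) (R := ZMod p)
      refine ⟨⟨fun x y => hf ?_⟩⟩
      rw [map_mul, map_mul]
      exact congrArg Subtype.val (h.is_comm.comm ⟨f x, x, trivial, rfl⟩ ⟨f y, y, trivial, rfl⟩)
  · rw [Subgroup.card_map_of_injective hf, Subgroup.card_top, H16.Heis.card, Nat.card_zmod, Fintype.card_fin]
  · rintro _ ⟨x, -, rfl⟩
    rw [← map_pow, H16.Heis.pow_p hp, map_one]

end Cfsg.Agent.S3799
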