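import Mathlib
import Cfsg.Statements.S3800
import Cfsg.Agent.H01.Coprime2
import Cfsg.Agent.H02.PPrimeCore

set_option autoImplicit false
open Cfsg

namespace Cfsg.Agent.S3800

/-- Let G be a finite group, N a normal subgroup of G whose order is prime to p, and P a p-subgroup of G. Then in G/N the normalizer of the image of P is the image of N_G(P), and the centralizer of the image of P is the image of C_G(P). -/
theorem result {G : Type*} [Group G] [Finite G] {p : ℕ} [Fact p.Prime] (N : Subgroup G) [N.Normal] (hN : (Nat.card N).Coprime p) (P : Subgroup G) (hP : IsPGroup p P) : Subgroup.normalizer ((P.map (QuotientGroup.mk' N)) : Set (G ⧸ N)) = (Subgroup.normalizer (P : Set G)).map (QuotientGroup.mk' N) ∧ Subgroup.centralizer ((P.map (QuotientGroup.mk' N)) : Set (G ⧸ N)) = (Subgroup.centralizer (P : Set G)).map (QuotientGroup.mk' N) := by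
  have hs := QuotientGroup.mk'_surjective N
  constructor
  · refine le_antisymm (fun y hy => ?_) (Subgroup.le_normalizer_map _)
    obtain ⟨x, rfl⟩ := hs y
    have h2 : x ∈ Subgroup.normalizer ((P ⊔ N : Subgroup G) : Set G) := by
      rwa [← Subgroup.mem_comap, Subgroup.comap_normalizer_eq_of_surjective _ hs,
        Subgroup.comap_map_eq, QuotientGroup.ker_mk'] at hy
    obtain ⟨n, hn, e⟩ := H01.conj_of_le_sup (H01.le_normalizer_of_normal P N)
      (H02.coprime_card_of_isPGroup hP hN) (Or.inl (H01.isSolvable_of_isPGroup hP))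
      (H01.conj_smul_le_of_mem_normalizer le_sup_left h2) (H01.card_conj_smul _ _)
    refine ⟨n⁻¹ * x, ?_, ?_⟩
    · rw [SetLike.mem_coe, ← H01.conj_smul_eq_iff_mem_normalizer, ← H01.conj_smul_conj_smul, ← e,
        H01.conj_smul_conj_smul]
      simp
    · rw [map_mul, map_inv, QuotientGroup.mk'_apply, (QuotientGroup.eq_one_iff _).2 hn]; simp
  · have := H01.centralizer_map_eq (QuotientGroup.mk' N) (A := P) (K := ⊤)
      (H01.le_normalizer_of_normal _ _) (by
        rw [top_inf_eq, QuotientGroup.ker_mk']; exact H02.coprime_card_of_isPGroup hP hN)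
      (Or.inl (H01.isSolvable_of_isPGroup hP))
    rwa [Subgroup.map_top_of_surjective _ hs, top_inf_eq, top_inf_eq] at this

end Cfsg.Agent.S3800
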