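import Mathlib
import Cfsg.Statements.S3979

set_option autoImplicit false
open Cfsg

namespace Cfsg.Agent.S3979

/-- A finite cyclic group has trivial Schur multiplier: every finite stem extension of it is an isomorphism, said through `HasCyclicSchurMultiplier G 1`. -/
theorem result {G : Type*} [Group G] [Finite G] [IsCyclic G] : Cfsg.HasCyclicSchurMultiplier G 1 := by
  refine ⟨⟨G, inferInstance, inferInstance, MonoidHom.id G, ⟨Function.surjective_id, by simp, by simp⟩, ?_⟩, ?_⟩
  · rw [MonoidHom.ker_id]
    haveI : Unique (Multiplicative (ZMod 1)) := inferInstanceAs (Unique (Fin 1))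
    exact ⟨MulEquiv.ofUnique⟩
  · intro Γ _ _ σ ⟨hs, hc, hd⟩
    have hcomm := commutative_of_cyclic_center_quotient σ hc
    have : commutator Γ = ⊥ := by
      rw [commutator_def, Subgroup.commutator_eq_bot_iff_le_centralizer]
      intro a _ b _
      exact hcomm b a
    refine ⟨1, fun y => ⟨1, Subtype.ext ?_⟩⟩
    have := hd y.2
    rw [‹commutator Γ = ⊥›] at this
    simp only [MonoidHom.one_apply, OneMemClass.coe_one]
    exact (Subgroup.mem_bot.1 this).symm

end Cfsg.Agent.S3979
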