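import Mathlib
import Cfsg.Statements.S3950
import Cfsg.Agent.H16.Schur2
import Cfsg.Agent.S3979

set_option autoImplicit false
open Cfsg

namespace Cfsg.Agent.S3950

open Subgroup H16

/-- A finite abelian group has trivial Schur multiplier if and only if it is cyclic. -/
theorem result {G : Type*} [CommGroup G] [Finite G] : Cfsg.HasCyclicSchurMultiplier G 1 ↔ IsCyclic G := by
  refine ⟨fun h => ?_, fun h => Cfsg.Agent.S3979.result⟩
  classical
  obtain ⟨ι, _, n, hn, ⟨e⟩⟩ := CommGroup.equiv_prod_multiplicative_zmod_of_finite G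
  by_cases hc : Pairwise (Function.onFun Nat.Coprime n)
  · let f : ZMod (∏ i, n i) ≃+ (∀ i, ZMod (n i)) := (ZMod.prodEquivPi n hc).toAddEquiv
    let g : Multiplicative (ZMod (∏ i, n i)) ≃* G :=
      ((AddEquiv.toMultiplicative f).trans (MulEquiv.piMultiplicative _)).trans e.symm
    exact isCyclic_of_surjective g g.surjective
  exfalso
  simp only [Pairwise, not_forall] at hc
  obtain ⟨i, j, hij, hc⟩ := hc
  obtain ⟨p, hp, hi, hj⟩ := Nat.Prime.not_coprime_iff_dvd.1 hc
  haveI := Fact.mk hp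
  let β : G →* G →* Multiplicative (ZMod p) :=
    MonoidHom.mk' (fun g => MonoidHom.mk' (fun h => Multiplicative.ofAdd
      (ZMod.castHom hi (ZMod p) (e g i).toAdd * ZMod.castHom hj (ZMod p) (e h j).toAdd))
      (fun a b => by simp only [map_mul, Pi.mul_apply, toAdd_mul, map_add, mul_add, ofAdd_add]))
      (fun a b => by ext; simp only [map_mul, Pi.mul_apply, toAdd_mul, map_add, add_mul, ofAdd_add, MonoidHom.mk'_apply, MonoidHom.mul_apply])
  have hβ : ∀ g h, β g h = Multiplicative.ofAdd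
      (ZMod.castHom hi (ZMod p) (e g i).toAdd * ZMod.castHom hj (ZMod p) (e h j).toAdd) := fun _ _ => rfl
  have h1 := trivial_ker_inf h (BExt.fst_surjective (β := β)) BExt.fst_ker_le_center
  have h2 := BExt.inr_mem_commutator (β := β)
    (mul_comm (e.symm (Pi.mulSingle i (Multiplicative.ofAdd 1))) (e.symm (Pi.mulSingle j (Multiplicative.ofAdd 1))))
  have h3 : _ ∈ (BExt.fst β).ker ⊓ commutator (BExt β) := mem_inf.2 ⟨rfl, h2⟩
  rw [h1, mem_bot, ← map_one (BExt.inr β)] at h3
  have h4 := BExt.inr_injective h3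
  simp only [hβ, MulEquiv.apply_symm_apply, Pi.mulSingle_eq_of_ne hij, Pi.mulSingle_eq_of_ne hij.symm, Pi.mulSingle_eq_same,
    toAdd_ofAdd, map_one, toAdd_one, map_zero] at h4
  simp at h4

end Cfsg.Agent.S3950
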