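import Mathlib
import Cfsg.Statements.S3951
import Cfsg.Agent.H16.Schur2

set_option autoImplicit false
open Cfsg

namespace Cfsg.Agent.S3951

open Subgroup H16

/-- For positive integers `m` and `n` with `n` dividing `m`, the Schur multiplier of the abelian group `ZMod m × ZMod n` (written multiplicatively) is cyclic of order `n`. In particular the elementary abelian group of order `p ^ 2` has multiplier of order `p`. -/
theorem result (m n : ℕ) [NeZero m] [NeZero n] (hnm : n ∣ m) : Cfsg.HasCyclicSchurMultiplier (Multiplicative (ZMod m × ZMod n)) n := by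
  let c : ZMod m →+* ZMod n := ZMod.castHom hnm (ZMod n)
  let β : Multiplicative (ZMod m × ZMod n) →* Multiplicative (ZMod m × ZMod n) →* Multiplicative (ZMod n) :=
    MonoidHom.mk' (fun g => MonoidHom.mk' (fun h => Multiplicative.ofAdd (c g.toAdd.1 * h.toAdd.2))
      (fun a b => by simp [mul_add, ofAdd_add])) (fun a b => by ext; simp [add_mul, ofAdd_add])
  have hβ : ∀ g h, β g h = Multiplicative.ofAdd (c g.toAdd.1 * h.toAdd.2) := fun _ _ => rfl
  obtain ⟨h1, ⟨e⟩⟩ := BExt.stem (β := β) isStemExtension_id (fun k hk h => by rw [show k = 1 from hk]; simp)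
    (fun k hk h => by rw [show k = 1 from hk]; simp) (fun t => by
      have := BExt.inr_mem_commutator (β := β) (mul_comm (Multiplicative.ofAdd (1, 0)) (Multiplicative.ofAdd (0, t.toAdd)))
      simpa [hβ] using this)
  refine hasCyclic_of h1 (by rw [Nat.card_congr e.toEquiv]; simp) fun Δ _ _ τ hτ => ?_
  have hgen : Subgroup.closure {(Multiplicative.ofAdd (1, 0) : Multiplicative (ZMod m × ZMod n)), Multiplicative.ofAdd (0, 1)} = ⊤ := by
    rw [eq_top_iff]
    intro x _
    have : x = Multiplicative.ofAdd (1, 0) ^ x.toAdd.1.val * Multiplicative.ofAdd (0, 1) ^ x.toAdd.2.val := by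
      apply Multiplicative.toAdd.injective
      ext <;> simp
    rw [this]
    exact mul_mem (pow_mem (subset_closure (by simp)) _) (pow_mem (subset_closure (by simp)) _)
  obtain ⟨u, h2, -, h3⟩ := metacyclic_ker hτ hgen (r := 1) one_pos (by simp)
  have h4 := (h3 n 0 (by apply Multiplicative.toAdd.injective; ext <;> simp)).2
  simp only [one_pow, Finset.sum_const, Finset.card_range, smul_eq_mul, mul_one] at h4
  refine ⟨isCyclic_of_le h2, fun k hk => ?_⟩
  obtain ⟨j, rfl⟩ := h2 hk
  simp only
  rw [← zpow_natCast, ← zpow_mul, mul_comm j, zpow_mul, zpow_natCast, ← pow_mul, mul_comm, pow_mul, h4]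
  simp

end Cfsg.Agent.S3951
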