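import Mathlib
import Cfsg.Statements.S3952
import Cfsg.Agent.H16.Schur2
import Cfsg.Agent.H05.Orth
import Cfsg.Agent.H05.Values

set_option autoImplicit false
open Cfsg

namespace Cfsg.Agent.S3952

open Subgroup H16

/-- If `A` is the Schur multiplier of the finite group `Q`, then the square of the exponent of `A` divides the order of `Q`. -/
theorem result {Q : Type*} [Group Q] [Finite Q] {A : Type*} [CommGroup A] (hA : Cfsg.HasSchurMultiplier Q A) : Monoid.exponent A ^ 2 ∣ Nat.card Q := by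
  classical
  obtain ⟨⟨Γ, _, _, σ, hσ, ⟨e⟩⟩, -⟩ := hA
  haveI : Finite A := Finite.of_equiv _ e.toEquiv
  haveI := Fintype.ofFinite (IrrCharacter Γ)
  haveI := Fintype.ofFinite A
  haveI : NeZero (Monoid.exponent A) := ⟨Monoid.exponent_ne_zero_of_finite⟩
  obtain ⟨d⟩ := CommGroup.monoidHom_mulEquiv_of_hasEnoughRootsOfUnity A ℂ
  obtain ⟨a₀, ha₀⟩ := Monoid.exists_orderOf_eq_exponent (Monoid.ExponentExists.of_finite (G := A))
  set lam := d.symm a₀ with hlam
  have hlo : orderOf lam = Monoid.exponent A := by rw [← ha₀, hlam, MulEquiv.orderOf_eq]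
  let j : A →* Γ := σ.ker.subtype.comp e.symm.toMonoidHom
  have hj : ∀ a, j a ∈ σ.ker := fun a => (e.symm a).2
  have hji : Function.Injective j := σ.ker.subtype_injective.comp e.symm.injective
  have key : ∀ χ : IrrCharacter Γ, ∃ c : ℕ, ∑ a : A, ((lam a⁻¹ : ℂˣ) : ℂ) * ((χ : Γ → ℂ) 1 * (χ : Γ → ℂ) (j a)) =
      ((Nat.card A * (Monoid.exponent A ^ 2 * c) : ℕ) : ℂ) := by
    rintro ⟨_, n, ρ, hρ, rfl⟩
    have h1 : ∀ a : A, ∃ c : ℂ, ρ (j a) = c • LinearMap.id := fun a =>
      H05.exists_scalar_of_comm ρ (ρ (j a)) (fun g => by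
        rw [← Module.End.mul_eq_comp, ← Module.End.mul_eq_comp, ← map_mul, ← map_mul, mem_center_iff.1 (hσ.2.1 (hj a)) g])
    choose μ hμ using h1
    haveI := H05.nontrivial_of_isIrreducible ρ
    have hinj : ∀ c c' : ℂ, c • (LinearMap.id : (Fin n → ℂ) →ₗ[ℂ] (Fin n → ℂ)) = c' • LinearMap.id → c = c' := by
      intro c c' h
      obtain ⟨v, hv⟩ := exists_ne (0 : Fin n → ℂ)
      exact smul_left_injective ℂ hv (DFunLike.congr_fun h v)
    let μ' : A →* ℂ :=
      { toFun := μ
        map_one' := hinj _ _ (by rw [← hμ, map_one, map_one, one_smul]; rfl)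
        map_mul' := fun a b => hinj _ _ (by
          rw [← hμ, map_mul, map_mul, hμ, hμ]; ext; simp [mul_smul, mul_left_comm]) }
    have hdet : ∀ a, μ a ^ n = 1 := by
      intro a
      have h2 : (LinearMap.det.comp ρ : Γ →* ℂ) (j a) = 1 := by
        have h3 := Abelianization.commutator_subset_ker (LinearMap.det.comp ρ : Γ →* ℂ).toHomUnits (hσ.2.2 (hj a))
        exact congrArg Units.val h3
      rw [MonoidHom.comp_apply, hμ, LinearMap.det_smul] at h2
      simpa using h2
    have hch : ∀ a, ρ.character (j a) = μ a * n := by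
      intro a
      simp [Representation.character, hμ]
    have hch1 : ρ.character 1 = n := by simp [Representation.character]
    let ν : A →* ℂ := ((Units.coeHom ℂ).comp lam⁻¹) * μ'
    have hν : ∀ a, ν a = ((lam a⁻¹ : ℂˣ) : ℂ) * μ a := fun a => by simp [ν, μ']
    have h4 : ∑ a : A, ((lam a⁻¹ : ℂˣ) : ℂ) * (ρ.character 1 * ρ.character (j a)) = (∑ a, ν a) * n ^ 2 := by
      rw [Finset.sum_mul]
      refine Finset.sum_congr rfl fun a _ => ?_
      rw [hch, hch1, hν]; ring
    change ∃ c : ℕ, ∑ a : A, ((lam a⁻¹ : ℂˣ) : ℂ) * (ρ.character 1 * ρ.character (j a)) = _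
    rw [h4]
    by_cases h5 : ν = 1
    · have h6 : lam ^ n = 1 := by
        ext a
        have h7 : ((lam a⁻¹ : ℂˣ) : ℂ) * μ a = 1 := by rw [← hν, h5]; rfl
        have h8 : μ a = lam a := by
          rw [map_inv, Units.val_inv_eq_inv_val, inv_mul_eq_one₀ (Units.ne_zero _)] at h7
          exact h7.symm
        simp [← h8, hdet]
      obtain ⟨c, hc⟩ := hlo ▸ orderOf_dvd_of_pow_eq_one h6
      refine ⟨c ^ 2, ?_⟩
      rw [h5, hc]
      simp [Nat.card_eq_fintype_card]
      ring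
    · exact ⟨0, by rw [sum_hom_units_eq_zero ν h5]; simp⟩
  choose c hc using key
  have h1 : ∑ χ : IrrCharacter Γ, ∑ a : A, ((lam a⁻¹ : ℂˣ) : ℂ) * ((χ : Γ → ℂ) 1 * (χ : Γ → ℂ) (j a)) = Nat.card Γ := by
    rw [Finset.sum_comm]
    simp only [← Finset.mul_sum, H05.sum_degree_mul_apply]
    rw [Finset.sum_eq_single 1]
    · simp [H05.regChar_one]
    · intro b _ hb
      rw [H05.regChar_of_ne (fun h => hb (hji (by rw [h, map_one]))), mul_zero]
    · simp
  simp only [hc] at h1
  rw [← Nat.cast_sum, Nat.cast_inj, ← Finset.mul_sum, ← Finset.mul_sum, card_eq_of_surjective σ hσ.1,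
    Nat.card_congr e.toEquiv] at h1
  exact Dvd.intro _ (Nat.eq_of_mul_eq_mul_left Nat.card_pos h1)

end Cfsg.Agent.S3952
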