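import Mathlib
import Cfsg.Statements.S3953
import Cfsg.Agent.H16.Schur2

set_option autoImplicit false
open Cfsg

namespace Cfsg.Agent.S3953

open Subgroup H16
open scoped commutatorElement

theorem exists_transfer {F G : Type*} [Group F] [Group G] (σ : F →* G) (U : Subgroup G) [U.FiniteIndex] (hσ : Function.Surjective σ) :
    ∃ (t : HM σ →* HM ((σ.comp (U.comap σ).subtype).codRestrict U (fun x => x.2)))
      (i : HM ((σ.comp (U.comap σ).subtype).codRestrict U (fun x => x.2)) →* HM σ), ∀ x, i (t x) = x ^ U.index := by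
  classical
  set V := U.comap σ with hV
  set σ' : V →* U := (σ.comp V.subtype).codRestrict U (fun x => x.2) with hσ'
  have hVi : V.index = U.index := index_comap_of_surjective U hσ
  haveI : V.FiniteIndex := ⟨hVi ▸ FiniteIndex.index_ne_zero⟩
  letI := V.fintypeQuotientOfFiniteIndex
  have hker : ∀ x : V, x ∈ σ'.ker ↔ (x : F) ∈ σ.ker := fun x =>
    ⟨fun h => congrArg Subtype.val h, fun h => Subtype.ext h⟩
  have hRV : σ.ker ≤ V := fun x hx => by rw [hV, mem_comap, hx]; exact one_mem _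
  let ι : HE σ' →* HE σ := QuotientGroup.map _ _ V.subtype (by
    rw [commutator_le]
    intro a ha b _
    rw [mem_comap, map_commutatorElement]
    exact commutator_mem_commutator ((hker a).1 ha) (mem_top _))
  have hι : ∀ x : V, ι (x : HE σ') = ((x : F) : HE σ) := fun x => rfl
  have hιπ : ∀ x, hπ σ (ι x) = hπ σ' x := fun x => by
    obtain ⟨x, rfl⟩ := QuotientGroup.mk_surjective x
    rfl
  let i : HM σ' →* HM σ := (ι.comp (HM σ').subtype).codRestrict _ (fun x =>
    mem_inf.2 ⟨by
      rw [MonoidHom.mem_ker, MonoidHom.comp_apply, hιπ]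
      exact congrArg Subtype.val (show hπ σ' x = 1 from x.2.1), map_mem_commutator ι x.2.2⟩)
  set Z := center (HE σ') with hZ
  letI : CommGroup Z :=
    { (inferInstance : Group Z) with
      mul_comm := fun a b => Subtype.ext (mem_center_iff.1 b.2 a) }
  let c : σ.ker →* Z := ((QuotientGroup.mk' _).comp (inclusion hRV)).codRestrict Z (fun r =>
    hπ_ker_le_center σ' ((hker _).2 r.2))
  have hc : ∀ r : σ.ker, (c r : HE σ') = ((⟨r, hRV r.2⟩ : V) : HE σ') := fun r => rfl
  have hcv : ∀ (r : σ.ker) (v : F), v ∈ V → c (MulAut.conjNormal v r) = c r := by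
    intro r v hv
    apply Subtype.ext
    have h1 := mem_center_iff.1 (c r).2 ((⟨v, hv⟩ : V) : HE σ')
    rw [← mul_inv_eq_iff_eq_mul] at h1
    rw [← h1, hc, hc, ← QuotientGroup.mk_mul, ← QuotientGroup.mk_inv, ← QuotientGroup.mk_mul]
    rfl
  let T : V.LeftTransversal := default
  let α : F ⧸ V → F := fun q => T.2.leftQuotientEquiv q
  have hα : ∀ q, (α q : F ⧸ V) = q := fun q => T.2.quotientGroupMk_leftQuotientEquiv q
  let N : σ.ker →* Z := MonoidHom.mk' (fun r => ∏ q : F ⧸ V, c (MulAut.conjNormal (α q)⁻¹ r))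
    (fun a b => by simp only [map_mul, Finset.prod_mul_distrib])
  have hN : ∀ r, N r = ∏ q : F ⧸ V, c (MulAut.conjNormal (α q)⁻¹ r) := fun r => rfl
  have hNconj : ∀ (f : F) (r : σ.ker), N (MulAut.conjNormal f r) = N r := by
    intro f r
    rw [hN, hN]
    refine Fintype.prod_equiv (MulAction.toPerm f⁻¹) _ _ (fun q => ?_)
    have h1 : (α (f⁻¹ • q))⁻¹ * (f⁻¹ * α q) ∈ V := by
      rw [← QuotientGroup.eq, hα]
      conv_lhs => rw [← hα q]
      rfl
    rw [← hcv _ _ h1]
    congr 1
    apply Subtype.ext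
    simp only [MulAut.conjNormal_apply, MulAction.toPerm_apply]
    group
  have hNker : ∀ r : σ.ker, (r : F) ∈ ⁅σ.ker, (⊤ : Subgroup F)⁆ → N r = 1 := by
    have : ⁅σ.ker, (⊤ : Subgroup F)⁆ ≤ N.ker.map σ.ker.subtype := by
      rw [commutator_le]
      intro a ha b _
      refine ⟨⟨a, ha⟩ * (MulAut.conjNormal b ⟨a, ha⟩)⁻¹, ?_, ?_⟩
      · rw [SetLike.mem_coe, MonoidHom.mem_ker, map_mul, map_inv, hNconj, mul_inv_cancel]
      · simp [commutatorElement_def, mul_assoc]
    intro r hr
    obtain ⟨y, hy, hy'⟩ := this hr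
    rwa [← show y = r from Subtype.ext hy']
  let m : σ.ker →* (hπ σ).ker := ((QuotientGroup.mk' _).comp σ.ker.subtype).codRestrict _ (fun r => r.2)
  have hm : Function.Surjective m := by
    rintro ⟨x, hx⟩
    obtain ⟨x, rfl⟩ := QuotientGroup.mk_surjective x
    exact ⟨⟨x, hx⟩, rfl⟩
  let t₀ : (hπ σ).ker →* Z := m.liftOfSurjective hm ⟨N, fun r hr =>
    hNker r ((QuotientGroup.eq_one_iff _).1 (congrArg Subtype.val hr))⟩
  have ht₀ : ∀ r, t₀ (m r) = N r := fun r => MonoidHom.liftOfRightInverse_comp_apply _ _ _ _ _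
  have hcm : (commutator F).map (QuotientGroup.mk' ⁅σ.ker, ⊤⁆) = commutator (HE σ) := by
    rw [_root_.commutator_def, map_commutator, map_top_of_surjective _ (QuotientGroup.mk'_surjective _)]
    rfl
  let t : HM σ →* HM σ' := (Z.subtype.comp (t₀.comp (inclusion inf_le_left))).codRestrict _ (fun x => by
    obtain ⟨r, hr⟩ := hm (inclusion inf_le_left x)
    simp only [MonoidHom.comp_apply]
    rw [← hr, ht₀]
    refine mem_inf.2 ⟨?_, ?_⟩
    · change N r ∈ (hπ σ').ker.comap Z.subtype
      rw [hN]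
      exact Subgroup.prod_mem _ (fun q _ => (hker _).2 (MulAut.conjNormal (α q)⁻¹ r).2)
    · have h1 : (r : F) ∈ commutator F := by
        have h2 : ((r : F) : HE σ) ∈ commutator (HE σ) := by
          have : ((r : F) : HE σ) = x := congrArg Subtype.val hr
          rw [this]; exact x.2.2
        rw [← hcm] at h2
        obtain ⟨y, hy, hy'⟩ := h2
        have h3 : y⁻¹ * r ∈ ⁅σ.ker, (⊤ : Subgroup F)⁆ := QuotientGroup.eq.1 hy'
        have := mul_mem hy (commutator_mono le_top le_top h3)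
        rwa [mul_inv_cancel_left] at this
      let ϕ : V →* Abelianization (HE σ') := Abelianization.of.comp (QuotientGroup.mk' _)
      have h2 : MonoidHom.transfer ϕ (r : F) = 1 := Abelianization.commutator_subset_ker _ h1
      rw [← Abelianization.ker_of, MonoidHom.mem_ker, ← h2, MonoidHom.transfer_def ϕ T, ← MonoidHom.comp_apply, hN, map_prod]
      refine Finset.prod_congr rfl (fun q _ => ?_)
      change ϕ _ = ϕ _
      congr 1
      apply Subtype.ext
      have h3 : (r : F)⁻¹ • q = q := by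
        rw [← hα q]
        apply QuotientGroup.eq.2
        have : ((r : F)⁻¹ • α q)⁻¹ * α q = (α q)⁻¹ * r * (α q)⁻¹⁻¹ := by simp [mul_assoc]
        rw [this]
        exact hRV ((inferInstance : σ.ker.Normal).conj_mem _ r.2 _)
      simp only [smul_apply_eq_smul_apply_inv_smul, h3]
      simp [α, mul_assoc])
  refine ⟨t, i, fun x => Subtype.ext ?_⟩
  obtain ⟨r, hr⟩ := hm (inclusion inf_le_left x)
  have hr' : ((r : F) : HE σ) = x := congrArg Subtype.val hr
  change ι (t₀ (inclusion inf_le_left x)) = (x : HE σ) ^ U.index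
  rw [← hr, ht₀, hN]
  have h1 : ∀ q : F ⧸ V, ι (c (MulAut.conjNormal (α q)⁻¹ r)) = x := by
    intro q
    rw [hc, hι, MulAut.conjNormal_apply, QuotientGroup.mk_mul, QuotientGroup.mk_mul, hr',
      mem_center_iff.1 (HM_le_center σ x.2), mul_assoc, ← QuotientGroup.mk_mul, mul_inv_cancel, QuotientGroup.mk_one, mul_one]
  have h2 : ∀ s : Finset (F ⧸ V), ι (∏ q ∈ s, c (MulAut.conjNormal (α q)⁻¹ r) : Z) = (x : HE σ) ^ s.card := by
    intro s
    induction s using Finset.induction_on with
    | empty => simp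
    | insert a s ha ih => rw [Finset.prod_insert ha, Finset.card_insert_of_notMem ha, coe_mul, map_mul, h1, ih, pow_succ']
  rw [h2, Finset.card_univ, ← hVi, index, Nat.card_eq_fintype_card]

/-- Let `P` be a Sylow `p`-subgroup of the finite group `G`, let `A` be the Schur multiplier of `G` and `B` that of `P`. Then the `p`-primary component of `A` is isomorphic to a direct factor of `B`: there are subgroups `C` and `D` of `B` meeting trivially and generating `B`, with `C` isomorphic to the `p`-primary component of `A`. -/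
theorem result {G : Type*} [Group G] [Finite G] (p : ℕ) [Fact p.Prime] (P : Sylow p G) {A B : Type*} [CommGroup A] [CommGroup B] (hA : Cfsg.HasSchurMultiplier G A) (hB : Cfsg.HasSchurMultiplier P B) : ∃ C D : Subgroup B, C ⊓ D = ⊥ ∧ C ⊔ D = ⊤ ∧ Nonempty (CommGroup.primaryComponent A p ≃* C) := by
  have hp := (Fact.out : p.Prime)
  haveI := hsm_finite' hA
  haveI := hsm_finite' hB
  have hρ := canPres_surjective G
  obtain ⟨t', i', h'⟩ := exists_transfer (canPres G) (P : Subgroup G) hρ
  obtain ⟨e⟩ := (hasSchurMultiplier_iff hρ).1 hA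
  obtain ⟨e'⟩ := (hasSchurMultiplier_iff (σ := ((canPres G).comp ((P : Subgroup G).comap (canPres G)).subtype).codRestrict (P : Subgroup G) (fun x => x.2)) (fun u => by
    obtain ⟨x, hx⟩ := hρ u
    exact ⟨⟨x, by rw [mem_comap, hx]; exact u.2⟩, Subtype.ext hx⟩)).1 hB
  let t : A →* B := e'.toMonoidHom.comp (t'.comp e.symm.toMonoidHom)
  let i : B →* A := e.toMonoidHom.comp (i'.comp e'.symm.toMonoidHom)
  have h : ∀ a, i (t a) = a ^ (P : Subgroup G).index := fun a => by
    change e (i' (e'.symm (e' (t' (e.symm a))))) = _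
    rw [e'.symm_apply_apply, h', map_pow, e.apply_symm_apply]
  have hBp : ∃ k, ∀ b : B, b ^ p ^ k = 1 := by
    obtain ⟨⟨Γ, _, _, σ, hσ, ⟨f⟩⟩, -⟩ := hB
    obtain ⟨k, hk⟩ := IsPGroup.iff_card.1 P.isPGroup'
    refine ⟨k, fun b => ?_⟩
    obtain ⟨b, rfl⟩ := f.surjective b
    have h1 := pow_index_mem_commutator σ.ker (hσ.2.1 b.2) (hσ.2.2 b.2)
    rw [commutator_eq_bot_iff_le_centralizer.2 (hσ.2.1.trans (center_le_centralizer _)), index_ker,
      MonoidHom.range_eq_top.2 hσ.1, card_top, hk, mem_bot] at h1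
    rw [← map_pow, show b ^ p ^ k = 1 from Subtype.ext h1, map_one]
  obtain ⟨k, hk⟩ := hBp
  set Ap := CommGroup.primaryComponent A p
  have hcop : ∀ n, (p ^ n).Coprime (P : Subgroup G).index := fun n =>
    ((Nat.Prime.coprime_iff_not_dvd hp).2 P.not_dvd_index).pow_left n
  have hinj : ∀ a ∈ Ap, i (t a) = 1 → a = 1 := by
    rintro a ⟨n, hn⟩ ha
    rw [h] at ha
    exact mem_of_pow_mem_of_pow_mem (N := ⊥) (hcop n) hn ha
  refine ⟨(t.comp Ap.subtype).range, i.ker, ?_, ?_, ⟨MonoidHom.ofInjective ?_⟩⟩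
  · rw [eq_bot_iff]
    rintro _ ⟨⟨a, rfl⟩, h2⟩
    have := hinj a a.2 h2
    change t a = 1
    rw [this, map_one]
  · rw [eq_top_iff]
    intro b _
    have h1 : (i b) ^ p ^ k = 1 := by rw [← map_pow, hk, map_one]
    obtain ⟨j, -, hj⟩ := (Nat.dvd_prime_pow hp).1 (orderOf_dvd_of_pow_eq_one h1)
    obtain ⟨m, hm⟩ := exists_pow_eq_self_of_coprime (x := i b) (n := (P : Subgroup G).index) (hj ▸ (hcop j).symm)
    have h2 : i b ^ m ∈ Ap := pow_mem (show i b ∈ Ap from ⟨k, h1⟩) m
    have : b = t (i b ^ m) * ((t (i b ^ m))⁻¹ * b) := by group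
    rw [this]
    refine mul_mem (mem_sup_left ⟨⟨_, h2⟩, rfl⟩) (mem_sup_right ?_)
    rw [MonoidHom.mem_ker, map_mul, map_inv, h, ← pow_mul, mul_comm m, pow_mul, hm, inv_mul_cancel]
  · rw [injective_iff_map_eq_one]
    intro a ha
    exact Subtype.ext (hinj a a.2 (by rw [show t a = 1 from ha, map_one]))

end Cfsg.Agent.S3953
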