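import Mathlib
import Cfsg.Statements.S3954
import Cfsg.Agent.H16.Schur

set_option autoImplicit false
open Cfsg

namespace Cfsg.Agent.S3954

open Subgroup H16

/-- Let `U` be a subgroup of index `m` in the finite group `G`, let `A` be the Schur multiplier of `G` and `B` that of `U`. Then the subgroup of `m`-th powers of `A` is isomorphic to a subgroup of `B`. -/
theorem result {G : Type*} [Group G] [Finite G] (U : Subgroup G) {A B : Type*} [CommGroup A] [CommGroup B] (hA : Cfsg.HasSchurMultiplier G A) (hB : Cfsg.HasSchurMultiplier U B) : ∃ C : Subgroup B, Nonempty ((powMonoidHom U.index : A →* A).range ≃* C) := by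
  haveI := hsm_finite' hB
  obtain ⟨⟨Γ, _, _, σ, hσ, ⟨e⟩⟩, -⟩ := hA
  set V := U.comap σ with hV
  have hVi : V.index = U.index := index_comap_of_surjective U hσ.1
  let ξ : V →* U := (σ.comp V.subtype).codRestrict U (fun x => x.2)
  have hξs : Function.Surjective ξ := by
    intro u
    obtain ⟨x, hx⟩ := hσ.1 u
    exact ⟨⟨x, by rw [hV, mem_comap, hx]; exact u.2⟩, Subtype.ext hx⟩
  have hξc : ξ.ker ≤ center V := by
    intro x hx
    have : (x : Γ) ∈ σ.ker := congrArg Subtype.val hx
    rw [mem_center_iff]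
    intro y
    exact Subtype.ext (mem_center_iff.1 (hσ.2.1 this) y)
  obtain ⟨f, hf⟩ := hsm_exists_range_eq hB hξs hξc
  letI : CommGroup f.range := MonoidHom.commGroupOfSurjective f.rangeRestrict f.rangeRestrict_surjective
  obtain ⟨g, hg⟩ := exists_injective_of_surjective f.rangeRestrict f.rangeRestrict_surjective
  have hmem : ∀ a : (powMonoidHom U.index : A →* A).range, ∃ h : ((e.symm a : σ.ker) : Γ) ∈ V,
      (⟨_, h⟩ : V) ∈ f.range := by
    rintro ⟨_, a, rfl⟩
    have h1 : ((e.symm (a ^ U.index) : σ.ker) : Γ) ∈ σ.ker := (e.symm _).2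
    have h2 : ((e.symm (a ^ U.index) : σ.ker) : Γ) ∈ V := by
      rw [hV, mem_comap, MonoidHom.mem_ker.1 h1]; exact one_mem _
    refine ⟨h2, ?_⟩
    rw [hf]
    refine mem_inf.2 ⟨Subtype.ext h1, ?_⟩
    have h3 := pow_index_mem_commutator V (hσ.2.1 (e.symm a).2) (hσ.2.2 (e.symm a).2)
    rw [← map_subtype_commutator, hVi] at h3
    obtain ⟨y, hy, hy'⟩ := h3
    have : (⟨((e.symm (a ^ U.index) : σ.ker) : Γ), h2⟩ : V) = y := by
      apply Subtype.ext
      change ((e.symm (a ^ U.index) : σ.ker) : Γ) = (y : Γ)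
      rw [map_pow]
      exact hy'.symm
    exact this ▸ hy
  let i : (powMonoidHom U.index : A →* A).range →* f.range :=
    MonoidHom.mk' (fun a => ⟨⟨_, (hmem a).1⟩, (hmem a).2⟩) (fun a b => by
      apply Subtype.ext; apply Subtype.ext
      simp)
  have hi : Function.Injective i := by
    intro a b h
    have : ((e.symm a : σ.ker) : Γ) = ((e.symm b : σ.ker) : Γ) := congrArg (fun x : f.range => ((x : V) : Γ)) h
    exact Subtype.ext (e.symm.injective (Subtype.ext this))
  exact ⟨(g.comp i).range, ⟨MonoidHom.ofInjective (hg.comp hi)⟩⟩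

end Cfsg.Agent.S3954
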