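import Mathlib
import Cfsg.Statements.S3955
import Cfsg.Agent.H16.Schur2

set_option autoImplicit false
open Cfsg

namespace Cfsg.Agent.S3955

open Subgroup H16

/-- Let `Q` be a finite group with Schur multiplier `A`, and let `σ : Γ →* Q` be a finite stem extension whose kernel is isomorphic to `A` (a Schur covering group of `Q`). Then every homomorphism `γ` from `Q` to the quotient of `GL n ℂ` by its centre lifts along `σ`: there is a homomorphism `ρ : Γ →* GL n ℂ` which, followed by the quotient map, equals `γ ∘ σ`. -/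
theorem result {Q : Type*} [Group Q] [Finite Q] {A : Type*} [CommGroup A] (hA : Cfsg.HasSchurMultiplier Q A) {Γ : Type*} [Group Γ] [Finite Γ] (σ : Γ →* Q) (hσ : Cfsg.IsStemExtension σ) (hk : Nonempty (σ.ker ≃* A)) (n : ℕ) (γ : Q →* (GL (Fin n) ℂ ⧸ Subgroup.center (GL (Fin n) ℂ))) : ∃ ρ : Γ →* GL (Fin n) ℂ, (QuotientGroup.mk' (Subgroup.center (GL (Fin n) ℂ))).comp ρ = γ.comp σ := by
  set Z := Subgroup.center (GL (Fin n) ℂ) with hZ
  have hρ := canPres_surjective Q
  obtain ⟨η, hη⟩ := hlift' (canPres Q) hσ.1 hσ.2.1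
  have hηs : Function.Surjective η := surjective_of_stem hσ (hη ▸ hπ_surjective _ hρ)
  have hS := cover_ker_inf hρ hA hσ hk hη
  obtain ⟨θ, hθ⟩ := hlift (canPres Q) (ξ := QuotientGroup.mk' Z) (by rw [QuotientGroup.ker_mk']) γ
    (fun g => QuotientGroup.mk'_surjective Z _)
  have hc := (ker_le_sup_HM hρ hσ hη).1
  have hθS : ∀ s : η.ker, θ s ∈ Z := fun s => by
    rw [← QuotientGroup.eq_one_iff]
    change QuotientGroup.mk' Z _ = 1
    rw [hθ, hc s.2, map_one]
  letI : CommGroup η.ker :=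
    { (inferInstance : Group η.ker) with
      mul_comm := fun a b => Subtype.ext (mem_center_iff.1 (hπ_ker_le_center _ (hc b.2)) a) }
  letI : CommGroup Z :=
    { (inferInstance : Group Z) with
      mul_comm := fun a b => Subtype.ext (mem_center_iff.1 b.2 a) }
  obtain ⟨g, hg⟩ := exists_extend_of_divisible (D := Z) (fun m hm z => by
      obtain ⟨c, hc⟩ : (z : GL (Fin n) ℂ) ∈ (Matrix.GeneralLinearGroup.scalar (Fin n)).range := by
        rw [← Matrix.GeneralLinearGroup.center_eq_range_scalar]; exact z.2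
      obtain ⟨d, rfl⟩ := units_complex_divisible m hm c
      refine ⟨⟨Matrix.GeneralLinearGroup.scalar (Fin n) d, ?_⟩, Subtype.ext ?_⟩
      · rw [hZ, Matrix.GeneralLinearGroup.center_eq_range_scalar]; exact ⟨d, rfl⟩
      · rw [← hc, map_pow]; rfl)
    (Abelianization.of.comp η.ker.subtype) (of_comp_subtype_injective hS)
    ((θ.comp η.ker.subtype).codRestrict Z hθS)
  obtain ⟨ρ, hρ'⟩ := factor_of_extend hηs θ (D := Z) le_rfl (g.comp Abelianization.of)
    (fun s hs => congrArg Subtype.val (DFunLike.congr_fun hg ⟨s, hs⟩))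
  refine ⟨ρ, MonoidHom.ext fun x => ?_⟩
  obtain ⟨e, rfl⟩ := hηs x
  have h1 : σ (η e) = hπ _ e := DFunLike.congr_fun hη e
  rw [MonoidHom.comp_apply, MonoidHom.comp_apply, h1, ← hθ, ← hρ', map_mul]
  rw [show QuotientGroup.mk' Z ((g.comp Abelianization.of) e : GL (Fin n) ℂ) = 1 from
    (QuotientGroup.eq_one_iff _).2 (Subtype.property _), mul_one]

end Cfsg.Agent.S3955
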