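import Mathlib
import Cfsg.Statements.S3956
import Cfsg.Agent.H16.Schur2
import Cfsg.Agent.H05.Orth
import Cfsg.Agent.H05.Values

set_option autoImplicit false
universe u v
open Cfsg

namespace Cfsg.Agent.S3956

open Subgroup H16

theorem exists_GL_rep {Γ : Type*} [Group Γ] [Finite Γ] {g : Γ} (hg : g ≠ 1) :
    ∃ (n : ℕ) (ρ : Γ →* GL (Fin n) ℂ), ρ g ≠ 1 ∧ ∀ z ∈ center Γ, ρ z ∈ center (GL (Fin n) ℂ) := by
  haveI := Fintype.ofFinite (IrrCharacter Γ)
  obtain ⟨χ, hχ⟩ : ∃ χ : IrrCharacter Γ, (χ : Γ → ℂ) g ≠ (χ : Γ → ℂ) 1 := by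
    by_contra h
    push Not at h
    have h1 := H05.sum_degree_mul_apply_of_ne hg
    have h2 := H05.sum_degree_sq (G := Γ)
    simp only [h, ← pow_two] at h1
    rw [h1] at h2
    exact Nat.card_pos.ne' (by exact_mod_cast h2.symm)
  obtain ⟨_, n, ρ, hρ, rfl⟩ := χ
  refine ⟨n, Matrix.GeneralLinearGroup.toLin.symm.toMonoidHom.comp ρ.asGroupHom, fun h => hχ ?_, fun z hz => ?_⟩
  · have h1 : ρ.asGroupHom g = 1 := by simpa using h
    have h2 : ρ g = 1 := by rw [← ρ.asGroupHom_apply, h1]; rfl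
    simp [Representation.character, h2]
  · obtain ⟨c, hc⟩ := H05.exists_scalar_of_comm ρ (ρ z) (fun g => by
      rw [← Module.End.mul_eq_comp, ← Module.End.mul_eq_comp, ← map_mul, ← map_mul, mem_center_iff.1 hz g])
    rw [mem_center_iff]
    intro x
    apply Matrix.GeneralLinearGroup.toLin.injective
    simp only [map_mul, MonoidHom.comp_apply, MulEquiv.coe_toMonoidHom, MulEquiv.apply_symm_apply]
    apply Units.ext
    simp only [Units.val_mul, ρ.asGroupHom_apply, hc]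
    ext v
    simp

/-- Let `σ : Γ →* Q` be a finite stem extension of the finite group `Q` such that every homomorphism from `Q` to the quotient of `GL n ℂ` by its centre, for every `n`, lifts along `σ` to a homomorphism `Γ →* GL n ℂ`. Then `σ` is a Schur covering group of `Q`: for every finite stem extension `τ : Δ →* Q` with `Δ` in the same universe as `Q`, the kernel of `τ` is a homomorphic image of the kernel of `σ`. -/
theorem result {Q : Type u} [Group Q] [Finite Q] {Γ : Type v} [Group Γ] [Finite Γ] (σ : Γ →* Q) (hσ : Cfsg.IsStemExtension σ) (hlift : ∀ (n : ℕ) (γ : Q →* (GL (Fin n) ℂ ⧸ Subgroup.center (GL (Fin n) ℂ))), ∃ ρ : Γ →* GL (Fin n) ℂ, (QuotientGroup.mk' (Subgroup.center (GL (Fin n) ℂ))).comp ρ = γ.comp σ) (Δ : Type u) [Group Δ] [Finite Δ] (τ : Δ →* Q) (hτ : Cfsg.IsStemExtension τ) : ∃ π : σ.ker →* τ.ker, Function.Surjective π := by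
  obtain ⟨A, _, hA⟩ := exists_hsm Q
  have hρ := canPres_surjective Q
  obtain ⟨η, hη⟩ := hlift' (canPres Q) hσ.1 hσ.2.1
  obtain ⟨Γ₀, _, _, σ₀, θ, hσ₀, hθ, -, h3, h4⟩ := exists_cover hρ le_rfl le_sup_left
  have key : η.ker ⊓ commutator _ = ⊥ := by
    rw [eq_bot_iff]
    rintro m ⟨hm1, hm2⟩
    by_contra hm
    have hθm : θ m ≠ 1 := fun h => hm (h3 ▸ mem_inf.2 ⟨h, hm2⟩)
    obtain ⟨n, ρ₀, h5, h6⟩ := exists_GL_rep hθm
    let γ : Q →* GL (Fin n) ℂ ⧸ center (GL (Fin n) ℂ) := σ₀.liftOfSurjective hσ₀.1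
      ⟨(QuotientGroup.mk' _).comp ρ₀, fun k hk => (QuotientGroup.eq_one_iff _).2 (h6 k (hσ₀.2.1 hk))⟩
    have hγ : ∀ x, γ (σ₀ x) = QuotientGroup.mk' _ (ρ₀ x) := fun x => MonoidHom.liftOfRightInverse_comp_apply _ _ _ _ _
    obtain ⟨ρ, hρ'⟩ := hlift n γ
    have := eq_on_commutator (ξ := QuotientGroup.mk' (center (GL (Fin n) ℂ))) (by rw [QuotientGroup.ker_mk'])
      (η₁ := ρ₀.comp θ) (η₂ := ρ.comp η) (fun e => by
        have h7 : σ₀ (θ e) = hπ _ e := DFunLike.congr_fun hθ e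
        have h8 : σ (η e) = hπ _ e := DFunLike.congr_fun hη e
        have h9 := DFunLike.congr_fun hρ' (η e)
        simp only [MonoidHom.comp_apply] at h9 ⊢
        rw [h9, ← hγ, h7, h8]) hm2
    apply h5
    simp only [MonoidHom.comp_apply] at this
    rw [this, show η m = 1 from hm1, map_one]
  obtain ⟨e⟩ := cover_of_ker_inf hρ hA hσ hη key
  obtain ⟨f, hf⟩ := hA.2 Δ τ hτ
  exact ⟨f.comp e.toMonoidHom, hf.comp e.surjective⟩

end Cfsg.Agent.S3956
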