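import Mathlib
import Cfsg.Statements.S3957
import Cfsg.Agent.H16.Schur

set_option autoImplicit false
universe u v
open Cfsg

namespace Cfsg.Agent.S3957

open Subgroup H16

/-- Let `Q` be a finite group with Schur multiplier `A` and let `τ : Δ →* Q` be a finite stem extension, `Δ` in the universe of `Q`. Then there is a finite stem extension `σ : Γ →* Q` with kernel isomorphic to `A` (a Schur covering group) and a surjective homomorphism `β : Γ →* Δ` with `τ ∘ β = σ`. -/
theorem result {Q : Type u} [Group Q] [Finite Q] {A : Type v} [CommGroup A] (hA : Cfsg.HasSchurMultiplier Q A) {Δ : Type u} [Group Δ] [Finite Δ] (τ : Δ →* Q) (hτ : Cfsg.IsStemExtension τ) : ∃ (Γ : Type u) (_ : Group Γ) (_ : Finite Γ) (σ : Γ →* Q), Cfsg.IsStemExtension σ ∧ Nonempty (σ.ker ≃* A) ∧ ∃ β : Γ →* Δ, Function.Surjective β ∧ τ.comp β = σ := by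
  obtain ⟨η, hη⟩ := hlift' (canPres Q) hτ.1 hτ.2.1
  have hηs : Function.Surjective η := surjective_of_stem hτ (hη ▸ hπ_surjective _ (canPres_surjective Q))
  have h1 : η.ker ≤ (hπ (canPres Q)).ker := by
    intro x hx
    rw [← hη, MonoidHom.mem_ker, MonoidHom.comp_apply, hx, map_one]
  obtain ⟨Γ, _, _, σ, θ, hσ, hθ, h2, h3, h4⟩ := exists_cover (canPres_surjective Q) h1 (by
    intro x hx
    have h5 : η x ∈ (HM (canPres Q)).map η := by
      rw [map_HM (canPres_surjective Q) hτ.2.1 hη, inf_eq_left.2 hτ.2.2, MonoidHom.mem_ker]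
      rw [← hη] at hx; exact hx
    obtain ⟨m, hm, hm'⟩ := h5
    have : x = (x * m⁻¹) * m := by group
    rw [this]
    exact mul_mem (mem_sup_left (by simp [MonoidHom.mem_ker, hm'])) (mem_sup_right hm))
  refine ⟨Γ, inferInstance, inferInstance, σ, hσ, cover_of_ker_inf (canPres_surjective Q) hA hσ hθ h3, ?_⟩
  let β : Γ →* Δ := θ.liftOfSurjective h4 ⟨η, h2⟩
  have hβ : β.comp θ = η := MonoidHom.liftOfRightInverse_comp _ _ _ _
  refine ⟨β, ?_, ?_⟩
  · exact Function.Surjective.of_comp (g := θ) (by rw [← MonoidHom.coe_comp, hβ]; exact hηs)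
  · ext x
    obtain ⟨y, rfl⟩ := h4 x
    rw [MonoidHom.comp_apply, ← MonoidHom.comp_apply β, hβ, ← MonoidHom.comp_apply, hη, ← hθ]; rfl

end Cfsg.Agent.S3957
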