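import Mathlib
import Cfsg.Statements.S3959
import Cfsg.Agent.H16.Schur2

set_option autoImplicit false
universe u v w
open Cfsg

namespace Cfsg.Agent.S3959

open Subgroup H16
open scoped commutatorElement TensorProduct

/-- Let `Q₁` and `Q₂` be finite groups with Schur multipliers `A` and `B`. Then the Schur multiplier of `Q₁ × Q₂` is isomorphic to `A × B × (Q₁ᵃᵇ ⊗ Q₂ᵃᵇ)`, the last factor being the tensor product over the integers of the commutator quotients, written multiplicatively. -/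
theorem result {Q₁ : Type u} {Q₂ : Type v} [Group Q₁] [Group Q₂] [Finite Q₁] [Finite Q₂] {A B : Type w} [CommGroup A] [CommGroup B] (hA : Cfsg.HasSchurMultiplier Q₁ A) (hB : Cfsg.HasSchurMultiplier Q₂ B) : Cfsg.HasSchurMultiplier (Q₁ × Q₂) (A × B × Multiplicative (TensorProduct ℤ (Additive (Abelianization Q₁)) (Additive (Abelianization Q₂)))) := by
  obtain ⟨⟨Γ₁, _, _, σ₁, hσ₁, ⟨e₁⟩⟩, -⟩ := id hA
  obtain ⟨⟨Γ₂, _, _, σ₂, hσ₂, ⟨e₂⟩⟩, -⟩ := id hB
  set T := Multiplicative (TensorProduct ℤ (Additive (Abelianization Q₁)) (Additive (Abelianization Q₂))) with hT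
  constructor
  · let β : Γ₁ × Γ₂ →* Γ₁ × Γ₂ →* T :=
      MonoidHom.mk' (fun g => MonoidHom.mk' (fun h => Multiplicative.ofAdd
        (Additive.ofMul (Abelianization.of (σ₁ g.1)) ⊗ₜ[ℤ] Additive.ofMul (Abelianization.of (σ₂ h.2))))
        (fun a b => by simp only [Prod.snd_mul, map_mul, ofMul_mul, TensorProduct.tmul_add, ofAdd_add]))
        (fun a b => by
          ext1
          simp only [Prod.fst_mul, map_mul, ofMul_mul, TensorProduct.add_tmul, ofAdd_add, MonoidHom.mk'_apply, MonoidHom.mul_apply])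
    have hβ : ∀ g h, β g h = Multiplicative.ofAdd
        (Additive.ofMul (Abelianization.of (σ₁ g.1)) ⊗ₜ[ℤ] Additive.ofMul (Abelianization.of (σ₂ h.2))) := fun _ _ => rfl
    have hker : (σ₁.prodMap σ₂).ker = σ₁.ker.prod σ₂.ker := MonoidHom.ker_prodMap _ _
    have hst : IsStemExtension (σ₁.prodMap σ₂) := by
      refine ⟨hσ₁.1.prodMap hσ₂.1, ?_, ?_⟩
      · rw [hker]
        intro x hx
        rw [mem_center_iff]
        exact fun g => Prod.ext (mem_center_iff.1 (hσ₁.2.1 hx.1) _) (mem_center_iff.1 (hσ₂.2.1 hx.2) _)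
      · rw [hker, _root_.commutator_def, ← top_prod_top, commutator_prod_prod]
        exact prod_mono hσ₁.2.2 hσ₂.2.2
    obtain ⟨h1, ⟨e⟩⟩ := BExt.stem (β := β) hst
      (fun k hk h => by rw [hker] at hk; rw [hβ, show σ₁ k.1 = 1 from hk.1]; simp)
      (fun k hk h => by rw [hker] at hk; rw [hβ, show σ₂ k.2 = 1 from hk.2]; simp)
      (fun t => by
        change t ∈ (commutator (BExt β)).comap (BExt.inr β)
        induction t using TensorProduct.induction_on with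
        | zero => exact one_mem _
        | add x y hx hy => exact mul_mem hx hy
        | tmul x y =>
          obtain ⟨x, rfl⟩ := QuotientGroup.mk_surjective x
          obtain ⟨y, rfl⟩ := QuotientGroup.mk_surjective y
          obtain ⟨x, rfl⟩ := hσ₁.1 x
          obtain ⟨y, rfl⟩ := hσ₂.1 y
          have := BExt.inr_mem_commutator (β := β) (h := (x, 1)) (k := (1, y)) (by simp)
          rw [hβ (1, y)] at this
          simp only [map_one, ofMul_one, TensorProduct.zero_tmul] at this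
          change BExt.inr β (β (x, 1) (1, y) * (1 : T)⁻¹) ∈ _ at this
          rw [inv_one, mul_one] at this
          exact this)
    haveI := finite_commutator_of_central h1.2.1
    haveI : Finite ((σ₁.prodMap σ₂).comp (BExt.fst β)).ker := Finite.of_injective _ (inclusion_injective h1.2.2)
    refine ⟨BExt β, inferInstance, finite_of_finite_ker ((σ₁.prodMap σ₂).comp (BExt.fst β)), _, h1, ⟨?_⟩⟩
    exact e.trans ((((MulEquiv.subgroupCongr hker).trans (prodEquiv _ _)).trans (e₁.prodCongr e₂)).prodCongr (MulEquiv.refl T)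
      |>.trans MulEquiv.prodAssoc)
  · intro Δ _ _ τ hτ
    have hc := hτ.2.1
    -- the two preimages
    let D₁ : Subgroup Δ := ((MonoidHom.snd Q₁ Q₂).comp τ).ker
    let D₂ : Subgroup Δ := ((MonoidHom.fst Q₁ Q₂).comp τ).ker
    let ξ₁ : D₁ →* Q₁ := ((MonoidHom.fst Q₁ Q₂).comp τ).comp D₁.subtype
    let ξ₂ : D₂ →* Q₂ := ((MonoidHom.snd Q₁ Q₂).comp τ).comp D₂.subtype
    have hs₁ : Function.Surjective ξ₁ := fun q => by
      obtain ⟨x, hx⟩ := hτ.1 (q, 1)
      exact ⟨⟨x, congrArg Prod.snd hx⟩, congrArg Prod.fst hx⟩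
    have hs₂ : Function.Surjective ξ₂ := fun q => by
      obtain ⟨x, hx⟩ := hτ.1 (1, q)
      exact ⟨⟨x, congrArg Prod.fst hx⟩, congrArg Prod.snd hx⟩
    have hk₁ : ∀ x ∈ ξ₁.ker, (x : Δ) ∈ τ.ker := fun x hx => Prod.ext hx x.2
    have hk₂ : ∀ x ∈ ξ₂.ker, (x : Δ) ∈ τ.ker := fun x hx => Prod.ext x.2 hx
    obtain ⟨f₁, hf₁⟩ := hsm_exists_range_eq hA hs₁ (fun x hx => mem_center_iff.2 fun y =>
      Subtype.ext (mem_center_iff.1 (hc (hk₁ x hx)) y))
    obtain ⟨f₂, hf₂⟩ := hsm_exists_range_eq hB hs₂ (fun x hx => mem_center_iff.2 fun y =>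
      Subtype.ext (mem_center_iff.1 (hc (hk₂ x hx)) y))
    letI : CommGroup τ.ker :=
      { (inferInstance : Group τ.ker) with
        mul_comm := fun a b => Subtype.ext (mem_center_iff.1 (hc b.2) a) }
    let g₁ : A →* τ.ker := (D₁.subtype.comp f₁).codRestrict _ (fun a => hk₁ _ (by
      have : f₁ a ∈ f₁.range := ⟨a, rfl⟩
      rw [hf₁] at this; exact this.1))
    let g₂ : B →* τ.ker := (D₂.subtype.comp f₂).codRestrict _ (fun a => hk₂ _ (by
      have : f₂ a ∈ f₂.range := ⟨a, rfl⟩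
      rw [hf₂] at this; exact this.1))
    -- the commutator pairing
    choose s₁ hs₁' using hs₁
    choose s₂ hs₂' using hs₂
    have hτ₁ : ∀ q, τ (s₁ q) = (q, 1) := fun q => Prod.ext (hs₁' q) (s₁ q).2
    have hτ₂ : ∀ q, τ (s₂ q) = (1, q) := fun q => Prod.ext (s₂ q).2 (hs₂' q)
    have hmem : ∀ a b, ⁅(s₁ a : Δ), (s₂ b : Δ)⁆ ∈ τ.ker := by
      intro a b
      rw [MonoidHom.mem_ker, map_commutatorElement, hτ₁, hτ₂, commutatorElement_eq_one_iff_mul_comm]
      simp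
    let b₀ : Q₁ →* Q₂ →* τ.ker :=
      MonoidHom.mk' (fun a => MonoidHom.mk' (fun b => ⟨_, hmem a b⟩) (fun b b' => Subtype.ext (by
        change ⁅(s₁ a : Δ), (s₂ (b * b') : Δ)⁆ = ⁅(s₁ a : Δ), (s₂ b : Δ)⁆ * ⁅(s₁ a : Δ), (s₂ b' : Δ)⁆
        rw [commutatorElement_eq_of_map_eq hc (a' := s₁ a) (b' := s₂ b * s₂ b') rfl (by rw [map_mul, hτ₂, hτ₂, hτ₂]; simp)]
        have := mem_center_iff.1 (hc (hmem a b')) (s₂ b)
        calc ⁅(s₁ a : Δ), (s₂ b * s₂ b' : Δ)⁆ = ⁅(s₁ a : Δ), (s₂ b : Δ)⁆ * (s₂ b * ⁅(s₁ a : Δ), (s₂ b' : Δ)⁆) * (s₂ b : Δ)⁻¹ := by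
              simp only [commutatorElement_def]; group
          _ = _ := by rw [this]; group)))
        (fun a a' => by
          ext b
          change ⁅(s₁ (a * a') : Δ), (s₂ b : Δ)⁆ = ⁅(s₁ a : Δ), (s₂ b : Δ)⁆ * ⁅(s₁ a' : Δ), (s₂ b : Δ)⁆
          rw [commutatorElement_eq_of_map_eq hc (a' := s₁ a * s₁ a') (b' := s₂ b) (by rw [map_mul, hτ₁, hτ₁, hτ₁]; simp) rfl]
          have := mem_center_iff.1 (hc (hmem a' b)) (s₁ a)
          have h2 := mem_center_iff.1 (hc (hmem a' b)) ⁅(s₁ a : Δ), (s₂ b : Δ)⁆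
          calc ⁅(s₁ a * s₁ a' : Δ), (s₂ b : Δ)⁆ = (s₁ a * ⁅(s₁ a' : Δ), (s₂ b : Δ)⁆) * (s₁ a : Δ)⁻¹ * ⁅(s₁ a : Δ), (s₂ b : Δ)⁆ := by
                simp only [commutatorElement_def]; group
            _ = _ := by rw [this, h2, mul_inv_cancel_right])
    let b₁ : Abelianization Q₁ →* Abelianization Q₂ →* τ.ker :=
      Abelianization.lift ((Abelianization.lift b₀.flip).flip)
    have hb₁ : ∀ a b, b₁ (Abelianization.of a) (Abelianization.of b) = ⟨_, hmem a b⟩ := fun a b => rfl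
    let b₂ : Additive (Abelianization Q₁) →ₗ[ℤ] Additive (Abelianization Q₂) →ₗ[ℤ] Additive τ.ker :=
      LinearMap.mk₂ ℤ (fun x y => Additive.ofMul (b₁ x.toMul y.toMul))
        (fun x x' y => by simp) (fun n x y => by simp) (fun x y y' => by simp) (fun n x y => by simp)
    let g₃ : T →* τ.ker := AddMonoidHom.toMultiplicativeLeft (TensorProduct.lift b₂).toAddMonoidHom
    have hg₃ : ∀ a b, g₃ (Multiplicative.ofAdd (Additive.ofMul (Abelianization.of a) ⊗ₜ[ℤ] Additive.ofMul (Abelianization.of b))) =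
      ⟨_, hmem a b⟩ := fun a b => rfl
    refine ⟨g₁.coprod (g₂.coprod g₃), fun k => ?_⟩
    -- the commutator subgroup of `Δ`
    let W : Subgroup Δ := g₃.range.map τ.ker.subtype
    have hW : W ≤ center Δ := (map_subtype_le _).trans hc
    haveI : W.Normal := ⟨fun n hn g => by rw [mem_center_iff.1 (hW hn) g, mul_inv_cancel_right]; exact hn⟩
    have h12 : ⁅D₁, D₂⁆ ≤ W := by
      rw [commutator_le]
      intro x hx y hy
      refine ⟨_, ⟨_, hg₃ (τ x).1 (τ y).2⟩, ?_⟩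
      exact commutatorElement_eq_of_map_eq hc (by rw [hτ₁]; exact Prod.ext rfl (Eq.symm hx))
        (by rw [hτ₂]; exact Prod.ext (Eq.symm hy) rfl)
    have hsup : D₁ ⊔ D₂ = ⊤ := by
      apply eq_top_of_stem hτ
      rw [eq_top_iff]
      rintro ⟨a, b⟩ -
      exact ⟨s₁ a * s₂ b, mul_mem (mem_sup_left (s₁ a).2) (mem_sup_right (s₂ b).2), by rw [map_mul, hτ₁, hτ₂]; simp⟩
    have hcomm : commutator Δ ≤ (⁅D₁, D₁⁆ ⊔ ⁅D₂, D₂⁆) ⊔ W := by
      rw [_root_.commutator_def, ← hsup]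
      exact commutator_sup_sup_le (le_sup_left.trans le_sup_left) (le_sup_right.trans le_sup_left) (h12.trans le_sup_right)
    obtain ⟨y, hy, w, hw, hk⟩ := (mem_sup_of_normal_right).1 (hcomm (hτ.2.2 k.2))
    obtain ⟨d₁, hd₁, d₂, hd₂, rfl⟩ := (mem_sup_of_normal_right).1 hy
    obtain ⟨_, ⟨t, rfl⟩, rfl⟩ := hw
    have hτk : τ d₁ * τ d₂ = 1 := by
      have h1 : τ (d₁ * d₂ * (g₃ t : Δ)) = 1 := by
        have : d₁ * d₂ * (g₃ t : Δ) = k := hk
        rw [this]; exact k.2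
      rwa [map_mul, map_mul, show τ (g₃ t : Δ) = 1 from (g₃ t).2, mul_one] at h1
    rw [← map_subtype_commutator] at hd₁ hd₂
    obtain ⟨d₁, hd₁, rfl⟩ := hd₁
    obtain ⟨d₂, hd₂, rfl⟩ := hd₂
    have h1 : d₁ ∈ f₁.range := by
      rw [hf₁]
      refine mem_inf.2 ⟨?_, hd₁⟩
      have h2 := congrArg Prod.fst hτk
      have h3 : (τ d₂).1 = 1 := d₂.2
      change (τ d₁).1 * (τ d₂).1 = 1 at h2
      rw [h3, mul_one] at h2
      exact h2
    have h2 : d₂ ∈ f₂.range := by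
      rw [hf₂]
      refine mem_inf.2 ⟨?_, hd₂⟩
      have h2 := congrArg Prod.snd hτk
      have h3 : (τ d₁).2 = 1 := d₁.2
      change (τ d₁).2 * (τ d₂).2 = 1 at h2
      rw [h3, one_mul] at h2
      exact h2
    obtain ⟨a, rfl⟩ := h1
    obtain ⟨b, rfl⟩ := h2
    refine ⟨(a, b, t), Subtype.ext ?_⟩
    rw [← hk, mul_assoc]
    rfl

end Cfsg.Agent.S3959
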