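import Mathlib
import Cfsg.Statements.S3960
import Cfsg.Agent.H16.Schur

set_option autoImplicit false
universe u
open Cfsg

namespace Cfsg.Agent.S3960

open Subgroup H16

/-- A finite perfect group `Q` has a universal central extension: a finite perfect group `G` in the universe of `Q` and a surjective homomorphism `π : G →* Q` with central kernel such that for every group `X` in that universe and every surjective homomorphism `ξ : X →* Q` with central kernel there is exactly one homomorphism `η : G →* X` with `ξ ∘ η = π`. -/
theorem result {Q : Type u} [Group Q] [Finite Q] (hQ : Group.IsPerfect Q) : ∃ (G : Type u) (_ : Group G) (_ : Finite G) (π : G →* Q), Group.IsPerfect G ∧ Function.Surjective π ∧ π.ker ≤ Subgroup.center G ∧ ∀ (X : Type u) [Group X] (ξ : X →* Q), Function.Surjective ξ → ξ.ker ≤ Subgroup.center X → ∃! η : G →* X, ξ.comp η = π := by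
  set ρ := canPres Q
  have hρ := hπ_surjective ρ (canPres_surjective Q)
  have hc := hπ_ker_le_center ρ
  have hs : Function.Surjective ((hπ ρ).comp (commutator (HE ρ)).subtype) := by
    intro q
    have : q ∈ (commutator (HE ρ)).map (hπ ρ) := by
      rw [_root_.commutator_def, map_commutator, map_top_of_surjective _ hρ, ← _root_.commutator_def, hQ.commutator_eq_top]
      trivial
    obtain ⟨x, hx, rfl⟩ := this
    exact ⟨⟨x, hx⟩, rfl⟩
  have hperf : Group.IsPerfect (commutator (HE ρ)) := by
    constructor
    apply map_injective (commutator (HE ρ)).subtype_injective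
    rw [map_commutator_eq hc (fun x => hs _), ← MonoidHom.range_eq_map, range_subtype]
  refine ⟨commutator (HE ρ), inferInstance, inferInstance, (hπ ρ).comp (commutator (HE ρ)).subtype, hperf, hs, ?_, ?_⟩
  · intro x hx
    rw [mem_center_iff]
    intro y
    exact Subtype.ext (mem_center_iff.1 (hc hx) y)
  · intro X _ ξ h1 h2
    obtain ⟨η, hη⟩ := hlift' ρ h1 h2
    refine ⟨η.comp (commutator (HE ρ)).subtype, by rw [← hη]; rfl, fun η' hη' => ?_⟩
    ext x
    refine eq_on_commutator h2 (fun e => ?_) (by rw [hperf.commutator_eq_top]; trivial)
    rw [← MonoidHom.comp_apply, hη', ← hη]; rfl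

end Cfsg.Agent.S3960
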