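import Mathlib
import Cfsg.Statements.S3961
import Cfsg.Agent.H16.Schur
import Cfsg.Agent.H22.Components

set_option autoImplicit false
universe u v
open Cfsg

namespace Cfsg.Agent.S3961

open Subgroup H16
open scoped commutatorElement

/-- Let `π : G →* Q` be a surjective homomorphism with central kernel from a finite perfect group `G` (a perfect cover of `Q`). Then `π` is universal, in the sense that every surjective homomorphism `ξ : X →* Q` with central kernel from a group `X` in the universe of `G` admits a homomorphism `η : G →* X` with `ξ ∘ η = π`, if and only if `G` has trivial Schur multiplier. -/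
theorem result {G : Type u} {Q : Type v} [Group G] [Group Q] [Finite G] (hG : Group.IsPerfect G) (π : G →* Q) (hπ : Function.Surjective π) (hker : π.ker ≤ Subgroup.center G) : (∀ (X : Type u) [Group X] (ξ : X →* Q), Function.Surjective ξ → ξ.ker ≤ Subgroup.center X → ∃ η : G →* X, ξ.comp η = π) ↔ Cfsg.HasCyclicSchurMultiplier G 1 := by
  constructor
  · intro h
    apply hasTrivial_of
    intro Δ _ _ τ hτ
    have hΔ : ⁅(⊤ : Subgroup Δ), (⊤ : Subgroup Δ)⁆ = ⊤ := by
      apply eq_top_of_stem hτ
      rw [map_commutator, map_top_of_surjective _ hτ.1]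
      exact hG.commutator_eq_top
    have hc : (π.comp τ).ker ≤ center Δ := by
      have h1 : ⁅(π.comp τ).ker, (⊤ : Subgroup Δ)⁆ ≤ center Δ := by
        refine le_trans ?_ hτ.2.1
        rw [commutator_le]
        intro a ha b _
        rw [MonoidHom.mem_ker, map_commutatorElement, commutatorElement_eq_one_iff_mul_comm]
        exact (mem_center_iff.1 (hker ha) _).symm
      have h2 : ⁅(π.comp τ).ker, (⊤ : Subgroup Δ)⁆ = ⊥ := by
        apply H22.comm_eq_bot_of_perfect hΔ
        rw [commutator_eq_bot_iff_le_centralizer, coe_top, centralizer_univ]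
        exact h1
      rwa [commutator_eq_bot_iff_le_centralizer, coe_top, centralizer_univ] at h2
    obtain ⟨η, hη⟩ := h Δ (π.comp τ) (hπ.comp hτ.1) hc
    have h3 : ∀ g, τ (η g) = g := by
      intro g
      exact eq_on_commutator hker (η₁ := τ.comp η) (η₂ := MonoidHom.id G)
        (fun e => DFunLike.congr_fun hη e) (by rw [hG.commutator_eq_top]; trivial)
    have h4 := surjective_of_stem hτ (η := η) (fun g => ⟨g, h3 g⟩)
    rw [eq_bot_iff]
    intro x hx
    obtain ⟨g, rfl⟩ := h4 x
    rw [MonoidHom.mem_ker, h3] at hx
    rw [hx, map_one]; exact one_mem _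
  · intro h X _ ξ hs hc
    let Y : Subgroup (X × G) := (ξ.comp (MonoidHom.fst X G)).eqLocus (π.comp (MonoidHom.snd X G))
    let τ : Y →* G := (MonoidHom.snd X G).comp Y.subtype
    have hτs : Function.Surjective τ := by
      intro g
      obtain ⟨x, hx⟩ := hs (π g)
      exact ⟨⟨(x, g), hx⟩, rfl⟩
    have hτc : τ.ker ≤ center Y := by
      rintro ⟨⟨x, g⟩, hy⟩ hx
      have hg : g = 1 := hx
      subst hg
      have hx' : ξ x = 1 := by
        have : ξ x = π 1 := hy
        rwa [map_one] at this
      rw [mem_center_iff]
      rintro ⟨⟨a, b⟩, hab⟩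
      apply Subtype.ext
      exact Prod.ext (mem_center_iff.1 (hc hx') a) (by simp)
    have h1 := trivial_ker_inf h hτs hτc
    let τ' := τ.comp (commutator Y).subtype
    have h2 : Function.Bijective τ' := by
      constructor
      · rw [injective_iff_map_eq_one]
        intro y hy
        have : (y : Y) ∈ τ.ker ⊓ commutator Y := ⟨hy, y.2⟩
        rw [h1] at this
        exact Subtype.ext this
      · intro g
        have : g ∈ (commutator Y).map τ := by
          rw [_root_.commutator_def, map_commutator, map_top_of_surjective _ hτs, ← _root_.commutator_def, hG.commutator_eq_top]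
          trivial
        obtain ⟨x, hx, rfl⟩ := this
        exact ⟨⟨x, hx⟩, rfl⟩
    let e := MulEquiv.ofBijective τ' h2
    refine ⟨((MonoidHom.fst X G).comp (Y.subtype.comp (commutator Y).subtype)).comp e.symm.toMonoidHom, ?_⟩
    ext g
    obtain ⟨y, rfl⟩ := e.surjective g
    simp only [MonoidHom.comp_apply, MulEquiv.coe_toMonoidHom, MulEquiv.symm_apply_apply]
    exact (y : Y).2

end Cfsg.Agent.S3961
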