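import Mathlib
import Cfsg.Statements.S3962
import Cfsg.Agent.H22.Components

set_option autoImplicit false
open Cfsg

namespace Cfsg.Agent.S3962

open scoped commutatorElement

/-- Let `G` be a perfect group and `π : G →* Q` a surjective homomorphism whose kernel is central. Then `π` maps the centre of `G` onto the centre of `Q`. Taking `π` to be the map to `G ⧸ Z(G)` shows that the central quotient of a perfect group has trivial centre. -/
theorem result {G Q : Type*} [Group G] [Group Q] (hG : Group.IsPerfect G) (π : G →* Q) (hπ : Function.Surjective π) (hker : π.ker ≤ Subgroup.center G) : (Subgroup.center G).map π = Subgroup.center Q := by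
  apply le_antisymm
  · rintro _ ⟨z, hz, rfl⟩
    rw [Subgroup.mem_center_iff]
    intro q
    obtain ⟨g, rfl⟩ := hπ q
    rw [← map_mul, ← map_mul, Subgroup.mem_center_iff.1 hz g]
  · have h1 : ⁅(Subgroup.center Q).comap π, (⊤ : Subgroup G)⁆ ≤ Subgroup.center G := by
      refine le_trans ?_ hker
      rw [Subgroup.commutator_le]
      intro a ha b _
      rw [MonoidHom.mem_ker, map_commutatorElement, commutatorElement_eq_one_iff_mul_comm]
      exact (Subgroup.mem_center_iff.1 ha _).symm
    have h2 : ⁅(Subgroup.center Q).comap π, (⊤ : Subgroup G)⁆ = ⊥ := by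
      apply H22.comm_eq_bot_of_perfect
      · exact hG.commutator_eq_top
      · rw [Subgroup.commutator_eq_bot_iff_le_centralizer, Subgroup.coe_top, Subgroup.centralizer_univ]
        exact h1
    rw [Subgroup.commutator_eq_bot_iff_le_centralizer, Subgroup.coe_top, Subgroup.centralizer_univ] at h2
    intro q hq
    obtain ⟨g, rfl⟩ := hπ q
    exact ⟨g, h2 hq, rfl⟩

end Cfsg.Agent.S3962
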