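import Mathlib
import Cfsg.Statements.S3967
import Cfsg.Agent.H16.Schur2

set_option autoImplicit false
open Cfsg

namespace Cfsg.Agent.S3967

open Subgroup H16
open scoped commutatorElement

abbrev rel (m n r t : ℕ) : Set (FreeGroup Bool) :=
  {FreeGroup.of true ^ m, (FreeGroup.of false) ^ n * (FreeGroup.of true ^ t)⁻¹, FreeGroup.of false * FreeGroup.of true * (FreeGroup.of false)⁻¹ * (FreeGroup.of true ^ r)⁻¹}

abbrev Meta (m n r t : ℕ) := PresentedGroup (rel m n r t)

def ma (m n r t : ℕ) : Meta m n r t := PresentedGroup.of true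
def mb (m n r t : ℕ) : Meta m n r t := PresentedGroup.of false

theorem rel1 (m n r t : ℕ) : ma m n r t ^ m = 1 :=
  PresentedGroup.one_of_mem (rels := rel m n r t) (x := FreeGroup.of true ^ m) (by simp)

theorem rel2 (m n r t : ℕ) : mb m n r t ^ n = ma m n r t ^ t :=
  mul_inv_eq_one.1 (PresentedGroup.one_of_mem (rels := rel m n r t) (x := (FreeGroup.of false) ^ n * (FreeGroup.of true ^ t)⁻¹) (by simp))

theorem rel3 (m n r t : ℕ) : mb m n r t * ma m n r t * (mb m n r t)⁻¹ = ma m n r t ^ r :=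
  mul_inv_eq_one.1 (PresentedGroup.one_of_mem (rels := rel m n r t)
    (x := FreeGroup.of false * FreeGroup.of true * (FreeGroup.of false)⁻¹ * (FreeGroup.of true ^ r)⁻¹) (by simp))

theorem gen (m n r t : ℕ) : closure {ma m n r t, mb m n r t} = ⊤ := by
  rw [← PresentedGroup.closure_range_of]
  congr 1
  ext x
  simp [ma, mb, eq_comm, or_comm]

theorem exists_hom {m n r t : ℕ} {H : Type*} [Group H] (a b : H) (h1 : a ^ m = 1) (h2 : b ^ n = a ^ t)
    (h3 : b * a * b⁻¹ = a ^ r) : ∃ f : Meta m n r t →* H, f (ma m n r t) = a ∧ f (mb m n r t) = b := by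
  refine ⟨PresentedGroup.toGroup (f := fun c => cond c a b) ?_, PresentedGroup.toGroup.of _, PresentedGroup.toGroup.of _⟩
  rintro _ (rfl | rfl | rfl) <;> simp [h1, h2, h3]

theorem normal_a {m : ℕ} (hm : 0 < m) (n r t : ℕ) : (zpowers (ma m n r t)).Normal := by
  haveI : Finite (zpowers (ma m n r t)) := (finite_zpowers.2 (isOfFinOrder_iff_pow_eq_one.2 ⟨m, hm, rel1 m n r t⟩))
  apply normal_of_closure (gen m n r t)
  rintro _ (rfl | rfl)
  · exact le_normalizer (mem_zpowers _)
  · apply mem_normalizer_fintype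
    rintro _ ⟨j, rfl⟩
    simp only
    rw [← conj_zpow, rel3]
    exact zpow_mem (pow_mem (mem_zpowers _) _) _

theorem finite_meta {m n : ℕ} (hm : 0 < m) (hn : 0 < n) (r t : ℕ) : Finite (Meta m n r t) := by
  haveI := normal_a hm n r t
  haveI : Finite (zpowers (ma m n r t)) := (finite_zpowers.2 (isOfFinOrder_iff_pow_eq_one.2 ⟨m, hm, rel1 m n r t⟩))
  set f := QuotientGroup.mk' (zpowers (ma m n r t))
  have h1 : f (ma m n r t) = 1 := (QuotientGroup.eq_one_iff _).2 (mem_zpowers _)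
  have h2 : zpowers (f (mb m n r t)) = ⊤ := by
    rw [eq_top_iff, ← map_top_of_surjective f (QuotientGroup.mk'_surjective _), ← gen, MonoidHom.map_closure, closure_le]
    rintro _ ⟨_, (rfl | rfl), rfl⟩
    · rw [h1]; exact one_mem _
    · exact mem_zpowers _
  haveI : Finite (zpowers (f (mb m n r t))) := (finite_zpowers.2 (isOfFinOrder_iff_pow_eq_one.2 ⟨n, hn, by
    rw [← map_pow, rel2, map_pow, h1, one_pow]⟩))
  haveI : Finite (Meta m n r t ⧸ zpowers (ma m n r t)) := by
    rw [h2] at this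
    exact Finite.of_equiv _ topEquiv.toEquiv
  exact Finite.of_equiv _ (groupEquivQuotientProdSubgroup (s := zpowers (ma m n r t))).symm

theorem order_a {m n r t : ℕ} (hn : 0 < n) (hrn : r ^ n ≡ 1 [MOD m]) (ht : r * t ≡ t [MOD m]) :
    orderOf (ma m n r t) = m := by
  apply Nat.dvd_antisymm (orderOf_dvd_of_pow_eq_one (rel1 m n r t))
  have hrn' : (r : ZMod m) ^ n = 1 := by exact_mod_cast (ZMod.natCast_eq_natCast_iff _ _ _).2 hrn
  have ht' : (r : ZMod m) * t = t := by exact_mod_cast (ZMod.natCast_eq_natCast_iff _ _ _).2 ht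
  let u : (ZMod m)ˣ := Units.ofPowEqOne (r : ZMod m) n hrn' hn.ne'
  let ψ : (ZMod m)ˣ →* MulAut (Multiplicative (ZMod m)) := MonoidHom.mk'
    (fun v => AddEquiv.toMultiplicative (AddAut.mulLeft v)) (fun a b => by rw [map_mul]; rfl)
  have hψ : ∀ v x, ψ v x = Multiplicative.ofAdd ((v : ZMod m) * x.toAdd) := fun v x => rfl
  let φ : Multiplicative ℤ →* MulAut (Multiplicative (ZMod m)) := ψ.comp (zpowersHom _ u)
  let A : Multiplicative (ZMod m) ⋊[φ] Multiplicative ℤ := SemidirectProduct.inl (Multiplicative.ofAdd 1)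
  let B : Multiplicative (ZMod m) ⋊[φ] Multiplicative ℤ := SemidirectProduct.inr (Multiplicative.ofAdd 1)
  have h1 : A ^ m = 1 := by
    rw [← map_pow, ← ofAdd_nsmul]; simp
  have h3 : B * A * B⁻¹ = A ^ r := by
    rw [← map_inv, ← SemidirectProduct.inl_aut, ← map_pow, ← ofAdd_nsmul]
    simp [φ, hψ, u]
  have h4 : ∀ k : ℕ, B ^ k * A * (B ^ k)⁻¹ = A ^ r ^ k := by
    intro k
    induction k with
    | zero => simp
    | succ k ih =>
      calc B ^ (k + 1) * A * (B ^ (k + 1))⁻¹ = B * (B ^ k * A * (B ^ k)⁻¹) * B⁻¹ := by group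
        _ = _ := by rw [ih, ← conj_pow, h3, ← pow_mul, pow_succ']
  have hAB : Commute A (B ^ n) := by
    have := h4 n
    rw [pow_eq_pow_of_modEq hrn h1, pow_one, mul_inv_eq_iff_eq_mul] at this
    exact this.symm
  have hBA : Commute B (A ^ t) := by
    have : B * A ^ t * B⁻¹ = A ^ t := by rw [← conj_pow, h3, ← pow_mul, pow_eq_pow_of_modEq ht h1]
    exact mul_inv_eq_iff_eq_mul.1 this
  set z := B ^ n * (A ^ t)⁻¹ with hz
  have hAz : A ∈ centralizer {z} := mem_centralizer_singleton_iff.2 (hAB.mul_right ((Commute.refl A).pow_right t).inv_right)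
  have hBz : B ∈ centralizer {z} := mem_centralizer_singleton_iff.2 (((Commute.refl B).pow_right n).mul_right hBA.inv_right)
  let z' : centralizer {z} := ⟨z, mem_centralizer_singleton_iff.2 rfl⟩
  have hz' : z' ∈ center (centralizer {z}) := mem_center_iff.2 fun g => Subtype.ext (mem_centralizer_singleton_iff.1 g.2)
  haveI : (zpowers z').Normal := ⟨fun a ha g => by
    rw [mem_center_iff.1 (zpowers_le.2 hz' ha) g, mul_inv_cancel_right]; exact ha⟩
  obtain ⟨f, hf1, hf2⟩ := exists_hom (m := m) (n := n) (r := r) (t := t)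
    (QuotientGroup.mk' (zpowers z') ⟨A, hAz⟩) (QuotientGroup.mk' (zpowers z') ⟨B, hBz⟩)
    (by rw [← map_pow, show (⟨A, hAz⟩ : centralizer {z}) ^ m = 1 from Subtype.ext h1, map_one])
    (by
      rw [← mul_inv_eq_one, ← map_pow, ← map_pow, ← map_inv, ← map_mul]
      exact (QuotientGroup.eq_one_iff _).2 (mem_zpowers z'))
    (by
      rw [← map_pow, ← map_inv, ← map_mul, ← map_mul]
      exact congrArg _ (Subtype.ext h3))
  have h5 : f (ma m n r t) ^ orderOf (ma m n r t) = 1 := by rw [← map_pow, pow_orderOf_eq_one, map_one]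
  rw [hf1, ← map_pow] at h5
  obtain ⟨l, hl⟩ := (QuotientGroup.eq_one_iff _).1 h5
  have h6 : z ^ l = A ^ orderOf (ma m n r t) := congrArg Subtype.val hl
  have h7 := congrArg SemidirectProduct.rightHom h6
  simp only [hz, map_zpow, map_mul, map_pow, map_inv, A, B, SemidirectProduct.rightHom_inl, SemidirectProduct.rightHom_inr,
    one_pow, inv_one, mul_one] at h7
  have h8 : l = 0 := by
    have := congrArg Multiplicative.toAdd h7
    simpa [hn.ne'] using this
  rw [h8, zpow_zero, ← map_pow, eq_comm, map_eq_one_iff _ SemidirectProduct.inl_injective, ← ofAdd_nsmul] at h6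
  rw [← ZMod.natCast_eq_zero_iff]
  simpa using congrArg Multiplicative.toAdd h6

theorem modEq_of_dvd {m r t : ℕ} (hr : 0 < r) (h : m ∣ t * (r - 1)) : r * t ≡ t [MOD m] := by
  obtain ⟨s, rfl⟩ : ∃ s, r = s + 1 := ⟨r - 1, by omega⟩
  rw [Nat.add_sub_cancel] at h
  have := ((Nat.modEq_zero_iff_dvd).2 h).add_right t
  rw [zero_add] at this
  convert this using 1
  ring

theorem geom (r n : ℕ) (hr : 0 < r) : r ^ n = (∑ i ∈ Finset.range n, r ^ i) * (r - 1) + 1 := by
  have h0 := geom_sum_mul_add (r - 1) n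
  rw [show r - 1 + 1 = r by omega] at h0
  exact h0.symm

/-- Let `m, n ≥ 1`, `r ≥ 1` with `r ^ n ≡ 1 (mod m)`, and `l` a natural number; put `d = gcd(m, r - 1)`, `t = m l / d` and `h = d · gcd(m, 1 + r + ⋯ + r^(n-1)) / m`. The group presented by generators `a, b` and relations `a ^ m = 1`, `b ^ n = a ^ t`, `b a b⁻¹ = a ^ r` (a metacyclic group of order `m n`) has Schur multiplier cyclic of order `gcd(l, h)`. -/
theorem result (m n r l : ℕ) (hm : 0 < m) (hn : 0 < n) (hr : 0 < r) (hrn : r ^ n ≡ 1 [MOD m]) : Cfsg.HasCyclicSchurMultiplier (PresentedGroup ({FreeGroup.of true ^ m, (FreeGroup.of false) ^ n * (FreeGroup.of true ^ (m * l / Nat.gcd m (r - 1)))⁻¹, FreeGroup.of false * FreeGroup.of true * (FreeGroup.of false)⁻¹ * (FreeGroup.of true ^ r)⁻¹} : Set (FreeGroup Bool))) (Nat.gcd l (Nat.gcd m (r - 1) * Nat.gcd m (∑ i ∈ Finset.range n, r ^ i) / m)) := by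
  set d := Nat.gcd m (r - 1) with hd
  set s := ∑ i ∈ Finset.range n, r ^ i with hs
  set t := m * l / d with ht
  set g := Nat.gcd l (d * Nat.gcd m s / m) with hg
  have hpos : 0 < d := Nat.gcd_pos_of_pos_left _ hm
  obtain ⟨m', hm'⟩ : d ∣ m := Nat.gcd_dvd_left _ _
  obtain ⟨c, hc⟩ : d ∣ r - 1 := Nat.gcd_dvd_right _ _
  have hm'0 : 0 < m' := Nat.pos_of_mul_pos_left (hm' ▸ hm)
  have hcop : m'.Coprime c := by
    have := Nat.coprime_div_gcd_div_gcd hpos
    rwa [← hd, hc, Nat.mul_div_cancel_left _ hpos, Nat.div_eq_of_eq_mul_right hpos hm'] at this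
  have ht' : t = m' * l := by rw [ht, hm', mul_assoc, Nat.mul_div_cancel_left _ hpos]
  have h6 : m' ∣ s := by
    have h7 : m ∣ s * (r - 1) := by
      rw [geom r n hr] at hrn
      exact (Nat.modEq_zero_iff_dvd).1 (Nat.ModEq.add_right_cancel' 1 hrn)
    apply hcop.dvd_of_dvd_mul_right
    apply Nat.dvd_of_mul_dvd_mul_left hpos
    rw [← hm', mul_left_comm, ← hc]
    exact h7
  obtain ⟨h, hh⟩ : m' ∣ Nat.gcd m s := Nat.dvd_gcd (Dvd.intro_left _ hm'.symm) h6
  have hh' : d * Nat.gcd m s / m = h := by rw [hh, ← mul_assoc, ← hm', Nat.mul_div_cancel_left _ hm]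
  have hh0 : 0 < h := Nat.pos_of_mul_pos_left (hh ▸ Nat.gcd_pos_of_pos_left _ hm)
  have hgh : g ∣ h := hh' ▸ Nat.gcd_dvd_right _ _
  have hgl : g ∣ l := Nat.gcd_dvd_left _ _
  have hg0 : 0 < g := Nat.pos_of_dvd_of_pos hgh hh0
  have hhd : h ∣ d := by
    apply Nat.dvd_of_mul_dvd_mul_left hm'0
    rw [← hh, mul_comm, ← hm']
    exact Nat.gcd_dvd_left _ _
  have ho : orderOf (ma m n r t) = m := order_a hn hrn (modEq_of_dvd hr (by
    rw [ht', hc, hm']; exact Dvd.intro (l * c) (by ring)))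
  -- the covering group
  obtain ⟨c', hc1, hc2⟩ : ∃ c' : ℕ, c' ≡ c [MOD m'] ∧ c'.Coprime (m * g) := by
    haveI : NeZero (m * g) := ⟨(Nat.mul_pos hm hg0).ne'⟩
    have hdv : m' ∣ m * g := Dvd.dvd.mul_right (Dvd.intro_left _ hm'.symm) g
    obtain ⟨v, hv⟩ := ZMod.unitsMap_surjective hdv (ZMod.unitOfCoprime c hcop.symm)
    refine ⟨(v : ZMod (m * g)).val, ?_, ZMod.val_coe_unit_coprime v⟩
    rw [← ZMod.natCast_eq_natCast_iff]
    have := congrArg Units.val hv
    rw [ZMod.unitsMap_val, ZMod.coe_unitOfCoprime] at this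
    rw [← this, ZMod.natCast_val]
  set r' := d * c' + 1 with hr'
  have hrr : r' ≡ r [MOD m] := by
    have : r = d * c + 1 := by omega
    rw [this, hm']
    exact (hc1.mul_left' d).add_right 1
  have hs' : m' * g ∣ ∑ i ∈ Finset.range n, r' ^ i := by
    have h1 : ∑ i ∈ Finset.range n, r' ^ i ≡ s [MOD m] := Nat.ModEq.sum fun i _ => hrr.pow i
    have h2 : m' * g ∣ Nat.gcd m s := hh ▸ Nat.mul_dvd_mul_left _ hgh
    exact (h1.dvd_iff (h2.trans (Nat.gcd_dvd_left _ _))).2 (h2.trans (Nat.gcd_dvd_right _ _))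
  have hrn' : r' ^ n ≡ 1 [MOD m * g] := by
    rw [geom r' n (by omega)]
    have : m * g ∣ (∑ i ∈ Finset.range n, r' ^ i) * (r' - 1) := by
      obtain ⟨k, hk⟩ := hs'
      rw [hk, hr', Nat.add_sub_cancel, hm']
      exact Dvd.intro (k * c') (by ring)
    simpa using ((Nat.modEq_zero_iff_dvd).2 this).add_right 1
  have ho' : orderOf (ma (m * g) n r' t) = m * g := order_a hn hrn' (modEq_of_dvd (by omega) (by
    obtain ⟨k, hk⟩ := hgl
    rw [ht', hr', Nat.add_sub_cancel, hk, hm']; exact Dvd.intro (k * c') (by ring)))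
  haveI := finite_meta (Nat.mul_pos hm hg0) hn r' t
  obtain ⟨σ, hσ1, hσ2⟩ := exists_hom (m := m * g) (n := n) (r := r') (t := t) (ma m n r t) (mb m n r t)
    (by rw [pow_mul, rel1, one_pow]) (rel2 _ _ _ _) (by rw [rel3, pow_eq_pow_of_modEq hrr (rel1 _ _ _ _)])
  set x := ma (m * g) n r' t with hx
  set y := mb (m * g) n r' t with hy
  have hcen : x ^ m ∈ center _ := by
    have : (⊤ : Subgroup (Meta (m * g) n r' t)) ≤ centralizer {x ^ m} := by
      rw [← gen, closure_le]
      rintro _ (rfl | rfl)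
      · exact mem_centralizer_singleton_iff.2 ((Commute.refl _).pow_right m)
      · apply mem_centralizer_singleton_iff.2
        rw [← mul_inv_eq_iff_eq_mul, ← conj_pow, rel3, ← pow_mul]
        apply pow_eq_pow_of_modEq _ (rel1 _ _ _ _)
        apply modEq_of_dvd (by omega)
        rw [hr', Nat.add_sub_cancel]
        exact Nat.mul_dvd_mul_left _ ((hgh.trans hhd).mul_right _)
    exact mem_center_iff.2 fun w => mem_centralizer_singleton_iff.1 (this (mem_top w))
  haveI : (zpowers (x ^ m)).Normal := ⟨fun a ha w => by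
    rw [mem_center_iff.1 (zpowers_le.2 hcen ha) w, mul_inv_cancel_right]; exact ha⟩
  have hker : σ.ker = zpowers (x ^ m) := by
    apply le_antisymm
    · obtain ⟨κ, hκ1, hκ2⟩ := exists_hom (m := m) (n := n) (r := r) (t := t)
        (QuotientGroup.mk' (zpowers (x ^ m)) x) (QuotientGroup.mk' (zpowers (x ^ m)) y)
        (by rw [← map_pow]; exact (QuotientGroup.eq_one_iff _).2 (mem_zpowers _))
        (by rw [← map_pow, ← map_pow, rel2])
        (by
          rw [← map_inv, ← map_mul, ← map_mul, rel3, map_pow]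
          exact pow_eq_pow_of_modEq hrr (by rw [← map_pow]; exact (QuotientGroup.eq_one_iff _).2 (mem_zpowers _)))
      have : κ.comp σ = QuotientGroup.mk' (zpowers (x ^ m)) := by
        apply MonoidHom.eq_of_eqOn_dense (gen _ _ _ _)
        rintro _ (rfl | rfl)
        · simp only [MonoidHom.comp_apply]; rw [hσ1, hκ1]
        · simp only [MonoidHom.comp_apply]; rw [hσ2, hκ2]
      intro w hw
      rw [← QuotientGroup.ker_mk' (zpowers (x ^ m)), ← this, MonoidHom.mem_ker, MonoidHom.comp_apply, hw, map_one]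
    · rw [zpowers_le, MonoidHom.mem_ker, map_pow, hσ1, rel1]
  refine hasCyclic_of (σ := σ) ⟨?_, ?_, ?_⟩ ?_ fun Δ _ _ τ hτ => metacyclic_ker' hτ (gen m n r t) hr (rel3 _ _ _ _) ho hrn (rel2 _ _ _ _)
  · rw [← MonoidHom.range_eq_top, eq_top_iff, ← gen, closure_le]
    rintro _ (rfl | rfl)
    · exact ⟨x, hσ1⟩
    · exact ⟨y, hσ2⟩
  · rw [hker]; exact zpowers_le.2 hcen
  · rw [hker, zpowers_le]
    have h1 : (x ^ d) ^ c' ∈ commutator _ := by
      have : (x ^ d) ^ c' = ⁅y, x⁆ := by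
        rw [commutatorElement_def, rel3, ← pow_mul, eq_mul_inv_iff_mul_eq, ← pow_succ]
      rw [this]
      exact commutator_mem_commutator (mem_top _) (mem_top _)
    have h2 := mem_of_pow_mem_of_pow_mem hc2 h1 (by rw [← pow_mul, mul_comm d, pow_mul, rel1, one_pow]; exact one_mem _)
    have h3 := pow_mem h2 m'
    rwa [← pow_mul, ← hm'] at h3
  · rw [hker, Nat.card_zpowers, orderOf_pow_of_dvd hm.ne' (by rw [ho']; exact Dvd.intro _ rfl), ho', Nat.mul_div_cancel_left _ hm]

end Cfsg.Agent.S3967
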