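import Mathlib
import Cfsg.Statements.S3968
import Cfsg.Agent.H05.Burnside
import Cfsg.Agent.H06.Degree
import Cfsg.Agent.BG.Api4

set_option autoImplicit false
open Cfsg

namespace Cfsg.Agent.S3968

open Subgroup BG H05

/-- Let `p` be a prime and `G` a finite group with a faithful irreducible complex character of degree `p` (so `G` is an irreducible linear group in `p` variables). If `p ^ 2` divides the order of `G`, then the centre of `G` is nontrivial. -/
theorem result {G : Type*} [Group G] [Finite G] (p : ℕ) (hp : p.Prime) (χ : Cfsg.IrrCharacter G) (hdeg : χ.1 1 = p) (hfaith : ∀ g : G, χ.1 g = χ.1 1 → g = 1) (hdiv : p ^ 2 ∣ Nat.card G) : Subgroup.center G ≠ ⊥ := by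
  classical
  haveI : Fact p.Prime := ⟨hp⟩
  have := Fintype.ofFinite G
  intro hZ
  have hχ : IsIrrCharacter G χ.1 := χ.2
  have hd : charDegree χ.1 = p := H05.charDegree_eq_of_apply_one hdeg
  have hker : H05.charKer χ.1 = ⊥ := eq_bot_iff.2 fun g hg => hfaith g (hχ.isCharacter.mem_charKer.1 hg)
  have hnorm : ∀ g, ‖χ.1 g‖ = p → g = 1 := by
    intro g hg
    have := hχ.mem_charCenter.2 (hd ▸ hg)
    rwa [H05.charCenter_eq_center_of_charKer_eq_bot hker, hZ, mem_bot] at this
  obtain ⟨P⟩ : Nonempty (Sylow p G) := inferInstance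
  have hP2 : p ^ 2 ∣ Nat.card P := P.pow_dvd_card_of_pow_dvd_card hdiv
  have hres := hχ.isCharacter.restrict (P : Subgroup G)
  by_cases hab : IsMulCommutative (P : Subgroup G)
  · obtain ⟨n, hn⟩ := hres.exists_classInner_eq_nat H05.isCharacter_one
    rw [H05.classInner_one_right, Finset.sum_eq_single 1 ?_ (by simp)] at hn
    · have h0 : (Nat.card (P : Subgroup G) : ℂ) ≠ 0 := by exact_mod_cast Nat.card_pos.ne'
      rw [inv_mul_eq_iff_eq_mul₀ h0] at hn
      simp only [OneMemClass.coe_one, hdeg] at hn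
      have h1 : p = Nat.card (P : Subgroup G) * n := by exact_mod_cast hn
      have h2 : p ^ 2 ∣ p := hP2.trans ⟨n, h1⟩
      have := Nat.le_of_dvd hp.pos h2
      nlinarith [hp.one_lt]
    · intro x _ hx
      refine (hχ.eq_zero_or_norm_eq_of_coprime x ?_).resolve_right fun h => hx (Subtype.ext (hnorm _ (hd ▸ h)))
      rw [hd, hp.coprime_iff_not_dvd]
      refine fun h => P.not_dvd_index (h.trans (index_dvd_of_le ?_))
      exact fun y hy => mem_cent1.2 (abelian_iff.1 hab hy x x.2).symm
  · obtain ⟨ψ, hψ, h1, h2⟩ : ∃ ψ, IsIrrCharacter (P : Subgroup G) ψ ∧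
        classInner (fun x : (P : Subgroup G) => χ.1 x) ψ ≠ 0 ∧ ψ 1 ≠ 1 := by
      by_contra hc
      push Not at hc
      apply hab
      have := H06.commutator_le_charKer_of_linear_constituents hres hc
      rw [← commutator_eq_bot_iff, eq_bot_iff]
      intro x hx
      exact Subtype.ext (hfaith _ (hres.mem_charKer.1 (this hx)))
    obtain ⟨k, hk⟩ := IsPGroup.iff_card.1 P.isPGroup'
    obtain ⟨j, -, hj⟩ := (Nat.dvd_prime_pow hp).1 (hk ▸ hψ.charDegree_dvd_card)
    have h3 := hres.charDegree_le_of_constituent hψ h1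
    rw [H05.charDegree_restrict, hd] at h3
    have hj0 : j ≠ 0 := by
      rintro rfl
      exact h2 (by rw [← hψ.charDegree_eq, hj]; simp)
    have h4 : charDegree ψ = p := le_antisymm h3 (hj ▸ Nat.le_self_pow hj0 p)
    have h5 := hres.eq_of_constituent_of_degree_eq hψ h1 (by
      rw [← hψ.charDegree_eq, h4]; exact hdeg)
    haveI : Nontrivial (P : Subgroup G) := by
      by_contra hc
      rw [not_nontrivial_iff_subsingleton] at hc
      exact hab ⟨⟨fun a b => Subsingleton.elim _ _⟩⟩
    haveI := P.isPGroup'.center_nontrivial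
    obtain ⟨⟨z, hz⟩, hz1⟩ := exists_ne (1 : center (P : Subgroup G))
    have h6 := hψ.mem_charCenter.1 (H05.center_le_charCenter hz)
    rw [h4, ← h5] at h6
    exact hz1 (Subtype.ext (Subtype.ext (hnorm _ h6)))

end Cfsg.Agent.S3968
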