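import Mathlib
import Cfsg.Statements.S3969
import Cfsg.Agent.H03.Frobenius
import Cfsg.Agent.H04.Aut
import Cfsg.Agent.H17.OpMod

set_option autoImplicit false
open Cfsg

namespace Cfsg.Agent.S3969

/-- Let `P` be an abelian Sylow `p`-subgroup of the finite group `G`, generated by `d` elements (`d` its minimal number of generators). If the order of `G` is coprime to `(p - 1)(p ^ 2 - 1) ⋯ (p ^ d - 1)`, then `G` has a normal `p`-complement. (The classical statement needs only the largest number of cyclic factors of `P` of equal order in place of `d`; the form here follows from it.) -/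
theorem result {G : Type*} [Group G] [Finite G] (p : ℕ) [Fact p.Prime] (P : Sylow p G) (hab : IsMulCommutative (P : Subgroup G)) (hcop : Nat.Coprime (Nat.card G) (∏ i ∈ Finset.Icc 1 (Group.rank (P : Subgroup G)), (p ^ i - 1))) : Cfsg.HasNormalPComplement p G := by
  have hp : p.Prime := Fact.out
  refine H03.hasNPC_of_normalizer_le_centralizer P fun x hx => ?_
  have hx' : x ∈ Subgroup.normalizer ((P : Subgroup G) : Set G) := hx
  have h0 : ¬ p ∣ (P : Subgroup G).relIndex (Subgroup.normalizer ((P : Subgroup G) : Set G)) :=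
    H03.not_dvd_relIndex_of_le P Subgroup.le_normalizer
  show x ∈ Subgroup.centralizer ((P : Subgroup G) : Set G)
  suffices H : ∀ g ∈ Subgroup.normalizer ((P : Subgroup G) : Set G), (orderOf g).Coprime p →
      g ∈ Subgroup.centralizer ((P : Subgroup G) : Set G) by
    obtain ⟨y, hy, c, hc, rfl⟩ := H03.exists_mul_centralizer_of_coprime_centralizes h0 H hx'
    exact mul_mem (fun z hz => congrArg Subtype.val (hab.1.comm ⟨z, hz⟩ ⟨y, hy.1⟩)) hc
  intro g hg hco
  apply H17.mem_centralizer_of_conjAut_eq_one _ hg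
  by_contra hne
  obtain ⟨q, hq, hqd⟩ := Nat.exists_prime_and_dvd (mt orderOf_eq_one_iff.mp hne)
  have h1 : q ∣ orderOf g := hqd.trans (H17.orderOf_conjAut_dvd _ hg)
  have hqp : ¬ q ∣ p := fun h => hq.one_lt.ne' (Nat.eq_one_of_dvd_coprimes hco h1 h)
  obtain ⟨n, hn⟩ := IsPGroup.iff_card.mp P.2
  obtain ⟨r, hr⟩ := P.2.index (frattini (P : Subgroup G))
  obtain ⟨T, hT1, hT2⟩ := Group.rank_spec (P : Subgroup G)
  have hle : r ≤ Group.rank (P : Subgroup G) := hT1 ▸ H04.le_card_of_closure_eq_top P.2 hr T hT2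
  have h2 := (hqd.trans (orderOf_dvd_natCard _)).trans (H04.card_mulAut_dvd hn hr)
  rcases (Nat.Prime.dvd_mul hq).mp h2 with h | h
  · exact hqp (hq.dvd_of_dvd_pow h)
  obtain ⟨i, -, hi⟩ := (Prime.dvd_finset_prod_iff hq.prime _).mp h
  have e : p ^ r - p ^ (i : ℕ) = p ^ (i : ℕ) * (p ^ (r - i) - 1) := by
    rw [Nat.mul_sub, ← pow_add, mul_one, Nat.add_sub_cancel' i.2.le]
  rw [e] at hi
  rcases (Nat.Prime.dvd_mul hq).mp hi with h | h
  · exact hqp (hq.dvd_of_dvd_pow h)
  refine hq.one_lt.ne' (Nat.eq_one_of_dvd_coprimes hcop (h1.trans (orderOf_dvd_natCard g))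
    (h.trans (Finset.dvd_prod_of_mem _ (Finset.mem_Icc.mpr ⟨?_, ?_⟩))))
  · have := i.2; omega
  · omega

end Cfsg.Agent.S3969
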