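import Cfsg.Statements.S3970
import Mathlib
import Cfsg.Agent.H27.TwoGen
import Cfsg.Agent.H27.ClassSize
import Cfsg.Agent.S0205
import Cfsg.Agent.H02.MinNormal
-- import your own Cfsg.Agent.* helpers here

set_option autoImplicit false
open Cfsg

namespace Cfsg.Agent.S3970

open scoped Pointwise commutatorElement

/-- Let `G` be a finite group such that for every prime `p` dividing its order, other than the largest such prime, the Sylow `p`-subgroups are abelian and generated by at most two elements, and suppose `12` does not divide the order of `G`. Then `G` is solvable. In particular a group of cube-free order not divisible by `12` is solvable. -/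
theorem result {G : Type*} [Group G] [Finite G] (h : ∀ p : ℕ, p.Prime → p ∣ Nat.card G → (∃ q : ℕ, q.Prime ∧ q ∣ Nat.card G ∧ p < q) → ∀ P : Sylow p G, IsMulCommutative (P : Subgroup G) ∧ Group.rank (P : Subgroup G) ≤ 2) (h12 : ¬ 12 ∣ Nat.card G) : Group.IsSolvable G := by
  rcases Nat.even_or_odd (Nat.card G) with h2 | h2
  swap
  · exact Cfsg.Agent.S0205.result h2
  by_cases hq : ∃ q : ℕ, q.Prime ∧ q ∣ Nat.card G ∧ 2 < q
  swap
  · push Not at hq
    have : IsPGroup 2 G := IsPGroup.of_card (Nat.eq_prime_pow_of_unique_prime_dvd Nat.card_pos.ne'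
      fun {d} hd hd' => le_antisymm (hq d hd hd') hd.two_le)
    haveI := this.isNilpotent
    infer_instance
  obtain ⟨P⟩ : Nonempty (Sylow 2 G) := inferInstance
  obtain ⟨hc, hr⟩ := h 2 Nat.prime_two h2.two_dvd hq P
  have hN : HasNormalPComplement 2 G := by
    by_contra h0
    obtain ⟨D, hD, hD', -, q, hq, hq2, g, hg, ⟨k, hk⟩, hc'⟩ := H03.exists_not_commute_of_not_hasNPC P h0
    obtain rfl : D = P := le_antisymm hD (le_trans (le_inf le_rfl
      ((Subgroup.le_centralizer_iff_isMulCommutative.2 hc).trans (Subgroup.centralizer_le hD))) hD')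
    have h3 := H27.dvd_sq_sub_one_of_normalizes P.isPGroup' (H27.index_frattini_le_of_rank P.isPGroup' hr)
      hq hq2 hg hk hc'
    obtain rfl := (Nat.prime_dvd_prime_iff_eq hq Nat.prime_three).1 h3
    rcases k with _ | k
    · exact hc' (by rw [orderOf_eq_one_iff.1 hk]; exact one_mem _)
    have h4 := (dvd_pow_self 3 k.succ_ne_zero).trans (hk ▸ orderOf_dvd_natCard g)
    have h5 : 4 ∣ Nat.card G := by
      obtain ⟨j, h6, h7, h8⟩ := H03.dvd_pow_sub_one_of_normalizes P.isPGroup' Nat.prime_three hq2 hg ⟨_, hk⟩ hc'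
      refine dvd_trans ?_ (h7.trans (P : Subgroup G).card_subgroup_dvd_card)
      refine pow_dvd_pow 2 (show 2 ≤ j from ?_)
      by_contra h9
      obtain rfl : j = 1 := by omega
      norm_num at h8
    exact h12 (Nat.Coprime.mul_dvd_of_dvd_of_dvd (by norm_num : Nat.Coprime 3 4) h4 h5)
  obtain ⟨N, _, h3, h4⟩ := H03.hasNPC_iff_exists.1 hN
  haveI := Cfsg.Agent.S0205.result (Nat.coprime_two_right.1 h3)
  haveI := h4.isNilpotent
  exact H02.isSolvable_of_normal_of_quotient N

end Cfsg.Agent.S3970
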