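import Cfsg.Statements.S3971
import Mathlib
import Cfsg.Agent.H27.TwoGen
import Cfsg.Agent.H27.ClassSize
-- import your own Cfsg.Agent.* helpers here

set_option autoImplicit false
open Cfsg

namespace Cfsg.Agent.S3971

open scoped Pointwise commutatorElement

/-- Let `G` be a finite group of order `2 ^ a * n` with `n` odd and not divisible by `3`, and suppose `G` has an element of order `2 ^ (a - 1)` (so a Sylow `2`-subgroup has a cyclic subgroup of index at most `2`). Then `G` has a normal subgroup of order `n`. -/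
theorem result {G : Type*} [Group G] [Finite G] (a n : ℕ) (hG : Nat.card G = 2 ^ a * n) (hn : Odd n) (h3 : ¬ 3 ∣ n) (hx : ∃ x : G, orderOf x = 2 ^ (a - 1)) : ∃ N : Subgroup G, N.Normal ∧ Nat.card N = n := by
  obtain ⟨x, hx⟩ := hx
  obtain ⟨P, hP⟩ := H27.exists_sylow_mem (p := 2) ⟨_, hx⟩
  have hcard : Nat.card P = 2 ^ a := by
    rw [P.card_eq_multiplicity, hG, Nat.factorization_mul (by positivity) hn.pos.ne', Nat.prime_two.factorization_pow]
    simp [Nat.factorization_eq_zero_of_not_dvd hn.not_two_dvd_nat]
  have hidx : (Subgroup.zpowers x).relIndex P ∣ 2 := by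
    have h1 := ((Subgroup.zpowers x).subgroupOf P).card_mul_index
    rw [H02.card_subgroupOf_of_le (Subgroup.zpowers_le.2 hP), Nat.card_zpowers, hx, hcard] at h1
    apply Nat.dvd_of_mul_dvd_mul_left (pow_pos two_pos (a - 1))
    rw [Subgroup.relIndex, h1, ← pow_succ]
    exact pow_dvd_pow _ (by omega)
  have hN : HasNormalPComplement 2 G := by
    by_contra h
    obtain ⟨D, hD, -, -, q, hq, hq2, g, hg, ⟨k, hk⟩, hc⟩ := H03.exists_not_commute_of_not_hasNPC P h
    have hDp : IsPGroup 2 D := P.isPGroup'.to_le hD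
    haveI : IsCyclic ((Subgroup.zpowers x).subgroupOf D) :=
      isCyclic_of_injective (D.subtype.subgroupComap (Subgroup.zpowers x)) fun a b h =>
        Subtype.ext (Subtype.ext (congrArg (fun y : Subgroup.zpowers x => (y : G)) h))
    have h1 : ((Subgroup.zpowers x).subgroupOf D).index ∣ 2 := by
      have h2 := Subgroup.relIndex_le_of_le_right hD
        (Subgroup.index_ne_zero_of_finite : (Subgroup.zpowers x).relIndex (P : Subgroup G) ≠ 0)
      have h3 := Nat.le_of_dvd two_pos hidx
      have h4 : (Subgroup.zpowers x).relIndex D ≠ 0 := Subgroup.index_ne_zero_of_finite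
      change (Subgroup.zpowers x).relIndex D ∣ 2
      have h5 := h2.trans h3
      interval_cases h5 : (Subgroup.zpowers x).relIndex D <;> omega
    have h2 := H27.dvd_sq_sub_one_of_normalizes hDp (H27.index_frattini_le_of_cyclic_index hDp _ h1) hq hq2 hg hk hc
    obtain rfl := (Nat.prime_dvd_prime_iff_eq hq Nat.prime_three).1 h2
    rcases k with _ | k
    · exact hc (by rw [orderOf_eq_one_iff.1 hk]; exact one_mem _)
    have h4 := (dvd_pow_self 3 k.succ_ne_zero).trans (hk ▸ orderOf_dvd_natCard g)
    rw [hG] at h4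
    exact h3 (Nat.Coprime.dvd_of_dvd_mul_left (Nat.Coprime.pow_right _ (by norm_num)) h4)
  refine ⟨pResidual 2 G, inferInstance, ?_⟩
  have := (H03.HasNPC.isComplement' hN P).card_mul
  rw [hcard, hG, mul_comm] at this
  exact Nat.eq_of_mul_eq_mul_left (by positivity) this

end Cfsg.Agent.S3971
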