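import Mathlib
import Cfsg.Statements.S3972
import Cfsg.Agent.H07.Schur

set_option autoImplicit false
open Cfsg
open H07.Schur MulAction

namespace Cfsg.Agent.S3972

/-- Let `p` be a prime, `m ≥ 2`, and `G` a transitive but not doubly transitive permutation group on `p ^ m` points containing a permutation of order `p ^ m` (necessarily a full cycle). Then `G` is imprimitive, and the normal closure in `G` of the `p ^ (m - 1)`-th power of that permutation is an intransitive normal subgroup. -/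
theorem result {Ω : Type*} [Fintype Ω] [DecidableEq Ω] (p m : ℕ) (hp : p.Prime) (hm : 2 ≤ m) (hΩ : Fintype.card Ω = p ^ m) (G : Subgroup (Equiv.Perm Ω)) (htr : MulAction.IsPretransitive G Ω) (h2 : ¬ MulAction.IsMultiplyPretransitive G Ω 2) (g : G) (hg : orderOf g = p ^ m) : ¬ MulAction.IsPreprimitive G Ω ∧ ¬ MulAction.IsPretransitive (Subgroup.normalClosure ({g ^ (p ^ (m - 1))} : Set G)) Ω := by
  obtain ⟨k, rfl⟩ := Nat.exists_eq_add_of_le' (Nat.le_of_succ_le hm)
  rw [Nat.add_sub_cancel]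
  have hd : ∀ n, n ∣ p ^ (k + 1) → n ∣ p ^ k ∨ n = p ^ (k + 1) := fun n hn => by
    obtain ⟨j, hj, rfl⟩ := (Nat.dvd_prime_pow hp).1 hn
    exact hj.lt_or_eq.imp (fun h => pow_dvd_pow _ (Nat.le_of_lt_succ h)) (congrArg _)
  obtain ⟨a, ha⟩ : ∃ a : Ω, g ^ p ^ k • a ≠ a := by
    by_contra! h
    have := Nat.le_of_dvd (pow_pos hp.pos _) (hg ▸ orderOf_dvd_of_pow_eq_one (Subtype.ext (Equiv.ext h)))
    exact this.not_gt (Nat.pow_lt_pow_right hp.one_lt k.lt_succ_self)
  have hC : IsPretransitive (Subgroup.zpowers g) Ω := by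
    refine H18.trans_of_card_orbit a (le_of_eq ?_)
    have := Fintype.ofFinite (orbit (Subgroup.zpowers g) a)
    rw [Nat.card_eq_fintype_card, Nat.card_eq_fintype_card, ← minimalPeriod_eq_card, hΩ]
    exact ((hd _ (hg ▸ period_dvd_orderOf g a)).resolve_left fun h => ha (pow_smul_eq_iff_period_dvd.2 h)).symm
  have h1 : ¬ IsPreprimitive G Ω := fun h => h2 (two_trans h
    (by rw [Nat.card_eq_fintype_card, hΩ]; exact Nat.Prime.not_prime_pow hm) _ hC fun x => by
      have := H18.card_eq_card_mul_stabilizer (G := Subgroup.zpowers g) x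
      rw [Nat.card_zpowers, hg, Nat.card_eq_fintype_card, hΩ] at this
      exact Subgroup.eq_bot_of_card_eq _ ((Nat.mul_eq_left (pow_pos hp.pos _).ne').1 this.symm))
  refine ⟨h1, fun h3 => h1 (H18.prim_of_rel fun r hr hi b c hbc h4 x y => ?_)⟩
  let L : Subgroup G :=
    { carrier := {h | ∀ x, r x (h • x)}
      one_mem' := fun x => by simpa using hr.refl x
      mul_mem' := fun {h h'} H H' x => mul_smul h h' x ▸ hr.trans (H' x) (H _)
      inv_mem' := fun {h} H x => hr.symm (by simpa using H (h⁻¹ • x)) }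
  have : L.Normal := ⟨fun h H u x => by simpa [mul_smul] using hi u _ _ (H (u⁻¹ • x))⟩
  have h5 : g ^ p ^ k ∈ L := by
    rcases hd _ (hg ▸ orderOf_map_dvd (QuotientGroup.mk' L) g) with h | h
    · exact (QuotientGroup.eq_one_iff _).1 (orderOf_dvd_iff_pow_eq_one.1 h)
    obtain ⟨⟨_, i, rfl⟩, rfl⟩ := hC.exists_smul_eq b c
    have h6 : g ^ i ∈ L := fun z => by
      obtain ⟨⟨_, j, rfl⟩, rfl⟩ := hC.exists_smul_eq b z
      have : r (g ^ j • b) (g ^ j • g ^ i • b) := hi (g ^ j) _ _ h4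
      rwa [smul_smul, zpow_mul_comm g j i, mul_smul] at this
    have h7 : (QuotientGroup.mk' L g) ^ i = 1 := (QuotientGroup.eq_one_iff (g ^ i)).2 h6
    rw [← orderOf_dvd_iff_zpow_eq_one, h, ← hg, orderOf_dvd_iff_zpow_eq_one] at h7
    exact (hbc (show b = g ^ i • b by rw [h7, one_smul])).elim
  obtain ⟨⟨n, hn⟩, rfl⟩ := h3.exists_smul_eq x y
  exact Subgroup.normalClosure_le_normal (N := L) (by simpa) hn x

end Cfsg.Agent.S3972
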