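import Mathlib
import Cfsg.Statements.S3973
import Cfsg.Agent.H16.Schur2

set_option autoImplicit false
open Cfsg

namespace Cfsg.Agent.S3973

open Subgroup H16

/-- If a finite group is presented by `n` generators and a finite set of `r` relators, then its Schur multiplier can be generated by `r - n` elements. In particular a finite group with a presentation having as many relators as generators has trivial Schur multiplier. -/
theorem result (n : ℕ) (rels : Finset (FreeGroup (Fin n))) [Finite (PresentedGroup (rels : Set (FreeGroup (Fin n))))] {A : Type*} [CommGroup A] [Finite A] (hA : Cfsg.HasSchurMultiplier (PresentedGroup (rels : Set (FreeGroup (Fin n)))) A) : Group.rank A ≤ rels.card - n := by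
  classical
  set σ := PresentedGroup.mk (rels : Set (FreeGroup (Fin n))) with hσ
  have hσs : Function.Surjective σ := PresentedGroup.mk_surjective _
  have hker : σ.ker = normalClosure (rels : Set (FreeGroup (Fin n))) := QuotientGroup.ker_mk' _
  obtain ⟨e⟩ := (hasSchurMultiplier_iff hσs).1 hA
  set Z := center (HE σ) with hZ
  letI : CommGroup Z :=
    { (inferInstance : Group Z) with
      mul_comm := fun a b => Subtype.ext (mem_center_iff.1 b.2 a) }
  let z : rels → Z := fun r => ⟨((r : FreeGroup (Fin n)) : HE σ), hπ_ker_le_center σ (show (r : FreeGroup (Fin n)) ∈ σ.ker from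
    hker ▸ subset_normalClosure r.2)⟩
  let φ : (rels → ℤ) →ₗ[ℤ] Additive Z := Fintype.linearCombination ℤ (fun r => Additive.ofMul (z r))
  let ab : HE σ →* Abelianization (FreeGroup (Fin n)) := QuotientGroup.lift _ Abelianization.of (by
    rw [Abelianization.ker_of]; exact commutator_mono le_top le_top)
  have hab : ∀ x, ab x = 1 ↔ x ∈ commutator (HE σ) := by
    intro x
    constructor
    · obtain ⟨x, rfl⟩ := QuotientGroup.mk_surjective x
      intro h
      exact map_mem_commutator (QuotientGroup.mk' _) ((QuotientGroup.eq_one_iff _).1 h)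
    · exact fun h => Abelianization.commutator_subset_ker ab h
  let ψ : Additive Z →ₗ[ℤ] FreeAbelianGroup (Fin n) := (MonoidHom.toAdditive (ab.comp Z.subtype)).toIntLinearMap
  have hψ : ∀ x : Additive Z, ψ x = 0 ↔ ((x.toMul : Z) : HE σ) ∈ commutator (HE σ) := fun x => hab _
  -- the range of `φ` is the kernel of `hπ σ`
  have hφ1 : ∀ v, (((φ v).toMul : Z) : HE σ) ∈ (hπ σ).ker := by
    intro v
    have : LinearMap.range φ ≤ (((hπ σ).ker.comap Z.subtype).toAddSubgroup).toIntSubmodule := by
      rw [Fintype.range_linearCombination, Submodule.span_le]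
      rintro _ ⟨r, rfl⟩
      exact (show (r : FreeGroup (Fin n)) ∈ σ.ker from hker ▸ subset_normalClosure r.2)
    exact this ⟨v, rfl⟩
  have hφ2 : ∀ x ∈ (hπ σ).ker, ∃ v, (((φ v).toMul : Z) : HE σ) = x := by
    let W : Subgroup (HE σ) := (AddSubgroup.toSubgroup' (LinearMap.range φ).toAddSubgroup).map Z.subtype
    have hW : W ≤ Z := map_subtype_le _
    haveI : W.Normal := ⟨fun a ha g => by rw [mem_center_iff.1 (hW ha) g, mul_inv_cancel_right]; exact ha⟩
    have : normalClosure (rels : Set (FreeGroup (Fin n))) ≤ W.comap (QuotientGroup.mk' _) := by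
      apply normalClosure_le_normal
      intro r hr
      refine ⟨z ⟨r, hr⟩, ⟨Pi.single ⟨r, hr⟩ 1, ?_⟩, rfl⟩
      simp [φ]
      rfl
    intro x hx
    obtain ⟨x, rfl⟩ := QuotientGroup.mk_surjective x
    obtain ⟨w, ⟨v, hv⟩, hw⟩ := this (hker ▸ (show x ∈ σ.ker from hx))
    exact ⟨v, by rw [hv]; exact hw⟩
  set K := LinearMap.ker (ψ ∘ₗ φ) with hK
  have h1 : n ≤ Module.finrank ℤ (LinearMap.range (ψ ∘ₗ φ)) := by
    set N := Nat.card (PresentedGroup (rels : Set (FreeGroup (Fin n))))
    have hN : (N : ℤ) ≠ 0 := by exact_mod_cast Nat.card_pos.ne'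
    have hmem : ∀ x : FreeAbelianGroup (Fin n), (N : ℤ) • x ∈ LinearMap.range (ψ ∘ₗ φ) := by
      intro x
      obtain ⟨f, hf⟩ := QuotientGroup.mk_surjective x
      obtain ⟨v, hv⟩ := hφ2 ((f ^ N : FreeGroup (Fin n)) : HE σ) (show σ (f ^ N) = 1 by rw [map_pow]; exact pow_card_eq_one')
      refine ⟨v, ?_⟩
      change Additive.ofMul (ab ((φ v).toMul : Z)) = _
      rw [hv, natCast_zsmul, ← hf]
      rfl
    have := LinearMap.finrank_le_finrank_of_injective (f := (LinearMap.lsmul ℤ (FreeAbelianGroup (Fin n)) (N : ℤ)).codRestrict _ hmem)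
      (fun a b h => smul_right_injective _ hN (congrArg Subtype.val h))
    rwa [Module.finrank_eq_card_basis (FreeAbelianGroup.basis (Fin n)), Fintype.card_fin] at this
  have h2 := Submodule.finrank_quotient_add_finrank (LinearMap.ker (ψ ∘ₗ φ))
  rw [(LinearMap.quotKerEquivRange (ψ ∘ₗ φ)).finrank_eq, Module.finrank_fintype_fun_eq_card, Fintype.card_coe, ← hK] at h2
  let g : Multiplicative K →* A := e.toMonoidHom.comp
    ((Z.subtype.comp (AddMonoidHom.toMultiplicativeLeft (φ ∘ₗ K.subtype).toAddMonoidHom)).codRestrict _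
      (fun v => mem_inf.2 ⟨hφ1 _, (hψ _).1 v.toAdd.2⟩))
  have hg : Function.Surjective g := by
    refine e.surjective.comp fun m => ?_
    obtain ⟨v, hv⟩ := hφ2 m m.2.1
    exact ⟨Multiplicative.ofAdd ⟨v, (hψ _).2 (hv ▸ m.2.2)⟩, Subtype.ext hv⟩
  let b := Module.finBasis ℤ K
  have h3 : closure ((Finset.univ.image fun i => g (Multiplicative.ofAdd (b i)) : Finset A) : Set A) = ⊤ := by
    rw [eq_top_iff]
    intro a _
    obtain ⟨v, rfl⟩ := hg a
    have : v = ∏ i, Multiplicative.ofAdd (b i) ^ (b.repr v.toAdd i) := by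
      apply Multiplicative.toAdd.injective
      rw [toAdd_prod]
      simp only [toAdd_zpow, toAdd_ofAdd]
      exact (b.sum_repr _).symm
    rw [this, map_prod]
    refine Subgroup.prod_mem _ fun i _ => ?_
    rw [map_zpow]
    exact zpow_mem (subset_closure (by simp)) _
  have h4 := (Group.rank_le h3).trans Finset.card_image_le
  rw [Finset.card_univ, Fintype.card_fin] at h4
  omega

end Cfsg.Agent.S3973
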