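import Mathlib
import Cfsg.Statements.S3977
import Cfsg.Agent.H04.MaxClass

set_option autoImplicit false
open Cfsg

namespace Cfsg.Agent.S3977

/-- Let `p` be a prime and `G` a group of order `p ^ m` which has exactly one subgroup of order `p ^ s`, where `1 ≤ s < m`, and where `s ≥ 2` if `p = 2`. Then `G` is cyclic. (For `p = 2` and `s = 1` the generalized quaternion groups also occur; that case is the classical criterion for a unique involution.) -/
theorem result {G : Type*} [Group G] [Finite G] (p m s : ℕ) (hp : p.Prime) (hG : Nat.card G = p ^ m) (hs : 1 ≤ s) (hsm : s < m) (h2 : p ≠ 2 ∨ 2 ≤ s) (huniq : ∀ H K : Subgroup G, Nat.card H = p ^ s → Nat.card K = p ^ s → H = K) : IsCyclic G := by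
  haveI := Fact.mk hp
  have hP : IsPGroup p G := .of_card hG
  have h0 : ∀ {k}, k ≤ m → p ^ k ∣ Nat.card G := fun hk => hG ▸ pow_dvd_pow p hk
  obtain ⟨M, hM⟩ := Sylow.exists_subgroup_card_pow_prime p (h0 hsm)
  have hc : IsCyclic M := by
    have hPM := hP.to_subgroup M
    haveI : Nontrivial M := Finite.one_lt_card_iff_nontrivial.mp (hM ▸ Nat.one_lt_pow (by omega) hp.one_lt)
    obtain ⟨K, -, -, hK⟩ := H04.exists_index_eq_of_ne_top hPM bot_ne_top
    have h1 : ∀ K : Subgroup M, K.index = p → Nat.card (K.map M.subtype) = p ^ s := fun K hK => by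
      have := K.card_mul_index
      rw [hK, hM, Nat.succ_eq_add_one, pow_succ] at this
      rw [H04.card_map_subtype]
      exact Nat.eq_of_mul_eq_mul_right hp.pos this
    refine H04.isCyclic_of_index_frattini_le hPM (hK ▸ Nat.le_of_dvd (hK ▸ hp.pos)
      (Subgroup.index_dvd_of_le (le_iInf₂ fun L hL => ?_)))
    exact (Subgroup.map_injective M.subtype_injective (huniq _ _ (h1 K hK)
      (h1 L (H04.index_eq_of_isCoatom hPM hL)))).le
  obtain ⟨H, hHM, hH⟩ := H04.exists_le_card_eq (hP.to_subgroup M) (k := s)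
    (hM ▸ Nat.pow_le_pow_right hp.pos (by omega))
  have h1 : ∀ {k} (K : Subgroup G), Nat.card K = p ^ k → k ≤ s → K ≤ H := fun K hK hk => by
    obtain ⟨L, h1, h2⟩ := Sylow.exists_subgroup_card_pow_prime_le p (h0 hsm.le) K hK hk
    exact huniq L H h1 hH ▸ h2
  have hu : ∀ K L : Subgroup G, Nat.card K = p → Nat.card L = p → K = L := fun K L hK hL =>
    BG.eq_of_card_eq_of_cyclic hc ((h1 K (hK.trans (pow_one p).symm) hs).trans hHM)
      ((h1 L (hL.trans (pow_one p).symm) hs).trans hHM) (hK.trans hL.symm)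
  by_cases hp2 : p = 2
  · subst hp2
    obtain h | ⟨k, a, b, h, h3, -⟩ := H04.isCyclic_or_dsq_of_unique hP hu
    · exact h
    have h4 : m = k + 3 := Nat.pow_right_injective le_rfl (hG.symm.trans h.card)
    obtain ⟨L, hL, h5⟩ := H04.exists_le_card_eq (hP.to_subgroup (Subgroup.zpowers a)) (k := s)
      (by rw [Nat.card_zpowers, h.ord]; exact Nat.pow_le_pow_right two_pos (by omega))
    obtain ⟨j, hj, h6⟩ := (Nat.dvd_prime_pow Nat.prime_two).mp
      (orderOf_dvd_of_pow_eq_one (n := 2 ^ 2) (h.pow_four h.notMem))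
    exact absurd (hL (huniq H L hH h5 ▸ h1 (Subgroup.zpowers b) ((Nat.card_zpowers b).trans h6)
      (by omega) (Subgroup.mem_zpowers b))) h.notMem
  · exact H04.isCyclic_of_unique_odd hp2 hP hu

end Cfsg.Agent.S3977
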