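import Mathlib
import Cfsg.Statements.S3978
import Cfsg.Agent.H16.Schur2
import Cfsg.Agent.S3955
import Cfsg.Agent.S3956

set_option autoImplicit false
open Cfsg

namespace Cfsg.Agent.S3978

open Subgroup H16

/-- A finite group `Q` has trivial Schur multiplier if and only if, for every `n`, every homomorphism from `Q` to the projective general linear group (the quotient of `GL n ℂ` by its centre) lifts to a homomorphism into `GL n ℂ`. -/
theorem result {Q : Type*} [Group Q] [Finite Q] : Cfsg.HasCyclicSchurMultiplier Q 1 ↔ ∀ (n : ℕ) (γ : Q →* (GL (Fin n) ℂ ⧸ Subgroup.center (GL (Fin n) ℂ))), ∃ ρ : Q →* GL (Fin n) ℂ, (QuotientGroup.mk' (Subgroup.center (GL (Fin n) ℂ))).comp ρ = γ := by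
  constructor
  · intro h n γ
    haveI : Unique (Multiplicative (ZMod 1)) := inferInstanceAs (Unique (Fin 1))
    exact Cfsg.Agent.S3955.result h (MonoidHom.id Q) isStemExtension_id (by rw [MonoidHom.ker_id]; exact ⟨MulEquiv.ofUnique⟩) n γ
  · intro h
    apply hasTrivial_of
    intro Δ _ _ τ hτ
    obtain ⟨π, hπ⟩ := Cfsg.Agent.S3956.result (MonoidHom.id Q) isStemExtension_id h Δ τ hτ
    rw [eq_bot_iff]
    intro k hk
    obtain ⟨a, ha⟩ := hπ ⟨k, hk⟩
    have : a = 1 := Subtype.ext a.2
    rw [this, map_one] at ha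
    exact (congrArg Subtype.val ha).symm

end Cfsg.Agent.S3978
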