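import Mathlib
import Cfsg.Statements.S3980
import Cfsg.Agent.H16.Schur2
import Cfsg.Agent.S3959

set_option autoImplicit false
universe u v w
open Cfsg

namespace Cfsg.Agent.S3980

open Subgroup H16
open scoped TensorProduct

/-- Let `Q₁` and `Q₂` be finite groups whose commutator quotients have coprime orders, with Schur multipliers `A` and `B`. Then the Schur multiplier of `Q₁ × Q₂` is isomorphic to `A × B`. -/
theorem result {Q₁ : Type u} {Q₂ : Type v} [Group Q₁] [Group Q₂] [Finite Q₁] [Finite Q₂] {A B : Type w} [CommGroup A] [CommGroup B] (hA : Cfsg.HasSchurMultiplier Q₁ A) (hB : Cfsg.HasSchurMultiplier Q₂ B) (hcop : Nat.Coprime (Nat.card (Abelianization Q₁)) (Nat.card (Abelianization Q₂))) : Cfsg.HasSchurMultiplier (Q₁ × Q₂) (A × B) := by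
  have h := Cfsg.Agent.S3959.result hA hB
  haveI : Subsingleton (TensorProduct ℤ (Additive (Abelianization Q₁)) (Additive (Abelianization Q₂))) := by
    refine ⟨fun x y => ?_⟩
    have key : ∀ x : TensorProduct ℤ (Additive (Abelianization Q₁)) (Additive (Abelianization Q₂)), x = 0 := by
      intro x
      induction x using TensorProduct.induction_on with
      | zero => rfl
      | add x y hx hy => rw [hx, hy, add_zero]
      | tmul x y =>
        have h1 : Nat.card (Abelianization Q₁) • (x ⊗ₜ[ℤ] y) = 0 := by
          rw [TensorProduct.smul_tmul', show Nat.card (Abelianization Q₁) • x = 0 from card_nsmul_eq_zero', TensorProduct.zero_tmul]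
        have h2 : Nat.card (Abelianization Q₂) • (x ⊗ₜ[ℤ] y) = 0 := by
          rw [← TensorProduct.tmul_smul, show Nat.card (Abelianization Q₂) • y = 0 from card_nsmul_eq_zero', TensorProduct.tmul_zero]
        have := Nat.eq_one_of_dvd_coprimes hcop (addOrderOf_dvd_of_nsmul_eq_zero h1) (addOrderOf_dvd_of_nsmul_eq_zero h2)
        exact AddMonoid.addOrderOf_eq_one_iff.1 this
    rw [key x, key y]
  haveI : Unique (Multiplicative (TensorProduct ℤ (Additive (Abelianization Q₁)) (Additive (Abelianization Q₂)))) :=
    uniqueOfSubsingleton 1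
  exact hsm_congr h ((MulEquiv.refl A).prodCongr MulEquiv.prodUnique)

end Cfsg.Agent.S3980
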