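import Mathlib
import Cfsg.Statements.S3994
import Cfsg.Agent.H16.FrobDiv

set_option autoImplicit false
open Cfsg

namespace Cfsg.Agent.S3994

open BG

/-- Let G be a finite group and n a positive integer. The number of elements of G whose order is divisible by n is either 0 or divisible by the largest divisor of the order of G that is coprime to n. -/
theorem result {G : Type*} [Group G] [Finite G] (n : ℕ) (hn : 0 < n) :
    Nat.card {g : G // n ∣ orderOf g} = 0 ∨
      (Nat.card G / Nat.gcd (Nat.card G) (n ^ Nat.card G)) ∣ Nat.card {g : G // n ∣ orderOf g} := by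
  right
  have hG : 0 < Nat.card G := Nat.card_pos
  refine H16.dvd_of_primePow_dvd fun p k hp hk => ?_
  rcases Nat.eq_zero_or_pos k with rfl | hk0
  · simp
  have hd := Nat.gcd_dvd_left (Nat.card G) (n ^ Nat.card G)
  have hpn : ¬ p ∣ n := by
    intro hpn
    obtain ⟨a, b, hb, hab⟩ := Nat.exists_eq_pow_mul_and_not_dvd hG.ne' p hp.ne_one
    have ha : a ≤ Nat.card G := by
      have h1 : a < p ^ a := Nat.lt_pow_self hp.one_lt
      have h2 : p ^ a ≤ Nat.card G := Nat.le_of_dvd hG ⟨b, hab⟩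
      omega
    have h3 : p ^ a ∣ Nat.gcd (Nat.card G) (n ^ Nat.card G) :=
      Nat.dvd_gcd ⟨b, hab⟩ ((pow_dvd_pow p ha).trans (pow_dvd_pow_of_dvd hpn _))
    have h4 : p ^ a * p ∣ Nat.card G := by
      rw [← Nat.mul_div_cancel' hd]
      exact Nat.mul_dvd_mul h3 ((dvd_pow_self p hk0.ne').trans hk)
    rw [hab] at h4
    exact hb (Nat.dvd_of_mul_dvd_mul_left (pow_pos hp.pos a) h4)
  obtain ⟨H, -, hH⟩ := exists_le_card_pow (H := (⊤ : Subgroup G)) hp
    (by simpa using hk.trans (Nat.div_dvd_of_dvd hd))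
  rw [← hH]
  refine H16.card_dvd_of_closed H _ (fun x hx h _ => by rwa [orderOf_conj]) fun x hx f hf => ?_
  have h1 := H16.brauer_orderOf H16.mem_norm_ncore hf ((card_dvd H16.ncore_le).trans hH.dvd)
  refine dvd_trans ?_ (orderOf_pow_dvd (p ^ k))
  rw [h1]
  have hc : n.Coprime (p ^ k) := (((Nat.Prime.coprime_iff_not_dvd hp).2 hpn).symm).pow_right k
  refine hc.dvd_of_dvd_mul_left (hx.trans ?_)
  rw [orderOf_dvd_iff_pow_eq_one, pow_mul, pow_orderOf_eq_one]

end Cfsg.Agent.S3994
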