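import Mathlib
import Cfsg.Statements.S3997
import Cfsg.Agent.H16.Util

set_option autoImplicit false
open Cfsg

namespace Cfsg.Agent.S3997

/-- Let G and H be finite groups with the same order type: for every m they have the same number of elements of order m. If G is nilpotent then so is H. -/
theorem result {G H : Type*} [Group G] [Finite G] [Group H] [Finite H] (hT : (∀ m : ℕ, Nat.card {g : G // orderOf g = m} = Nat.card {h : H // orderOf h = m})) (hG : Group.IsNilpotent G) :
    Group.IsNilpotent H := by
  have hf : ∀ m : ℕ, Nonempty ({g : G // orderOf g = m} ≃ {h : H // orderOf h = m}) :=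
    fun m => Finite.card_eq.1 (hT m)
  let e : G ≃ H := Equiv.ofFiberEquiv (f := fun g : G => orderOf g) (g := fun h : H => orderOf h)
    (fun m => (hf m).some)
  have he : ∀ g, orderOf (e g) = orderOf g := fun g => Equiv.ofFiberEquiv_map _ g
  have hc : Nat.card G = Nat.card H := Nat.card_congr e
  refine ((Group.isNilpotent_of_finite_tfae (G := H)).out 0 3).2 ?_
  intro p hp Q
  obtain ⟨P⟩ : Nonempty (Sylow p G) := inferInstance
  haveI : (P : Subgroup G).Normal := inferInstance
  have h1 : Nat.card (P : Subgroup G) = Nat.card (Q : Subgroup H) := by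
    rw [P.card_eq_multiplicity, Q.card_eq_multiplicity, hc]
  have h2 : ((Q : Subgroup H) : Set H) = e '' ((P : Subgroup G) : Set G) := by
    refine Set.eq_of_subset_of_ncard_le ?_ ?_ (Set.toFinite _)
    · intro y hy
      obtain ⟨k, hk⟩ := H16.exists_orderOf_eq_of_mem Q.isPGroup' hy
      refine ⟨e.symm y, H16.mem_of_normal_sylow P (k := k) ?_, by simp⟩
      rw [← he, e.apply_symm_apply, hk]
    · rw [Set.ncard_image_of_injective _ e.injective]
      exact le_of_eq h1
  constructor
  intro y hy g
  obtain ⟨k, hk⟩ := H16.exists_orderOf_eq_of_mem Q.isPGroup' hy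
  have : g * y * g⁻¹ ∈ ((Q : Subgroup H) : Set H) := by
    rw [h2]
    refine ⟨e.symm (g * y * g⁻¹), H16.mem_of_normal_sylow P (k := k) ?_, by simp⟩
    rw [← he, e.apply_symm_apply, ← hk]
    exact (MulAut.conj g).orderOf_eq y
  exact this

end Cfsg.Agent.S3997
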