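import Mathlib
import Cfsg.Statements.S3998
import Cfsg.Agent.H16.Super

set_option autoImplicit false
open Cfsg

namespace Cfsg.Agent.S3998

universe u

def Big {G : Type*} [Group G] (k : ℕ) (g : G) : Prop := ∀ q : ℕ, q.Prime → q ∣ orderOf g → k ≤ q

def TT (G : Type*) [Group G] : Prop := ∀ k : ℕ, ∃ b : ℕ,
  Nat.card {g : G // Big k g} * b = Nat.card G ∧
  (∀ q : ℕ, q.Prime → q ∣ Nat.card {g : G // Big k g} → k ≤ q) ∧ ∀ q : ℕ, q.Prime → q ∣ b → q < k

theorem card_big_quot {G : Type*} [Group G] [Finite G] (N : Subgroup G) [N.Normal] {k : ℕ}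
    (hN : ∀ q : ℕ, q.Prime → q ∣ Nat.card N → k ≤ q) :
    Nat.card {g : G // Big k g} = Nat.card N * Nat.card {g : G ⧸ N // Big k g} := by
  have h1 : ∀ g : G, Big k g ↔ Big k (g : G ⧸ N) := by
    intro g
    constructor
    · intro h q hq hd
      exact h q hq (hd.trans (orderOf_map_dvd (QuotientGroup.mk' N) g))
    · intro h q hq hd
      have h2 : g ^ orderOf (g : G ⧸ N) ∈ N := by
        rw [← QuotientGroup.eq_one_iff, QuotientGroup.mk_pow, pow_orderOf_eq_one]
      have h3 : orderOf g ∣ orderOf (g : G ⧸ N) * Nat.card N := by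
        apply orderOf_dvd_of_pow_eq_one
        rw [pow_mul]
        exact orderOf_dvd_iff_pow_eq_one.1 (N.orderOf_dvd_natCard h2)
      rcases (Nat.Prime.dvd_mul hq).1 (hd.trans h3) with h4 | h4
      · exact h q hq h4
      · exact hN q hq h4
  rw [← Nat.card_prod]
  refine (Nat.card_congr (Equiv.subtypeEquivRight h1)).trans ?_
  exact Nat.card_congr (QuotientGroup.preimageMkEquivSubgroupProdSet N {g | Big k g})

theorem big_of_lt {G : Type*} [Group G] [Finite G] {k : ℕ}
    (h : ∀ q : ℕ, q.Prime → q ∣ Nat.card G → q < k) : Nat.card {g : G // Big k g} = 1 := by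
  rw [Nat.card_eq_one_iff_unique]
  refine ⟨⟨fun x y => ?_⟩, ⟨⟨1, fun q hq hd => absurd hd (by simpa using hq.ne_one)⟩⟩⟩
  have : ∀ x : {g : G // Big k g}, x.1 = 1 := by
    intro x
    by_contra h1
    obtain ⟨q, hq, hd⟩ := Nat.exists_prime_and_dvd (fun e => h1 (orderOf_eq_one_iff.1 e))
    exact absurd (x.2 q hq hd) (not_le.2 (h q hq (hd.trans (orderOf_dvd_natCard _))))
  exact Subtype.ext ((this x).trans (this y).symm)

theorem exists_max {G : Type*} [Group G] [Finite G] (h : Nat.card G ≠ 1) :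
    ∃ p : ℕ, p.Prime ∧ p ∣ Nat.card G ∧ ∀ q : ℕ, q.Prime → q ∣ Nat.card G → q ≤ p := by
  have h0 : Nat.card G ≠ 0 := Nat.card_pos.ne'
  have hne : (Nat.card G).primeFactors.Nonempty := Nat.nonempty_primeFactors.2 (by omega)
  have := Finset.max'_mem _ hne
  rw [Nat.mem_primeFactors] at this
  exact ⟨_, this.1, this.2.1, fun q hq hd => Finset.le_max' _ _ (Nat.mem_primeFactors.2 ⟨hq, hd, h0⟩)⟩

theorem tt_triv {G : Type*} [Group G] [Finite G] {k : ℕ}
    (h : ∀ q : ℕ, q.Prime → q ∣ Nat.card G → q < k) : ∃ b : ℕ,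
    Nat.card {g : G // Big k g} * b = Nat.card G ∧
    (∀ q : ℕ, q.Prime → q ∣ Nat.card {g : G // Big k g} → k ≤ q) ∧
      ∀ q : ℕ, q.Prime → q ∣ b → q < k := by
  rw [big_of_lt h]
  exact ⟨_, one_mul _, fun q hq hd => absurd hd (by simpa using hq.ne_one), h⟩

theorem tt_of_ss (n : ℕ) : ∀ (G : Type u) [Group G] [Finite G], Nat.card G = n →
    IsSupersolvable G → TT G := by
  induction n using Nat.strong_induction_on with | _ n ih => ?_
  intro G _ _ hn hG k
  by_cases h1 : Nat.card G = 1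
  · by_cases hk : k ≤ 2
    · have : Nat.card {g : G // Big k g} = 1 := by
        haveI : Subsingleton G := (Nat.card_eq_one_iff_unique.1 h1).1
        rw [Nat.card_eq_one_iff_unique]
        exact ⟨inferInstance, ⟨⟨1, fun q hq hd => absurd hd (by simpa using hq.ne_one)⟩⟩⟩
      rw [this, h1]
      exact ⟨1, rfl, fun q hq hd => absurd hd (by simpa using hq.ne_one),
        fun q hq hd => absurd hd (by simpa using hq.ne_one)⟩
    · exact tt_triv fun q hq hd => absurd (h1 ▸ hd) (by simpa using hq.ne_one)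
  obtain ⟨p, hp, hd, hmax⟩ := exists_max h1
  by_cases hk : p < k
  · exact tt_triv fun q hq hd => (hmax q hq hd).trans_lt hk
  obtain ⟨N, hN, hc⟩ := H16.ss_exists_normal_card_maxPrime hG hp hd hmax
  have h2 := N.card_eq_card_quotient_mul_card_subgroup
  have h3 : Nat.card (G ⧸ N) < n := by
    have := hp.two_le
    have h4 : 0 < Nat.card (G ⧸ N) := Nat.card_pos
    rw [← hn, h2, hc]; nlinarith
  obtain ⟨b, h4, h5, h6⟩ := ih _ h3 (G ⧸ N) rfl (H16.ss_quotient hG N) k
  have h7 : ∀ q : ℕ, q.Prime → q ∣ Nat.card N → k ≤ q := fun q hq hd => by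
    rw [hc, Nat.prime_dvd_prime_iff_eq hq hp] at hd
    omega
  rw [card_big_quot N h7]
  refine ⟨b, by rw [h2, ← h4]; ring, fun q hq hd => ?_, h6⟩
  rcases (Nat.Prime.dvd_mul hq).1 hd with h | h
  · exact h7 q hq h
  · exact h5 q hq h

theorem solv_of_tt (n : ℕ) : ∀ (G : Type u) [Group G] [Finite G], Nat.card G = n →
    TT G → Group.IsSolvable G := by
  induction n using Nat.strong_induction_on with | _ n ih => ?_
  intro G _ _ hn hG
  by_cases h1 : Nat.card G = 1
  · haveI : Subsingleton G := (Nat.card_eq_one_iff_unique.1 h1).1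
    infer_instance
  obtain ⟨p, hp, hd, hmax⟩ := exists_max h1
  haveI := Fact.mk hp
  obtain ⟨P⟩ : Nonempty (Sylow p G) := inferInstance
  obtain ⟨j, hj⟩ := P.isPGroup'.exists_card_eq
  have hPb : ∀ g ∈ (P : Subgroup G), Big p g := fun g hg q hq hd => by
    have := hd.trans ((P : Subgroup G).orderOf_dvd_natCard hg)
    rw [hj] at this
    exact ((Nat.prime_dvd_prime_iff_eq hq hp).1 (hq.dvd_of_dvd_pow this)).ge
  have hset : ((P : Subgroup G) : Set G) = {g | Big p g} := by
    apply Set.eq_of_subset_of_ncard_le hPb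
    obtain ⟨b, h2, h3, h4⟩ := hG p
    have h5 : Nat.card {g : G // Big p g} ∣ Nat.card (P : Subgroup G) * (P : Subgroup G).index := by
      rw [Subgroup.card_mul_index, ← h2]; exact Dvd.intro _ rfl
    have h6 : (Nat.card {g : G // Big p g}).Coprime (P : Subgroup G).index := by
      apply Nat.Coprime.symm
      rw [Nat.coprime_iff_gcd_eq_one]
      by_contra h
      obtain ⟨q, hq, hd⟩ := Nat.exists_prime_and_dvd h
      have a1 := h3 q hq (hd.trans (Nat.gcd_dvd_right _ _))
      have a2 := hd.trans (Nat.gcd_dvd_left _ _)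
      have a3 := hmax q hq (a2.trans (Subgroup.index_dvd_card _))
      exact P.not_dvd_index ((le_antisymm a3 a1) ▸ a2)
    exact Nat.le_of_dvd Nat.card_pos (h6.dvd_of_dvd_mul_right h5)
  haveI hN : (P : Subgroup G).Normal := ⟨fun x hx g => by
    have : x ∈ ((P : Subgroup G) : Set G) := hx
    rw [hset] at this
    change _ ∈ ((P : Subgroup G) : Set G)
    rw [hset]
    intro q hq hd
    exact this q hq ((MulAut.conj g).orderOf_eq x ▸ hd)⟩
  have h2 := (P : Subgroup G).card_eq_card_quotient_mul_card_subgroup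
  have h3 : Nat.card (G ⧸ (P : Subgroup G)) < n := by
    have h5 : p ∣ Nat.card (P : Subgroup G) := P.dvd_card_of_dvd_card hd
    have := Nat.le_of_dvd Nat.card_pos h5
    have := hp.two_le
    have h4 : 0 < Nat.card (G ⧸ (P : Subgroup G)) := Nat.card_pos
    rw [← hn, h2]; nlinarith
  haveI := ih _ h3 (G ⧸ (P : Subgroup G)) rfl (fun k => by
    by_cases hk : p < k
    · exact tt_triv fun q hq hd => (hmax q hq (hd.trans (h2 ▸ Dvd.intro _ rfl))).trans_lt hk
    obtain ⟨b, h4, h5, h6⟩ := hG k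
    have h7 : ∀ q : ℕ, q.Prime → q ∣ Nat.card (P : Subgroup G) → k ≤ q := fun q hq hd => by
      rw [hj] at hd
      have := (Nat.prime_dvd_prime_iff_eq hq hp).1 (hq.dvd_of_dvd_pow hd)
      omega
    rw [card_big_quot _ h7] at h4 h5
    refine ⟨b, ?_, fun q hq hd => h5 q hq (hd.mul_left _), h6⟩
    apply Nat.eq_of_mul_eq_mul_left (Nat.card_pos (α := (P : Subgroup G)))
    rw [← mul_assoc, h4, h2, mul_comm])
  haveI := P.isPGroup'.isNilpotent
  exact Group.isSolvable_of_ker_le_range (P : Subgroup G).subtype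
    (QuotientGroup.mk' (P : Subgroup G)) (by simp)

/-- Let G and H be finite groups with the same order type (for every m the same number of elements of order m). If G is supersolvable then H is solvable. -/
theorem result {G H : Type*} [Group G] [Finite G] [Group H] [Finite H] (hT : (∀ m : ℕ, Nat.card {g : G // orderOf g = m} = Nat.card {h : H // orderOf h = m})) (hG : Cfsg.IsSupersolvable G) :
    Group.IsSolvable H := by
  obtain ⟨e, he⟩ : ∃ e : G ≃ H, ∀ g, orderOf (e g) = orderOf g :=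
    ⟨Equiv.ofFiberEquiv (f := orderOf) (g := orderOf)
      (fun m => Classical.choice (Finite.card_eq.1 (hT m))), fun g => Equiv.ofFiberEquiv_map _ g⟩
  refine solv_of_tt _ H rfl fun k => ?_
  have h1 : Nat.card {g : G // Big k g} = Nat.card {g : H // Big k g} :=
    Nat.card_congr (e.subtypeEquiv fun g => by simp [Big, he])
  rw [← h1, ← Nat.card_congr e]
  exact tt_of_ss _ G rfl hG k

end Cfsg.Agent.S3998
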