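import Mathlib
import Cfsg.Statements.S3999
import Cfsg.Agent.H16.Util
import Cfsg.Agent.H18.FC5
import Cfsg.Agent.H02.Thompson
import Cfsg.Agent.H01.Hall
import Cfsg.Agent.BG.Api3

set_option autoImplicit false
open Cfsg

namespace Cfsg.Agent.S3999

open Subgroup

theorem exists15 {G : Type*} [Group G] [Finite G] [Group.IsSolvable G] {n : ℕ} (h : Nat.card G = 15 * n)
    (hn : Nat.Coprime 15 n) : ∃ x : G, orderOf x = 15 := by
  obtain ⟨H, hH⟩ := H01.exists_isPiHall {p | ¬ p ∣ n} G
  rw [H01.isPiHall_iff_card_eq h hn] at hH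
  haveI : Fact (Nat.Prime 5) := ⟨by norm_num⟩
  haveI : Fact (Nat.Prime 3) := ⟨by norm_num⟩
  obtain ⟨x, hx⟩ := exists_prime_orderOf_dvd_card' (G := H) 5 (by rw [hH]; norm_num)
  obtain ⟨y, hy⟩ := exists_prime_orderOf_dvd_card' (G := H) 3 (by rw [hH]; norm_num)
  have h1 : Nat.card (zpowers x) = 5 := by rw [Nat.card_zpowers, hx]
  haveI : (zpowers x).Normal := normal_of_index_eq_minFac_card (by
    have := (zpowers x).card_mul_index
    rw [h1, hH] at this
    rw [hH, show Nat.minFac 15 = 3 by norm_num]; omega)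
  have h2 : MulAut.conjNormal (H := zpowers x) y = 1 := by
    rw [← orderOf_eq_one_iff]
    have a := orderOf_map_dvd (MulAut.conjNormal (H := zpowers x)) y
    have b := orderOf_dvd_natCard (MulAut.conjNormal (H := zpowers x) y)
    rw [IsCyclic.card_mulAut, h1] at b
    rw [hy] at a
    exact Nat.eq_one_of_dvd_coprimes (by decide) a b
  have h3 : Commute y x := by
    have := congrArg (fun f : MulAut (zpowers x) => (f ⟨x, mem_zpowers x⟩ : H)) h2
    simp only [MulAut.conjNormal_apply, MulAut.one_apply] at this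
    exact mul_inv_eq_iff_eq_mul.1 this
  refine ⟨(y * x : H), ?_⟩
  rw [orderOf_coe, h3.orderOf_mul_eq_mul_orderOf_of_coprime (by rw [hx, hy]; decide), hx, hy]

theorem s5 : ∀ σ : Equiv.Perm (Fin 5), σ ^ 15 = 1 → σ ^ 3 = 1 ∨ σ ^ 5 = 1 := by decide +kernel

theorem nonsolv {F : Type*} [Group F] [Finite F] {C : Subgroup F} (hC : IsFrobeniusComplement C)
    (hs : ¬ Group.IsSolvable F) : (∃ n, Nat.card F = 15 * n ∧ Nat.Coprime 15 n) ∧ ∀ x : F, orderOf x ≠ 15 := by
  obtain ⟨K, hK, _, hc, hnil⟩ := H02.IsFrob.exists_kernel hC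
  have hfc : H18.IsFC C := H18.IsFC.of_normalizer (H02.IsFrob.ne_bot_of_coe_eq hC hK)
    (by rw [normalizer_eq_top]; exact le_top) fun a ha h1 k hk e => H02.IsFrob.fpf_kernel hC ha h1 (hK ▸ hk) e
  have hs' : ¬ Group.IsSolvable C := fun h => by
    haveI : Group.IsSolvable (F ⧸ K) := Group.isSolvable_of_surjective
      (f := (hc.symm.QuotientMulEquiv).symm.toMonoidHom) (MulEquiv.surjective _)
    exact hs (Group.isSolvable_of_ker_le_range K.subtype (QuotientGroup.mk' K) (by simp))
  obtain ⟨θ, h1, h2⟩ := hfc.sl25_of_not_solvable hs'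
  obtain ⟨f, -, -, -, M, -, -, m3, m4, -⟩ := hfc.c5 θ h1 h2
  have d1 : 120 ∣ Nat.card C := H18.card_sl25 ▸ card_dvd_of_injective θ h1
  have d2 : Nat.card C ∣ 2 * Nat.card M * 120 := by
    rw [← f.ker.card_mul_index, m4, index_ker]
    refine Nat.mul_dvd_mul_left _ ((card_subgroup_dvd_card _).trans ?_)
    rw [Nat.card_eq_fintype_card, Fintype.card_perm]; rfl
  have c3 : ¬ 3 ∣ Nat.card M := fun h => by
    have := Nat.eq_one_of_dvd_coprimes m3 h (by norm_num); omega
  have c5 : ¬ 5 ∣ Nat.card M := fun h => by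
    have := Nat.eq_one_of_dvd_coprimes m3 h (by norm_num); omega
  have hco := H02.IsFrob.coprime hC
  refine ⟨?_, fun x hx => ?_⟩
  · obtain ⟨t, ht⟩ := d1
    refine ⟨8 * t * C.index, by rw [← C.card_mul_index, ht]; ring, ?_⟩
    rw [ht, mul_comm] at d2
    have d3 := Nat.dvd_of_mul_dvd_mul_right (by norm_num) d2
    refine Nat.Coprime.mul_right (Nat.Coprime.mul_right (by norm_num) ?_)
      (hco.coprime_dvd_left ⟨8 * t, by rw [ht]; ring⟩)
    rw [show 15 = 3 * 5 from rfl]
    refine Nat.Coprime.mul_left ((Nat.Prime.coprime_iff_not_dvd Nat.prime_three).2 fun h => ?_)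
      ((Nat.Prime.coprime_iff_not_dvd Nat.prime_five).2 fun h => ?_)
    · have := h.trans d3; omega
    · have := h.trans d3; omega
  · obtain ⟨g, hg⟩ := H02.IsFrob.exists_le_conj_of_card_dvd hC (L := zpowers x)
      (by rw [Nat.card_zpowers, hx]; exact Dvd.dvd.trans (by norm_num) d1)
    have hy := H16.mem_conj_smul.1 (hg (mem_zpowers x))
    have ho : orderOf (⟨_, hy⟩ : C) = 15 := by
      rw [orderOf_mk, ← hx]
      simpa using (MulAut.conj g⁻¹).orderOf_eq x
    set y : C := ⟨_, hy⟩
    have h3 : ∀ k, f y ^ k = 1 → orderOf (y ^ k) ∣ 2 * Nat.card M := fun k hk => by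
      rw [← m4]
      exact Subgroup.orderOf_dvd_natCard _ (by rw [MonoidHom.mem_ker, map_pow, hk])
    rcases s5 (f y) (by rw [← map_pow, ← ho, pow_orderOf_eq_one, map_one]) with h | h
    · have := h3 _ h
      rw [orderOf_pow' _ (by norm_num), ho] at this
      norm_num at this
      omega
    · have := h3 _ h
      rw [orderOf_pow' _ (by norm_num), ho] at this
      norm_num at this
      omega

theorem solv {F G : Type*} [Group F] [Finite F] [Group G] [Finite G] (hF : (∃ C : Subgroup F, Cfsg.IsFrobeniusComplement C))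
    (e : F ≃ G) (he : ∀ g, orderOf (e g) = orderOf g) (h : Group.IsSolvable G) : Group.IsSolvable F := by
  by_contra hs
  obtain ⟨C, hC⟩ := hF
  obtain ⟨⟨n, h1, h2⟩, h3⟩ := nonsolv hC hs
  obtain ⟨x, hx⟩ := exists15 (G := G) (by rw [← Nat.card_congr e, h1]) h2
  exact h3 (e.symm x) (by rw [← he, e.apply_symm_apply, hx])

theorem frob {F G : Type*} [Group F] [Finite F] [Group G] [Finite G] (hF : (∃ C : Subgroup F, Cfsg.IsFrobeniusComplement C))
    (e : F ≃ G) (he : ∀ g, orderOf (e g) = orderOf g) : ∃ C : Subgroup G, Cfsg.IsFrobeniusComplement C := by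
  obtain ⟨C, hC⟩ := hF
  obtain ⟨K, hK, _, hc, hnil⟩ := H02.IsFrob.exists_kernel hC
  have hcard : Nat.card F = Nat.card G := Nat.card_congr e
  have hco := H02.IsFrob.coprime hC
  have hKi : K.index = Nat.card C := hc.symm.index_eq_card
  have hnorm : ∀ (p : ℕ) [Fact p.Prime], ¬ p ∣ Nat.card C → ∀ Q : Sylow p G, (Q : Subgroup G).Normal := by
    intro p hp hpC Q
    obtain ⟨P₀⟩ : Nonempty (Sylow p K) := inferInstance
    let P : Sylow p F := (P₀.isPGroup'.map K.subtype).toSylow (by
      rw [index_map_subtype, hKi]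
      exact fun h => ((Nat.Prime.dvd_mul hp.out).1 h).elim P₀.not_dvd_index hpC)
    haveI : (P₀ : Subgroup K).Characteristic := Sylow.characteristic_of_normal P₀ inferInstance
    haveI : (P : Subgroup F).Normal := ConjAct.normal_of_characteristic_of_normal
    have h1 : Nat.card (P : Subgroup F) = Nat.card (Q : Subgroup G) := by
      rw [P.card_eq_multiplicity, Q.card_eq_multiplicity, hcard]
    have h2 : ((Q : Subgroup G) : Set G) = e '' ((P : Subgroup F) : Set F) := by
      refine Set.eq_of_subset_of_ncard_le ?_ ?_ (Set.toFinite _)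
      · intro y hy
        obtain ⟨k, hk⟩ := H16.exists_orderOf_eq_of_mem Q.isPGroup' hy
        refine ⟨e.symm y, H16.mem_of_normal_sylow P (k := k) ?_, by simp⟩
        rw [← he, e.apply_symm_apply, hk]
      · rw [Set.ncard_image_of_injective _ e.injective]
        exact le_of_eq h1
    constructor
    intro y hy g
    obtain ⟨k, hk⟩ := H16.exists_orderOf_eq_of_mem Q.isPGroup' hy
    have : g * y * g⁻¹ ∈ ((Q : Subgroup G) : Set G) := by
      rw [h2]
      refine ⟨e.symm (g * y * g⁻¹), H16.mem_of_normal_sylow P (k := k) ?_, by simp⟩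
      rw [← he, e.apply_symm_apply, ← hk]
      exact (MulAut.conj g).orderOf_eq y
    exact this
  set N := piCoreOf {p | ¬ p ∣ Nat.card C} (⊤ : Subgroup G)
  haveI : N.Normal := normalizer_eq_top_iff.1 (top_le_iff.1 (BG.le_norm_pcore _ _))
  have hN : IsPiHall {p | ¬ p ∣ Nat.card C} N := ⟨BG.pcore_isPi _ _, fun p hp hpC h => by
    haveI := Fact.mk hp
    obtain ⟨Q⟩ : Nonempty (Sylow p G) := inferInstance
    haveI := hnorm p hpC Q
    refine Q.not_dvd_index (h.trans (index_dvd_of_le (BG.le_pcore (fun r hr h => ?_) le_top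
      (by rw [normalizer_eq_top]))))
    obtain ⟨k, hk⟩ := IsPGroup.iff_card.1 Q.isPGroup'
    rw [hk] at h
    rwa [(Nat.prime_dvd_prime_iff_eq hr hp).1 (hr.dvd_of_dvd_pow h)]⟩
  have hG : Nat.card G = C.index * Nat.card C := by rw [← hcard, index_mul_card]
  rw [H01.isPiHall_iff_card_eq hG hco.symm] at hN
  have hNi : N.index = Nat.card C := Nat.eq_of_mul_eq_mul_left (hN ▸ Nat.card_pos) (by rw [← hG, ← hN, card_mul_index])
  obtain ⟨D, hD⟩ := exists_right_complement'_of_coprime (N := N) (by rw [hN, hNi]; exact hco.symm)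
  have hDc : Nat.card D = Nat.card C := by rw [← hNi, hD.symm.index_eq_card]
  refine ⟨D, H02.isFrob_of_fpf hD ?_ ?_ fun d hd h1 => ?_⟩
  · rw [Ne, ← card_eq_one, hN, index_eq_one]; exact hC.2.1
  · rw [Ne, ← card_eq_one, hDc, card_eq_one]; exact hC.1
  · rw [eq_bot_iff]
    rintro x ⟨hx, hxd⟩
    have hc' : Commute d x := mem_centralizer_singleton_iff.1 hxd |>.symm
    have o1 : orderOf x ∣ C.index := hN ▸ Subgroup.orderOf_dvd_natCard _ hx
    have o2 : orderOf d ∣ Nat.card C := hDc ▸ Subgroup.orderOf_dvd_natCard _ hd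
    have o3 := hc'.orderOf_mul_eq_mul_orderOf_of_coprime ((hco.coprime_dvd_left o2).coprime_dvd_right o1)
    rw [← e.apply_symm_apply (d * x), he] at o3
    rcases em (e.symm (d * x) ∈ frobeniusKernel C) with h | h
    · have := orderOf_dvd_of_pow_eq_one (H02.IsFrob.pow_index_of_mem_kernel hC h)
      rw [o3] at this
      exact absurd (orderOf_eq_one_iff.1 (Nat.eq_one_of_dvd_coprimes hco o2 ((Dvd.intro _ rfl).trans this))) h1
    · simp only [frobeniusKernel, Set.mem_ofPred_eq, not_or, not_forall, not_not] at h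
      obtain ⟨-, g, hg⟩ := h
      have := Subgroup.orderOf_dvd_natCard _ (H16.mem_conj_smul.1 hg)
      rw [show orderOf (g⁻¹ * e.symm (d * x) * g) = orderOf (e.symm (d * x)) by
        simpa using (MulAut.conj g⁻¹).orderOf_eq (e.symm (d * x)), o3] at this
      exact orderOf_eq_one_iff.1 (Nat.eq_one_of_dvd_coprimes hco ((Dvd.intro_left _ rfl).trans this) o1)

/-- Let F be a finite Frobenius group (it has a Frobenius complement) and G a finite group with the same order type as F (for every m the same number of elements of order m). Then G is a Frobenius group; moreover G is solvable if and only if F is. -/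
theorem result {F G : Type*} [Group F] [Finite F] [Group G] [Finite G] (hF : (∃ C : Subgroup F, Cfsg.IsFrobeniusComplement C)) (hT : (∀ m : ℕ, Nat.card {g : F // orderOf g = m} = Nat.card {h : G // orderOf h = m})) :
    (∃ C : Subgroup G, Cfsg.IsFrobeniusComplement C) ∧ (Group.IsSolvable G ↔ Group.IsSolvable F) := by
  have hf : ∀ m : ℕ, Nonempty ({g : F // orderOf g = m} ≃ {h : G // orderOf h = m}) :=
    fun m => Finite.card_eq.1 (hT m)
  let e : F ≃ G := Equiv.ofFiberEquiv (f := fun g : F => orderOf g) (g := fun h : G => orderOf h)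
    (fun m => (hf m).some)
  have he : ∀ g, orderOf (e g) = orderOf g := fun g => Equiv.ofFiberEquiv_map _ g
  exact ⟨frob hF e he, solv hF e he, solv (frob hF e he) e.symm fun g => by rw [← he, e.apply_symm_apply]⟩

end Cfsg.Agent.S3999
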