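import Mathlib
import Cfsg.Statements.S4001
import Cfsg.Agent.H16.TwoFrob
import Cfsg.Agent.H16.Util

set_option autoImplicit false
open Cfsg

namespace Cfsg.Agent.S4001

open BG Subgroup H16

theorem nil_ord {G : Type*} [Group G] [Finite G] {H : Subgroup G} (hH : Group.IsNilpotent H) {p q : ℕ}
    (hp : p.Prime) (hq : q.Prime) (hne : p ≠ q) (h1 : p ∣ Nat.card H) (h2 : q ∣ Nat.card H) :
    ∃ g : G, orderOf g = p * q := by
  have : Fact p.Prime := ⟨hp⟩
  have : Fact q.Prime := ⟨hq⟩
  obtain ⟨⟨x, hx⟩, hxp⟩ := exists_prime_orderOf_dvd_card' p h1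
  obtain ⟨⟨y, hy⟩, hyp⟩ := exists_prime_orderOf_dvd_card' q h2
  have hxp : orderOf x = p := by rw [← hxp, ← orderOf_coe]
  have hyp : orderOf y = q := by rw [← hyp, ← orderOf_coe]
  have hco : (orderOf x).Coprime (orderOf y) := by rw [hxp, hyp]; exact (Nat.coprime_primes hp hq).2 hne
  have h3 := nil_cent_of_coprime hH (zpowers_le.2 hx) (zpowers_le.2 hy) (by
    rwa [Nat.card_zpowers, Nat.card_zpowers])
  have hc : Commute x y := (h3 (mem_zpowers x) y (mem_zpowers y)).symm
  exact ⟨x * y, by rw [hc.orderOf_mul_eq_mul_orderOf_of_coprime hco, hxp, hyp]⟩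

/-- Let G be a 2-Frobenius group: it has normal subgroups H < K with K a Frobenius group with kernel H and G/H a Frobenius group with kernel K/H. Then G is solvable; K/H has odd order coprime to the order of H and to the order of G/K (it is the image of an odd-order Hall subgroup); G/K is cyclic; and the prime graph of G has exactly two connected components, both complete: for distinct primes p, q dividing the order of G, G has an element of order pq exactly when p and q either both divide the order of K/H or both do not. -/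
theorem result {G : Type*} [Group G] [Finite G] (H K : Subgroup G) [H.Normal] [K.Normal] (hlt : H < K)
    (hK : ∃ C : Subgroup ↥K, Cfsg.IsFrobeniusComplement C ∧ Cfsg.frobeniusKernel C = (H.subgroupOf K : Set ↥K))
    (hGH : ∃ C : Subgroup (G ⧸ H), Cfsg.IsFrobeniusComplement C ∧ Cfsg.frobeniusKernel C = (K.map (QuotientGroup.mk' H) : Set (G ⧸ H))) :
    Group.IsSolvable G ∧ Odd (Nat.card (↥K ⧸ H.subgroupOf K)) ∧
      Nat.Coprime (Nat.card (↥K ⧸ H.subgroupOf K)) (Nat.card ↥H * Nat.card (G ⧸ K)) ∧ IsCyclic (G ⧸ K) ∧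
      ∀ p q : ℕ, p.Prime → q.Prime → p ≠ q → p ∣ Nat.card G → q ∣ Nat.card G →
        ((∃ g : G, orderOf g = p * q) ↔ (p ∣ Nat.card (↥K ⧸ H.subgroupOf K) ↔ q ∣ Nat.card (↥K ⧸ H.subgroupOf K))) := by
  obtain ⟨B', hB', hk⟩ := hK
  obtain ⟨C', hC', hk'⟩ := hGH
  have hF1 := frob_of_isFrob hlt.le hB' hk
  set B := B'.map K.subtype
  obtain ⟨C, h, -⟩ := exists_twoFrob hF1 (frob_top_of_isFrob hC' hk')
  have hKe : H ⊔ B = K := hF1.sd.sup
  have hB : Nat.card (↥K ⧸ H.subgroupOf K) = Nat.card B := hF1.sd.relIndex_left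
  have hsd : Sdprod H (B ⊔ C) ⊤ := ⟨h.sup, le_normalizer_of_normal, h.disj⟩
  have hcard : Nat.card G = Nat.card H * Nat.card B * Nat.card C := by
    rw [← card_top, hsd.card, h.frob2.sd.card, mul_assoc]
  have hC : K.index = Nat.card C := by
    have h1 := K.card_mul_index
    rw [hcard, hF1.sd.card] at h1
    exact Nat.eq_of_mul_eq_mul_left (Nat.mul_pos Nat.card_pos Nat.card_pos) h1
  have hHi : H.relIndex K = Nat.card B := hF1.sd.relIndex_left
  have hmix : ∀ p q : ℕ, p.Prime → q.Prime → p ∣ Nat.card B → ¬ q ∣ Nat.card B → ∀ g : G, orderOf g ≠ p * q := by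
    intro p q hp hq h1 h2 g hg
    have hx : orderOf (g ^ q) = p := by
      rw [orderOf_pow_of_dvd hq.ne_zero (hg ▸ dvd_mul_left _ _), hg, Nat.mul_div_cancel _ hq.pos]
    have hy : orderOf (g ^ p) = q := by
      rw [orderOf_pow_of_dvd hp.ne_zero (hg ▸ dvd_mul_right _ _), hg, Nat.mul_div_cancel_left _ hp.pos]
    have hxK : g ^ q ∈ K := mem_of_coprime_index (by
      rw [hx, hC]; exact Nat.Coprime.coprime_dvd_left h1 h.frob2.coprime)
    have hxH : g ^ q ∉ H := fun hh => hp.one_lt.ne' (Nat.eq_one_of_dvd_coprimes h.frob1.coprime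
      (hx ▸ orderOf_dvd_natCard _ hh) h1)
    have hc : g ^ p * g ^ q = g ^ q * g ^ p := by rw [← pow_add, ← pow_add, add_comm]
    have hyK : g ^ p ∈ K := by
      have h3 := h.frob_quot.cent1_ker (x := QuotientGroup.mk' H (g ^ q)) (mem_map_of_mem _ (hKe ▸ hxK))
        (fun h0 => hxH ((QuotientGroup.eq_one_iff _).1 h0))
        (mem_inf.2 ⟨mem_top (QuotientGroup.mk' H (g ^ p)), mem_cent1.2 (by rw [← map_mul, ← map_mul, hc])⟩)
      rw [← mem_comap, comap_map_eq_self (by rw [QuotientGroup.ker_mk']; exact le_sup_left), hKe] at h3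
      exact h3
    have hyH : g ^ p ∈ H := by
      have := mem_of_coprime_index (N := H.subgroupOf K) (x := ⟨_, hyK⟩) (by
        rw [← orderOf_coe, hy]
        change q.Coprime (H.relIndex K)
        rw [hHi]; exact (Nat.Prime.coprime_iff_not_dvd hq).2 h2)
      exact this
    exact hxH (hF1.cent1_ker hyH (fun h0 => hq.one_lt.ne' (by rw [← hy, h0, orderOf_one]))
      (mem_inf.2 ⟨hxK, mem_cent1.2 hc.symm⟩))
  have hsol : Group.IsSolvable (⊤ : Subgroup G) := by
    rw [← h.sup]
    have := h.cyclic_B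
    have := h.cyclic_C
    exact sol_sup (sol_sup inferInstance inferInstance h.frob2.sd.norm) (sol_of_nil h.nil_H) le_normalizer_of_normal
  refine ⟨Group.isSolvable_of_surjective (f := (topEquiv : (⊤ : Subgroup G) ≃* G).toMonoidHom) topEquiv.surjective,
    hB ▸ h.odd_B, ?_, ?_, fun p q hp hq hne h1 h2 => ⟨?_, fun h3 => ?_⟩⟩
  · rw [hB]
    exact Nat.Coprime.mul_right h.frob1.coprime.symm (by
      change Nat.Coprime _ K.index
      rw [hC]; exact h.frob2.coprime)
  · have := h.cyclic_C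
    refine isCyclic_of_surjective ((QuotientGroup.mk' K).comp C.subtype) fun z => ?_
    obtain ⟨x, rfl⟩ := QuotientGroup.mk'_surjective K z
    have hx : x ∈ K ⊔ C := by rw [← hKe, sup_assoc, h.sup]; exact mem_top x
    obtain ⟨k, hk, c, hc, rfl⟩ := (mem_sup_norm le_normalizer_of_normal).1 hx
    exact ⟨⟨c, hc⟩, by simp [(QuotientGroup.eq_one_iff k).2 hk]⟩
  · rintro ⟨g, hg⟩
    rw [hB]
    by_contra hcon
    by_cases h3 : p ∣ Nat.card B
    · exact hmix p q hp hq h3 (fun h4 => hcon ⟨fun _ => h4, fun _ => h3⟩) g hg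
    · exact hmix q p hq hp (by tauto) h3 g (by rw [hg, mul_comm])
  · rw [hB] at h3
    by_cases h4 : p ∣ Nat.card B
    · have := h.cyclic_B
      exact nil_ord (H := B) (nil_of_abelian inferInstance) hp hq hne h4 (h3.1 h4)
    have h5 : ¬ q ∣ Nat.card B := fun h => h4 (h3.2 h)
    rw [hcard] at h1 h2
    have hd : ∀ r : ℕ, r.Prime → ¬ r ∣ Nat.card B → r ∣ Nat.card H * Nat.card B * Nat.card C →
        r ∣ Nat.card H ∨ r ∣ Nat.card C := fun r hr h6 h7 =>
      ((Nat.Prime.dvd_mul hr).1 h7).imp_left fun h8 => ((Nat.Prime.dvd_mul hr).1 h8).resolve_right h6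
    rcases hd p hp h4 h1 with h6 | h6 <;> rcases hd q hq h5 h2 with h7 | h7
    · exact nil_ord h.nil_H hp hq hne h6 h7
    · exact h.exists_order hp hq hne h6 h7
    · rw [mul_comm]; exact h.exists_order hq hp hne.symm h7 h6
    · have := h.cyclic_C
      exact nil_ord (H := C) (nil_of_abelian inferInstance) hp hq hne h6 h7

end Cfsg.Agent.S4001
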