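import Mathlib
import Cfsg.Statements.S4003
import Cfsg.Agent.H16.FrobDiv

set_option autoImplicit false
open Cfsg

namespace Cfsg.Agent.S4003

open BG

theorem pow_p_eq {G : Type*} [Group G] [Finite G] {p : ℕ} (hp : p.Prime) (h2 : p ≠ 2) {E : Subgroup G}
    {H : Subgroup G} (hE : IsElem p 2 E H) {a e : G} (ha : IsPGroup p (Subgroup.zpowers a)) (hn : a ∈ N_(E))
    (he : e ∈ E) : (a * e) ^ p = a ^ p := by
  have hn' : Subgroup.zpowers a ≤ N_(E) := by simpa using hn
  have hlt := nil_comm_lt hn' (pg_nil hp (pg_sup hE.pg ha hn')) (ne_bot_of_card hp two_ne_zero hE.card)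
  have hc : Subgroup.zpowers a ≤ C_(⁅E, Subgroup.zpowers a⁆) := by
    obtain ⟨j, hj⟩ := pg_card hp (pg_le hE.pg hlt.le)
    have h1 := card_lt hlt
    rw [hj, hE.card, Nat.pow_lt_pow_iff_right hp.one_lt] at h1
    interval_cases j
    · rw [pow_zero, card_eq_one] at hj; rw [hj]; exact le_cent_bot
    · exact pg_le_cent_of_card hp ha (by simpa using hj) (right_le_norm_comm _ _)
  set z := e⁻¹ * a⁻¹ * e * a with hz
  have hzE : z ∈ E := by
    have := mul_mem (inv_mem he) (conj_mem_of_norm' hn he)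
    simpa [hz, mul_assoc] using this
  have hzc : z ∈ ⁅E, Subgroup.zpowers a⁆ := by
    have := Subgroup.commutator_mem_commutator (inv_mem he) (inv_mem (Subgroup.mem_zpowers a))
    simpa [commutatorElement_def, hz] using this
  have c1 : Commute z a := (mem_cent.1 (hc (Subgroup.mem_zpowers a)) z hzc)
  have c2 : Commute z e := mul_comm_of_abelian hE.abelian hzE he
  have hea : e * a = a * e * z := by rw [hz]; group
  clear_value z
  have k1 : ∀ k : ℕ, e ^ k * a = a * e ^ k * z ^ k := by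
    intro k
    induction k with
    | zero => simp
    | succ k ih =>
      rw [pow_succ, mul_assoc, hea, ← mul_assoc, ← mul_assoc, ih, pow_succ z, mul_assoc (a * e ^ k), (c2.pow_left k).eq]
      group
  have k2 : ∀ k : ℕ, (a * e) ^ k = a ^ k * e ^ k * z ^ k.choose 2 := by
    intro k
    induction k with
    | zero => simp
    | succ k ih =>
      rw [pow_succ, ih, Nat.choose_succ_succ, Nat.choose_one_right, pow_add, mul_assoc (a ^ k * e ^ k),
        ((c1.mul_right c2).pow_left _).eq, ← mul_assoc, ← mul_assoc, mul_assoc (a ^ k), k1, pow_succ, pow_succ,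
        mul_assoc (a ^ k), mul_assoc (a * e ^ k), (c2.pow_left k).eq]
      group
  obtain ⟨c, hc⟩ := hp.dvd_choose_self two_ne_zero (lt_of_le_of_ne hp.two_le h2.symm)
  rw [k2, hE.elemAb.pow he, hc, pow_mul, hE.elemAb.pow hzE]; simp

theorem exists_le_card {G : Type*} [Group G] [Finite G] {p : ℕ} [Fact p.Prime] {E : Subgroup G} {s : ℕ}
    (hE : Nat.card E = p ^ 2) (hs : 2 ≤ s) (hd : p ^ s ∣ Nat.card G) : ∃ H : Subgroup G, Nat.card H = p ^ s ∧ E ≤ H :=
  Sylow.exists_subgroup_card_pow_prime_le p hd E hE hs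

/-- Let G be a finite group, p an odd prime dividing the order of G whose Sylow p-subgroups are not cyclic, and n = p^s·m with s > 1 and m coprime to p. Then the number of elements of G of order n is a multiple of p^s. -/
theorem result {G : Type*} [Group G] [Finite G] (p : ℕ) [Fact p.Prime] (hodd : p ≠ 2) (hpG : p ∣ Nat.card G)
    (P : Sylow p G) (hP : ¬ IsCyclic ↥(P : Subgroup G)) (s m : ℕ) (hs : 1 < s) (hm : Nat.Coprime p m) :
    p ^ s ∣ Nat.card {g : G // orderOf g = p ^ s * m} := by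
  have hp : p.Prime := Fact.out
  by_cases hd : p ^ s ∣ Nat.card G
  swap
  · have : IsEmpty {g : G // orderOf g = p ^ s * m} :=
      ⟨fun g => hd ((Dvd.intro _ g.2.symm).trans (orderOf_dvd_natCard g.1))⟩
    simp
  obtain ⟨E₀, hE₀⟩ := exists_elem2_of_not_cyclic hp hodd P.isPGroup' hP
  obtain ⟨H, hH, hEH⟩ := exists_le_card hE₀.card hs hd
  have hHp : IsPGroup p H := pg_of_card hH
  have hHc : ¬ IsCyclic H := fun h => (IsElem.not_rankLE (k := 1) (H := E₀) ⟨le_rfl, hE₀.elemAb, hE₀.card⟩ hp) (rankLE_of_cyclic (cyclic_of_le h hEH))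
  obtain ⟨t, rfl⟩ : ∃ t, s = t + 2 := ⟨s - 2, by omega⟩
  have hm0 : m ≠ 0 := by rintro rfl; exact hp.ne_one (by simpa using hm)
  refine hH.symm.dvd.trans (H16.card_dvd_of_closed H _ (fun x hx h _ => by rwa [orderOf_conj]) fun x hx f hf => ?_)
  have h1 := H16.brauer_orderOf H16.mem_norm_ncore hf ((card_dvd H16.ncore_le).trans hH.dvd)
  rw [orderOf_pow' x (pow_ne_zero _ hp.ne_zero), hx, Nat.gcd_eq_right (Dvd.intro _ rfl),
    Nat.mul_div_cancel_left _ (pow_pos hp.pos _)] at h1
  have h2 : orderOf (x * f) ∣ p ^ (t + 2) * m := by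
    rw [orderOf_dvd_iff_pow_eq_one, pow_mul, ← h1, pow_orderOf_eq_one]
  have h3 : m ∣ orderOf (x * f) := h1 ▸ orderOf_pow_dvd _
  have hx1 : x ^ (p ^ (t + 1) * m) ≠ 1 := by
    intro e
    have := Nat.le_of_dvd (Nat.mul_pos (pow_pos hp.pos _) (Nat.pos_of_ne_zero hm0)) (orderOf_dvd_of_pow_eq_one e)
    rw [hx, Nat.mul_le_mul_right_iff (Nat.pos_of_ne_zero hm0), Nat.pow_le_pow_iff_right hp.one_lt] at this
    omega
  have h4 : (x * f) ^ (p ^ (t + 1) * m) ≠ 1 := by
    by_cases hF : H16.ncore H x = H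
    · have hxH : x ∈ N_(H) := hF ▸ H16.mem_norm_ncore
      have hfH : f ∈ H := hF ▸ hf
      set a := x ^ m with ha
      have hap : IsPGroup p (Subgroup.zpowers a) := pg_of_card (n := t + 2) (by
        rw [card_zpowers, ha, orderOf_pow' x hm0, hx, Nat.gcd_eq_right (Dvd.intro_left _ rfl),
          Nat.mul_div_cancel _ (Nat.pos_of_ne_zero hm0)])
      have haH : a ∈ N_(H) := pow_mem hxH m
      have haH' : Subgroup.zpowers a ≤ N_(H) := by simpa using haH
      obtain ⟨E, hE, hEn⟩ := exists_normal_elem2 hp hodd (pg_sup hHp hap haH') le_sup_left (sup_le_norm_left haH') hHc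
      have haE : a ∈ N_(E) := hEn (Subgroup.mem_sup_right (Subgroup.mem_zpowers a))
      have hHE : H ≤ N_(E) := le_sup_left.trans hEn
      have hf' : ∀ k : ℕ, (x ^ k)⁻¹ * (x * f) ^ k ∈ H := by
        intro k
        induction k with
        | zero => simp
        | succ k ih =>
          have : (x ^ (k + 1))⁻¹ * (x * f) ^ (k + 1) = x⁻¹ * ((x ^ k)⁻¹ * (x * f) ^ k) * x * f := by
            rw [pow_succ, pow_succ]; group
          rw [this]; exact mul_mem (conj_mem_of_norm' hxH ih) hfH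
      set u := a⁻¹ * (x * f) ^ m with hu
      have huH : u ∈ H := hf' m
      let N := N_(E)
      let φ := QuotientGroup.mk' (E.subgroupOf N)
      let U := (H.subgroupOf N).map φ
      have hU : Nat.card U = p ^ t := by
        have := H02.card_map_mk'_mul (H.subgroupOf N) (E.subgroupOf N)
        rw [inf_eq_right.2 (Subgroup.subgroupOf_mono N hE.le), H02.card_subgroupOf_of_le (le_norm E),
          H02.card_subgroupOf_of_le hHE, hH, hE.card, pow_add] at this
        exact Nat.eq_of_mul_eq_mul_right (pow_pos hp.pos 2) this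
      have hv : φ ⟨a, haE⟩ ∈ N_(U) := by
        refine mem_norm_of_cj_le fun y hy => ?_
        obtain ⟨_, ⟨y, hy', rfl⟩, rfl⟩ := mem_cj'.1 hy
        exact ⟨⟨a, haE⟩ * y * ⟨a, haE⟩⁻¹, conj_mem_of_norm haH hy', by simp⟩
      obtain ⟨_, ⟨w, hw, rfl⟩, hw'⟩ := H16.brauer_pow hv (u := φ ⟨u, hHE huH⟩) ⟨_, huH, rfl⟩
      rw [hU, ← map_mul, ← map_pow, ← map_pow, ← map_inv, ← map_mul, ← map_mul] at hw'
      have hw2 : ((w : G)⁻¹ * a ^ p ^ t * w)⁻¹ * (a * u) ^ p ^ t ∈ E :=
        QuotientGroup.eq (s := E.subgroupOf N).1 hw'.symm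
      have hb : IsPGroup p (Subgroup.zpowers ((w : G)⁻¹ * a ^ p ^ t * w)) := by
        have := isPGroup_cj (g := (w : G)⁻¹).2 (pg_le hap (show Subgroup.zpowers (a ^ p ^ t) ≤ _ by
          rw [Subgroup.zpowers_le]; exact pow_mem (Subgroup.mem_zpowers a) _))
        rwa [cj_zpowers, inv_inv] at this
      have hw3 := pow_p_eq hp hodd hE hb (mul_mem (mul_mem (inv_mem w.2) (pow_mem haE _)) w.2) hw2
      rw [mul_inv_cancel_left, hu, mul_inv_cancel_left, ← pow_mul, ← pow_mul, ← pow_succ, mul_comm m] at hw3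
      rw [hw3]
      intro e
      apply hx1
      have e2 := conj_pow (a := (w : G)⁻¹) (b := a ^ p ^ t) (i := p)
      rw [inv_inv, e, ← pow_mul, ← pow_succ, ha, ← pow_mul, mul_comm m] at e2
      calc x ^ (p ^ (t + 1) * m) = w * ((w : G)⁻¹ * x ^ (p ^ (t + 1) * m) * w) * (w : G)⁻¹ := by group
        _ = 1 := by rw [← e2]; group
    · obtain ⟨j, hj⟩ := pg_card hp (pg_le hHp (H16.ncore_le (x := x)))
      have h5 := card_lt (lt_of_le_of_ne (H16.ncore_le (x := x)) hF)
      rw [hj, hH, Nat.pow_lt_pow_iff_right hp.one_lt] at h5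
      have h6 := H16.brauer_orderOf H16.mem_norm_ncore hf (n := p ^ (t + 1) * m)
        (by rw [hj]; exact (pow_dvd_pow p (by omega)).mul_right m)
      intro e
      rw [e, orderOf_one, eq_comm, orderOf_eq_one_iff] at h6
      exact hx1 h6
  obtain ⟨c, hc⟩ := h3
  rw [hc, mul_comm m] at h2
  obtain ⟨j, hj, rfl⟩ := (Nat.dvd_prime_pow hp).1 (Nat.dvd_of_mul_dvd_mul_right (Nat.pos_of_ne_zero hm0) h2)
  rcases hj.lt_or_eq with hj | rfl
  · exact absurd (orderOf_dvd_iff_pow_eq_one.1 (by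
      rw [hc, mul_comm m]; exact Nat.mul_dvd_mul_right (pow_dvd_pow p (by omega)) m)) h4
  · rw [hc, mul_comm]

end Cfsg.Agent.S4003
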