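import Mathlib
import Cfsg.Statements.S4198

set_option autoImplicit false
open Cfsg

namespace Cfsg.Agent.S4198
open Equiv Equiv.Perm Classical

abbrev T (n : ℕ) := {m : Multiset ℕ // m.sum ≤ n ∧ ∀ a ∈ m, 2 ≤ a}

noncomputable def ct (n : ℕ) : ConjClasses (Perm (Fin n)) ≃ T n :=
  Equiv.ofBijective (fun C => Quotient.liftOn C (fun g => ⟨g.cycleType, by
    rw [sum_cycleType]; simpa using g.support.card_le_univ, fun a => two_le_of_mem_cycleType⟩)
    fun a b h => Subtype.ext (isConj_iff_cycleType_eq.1 h)) ⟨fun C D => Quotient.inductionOn₂ C D fun a b h =>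
      Quotient.sound (isConj_iff_cycleType_eq.2 (by exact congrArg Subtype.val h)), fun m => by
    obtain ⟨g, hg⟩ := (exists_with_cycleType_iff (α := Fin n) (m := m.1)).2 (by simpa using m.2)
    exact ⟨ConjClasses.mk g, Subtype.ext hg⟩⟩

instance (n : ℕ) : Finite (T n) := Finite.of_equiv _ (ct n)

theorem rec2 (n : ℕ) : Nat.card (T (n + 2)) ≤ Nat.card (T (n + 1)) + Nat.card (T n) := by
  rw [← Nat.card_sum]
  refine Nat.card_le_card_of_surjective (Sum.elim (fun m => ⟨m.1, m.2.1.trans (by omega), m.2.2⟩)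
    fun m => ⟨(n + 2 - m.1.sum) ::ₘ m.1, by have := m.2.1; simp; omega, fun a ha => ?_⟩) ?_
  · rcases Multiset.mem_cons.1 ha with rfl | h
    · have := m.2.1; omega
    · exact m.2.2 a h
  · rintro ⟨m, h1, h2⟩
    by_cases h : m.sum ≤ n + 1
    · exact ⟨Sum.inl ⟨m, h, h2⟩, rfl⟩
    · obtain ⟨a, ha⟩ := Multiset.exists_mem_of_ne_zero (s := m) (by rintro rfl; simp at h)
      obtain ⟨m', rfl⟩ := Multiset.exists_cons_of_mem ha
      have := h2 a ha
      simp only [Multiset.sum_cons] at h h1
      refine ⟨Sum.inr ⟨m', by omega, fun b hb => h2 b (Multiset.mem_cons_of_mem hb)⟩, Subtype.ext ?_⟩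
      show (n + 2 - m'.sum) ::ₘ m' = a ::ₘ m'
      congr 1; omega

theorem mono (n : ℕ) : Nat.card (T n) ≤ Nat.card (T (n + 1)) :=
  Nat.card_le_card_of_injective (fun m => ⟨m.1, m.2.1.trans (by omega), m.2.2⟩) fun _ _ e =>
    Subtype.ext (congrArg (fun t => t.1) e)

theorem t1 : Nat.card (T 1) ≤ 1 := by
  haveI : Subsingleton (ConjClasses (Perm (Fin 1))) := ConjClasses.mk_surjective.subsingleton
  exact Finite.card_le_one_iff_subsingleton.2 (ct 1).symm.subsingleton

theorem bound (n : ℕ) : Nat.card (T (n + 5)) ≤ 2 ^ (n + 3) := by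
  induction n with
  | zero => have := rec2 0; have := rec2 1; have := rec2 2; have := rec2 3; have := mono 0; have := t1; simp at *; omega
  | succ n ih =>
    have h1 : Nat.card (T (n + 1 + 5)) ≤ Nat.card (T (n + 5)) + Nat.card (T (n + 4)) := rec2 (n + 4)
    have h2 : Nat.card (T (n + 4)) ≤ Nat.card (T (n + 5)) := mono (n + 4)
    rw [show n + 1 + 3 = (n + 3) + 1 from rfl, pow_succ]; omega

variable {n : ℕ}

theorem conj_of {g h : alternatingGroup (Fin n)} {x : Perm (Fin n)} (hx : x ∈ alternatingGroup (Fin n))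
    (e : x * g * x⁻¹ = h) : IsConj g h := isConj_iff.2 ⟨⟨x, hx⟩, Subtype.ext e⟩

theorem odd_mul {x y : Perm (Fin n)} (hx : x ∉ alternatingGroup (Fin n)) (hy : y ∉ alternatingGroup (Fin n)) :
    x * y ∈ alternatingGroup (Fin n) := by
  rw [mem_alternatingGroup] at hx hy ⊢
  rw [map_mul, (Int.units_eq_one_or _).resolve_left hx, (Int.units_eq_one_or _).resolve_left hy]; simp

theorem split {g h : alternatingGroup (Fin n)} (h1 : (g : Perm (Fin n)).cycleType = (h : Perm (Fin n)).cycleType)
    (h2 : ¬ IsConj g h) : n ≤ (g : Perm (Fin n)).cycleType.sum + 1 ∧ ∀ a ∈ (g : Perm (Fin n)).cycleType, Odd a := by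
  have h3 := isConj_iff_cycleType_eq.2 h1
  refine ⟨by_contra fun hc => h2 (alternatingGroup.isConj_of h3 (by rw [← sum_cycleType, Fintype.card_fin]; omega)),
    fun a ha => by_contra fun hc => h2 ?_⟩
  obtain ⟨x, hx⟩ := isConj_iff.1 h3
  by_cases hx' : x ∈ alternatingGroup (Fin n)
  · exact conj_of hx' hx
  rw [cycleType_def, Multiset.mem_map] at ha
  obtain ⟨c, hc1, rfl⟩ := ha
  change ¬ Odd c.support.card at hc
  have hc2 : c ∉ alternatingGroup (Fin n) := by
    rw [mem_alternatingGroup, (mem_cycleFactorsFinset_iff.1 hc1).1.sign, (Nat.not_odd_iff_even.1 hc).neg_one_pow]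
    decide
  refine conj_of (odd_mul hx' hc2) ?_
  rw [← hx, mul_assoc x, (self_mem_cycle_factors_commute (g := (g : Perm (Fin n))) (c := c) (Finset.mem_def.2 hc1)).eq]; group

theorem two {g h k : alternatingGroup (Fin n)} (h1 : (g : Perm (Fin n)).cycleType = (h : Perm (Fin n)).cycleType)
    (h2 : (g : Perm (Fin n)).cycleType = (k : Perm (Fin n)).cycleType) (h3 : ¬ IsConj g h) (h4 : ¬ IsConj g k) :
    IsConj h k := by
  obtain ⟨x, hx⟩ := isConj_iff.1 (isConj_iff_cycleType_eq.2 h1)
  obtain ⟨y, hy⟩ := isConj_iff.1 (isConj_iff_cycleType_eq.2 h2)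
  refine conj_of (odd_mul (x := y) (y := x⁻¹) (fun h => h4 (conj_of h hy)) fun h => h3 (conj_of (inv_mem_iff.1 h) hx)) ?_
  rw [← hx, ← hy]; group

theorem par (g : alternatingGroup (Fin n)) :
    Even ((g : Perm (Fin n)).cycleType.sum + Multiset.card (g : Perm (Fin n)).cycleType) := by
  have := mem_alternatingGroup.1 g.2
  rwa [sign_of_cycleType, neg_one_pow_eq_one_iff_even (by decide)] at this


/-- For n ≥ 5 the alternating group of degree n has strictly fewer conjugacy classes than the symmetric group of degree n, and the symmetric group of degree n (whose classes correspond to the partitions of n) has at most 2^(n−2) conjugacy classes. -/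
theorem result (n : ℕ) (hn : 5 ≤ n) : Nat.card (ConjClasses (alternatingGroup (Fin n))) < Nat.card (ConjClasses (Equiv.Perm (Fin n))) ∧ Nat.card (ConjClasses (Equiv.Perm (Fin n))) ≤ 2 ^ (n - 2) := by
  rw [Nat.card_congr (ct n)]
  refine ⟨?_, by obtain ⟨k, rfl⟩ := Nat.exists_eq_add_of_le' hn; exact bound k⟩
  let c : ConjClasses (alternatingGroup (Fin n)) → Multiset ℕ := fun C => (C.out : Perm (Fin n)).cycleType
  have hc : ∀ C, (c C).sum ≤ n ∧ ∀ a ∈ c C, 2 ≤ a := fun C => (ct n (ConjClasses.mk (C.out : Perm (Fin n)))).2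
  have hne : ∀ {C D : ConjClasses (alternatingGroup (Fin n))}, C ≠ D → ¬ IsConj C.out D.out := fun h h' =>
    h (Quotient.out_equiv_out.1 h')
  have hi : ∀ C, c (Function.invFun c (c C)) = c C := fun C => Function.invFun_eq ⟨C, rfl⟩
  have key : ∀ C, Function.invFun c (c C) ≠ C → ∃ m : T n, n ≤ m.1.sum + 2 ∧ Odd (m.1.sum + Multiset.card m.1) ∧
      m.1.map (fun x => if Even x then x + 1 else x) = c C := by
    intro C h
    obtain ⟨h1, h2⟩ := split (hi C).symm (hne h.symm)
    obtain ⟨a, ha⟩ := Multiset.exists_mem_of_ne_zero (s := c C) (fun e => by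
      have : c C = (C.out : Perm (Fin n)).cycleType := rfl
      rw [← this, e] at h1; simp at h1; omega)
    obtain ⟨m, hm⟩ := Multiset.exists_cons_of_mem ha
    have h3 := hc C
    have h4 := par C.out
    change n ≤ (c C).sum + 1 at h1
    change ∀ a ∈ c C, Odd a at h2
    change Even ((c C).sum + Multiset.card (c C)) at h4
    rw [hm] at h1 h2 h3 h4 ⊢
    obtain ⟨b, rfl⟩ := h2 a (Multiset.mem_cons_self _ _)
    have h5 := h3.2 _ (Multiset.mem_cons_self _ _)
    simp only [Multiset.sum_cons, Multiset.card_cons] at h1 h3 h4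
    refine ⟨⟨(2 * b) ::ₘ m, by simp; omega, fun x hx => ?_⟩, by simp; omega, ?_, ?_⟩
    · rcases Multiset.mem_cons.1 hx with rfl | h
      · omega
      · exact h3.2 x (Multiset.mem_cons_of_mem h)
    · simp only [Multiset.sum_cons, Multiset.card_cons]
      rw [Nat.even_iff] at h4; rw [Nat.odd_iff]; omega
    · simp only [Multiset.map_cons, even_two_mul, if_true]
      congr 1
      conv_rhs => rw [← Multiset.map_id m]
      exact Multiset.map_congr rfl fun x hx => if_neg (Nat.not_even_iff_odd.2 (h2 x (Multiset.mem_cons_of_mem hx)))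
  let F : ConjClasses (alternatingGroup (Fin n)) → T n := fun C =>
    if h : Function.invFun c (c C) = C then ⟨c C, hc C⟩ else (key C h).choose
  haveI := Fintype.ofFinite (T n)
  haveI := Fintype.ofFinite (ConjClasses (alternatingGroup (Fin n)))
  rw [Nat.card_eq_fintype_card, Nat.card_eq_fintype_card]
  refine Fintype.card_lt_of_injective_of_notMem F (fun C D e => ?_) (b := ⟨{2}, by simp; omega, by simp⟩) ?_
  · by_cases h1 : Function.invFun c (c C) = C <;> by_cases h2 : Function.invFun c (c D) = D <;>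
      simp only [F, h1, h2, dif_pos, dif_neg, not_false_eq_true] at e
    · rw [← h1, ← h2, show c C = c D from congrArg Subtype.val e]
    · have := (key D h2).choose_spec.2.1
      rw [← e] at this
      exact absurd (par C.out) (Nat.not_even_iff_odd.2 this)
    · have := (key C h1).choose_spec.2.1
      rw [e] at this
      exact absurd (par D.out) (Nat.not_even_iff_odd.2 this)
    · have h3 : c C = c D := by rw [← (key C h1).choose_spec.2.2, ← (key D h2).choose_spec.2.2, e]
      exact Quotient.out_equiv_out.1 (two (hi C) ((hi C).trans h3) (hne h1) (hne (h3 ▸ h2)))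
  · rintro ⟨C, e⟩
    by_cases h1 : Function.invFun c (c C) = C <;> simp only [F, h1, dif_pos, dif_neg, not_false_eq_true] at e
    · have := par C.out
      rw [show (C.out : Perm (Fin n)).cycleType = {2} from congrArg Subtype.val e] at this
      simp at this
      exact absurd this (by decide)
    · have := (key C h1).choose_spec.1
      rw [e] at this
      simp at this; omega

end Cfsg.Agent.S4198
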