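import Cfsg.Statements.S4200
import Mathlib
import Cfsg.Agent.H27.Classes
-- import your own Cfsg.Agent.* helpers here

set_option autoImplicit false
open Cfsg

namespace Cfsg.Agent.S4200

open scoped Pointwise commutatorElement

theorem card_le_mul {X : Type*} [Group X] [Finite X] (Y C : Subgroup X) :
    Nat.card C = Y.relIndex C * Nat.card (C ⊓ Y : Subgroup X) := by
  rw [Subgroup.relIndex, inf_comm, ← H02.card_subgroupOf, Subgroup.index_mul_card]

theorem swap_sum {X : Type*} [Group X] [Fintype X] (Y : Subgroup X) [Fintype Y] :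
    ∑ x : X, Nat.card (H27.cent x ⊓ Y : Subgroup X) = ∑ y : Y, Nat.card (H27.cent (y : X)) := by
  rw [← Nat.card_sigma, ← Nat.card_sigma]
  exact Nat.card_congr ⟨fun a => ⟨⟨a.2, a.2.2.2⟩, a.1, H27.mem_cent_comm.1 a.2.2.1⟩,
    fun a => ⟨a.2, a.1, H27.mem_cent_comm.1 a.2.2, a.1.2⟩, fun _ => rfl, fun _ => rfl⟩

/-- Let Y be a subgroup of the finite group X, of index m. Then the numbers of conjugacy classes satisfy k(Y) ≤ m·k(X) and k(X) ≤ m·k(Y), and the second inequality is strict unless Y is normal in X. -/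
theorem result {X : Type*} [Group X] [Finite X] (Y : Subgroup X) : Nat.card (ConjClasses Y) ≤ Y.index * Nat.card (ConjClasses X) ∧ Nat.card (ConjClasses X) ≤ Y.index * Nat.card (ConjClasses Y) ∧ (¬ Y.Normal → Nat.card (ConjClasses X) < Y.index * Nat.card (ConjClasses Y)) := by
  classical
  letI := Fintype.ofFinite X
  have hX := H27.sum_card_cent_univ (G := X)
  have hY := H27.sum_card_cent_univ (G := Y)
  have hc := Y.index_mul_card
  have hp : 0 < Nat.card Y := Nat.card_pos
  have hpX : 0 < Nat.card X := Nat.card_pos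
  have e1 : ∀ y : Y, Nat.card (H27.cent y) = Nat.card (H27.cent (y : X) ⊓ Y : Subgroup X) := by
    intro y
    rw [H27.cent_coe, H02.card_subgroupOf]
  have a1 : Nat.card (ConjClasses X) * Nat.card X ≤ Y.index * ∑ y : Y, Nat.card (H27.cent (y : X)) := by
    rw [← hX, ← swap_sum, Finset.mul_sum]
    apply Finset.sum_le_sum
    intro x _
    rw [card_le_mul Y (H27.cent x)]
    exact Nat.mul_le_mul_right _ (H27.relIndex_le_index _ _)
  have a2 : ∀ y : Y, Nat.card (H27.cent (y : X)) ≤ Y.index * Nat.card (H27.cent y) := by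
    intro y
    rw [card_le_mul Y (H27.cent (y : X)), e1]
    exact Nat.mul_le_mul_right _ (H27.relIndex_le_index _ _)
  have a3 : Y.index * (Y.index * ∑ y : Y, Nat.card (H27.cent y)) =
      Y.index * Nat.card (ConjClasses Y) * Nat.card X := by
    rw [hY, ← hc]; ring
  refine ⟨?_, ?_, fun hn => ?_⟩
  · apply Nat.le_of_mul_le_mul_right _ hp
    rw [← hY, mul_comm Y.index, mul_assoc, hc, ← hX]
    calc ∑ y : Y, Nat.card (H27.cent y) ≤ ∑ y : Y, Nat.card (H27.cent (y : X)) :=
          Finset.sum_le_sum fun y _ => by rw [e1]; exact Subgroup.card_le_of_le inf_le_left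
      _ = ∑ x : X, Nat.card (H27.cent x ⊓ Y : Subgroup X) := (swap_sum Y).symm
      _ ≤ _ := Finset.sum_le_sum fun y _ => Subgroup.card_le_of_le inf_le_left
  · apply Nat.le_of_mul_le_mul_right _ hpX
    refine a1.trans ?_
    rw [← a3]
    apply Nat.mul_le_mul_left
    rw [Finset.mul_sum]
    exact Finset.sum_le_sum fun y _ => a2 y
  · apply Nat.lt_of_mul_lt_mul_right (a := Nat.card X)
    refine a1.trans_lt ?_
    rw [← a3]
    apply Nat.mul_lt_mul_of_pos_left _ (Nat.pos_of_ne_zero Subgroup.index_ne_zero_of_finite) |> id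
    rw [Finset.mul_sum]
    apply Finset.sum_lt_sum (fun y _ => a2 y)
    by_contra hcon
    push Not at hcon
    apply hn
    refine ⟨fun y hy g => ?_⟩
    have h1 := le_antisymm (a2 ⟨y, hy⟩) (hcon _ (Finset.mem_univ _))
    rw [card_le_mul Y (H27.cent _), e1] at h1
    have h2 := Nat.eq_of_mul_eq_mul_right Nat.card_pos h1
    obtain ⟨a, ha, b, hb, e⟩ := H27.exists_mul_of_relIndex_eq h2 g⁻¹
    have h3 : a⁻¹ * y * a = y := by
      have := H27.mem_cent_iff_conj.1 (Subgroup.inv_mem _ ha)
      simpa using this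
    have : g * y * g⁻¹ = b⁻¹ * (a⁻¹ * y * a) * b := by
      rw [← inv_inv g, e]; group
    rw [this, h3]
    exact Y.mul_mem (Y.mul_mem (Y.inv_mem hb) hy) hb

end Cfsg.Agent.S4200
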