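import Cfsg.Statements.S4203
import Mathlib
import Cfsg.Agent.H27.SylowNum
import Cfsg.Agent.H02.Schmidt
import Cfsg.Agent.S0144
-- import your own Cfsg.Agent.* helpers here

set_option autoImplicit false
open Cfsg

namespace Cfsg.Agent.S4203

open scoped Pointwise commutatorElement

universe v in
theorem aux (n : ℕ) : ∀ (G : Type v) [Group G] [Finite G], Nat.card G = n →
    (∀ M : Subgroup G, IsCoatom M → ∃ p : ℕ, p.Prime ∧ (M.index = p ∨ M.index = p ^ 2)) →
    Group.IsSolvable G := by
  induction n using Nat.strong_induction_on with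
  | _ n ih =>
  intro G _ _ hn h
  have h0 : Nat.card G ≠ 0 := Nat.card_pos.ne'
  by_cases h1 : ∀ p : ℕ, p.Prime → p ∣ Nat.card G → p ≤ 3
  · refine Cfsg.Agent.S0144.result 2 3 ((Nat.card G).factorization 2) ((Nat.card G).factorization 3)
      Nat.prime_two Nat.prime_three ?_
    apply Nat.eq_of_factorization_eq h0 (by positivity)
    intro p
    rw [Nat.factorization_mul (by positivity) (by positivity), Nat.prime_two.factorization_pow,
      Nat.prime_three.factorization_pow]
    by_cases h2 : p = 2
    · simp [h2]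
    by_cases h3 : p = 3
    · simp [h3]
    simp only [Finsupp.coe_add, Pi.add_apply, Finsupp.single_apply, if_neg (Ne.symm h2),
      if_neg (Ne.symm h3), add_zero]
    by_contra h4
    have h5 := Nat.mem_primeFactors.1 (Finsupp.mem_support_iff.2 h4)
    have h6 := h1 p h5.1 h5.2.1
    have h7 := h5.1.two_le
    omega
  push Not at h1
  obtain ⟨r, hr, hrd, hr3⟩ := h1
  obtain ⟨p, hp, hmax⟩ := (Nat.card G).primeFactors.exists_max_image id
    ⟨r, Nat.mem_primeFactors.2 ⟨hr, hrd, h0⟩⟩
  obtain ⟨hp, hpd, -⟩ := Nat.mem_primeFactors.1 hp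
  have hp3 : 3 < p := hr3.trans_le (hmax r (Nat.mem_primeFactors.2 ⟨hr, hrd, h0⟩))
  haveI := Fact.mk hp
  obtain ⟨P⟩ : Nonempty (Sylow p G) := inferInstance
  by_cases h2 : Subgroup.normalizer (P : Set G) = ⊤
  · haveI : (P : Subgroup G).Normal := Subgroup.normalizer_eq_top_iff.1 h2
    haveI := P.isPGroup'.isNilpotent
    haveI := ih _ (hn ▸ H01.card_quotient_lt (P : Subgroup G) (P.ne_bot_of_dvd_card hpd)) (G ⧸ (P : Subgroup G)) rfl
      fun M hM => by
        rw [← M.index_comap_of_surjective (QuotientGroup.mk'_surjective _)]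
        exact h _ (H02.isCoatom_comap_mk' hM)
    exact H02.isSolvable_of_normal_of_quotient (P : Subgroup G)
  exfalso
  obtain ⟨M, hM, hle⟩ := (eq_top_or_exists_le_coatom _).resolve_left h2
  have h3 := card_sylow_modEq_one p G
  have h4 := card_sylow_modEq_one p M
  rw [H27.card_sylow_of_le P (Subgroup.le_normalizer.trans hle)] at h4
  rw [P.card_eq_index_normalizer, ← Subgroup.relIndex_mul_index hle] at h3
  have h5 : M.index ≡ 1 [MOD p] := by
    have := (h4.mul_right M.index).symm.trans h3
    rwa [one_mul] at this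
  obtain ⟨q, hq, h6⟩ := h M hM
  have h7 : q ≤ p := hmax q (Nat.mem_primeFactors.2 ⟨hq, (by
    rcases h6 with e | e
    · exact e ▸ M.index_dvd_card
    · exact (dvd_pow_self q two_ne_zero).trans (e ▸ M.index_dvd_card)), h0⟩)
  have h8 := hq.two_le
  have h9 : ¬ p ∣ q - 1 := fun hd => by have := Nat.le_of_dvd (by omega) hd; omega
  rcases h6 with e | e
  · exact h9 ((Nat.modEq_iff_dvd' (by omega)).1 (e ▸ h5).symm)
  have h10 := (Nat.modEq_iff_dvd' (Nat.one_le_pow _ _ hq.pos)).1 (e ▸ h5).symm
  rw [show q ^ 2 - 1 = (q + 1) * (q - 1) from by rw [← Nat.sq_sub_sq, one_pow]] at h10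
  have h11 := ((Nat.Prime.dvd_mul hp).1 h10).resolve_right h9
  have h12 := Nat.le_of_dvd (by omega) h11
  rcases h7.eq_or_lt with e | e
  · subst e
    have := Nat.le_of_dvd one_pos ((Nat.dvd_add_right dvd_rfl).1 h11)
    omega
  · have h13 : p = q + 1 := by omega
    rcases hq.eq_two_or_odd with e | e
    · omega
    · rcases hp.eq_two_or_odd with e' | e' <;> omega

/-- A finite group in which every maximal subgroup has index a prime or the square of a prime is solvable. -/
theorem result {G : Type*} [Group G] [Finite G] (h : ∀ M : Subgroup G, IsCoatom M → ∃ p : ℕ, p.Prime ∧ (M.index = p ∨ M.index = p ^ 2)) : Group.IsSolvable G := by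
  exact aux _ G rfl h

end Cfsg.Agent.S4203
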