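import Mathlib
import Cfsg.Statements.S4212
import Cfsg.Agent.H16.FrobDiv
import Cfsg.Agent.H08.Basic

set_option autoImplicit false
open Cfsg

namespace Cfsg.Agent.S4212
open BG

/-- Let `G` be a finite group of order `g`, `c` an element whose conjugacy class has `h` elements, and `n` a natural number. Then the number of elements `x` of `G` with `x^n` conjugate to `c` is a multiple of `gcd(hn, g)`. -/
theorem result {G : Type*} [Group G] [Finite G] (c : G) (n : ℕ) : Nat.gcd (Nat.card {y : G // IsConj c y} * n) (Nat.card G) ∣ Nat.card {x : G // IsConj c (x ^ n)} := by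
  have key : ∀ y : G, Nat.gcd n (Nat.card C_[y]) ∣ Nat.card {x : G // x ^ n = y} := by
    intro y
    refine H16.dvd_of_primePow_dvd fun p k hp hk => ?_
    obtain ⟨H, hHC, hH⟩ := exists_le_card_pow (H := C_[y]) hp (hk.trans (Nat.gcd_dvd_right _ _))
    rw [← hH]
    refine H16.card_dvd_of_closed H _ (fun x hx h hh => by
      rw [conj_pow, hx, mem_cent1.1 (hHC hh), mul_inv_cancel_right]) fun x hx f hf => ?_
    obtain ⟨w, hw, e⟩ := H16.brauer_pow H16.mem_norm_ncore hf
    obtain ⟨m, hm⟩ := (card_dvd (H16.ncore_le (H := H) (x := x))).trans (hH ▸ hk.trans (Nat.gcd_dvd_left _ _))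
    have h1 := conj_pow (a := w⁻¹) (b := x ^ Nat.card (H16.ncore H x)) (i := m)
    rw [inv_inv] at h1
    rw [hm, pow_mul, e, h1, ← pow_mul, ← hm, hx, mul_assoc, ← mem_cent1.1 (hHC (H16.ncore_le hw)),
      inv_mul_cancel_left]
  have e : {x : G // IsConj c (x ^ n)} ≃ {y : G // IsConj c y} × {x : G // x ^ n = c} := by
    refine (Equiv.sigmaFiberEquiv (fun x : {x : G // IsConj c (x ^ n)} =>
      (⟨x.1 ^ n, x.2⟩ : {y : G // IsConj c y}))).symm.trans ((Equiv.sigmaCongrRight fun y => ?_).trans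
        (Equiv.sigmaEquivProd _ _))
    have hc := (isConj_iff.1 y.2).choose_spec
    set g := (isConj_iff.1 y.2).choose
    refine ⟨fun x => ⟨g⁻¹ * x.1.1 * g, ?_⟩, fun x => ⟨⟨g * x.1 * g⁻¹, ?_⟩, Subtype.ext ?_⟩, fun x => ?_, fun x => ?_⟩
    · have h1 := conj_pow (a := g⁻¹) (b := x.1.1) (i := n)
      rw [inv_inv] at h1
      have h2 : x.1.1 ^ n = y.1 := congrArg Subtype.val x.2
      rw [h1, h2, ← hc]; group
    · rw [conj_pow, x.2, hc]; exact y.2
    · show (g * x.1 * g⁻¹) ^ n = y.1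
      rw [conj_pow, x.2, hc]
    · ext; simp [mul_assoc]
    · ext; simp [mul_assoc]
  rw [Nat.card_congr e, Nat.card_prod, ← H08.card_isConj_mul_card_centralizer c, Nat.gcd_mul_left]
  exact Nat.mul_dvd_mul_left _ (key c)

end Cfsg.Agent.S4212
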