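import Mathlib
import Cfsg.Statements.S4213
import Cfsg.Agent.H16.FrobDiv
import Cfsg.Agent.H02.MinNormal

set_option autoImplicit false
open Cfsg

namespace Cfsg.Agent.S4213
open BG
universe u

theorem aux (m : ℕ) : ∀ (G : Type u) [Group G] [Finite G] [Group.IsSolvable G] (n : ℕ), Nat.card G = m →
    n ∣ Nat.card G → Nat.card {x : G // x ^ n = 1} = n → ∃ H : Subgroup G, Nat.card H = n := by
  induction m using Nat.strong_induction_on with
  | _ m ih =>
  intro G _ _ _ n hm hn hc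
  rcases subsingleton_or_nontrivial G with hG | hG
  · exact ⟨⊥, by rw [Nat.card_eq_one_iff_unique.2 ⟨hG, inferInstance⟩, Nat.dvd_one] at hn; simp [hn]⟩
  obtain ⟨N, hN, hN1, -, -, p, hp, hNp⟩ := H02.exists_minimal_normal_elementary (G := G)
  have hn0 : 0 < n := Nat.pos_of_dvd_of_pos hn Nat.card_pos
  obtain ⟨i, hi⟩ := pg_card hp (pg_of_pow hNp)
  have hi0 : i ≠ 0 := fun e => hN1 (card_eq_one.1 (by rw [hi, e, pow_zero]))
  have hlt : Nat.card (G ⧸ N) < m := hm ▸ H02.card_quotient_lt hN1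
  have hq : Nat.card G = Nat.card (G ⧸ N) * Nat.card N := N.card_eq_card_quotient_mul_card_subgroup
  by_cases hpn : p ∣ n
  · have key : ∀ u, 0 < u → u ∣ Nat.card (G ⧸ N) → u * p ∣ n →
        Nat.card {z : G ⧸ N // z ^ u = 1} * Nat.card N ≤ n := by
      intro u _ _ hu
      rw [← Nat.card_prod, ← hc]
      refine Nat.card_le_card_of_injective (fun t => ⟨t.1.1.out * t.2, ?_⟩) ?_
      · obtain ⟨k, hk⟩ := hu
        have : (t.1.1.out * t.2 : G) ^ u ∈ N := by
          rw [← QuotientGroup.eq_one_iff, QuotientGroup.mk_pow, QuotientGroup.mk_mul_of_mem _ t.2.2,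
            QuotientGroup.out_eq', t.1.2]
        rw [hk, pow_mul, pow_mul, hNp _ this, one_pow]
      · rintro ⟨z, a⟩ ⟨w, b⟩ e
        have e1 : (z.1.out * a : G) = w.1.out * b := congrArg Subtype.val e
        have e2 : z = w := by
          have := congrArg (QuotientGroup.mk : G → G ⧸ N) e1
          rw [QuotientGroup.mk_mul_of_mem _ a.2, QuotientGroup.mk_mul_of_mem _ b.2, QuotientGroup.out_eq',
            QuotientGroup.out_eq'] at this
          exact Subtype.ext this
        subst e2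
        rw [Subtype.ext (mul_left_cancel e1)]
    have hle : ∀ u, u ∣ Nat.card (G ⧸ N) → u ≤ Nat.card {z : G ⧸ N // z ^ u = 1} := fun u hu =>
      Nat.le_of_dvd (Nat.card_pos_iff.2 ⟨⟨⟨1, one_pow _⟩⟩, inferInstance⟩) (H16.frobenius_dvd hu)
    obtain ⟨j, n₁, hn₁, rfl⟩ := Nat.exists_eq_pow_mul_and_not_dvd hn0.ne' p hp.ne_one
    have hc1 : n₁.Coprime (p ^ i) := ((Nat.Prime.coprime_iff_not_dvd hp).2 hn₁).symm.pow_right _
    have hn₁0 : 0 < n₁ := Nat.pos_of_mul_pos_left hn0
    rcases le_or_gt i j with hij | hij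
    · obtain ⟨l, rfl⟩ := Nat.exists_eq_add_of_le hij
      have e : p ^ (i + l) * n₁ = p ^ l * n₁ * p ^ i := by ring
      have h1 : p ^ l * n₁ ∣ Nat.card (G ⧸ N) := by
        rw [hq, hi, e] at hn
        exact Nat.dvd_of_mul_dvd_mul_right (pow_pos hp.pos _) hn
      have h2 := key _ (by positivity [hp.pos]) h1 (by rw [e]; exact Nat.mul_dvd_mul_left _ (dvd_pow_self p hi0))
      rw [hi, e] at h2
      obtain ⟨K, hK⟩ := ih _ hlt (G ⧸ N) _ rfl h1
        (le_antisymm (Nat.le_of_mul_le_mul_right h2 (pow_pos hp.pos _)) (hle _ h1))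
      exact ⟨K.comap (QuotientGroup.mk' N), by rw [H02.card_comap_mk', hK, hi, e]⟩
    · have h1 : n₁ ∣ Nat.card (G ⧸ N) := by
        rw [hq, hi] at hn
        exact hc1.dvd_of_dvd_mul_right ((Dvd.intro_left _ rfl).trans hn)
      have hj : j ≠ 0 := by rintro rfl; exact hn₁ (by simpa using hpn)
      have h2 := key _ hn₁0 h1 (by rw [mul_comm]; exact Nat.mul_dvd_mul_right (dvd_pow_self p hj) _)
      have h3 := (Nat.mul_le_mul_right _ (hle _ h1)).trans h2
      rw [hi, mul_comm] at h3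
      exact absurd (Nat.le_of_mul_le_mul_right h3 hn₁0) (not_le.2 (Nat.pow_lt_pow_right hp.one_lt hij))
  · have hc1 : n.Coprime (p ^ i) := ((Nat.Prime.coprime_iff_not_dvd hp).2 hpn).symm.pow_right _
    have h1 : n ∣ Nat.card (G ⧸ N) := by
      rw [hq, hi] at hn
      exact hc1.dvd_of_dvd_mul_right hn
    have h2 : Nat.card {z : G ⧸ N // z ^ n = 1} ≤ n := by
      conv_rhs => rw [← hc]
      refine Nat.card_le_card_of_surjective (fun x : {x : G // x ^ n = 1} =>
        (⟨(x.1 : G ⧸ N), by rw [← QuotientGroup.mk_pow, x.2]; rfl⟩ : {z : G ⧸ N // z ^ n = 1})) ?_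
      rintro ⟨z, hz⟩
      obtain ⟨y, rfl⟩ := QuotientGroup.mk_surjective z
      obtain ⟨t, ht⟩ : ∃ t, p * t ≡ 1 [MOD n] := by
        obtain ⟨t, -, ht⟩ := Nat.exists_mul_mod_eq_of_coprime 1 ((Nat.Prime.coprime_iff_not_dvd hp).2 hpn) hn0.ne'
        exact ⟨t, ht⟩
      refine ⟨⟨y ^ (p * t), ?_⟩, Subtype.ext ?_⟩
      · have : y ^ n ∈ N := by rwa [← QuotientGroup.eq_one_iff, QuotientGroup.mk_pow]
        rw [← pow_mul, mul_comm, pow_mul, pow_mul, hNp _ this, one_pow]
      · show ((y ^ (p * t) : G) : G ⧸ N) = y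
        rw [QuotientGroup.mk_pow, pow_eq_pow_iff_modEq.2 (ht.of_dvd (orderOf_dvd_of_pow_eq_one hz)), pow_one]
    obtain ⟨K, hK⟩ := ih _ hlt (G ⧸ N) _ rfl h1 (le_antisymm h2
      (Nat.le_of_dvd (Nat.card_pos_iff.2 ⟨⟨⟨1, one_pow _⟩⟩, inferInstance⟩) (H16.frobenius_dvd h1)))
    have hle : N ≤ K.comap (QuotientGroup.mk' N) := fun x hx => by
      rw [Subgroup.mem_comap, QuotientGroup.mk'_apply, (QuotientGroup.eq_one_iff x).2 hx]; exact K.one_mem
    have h3 : N.relIndex (K.comap (QuotientGroup.mk' N)) = n := by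
      have := card_mul_relIndex hle
      rw [H02.card_comap_mk', hK, mul_comm] at this
      exact Nat.eq_of_mul_eq_mul_right (card_pos N) this
    obtain ⟨H, hH⟩ := exists_compl_of_coprime hle (by rw [Subgroup.normalizer_eq_top]; exact le_top)
      (by rw [h3, hi]; exact hc1.symm)
    exact ⟨H, by rw [← hH.relIndex_left, h3]⟩


/-- If `G` is a finite solvable group and `n` divides the order of `G` and exactly `n` elements `x` of `G` satisfy `x^n = 1`, then these elements form a normal subgroup. -/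
theorem result {G : Type*} [Group G] [Finite G] [Group.IsSolvable G] (n : ℕ) (hn : n ∣ Nat.card G) (hcount : Nat.card {x : G // x ^ n = 1} = n) : ∃ H : Subgroup G, H.Normal ∧ (H : Set G) = {x : G | x ^ n = 1} := by
  obtain ⟨H, hH⟩ := aux _ G n rfl hn hcount
  have e : (H : Set G) = {x : G | x ^ n = 1} := by
    refine Set.eq_of_subset_of_ncard_le (fun x hx => ?_) (le_of_eq ?_) (Set.toFinite _)
    · exact hH ▸ pow_card_eq_one hx
    · exact hcount.trans hH.symm
  refine ⟨H, ⟨fun x hx g => ?_⟩, e⟩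
  have h1 : x ∈ (H : Set G) := hx
  show g * x * g⁻¹ ∈ (H : Set G)
  rw [e] at h1 ⊢
  show _ = _
  rw [conj_pow, show x ^ n = 1 from h1]; group

end Cfsg.Agent.S4213
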