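import Mathlib
import Cfsg.Statements.S4214
import Cfsg.Agent.H16.PiHall
import Cfsg.Agent.H16.Schmidt
import Cfsg.Agent.H16.Primitive
import Cfsg.Agent.BG.Api4
import Cfsg.Agent.H02.MinNormal

set_option autoImplicit false
open Cfsg

namespace Cfsg.Agent.S4214

open scoped Pointwise
open BG

theorem auxA {G : Type*} [Group G] [Finite G] {p : ℕ} (hp : p.Prime) {V : Subgroup G} (hV : IsPGroup p V)
    (n : ℕ) : ∀ H : Subgroup G, Nat.card H = n → Group.IsSolvable H → H ≤ N_(V) → ¬ p ∣ Nat.card H →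
    C_(H).relIndex V ∈ Submonoid.closure {f : ℕ | (∃ e, f = p ^ e) ∧ f ∣ Nat.card V ∧
      ∃ q : ℕ, q.Prime ∧ q ∣ Nat.card H ∧ f ≡ 1 [MOD q]} := by
  induction n using Nat.strong_induction_on with
  | _ n ih =>
  intro H hn hs hHV hpH
  haveI := Fact.mk hp
  by_cases hb : H = ⊥
  · subst hb
    rw [Subgroup.relIndex_eq_one.2 (fun x _ h hh => by rw [Subgroup.mem_bot.1 hh]; simp)]
    exact one_mem _
  haveI : Nontrivial H := (Subgroup.nontrivial_iff_ne_bot H).2 hb
  obtain ⟨M, hMn, hM, hq⟩ := H16.exists_normal_prime_index H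
  have hle : M.map H.subtype ≤ H := Subgroup.map_subtype_le _
  have hcd : Nat.card (M.map H.subtype) ∣ Nat.card H := Subgroup.card_dvd_of_le hle
  have h1 := ih _ (by rw [Subgroup.card_subtype, ← hn]; exact H01.card_lt_of_ne_top hM.1)
    (M.map H.subtype) rfl (H01.isSolvable_of_le hle) (hle.trans hHV) (fun h => hpH (h.trans hcd))
  have hN : H ≤ N_(M.map H.subtype) := H01.le_normalizer_map_subtype M
  haveI := Fact.mk hq
  let Q : Sylow M.index H := default
  have hMQ : M ⊔ (Q : Subgroup H) = ⊤ := hM.2 _ (lt_of_le_of_ne le_sup_left fun h =>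
    Q.not_dvd_index (Subgroup.index_dvd_of_le (le_sup_right.trans h.ge)))
  have hsup : M.map H.subtype ⊔ (Q : Subgroup H).map H.subtype = H := by
    rw [← Subgroup.map_sup, hMQ, ← MonoidHom.range_eq_map, Subgroup.range_subtype]
  set H₁ := M.map H.subtype
  have hW : H ≤ N_(V ⊓ C_(H₁)) := H01.le_normalizer_inf hHV (H01.le_normalizer_centralizer hN)
  have h2 := H16.card_modEq_card_inf_centralizer (Q.isPGroup'.map H.subtype)
    ((Subgroup.map_subtype_le _).trans hW)
  have h3 : V ⊓ C_(H₁) ⊓ C_((Q : Subgroup H).map H.subtype) = V ⊓ C_(H) := by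
    rw [inf_assoc, ← cent_sup, hsup]
  have h4 : V ⊓ C_(H) ≤ V ⊓ C_(H₁) := inf_le_inf_left _ (Subgroup.centralizer_le hle)
  rw [h3, ← H01.card_mul_relIndex h4] at h2
  rw [← Subgroup.inf_relIndex_left, ← Subgroup.relIndex_mul_relIndex _ _ _ h4 inf_le_left,
    Subgroup.inf_relIndex_left V C_(H₁)]
  refine mul_mem (Submonoid.subset_closure ?_) (Submonoid.closure_mono ?_ h1)
  · have h5 : (V ⊓ C_(H)).relIndex (V ⊓ C_(H₁)) ∣ Nat.card V :=
      (Subgroup.relIndex_dvd_card _ _).trans (Subgroup.card_dvd_of_le inf_le_left)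
    obtain ⟨k, hk⟩ := hV.exists_card_eq
    obtain ⟨e, -, he⟩ := (Nat.dvd_prime_pow hp).1 (hk ▸ h5)
    refine ⟨⟨e, he⟩, h5, _, hq, Subgroup.index_dvd_card M, ?_⟩
    refine Nat.ModEq.cancel_left_of_coprime (c := Nat.card (V ⊓ C_(H) : Subgroup G)) ?_ (by rwa [mul_one])
    refine Nat.Coprime.coprime_dvd_right (Subgroup.card_dvd_of_le inf_le_left) ?_
    rw [hk]
    exact ((Nat.coprime_primes hq hp).2 fun e => hpH (e ▸ Subgroup.index_dvd_card M)).pow_right k
  · rintro f ⟨a, b, q, c, d, e⟩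
    exact ⟨a, b, q, c, d.trans hcd, e⟩

theorem auxB (π : Set ℕ) (n : ℕ) : ∀ (G : Type*) [Group G] [Finite G] [Group.IsSolvable G], Nat.card G = n →
    ∀ H : Subgroup G, IsPiHall π H → N_(H).index ∈ Submonoid.closure {f : ℕ |
      (∃ q e : ℕ, q.Prime ∧ f = q ^ e) ∧ (∃ K L : Subgroup G, K.Normal ∧ L.Normal ∧ K < L ∧
        (∀ M : Subgroup G, M.Normal → K ≤ M → M ≤ L → M = K ∨ M = L) ∧ f ∣ K.relIndex L) ∧
      (∃ q : ℕ, q.Prime ∧ q ∣ Nat.card H ∧ f ≡ 1 [MOD q])} := by
  induction n using Nat.strong_induction_on with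
  | _ n ih =>
  intro G _ _ _ hn H hH
  rcases subsingleton_or_nontrivial G with hs | hs
  · rw [Subsingleton.elim N_(H) ⊤, Subgroup.index_top]
    exact one_mem _
  obtain ⟨M, hMn, hMb, hmin⟩ := H02.exists_minimal_normal (G := G)
  obtain ⟨p, hp, hMp⟩ := H02.minimal_normal_isPGroup hMb hmin
  have hs := QuotientGroup.mk'_surjective M
  have h1 := ih _ (hn ▸ H01.card_quotient_lt M hMb) (G ⧸ M) rfl _ (H01.isPiHall_map hH _ hs)
  have hL : N_(H.map (QuotientGroup.mk' M)).comap (QuotientGroup.mk' M) = N_(H ⊔ M) := by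
    rw [Subgroup.comap_normalizer_eq_of_surjective _ hs, Subgroup.comap_map_eq, QuotientGroup.ker_mk']
  have hle : N_(H) ≤ N_(H ⊔ M) := H01.le_normalizer_sup le_rfl (H01.le_normalizer_of_normal _ _)
  have hfr : N_(H) ⊔ M = N_(H ⊔ M) := by
    refine le_antisymm (sup_le hle (le_sup_right.trans Subgroup.le_normalizer)) ?_
    rw [← hall_frattini (inferInstance : Group.IsSolvable (H ⊔ M : Subgroup G))
      (H16.isPiHallOf_of_isPiHall hH le_sup_left) Subgroup.le_normalizer le_rfl]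
    exact sup_le (sup_le_sup_right Subgroup.le_normalizer _) (inf_le_right.trans le_sup_left)
  have h2 : N_(H).relIndex N_(H ⊔ M) = N_(H).relIndex M := by
    have a := H01.card_sup_mul_card_inf N_(H) M
    rw [← H01.card_mul_relIndex (le_sup_left : N_(H) ≤ N_(H) ⊔ M),
      ← H01.card_mul_relIndex (inf_le_right : N_(H) ⊓ M ≤ M), Subgroup.inf_relIndex_right, hfr,
      mul_assoc, mul_comm (Nat.card (N_(H) ⊓ M : Subgroup G))] at a
    exact Nat.eq_of_mul_eq_mul_right Nat.card_pos (Nat.eq_of_mul_eq_mul_left Nat.card_pos a)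
  rw [← Subgroup.relIndex_mul_index hle, h2, ← hL, Subgroup.index_comap_of_surjective _ hs]
  refine mul_mem ?_ (Submonoid.closure_mono ?_ h1)
  · by_cases hpπ : p ∈ π
    · rw [Subgroup.relIndex_eq_one.2 ((H01.le_of_normal_of_isPiHall hH
        (H01.piNum_of_isPGroup hp hMp hpπ)).trans Subgroup.le_normalizer)]
      exact one_mem _
    have hpH : ¬ p ∣ Nat.card H := fun h => hpπ (hH.1 p hp h)
    have h3 : N_(H) ⊓ M = C_(H) ⊓ M := by
      refine le_antisymm (fun y hy => ⟨fun h hh => ?_, hy.2⟩)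
        (inf_le_inf_right _ (Subgroup.centralizer_le_normalizer _))
      haveI := Fact.mk hp
      obtain ⟨k, hk⟩ := hMp.exists_card_eq
      have h2 : y * h * y⁻¹ * h⁻¹ ∈ M ⊓ H := Subgroup.mem_inf.2 ⟨by
        have := M.mul_mem hy.2 (hMn.conj_mem _ (M.inv_mem hy.2) h)
        simpa only [mul_assoc] using this, H.mul_mem ((hy.1 h).1 hh) (H.inv_mem hh)⟩
      rw [(Subgroup.disjoint_of_coprime_natCard (by
        rw [hk]; exact ((Nat.Prime.coprime_iff_not_dvd hp).2 hpH).pow_left k)).eq_bot,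
        Subgroup.mem_bot] at h2
      calc h * y = (y * h * y⁻¹ * h⁻¹)⁻¹ * (y * h) := by group
        _ = y * h := by rw [h2]; group
    rw [← Subgroup.inf_relIndex_right, h3, Subgroup.inf_relIndex_right]
    refine Submonoid.closure_mono ?_ (auxA hp hMp _ H rfl inferInstance (H01.le_normalizer_of_normal _ _) hpH)
    rintro f ⟨⟨e, a⟩, b, c⟩
    exact ⟨⟨p, e, hp, a⟩, ⟨⊥, M, inferInstance, hMn, bot_lt_iff_ne_bot.2 hMb, fun X hX _ h => hmin X hX h,
      by rwa [Subgroup.relIndex_bot_left]⟩, c⟩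
  · rintro f ⟨a, ⟨K, L, hK, hL, hlt, hKL, hd⟩, q, c, d, e⟩
    refine ⟨a, ⟨K.comap (QuotientGroup.mk' M), L.comap (QuotientGroup.mk' M), inferInstance, inferInstance,
      (Subgroup.comap_lt_comap_of_surjective hs).2 hlt, fun X hX h1 h2 => ?_, ?_⟩, q, c,
      d.trans (Subgroup.card_map_dvd _ _), e⟩
    · have hMX : (QuotientGroup.mk' M).ker ≤ X := (Subgroup.ker_le_comap _ K).trans h1
      rcases hKL (X.map (QuotientGroup.mk' M)) (hX.map _ hs)
        (by rw [← Subgroup.map_comap_eq_self_of_surjective hs K]; exact Subgroup.map_mono h1)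
        (Subgroup.map_le_iff_le_comap.2 h2) with h | h
      · left; rw [← h, Subgroup.comap_map_eq_self hMX]
      · right; rw [← h, Subgroup.comap_map_eq_self hMX]
    · rwa [Subgroup.relIndex_comap, Subgroup.map_comap_eq_self_of_surjective hs]

/-- Let `G` be a finite solvable group of order `mn` with `gcd(m, n) = 1`. Then the number of subgroups of order `m` is a product of natural numbers each of which is a power of a prime, divides the order of some chief factor of `G` (a quotient `L/K` of normal subgroups `K < L` of `G` with no normal subgroup of `G` strictly between them), and is congruent to `1` modulo some prime divisor of `m`. -/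
theorem result {G : Type*} [Group G] [Finite G] [Group.IsSolvable G] (m n : ℕ) (hG : Nat.card G = m * n) (hmn : Nat.Coprime m n) : ∃ (k : ℕ) (f : Fin k → ℕ), Nat.card {H : Subgroup G // Nat.card H = m} = ∏ i, f i ∧ ∀ i, (∃ q e : ℕ, q.Prime ∧ f i = q ^ e) ∧ (∃ K L : Subgroup G, K.Normal ∧ L.Normal ∧ K < L ∧ (∀ M : Subgroup G, M.Normal → K ≤ M → M ≤ L → M = K ∨ M = L) ∧ f i ∣ K.relIndex L) ∧ (∃ q : ℕ, q.Prime ∧ q ∣ m ∧ f i ≡ 1 [MOD q]) := by
  obtain ⟨H, hH⟩ := H01.hall_exists m n hG hmn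
  have h1 := auxB _ _ G rfl H ((H01.isPiHall_iff_card_eq hG hmn).2 hH)
  have h2 : Nat.card {H : Subgroup G // Nat.card H = m} = N_(H).index := by
    have e : {K : Subgroup G | Nat.card K = m} = MulAction.orbit (ConjAct G) H := by
      ext K
      constructor
      · intro hK
        obtain ⟨g, hg⟩ := H01.hall_conj m n hG hmn H K hH hK
        exact ⟨ConjAct.toConjAct g, hg⟩
      · rintro ⟨g, rfl⟩
        exact (H01.card_conj_smul (ConjAct.ofConjAct g) H).trans hH
    rw [show Nat.card {H : Subgroup G // Nat.card H = m} = {K : Subgroup G | Nat.card K = m}.ncard from rfl,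
      e, ← MulAction.index_stabilizer]
    congr 1
    ext g
    exact H01.conj_smul_eq_iff_mem_normalizer
  rw [hH] at h1
  obtain ⟨l, hl, he⟩ := Submonoid.exists_list_of_mem_closure h1
  refine ⟨l.length, fun i => l[i], ?_, fun i => hl _ (List.getElem_mem _)⟩
  rw [h2, ← he]
  exact (Fin.prod_univ_getElem l).symm

end Cfsg.Agent.S4214
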