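import Cfsg.Statements.S4217
import Mathlib
import Cfsg.Agent.H01.Gaschutz
import Cfsg.Agent.H03.PResidual
import Cfsg.Agent.H26.Syl
-- import your own Cfsg.Agent.* helpers here

set_option autoImplicit false
open Cfsg

namespace Cfsg.Agent.S4217

open scoped Pointwise commutatorElement IsMulCommutative

theorem step {G : Type*} [Group G] [Finite G] (A : Subgroup G) [A.Normal] [IsMulCommutative A]
    (q : ℕ) [hq : Fact q.Prime] (U K : Subgroup G) (hU : ¬ q ∣ U.index) (h1 : K ⊓ A = ⊥)
    (h2 : K ⊔ A = U) : ∃ H : Subgroup G, ¬ q ∣ Nat.card (H ⊓ A : Subgroup G) ∧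
      H.index ≤ q ^ (Nat.card A).factorization q := by
  set B := (pResidual q A).map A.subtype with hB
  haveI : B.Normal := ConjAct.normal_of_characteristic_of_normal
  have hBA : B ≤ A := Subgroup.map_subtype_le _
  have hs := QuotientGroup.mk'_surjective B
  haveI : (A.map (QuotientGroup.mk' B)).Normal := Subgroup.Normal.map inferInstance _ hs
  obtain ⟨k, hk⟩ := H03.exists_index_pResidual (p := q) (G := A)
  have h3 : Nat.card (A.map (QuotientGroup.mk' B)) = q ^ k := by
    rw [← Subgroup.relIndex_ker, QuotientGroup.ker_mk', Subgroup.relIndex, hB,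
      H26.map_subtype_subgroupOf, hk]
  obtain ⟨H, hH⟩ := H01.gaschutz_exists (A.map (QuotientGroup.mk' B)) (U.map (QuotientGroup.mk' B))
    (Subgroup.map_mono (h2 ▸ le_sup_right)) (by
      rw [h3]
      exact (hq.out.coprime_iff_not_dvd.2 fun hd => hU (hd.trans (U.index_map_dvd hs))).pow_left k)
    (K.map (QuotientGroup.mk' B)) (by
      rw [eq_bot_iff]
      rintro _ ⟨⟨x, hx, rfl⟩, y, hy, e⟩
      have h4 : y⁻¹ * x ∈ B := QuotientGroup.eq.1 e
      have h5 : x ∈ K ⊓ A := ⟨hx, (A.mul_mem_cancel_left (A.inv_mem hy)).1 (hBA h4)⟩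
      rw [h1, Subgroup.mem_bot] at h5
      rw [h5, map_one]; exact one_mem _)
    (by rw [← Subgroup.map_sup, sup_comm, h2])
  refine ⟨H.comap (QuotientGroup.mk' B), fun hd => ?_, ?_⟩
  · have h4 : H.comap (QuotientGroup.mk' B) ⊓ A ≤ B := fun x hx =>
      (QuotientGroup.eq_one_iff x).1 (Subgroup.disjoint_def.1 hH.disjoint ⟨x, hx.2, rfl⟩ hx.1)
    have h5 := H03.hasNPC_iff_not_dvd_card_pResidual.1 (H03.hasNPC_of_isNilpotent (p := q) (G := A))
    exact h5 (by rw [← H26.card_map_subtype]; exact hd.trans (Subgroup.card_dvd_of_le h4))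
  · rw [H.index_comap_of_surjective hs, hH.index_eq_card, h3]
    exact Nat.pow_le_pow_right hq.out.pos ((hq.out.pow_dvd_iff_le_factorization Nat.card_pos.ne').1
      (hk ▸ Subgroup.index_dvd_card _))

/-- Let `A` be an abelian normal subgroup of the finite group `G`. Then `A` has a complement in `G` if and only if, for every prime `p` dividing the index of `A`, there are a Sylow `p`-subgroup `S` of `G/A` and a subgroup `K` of `G` with `K ∩ A = 1` and `KA` equal to the preimage of `S` (that is, `A` has a complement in the preimage of a Sylow `p`-subgroup of `G/A`). -/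
theorem result {G : Type*} [Group G] [Finite G] (A : Subgroup G) [A.Normal] (hA : IsMulCommutative A) : (∃ K : Subgroup G, K.IsComplement' A) ↔ ∀ p : ℕ, p.Prime → p ∣ A.index → ∃ (S : Sylow p (G ⧸ A)) (K : Subgroup G), K ⊓ A = ⊥ ∧ K ⊔ A = (S : Subgroup (G ⧸ A)).comap (QuotientGroup.mk' A) := by
  constructor
  · rintro ⟨K, hK⟩ p hp -
    haveI := Fact.mk hp
    obtain ⟨S⟩ : Nonempty (Sylow p (G ⧸ A)) := inferInstance
    refine ⟨S, (S : Subgroup (G ⧸ A)).comap (QuotientGroup.mk' A) ⊓ K, ?_, ?_⟩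
    · rw [inf_assoc, hK.disjoint.eq_bot, inf_bot_eq]
    · rw [← H26.inf_sup_eq_of_le_normalizer' (H01.le_normalizer_of_normal K A)
        (QuotientGroup.le_comap_mk' A _), hK.sup_eq_top, inf_top_eq]
  intro h
  have h1 : ∀ q : (Nat.card A).primeFactors, ∃ H : Subgroup G,
      ¬ (q : ℕ) ∣ Nat.card (H ⊓ A : Subgroup G) ∧ H.index ≤ q ^ (Nat.card A).factorization q := by
    rintro ⟨q, hq⟩
    haveI := Fact.mk (Nat.prime_of_mem_primeFactors hq)
    by_cases hd : q ∣ A.index
    · obtain ⟨S, K, h1, h2⟩ := h q (Nat.prime_of_mem_primeFactors hq) hd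
      exact step A q _ K (by
        rw [Subgroup.index_comap_of_surjective _ (QuotientGroup.mk'_surjective A)]
        exact S.not_dvd_index) h1 h2
    · exact step A q A ⊥ hd (bot_inf_eq _) (bot_sup_eq _)
  choose H h2 h3 using h1
  have h4 : Disjoint (⨅ q, H q) A := by
    rw [disjoint_iff, ← Subgroup.card_eq_one]
    by_contra h4
    obtain ⟨q, hq, hd⟩ := Nat.exists_prime_and_dvd h4
    exact h2 ⟨q, Nat.mem_primeFactors.2 ⟨hq, hd.trans (Subgroup.card_dvd_of_le inf_le_right),
      Nat.card_pos.ne'⟩⟩ (hd.trans (Subgroup.card_dvd_of_le (inf_le_inf_right _ (iInf_le _ _))))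
  have h5 : (⨅ q, H q).index ≤ Nat.card A := by
    refine (Subgroup.index_iInf_le H).trans ((Finset.prod_le_prod' fun q _ => h3 q).trans ?_)
    rw [Finset.prod_coe_sort (Nat.card A).primeFactors (fun q => q ^ (Nat.card A).factorization q)]
    exact (Nat.prod_primeFactors_pow_factorization Nat.card_pos.ne').ge
  refine ⟨_, Subgroup.isComplement'_of_card_mul_and_disjoint (le_antisymm ?_ ?_) h4⟩
  · rw [← H01.card_sup_mul_card_inf, h4.eq_bot, Subgroup.card_bot, mul_one]
    exact Subgroup.card_le_card_group _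
  · rw [← (⨅ q, H q).card_mul_index]
    exact Nat.mul_le_mul_left _ h5

end Cfsg.Agent.S4217
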