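import Mathlib
import Cfsg.Statements.S4218
import Cfsg.Agent.H24.PSolv2

set_option autoImplicit false
open Cfsg

namespace Cfsg.Agent.S4218

/-- Let `G` be a finite `p`-solvable group, `N₀ = O_{p'}(G)`, `P₁ = O_{p',p}(G)`, and let `F ≤ P₁` be the preimage of the Frattini subgroup of `P₁/N₀`. Then an element `g` of `G` induces the identity on `P₁/F` by conjugation (that is, `g x g⁻¹ x⁻¹ ∈ F` for all `x ∈ P₁`) if and only if `g ∈ P₁`: the group `G/P₁` acts faithfully on `P₁/F`. -/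
theorem result {G : Type*} [Group G] [Finite G] {p : ℕ} [Fact p.Prime] (hG : Cfsg.IsPSolvable p G) (g : G) : (∀ x ∈ Cfsg.pPrimePCore p G, g * x * g⁻¹ * x⁻¹ ∈ ((frattini (↥(Cfsg.pPrimePCore p G) ⧸ (Cfsg.pPrimeCore p G).subgroupOf (Cfsg.pPrimePCore p G))).comap (QuotientGroup.mk' ((Cfsg.pPrimeCore p G).subgroupOf (Cfsg.pPrimePCore p G)))).map (Cfsg.pPrimePCore p G).subtype) ↔ g ∈ Cfsg.pPrimePCore p G := by
  obtain ⟨X, _, _, f, hf, h1, h2, h3, h4⟩ := H24.PS.exists_red hG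
  let φ : pPrimePCore p G →* pCore p (G ⧸ pPrimeCore p G) :=
    ((QuotientGroup.mk' (pPrimeCore p G)).comp (pPrimePCore p G).subtype).codRestrict _ fun x => x.2
  have hs : Function.Surjective φ := by
    rintro ⟨y, hy⟩
    obtain ⟨x, rfl⟩ := QuotientGroup.mk'_surjective (pPrimeCore p G) y
    exact ⟨⟨x, hy⟩, rfl⟩
  have hk : (pPrimeCore p G).subgroupOf (pPrimePCore p G) = φ.ker := by
    ext x
    rw [MonoidHom.mem_ker, Subtype.ext_iff]
    exact (QuotientGroup.eq_one_iff (N := pPrimeCore p G) (x : G)).symm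
  let e := (QuotientGroup.quotientMulEquivOfEq hk).trans (QuotientGroup.quotientKerEquivOfSurjective φ hs)
  have he : ∀ x : pPrimePCore p G, e (QuotientGroup.mk' _ x) = φ x := fun x => rfl
  have hF : ∀ y ∈ pPrimePCore p G, y ∈ ((frattini (↥(Cfsg.pPrimePCore p G) ⧸ (Cfsg.pPrimeCore p G).subgroupOf
      (Cfsg.pPrimePCore p G))).comap (QuotientGroup.mk' ((Cfsg.pPrimeCore p G).subgroupOf
      (Cfsg.pPrimePCore p G)))).map (Cfsg.pPrimePCore p G).subtype ↔ f y = 1 := by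
    intro y hy
    rw [← MonoidHom.mem_ker, h4, ← H02.frattini_map_equiv e]
    constructor
    · rintro ⟨x, hx, rfl⟩
      exact ⟨_, ⟨_, hx, rfl⟩, rfl⟩
    · rintro ⟨_, ⟨q, hq, rfl⟩, h⟩
      refine ⟨⟨y, hy⟩, ?_, rfl⟩
      have : q = QuotientGroup.mk' _ (⟨y, hy⟩ : pPrimePCore p G) := e.injective (by rw [he]; exact Subtype.ext h)
      rw [this] at hq
      exact hq
  have hm : ∀ x ∈ pPrimePCore p G, g * x * g⁻¹ * x⁻¹ ∈ pPrimePCore p G := fun x hx =>
    mul_mem (Subgroup.Normal.conj_mem inferInstance x hx g) (inv_mem hx)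
  constructor
  · intro h
    rw [← h3]
    refine h2 fun y hy => ?_
    obtain ⟨x, rfl⟩ := hf y
    have hx : x ∈ pPrimePCore p G := h3 ▸ hy
    have := (hF _ (hm x hx)).1 (h x hx)
    simp only [map_mul, map_inv] at this
    rw [mul_inv_eq_one, mul_inv_eq_iff_eq_mul] at this
    exact this.symm
  · intro h x hx
    rw [hF _ (hm x hx)]
    simp only [map_mul, map_inv]
    rw [BG.mul_comm_of_abelian h1.1 (h3.ge h) (h3.ge hx)]; group

end Cfsg.Agent.S4218
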