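import Cfsg.Statements.S4219
import Mathlib
import Cfsg.Agent.H01.Basic
-- import your own Cfsg.Agent.* helpers here

set_option autoImplicit false
open Cfsg

namespace Cfsg.Agent.S4219

open scoped Pointwise commutatorElement

/-- Let a finite group `G` act `t`-fold transitively on a finite set, let `H` be the stabilizer of `t` distinct points and `P` a Sylow `p`-subgroup of `H`. Then the normalizer of `P` in `G` is `t`-fold transitive on the fixed points of `P`: any `t` distinct fixed points of `P` can be carried to any other `t` distinct fixed points of `P` by an element normalizing `P`. -/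
theorem result {G : Type*} [Group G] [Finite G] {α : Type*} [Fintype α] [MulAction G α] {t : ℕ} (hG : MulAction.IsMultiplyPretransitive G α t) (x : Fin t ↪ α) {p : ℕ} [Fact p.Prime] (P : Sylow p (MulAction.stabilizer G x)) (a b : Fin t ↪ α) (ha : ∀ i, a i ∈ MulAction.fixedPoints ((P : Subgroup (MulAction.stabilizer G x)).map (MulAction.stabilizer G x).subtype) α) (hb : ∀ i, b i ∈ MulAction.fixedPoints ((P : Subgroup (MulAction.stabilizer G x)).map (MulAction.stabilizer G x).subtype) α) : ∃ g ∈ Subgroup.normalizer ((((P : Subgroup (MulAction.stabilizer G x)).map (MulAction.stabilizer G x).subtype) : Subgroup G) : Set G), g • a = b := by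
  haveI : MulAction.IsPretransitive G (Fin t ↪ α) := hG
  set Q := (P : Subgroup (MulAction.stabilizer G x)).map (MulAction.stabilizer G x).subtype with hQ
  have hfix : ∀ c : Fin t ↪ α, (∀ i, c i ∈ MulAction.fixedPoints Q α) → Q ≤ MulAction.stabilizer G c := by
    intro c hc y hy
    rw [MulAction.mem_stabilizer_iff]
    ext i
    exact hc i ⟨y, hy⟩
  obtain ⟨g, hg⟩ := MulAction.exists_smul_eq G a b
  have h1 : MulAut.conj g • Q ≤ MulAction.stabilizer G b := by
    intro y hy
    rw [H01.mem_conj_smul_iff] at hy
    have := hfix a ha hy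
    rw [MulAction.mem_stabilizer_iff] at this ⊢
    rw [← hg]
    rw [mul_smul, mul_smul, inv_smul_eq_iff] at this
    exact this
  have hidx : ∀ c : Fin t ↪ α, (MulAction.stabilizer G c).index = Nat.card (Fin t ↪ α) :=
    fun c => MulAction.index_stabilizer_of_transitive G c
  have h2 : ¬ p ∣ Q.relIndex (MulAction.stabilizer G b) := by
    have e1 := Subgroup.relIndex_mul_index (hfix b hb)
    have e2 := Subgroup.relIndex_mul_index (Subgroup.map_subtype_le (P : Subgroup (MulAction.stabilizer G x)))
    rw [hidx] at e1 e2
    have : Nonempty (Fin t ↪ α) := ⟨x⟩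
    rw [Nat.eq_of_mul_eq_mul_right Nat.card_pos (e1.trans e2.symm), Subgroup.relIndex,
      Subgroup.subgroupOf, Subgroup.comap_map_eq_self_of_injective (Subgroup.subtype_injective _)]
    exact P.not_dvd_index
  obtain ⟨h, hh, he⟩ := H01.sylow_conj_of_card (p := p) (hfix b hb) h1 (P.isPGroup'.map _) h2
    (H01.card_conj_smul _ _)
  rw [H01.conj_smul_conj_smul, H01.conj_smul_eq_iff_mem_normalizer] at he
  exact ⟨h * g, he, by rw [mul_smul, hg]; exact hh⟩

end Cfsg.Agent.S4219
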