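import Cfsg.Statements.S4222
import Mathlib
-- import your own Cfsg.Agent.* helpers here

set_option autoImplicit false
open Cfsg

namespace Cfsg.Agent.S4222

/-- If a normal subgroup `N` of a finite group is complete (its centre is trivial and every automorphism of `N` is inner), then the group is the internal direct product of `N` and the centralizer of `N`: the centralizer is a complement to `N`. -/
theorem result {T : Type*} [Group T] [Finite T] (N : Subgroup T) [N.Normal] (hz : Subgroup.center ↥N = ⊥) (ha : Function.Surjective (MulAut.conj : ↥N →* MulAut ↥N)) : (Subgroup.centralizer (N : Set T)).IsComplement' N := by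
  apply Subgroup.isComplement'_of_disjoint_and_mul_eq_univ
  · rw [disjoint_iff, eq_bot_iff]
    rintro x ⟨h1, h2⟩
    have : (⟨x, h2⟩ : N) ∈ Subgroup.center N := by
      rw [Subgroup.mem_center_iff]
      intro g
      exact Subtype.ext (h1 g g.2)
    rw [hz] at this
    exact Subtype.ext_iff.1 (Subgroup.mem_bot.1 this)
  · rw [Set.eq_univ_iff_forall]
    intro t
    obtain ⟨n, hn⟩ := ha (MulAut.conjNormal t⁻¹)
    refine ⟨t * n, ?_, n⁻¹, N.inv_mem n.2, by simp⟩
    intro h hh
    have := Subtype.ext_iff.1 (DFunLike.congr_fun hn ⟨h, hh⟩)
    simp only [MulAut.conj_apply, Subgroup.coe_mul, InvMemClass.coe_inv, MulAut.conjNormal_apply,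
      inv_inv] at this
    calc h * (t * n) = t * (t⁻¹ * h * t) * n := by group
      _ = _ := by rw [← this]; group

end Cfsg.Agent.S4222
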