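import Mathlib
import Cfsg.Statements.S4223

set_option autoImplicit false
open Cfsg

namespace Cfsg.Agent.S4223
universe u v

theorem fitting {A : Type*} [Group A] [Finite A]
    (hA : ∀ H K : Subgroup A, H.Normal → K.Normal → H ⊓ K = ⊥ → H ⊔ K = ⊤ → H = ⊥ ∨ K = ⊥) (f g : Monoid.End A)
    (hf : ∀ x a, f (x * a * x⁻¹) = x * f a * x⁻¹) (hfg : ∀ a, f a * g a = a) :
    Function.Injective f ∨ Function.Injective g := by
  have hn : ∀ n : ℕ, ∀ x a, (f ^ n) (x * a * x⁻¹) = x * (f ^ n) a * x⁻¹ := fun n => by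
    induction n with
    | zero => intro x a; rfl
    | succ n ih => intro x a; rw [pow_succ]; exact (congrArg _ (hf x a)).trans (ih _ _)
  haveI : Finite (Monoid.End A) := Finite.of_injective (fun f : Monoid.End A => (f : A → A)) DFunLike.coe_injective
  obtain ⟨n, hn0, he⟩ : ∃ n, 0 < n ∧ f ^ n * f ^ n = f ^ n := by
    obtain ⟨i, j, hij, e⟩ := Finite.exists_ne_map_eq_of_infinite (fun n : ℕ => f ^ n)
    wlog h : i < j generalizing i j
    · exact this j i hij.symm e.symm (by omega)
    obtain ⟨d, rfl⟩ := Nat.exists_eq_add_of_lt h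
    have h1 : ∀ k, f ^ (i + k * (d + 1)) = f ^ i := fun k => by
      induction k with
      | zero => simp
      | succ k ih => rw [show i + (k + 1) * (d + 1) = (i + d + 1) + k * (d + 1) by ring, pow_add, ← e, ← pow_add, ih]
    refine ⟨(i + 1) * (d + 1), by positivity, ?_⟩
    rw [← pow_add, show (i + 1) * (d + 1) + (i + 1) * (d + 1) = (i + (i + 1) * (d + 1)) + (i * d + d + 1) by ring, pow_add,
      h1, ← pow_add]
    congr 1; ring
  have he' : ∀ a, (f ^ n) ((f ^ n) a) = (f ^ n) a := fun a => DFunLike.congr_fun he a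
  rcases hA (f ^ n : Monoid.End A).ker (f ^ n : Monoid.End A).range inferInstance
    ⟨by rintro _ ⟨a, rfl⟩ x; exact ⟨_, hn n x a⟩⟩ (eq_bot_iff.2 (by
      rintro _ ⟨h, a, rfl⟩
      exact (he' a).symm.trans h)) (eq_top_iff.2 fun a _ => by
      rw [← inv_mul_cancel_right a ((f ^ n) a)]
      exact mul_mem (Subgroup.mem_sup_left (by
        show (f ^ n) _ = 1
        rw [map_mul, map_inv]; exact mul_inv_eq_one.2 (he' a).symm))
        (Subgroup.mem_sup_right ⟨a, rfl⟩)) with h | h
  · obtain ⟨k, rfl⟩ := Nat.exists_eq_add_of_lt hn0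
    have := (MonoidHom.ker_eq_bot_iff _).1 h
    rw [pow_succ] at this
    exact Or.inl (Function.Injective.of_comp (f := (f ^ (0 + k) : Monoid.End A)) this)
  · refine Or.inr ((injective_iff_map_eq_one g).2 fun a ha => ?_)
    have h1 : f a = a := by simpa [ha] using hfg a
    have h2 : ∀ k : ℕ, (f ^ k) a = a := fun k => by
      induction k with
      | zero => rfl
      | succ k ih => rw [pow_succ]; exact (congrArg _ h1).trans ih
    exact Subgroup.mem_bot.1 (h ▸ ⟨a, h2 n⟩)

theorem exists_inj {A : Type*} [Group A] [Finite A] [Nontrivial A]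
    (hA : ∀ H K : Subgroup A, H.Normal → K.Normal → H ⊓ K = ⊥ → H ⊔ K = ⊤ → H = ⊥ ∨ K = ⊥) {n : ℕ} {B : Fin n → Type*}
    [∀ j, Group (B j)] (ι : A →* ∀ j, B j) (π : (∀ j, B j) →* A) (h : ∀ a, π (ι a) = a) :
    ∃ j, Function.Injective fun a => π (Pi.mulSingle j (ι a j)) := by
  let e : Finset (Fin n) → (∀ j, B j) →* ∀ j, B j := fun s =>
    MonoidHom.mk' (fun x j => if j ∈ s then x j else 1) fun x y => by ext j; by_cases hj : j ∈ s <;> simp [hj]
  let f : Finset (Fin n) → Monoid.End A := fun s => π.comp ((e s).comp ι)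
  have hf : ∀ s x a, f s (x * a * x⁻¹) = x * f s a * x⁻¹ := fun s x a => by
    have : e s (ι (x * a * x⁻¹)) = ι x * e s (ι a) * (ι x)⁻¹ := by
      ext j; by_cases hj : j ∈ s <;> simp [e, hj]
    show π (e s _) = x * π (e s _) * x⁻¹
    rw [this, map_mul, map_mul, map_inv, h]
  have key : ∀ s, Function.Injective (f s) → ∃ j, Function.Injective (f {j}) := by
    intro s
    induction s using Finset.induction_on with
    | empty =>
      intro hi
      obtain ⟨a, ha⟩ := exists_ne (1 : A)
      exact absurd (hi (show π (e ∅ (ι a)) = f ∅ 1 by rw [map_one, ← map_one π]; rfl)) ha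
    | insert j s hj ih =>
      intro hi
      let u := MulEquiv.ofBijective (f (insert j s)) (Finite.injective_iff_bijective.1 hi)
      have hu : ∀ x a, u.symm (x * a * x⁻¹) = x * u.symm a * x⁻¹ := fun x a => u.injective (by
        rw [u.apply_symm_apply]
        exact ((hf _ x _).trans (by rw [show f (insert j s) (u.symm a) = a from u.apply_symm_apply a])).symm)
      rcases fitting hA (u.symm.toMonoidHom.comp (f {j})) (u.symm.toMonoidHom.comp (f s))
        (fun x a => (congrArg u.symm (hf _ x a)).trans (hu _ _)) (fun a => by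
          show u.symm _ * u.symm _ = a
          rw [← map_mul, MulEquiv.symm_apply_eq]
          show π _ * π _ = π (e _ _)
          rw [← map_mul]
          congr 1
          ext k
          by_cases hk : k = j
          · subst hk; simp [e, hj]
          · simp [e, hk]) with h1 | h1
      · exact ⟨j, Function.Injective.of_comp (f := u.symm) h1⟩
      · exact ih (Function.Injective.of_comp (f := u.symm) h1)
  obtain ⟨j, hj⟩ := key Finset.univ fun a b hab => by
    have : ∀ a, f Finset.univ a = a := fun a => (congrArg π (by ext j; simp [e])).trans (h a)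
    rwa [this, this] at hab
  refine ⟨j, ?_⟩
  convert hj using 2 with a
  show π _ = π (e _ _)
  congr 1
  ext k
  by_cases hk : k = j
  · subst hk; simp [e]
  · simp [e, hk]

theorem aux (m : ℕ) : ∀ {n : ℕ} {A : Fin m → Type u} {B : Fin n → Type v} [∀ i, Group (A i)] [∀ j, Group (B j)]
    [∀ i, Finite (A i)] [∀ j, Finite (B j)]
    (hA : ∀ i, Nontrivial (A i) ∧ ∀ H K : Subgroup (A i), H.Normal → K.Normal → H ⊓ K = ⊥ → H ⊔ K = ⊤ → H = ⊥ ∨ K = ⊥)
    (hB : ∀ j, Nontrivial (B j) ∧ ∀ H K : Subgroup (B j), H.Normal → K.Normal → H ⊓ K = ⊥ → H ⊔ K = ⊤ → H = ⊥ ∨ K = ⊥)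
    (e : ((i : Fin m) → A i) ≃* ((j : Fin n) → B j)), ∃ σ : Fin m ≃ Fin n, ∀ i, Nonempty (A i ≃* B (σ i)) := by
  induction m with
  | zero =>
    intro n A B _ _ _ _ hA hB e
    rcases n with _ | n
    · exact ⟨Equiv.refl _, fun i => i.elim0⟩
    · haveI := (hB 0).1
      haveI := e.symm.toEquiv.subsingleton
      obtain ⟨b, hb⟩ := exists_ne (1 : B 0)
      exact absurd (by simpa using congrFun (Subsingleton.elim (Pi.mulSingle 0 b : ∀ j, B j) 1) 0) hb
  | succ m ih =>
    intro n A B _ _ _ _ hA hB e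
    haveI := (hA 0).1
    obtain ⟨j, hj⟩ := exists_inj (hA 0).2 (e.toMonoidHom.comp (MonoidHom.mulSingle A 0))
      ((Pi.evalMonoidHom A 0).comp e.symm.toMonoidHom) fun a => by simp
    rcases n with _ | n
    · exact j.elim0
    let α : A 0 →* B j := (Pi.evalMonoidHom B j).comp (e.toMonoidHom.comp (MonoidHom.mulSingle A 0))
    let β : B j →* A 0 := (Pi.evalMonoidHom A 0).comp (e.symm.toMonoidHom.comp (MonoidHom.mulSingle B j))
    have h1 : Function.Injective (β ∘ α) := hj
    have h2 : α.range ⊔ β.ker = ⊤ := eq_top_iff.2 fun b _ => by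
      obtain ⟨a, ha⟩ := (Finite.injective_iff_surjective.1 h1) (β b)
      rw [← mul_inv_cancel_left (α a) b]
      exact mul_mem (Subgroup.mem_sup_left ⟨a, rfl⟩) (Subgroup.mem_sup_right (by
        rw [MonoidHom.mem_ker, map_mul, map_inv]; exact inv_mul_eq_one.2 ha))
    have h3 : β.ker = ⊥ := ((hB j).2 α.range β.ker ⟨by
      rintro _ ⟨a, rfl⟩ b
      refine ⟨β b * a * (β b)⁻¹, ?_⟩
      have : (Pi.mulSingle 0 (β b * a * (β b)⁻¹) : ∀ i, A i) =
          e.symm (Pi.mulSingle j b) * Pi.mulSingle 0 a * (e.symm (Pi.mulSingle j b))⁻¹ := by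
        ext i
        by_cases hi : i = 0
        · subst hi; simp [β]
        · simp [hi]
      simp [α, this]⟩ inferInstance (eq_bot_iff.2 (by
        rintro _ ⟨⟨a, rfl⟩, h⟩
        rw [h1 (show β (α a) = β (α 1) by rw [map_one, map_one]; exact h), map_one]; exact one_mem _)) h2).resolve_left
      fun h => by
        obtain ⟨a, ha⟩ := exists_ne (1 : A 0)
        exact ha (h1 (congrArg β ((Subgroup.mem_bot.1 (h ▸ ⟨a, rfl⟩ : α a ∈ (⊥ : Subgroup (B j)))).trans (map_one α).symm)))
    rw [h3, sup_bot_eq] at h2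
    let e0 := MulEquiv.ofBijective α ⟨h1.of_comp, MonoidHom.range_eq_top.1 h2⟩
    let Ψ : (∀ i : Fin m, A i.succ) →* ∀ k : Fin n, B (j.succAbove k) :=
      MonoidHom.mk' (fun y k => e (Fin.cons 1 y) (j.succAbove k)) fun x y => by
        ext k
        rw [Pi.mul_apply, ← Pi.mul_apply (e _), ← map_mul]
        refine congrFun (congrArg e ?_) _
        ext i
        refine Fin.cases ?_ (fun i => ?_) i <;> simp
    have h4 : Function.Injective Ψ := (injective_iff_map_eq_one Ψ).2 fun y hy => by
      have a1 : e (Fin.cons 1 y) = Pi.mulSingle j (e (Fin.cons 1 y) j) := by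
        ext k
        rcases Fin.eq_self_or_eq_succAbove j k with rfl | ⟨k, rfl⟩
        · simp
        · rw [Pi.mulSingle_eq_of_ne (Fin.succAbove_ne j k)]; exact congrFun hy k
      have a2 : e (Fin.cons 1 y) j ∈ β.ker := by
        show e.symm (Pi.mulSingle j _) 0 = 1
        rw [← a1, e.symm_apply_apply]; rfl
      rw [h3, Subgroup.mem_bot] at a2
      rw [a2, Pi.mulSingle_one, map_eq_one_iff e e.injective] at a1
      ext i
      exact congrFun a1 i.succ
    have h5 := Nat.card_congr e.toEquiv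
    rw [Nat.card_pi, Nat.card_pi, Fin.prod_univ_succ, Fin.prod_univ_succAbove _ j, Nat.card_congr e0.toEquiv,
      ← Nat.card_pi, ← Nat.card_pi] at h5
    obtain ⟨σ, hσ⟩ := ih (fun i => hA i.succ) (fun k => hB (j.succAbove k))
      (MulEquiv.ofBijective Ψ (h4.bijective_of_nat_card_le (Nat.eq_of_mul_eq_mul_left Nat.card_pos h5).ge))
    refine ⟨(finSuccEquiv m).trans (σ.optionCongr.trans (finSuccEquiv' j).symm), fun i => ?_⟩
    refine Fin.cases ?_ (fun i => ?_) i
    · have : (finSuccEquiv m).trans (σ.optionCongr.trans (finSuccEquiv' j).symm) 0 = j := by simp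
      rw [this]; exact ⟨e0⟩
    · have : (finSuccEquiv m).trans (σ.optionCongr.trans (finSuccEquiv' j).symm) i.succ = j.succAbove (σ i) := by simp
      rw [this]; exact hσ i


/-- If a finite group is isomorphic both to a direct product of `m` directly indecomposable nontrivial groups and to a direct product of `n` such groups (a group is directly indecomposable when it is not the internal direct product of two nontrivial normal subgroups), then `m = n` and the factors are isomorphic in pairs after a suitable matching. -/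
theorem result {m n : ℕ} {A : Fin m → Type*} {B : Fin n → Type*} [∀ i, Group (A i)] [∀ j, Group (B j)] [∀ i, Finite (A i)] [∀ j, Finite (B j)] (hA : ∀ i, Nontrivial (A i) ∧ ∀ H K : Subgroup (A i), H.Normal → K.Normal → H ⊓ K = ⊥ → H ⊔ K = ⊤ → H = ⊥ ∨ K = ⊥) (hB : ∀ j, Nontrivial (B j) ∧ ∀ H K : Subgroup (B j), H.Normal → K.Normal → H ⊓ K = ⊥ → H ⊔ K = ⊤ → H = ⊥ ∨ K = ⊥) (e : ((i : Fin m) → A i) ≃* ((j : Fin n) → B j)) : ∃ σ : Fin m ≃ Fin n, ∀ i, Nonempty (A i ≃* B (σ i)) := by
  exact aux m hA hB e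

end Cfsg.Agent.S4223
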