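import Mathlib
import Cfsg.Statements.S4227
import Cfsg.Agent.H24.PSolv2
import Cfsg.Agent.S0635
import Cfsg.Agent.S0144
import Cfsg.Agent.H02.NS1
import Cfsg.Agent.H16.PLen

set_option autoImplicit false
open Cfsg

namespace Cfsg.Agent.S4227
open BG

/-- A finite group in which every element has order dividing `6` has `2`-length at most `1` and `3`-length at most `1`. -/
theorem result {G : Type*} [Group G] [Finite G] (h : ∀ x : G, x ^ 6 = 1) : Cfsg.PLengthLE 2 1 G ∧ Cfsg.PLengthLE 3 1 G := by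
  have p2 := Nat.prime_two
  have p3 := Nat.prime_three
  haveI := Fact.mk p3
  have hs : Group.IsSolvable G := by
    have h1 : ∀ q ∈ (Nat.card G).primeFactors, q = 2 ∨ q = 3 := fun q hq => by
      have hq' := Nat.prime_of_mem_primeFactors hq
      haveI := Fact.mk hq'
      obtain ⟨x, hx⟩ := exists_prime_orderOf_dvd_card' q (Nat.dvd_of_mem_primeFactors hq)
      have := (hq'.dvd_mul (m := 2) (n := 3)).1 (hx ▸ orderOf_dvd_of_pow_eq_one (h x))
      rwa [Nat.prime_dvd_prime_iff_eq hq' p2, Nat.prime_dvd_prime_iff_eq hq' p3] at this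
    refine H05.burnside_paqb G p2 p3 (a := (Nat.card G).factorization 2) (b := (Nat.card G).factorization 3) ?_
    conv_lhs => rw [← Nat.factorization_prod_pow_eq_self (Nat.card_pos (α := G)).ne']
    rw [Finsupp.prod_of_support_subset _ (s := {2, 3}) (fun q hq => by simpa using h1 q hq) _ (by simp),
      Finset.prod_pair (by norm_num)]
  constructor
  · obtain ⟨S⟩ : Nonempty (Sylow 2 G) := inferInstance
    refine H24.PS.plen_mono (S0635.result H24.PS.of_solvable S) ?_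
    have h2 : ∀ x : S, x ^ 2 = 1 := fun x => by
      obtain ⟨n, hn⟩ := S.2 x
      have h3 : orderOf x ∣ 2 * 3 := orderOf_dvd_of_pow_eq_one (Subtype.ext (h x))
      exact orderOf_dvd_iff_pow_eq_one.1 ((Nat.Coprime.of_dvd_left (orderOf_dvd_of_pow_eq_one hn)
        (Nat.Coprime.pow_left _ (by norm_num))).dvd_of_dvd_mul_right h3)
    have i : ∀ x : S, x⁻¹ = x := fun x => inv_eq_of_mul_eq_one_right (by rw [← sq, h2])
    letI : CommGroup S := { mul_comm := fun a b => by rw [← i (a * b), mul_inv_rev, i, i] }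
    exact CommGroup.nilpotencyClass_le_one
  obtain ⟨X, _, _, f, hf, h1, h2, h3, -⟩ := H24.PS.exists_red (p := 3) (G := G) H24.PS.of_solvable
  have hX : ∀ x : X, x ^ 6 = 1 := fun x => by obtain ⟨y, rfl⟩ := hf x; rw [← map_pow, h, map_one]
  have hXs : IsPSolvable 3 X := H24.PS.of_surjective H24.PS.of_solvable f hf
  rw [H24.PS.plen_one_iff, ← h3, Subgroup.index_comap_of_surjective _ hf, Nat.coprime_comm, p3.coprime_iff_not_dvd]
  intro hd
  set V := pCore 3 X
  set W := (pPrimeCore 3 (X ⧸ V)).comap (QuotientGroup.mk' V)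
  have hVn : ∀ A : Subgroup X, A ≤ N_(V) := fun A => by rw [Subgroup.normalizer_eq_top]; exact le_top
  have hVW : V ≤ W := fun x hx => by
    rw [Subgroup.mem_comap, QuotientGroup.mk'_apply, (QuotientGroup.eq_one_iff x).2 hx]; exact one_mem _
  have hi : ¬ 3 ∣ V.relIndex W := by
    rw [H16.relIndex_comap_quot]; exact H02.not_dvd_card_pPrimeCore p3
  obtain ⟨n, hn⟩ := pg_card p3 h1.pg
  obtain ⟨Q, hQ⟩ := exists_compl_of_coprime hVW (hVn _) (by
    rw [hn]; exact Nat.Coprime.pow_left _ (p3.coprime_iff_not_dvd.2 hi))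
  rw [hQ.relIndex_left] at hi
  have hQ2 : ∀ q ∈ Q, q ^ 2 = 1 := fun q hq => by
    have h3 : orderOf q ∣ 2 * 3 := orderOf_dvd_of_pow_eq_one (hX q)
    exact orderOf_dvd_iff_pow_eq_one.1 ((Nat.Coprime.of_dvd_left (orderOf_dvd_card hq)
      (p3.coprime_iff_not_dvd.2 hi).symm).dvd_of_dvd_mul_right h3)
  have hQa : IsMulCommutative Q := ⟨⟨fun a b => by
    have i : ∀ x : Q, x⁻¹ = x := fun x => inv_eq_of_mul_eq_one_right (by rw [← sq]; exact Subtype.ext (hQ2 _ x.2))
    rw [← i (a * b), mul_inv_rev, i, i]⟩⟩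
  have hQs : IsSylowIn 2 Q W := isSylowIn_mk p2 hQ.le_right (pg_of_pow hQ2) (by
    rw [hQ.relIndex_right]; exact pg_not_dvd p2 p3 h1.pg (by norm_num))
  have hfr := sylow_frattini p2 hQs le_top (by rw [Subgroup.normalizer_eq_top])
  rw [top_inf_eq, ← hQ.sup, sup_assoc, sup_eq_right.2 (le_norm Q)] at hfr
  rw [← Subgroup.relIndex_top_right, ← hfr, relIndex_sup (hVn _)] at hd
  obtain ⟨P, hP⟩ := sylow_exists p3 N_(Q)
  obtain ⟨x, hx, hxV⟩ := SetLike.not_le_iff_exists.1 fun hle : P ≤ V =>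
    hP.not_dvd' p3 (hd.trans (relIndex_dvd_left _ hle))
  have hx3 : x ^ 3 = 1 := by
    obtain ⟨n, hn⟩ := hP.pg p3 ⟨x, hx⟩
    have h3 : orderOf x ∣ 2 * 3 := orderOf_dvd_of_pow_eq_one (hX x)
    exact orderOf_dvd_iff_pow_eq_one.1 ((Nat.Coprime.of_dvd_left (orderOf_dvd_of_pow_eq_one (congrArg Subtype.val hn))
      (Nat.Coprime.pow_left _ (by norm_num))).dvd_of_dvd_mul_left h3)
  have hxQ : Subgroup.zpowers x ≤ N_(Q) := Subgroup.zpowers_le.2 (hP.le hx)
  have hc : (Nat.card (Subgroup.zpowers x)).Coprime (Nat.card Q) := by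
    rw [card_zpowers]
    exact Nat.Coprime.of_dvd_left (orderOf_dvd_of_pow_eq_one hx3) (p3.coprime_iff_not_dvd.2 hi)
  have hD := coprime_abelian_dprod hxQ hc hQa
  set Q₀ := ⁅Q, Subgroup.zpowers x⁆
  have hx0 : x ∈ N_(Q₀) := right_le_norm_comm _ _ (Subgroup.mem_zpowers x)
  haveI := h1.1
  have h5 : Q₀ ≤ C_(V) := H02.NS.le_cent_of_coset p3 (hVn _) (hVn _ (Subgroup.mem_top x)) hx0
    (pg_coprime p3 h1.pg (not_dvd_of_le hi hD.le_right)).symm fun u hu v hv => by
      have a1 : (x * u) ^ 3 ∈ Q₀ := by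
        have : (x * u) ^ 3 = (x * u * x⁻¹) * (x * (x * u * x⁻¹) * x⁻¹) * x ^ 3 * u := by
          simp only [pow_succ, pow_zero]; group
        rw [this, hx3, mul_one]
        exact mul_mem (mul_mem (conj_mem_of_norm hx0 hu) (conj_mem_of_norm hx0 (conj_mem_of_norm hx0 hu))) hu
      have a2 : (x * u) ^ 3 = 1 := by
        refine eq_one_of_mem_of_disj hD.disj ⟨hD.le_right a1, ?_⟩ a1
        rw [cent_zpowers]
        refine mem_cent1.2 (mul_right_cancel (b := u) ?_)
        rw [mul_assoc, ← pow_succ, mul_assoc, mul_comm_of_abelian hQa (hD.le_right a1) (hD.le_right hu), ← mul_assoc,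
          ← pow_succ']
      have a3 : (v * (x * u)) ^ 3 ∈ V := by
        rw [← QuotientGroup.eq_one_iff, QuotientGroup.mk_pow, QuotientGroup.mk_mul, (QuotientGroup.eq_one_iff v).2 hv,
          one_mul, ← QuotientGroup.mk_pow, a2]; rfl
      have a4 := h1.2 _ a3
      rw [← pow_mul] at a4
      exact (pow_gcd_eq_one (n := 3 * 3) (m := 6)).2 ⟨hX _, a4⟩
  have h6 : Q₀ = ⊥ := eq_bot_iff.2 (hQ.disj ▸ le_inf (h5.trans h2) hD.le_right)
  have h7 : (x : X ⧸ V) ∈ pPrimeCore 3 (X ⧸ V) := by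
    refine H24.PS.centralizer_pPrimeCore_le (H24.PS.quotient hXs V) (H02.pCore_quotient_pCore 3 X) fun y hy => ?_
    obtain ⟨y, rfl⟩ := QuotientGroup.mk_surjective y
    obtain ⟨v, hv, q, hq, rfl⟩ := hQ.mem.1 (show y ∈ W from hy)
    rw [QuotientGroup.mk_mul, (QuotientGroup.eq_one_iff v).2 hv, one_mul, ← QuotientGroup.mk_mul, ← QuotientGroup.mk_mul,
      le_cent_iff.1 (comm_eq_bot.1 h6) q hq x (Subgroup.mem_zpowers x)]
  refine hxV ((QuotientGroup.eq_one_iff x).1 (orderOf_eq_one_iff.1 (Nat.eq_one_of_dvd_coprimes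
    (H02.orderOf_coprime_of_mem_pPrimeCore h7) dvd_rfl (orderOf_dvd_of_pow_eq_one ?_))))
  rw [← QuotientGroup.mk_pow, hx3]; rfl

end Cfsg.Agent.S4227
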