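import Cfsg.Statements.S4278
import Cfsg.Agent.H11.Cent
-- import your own Cfsg.Agent.* helpers here

set_option autoImplicit false
open Cfsg

namespace Cfsg.Agent.S4278
open H11 Cfsg.Lie

theorem d1 : InvD (D := chevG2) ([1, 2].getD · 0) (nd _ 1) (rt _ 10) (rt _ 11) ([3, 1].getD · 0) ([3, 2].getD · 0) := by decide +kernel

/-- In the Chevalley group of type G₂ over a finite field of odd order, any two involutions are conjugate. -/
theorem result {F : Type*} [Field F] [Fintype F] (hF : Odd (Fintype.card F)) (s t : ↥(Cfsg.Lie.chevG2.group F)) (hs : orderOf s = 2) (ht : orderOf t = 2) : IsConj s t := by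
  have c (g) := conj_inv (F := F) (g := g) (Ring.two_ne_zero fun e => by have := FiniteField.even_card_of_char_two e; have := Nat.odd_iff.1 hF; omega)
    (fun _ _ => torS_G2 _) [_] (List.forall_mem_singleton.2 ⟨_, _, _, _, _, d1⟩) (lk 0x1020000 8 255) (by decide +kernel)
  simp only [List.mem_singleton, exists_eq_left] at c
  exact (c s hs).trans (c t ht).symm

end Cfsg.Agent.S4278
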