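import Cfsg.Statements.S4279
import Cfsg.Agent.H11.G2Sp
import Cfsg.Agent.S4278
import Cfsg.Agent.H01.Basic
-- import your own Cfsg.Agent.* helpers here

set_option autoImplicit false
open Cfsg

namespace Cfsg.Agent.S4279
open H11 Cfsg.Lie

/-- conjugated system -/
def cj {K G : Type*} [Field K] [Group G] (S : StSys chevG2 K G) (e : MulAut G) : StSys chevG2 K G where
  x r t := e (S.x r t)
  add := (S.rel.map e.toMonoidHom).add
  comm := (S.rel.map e.toMonoidHom).comm
  θ := S.θ.comp e.symm.toMonoidHom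
  θ_x r t := by simpa using S.θ_x r t

/-- In the Chevalley group G of type G₂ over a finite field F of odd order q, the centralizer of an involution t has order q²(q² − 1)² and contains two elementwise commuting subgroups, each isomorphic to SL(2, F), which meet exactly in the subgroup generated by t and whose join has index 2 in the centralizer. -/
theorem result {F : Type*} [Field F] [Fintype F] (hF : Odd (Fintype.card F)) (t : ↥(Cfsg.Lie.chevG2.group F)) (ht : orderOf t = 2) : Nat.card (Subgroup.centralizer ({t} : Set ↥(Cfsg.Lie.chevG2.group F))) = Fintype.card F ^ 2 * (Fintype.card F ^ 2 - 1) ^ 2 ∧ ∃ L₁ L₂ : Subgroup ↥(Cfsg.Lie.chevG2.group F), Nonempty (L₁ ≃* Matrix.SpecialLinearGroup (Fin 2) F) ∧ Nonempty (L₂ ≃* Matrix.SpecialLinearGroup (Fin 2) F) ∧ (∀ x ∈ L₁, ∀ y ∈ L₂, x * y = y * x) ∧ L₁ ⊓ L₂ = Subgroup.zpowers t ∧ L₁ ⊔ L₂ ≤ Subgroup.centralizer ({t} : Set ↥(Cfsg.Lie.chevG2.group F)) ∧ (L₁ ⊔ L₂).relIndex (Subgroup.centralizer ({t} : Set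 ↥(Cfsg.Lie.chevG2.group F))) = 2 := by
  have h2 : (2 : F) ≠ 0 := Ring.two_ne_zero fun e => by have := FiniteField.even_card_of_char_two e; have := Nat.odd_iff.1 hF; omega
  obtain ⟨g, hg⟩ := isConj_iff.1 (S4278.result hF _ t (orderOf_sgn (hMul_grp (K := F)) h2 S4278.d1) ht)
  let S := cj (grpSys chevG2 F) (MulAut.conj g)
  have hS := S.hMul_of_finite
  have h0 : S.grp = ⊤ := by
    rw [← StSys.map_grp (f := (MulAut.conj g).toMonoidHom) (fun _ _ => rfl), grpSys_grp]; exact Subgroup.map_top_of_surjective _ (MulAut.conj g).surjective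
  have h3 (r : Root chevG2) (h : ∀ i, cor r i % 2 = [1, 2].getD i 0 % 2) : S.h r (-1) = StSys.torS hS (sgn F ([1, 2].getD · 0)) :=
    (StSys.h_eq_torS hS r (-1)).trans (congrArg _ (funext fun i => (neg_one_zpow_eq h2).2 (h i)))
  have h4 : t = StSys.torS hS (sgn F ([1, 2].getD · 0)) := by
    rw [← h3 (rt _ 11) (by decide +kernel), ← StSys.map_h (f := (MulAut.conj g).toMonoidHom) (fun _ _ => rfl), ← hg]
    exact congrArg (g * · * g⁻¹) ((StSys.h_eq_torS _ (rt _ 11) (-1)).trans (congrArg _ (funext fun i => congrArg _ (by revert i; decide +kernel)))).symm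
  have c := card_inv hS h0 (torS_G2 _) h2 S4278.d1 0 2 4 (fun a i => g2 [[1, 1], [-1, 2], [1, -2], [-1, -1]] a i) [0, 1, 1, 2] (by decide +kernel)
  rw [← h4, nodeSet_zero, poin_empty, Nat.card_eq_fintype_card (α := F), show _ ^ chevG2.rank = _ ^ 2 from rfl] at c
  have c' : Nat.card (Subgroup.centralizer {t}) = Fintype.card F ^ 2 * (Fintype.card F ^ 2 - 1) ^ 2 := by
    rw [c]; simp only [List.map, List.sum_cons, List.sum_nil]
    zify [Fintype.card_pos (α := F), Nat.one_le_pow _ _ (Fintype.card_pos (α := F))]; ring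
  obtain ⟨φ, a1, -, -, a2, a3⟩ := root_sl2 hS (r := rt chevG2 11) (s := rt _ 9) (by decide +kernel) (by decide +kernel)
  obtain ⟨ψ, b1, -, -, b2, b3⟩ := root_sl2 hS (r := rt chevG2 7) (s := rt _ 9) (by decide +kernel) (by decide +kernel)
  rw [h3 _ (by decide +kernel), ← h4] at a2 b2
  have h5 : ∀ x ∈ φ.range, ∀ y ∈ ψ.range, x * y = y * x := fun x hx y hy => G2.comm_L (a3.le hx) (b3.le hy)
  have h6 : φ.range ⊓ ψ.range = Subgroup.zpowers t := le_antisymm (by
      rintro _ ⟨⟨x, rfl⟩, h⟩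
      obtain ⟨r, e1, e2⟩ := Matrix.SpecialLinearGroup.mem_center_iff.1 ((Subgroup.mem_center_iff (z := x)).2 fun y => a1 (by
        rw [map_mul, map_mul]; exact h5 _ ⟨y, rfl⟩ _ h))
      obtain rfl | rfl : x = 1 ∨ x = -1 := (sq_eq_one_iff.1 e1).imp (fun e => Subtype.ext (by simp [← e2, e])) fun e => Subtype.ext (by rw [← e2, e, map_neg, map_one]; rfl)
      exacts [φ.map_one ▸ one_mem _, a2 ▸ Subgroup.mem_zpowers _]) (Subgroup.zpowers_le_of_mem ⟨⟨_, a2⟩, _, b2⟩)
  have h7 : φ.range ⊔ ψ.range ≤ Subgroup.centralizer {t} := sup_le (fun x hx => Subgroup.mem_centralizer_singleton_iff.2 (h5 _ hx _ ⟨_, b2⟩))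
    fun x hx => Subgroup.mem_centralizer_singleton_iff.2 (h5 _ ⟨_, a2⟩ _ hx).symm
  refine ⟨c', _, _, ⟨(MonoidHom.ofInjective a1).symm⟩, ⟨(MonoidHom.ofInjective b1).symm⟩, h5, h6, h7, ?_⟩
  have h8 := H01.card_sup_mul_card_inf' (H := φ.range) (M := ψ.range) ((Subgroup.le_centralizer_iff.2 fun y hy =>
    Subgroup.mem_centralizer_iff.2 fun x hx => h5 x hx y hy).trans (Subgroup.centralizer_le_normalizer _))
  rw [h6, Nat.card_zpowers, ht, ← Nat.card_congr (MonoidHom.ofInjective a1).toEquiv, ← Nat.card_congr (MonoidHom.ofInjective b1).toEquiv,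
    H09.card_SL_two] at h8
  have h9 := ((φ.range ⊔ ψ.range).subgroupOf (Subgroup.centralizer {t})).card_mul_index
  rw [Nat.card_congr (Subgroup.subgroupOfEquivOfLe h7).toEquiv, c'] at h9
  exact Nat.eq_of_mul_eq_mul_left Nat.card_pos (h9.trans (by rw [h8]; ring))

end Cfsg.Agent.S4279
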