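import Cfsg.Statements.S4280
import Cfsg.Agent.H11.Cent
import Cfsg.Agent.H11.PoinAll
-- import your own Cfsg.Agent.* helpers here

set_option autoImplicit false
open Cfsg

namespace Cfsg.Agent.S4280
open H11 Cfsg.Lie

theorem d0 : InvD (D := chevF4) ([2, 3, 4, 2].getD · 0) (nd _ 0) (rt _ 40) (rt _ 41) ([1, 3, 2, 1].getD · 0) ([2, 2, 1, 0].getD · 0) := by decide +kernel
theorem d3 : InvD (D := chevF4) ([1, 2, 3, 2].getD · 0) (nd _ 3) (rt _ 46) (rt _ 47) ([2, 4, 3, 1].getD · 0) ([2, 4, 3, 2].getD · 0) := by decide +kernel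

/-- In the Chevalley group of type F₄ over a finite field of odd order q there are exactly two conjugacy classes of involutions; the centralizer of an involution in one class has order q¹⁶(q² − 1)(q⁴ − 1)(q⁶ − 1)(q⁸ − 1), and in the other class q¹⁰(q² − 1)²(q⁴ − 1)(q⁶ − 1). -/
theorem result {F : Type*} [Field F] [Fintype F] (hF : Odd (Fintype.card F)) : ∃ s t : ↥(Cfsg.Lie.chevF4.group F), orderOf s = 2 ∧ orderOf t = 2 ∧ ¬ IsConj s t ∧ (∀ u : ↥(Cfsg.Lie.chevF4.group F), orderOf u = 2 → IsConj u s ∨ IsConj u t) ∧ Nat.card (Subgroup.centralizer ({s} : Set ↥(Cfsg.Lie.chevF4.group F))) = Fintype.card F ^ 16 * (Fintype.card F ^ 2 - 1) * (Fintype.card F ^ 4 - 1) * (Fintype.card F ^ 6 - 1) * (Fintype.card F ^ 8 - 1) ∧ Nat.card (Subgroup.centralizer ({t} : Set ↥(Cfsg.Lie.chevF4.group F))) = Fintype.card F ^ 10 * (Fintype.card F ^ 2 - 1) ^ 2 * (Fintype.card F ^ 4 - 1) * (Fintype.card F ^ 6 - 1) := by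
  have h2 : (2 : F) ≠ 0 := Ring.two_ne_zero fun e => by have := FiniteField.even_card_of_char_two e; have := Nat.odd_iff.1 hF; omega
  have hq : 1 < Fintype.card F := Fintype.one_lt_card
  have c0 := card_inv hMul_grp (grpSys_grp _ _) (torS_F4 _) h2 d0 14 16 8 (fun a i => g2 [[1, 0, 0, 0], [1, 0, 0, -1], [1, 0, -1, 1], [1, -2, 1, 0],
    [-1, 0, 0, 0], [-1, 2, -1, 0], [-1, 0, 1, -1], [-1, 0, 0, 1]] a i) [0, 6, 5, 4, 7, 3, 2, 1] (by decide +kernel)
  have c3 := card_inv hMul_grp (grpSys_grp _ _) (torS_F4 _) h2 d3 7 10 2 (fun a i => g2 [[0, 0, 0, 1], [0, 0, 0, -1]] a i) [0, 1] (by decide +kernel)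
  have c (g) := conj_inv (g := g) h2 (fun _ _ => torS_F4 _) [_, _] (List.forall_mem_cons.2 ⟨⟨_, _, _, _, _, d0⟩,
    List.forall_mem_singleton.2 ⟨_, _, _, _, _, d3⟩⟩) (lk 0x4050106030402070506000701000200 8 255) (by decide +kernel)
  have o0 := orderOf_sgn (hMul_grp (K := F)) h2 d0
  have o3 := orderOf_sgn (hMul_grp (K := F)) h2 d3
  simp only [List.mem_cons, List.not_mem_nil, or_false, exists_eq_or_imp, exists_eq_left] at c
  generalize StSys.torS (hMul_grp (D := chevF4) (K := F)) _ = s at c0 o0 c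
  generalize StSys.torS (hMul_grp (D := chevF4) (K := F)) _ = t at c3 o3 c
  rw [poinF4_14] at c0
  rw [poin_of_chk agreeF4 ⟨6, 0x988798799798897888978889, 0x505040004030500020403000301020001020000000001, 0x50403020100, 0x12100⟩ 7 0 6
    [0, 1, 2, 3, 4, 5] (by decide +kernel) (by decide +kernel)] at c3
  rw [poinF4_6, poinF4_4, nodeSet_zero, poin_empty, Nat.card_eq_fintype_card (α := F), show _ ^ chevF4.rank = _ ^ 4 from rfl] at c0 c3
  generalize Fintype.card F = q at *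
  refine ⟨s, t, o0, o3, fun h => ?_, c, ?_, ?_⟩
  · refine pow_mul_ne hq (by decide) ?_ ((mul_assoc ..).symm.trans (c3.symm.trans ((card_cent_conj h.symm).trans (c0.trans (mul_assoc ..)))))
    simp [hq.le, ← pow_mul]; norm_num
  · rw [c0]; simp only [List.map, List.sum_cons, List.sum_nil]
    zify [hq.le, Nat.one_le_pow _ _ (pos_of_gt hq)]; ring
  · rw [c3]; simp only [List.map, List.sum_cons, List.sum_nil]
    zify [hq.le, Nat.one_le_pow _ _ (pos_of_gt hq)]; ring

end Cfsg.Agent.S4280
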