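import Cfsg.Statements.S4282
import Cfsg.Agent.H24.HH2
-- import your own Cfsg.Agent.* helpers here

set_option autoImplicit false
open Cfsg

namespace Cfsg.Agent.S4282

/-- A critical case behind the Hall–Higman theorem. Let p ≠ q be primes and G a finite group generated by a normal q-subgroup Q and a cyclic p-subgroup generated by x, such that the centralizer of every non-identity element of that cyclic subgroup is its product with the centre of G. Let K be an algebraically closed field of characteristic p and ρ a faithful representation of G on a nonzero finite-dimensional K-space whose restriction to Q is irreducible. If s is the least exponent with (ρ(x) − 1)^s = 0, then |⟨x⟩| − 1 ≤ s ≤ |⟨x⟩|; and if s = |⟨x⟩| − 1 then |⟨x⟩| − 1 is a power of q and Q is non-abelian. -/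
theorem result {G : Type*} [Group G] [Finite G] (p q : ℕ) [Fact p.Prime] [Fact q.Prime] (hpq : p ≠ q) (Q : Subgroup G) [Q.Normal] (hQ : IsPGroup q Q) (x : G) (hx : IsPGroup p (Subgroup.zpowers x)) (hgen : Q ⊔ Subgroup.zpowers x = ⊤) (hC : ∀ y ∈ Subgroup.zpowers x, y ≠ 1 → Subgroup.centralizer ({y} : Set G) = Subgroup.zpowers x ⊔ Subgroup.center G) {K : Type*} [Field K] [IsAlgClosed K] [CharP K p] {V : Type*} [AddCommGroup V] [Module K V] [FiniteDimensional K V] [Nontrivial V] (ρ : Representation K G V) (hfaith : Function.Injective ρ) (hirr : ∀ W : Submodule K V, (∀ g ∈ Q, Submodule.map (ρ g) W ≤ W) → W = ⊥ ∨ W = ⊤) (s : ℕ) (hs : (ρ x - 1) ^ s = 0) (hmin : ∀ k < s, (ρ x - 1) ^ k ≠ 0) : Nat.card (Subgroup.zpowers x) - 1 ≤ s ∧ s ≤ Nat.card (Subgroup.zpowers x) ∧ (s = Nat.card (Subgroup.zpowers x) - 1 → (∃ b : ℕ, Nat.card (Subgroup.zpowers x) - 1 = q ^ b) ∧ ¬ IsMulCommutative Q) := by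
  have hp : p.Prime := Fact.out
  obtain ⟨n, hn⟩ := IsPGroup.iff_card.1 hx
  obtain ⟨m, hm⟩ := IsPGroup.iff_card.1 hQ
  have hqK : (q : K) ≠ 0 := fun h => hpq ((Nat.prime_dvd_prime_iff_eq hp Fact.out).1 ((CharP.cast_eq_zero_iff K p q).1 h))
  have hxn : x ^ p ^ n = 1 := by rw [← hn, Nat.card_zpowers, pow_orderOf_eq_one]
  have hirr' : ∀ U : Submodule K V, (∀ g : Q, U.map (ρ.comp Q.subtype g) ≤ U) → U = ⊥ ∨ U = ⊤ :=
    fun U h => hirr U fun g hg => h ⟨g, hg⟩
  have hle : s ≤ p ^ n := by
    by_contra! h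
    exact hmin _ h (by rw [H24.HH.sub_one_pow (F := K), ← map_pow, hxn, map_one, sub_self])
  have hs0 : s ≠ 0 := by rintro rfl; simp at hs
  rw [hn]
  rcases hle.eq_or_lt with h | h
  · exact ⟨by omega, hle, fun h' => by omega⟩
  have hx1 : ρ x ≠ 1 := fun h1 => by
    have : x = 1 := hfaith (h1.trans (map_one ρ).symm)
    rw [this] at hn
    simp at hn
    omega
  have hz : ∀ g : Q, (∀ a : Q, a * g = g * a) → ∃ c : K, ρ g = c • 1 := fun g hg =>
    H24.HH.schur (ρ.comp Q.subtype) hirr' fun a => by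
      change ρ g * ρ a = ρ a * ρ g
      rw [← map_mul, ← map_mul, ← Subgroup.coe_mul, ← hg, Subgroup.coe_mul]
  obtain ⟨h1, h2⟩ := (H24.HH.core (ρ.comp Q.subtype) hirr' p (by rw [hm]; simp [hqK]) (MulAut.conjNormal x) (ρ x)
    (fun g => by
      change ρ x * ρ g = ρ (x * g * x⁻¹) * ρ x
      rw [← map_mul, ← map_mul, inv_mul_cancel_right])
    (by rw [← map_pow, hxn, map_one]) (by rw [← map_pow, hxn, map_one]) (fun g => by
      refine or_iff_not_imp_right.2 fun h3 => ?_
      push Not at h3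
      obtain ⟨i, h3, h4⟩ := h3
      rw [← map_pow] at h3
      have h5 : (g : G) ∈ Subgroup.centralizer ({x ^ i} : Set G) := by
        rw [Subgroup.mem_centralizer_singleton_iff]
        exact (mul_inv_eq_iff_eq_mul.1 (congrArg Subtype.val h3)).symm
      rw [hC _ (Subgroup.npow_mem_zpowers x i) (fun h => h4 (by
        rw [← hn, Nat.card_zpowers]; exact orderOf_dvd_of_pow_eq_one h))] at h5
      obtain ⟨y, hy, z, hz', h6⟩ := Subgroup.mem_sup_of_normal_right.1 h5
      have hc : Commute y (g : G) := by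
        rw [← h6]; exact (Commute.refl y).mul_right (Subgroup.mem_center_iff.1 hz' y)
      have h7 : (g : G) ^ p ^ n ∈ Subgroup.center G := by
        obtain ⟨j, rfl⟩ := hy
        rw [← h6, Commute.mul_pow (Subgroup.mem_center_iff.1 hz' _), ← zpow_natCast (x ^ j), ← zpow_mul, mul_comm j,
          zpow_mul, zpow_natCast, hxn, one_zpow, one_mul]
        exact pow_mem hz' _
      have h8 : (g : G) ∈ Subgroup.center G := by
        have h9 : (orderOf (g : G)).Coprime (p ^ n) := by
          rw [Subgroup.orderOf_coe]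
          exact Nat.Coprime.coprime_dvd_left (hm ▸ orderOf_dvd_natCard g)
            (Nat.coprime_pow_primes _ _ Fact.out hp hpq.symm)
        obtain ⟨k, hk⟩ := exists_pow_eq_self_of_coprime h9.symm
        rw [← hk]; exact pow_mem h7 _
      exact hz g fun a => Subtype.ext (Subgroup.mem_center_iff.1 h8 a)) hs h).resolve_left hx1
  refine ⟨h1.ge, hle, fun _ => ⟨h2 ▸ H24.HH.finrank_pow q hqK m Q hm V _ hirr', fun hc => hx1 ?_⟩⟩
  obtain ⟨v, hv⟩ := exists_ne (0 : V)
  have h3 := (hirr (K ∙ v) fun g hg => by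
    obtain ⟨c, hc⟩ := hz ⟨g, hg⟩ fun a => hc.is_comm.comm _ _
    rw [Submodule.map_span, Set.image_singleton, Submodule.span_singleton_le_iff_mem]
    exact Submodule.mem_span_singleton.2 ⟨c, congr($hc.symm v)⟩).resolve_left (by simpa using hv)
  have h4 := finrank_span_singleton (K := K) hv
  rw [h3, finrank_top, h2, ← h1] at h4
  rwa [h4, pow_one, sub_eq_zero] at hs

end Cfsg.Agent.S4282
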