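import Cfsg.Statements.S4283
import Mathlib
import Cfsg.Agent.H02.Frobenius
import Cfsg.Agent.H27.ClassSize
-- import your own Cfsg.Agent.* helpers here

set_option autoImplicit false
open Cfsg

namespace Cfsg.Agent.S4283

open scoped Pointwise commutatorElement

/-- Let G be a finite group with centre Z and let K, H be abelian subgroups of G containing Z such that G/Z is a Frobenius group with complement H/Z and kernel K/Z. Then the conjugacy class sizes of G are exactly 1, [G : K] and [G : H], and these two indices are coprime. (This is the converse half of the characterization of finite groups whose conjugacy class sizes are exactly 1, m and n with m and n coprime.) -/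
theorem result {G : Type*} [Group G] [Finite G] (K H : Subgroup G) (hZK : Subgroup.center G ≤ K) (hZH : Subgroup.center G ≤ H) (hK : IsMulCommutative K) (hH : IsMulCommutative H) (hFrob : Cfsg.IsFrobeniusComplement (H.map (QuotientGroup.mk' (Subgroup.center G)))) (hker : Cfsg.frobeniusKernel (H.map (QuotientGroup.mk' (Subgroup.center G))) = (K.map (QuotientGroup.mk' (Subgroup.center G)) : Set (G ⧸ Subgroup.center G))) : Set.range (fun x : G => (Subgroup.centralizer ({x} : Set G)).index) = ({1, K.index, H.index} : Set ℕ) ∧ K.index.Coprime H.index := by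
  set π := QuotientGroup.mk' (Subgroup.center G) with hπ
  have hs : Function.Surjective π := QuotientGroup.mk'_surjective _
  have hmem : ∀ L : Subgroup G, Subgroup.center G ≤ L → ∀ x, π x ∈ L.map π → x ∈ L := by
    intro L hL x hx
    rw [← Subgroup.mem_comap, Subgroup.comap_map_eq, QuotientGroup.ker_mk', sup_eq_left.2 hL] at hx
    exact hx
  have hne : ∀ x, x ∉ Subgroup.center G → π x ≠ 1 := fun x hx e =>
    hx ((QuotientGroup.eq_one_iff x).1 e)
  have hcent : ∀ L : Subgroup G, Subgroup.center G ≤ L → IsMulCommutative L → ∀ x ∈ L,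
      Subgroup.centralizer {π x} ≤ L.map π → Subgroup.centralizer {x} = L := by
    intro L hL hc x hx h
    apply le_antisymm
    · intro y hy
      apply hmem L hL y (h _)
      rw [Subgroup.mem_centralizer_singleton_iff] at hy ⊢
      rw [← map_mul, hy, map_mul]
    · intro y hy
      rw [Subgroup.mem_centralizer_singleton_iff]
      exact congrArg Subtype.val (hc.is_comm.comm (⟨y, hy⟩ : L) ⟨x, hx⟩)
  have hKc : ∀ x ∈ K, x ∉ Subgroup.center G → Subgroup.centralizer {x} = K := fun x hx hz =>
    hcent K hZK hK x hx (H02.IsFrob.centralizer_le_of_coe_eq hFrob hker.symm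
      (Subgroup.mem_map_of_mem π hx) (hne x hz))
  have hHc : ∀ x ∈ H, x ∉ Subgroup.center G → Subgroup.centralizer {x} = H := fun x hx hz =>
    hcent H hZH hH x hx (H02.IsFrob.centralizer_le hFrob (Subgroup.mem_map_of_mem π hx) (hne x hz))
  have hex : ∀ L : Subgroup G, L.map π ≠ ⊥ → ∃ x ∈ L, x ∉ Subgroup.center G := by
    intro L hL
    by_contra hc
    push Not at hc
    apply hL
    rw [Subgroup.map_eq_bot_iff, QuotientGroup.ker_mk']; exact hc
  constructor
  · ext n
    simp only [Set.mem_range, Set.mem_insert_iff, Set.mem_singleton_iff]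
    constructor
    · rintro ⟨x, rfl⟩
      by_cases hz : x ∈ Subgroup.center G
      · exact Or.inl (H27.cs_eq_one_iff.2 hz)
      by_cases hk : x ∈ K
      · exact Or.inr (Or.inl (by rw [hKc x hk hz]))
      right; right
      have h1 : π x ∉ Cfsg.frobeniusKernel (H.map π) := by
        rw [hker]; exact fun h => hk (hmem K hZK x h)
      obtain ⟨-, g, hg⟩ := H02.notMem_frobKer.1 h1
      obtain ⟨g, rfl⟩ := hs g
      rw [H02.mem_conj_smul_iff, ← map_inv, ← map_mul, ← map_mul] at hg
      have h2 := hmem H hZH _ hg
      have h3 : g⁻¹ * x * g ∉ Subgroup.center G := by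
        intro h
        have := (inferInstance : (Subgroup.center G).Normal).conj_mem _ h g
        exact hz (by simpa [mul_assoc] using this)
      rw [← hHc _ h2 h3]
      have := H27.cs_conj x g⁻¹
      rw [inv_inv] at this
      exact this.symm
    · rintro (rfl | rfl | rfl)
      · exact ⟨1, H27.cs_eq_one_iff.2 (one_mem _)⟩
      · obtain ⟨x, hx, hz⟩ := hex K (H02.IsFrob.ne_bot_of_coe_eq hFrob hker.symm)
        exact ⟨x, by rw [hKc x hx hz]⟩
      · obtain ⟨x, hx, hz⟩ := hex H hFrob.1
        exact ⟨x, by rw [hHc x hx hz]⟩
  · have h1 := (H02.IsFrob.isComplement'_of_coe_eq hFrob hker.symm).symm.index_eq_card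
    have h2 := H02.IsFrob.coprime hFrob
    rw [← h1, Subgroup.index_map_eq _ hs (by rwa [QuotientGroup.ker_mk']),
      Subgroup.index_map_eq _ hs (by rwa [QuotientGroup.ker_mk'])] at h2
    exact h2

end Cfsg.Agent.S4283
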