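import Mathlib
import Cfsg.Statements.S4291
import Cfsg.Agent.H18.FC5

set_option autoImplicit false
open scoped Pointwise
open Cfsg

namespace Cfsg.Agent.S4291

open H18 Subgroup

theorem zinv {X : Type*} [Group X] [Finite X] [IsZGroup X] {u v : X} (hu : u * u = 1) (hv : v * v = 1)
    (hc : u * v = v * u) (u1 : u ≠ 1) (v1 : v ≠ 1) : u = v := by
  have hcm := isMulCommutative_closure (k := ({u, v} : Set X)) (by rintro x (rfl | rfl) y (rfl | rfl) <;> simp [hc])
  have hsq : ∀ x ∈ closure ({u, v} : Set X), x * x = 1 := fun x hx => by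
    induction hx using closure_induction with
    | mem x hx => rcases hx with rfl | rfl <;> assumption
    | one => simp
    | mul x y hx hy ihx ihy =>
      have : y * x = x * y := congrArg Subtype.val (hcm.is_comm.comm ⟨y, hy⟩ ⟨x, hx⟩)
      rw [mul_assoc, ← mul_assoc y, this, mul_assoc, ihy, mul_one, ihx]
    | inv x _ ih => rw [← mul_inv_rev, ih, inv_one]
  have hP : IsPGroup 2 (closure ({u, v} : Set X)) := fun x => ⟨1, Subtype.ext (by simpa [pow_two] using hsq x x.2)⟩
  haveI := hP.isCyclic_of_isZGroup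
  have ou : orderOf u = 2 := orderOf_eq_prime (by rwa [pow_two]) u1
  have ov : orderOf v = 2 := orderOf_eq_prime (by rwa [pow_two]) v1
  have := H07.le_of_card_dvd_of_isCyclic (Z := closure {u, v}) (A := zpowers u) (B := zpowers v)
    (zpowers_le.2 (subset_closure (by simp))) (zpowers_le.2 (subset_closure (by simp)))
    (by rw [Nat.card_zpowers, Nat.card_zpowers, ou, ov]) (mem_zpowers u)
  classical
  rw [mem_zpowers_iff_mem_range_orderOf, ov] at this
  simp only [Finset.mem_image, Finset.mem_range] at this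
  obtain ⟨n, hn, rfl⟩ := this
  interval_cases n
  · simp at u1
  · simp

/-- no non-trivial normal Z-subgroup -/
def NZ (A : Type*) [Group A] : Prop := ∀ N : Subgroup A, N.Normal → IsZGroup N → N = ⊥

theorem s4_aux : ∀ s : Equiv.Perm (Fin 4), s ≠ 1 → ∃ a b : Equiv.Perm (Fin 4), Equiv.Perm.sign a = 1 ∧
    Equiv.Perm.sign b = 1 ∧ ∀ u, u = s * (a * s⁻¹ * a⁻¹) → u * u = 1 ∧ u ≠ 1 ∧ u ≠ b * u * b⁻¹ ∧
      u * (b * u * b⁻¹) = b * u * b⁻¹ * u := by decide +kernel

theorem nz_aux {A : Type*} [Group A] [Finite A] (h : ∀ s : A, s ≠ 1 → ∃ a b : A, ∀ u, u = s * (a * s⁻¹ * a⁻¹) →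
    u * u = 1 ∧ u ≠ 1 ∧ u ≠ b * u * b⁻¹ ∧ u * (b * u * b⁻¹) = b * u * b⁻¹ * u) : NZ A := fun N hN hZ => by
  rw [eq_bot_iff]
  intro s hs
  by_contra e
  obtain ⟨a, b, h⟩ := h s e
  obtain ⟨h1, h2, h3, h4⟩ := h _ rfl
  have m1 : s * (a * s⁻¹ * a⁻¹) ∈ N := mul_mem hs (hN.conj_mem _ (inv_mem hs) a)
  generalize s * (a * s⁻¹ * a⁻¹) = u at *
  refine h3 (congrArg Subtype.val (zinv (X := N) (u := ⟨u, m1⟩) (v := ⟨_, hN.conj_mem _ m1 b⟩) (Subtype.ext h1)
    (Subtype.ext ?_) (Subtype.ext h4) (fun e => h2 (congrArg Subtype.val e)) fun e => h2 ?_))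
  · change b * u * b⁻¹ * (b * u * b⁻¹) = 1
    rw [conj_mul, h1]; simp
  · simpa [mul_inv_eq_iff_eq_mul] using (congrArg Subtype.val e : b * u * b⁻¹ = 1)

theorem nz_S4 : NZ (Equiv.Perm (Fin 4)) := nz_aux fun s hs => by
  obtain ⟨a, b, -, -, h⟩ := s4_aux s hs
  exact ⟨a, b, h⟩

theorem nz_A4 : NZ (alternatingGroup (Fin 4)) := nz_aux fun s hs => by
  obtain ⟨a, b, ha, hb, h⟩ := s4_aux s fun e => hs (Subtype.ext e)
  refine ⟨⟨a, ha⟩, ⟨b, hb⟩, fun u hu => ?_⟩
  obtain ⟨h1, h2, h3, h4⟩ := h u (congrArg Subtype.val hu)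
  exact ⟨Subtype.ext h1, fun e => h2 (congrArg Subtype.val e), fun e => h3 (congrArg Subtype.val e), Subtype.ext h4⟩

theorem a5_not_z : ¬ IsZGroup (alternatingGroup (Fin 5)) := fun _ =>
  absurd (congrArg Subtype.val (zinv (X := alternatingGroup (Fin 5))
    (u := ⟨Equiv.swap 0 1 * Equiv.swap 2 3, Equiv.Perm.mem_alternatingGroup.2 (by decide)⟩) (v := ⟨Equiv.swap 0 2 * Equiv.swap 1 3, Equiv.Perm.mem_alternatingGroup.2 (by decide)⟩)
    (by decide) (by decide) (by decide) (by decide) (by decide))) (by decide)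

theorem nz_A5 : NZ (alternatingGroup (Fin 5)) := fun N hN hZ =>
  hN.eq_bot_or_eq_top.resolve_right (by
    rintro rfl
    exact a5_not_z (IsZGroup.of_surjective (f := Subgroup.subtype ⊤) fun x => ⟨⟨x, trivial⟩, rfl⟩))

theorem nz_S5 : NZ (Equiv.Perm (Fin 5)) := fun N hN hZ => by
  by_contra e
  exact a5_not_z (IsZGroup.of_injective (inclusion_injective
    (Equiv.Perm.alternatingGroup_le_of_normal (by simp) ((N.nontrivial_iff_ne_bot).2 e))))

variable {G : Type*} [Group G] [Finite G]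

theorem alt_le {α : Type*} [Fintype α] [DecidableEq α] [Nontrivial α] {H : Subgroup (Equiv.Perm α)}
    (h : alternatingGroup α ≤ H) : H = ⊤ ∨ H = alternatingGroup α := by
  rcases (Nat.dvd_prime Nat.prime_two).1 (alternatingGroup.index_eq_two (α := α) ▸ index_dvd_of_le h) with e | e
  · exact Or.inl (index_eq_one.1 e)
  · exact Or.inr (Equiv.Perm.eq_alternatingGroup_of_index_eq_two e)

/-- big quotient -/
def P3 (N : Subgroup G) : Prop := 4 < N.index ∧ ∀ K : Subgroup G, K.Normal → IsZGroup K → K ≤ N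

theorem p3_of {A : Type*} [Group A] (hA : NZ A) (h4 : 4 < Nat.card A) {N : Subgroup G}
    (h : ∃ f : G →* A, Function.Surjective f ∧ f.ker = N) : P3 N := by
  obtain ⟨f, hf, rfl⟩ := h
  refine ⟨by rwa [index_ker, MonoidHom.range_eq_top.2 hf, card_top], fun K hK hZ => (map_eq_bot_iff K).1 ?_⟩
  exact hA _ (hK.map f hf) (IsZGroup.of_surjective (f.subgroupMap_surjective K))

theorem d2_aux : ∀ a b x y : DihedralGroup 2 × DihedralGroup 2, x ∈ ({1, a, b, a * b} : Finset _) →
    y ∈ ({1, a, b, a * b} : Finset _) → x * y ∈ ({1, a, b, a * b} : Finset _) := by decide +kernel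

theorem d2_sq : ∀ a : DihedralGroup 2 × DihedralGroup 2, a⁻¹ = a := by decide

theorem p2_unique (h : IsFC G) (f g : G →* DihedralGroup 2) (hf : Function.Surjective f) : f.ker ≤ g.ker := by
  obtain ⟨P⟩ : Nonempty (Sylow 2 G) := inferInstance
  obtain ⟨a, b, hab⟩ : ∃ a b : G, (P : Subgroup G) ≤ closure {a, b} := by
    rcases h.cyc_or_quat P.isPGroup' with hc | ⟨-, n, ⟨e⟩⟩
    · obtain ⟨a, ha⟩ := (Subgroup.isCyclic_iff_exists_zpowers_eq_top _).1 hc
      exact ⟨a, a, ha ▸ zpowers_le.2 (subset_closure (by simp))⟩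
    · obtain ⟨a, b, hq⟩ := H07.exists_qData e
      have ha : a ∈ closure {a, b} := subset_closure (by simp)
      have hb : b ∈ closure {a, b} := subset_closure (by simp)
      refine ⟨a, b, fun x hx => ?_⟩
      rcases hq.cases x hx with ⟨i, rfl⟩ | ⟨i, rfl⟩
      exacts [zpow_mem ha i, mul_mem hb (zpow_mem ha i)]
  let φ := f.prod g
  let T : Subgroup (DihedralGroup 2 × DihedralGroup 2) :=
    { carrier := (({1, φ a, φ b, φ a * φ b} : Finset _) : Set _)
      mul_mem' := d2_aux _ _ _ _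
      one_mem' := by simp
      inv_mem' := fun {x} hx => by rwa [d2_sq] }
  have h1 : φ.range ≤ T := by
    have hp : IsPGroup 2 φ.range := fun x => ⟨1, Subtype.ext (by
      rw [pow_one, pow_two]; exact mul_eq_one_iff_inv_eq.2 (d2_sq _))⟩
    have h2 : (P : Subgroup G).map φ.rangeRestrict = ⊤ :=
      ((P.mapSurjective φ.rangeRestrict_surjective).is_maximal' (hp.to_subgroup ⊤) le_top).symm
    rintro x hx
    obtain ⟨y, hy, e⟩ : (⟨x, hx⟩ : φ.range) ∈ (P : Subgroup G).map φ.rangeRestrict := h2 ▸ mem_top _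
    obtain rfl : φ y = x := congrArg Subtype.val e
    exact (closure_le (T.comap φ)).2 (by rintro _ (rfl | rfl) <;> simp [T]) (hab hy)
  have h2 : (f.ker ⊓ g.ker).index ≤ 4 := by
    rw [show f.ker ⊓ g.ker = φ.ker by ext; simp [φ], index_ker]
    refine (card_le_of_le h1).trans ?_
    exact ((Nat.card_coe_set_eq _).trans (Set.ncard_coe_finset _)).le.trans Finset.card_le_four
  have h3 : f.ker.index = 4 := by
    rw [index_ker, MonoidHom.range_eq_top.2 hf, card_top, DihedralGroup.nat_card]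
  have h4 := relIndex_mul_index (inf_le_left : f.ker ⊓ g.ker ≤ f.ker)
  have h5 : (f.ker ⊓ g.ker).index ≠ 0 := index_ne_zero_of_finite
  rw [h3] at h4
  exact (relIndex_eq_one.1 (show (f.ker ⊓ g.ker).relIndex f.ker = 1 by omega)).trans inf_le_right

/-- the Frattini quotient of a quaternion group -/
def qd (n : ℕ) : QuaternionGroup (2 ^ (n + 1)) →* DihedralGroup 2 :=
  MonoidHom.mk' (fun x => match x with
    | .a i => .r (ZMod.castHom (dvd_mul_right 2 _) (ZMod 2) i)
    | .xa i => .sr (ZMod.castHom (dvd_mul_right 2 _) (ZMod 2) i)) (by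
    have : ((2 : ZMod 2)) = 0 := rfl
    rintro (i | i) (j | j) <;> simp only [QuaternionGroup.a_mul_a, QuaternionGroup.a_mul_xa, QuaternionGroup.xa_mul_a,
      QuaternionGroup.xa_mul_xa, DihedralGroup.r_mul_r, DihedralGroup.r_mul_sr, DihedralGroup.sr_mul_r,
      DihedralGroup.sr_mul_sr, map_add, map_sub, map_natCast]
    simp [this])

theorem qd_surj (n : ℕ) : Function.Surjective (qd n) := by
  rintro (i | i)
  · obtain ⟨j, rfl⟩ := ZMod.castHom_surjective (dvd_mul_right 2 (2 ^ (n + 1))) i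
    exact ⟨.a j, rfl⟩
  · obtain ⟨j, rfl⟩ := ZMod.castHom_surjective (dvd_mul_right 2 (2 ^ (n + 1))) i
    exact ⟨.xa j, rfl⟩

theorem qd_ker (n : ℕ) : (qd n).ker ≤ zpowers (.a 1) := by
  rintro (i | i) h
  · exact ⟨i.val, by simp only [zpow_natCast, QuaternionGroup.a_one_pow, ZMod.natCast_zmod_val]⟩
  · cases h

/-- Let G be a finite group that occurs as a Frobenius complement. Then G has exactly one normal subgroup N such that every Sylow subgroup of N is cyclic and the quotient of G by N is trivial or isomorphic to one of the following five groups: the Klein four-group, the alternating group of degree 4, the symmetric group of degree 4, the alternating group of degree 5, the symmetric group of degree 5. (The quotient is described by a surjective homomorphism with kernel N; the Klein four-group is written as the dihedral group of order 4.) -/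
theorem result {G : Type*} [Group G] [Finite G]
    (hFC : (∃ (L : Type) (_ : Group L) (_ : Finite L) (H : Subgroup L), Cfsg.IsFrobeniusComplement H ∧ Nonempty (G ≃* H))) :
    ∃! N : Subgroup G, N.Normal ∧ (∀ (p : ℕ) [Fact p.Prime] (P : Sylow p N), IsCyclic P) ∧
      (N = ⊤ ∨
        (∃ f : G →* DihedralGroup 2, Function.Surjective f ∧ f.ker = N) ∨
        (∃ f : G →* alternatingGroup (Fin 4), Function.Surjective f ∧ f.ker = N) ∨
        (∃ f : G →* Equiv.Perm (Fin 4), Function.Surjective f ∧ f.ker = N) ∨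
        (∃ f : G →* alternatingGroup (Fin 5), Function.Surjective f ∧ f.ker = N) ∨
        (∃ f : G →* Equiv.Perm (Fin 5), Function.Surjective f ∧ f.ker = N)) := by
  have h := IsFC.of_frob hFC
  have hz : ∀ N : Subgroup G, (∀ (p : ℕ) [Fact p.Prime] (P : Sylow p N), IsCyclic P) ↔ IsZGroup N := fun N =>
    ⟨fun h => ⟨fun p hp P => by haveI := Fact.mk hp; exact h p P⟩, fun _ _ _ _ => inferInstance⟩
  refine existsUnique_of_exists_of_unique ?_ ?_
  · by_cases hs : Group.IsSolvable G
    · by_cases h2 : HasNormalPComplement 2 G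
      · obtain ⟨P, O, hO, hc⟩ := h2
        have ez : IsCyclic P → ∃ N : Subgroup G, N.Normal ∧ IsZGroup N ∧ N = ⊤ := fun hP => by
          haveI := h.zgroup fun Q hQ => by
            obtain ⟨R, hR⟩ := hQ.exists_le_sylow
            haveI := isCyclic_of_surjective _ (P.equiv R).surjective
            exact isCyclic_of_injective _ (inclusion_injective hR)
          exact ⟨⊤, inferInstance, inferInstance, rfl⟩
        rcases h.cyc_or_quat P.isPGroup' with hP | ⟨-, n, ⟨e⟩⟩
        · obtain ⟨N, h1, h2, h3⟩ := ez hP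
          exact ⟨N, h1, (hz N).2 h2, Or.inl h3⟩
        rcases n with _ | n
        · haveI := QuaternionGroup.quaternionGroup_one_isCyclic
          obtain ⟨N, h1, h2, h3⟩ := ez (isCyclic_of_surjective e.symm e.symm.surjective)
          exact ⟨N, h1, (hz N).2 h2, Or.inl h3⟩
        let π := (hc.symm.QuotientMulEquiv.trans e).toMonoidHom.comp (QuotientGroup.mk' O)
        have hπ : Function.Surjective π := (hc.symm.QuotientMulEquiv.trans e).surjective.comp (QuotientGroup.mk'_surjective O)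
        refine ⟨((qd n).comp π).ker, inferInstance, (hz _).2 ((h.sub _).zgroup fun Q hQ => ?_),
          Or.inr (Or.inl ⟨_, (qd_surj n).comp hπ, rfl⟩)⟩
        refine isCyclic_of_injective (((π.comp (Subgroup.subtype _)).comp Q.subtype).codRestrict (zpowers (.a 1))
          fun x => qd_ker n x.1.2) ((injective_iff_map_eq_one _).2 fun x hx => ?_)
        have h1 : π x = 1 := congrArg Subtype.val hx
        have h2 : ((x : ((qd n).comp π).ker) : G) ∈ O :=
          (QuotientGroup.eq_one_iff _).1 ((map_eq_one_iff _ (hc.symm.QuotientMulEquiv.trans e).injective).1 h1)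
        obtain ⟨k, hk⟩ := IsPGroup.iff_orderOf.1 hQ x
        refine orderOf_eq_one_iff.1 (Nat.eq_one_of_dvd_coprimes
          ((H03.coprime_card_of_isComplement'_sylow hc).pow_right k) ?_ hk.dvd)
        rw [← orderOf_coe, ← orderOf_coe]
        exact O.orderOf_dvd_natCard h2
      · obtain ⟨⟨e⟩, g, g1, g2⟩ := h.q8_normal h2
        obtain ⟨f, k1, k2, -, k3, -⟩ := h.c4 e
        have k4 := k3 g g1 g2
        refine ⟨f.ker, inferInstance, (hz _).2 k2, Or.inr (Or.inr ?_)⟩
        rcases alt_le k4 with e | e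
        · exact Or.inr (Or.inl ⟨f, MonoidHom.range_eq_top.1 e, rfl⟩)
        · exact Or.inl ⟨f.codRestrict _ fun g => e ▸ ⟨g, rfl⟩, fun ⟨x, hx⟩ => by
            obtain ⟨g, rfl⟩ : x ∈ f.range := e ▸ hx
            exact ⟨g, rfl⟩, MonoidHom.ker_codRestrict _ _ _⟩
    · obtain ⟨θ, h1, h2⟩ := h.sl25_of_not_solvable hs
      obtain ⟨f, k1, k2, k3, -⟩ := h.c5 θ h1 h2
      refine ⟨f.ker, inferInstance, (hz _).2 k3, Or.inr (Or.inr (Or.inr (Or.inr ?_)))⟩
      rcases alt_le (k2 ▸ map_le_range f _) with e | e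
      · exact Or.inr ⟨f, MonoidHom.range_eq_top.1 e, rfl⟩
      · exact Or.inl ⟨f.codRestrict _ fun g => e ▸ ⟨g, rfl⟩, fun ⟨x, hx⟩ => by
          obtain ⟨g, rfl⟩ : x ∈ f.range := e ▸ hx
          exact ⟨g, rfl⟩, MonoidHom.ker_codRestrict _ _ _⟩
  have c4 : Nat.card (alternatingGroup (Fin 4)) = 12 := by rw [nat_card_alternatingGroup]; simp; rfl
  have red : ∀ N : Subgroup G, (N = ⊤ ∨
        (∃ f : G →* DihedralGroup 2, Function.Surjective f ∧ f.ker = N) ∨
        (∃ f : G →* alternatingGroup (Fin 4), Function.Surjective f ∧ f.ker = N) ∨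
        (∃ f : G →* Equiv.Perm (Fin 4), Function.Surjective f ∧ f.ker = N) ∨
        (∃ f : G →* alternatingGroup (Fin 5), Function.Surjective f ∧ f.ker = N) ∨
        (∃ f : G →* Equiv.Perm (Fin 5), Function.Surjective f ∧ f.ker = N)) →
        N = ⊤ ∨ (∃ f : G →* DihedralGroup 2, Function.Surjective f ∧ f.ker = N) ∨ P3 N := by
    rintro N (k | k | k | k | k | k)
    · exact Or.inl k
    · exact Or.inr (Or.inl k)
    · exact Or.inr (Or.inr (p3_of nz_A4 (by rw [c4]; norm_num) k))
    · exact Or.inr (Or.inr (p3_of nz_S4 (by rw [Nat.card_perm, Nat.card_fin]; decide) k))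
    · exact Or.inr (Or.inr (p3_of nz_A5 (by rw [H08.card_A5]; norm_num) k))
    · exact Or.inr (Or.inr (p3_of nz_S5 (by rw [Nat.card_perm, Nat.card_fin]; decide) k))
  have key : ∀ N K : Subgroup G, N.Normal → IsZGroup N → K.Normal → IsZGroup K →
      (N = ⊤ ∨ (∃ f : G →* DihedralGroup 2, Function.Surjective f ∧ f.ker = N) ∨ P3 N) →
      (K = ⊤ ∨ (∃ f : G →* DihedralGroup 2, Function.Surjective f ∧ f.ker = K) ∨ P3 K) → N ≤ K := by
    rintro N K n1 n2 k1 k2 hN (rfl | ⟨g, hg, rfl⟩ | hK)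
    · exact le_top
    · rcases hN with rfl | ⟨f, hf, rfl⟩ | hN
      · haveI := IsZGroup.of_surjective (f := g.comp (Subgroup.subtype ⊤)) (hg.comp fun x => ⟨⟨x, trivial⟩, rfl⟩)
        exact absurd (zinv (u := DihedralGroup.r (n := 2) 1) (v := .sr 0) (by decide) (by decide) (by decide)
          (by decide) (by decide)) (by decide)
      · exact p2_unique h f g hf
      · have h1 := Nat.le_of_dvd (Nat.pos_of_ne_zero index_ne_zero_of_finite) (index_dvd_of_le (hN.2 _ k1 k2))
        rw [index_ker, MonoidHom.range_eq_top.2 hg, card_top, DihedralGroup.nat_card] at h1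
        have := hN.1
        omega
    · exact hK.2 N n1 n2
  rintro N K ⟨n1, n2, n3⟩ ⟨k1, k2, k3⟩
  exact le_antisymm (key N K n1 ((hz _).1 n2) k1 ((hz _).1 k2) (red _ n3) (red _ k3))
    (key K N k1 ((hz _).1 k2) n1 ((hz _).1 n2) (red _ k3) (red _ n3))

end Cfsg.Agent.S4291
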