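import Mathlib
import Cfsg.Statements.S4292
import Cfsg.Agent.H21.FCx

set_option autoImplicit false
open Cfsg

namespace Cfsg.Agent.S4292

/-- Let A and B be nontrivial finite groups. Then the direct product A × B occurs as a Frobenius complement if and only if A and B both occur as Frobenius complements and the orders of A and B are coprime. -/
theorem result {A B : Type*} [Group A] [Finite A] [Nontrivial A] [Group B] [Finite B] [Nontrivial B] :
    (∃ (L : Type) (_ : Group L) (_ : Finite L) (H : Subgroup L), Cfsg.IsFrobeniusComplement H ∧ Nonempty ((A × B) ≃* H)) ↔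
    ((∃ (L : Type) (_ : Group L) (_ : Finite L) (H : Subgroup L), Cfsg.IsFrobeniusComplement H ∧ Nonempty (A ≃* H)) ∧
     (∃ (L : Type) (_ : Group L) (_ : Finite L) (H : Subgroup L), Cfsg.IsFrobeniusComplement H ∧ Nonempty (B ≃* H)) ∧
     (Nat.card A).Coprime (Nat.card B)) := by
  constructor
  · intro h
    have h := H18.IsFC.of_frob h
    refine ⟨H21.frob_of_isFC (h.of_inj (MonoidHom.inl A B) fun a b e => congrArg Prod.fst e),
      H21.frob_of_isFC (h.of_inj (MonoidHom.inr A B) fun a b e => congrArg Prod.snd e), ?_⟩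
    refine Nat.coprime_of_dvd fun p hp h1 h2 => ?_
    haveI := Fact.mk hp
    obtain ⟨a, ha⟩ := exists_prime_orderOf_dvd_card' p h1
    obtain ⟨b, hb⟩ := exists_prime_orderOf_dvd_card' p h2
    obtain ⟨k, hk⟩ := h.mem_zpowers_of_comm (a := (a, 1)) (b := (1, b)) (by simp) (by simp [Prod.orderOf_mk, ha, hb])
    have : a = 1 := by simpa using (congrArg Prod.fst hk).symm
    exact hp.ne_one (by rw [← ha, this, orderOf_one])
  · rintro ⟨hA, hB, hc⟩
    obtain ⟨n, ρ, hρ⟩ := (H18.IsFC.of_frob hA).exists_rep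
    obtain ⟨m, σ, hσ⟩ := (H18.IsFC.of_frob hB).exists_rep
    let τ := Representation.tprod (ρ.comp (MonoidHom.fst A B)) (σ.comp (MonoidHom.snd A B))
    haveI : Nontrivial (TensorProduct ℂ (Fin (n + 1) → ℂ) (Fin (m + 1) → ℂ)) :=
      Module.nontrivial_of_finrank_pos (R := ℂ) (by simp)
    let τ' : Representation ℤ (A × B) (TensorProduct ℂ (Fin (n + 1) → ℂ) (Fin (m + 1) → ℂ)) :=
      { toFun := fun g => (τ g).restrictScalars ℤ
        map_one' := by rw [map_one]; rfl
        map_mul' := fun a b => by rw [map_mul]; rfl }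
    refine H21.frob_of_isFC (H21.isFC_of_add τ' ?_)
    rintro ⟨a, b⟩ hg v hv
    have hv : τ (a, b) v = v := hv
    have hk : ∀ k : ℕ, τ (a ^ k, b ^ k) v = v := fun k => by
      rw [← Prod.pow_mk, map_pow, Module.End.pow_apply]; exact Function.iterate_fixed hv k
    by_cases ha : a = 1
    · have hb : b ≠ 1 := fun e => hg (by rw [ha, e]; rfl)
      refine ((Module.End.isUnit_iff _).1 ((hσ b hb).map (Module.End.lTensorAlgHom ℂ _ (Fin (n + 1) → ℂ)))).1 ?_
      rw [map_sub, map_one, map_zero, LinearMap.sub_apply, sub_eq_zero]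
      subst ha
      have h2 : TensorProduct.map (ρ 1) (σ b) v = v := hv
      rw [map_one] at h2
      exact h2
    · have h1 : a ^ Nat.card B ≠ 1 := fun e => ha (orderOf_eq_one_iff.1
        (Nat.eq_one_of_dvd_coprimes hc (orderOf_dvd_natCard a) (orderOf_dvd_of_pow_eq_one e)))
      refine ((Module.End.isUnit_iff _).1 ((hρ _ h1).map (Module.End.rTensorAlgHom ℂ _ (Fin (m + 1) → ℂ)))).1 ?_
      rw [map_sub, map_one, map_zero, LinearMap.sub_apply, sub_eq_zero]
      have := hk (Nat.card B)
      rw [pow_card_eq_one'] at this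
      have h2 : TensorProduct.map (ρ (a ^ Nat.card B)) (σ 1) v = v := this
      rw [map_one] at h2
      exact h2

end Cfsg.Agent.S4292
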