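import Mathlib
import Cfsg.Statements.S4293
import Cfsg.Agent.H21.FCx

set_option autoImplicit false
open Cfsg

namespace Cfsg.Agent.S4293

/-- A nontrivial finite subgroup of the multiplicative group of a division ring occurs as a Frobenius complement of some finite Frobenius group. -/
theorem result {D : Type*} [DivisionRing D] (H : Subgroup Dˣ) [Finite H] (hH : H ≠ ⊥) :
    ∃ (L : Type) (_ : Group L) (_ : Finite L) (C : Subgroup L), Cfsg.IsFrobeniusComplement C ∧ Nonempty (H ≃* C) := by
  haveI := (H.nontrivial_iff_ne_bot).2 hH
  refine H21.frob_of_isFC (H21.isFC_of_add (Representation.ofDistribMulAction ℤ H D) fun g hg v hv => ?_)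
  by_contra h0
  have : ((g : Dˣ) : D) * v = 1 * v := by rw [one_mul]; exact hv
  exact hg (Subtype.ext (Units.ext (mul_right_cancel₀ h0 this)))

end Cfsg.Agent.S4293
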