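import Cfsg.Statements.S4294
import Cfsg.Agent.H24.Am2
import Cfsg.Agent.S3359
import Cfsg.Agent.S4293
-- import your own Cfsg.Agent.* helpers here

set_option autoImplicit false
open Cfsg

namespace Cfsg.Agent.S4294

/-- A finite non-solvable subgroup of the multiplicative group of a division ring is isomorphic to the binary icosahedral group SL(2,5). -/
theorem result {D : Type*} [DivisionRing D] (H : Subgroup Dˣ) [Finite H] (hH : ¬ Group.IsSolvable H) :
    Nonempty (H ≃* Matrix.SpecialLinearGroup (Fin 2) (ZMod 5)) := by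
  obtain ⟨G₀, hn, hi, S, M, h1, -, h3, ⟨e⟩, -, h5⟩ := Cfsg.Agent.S3359.result hH (Cfsg.Agent.S4293.result H (by
    rintro rfl; exact hH inferInstance))
  let ι : H →* D := (Units.coeHom D).comp H.subtype
  have hι : Function.Injective ι := Units.val_injective.comp Subtype.val_injective
  let f : H24.Am.SL5 →* D := ι.comp (S.subtype.comp e.symm.toMonoidHom)
  have hf : Function.Injective f := hι.comp (Subtype.val_injective.comp e.symm.injective)
  have hM : M = ⊥ := eq_bot_iff.2 fun x hx => hι ((H24.Am.noCent f hf (m := ι x) (r := Nat.card M)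
    (Nat.Coprime.coprime_dvd_right (by norm_num) h5) (by
      rw [← map_pow, show x ^ Nat.card M = 1 from congrArg Subtype.val (pow_card_eq_one' (x := (⟨x, hx⟩ : M))), map_one])
    fun g => (show Commute _ x from h3 _ (e.symm g).2 x hx).map ι).trans (map_one ι).symm)
  rw [hM, sup_bot_eq] at h1
  subst h1
  rcases hi with hi | hi
  · rw [Subgroup.index_eq_one] at hi
    subst hi
    exact ⟨Subgroup.topEquiv.symm.trans e⟩
  have hne : S ≠ ⊤ := fun e => by simp [e] at hi
  obtain ⟨h, -, hh⟩ := SetLike.exists_of_lt hne.lt_top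
  have hf' : ∀ s : S, f (e s) = ι s := fun s => by simp [f]
  refine (H24.Am.noExt f hf (h := ι h) ⟨((Group.isUnit h).map ι).ne_zero, fun g => ⟨e ⟨_, hn.conj_mem _ (e.symm g).2 h⟩, ?_⟩,
    ⟨e ⟨_, Subgroup.mul_self_mem_of_index_two hi h⟩, by rw [hf', map_mul]⟩, fun g e' => hh ?_⟩).elim
  · rw [hf', ← map_mul, inv_mul_cancel_right, map_mul]; rfl
  · exact (hι e' : h = (e.symm g : H)) ▸ (e.symm g).2

end Cfsg.Agent.S4294
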