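import Mathlib
import Cfsg.Statements.S4296
import Cfsg.Agent.H21.FCx
import Cfsg.Agent.S0035

set_option autoImplicit false
open Cfsg

namespace Cfsg.Agent.S4296

/-- Let H be a Frobenius complement in a finite group, and suppose some Sylow subgroup of H is not cyclic. Then the number of elements of the Frobenius kernel (the identity together with the elements lying in no conjugate of H) is an odd perfect square. -/
theorem result {L : Type*} [Group L] [Finite L] (H : Subgroup L) (hF : Cfsg.IsFrobeniusComplement H)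
    (hZ : ∃ (p : ℕ) (_ : Fact p.Prime) (P : Sylow p H), ¬ IsCyclic P) :
    Odd (Nat.card (Cfsg.frobeniusKernel H)) ∧ IsSquare (Nat.card (Cfsg.frobeniusKernel H)) := by
  obtain ⟨p, _, P, hP⟩ := hZ
  obtain ⟨K, hK, hKn, hc⟩ := S0035.result H hF
  have hf : ∀ h ∈ H, h ≠ 1 → K ⊓ Subgroup.centralizer {h} = ⊥ := fun h => H02.IsFrob.fpf_of_coe_eq hF hK
  have hK0 := H02.IsFrob.ne_bot_of_coe_eq hF hK
  have hn : ∀ g : L, g ∈ Subgroup.normalizer (K : Set L) := fun g => by rw [Subgroup.normalizer_eq_top]; trivial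
  have hFC : H18.IsFC H := H18.IsFC.of_normalizer hK0 (fun g _ => hn g) fun a ha h1 k hk e =>
    Subgroup.mem_bot.1 (hf a ha h1 ▸ ⟨hk, Subgroup.mem_centralizer_singleton_iff.2 e.symm⟩)
  obtain ⟨rfl, n, ⟨e⟩⟩ := (hFC.cyc_or_quat P.2).resolve_left hP
  rcases n with _ | n
  · haveI : IsCyclic (QuaternionGroup (2 ^ 0)) := QuaternionGroup.quaternionGroup_one_isCyclic
    exact absurd (isCyclic_of_surjective e.symm e.symm.surjective) hP
  let f : QuaternionGroup (2 ^ (n + 1)) →* L := H.subtype.comp ((P : Subgroup H).subtype.comp e.symm.toMonoidHom)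
  have hfi : Function.Injective f := H.subtype_injective.comp ((P : Subgroup H).subtype_injective.comp e.symm.injective)
  have hfH : ∀ q, f q ∈ H := fun q => (e.symm q).1.2
  have h2 : 2 ∣ Nat.card H := (Dvd.intro (2 * 2 ^ (n + 1)) (by
    rw [Nat.card_congr e.toEquiv, Nat.card_eq_fintype_card, QuaternionGroup.card]; ring)).trans
      (P : Subgroup H).card_subgroup_dvd_card
  obtain ⟨-, hab⟩ := H02.fpf_even (fun g _ => hn g) hK0 hf h2
  have hodd : Odd (Nat.card K) := by
    rw [H02.IsFrob.card_of_coe_eq hF hK]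
    exact Nat.coprime_two_left.1 (Nat.Coprime.of_dvd_left h2 (H02.IsFrob.coprime hF))
  rw [← hK]
  refine ⟨hodd, ?_⟩
  set z : QuaternionGroup (2 ^ (n + 1)) := QuaternionGroup.a ((2 ^ (n + 1) : ℕ) : ZMod _) with hz
  have hz2 : orderOf z = 2 := by
    have := QuaternionGroup.orderOf_xa (n := 2 ^ (n + 1)) 0
    rw [hz, ← QuaternionGroup.xa_sq 0, orderOf_pow' _ (by norm_num), this]; rfl
  have hz1 : f z ≠ 1 := fun e => by
    rw [← map_one f, hfi.eq_iff] at e
    rw [e, orderOf_one] at hz2; omega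
  have hinv : ∀ k ∈ K, f z * k * (f z)⁻¹ = k⁻¹ := fun k hk => H02.fpf_involution_inverts (hn _)
    (by rw [← map_mul, ← sq, orderOf_dvd_iff_pow_eq_one.1 hz2.dvd, map_one]) (hf _ (hfH _) hz1) hk
  letI : CommGroup K := { mul_comm := hab.1.1 }
  let φ : L →* Module.End ℤ (Additive K) :=
    { toFun := fun g => (MonoidHom.toAdditive (MulAut.conjNormal g : MulAut K).toMonoidHom).toIntLinearMap
      map_one' := by ext; simp
      map_mul' := fun a b => by ext; simp [mul_assoc] }
  have hφ : φ (f z) = -1 := LinearMap.ext fun k => Subtype.ext (hinv _ (Additive.toMul k).2)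
  refine H21.isSquare_card_of_quat (V := Additive K) hodd (φ (f (QuaternionGroup.xa 0)))
    (φ (f (QuaternionGroup.xa ((2 ^ n : ℕ) : ZMod _)))) ?_ ?_ ?_
  · rw [← map_mul, ← map_mul, ← sq, QuaternionGroup.xa_sq, hφ]
  · rw [← map_mul, ← map_mul, ← sq, QuaternionGroup.xa_sq, hφ]
  · rw [← neg_one_mul, ← hφ, ← map_mul, ← map_mul, ← map_mul, ← map_mul, ← map_mul, ← map_mul]
    congr 2
    simp only [hz, QuaternionGroup.xa_mul_xa, QuaternionGroup.a_mul_a]
    congr 1
    push_cast; ring

end Cfsg.Agent.S4296
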