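import Mathlib
import Cfsg.Statements.S4295
import Cfsg.Agent.H21.FCx
import Cfsg.Agent.S4296

set_option autoImplicit false
open Cfsg

namespace Cfsg.Agent.S4295

/-- For a natural number m the following are equivalent: (a) some finite group has a Frobenius complement isomorphic to the quaternion group of order 8 whose Frobenius kernel (the identity together with the elements lying in no conjugate of the complement) has exactly m elements; (b) m is an odd perfect square greater than 1. -/
theorem result (m : ℕ) :
    (∃ (L : Type) (_ : Group L) (_ : Finite L) (H : Subgroup L), Cfsg.IsFrobeniusComplement H ∧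
        Nonempty (H ≃* QuaternionGroup 2) ∧ Nat.card (Cfsg.frobeniusKernel H) = m) ↔
    (Odd m ∧ IsSquare m ∧ 1 < m) := by
  constructor
  · rintro ⟨L, _, _, H, hH, ⟨e⟩, rfl⟩
    have h1 := S4296.result H hH ⟨2, inferInstance, default, fun hc => by
      have h2 : IsPGroup 2 H := IsPGroup.of_card (n := 3) (by
        rw [Nat.card_congr e.toEquiv, Nat.card_eq_fintype_card, QuaternionGroup.card]; rfl)
      have h3 : ((default : Sylow 2 H) : Subgroup H) = ⊤ :=
        ((default : Sylow 2 H).3 (h2.to_subgroup ⊤) le_top).symm
      rw [h3] at hc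
      have := (isCyclic_of_surjective (Subgroup.topEquiv.trans e) (MulEquiv.surjective _)).isMulCommutative.1.1
        (QuaternionGroup.a 1) (QuaternionGroup.xa 0)
      revert this; decide⟩
    refine ⟨h1.1, h1.2, ?_⟩
    rw [H02.IsFrob.card_kernel hH]
    exact Nat.lt_of_le_of_lt Nat.card_pos (H02.IsFrob.card_lt_index hH)
  · rintro ⟨h1, ⟨k, rfl⟩, h2⟩
    have hk : Odd k := (Nat.odd_mul.1 h1).1
    have hk1 : 1 < k := by nlinarith
    haveI := Fact.mk hk1
    haveI : NeZero k := ⟨by omega⟩
    obtain ⟨a', b', hab'⟩ := H21.exists_sq_add_sq_odd hk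
    obtain ⟨a, b, hab⟩ : ∃ a b : ZMod k, a ^ 2 + b ^ 2 + 1 = 0 :=
      ⟨a', b', by exact_mod_cast (ZMod.intCast_zmod_eq_zero_iff_dvd _ k).2 hab'⟩
    let ι : ZMod (2 * 2) → ZMod k × ZMod k → ZMod k × ZMod k := fun i v =>
      if i = 0 then v else if i = 1 then (-v.2, v.1) else if i = 2 then -v else (v.2, -v.1)
    let s : QuaternionGroup 2 → ZMod k × ZMod k → ZMod k × ZMod k := fun g v =>
      match g with
      | QuaternionGroup.a i => ι i v
      | QuaternionGroup.xa i => (a * (ι i v).1 + b * (ι i v).2, b * (ι i v).1 - a * (ι i v).2)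
    have c4 : ∀ i : ZMod (2 * 2), i = 0 ∨ i = 1 ∨ i = 2 ∨ i = 3 := by decide
    letI : DistribMulAction (QuaternionGroup 2) (ZMod k × ZMod k) :=
      { smul := s
        one_smul := fun v => rfl
        mul_smul := fun g h v => by
          change s (g * h) v = s g (s h v)
          obtain ⟨x, y⟩ := v
          rcases g with i | i <;> rcases h with j | j <;> rcases c4 i with rfl | rfl | rfl | rfl <;>
            rcases c4 j with rfl | rfl | rfl | rfl <;>
            simp +decide only [s, ι, QuaternionGroup.a_mul_a, QuaternionGroup.a_mul_xa, QuaternionGroup.xa_mul_a,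
              QuaternionGroup.xa_mul_xa, if_true, if_false, Prod.neg_mk, Prod.mk.injEq] <;>
            constructor <;> first | trivial | ring1 | linear_combination x * hab | linear_combination -x * hab |
              linear_combination y * hab | linear_combination -y * hab
        smul_zero := fun g => by
          change s g 0 = 0
          rcases g with i | i <;> rcases c4 i with rfl | rfl | rfl | rfl <;> simp only [s] <;> simp +decide [ι]
        smul_add := fun g v w => by
          change s g (v + w) = s g v + s g w
          rcases g with i | i <;> rcases c4 i with rfl | rfl | rfl | rfl <;> ext <;> simp only [s] <;> simp +decide [ι] <;> ring }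
    have hφ : ∀ g : QuaternionGroup 2, g ≠ 1 → ∀ v : ZMod k × ZMod k, g • v = v → v = 0 := by
      have h3 : ∀ v : ZMod k × ZMod k, (QuaternionGroup.a 2 : QuaternionGroup 2) • v = v → v = 0 := fun v hv => by
        have h4 : -v = v := hv
        have h5 : (2 : ZMod k) • v = 0 := by rw [two_smul]; exact neg_eq_iff_add_eq_zero.1 h4
        have h6 : IsUnit ((2 : ℕ) : ZMod k) := (ZMod.isUnit_iff_coprime 2 k).2 (Nat.coprime_two_left.2 hk)
        exact (h6.smul_eq_zero).1 (by exact_mod_cast h5)
      have h4 : ∀ g : QuaternionGroup 2, g ≠ 1 → g = QuaternionGroup.a 2 ∨ g * g = QuaternionGroup.a 2 := by decide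
      intro g hg v hv
      rcases h4 g hg with e | e
      · exact h3 v (e ▸ hv)
      · exact h3 v (by rw [← e, mul_smul, hv, hv])
    let φ : QuaternionGroup 2 →* MulAut (Multiplicative (ZMod k × ZMod k)) :=
      (MulAutMultiplicative _).symm.toMonoidHom.comp (DistribMulAction.toAddAut _ _)
    haveI : Finite (Multiplicative (ZMod k × ZMod k) ⋊[φ] QuaternionGroup 2) :=
      Finite.of_equiv _ (SemidirectProduct.equivProd).symm
    have hF := H27.isFrob_range_inr φ (fun h hh v e => hφ h hh v.toAdd e)
    let e := (MonoidHom.ofInjective (SemidirectProduct.inr_injective (φ := φ))).symm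
    refine ⟨_, inferInstance, inferInstance, _, hF, ⟨e⟩, ?_⟩
    rw [H02.IsFrob.card_kernel hF]
    have := (SemidirectProduct.inr : _ →* Multiplicative (ZMod k × ZMod k) ⋊[φ] QuaternionGroup 2).range.index_mul_card
    rw [Nat.card_congr e.toEquiv, Nat.card_congr SemidirectProduct.equivProd, Nat.card_prod] at this
    rw [Nat.eq_of_mul_eq_mul_right Nat.card_pos this]
    simp

end Cfsg.Agent.S4295
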