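import Cfsg.Statements.S4297
import Mathlib
import Cfsg.Agent.H27.FrobConstr
-- import your own Cfsg.Agent.* helpers here

set_option autoImplicit false
open Cfsg

namespace Cfsg.Agent.S4297

open scoped Pointwise commutatorElement

/-- For every n ≥ 2 the dicyclic group of order 4n (generated by an element a of order 2n and an element x with x² = aⁿ and x a x⁻¹ = a⁻¹) occurs as a Frobenius complement of some finite Frobenius group. -/
theorem result (n : ℕ) (hn : 2 ≤ n) :
    ∃ (L : Type) (_ : Group L) (_ : Finite L) (H : Subgroup L), Cfsg.IsFrobeniusComplement H ∧ Nonempty (H ≃* QuaternionGroup n) := by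
  haveI : NeZero n := ⟨by omega⟩
  obtain ⟨p, hp, hp2, ζ, hζ⟩ := H27.exists_primitiveRoot_zmod (n := 2 * n) (by omega)
  haveI := Fact.mk hp
  let ψ : AddChar (ZMod (2 * n)) (ZMod p) := AddChar.zmodChar (2 * n) hζ.pow_eq_one
  have hψ : ψ.IsPrimitive := AddChar.zmodChar_primitive_of_primitive_root (2 * n) hζ
  have hψ1 : ∀ i, ψ i = 1 → i = 0 := fun i hi => (hψ.zmod_char_eq_one_iff (2 * n) i).1 hi
  have hadd : ∀ i j, ψ (i + j) = ψ i * ψ j := ψ.map_add_eq_mul
  have hn' : ψ (n : ZMod (2 * n)) = -1 := by
    have h1 : ψ n * ψ n = 1 := by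
      rw [← hadd, ← Nat.cast_add, ← two_mul, ZMod.natCast_self, ψ.map_zero_eq_one]
    rcases mul_self_eq_one_iff.1 h1 with h | h
    · have := hψ1 _ h
      rw [ZMod.natCast_eq_zero_iff] at this
      have := Nat.le_of_dvd (by omega) this
      omega
    · exact h
  have hnn : -(n : ZMod (2 * n)) = n := by
    rw [neg_eq_iff_add_eq_zero, ← Nat.cast_add, ← two_mul, ZMod.natCast_self]
  let s : QuaternionGroup n → ZMod p × ZMod p → ZMod p × ZMod p := fun g v =>
    match g with
    | QuaternionGroup.a i => (ψ i * v.1, ψ (-i) * v.2)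
    | QuaternionGroup.xa i => (-(ψ (-i) * v.2), ψ i * v.1)
  letI : DistribMulAction (QuaternionGroup n) (ZMod p × ZMod p) :=
    { smul := s
      one_smul := fun v => by
        change (ψ 0 * v.1, ψ (-0) * v.2) = v
        simp
      mul_smul := fun g h v => by
        change s (g * h) v = s g (s h v)
        rcases g with i | i <;> rcases h with j | j <;>
          simp only [s, QuaternionGroup.a_mul_a, QuaternionGroup.a_mul_xa, QuaternionGroup.xa_mul_a,
            QuaternionGroup.xa_mul_xa, sub_eq_add_neg, neg_add, neg_neg, hadd, hnn, hn'] <;>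
          ext <;> simp only <;> ring
      smul_zero := fun g => by
        change s g 0 = 0
        rcases g with i | i <;> simp [s]
      smul_add := fun g v w => by
        change s g (v + w) = s g v + s g w
        rcases g with i | i <;> ext <;> simp [s] <;> ring }
  have h2 : (2 : ZMod p) ≠ 0 := by
    intro h
    have := (ZMod.natCast_eq_zero_iff 2 p).1 (by exact_mod_cast h)
    have := Nat.le_of_dvd (by norm_num) this
    omega
  refine H27.exists_frob_of_fpf (QuaternionGroup n) (ZMod p × ZMod p) ?_
  rintro g hg ⟨v, w⟩ e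
  change s g (v, w) = (v, w) at e
  rcases g with i | i
  · simp only [s, Prod.mk.injEq] at e
    have hi : i ≠ 0 := by rintro rfl; exact hg rfl
    have a1 : ψ i ≠ 1 := fun h => hi (hψ1 _ h)
    have a2 : ψ (-i) ≠ 1 := fun h => hi (neg_eq_zero.1 (hψ1 _ h))
    ext
    · exact eq_zero_of_mul_eq_self_left a1 e.1
    · exact eq_zero_of_mul_eq_self_left a2 e.2
  · simp only [s, Prod.mk.injEq] at e
    have a1 : ψ (-i) * ψ i = 1 := by rw [← hadd, neg_add_cancel, ψ.map_zero_eq_one]
    have a2 : v = 0 := by
      have : 2 * v = 0 := by linear_combination (-1 : ZMod p) * e.1 + ψ (-i) * e.2 - v * a1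
      exact (mul_eq_zero.1 this).resolve_left h2
    ext
    · exact a2
    · rw [← e.2, a2]; simp

end Cfsg.Agent.S4297
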