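import Cfsg.Statements.S4298
import Mathlib
import Cfsg.Agent.H27.FrobConstr
-- import your own Cfsg.Agent.* helpers here

set_option autoImplicit false
open Cfsg

namespace Cfsg.Agent.S4298

open scoped Pointwise commutatorElement

/-- Table of an embedding of `SL(2,3)` in `SL(2,5)`. -/
def tab (a b c d : ZMod 3) : ZMod 5 × ZMod 5 × ZMod 5 × ZMod 5 :=
  match a.val, b.val, c.val, d.val with
  | 0, 1, 2, 0 => (0, 1, 4, 0)
  | 0, 1, 2, 1 => (4, 1, 2, 2)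
  | 0, 1, 2, 2 => (1, 3, 4, 3)
  | 0, 2, 1, 0 => (0, 4, 1, 0)
  | 0, 2, 1, 1 => (4, 2, 1, 2)
  | 0, 2, 1, 2 => (1, 4, 3, 3)
  | 1, 0, 0, 1 => (1, 0, 0, 1)
  | 1, 0, 1, 1 => (1, 1, 2, 3)
  | 1, 0, 2, 1 => (3, 4, 3, 1)
  | 1, 1, 0, 1 => (1, 2, 1, 3)
  | 1, 1, 1, 2 => (2, 0, 0, 3)
  | 1, 1, 2, 0 => (2, 3, 4, 4)
  | 1, 2, 0, 1 => (3, 3, 4, 1)
  | 1, 2, 1, 0 => (2, 4, 3, 4)
  | 1, 2, 2, 2 => (0, 3, 3, 0)
  | 2, 0, 0, 2 => (4, 0, 0, 4)
  | 2, 0, 1, 2 => (2, 1, 2, 4)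
  | 2, 0, 2, 2 => (4, 4, 3, 2)
  | 2, 1, 0, 2 => (2, 2, 1, 4)
  | 2, 1, 1, 1 => (0, 2, 2, 0)
  | 2, 1, 2, 0 => (3, 1, 2, 1)
  | 2, 2, 0, 2 => (4, 3, 4, 2)
  | 2, 2, 1, 0 => (3, 2, 1, 1)
  | 2, 2, 2, 1 => (3, 0, 0, 2)
  | _, _, _, _ => (0, 0, 0, 0)

/-- Product of two quadruples. -/
def qm (x y : ZMod 5 × ZMod 5 × ZMod 5 × ZMod 5) : ZMod 5 × ZMod 5 × ZMod 5 × ZMod 5 :=
  (x.1 * y.1 + x.2.1 * y.2.2.1, x.1 * y.2.1 + x.2.1 * y.2.2.2,
    x.2.2.1 * y.1 + x.2.2.2 * y.2.2.1, x.2.2.1 * y.2.1 + x.2.2.2 * y.2.2.2)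

/-- Action of a quadruple on a vector. -/
def qa (x : ZMod 5 × ZMod 5 × ZMod 5 × ZMod 5) (v : ZMod 5 × ZMod 5) : ZMod 5 × ZMod 5 :=
  (x.1 * v.1 + x.2.1 * v.2, x.2.2.1 * v.1 + x.2.2.2 * v.2)

theorem tab_mul : ∀ a b c d : ZMod 3, a * d - b * c = 1 → ∀ e f g h : ZMod 3, e * h - f * g = 1 →
    tab (a * e + b * g) (a * f + b * h) (c * e + d * g) (c * f + d * h) =
      qm (tab a b c d) (tab e f g h) := by
  decide +kernel

set_option synthInstance.maxSize 2000 in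
set_option synthInstance.maxHeartbeats 200000 in
theorem tab_fpf : ∀ a b c d : ZMod 3, a * d - b * c = 1 → ∀ v w : ZMod 5,
    qa (tab a b c d) (v, w) = (v, w) → (v = 0 ∧ w = 0) ∨ (a = 1 ∧ b = 0 ∧ c = 0 ∧ d = 1) := by
  decide +kernel

/-- The group SL(2,3) of order 24 (the binary tetrahedral group) occurs as a Frobenius complement of some finite Frobenius group. -/
theorem result :
    ∃ (L : Type) (_ : Group L) (_ : Finite L) (H : Subgroup L), Cfsg.IsFrobeniusComplement H ∧ Nonempty (H ≃* Matrix.SpecialLinearGroup (Fin 2) (ZMod 3)) := by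
  let s : Matrix.SpecialLinearGroup (Fin 2) (ZMod 3) → ZMod 5 × ZMod 5 → ZMod 5 × ZMod 5 :=
    fun A v => qa (tab (A 0 0) (A 0 1) (A 1 0) (A 1 1)) v
  have hdet : ∀ A : Matrix.SpecialLinearGroup (Fin 2) (ZMod 3), A 0 0 * A 1 1 - A 0 1 * A 1 0 = 1 := by
    intro A
    have := A.det_coe
    rwa [Matrix.det_fin_two] at this
  letI : DistribMulAction (Matrix.SpecialLinearGroup (Fin 2) (ZMod 3)) (ZMod 5 × ZMod 5) :=
    { smul := s
      one_smul := fun v => by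
        change qa (1, 0, 0, 1) v = v
        simp [qa]
      mul_smul := fun g h v => by
        change s (g * h) v = s g (s h v)
        simp only [s, Matrix.SpecialLinearGroup.coe_mul, Matrix.mul_apply, Fin.sum_univ_two]
        rw [tab_mul _ _ _ _ (hdet g) _ _ _ _ (hdet h)]
        simp only [qa, qm]
        ext <;> simp only <;> ring
      smul_zero := fun g => by
        change s g 0 = 0
        simp [s, qa]
      smul_add := fun g v w => by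
        change s g (v + w) = s g v + s g w
        ext <;> simp [s, qa] <;> ring }
  haveI : Nontrivial (Matrix.SpecialLinearGroup (Fin 2) (ZMod 3)) :=
    ⟨⟨1, -1, fun h => by have := congrArg (fun A : Matrix.SpecialLinearGroup (Fin 2) (ZMod 3) => A 0 0) h; revert this; decide⟩⟩
  haveI : Fact (1 < 5) := ⟨by norm_num⟩
  refine H27.exists_frob_of_fpf _ (ZMod 5 × ZMod 5) ?_
  rintro g hg ⟨v, w⟩ e
  rcases tab_fpf _ _ _ _ (hdet g) v w e with ⟨h1, h2⟩ | ⟨h1, h2, h3, h4⟩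
  · rw [h1, h2]; rfl
  · exfalso
    apply hg
    ext i j
    fin_cases i <;> fin_cases j <;> simpa

end Cfsg.Agent.S4298
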