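import Cfsg.Statements.S4299
import Mathlib
import Cfsg.Agent.H27.FrobConstr
-- import your own Cfsg.Agent.* helpers here

set_option autoImplicit false
open Cfsg

namespace Cfsg.Agent.S4299

open scoped Pointwise commutatorElement

/-- Every nontrivial finite cyclic group occurs as a Frobenius complement of some finite Frobenius group. -/
theorem result {C : Type*} [Group C] [Finite C] [IsCyclic C] [Nontrivial C] :
    ∃ (L : Type) (_ : Group L) (_ : Finite L) (H : Subgroup L), Cfsg.IsFrobeniusComplement H ∧ Nonempty (C ≃* H) := by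
  obtain ⟨p, hp, -, ζ, hζ⟩ := H27.exists_primitiveRoot_zmod (Nat.card_pos (α := C)).ne'
  haveI := Fact.mk hp
  let u : (ZMod p)ˣ := (hζ.isUnit (Nat.card_pos (α := C)).ne').unit
  have hu : orderOf u = Nat.card C := by
    rw [← orderOf_units, IsUnit.unit_spec, ← hζ.eq_orderOf]
  have hc : Nat.card C = Nat.card (Subgroup.zpowers u) := by rw [Nat.card_zpowers, hu]
  let e : C ≃* Subgroup.zpowers u := mulEquivOfCyclicCardEq hc
  haveI : Nontrivial (Subgroup.zpowers u) := e.symm.nontrivial
  obtain ⟨L, _, _, K, hK, ⟨f⟩⟩ := H27.exists_frob_of_fpf (Subgroup.zpowers u) (ZMod p) (by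
    intro h hh v hv
    by_contra hv0
    apply hh
    apply Subtype.ext; apply Units.ext
    have : ((h : (ZMod p)ˣ) : ZMod p) * v = 1 * v := by rw [one_mul]; exact hv
    exact mul_right_cancel₀ hv0 this)
  exact ⟨L, inferInstance, inferInstance, K, hK, ⟨e.trans f.symm⟩⟩

end Cfsg.Agent.S4299
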