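import Cfsg.Statements.S4300
import Mathlib
import Cfsg.Agent.H27.SylowNum
-- import your own Cfsg.Agent.* helpers here

set_option autoImplicit false
open Cfsg

namespace Cfsg.Agent.S4300

open scoped Pointwise commutatorElement

/-- Let G act faithfully and primitively on a set X, and suppose the stabilizer of some point is a simple group. Then either G is simple, or G has a normal subgroup, neither trivial nor the whole group, that acts regularly on X (transitively with trivial point stabilizers). -/
theorem result {G : Type*} [Group G] {X : Type*} [MulAction G X] [FaithfulSMul G X]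
    (hprim : MulAction.IsPreprimitive G X) (x : X) (hsimple : IsSimpleGroup (MulAction.stabilizer G x)) :
    IsSimpleGroup G ∨ ∃ N : Subgroup G, N.Normal ∧ N ≠ ⊥ ∧ N ≠ ⊤ ∧
      MulAction.IsPretransitive N X ∧ ∀ y : X, MulAction.stabilizer N y = ⊥ := by
  by_cases hs : IsSimpleGroup G
  · exact Or.inl hs
  right
  haveI : Nontrivial G := (Subgroup.subtype_injective (MulAction.stabilizer G x)).nontrivial
  obtain ⟨N, hN, h1, h2⟩ := H27.exists_normal_of_not_simple hs
  have htr : MulAction.IsPretransitive N X := by
    apply MulAction.IsQuasiPreprimitive.isPretransitive_of_normal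
    intro h
    apply h1
    rw [Subgroup.eq_bot_iff_forall]
    intro n hn
    apply eq_of_smul_eq_smul (α := X)
    intro y
    have : y ∈ MulAction.fixedPoints N X := h ▸ Set.mem_univ y
    rw [one_smul]; exact this ⟨n, hn⟩
  refine ⟨N, hN, h1, h2, htr, ?_⟩
  have key : ∀ n ∈ N, n • x = x → n = 1 := by
    rcases (hN.subgroupOf (MulAction.stabilizer G x)).eq_bot_or_eq_top with h | h
    · intro n hn e
      have : (⟨n, e⟩ : MulAction.stabilizer G x) ∈ N.subgroupOf (MulAction.stabilizer G x) := hn
      rw [h, Subgroup.mem_bot] at this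
      exact congrArg Subtype.val this
    · exfalso
      apply h2
      rw [Subgroup.subgroupOf_eq_top] at h
      rw [eq_top_iff]
      intro g _
      obtain ⟨n, hn⟩ := MulAction.exists_smul_eq N x (g • x)
      have h3 : (n : G)⁻¹ * g ∈ N := h (by
        rw [MulAction.mem_stabilizer_iff, mul_smul, inv_smul_eq_iff]; exact hn.symm)
      simpa using N.mul_mem n.2 h3
  intro y
  rw [Subgroup.eq_bot_iff_forall]
  intro n hn
  obtain ⟨g, rfl⟩ := MulAction.exists_smul_eq G x y
  have h3 := key (g⁻¹ * n * g⁻¹⁻¹) (hN.conj_mem _ n.2 _) (by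
    rw [inv_inv, mul_smul, mul_smul, inv_smul_eq_iff]; exact hn)
  exact Subtype.ext (conj_eq_one_iff.1 h3)

end Cfsg.Agent.S4300
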