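import Cfsg.Statements.S4301
import Mathlib
import Cfsg.Agent.H18.Basic
-- import your own Cfsg.Agent.* helpers here

set_option autoImplicit false
open Cfsg

namespace Cfsg.Agent.S4301

open scoped Pointwise commutatorElement

/-- One-point extension of a multiply transitive group. Let X be a set and G a group of permutations of Option X (the set X with one extra point ∗ = none) all of whose elements fix ∗, such that G is k-transitive on the points of X for some k ≥ 2, X having at least k points. Suppose a permutation h of Option X and an element g of G satisfy: h interchanges ∗ with a point x of X and fixes a point y of X; g interchanges x and y; (g h)³ and h² lie in G; and for every f in G fixing x, the product h f h lies in G and fixes x. Then an element of the group generated by G and h fixes ∗ exactly when it lies in G, and that group acts (k+1)-transitively on Option X. -/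
theorem result {X : Type*} (G : Subgroup (Equiv.Perm (Option X))) (hfix : ∀ f ∈ G, f none = none)
    (k : ℕ) (hk : 2 ≤ k) (hkX : Nonempty (Fin k ↪ X))
    (htrans : ∀ a b : Fin k ↪ X, ∃ f ∈ G, ∀ i, f (some (a i)) = some (b i))
    (h g : Equiv.Perm (Option X)) (hg : g ∈ G) (x y : X)
    (h1 : h none = some x) (h2 : h (some x) = none) (h3 : h (some y) = some y)
    (h4 : g (some x) = some y) (h5 : g (some y) = some x)
    (h6 : (g * h) ^ 3 ∈ G) (h7 : h ^ 2 ∈ G)
    (h8 : ∀ f ∈ G, f (some x) = some x → h * f * h ∈ G ∧ (h * f * h) (some x) = some x) :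
    (∀ f ∈ Subgroup.closure ((G : Set (Equiv.Perm (Option X))) ∪ {h}), f none = none ↔ f ∈ G) ∧
      MulAction.IsMultiplyPretransitive (Subgroup.closure ((G : Set (Equiv.Perm (Option X))) ∪ {h})) (Option X) (k + 1) := by
  classical
  have hxy : x ≠ y := by
    rintro rfl
    rw [h2] at h3; cases h3
  have two : ∀ z w : X, z ≠ w → ∃ e : Fin k ↪ X, e ⟨0, by omega⟩ = z ∧ e ⟨1, by omega⟩ = w := by
    intro z w hzw
    obtain ⟨e⟩ := hkX
    refine ⟨(e.setValue ⟨0, by omega⟩ z).setValue ⟨1, by omega⟩ w, ?_, Function.Embedding.setValue_eq ..⟩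
    rw [Function.Embedding.setValue_eq_of_ne (by simp) (by simpa using hzw)]
    exact Function.Embedding.setValue_eq ..
  have two' : ∀ z w z' w' : X, z ≠ w → z' ≠ w' → ∃ f ∈ G, f (some z) = some z' ∧ f (some w) = some w' := by
    intro z w z' w' e1 e2
    obtain ⟨a, a1, a2⟩ := two z w e1
    obtain ⟨b, b1, b2⟩ := two z' w' e2
    obtain ⟨f, hf, hf'⟩ := htrans a b
    exact ⟨f, hf, by rw [← a1, ← b1, hf'], by rw [← a2, ← b2, hf']⟩
  have hsome : ∀ f ∈ G, ∀ z : X, ∃ w : X, f (some z) = some w := by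
    intro f hf z
    cases e : f (some z) with
    | none => rw [← hfix f hf] at e; cases f.injective e
    | some w => exact ⟨w, rfl⟩
  let D : Equiv.Perm (Option X) → Prop := fun f => f ∈ G ∨ ∃ a ∈ G, ∃ b ∈ G, f = a * h * b
  have hD1 : ∀ a ∈ G, D (h * a * h) := by
    intro a ha
    obtain ⟨z, hz⟩ := hsome a ha x
    by_cases e : z = x
    · subst e; exact Or.inl (h8 a ha hz).1
    obtain ⟨f1, hf1, e1, e2⟩ := two' x y x z hxy (Ne.symm e)
    have hf2 : g⁻¹ * f1⁻¹ * a ∈ G := G.mul_mem (G.mul_mem (G.inv_mem hg) (G.inv_mem hf1)) ha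
    have e3 : (g⁻¹ * f1⁻¹ * a) (some x) = some x := by
      simp only [Equiv.Perm.mul_apply, hz]
      rw [Equiv.Perm.inv_eq_iff_eq, Equiv.Perm.inv_eq_iff_eq, h4, e2]
    refine Or.inr ⟨h * f1 * h * (h ^ 2)⁻¹ * g⁻¹ * (g * h) ^ 3 * (h ^ 2)⁻¹, ?_,
      g⁻¹ * (h ^ 2)⁻¹ * (h * (g⁻¹ * f1⁻¹ * a) * h), ?_, ?_⟩
    · exact G.mul_mem (G.mul_mem (G.mul_mem (G.mul_mem (h8 f1 hf1 e1).1 (G.inv_mem h7)) (G.inv_mem hg)) h6) (G.inv_mem h7)
    · exact G.mul_mem (G.mul_mem (G.inv_mem hg) (G.inv_mem h7)) (h8 _ hf2 e3).1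
    · simp only [pow_succ, pow_zero]; group
  have hDl : ∀ a ∈ G, ∀ f, D f → D (a * f) := by
    rintro a ha f (hf | ⟨b, hb, c, hc, rfl⟩)
    · exact Or.inl (G.mul_mem ha hf)
    · exact Or.inr ⟨a * b, G.mul_mem ha hb, c, hc, by group⟩
  have hDr : ∀ a ∈ G, ∀ f, D f → D (f * a) := by
    rintro a ha f (hf | ⟨b, hb, c, hc, rfl⟩)
    · exact Or.inl (G.mul_mem hf ha)
    · exact Or.inr ⟨b, hb, c * a, G.mul_mem hc ha, by group⟩
  have hDh : ∀ f, D f → D (h * f) := by
    rintro f (hf | ⟨b, hb, c, hc, rfl⟩)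
    · exact Or.inr ⟨1, G.one_mem, f, hf, by group⟩
    · have := hDr c hc _ (hD1 b hb)
      rwa [show h * (b * h * c) = h * b * h * c by group]
  have hD : ∀ f ∈ Subgroup.closure ((G : Set (Equiv.Perm (Option X))) ∪ {h}), D f := by
    intro f hf
    refine Subgroup.closure_induction_left (p := fun f _ => D f) (Or.inl G.one_mem) ?_ ?_ hf
    · rintro a (ha | rfl) f _ hf
      exacts [hDl a ha f hf, hDh f hf]
    · rintro a (ha | rfl) f _ hf
      · exact hDl _ (G.inv_mem ha) f hf
      · have := hDl _ (G.inv_mem h7) _ (hDh f hf)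
        rwa [show a⁻¹ * f = (a ^ 2)⁻¹ * (a * f) by rw [pow_two]; group]
  have hGK : G ≤ Subgroup.closure ((G : Set (Equiv.Perm (Option X))) ∪ {h}) :=
    fun a ha => Subgroup.subset_closure (Or.inl ha)
  have hhK : h ∈ Subgroup.closure ((G : Set (Equiv.Perm (Option X))) ∪ {h}) :=
    Subgroup.subset_closure (Or.inr rfl)
  constructor
  · intro f hf
    refine ⟨fun e => ?_, hfix f⟩
    rcases hD f hf with hf | ⟨a, ha, b, hb, rfl⟩
    · exact hf
    · simp only [Equiv.Perm.mul_apply, hfix b hb, h1] at e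
      rw [← hfix a ha] at e; cases a.injective e
  · set K := Subgroup.closure ((G : Set (Equiv.Perm (Option X))) ∪ {h})
    have tr : ∀ u : Option X, ∃ f ∈ K, f u = none := by
      rintro (_ | z)
      · exact ⟨1, K.one_mem, rfl⟩
      · by_cases e : z = x
        · exact ⟨h, hhK, by rw [e, h2]⟩
        · obtain ⟨f, hf, e1, -⟩ := two' z x x z e (Ne.symm e)
          exact ⟨h * f, K.mul_mem hhK (hGK hf), by rw [Equiv.Perm.mul_apply, e1, h2]⟩
    have tail : ∀ a : Fin (k + 1) → Option X, Function.Injective a → ∃ f ∈ K, ∃ e : Fin k ↪ X,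
        f (a 0) = none ∧ ∀ i, f (a i.succ) = some (e i) := by
      intro a ha
      obtain ⟨f, hf, e⟩ := tr (a 0)
      have : ∀ i : Fin k, ∃ w, f (a i.succ) = some w := by
        intro i
        cases e' : f (a i.succ) with
        | none => rw [← e] at e'; exact absurd (ha (f.injective e')) (Fin.succ_ne_zero i)
        | some w => exact ⟨w, rfl⟩
      choose w hw using this
      refine ⟨f, hf, ⟨w, fun i j hij => ?_⟩, e, hw⟩
      have := hw i
      rw [hij, ← hw j] at this
      exact Fin.succ_injective _ (ha (f.injective this))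
    rw [H18.mt_iff]
    intro a b ha hb
    obtain ⟨f1, hf1, e1, p1, q1⟩ := tail a ha
    obtain ⟨f2, hf2, e2, p2, q2⟩ := tail b hb
    obtain ⟨f, hf, hf'⟩ := htrans e1 e2
    refine ⟨⟨f2⁻¹ * f * f1, K.mul_mem (K.mul_mem (K.inv_mem hf2) (hGK hf)) hf1⟩, fun i => ?_⟩
    change f2⁻¹ (f (f1 (a i))) = b i
    rw [Equiv.Perm.inv_eq_iff_eq]
    refine Fin.cases ?_ (fun i => ?_) i
    · rw [p1, p2, hfix f hf]
    · rw [q1, q2, hf']

end Cfsg.Agent.S4301
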