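import Mathlib
import Cfsg.Statements.S4302
import Cfsg.Agent.H01.KS93c
import Cfsg.Agent.S0250
import Cfsg.Agent.S0056

set_option autoImplicit false
open Cfsg

namespace Cfsg.Agent.S4302

open BG H01 H24 Subgroup

universe u
section
variable {G : Type u} [Group G] [Finite G] {V H : Subgroup G}

instance : Fact (Nat.Prime 2) := ⟨Nat.prime_two⟩

theorem el (h : FF 2 V H) (A : Subgroup G) (hA : A ≤ H) (hab : IsMulCommutative A) (hg : IsPGroup 2 A)
    (hm : ∀ B ≤ A, mv V B ≤ mv V A) : IsElementaryAbelian 2 A := by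
  induction hn : Nat.card A using Nat.strong_induction_on generalizing A with
  | _ n ih =>
  by_cases h0 : A = ⊥
  · rw [h0]; exact H17.elemAb_bot 2
  have hAV : A ≤ N_(V) := hA.trans h.norm
  have hV := h.elem
  obtain ⟨h1, h2⟩ := repl_core hV.1 hAV (by rw [abelian_iff_der.1 hab]; exact bot_le) le_rfl hm
  have hle : ⁅V, A⁆ ≤ V := comm_le_left hAV
  have h3 : A ⊓ C_(⁅V, A⁆) ≠ ⊥ := by
    intro e
    rw [e, cent_bot, inf_top_eq] at h1
    have h3 : ⁅V, A⁆ ≤ ⁅⁅V, A⁆, A⁆ := by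
      conv_lhs => rw [h1]
      rw [comm_sup_left_ab hV.1 hAV hle inf_le_left,
        comm_eq_bot.mpr (inf_le_right : V ⊓ C_(A) ≤ _), sup_bot_eq]
    refine (comm_lt_of_pow (pg_le (pg_of_pow hV.2) hle) (right_le_norm_comm _ _)
      (fun a ha => ?_) fun e => h0 (h.eq_bot hA (cent_symm (comm_eq_bot.1 e)))).not_ge h3
    obtain ⟨k, hk⟩ := hg ⟨a, ha⟩
    exact ⟨k, by rw [show a ^ 2 ^ k = 1 from congrArg Subtype.val hk]; exact one_mem _⟩
  have h4 : IsElementaryAbelian 2 (A ⊓ C_(⁅V, A⁆)) :=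
    quad_elem hV (inf_le_left.trans hAV) (h.faith' (inf_le_left.trans hA))
      (quad_of_cent (comm_mono le_rfl inf_le_left) inf_le_right)
  have h5 := (h.best_iff (inf_le_left.trans hA)).2 ⟨h4, le_antisymm (h.mv_le h4 (inf_le_left.trans hA))
    (by rw [h2, ← mv_bot]; exact hm ⊥ bot_le)⟩
  obtain ⟨B, hBA, hB⟩ : ∃ B ≤ A, TV 2 V H B := by
    by_contra hne
    exact h3 (le_bot_iff.1 (h.best_gen (inf_le_left.trans hA) h5 fun B hB hB' =>
      (hne ⟨B, hB.trans inf_le_left, hB'⟩).elim))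
  have f := h.fac0 hB
  have hAE : A ≤ N_(eA 2 H B) :=
    norm_sup (norm_comm (hA.trans (le_norm_pcore _ _)) (le_norm_of_abelian hab hBA)) (le_norm_of_abelian hab hBA)
  have hAW : A ≤ N_(⁅V, eA 2 H B⁆) := norm_comm hAV hAE
  have hWV : ⁅V, eA 2 H B⁆ ≤ V := comm_le_left ((eA_le hB.le).trans h.norm)
  have hBW : ¬ B ≤ C_(⁅V, eA 2 H B⁆) := fun e => hB.ne_bot (eq_bot_mono f.faith (le_inf le_sup_right e))
  have cW := f.card
  generalize ⁅V, eA 2 H B⁆ = W at hAW hWV hBW cW
  have i1 : (C_(W)).relIndex A ∣ 6 := by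
    have := Subgroup.index_ker (W.normalizerMonoidHom.comp (Subgroup.inclusion hAW))
    rw [← MonoidHom.comap_ker, Subgroup.normalizerMonoidHom_ker] at this
    have e : Nat.card (MulAut W) = 6 := by
      rw [H04.card_mulAut_elemAb (p := 2) (abelian_of_le hV.1 hWV) (fun x => Subtype.ext (hV.2 x (hWV x.2))) cW]
      decide
    exact (show (C_(W)).relIndex A = _ from this) ▸ e ▸ Subgroup.card_subgroup_dvd_card _
  have i2 : (C_(W)).relIndex A = 2 := by
    obtain ⟨k, hk⟩ := pg_card Nat.prime_two hg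
    obtain ⟨j, -, hj⟩ := (Nat.dvd_prime_pow Nat.prime_two).1 (hk ▸ BG.relIndex_dvd_card C_(W) A)
    have i3 : (C_(W)).relIndex A ≠ 1 := fun e => hBW (hBA.trans (relIndex_eq_one.1 e))
    rw [hj] at i1 i3 ⊢
    rcases j with _ | _ | j
    · exact absurd rfl i3
    · rfl
    · have : 4 ∣ 6 := dvd_trans ⟨2 ^ j, by ring⟩ i1
      omega
  have c1 := card_inf_mul_relIndex C_(W) A
  rw [i2, inf_comm] at c1
  have c2 : mv V A ≤ mv V (A ⊓ C_(W)) := by
    have d1 := card_sup_mul (K := W) (H := V ⊓ C_(A)) (le_norm_of_cent (le_cent_of_abelian hV.1 inf_le_left hWV))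
    have d2 : Nat.card ↥(W ⊔ V ⊓ C_(A)) ≤ Nat.card ↥(V ⊓ C_(A ⊓ C_(W))) :=
      card_le (sup_le (le_inf hWV (cent_symm inf_le_right)) (inf_le_inf_left V (cent_anti inf_le_left)))
    have d3 : Nat.card ↥(W ⊓ (V ⊓ C_(A))) ≤ 2 := by
      have e1 : W ⊓ (V ⊓ C_(A)) < W := lt_of_le_of_ne inf_le_left fun e =>
        hBW (hBA.trans (cent_symm (e.ge.trans (inf_le_right.trans inf_le_right))))
      have e2 := card_lt e1
      have e3 := card_dvd e1.le
      rw [cW] at e2 e3
      generalize Nat.card ↥(W ⊓ (V ⊓ C_(A))) = m at e2 e3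
      interval_cases m <;> omega
    rw [cW] at d1
    have d4 := Nat.mul_le_mul d2 d3
    unfold mv
    rw [← c1]
    nlinarith [Nat.zero_le (Nat.card ↥(A ⊓ C_(W)))]
  have c3 := ih _ (by have := card_pos (A ⊓ C_(W)); omega) (A ⊓ C_(W)) (inf_le_left.trans hA)
    (abelian_of_le hab inf_le_left) (pg_le hg inf_le_left) (fun D hD => (hm D (hD.trans inf_le_left)).trans c2) rfl
  have c4 : A ⊓ C_(W) ⊔ B = A := by
    refine eq_of_le_of_card_le (sup_le inf_le_left hBA) ?_
    rw [card_sup_of_disj (hBA.trans (le_norm_of_abelian hab inf_le_left))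
      (by rw [inf_comm]; exact inf_eq_bot_of_prime hB.prime fun e => hBW (e.trans inf_le_right)), hB.card, c1]
  rw [← c4]
  exact H17.elemAb_sup c3 hB.elem fun a ha b hb => mul_comm_of_abelian hab ha.1 (hBA hb)

theorem prod (h : FG 2 V H) (h0 : H ≠ ⊥) : ∃ n : ℕ, 1 ≤ n ∧ Nonempty (H ≃* (Fin n → Equiv.Perm (Fin 3))) := by
  classical
  let I := {E : Subgroup G // ∃ A, TV 2 V H A ∧ E = eA 2 H A}
  haveI : Fintype I := Fintype.ofFinite I
  have hc : Pairwise fun i j : I => ∀ x y : G, x ∈ i.1 → y ∈ j.1 → Commute x y := by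
    rintro ⟨_, A, hA, rfl⟩ ⟨_, B, hB, rfl⟩ hne x y hx hy
    exact mem_cent.1 (h.eA_comm hA hB (fun e => hne (Subtype.ext e)) hy) x hx
  have hi : iSupIndep fun i : I => i.1 := by
    rintro ⟨_, A, hA, rfl⟩
    refine disjoint_iff.mpr (eq_bot_mono (h.fac0 hA).faith (inf_le_inf_left _ (iSup₂_le ?_)))
    rintro ⟨_, B, hB, rfl⟩ hne
    exact (h.eA_cases hA hB).resolve_left fun e => hne (Subtype.ext e.symm)
  have hs : ⨆ i : I, i.1 = H := le_antisymm (iSup_le fun ⟨_, A, hA, e⟩ => e ▸ eA_le hA.le)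
    (h.gen _ fun B hB => le_sup_right.trans (le_iSup (fun E : I => E.1) ⟨_, B, hB, rfl⟩))
  have he : ∀ i : I, Nonempty (i.1 ≃* Equiv.Perm (Fin 3)) := by
    rintro ⟨_, A, hA, rfl⟩
    obtain ⟨e1⟩ := (h.fac0 hA).iso
    obtain ⟨e2⟩ := S0250.result (F := ZMod 2) (ZMod.card 2)
    exact ⟨e1.trans e2⟩
  obtain ⟨A, hA⟩ := h.exists_tv h0
  refine ⟨Fintype.card I, Fintype.card_pos_iff.2 ⟨⟨_, A, hA, rfl⟩⟩, ⟨?_⟩⟩
  exact ((MulEquiv.subgroupCongr (hs.symm.trans (noncommPiCoprod_range (hcomm := hc)).symm)).trans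
    (MonoidHom.ofInjective (injective_noncommPiCoprod_of_iSupIndep hi)).symm).trans
    ((MulEquiv.piCongrRight fun i => (he i).some).trans (MulEquiv.arrowCongr (Fintype.equivFin I) (MulEquiv.refl _)))

end

/-- Let `X` be a finite solvable group whose Fitting subgroup is a 2-group (equivalently `F(X) = O₂(X)`), `T` a Sylow 2-subgroup of `X`, `J(T)` the subgroup generated by the abelian subgroups of `T` of largest order, `C` the largest normal subgroup of `X` centralizing the centre `Z(T)`, and `Y` the normal closure of `J(T)` in `X`. Then `X = C · Y · N_X(J(T))`, and either `Y ≤ C`, or `CY/C` is isomorphic to a direct product of at least one copy of the symmetric group of degree 3. -/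
theorem result {X : Type*} [Group X] [Finite X]
    [Group.IsSolvable X] (hF : Cfsg.fittingSubgroup X = Cfsg.pCore 2 X) (T : Sylow 2 X) :
    ((Subgroup.centralizer (((T : Subgroup X) ⊓ Subgroup.centralizer ((T : Subgroup X) : Set X) : Subgroup X) : Set X)).normalCore
        ⊔ Subgroup.normalClosure (Cfsg.thompsonSubgroupAOf (T : Subgroup X) : Set X)
        ⊔ Subgroup.normalizer (Cfsg.thompsonSubgroupAOf (T : Subgroup X) : Set X) = ⊤) ∧
    (Subgroup.normalClosure (Cfsg.thompsonSubgroupAOf (T : Subgroup X) : Set X)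
        ≤ (Subgroup.centralizer (((T : Subgroup X) ⊓ Subgroup.centralizer ((T : Subgroup X) : Set X) : Subgroup X) : Set X)).normalCore
      ∨ ∃ n : ℕ, 1 ≤ n ∧
        Nonempty (↥(Subgroup.normalClosure (Cfsg.thompsonSubgroupAOf (T : Subgroup X) : Set X)) ⧸
            ((Subgroup.centralizer (((T : Subgroup X) ⊓ Subgroup.centralizer ((T : Subgroup X) : Set X) : Subgroup X) : Set X)).normalCore).subgroupOf
              (Subgroup.normalClosure (Cfsg.thompsonSubgroupAOf (T : Subgroup X) : Set X))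
          ≃* (Fin n → Equiv.Perm (Fin 3)))) := by
  open BG H01 H24 Subgroup in
  rw [H17.thompsonAOf_eq]
  have hT := isSylowIn_top Nat.prime_two T
  set Z := (T : Subgroup X) ⊓ C_((T : Subgroup X)) with hZ
  set J := thompsonSubgroupOf 0 (T : Subgroup X) with hJ
  set Y := normalClosure (J : Set X) with hY
  have nt : ∀ N : Subgroup X, N.Normal → ∀ A : Subgroup X, A ≤ N_(N) := fun N hN A => by
    rw [normalizer_eq_top]; exact le_top
  have hJY : J ≤ Y := le_normalClosure
  refine ⟨?_, ?_⟩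
  · haveI : ((C_(Z)).normalCore ⊔ Y).Normal := inferInstance
    have h1 := sylow_frattini Nat.prime_two (hT.inf_normal le_top (nt ((C_(Z)).normalCore ⊔ Y) this ⊤)) le_top
      (nt _ this ⊤)
    refine eq_top_iff.2 (h1.ge.trans (sup_le_sup_left (inf_le_right.trans ?_) _))
    rw [hJ, ← H17.thompsonOf_eq_of_le (Q := (T : Subgroup X) ⊓ ((C_(Z)).normalCore ⊔ Y))
      (le_inf (H17.thompsonOf_le 0 _) (hJY.trans le_sup_right)) inf_le_left]
    exact H17.normalizer_le_normalizer_thompsonOf 0 _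
  have hQT : pCore 2 X ≤ T := IsSylowIn.le_of_norm_pg hT Nat.prime_two (H02.pCore_isPGroup 2 X) le_top
    (nt _ inferInstance _)
  set U := normalClosure (Z : Set X) with hU
  have hUQ : U ≤ pCore 2 X ⊓ C_(pCore 2 X) := by
    have h1 : Z ≤ C_(pCore 2 X) := inf_le_right.trans (cent_anti hQT)
    exact normalClosure_le_normal (le_inf (h1.trans (hF ▸ H02.centralizer_fitting_le X)) h1)
  have hUa : IsMulCommutative U := abelian_of_le (abelian_center _) hUQ
  have hUT : U ≤ T := hUQ.trans (inf_le_left.trans hQT)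
  have hZU : Z ≤ U := le_normalClosure
  set V := omegaOne 2 U with hVd
  have hV : IsElementaryAbelian 2 V := H17.omegaOne_elemAb hUa
  haveI hVn : V.Normal := H17.omegaOne_normal 2 U
  have hVU : V ≤ U := H17.omegaOne_le 2 U
  have red : ∀ D : Subgroup X, D.Normal → IsPGroup 2 (im (holA V) D) → D ≤ (C_(Z)).normalCore := by
    intro D hD hg
    refine normal_le_normalCore.2 ?_
    have h1 : (D ⊓ C_(U) ⊔ T ⊓ D).relIndex D = 1 := by
      by_contra hne
      obtain ⟨q, hq, hqd⟩ := Nat.exists_prime_and_dvd hne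
      by_cases h2 : q = 2
      · exact (hT.inf_normal le_top (nt D hD ⊤)).not_dvd hq h2 (hqd.trans (relIndex_dvd_left D le_sup_right))
      obtain ⟨S, hS⟩ := sylow_exists hq D
      have h3 : S ≤ C_(V) := by
        rw [← kr_holA, ← im_eq_bot_iff (nt V hVn S)]
        exact pg_eq_bot hq (isPGroup_im (hS.pg hq)) (pg_not_dvd hq Nat.prime_two (pg_le hg (im_mono hS.le)) h2)
      have h4 : S ≤ C_(U) := S0056.result S U (nt U inferInstance S)
        (pg_coprime_ne hq Nat.prime_two (hS.pg hq) (pg_le T.isPGroup' hUT) h2) fun v hv ho a ha => by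
          have h5 : orderOf v = 2 := pg_prime_eq Nat.prime_two (pg_le T.isPGroup' hUT) ho (orderOf_dvd_card hv)
          exact (mem_cent.1 (h3 ha) v (H17.mem_omegaOne hv (h5 ▸ pow_orderOf_eq_one v))).symm
      exact hS.not_dvd' hq (hqd.trans (relIndex_dvd_left D ((le_inf hS.le h4).trans le_sup_left)))
    exact (relIndex_eq_one.1 h1).trans (sup_le (inf_le_right.trans (cent_anti hZU))
      (inf_le_left.trans (cent_symm inf_le_right)))
  have hC : (C_(Z)).normalCore = C_(V) := by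
    refine le_antisymm (cent_symm (hVU.trans (normalClosure_le_normal (cent_symm (normalCore_le _))))) ?_
    refine red _ inferInstance ?_
    rw [(im_eq_bot_iff (nt V hVn _)).2 kr_holA.ge]
    exact pg_bot
  rw [hC] at red
  by_cases hYC : Y ≤ C_(V)
  · exact Or.inl (hYC.trans hC.ge)
  right
  have nY := nt V hVn Y
  have ff : FF 2 (im (holV V) V) (im (holA V) Y) := by
    refine ⟨isElementaryAbelian_im hV, holA_le_normalizer nY, hol_faithful Y,
      psol_cent_p'core (psol_of_sol (isSolvable_im Y)) ?_⟩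
    have h2 : im (holA V) ⊤ ≤ N_(piCoreOf {2} (im (holA V) Y)) :=
      norm_pcore _ (im_le_normalizer (nt Y inferInstance ⊤))
    have h3 := im_pre ((pcore_le {2} _) : piCoreOf {2} (im (holA V) Y) ≤ _)
    rw [← h3, im_eq_bot_iff (nt V hVn _), kr_holA]
    exact red _ (normalizer_eq_top_iff.1 (top_le_iff.1 (le_normalizer_pre (nt V hVn ⊤) h2)))
      (h3.symm ▸ pcore_pg Nat.prime_two _)
  have fg : FG 2 (im (holV V) V) (im (holA V) Y) := by
    refine ⟨ff, fun K hK => (im_le_iff nY).2 ?_⟩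
    let B : Set (Subgroup X) := {A | A ≤ Y ∧ IsMulCommutative A ∧ IsPGroup 2 A ∧ ∀ D ≤ A, mv V D ≤ mv V A}
    have hmv : ∀ (g : X) (D : Subgroup X), mv V (cj g D) = mv V D := fun g D => by
      unfold mv
      rw [card_cj, ← cj_cent, ← card_cj g (V ⊓ C_(D)), cj_inf, cj_of_mem_norm (nt V hVn ⊤ (mem_top g))]
    haveI : (sSup B).Normal := by
      refine normalizer_eq_top_iff.1 (top_le_iff.1 (le_norm_of_cj_le fun g _ => ?_))
      rw [cj_le_iff]
      refine sSup_le fun A hA => cj_le_iff.1 (le_sSup ⟨cj_le_of_mem_norm hA.1 (nt Y inferInstance ⊤ (mem_top g)),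
        ?_, hA.2.2.1.map _, fun D hD => ?_⟩)
      · haveI := hA.2.1
        exact Subgroup.map_isMulCommutative _ _
      · rw [hmv, ← hmv g⁻¹]
        exact hA.2.2.2 _ (le_cj_iff.1 hD)
    have h1 : Y ≤ sSup B := normalClosure_le_normal (H17.thompsonOf_le_iff.2 fun A hA => le_sSup
      ⟨(H17.le_thompsonOf hA).trans hJY, hA.2.1.1, pg_le T.isPGroup' hA.1, fun D hD => by
        have d1 := card_sup_mul (K := D) (H := V ⊓ C_(D)) (le_norm_of_cent inf_le_right)
        have d2 := hA.2.2 (D ⊔ V ⊓ C_(D)) (sup_le (hD.trans hA.1) (inf_le_left.trans (hVU.trans hUT)))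
          ⟨abelian_sup (abelian_of_le hA.2.1.1 hD) (abelian_of_le hV.1 inf_le_left) (cent_symm inf_le_right),
            fun a _ => pow_zero a⟩
        have d3 : Nat.card ↥(D ⊓ (V ⊓ C_(D))) ≤ Nat.card ↥(V ⊓ C_(A)) := card_le
          (le_inf (inf_le_right.trans inf_le_left) (inf_le_left.trans (le_cent_of_abelian hA.2.1.1 hD le_rfl)))
        unfold mv
        rw [← d1]
        exact Nat.mul_le_mul d2 d3⟩)
    refine h1.trans (sSup_le fun A ⟨a1, a2, a3, a4⟩ => (im_le_iff (nt V hVn A)).1 ?_)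
    have hm : ∀ D ≤ im (holA V) A, mv (im (holV V) V) D ≤ mv (im (holV V) V) (im (holA V) A) := fun D hD => by
      have h1 := a4 _ (inf_le_left : A ⊓ pre (holA V) D ≤ A)
      have h2 : A ⊓ pre (holA V) D ⊓ C_(V) = A ⊓ C_(V) := by
        rw [inf_assoc, inf_eq_right.mpr ((kr_holA (V := V)).ge.trans (kr_le_pre D))]
      have h3 := mv_im (nt V hVn (A ⊓ pre (holA V) D))
      rw [im_inf_pre hD, h2] at h3
      exact Nat.le_of_mul_le_mul_right (h3.le.trans (h1.trans (mv_im (nt V hVn A)).ge)) (card_pos _)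
    have he := el ff _ (im_mono a1) (isMulCommutative_im A) (isPGroup_im a3) hm
    exact ff.best_gen (im_mono a1) ⟨hm, by rw [abelian_iff_der.1 he.1]; exact bot_le,
      fun a ha => by rw [he.2 a ha]; exact one_mem _⟩ fun B _ hB => hK B hB
  obtain ⟨n, hn, ⟨e⟩⟩ := prod fg fun e => hYC (kr_holA (V := V) ▸ (im_eq_bot_iff nY).1 e)
  refine ⟨n, hn, ⟨MulEquiv.trans ?_ e⟩⟩
  let φ : Y →* Hol V := (holA V).comp (inclusion nY)
  have k1 : ((C_(Z)).normalCore).subgroupOf Y = φ.ker := by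
    rw [hC]
    ext x
    rw [mem_subgroupOf, MonoidHom.mem_ker, ← kr_holA]
    exact coe_mem_kr (x := inclusion nY x)
  have k2 : φ.range = im (holA V) Y := by
    ext y
    exact ⟨fun ⟨x, hx⟩ => ⟨inclusion nY x, x.2, hx⟩, fun ⟨x, hx, e⟩ => ⟨⟨x, hx⟩, e⟩⟩
  exact ((QuotientGroup.quotientMulEquivOfEq k1).trans (QuotientGroup.quotientKerEquivRange φ)).trans
    (MulEquiv.subgroupCongr k2)

end Cfsg.Agent.S4302
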