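import Cfsg.Statements.S4304
import Mathlib
import Cfsg.Agent.H27.SylowSmall
-- import your own Cfsg.Agent.* helpers here

set_option autoImplicit false
open Cfsg

namespace Cfsg.Agent.S4304

open scoped Pointwise commutatorElement

/-- No finite group has exactly 15 Sylow 7-subgroups. -/
theorem result {G : Type*} [Group G] [Finite G] : Nat.card (Sylow 7 G) ≠ 15 := by
  intro h
  haveI : Fact (Nat.Prime 7) := ⟨by norm_num⟩
  obtain ⟨S, _, _, hS, hc, hd, hn⟩ := H27.exists_simple_card_sylow h (by norm_num) (by
    intro hp
    obtain ⟨q, -, hq⟩ := isPrimePow_iff_unique_prime_dvd.1 hp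
    have h3 := hq 3 ⟨by norm_num, by norm_num⟩
    have h5 := hq 5 ⟨by norm_num, by norm_num⟩
    omega) (by
    intro d hd h1
    have := Nat.le_of_dvd (by norm_num) hd
    interval_cases d <;> omega)
  obtain ⟨P⟩ : Nonempty (Sylow 7 S) := inferInstance
  obtain ⟨h1, h2⟩ := H27.centralizer_eq_of_card_sylow hc (by norm_num) hn hd P
  have h3 := H27.card_eq_index_mul (P : Subgroup S)
  have h4 := H27.relIndex_centralizer_dvd_pred h1
  have h5 := H27.relIndex_centralizer_ne_one hc hd P
  have h6 := P.card_eq_index_normalizer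
  rw [hn] at h6
  change Nat.card S = (Subgroup.normalizer (P : Set S)).index *
      (Subgroup.centralizer (P : Set S)).relIndex (Subgroup.normalizer (P : Set S)) *
        Nat.card (Subgroup.centralizer (P : Set S)) at h3
  change (Subgroup.centralizer (P : Set S)).relIndex (Subgroup.normalizer (P : Set S)) ∣ _ at h4
  generalize (Subgroup.centralizer (P : Set S)).relIndex (Subgroup.normalizer (P : Set S)) = e at *
  rw [← h6, h2, h1] at h3
  have h7 := Nat.le_of_dvd (by norm_num) h4
  have key : Nat.card S = 210 ∨ Nat.card S = 315 ∨ Nat.card S = 630 := by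
    interval_cases e <;> omega
  have two : ∀ m, Nat.card S = 2 * m → ¬ 2 ∣ m → False := by
    intro m hm hm2
    obtain ⟨T⟩ : Nonempty (Sylow 2 S) := inferInstance
    have hT : Nat.card (T : Subgroup S) = 2 := by
      have hm0 : m ≠ 0 := by rintro rfl; simp at hm2
      rw [T.card_eq_multiplicity, hm, Nat.factorization_mul (by norm_num) hm0, Finsupp.add_apply,
        Nat.factorization_eq_zero_of_not_dvd hm2, Nat.Prime.factorization_self Nat.prime_two]
      rfl
    exact H27.not_isCyclic_sylow_minFac hc (by
      rw [Nat.minFac_eq_two_iff, hm]; exact dvd_mul_right _ _) T (isCyclic_of_prime_card hT)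
  rcases key with k | k | k
  · exact two 105 k (by norm_num)
  · haveI : Fact (Nat.Prime 5) := ⟨by norm_num⟩
    obtain ⟨Q⟩ : Nonempty (Sylow 5 S) := inferInstance
    have hQ : Nat.card (Q : Subgroup S) = 5 := by
      rw [Q.card_eq_multiplicity, k, show 315 = 5 * 63 by rfl,
        Nat.factorization_mul (by norm_num) (by norm_num), Finsupp.add_apply,
        Nat.factorization_eq_zero_of_not_dvd (by norm_num : ¬ 5 ∣ 63),
        Nat.Prime.factorization_self (by norm_num)]
      rfl
    have a1 := H27.relIndex_centralizer_dvd_pred hQ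
    have a2 := H27.relIndex_centralizer_ne_one hc (by rw [k]; norm_num) Q
    have a3 := H27.card_eq_index_mul (Q : Subgroup S)
    have a4 : (Subgroup.centralizer ((Q : Subgroup S) : Set S)).relIndex
        (Subgroup.normalizer ((Q : Subgroup S) : Set S)) ∣ 315 := by
      rw [← k, a3]; exact (dvd_mul_left _ _).mul_right _
    exact a2 (Nat.eq_one_of_dvd_coprimes (by norm_num : Nat.Coprime (5 - 1) 315) a1 a4)
  · exact two 315 k (by norm_num)

end Cfsg.Agent.S4304
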