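import Mathlib
import Cfsg.Statements.S4305
import Cfsg.Agent.H03.FP5

set_option autoImplicit false
open Cfsg

namespace Cfsg.Agent.S4305

/-- Let the symmetric group of degree 3 act by automorphisms on a finite solvable group `G` of order prime to 6, so that only the identity of `G` is fixed by all of it. Then the derived subgroup of `G` is nilpotent. -/
theorem result {G : Type*} [Group G] [Finite G] [Group.IsSolvable G]
    [MulDistribMulAction (Equiv.Perm (Fin 3)) G] (hcop : (Nat.card G).Coprime 6)
    (hfpf : ∀ g : G, (∀ a : Equiv.Perm (Fin 3), a • g = g) → g = 1) :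
    Group.IsNilpotent ↥(commutator G) := by
  open BG H03 in
  let φ := MulDistribMulAction.toMulAut (Equiv.Perm (Fin 3)) G
  have hc : Nat.card (sA φ) = 6 := by rw [card_sA, Nat.card_perm, Nat.card_fin]; rfl
  have h4 := nil_of_le_fit (s3_der hc (fun h => ?_) (sol_sK φ inferInstance) (sA_norm φ)
    (by rw [hc, card_sK]; exact hcop.symm) (sK_cent φ hfpf))
  · rw [← Subgroup.map_commutator] at h4
    exact Group.nilpotent_of_mulEquiv (Subgroup.equivMapOfInjective _ _ SemidirectProduct.inl_injective).symm (_h := h4)
  · have h5 := h.is_comm.comm (sAequiv φ (Equiv.swap 0 1)) (sAequiv φ (Equiv.swap 1 2))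
    rw [← map_mul, ← map_mul] at h5
    exact absurd ((sAequiv φ).injective h5) (by decide)

end Cfsg.Agent.S4305
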