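import Mathlib
import Cfsg.Statements.S4306
import Cfsg.Agent.H03.FP4

set_option autoImplicit false
open Cfsg

namespace Cfsg.Agent.S4306

/-- Let `A` be a non-abelian group of order `pq` with `p, q` distinct primes, acting by automorphisms on a finite solvable group `G` of order prime to `pq`, so that only the identity of `G` is fixed by all of `A`. Then `G` has Fitting height at most 2: there is a normal nilpotent subgroup `F` of `G` with `G/F` nilpotent. -/
theorem result {G A : Type*} [Group G] [Finite G]
    [Group.IsSolvable G] [Group A] [Finite A] [MulDistribMulAction A G] (p q : ℕ) (hp : p.Prime) (hq : q.Prime) (hpq : p ≠ q)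
    (hA : Nat.card A = p * q) (hAna : ¬ IsMulCommutative A) (hcop : (Nat.card G).Coprime (p * q))
    (hfpf : ∀ g : G, (∀ a : A, a • g = g) → g = 1) :
    ∃ F : Subgroup G, ∃ hF : F.Normal, Group.IsNilpotent ↥F ∧ Group.IsNilpotent (G ⧸ F) := by
  open BG H03 in
  let φ := MulDistribMulAction.toMulAut A G
  have h1 := res_two (twoP_of_pq hp hq hpq ((card_sA φ).trans hA)) (sol_sK φ inferInstance) (sA_norm φ)
    (by rw [card_sA, card_sK, hA]; exact hcop.symm) (sK_cent φ hfpf)
  rw [resn_sK] at h1
  have hn : (res (⊤ : Subgroup G)).Normal := Subgroup.normalizer_eq_top_iff.1 (top_le_iff.1 (norm_res le_norm_top))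
  refine ⟨res ⊤, hn, res_eq_bot.1 h1, ?_⟩
  rw [← Group.isNilpotent_top, ← res_eq_bot, ← MonoidHom.range_eq_top.2 (QuotientGroup.mk'_surjective (res ⊤)),
    MonoidHom.range_eq_map, ← res_map, Subgroup.map_eq_bot_iff, QuotientGroup.ker_mk']

end Cfsg.Agent.S4306
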