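import Cfsg.Statements.S4310
import Mathlib
import Cfsg.Agent.H01.Hall
import Cfsg.Agent.H27.SylowNum
import Cfsg.Agent.S0205
-- import your own Cfsg.Agent.* helpers here

set_option autoImplicit false
open Cfsg

namespace Cfsg.Agent.S4310

open scoped Pointwise commutatorElement

theorem core {L : Type*} [Group L] [Finite L] {π : Set ℕ} (D N : Subgroup L) [D.Normal] [N.Normal]
    (h : D ≤ N) (h1 : H01.PiNum π (Nat.card D)) (h2 : H01.PiNum πᶜ (D.relIndex N))
    (h3 : H01.PiNum π N.index) :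
    (∃ H : Subgroup L, IsPiHall π H) ∧ ∀ H K : Subgroup L, IsPiHall π H → IsPiHall π K →
      ∃ g : L, MulAut.conj g • H = K := by
  have hs := QuotientGroup.mk'_surjective D
  set N' := N.map (QuotientGroup.mk' D) with hN'
  haveI : N'.Normal := Subgroup.Normal.map inferInstance _ hs
  have h4 : Nat.card N' = D.relIndex N := by
    rw [hN', ← Subgroup.relIndex_ker, QuotientGroup.ker_mk']
  have h5 : N'.index = N.index := N.index_map_eq hs (by rwa [QuotientGroup.ker_mk'])
  have h6 : (Nat.card N').Coprime N'.index := by rw [h4, h5]; exact (h3.coprime h2).symm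
  obtain ⟨H', hH'⟩ := Subgroup.exists_right_complement'_of_coprime h6
  have h7 : IsPiHall π H' := H01.isPiHall_iff.2
    ⟨by rwa [← hH'.symm.index_eq_card, h5], by rwa [hH'.index_eq_card, h4]⟩
  refine ⟨⟨H'.comap (QuotientGroup.mk' D), H01.isPiHall_iff.2 ⟨?_, ?_⟩⟩, fun H K hH hK => ?_⟩
  · rw [H01.card_comap_mk']; exact h1.mul h7.1
  · rw [H'.index_comap_of_surjective hs]; exact (H01.isPiHall_iff.1 h7).2
  have h8 : ∀ H : Subgroup L, IsPiHall π H → N'.IsComplement' (H.map (QuotientGroup.mk' D)) :=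
    fun H hH => H01.isComplement'_of_card_eq_index h6 (by
      rw [H01.isPiHall_card_eq (H01.isPiHall_map hH _ hs) h7, hH'.symm.index_eq_card])
  obtain ⟨q, -, hq⟩ := H01.sz_conj N' h6 (by
    rcases Nat.even_or_odd (Nat.card N') with e | e
    · exact Or.inr (Cfsg.Agent.S0205.result
        (Nat.coprime_two_left.1 (h6.coprime_dvd_left e.two_dvd)))
    · exact Or.inl (Cfsg.Agent.S0205.result e)) _ _ (h8 H hH) (h8 K hK)
  obtain ⟨g, hg⟩ := H01.exists_conj_sup_of_quotient ⟨q, hq⟩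
  exact ⟨g, by rwa [sup_eq_left.2 (H01.le_of_normal_of_isPiHall (H01.isPiHall_conj_smul hH g) h1),
    sup_eq_left.2 (H01.le_of_normal_of_isPiHall hK h1)] at hg⟩

theorem core' {G : Type*} [Group G] [Finite G] {π : Set ℕ} (A : Subgroup G) [A.Normal]
    {D : Subgroup G} (hD : IsPiHallOf π D A) {B : Subgroup (G ⧸ A)} (hB : IsPiHall π B) :
    (∃ H : Subgroup G, IsPiHallOf π H
      (B.comap (QuotientGroup.mk' A) ⊓ Subgroup.normalizer (D : Set G))) ∧
    ∀ H K : Subgroup G, IsPiHallOf π H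
      (B.comap (QuotientGroup.mk' A) ⊓ Subgroup.normalizer (D : Set G)) → IsPiHallOf π K
      (B.comap (QuotientGroup.mk' A) ⊓ Subgroup.normalizer (D : Set G)) →
      ∃ g : G, MulAut.conj g • H = K := by
  set L := B.comap (QuotientGroup.mk' A) ⊓ Subgroup.normalizer (D : Set G) with hL
  have h1 : D ≤ L := le_inf (hD.1.trans (QuotientGroup.le_comap_mk' A B)) Subgroup.le_normalizer
  haveI : (D.subgroupOf L).Normal :=
    (Subgroup.normal_subgroupOf_iff_le_normalizer h1).2 inf_le_right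
  obtain ⟨⟨H, hH⟩, h2⟩ := core (π := π) (D.subgroupOf L) (A.subgroupOf L)
    (Subgroup.subgroupOf_mono L hD.1) (by rw [H01.card_subgroupOf_of_le h1]; exact hD.2.1)
    (by
      rw [← Subgroup.inf_subgroupOf_right A, Subgroup.relIndex_subgroupOf inf_le_right]
      exact (H01.isPiHallOf_iff.1 hD).2.2.of_dvd
        ⟨_, (Subgroup.relIndex_mul_relIndex D (A ⊓ L) A (le_inf hD.1 h1) inf_le_left).symm⟩)
    (by
      have := Subgroup.relIndex_ker L (QuotientGroup.mk' A)
      rw [QuotientGroup.ker_mk'] at this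
      exact H01.PiNum.of_dvd hB.1 (this.dvd.trans (Subgroup.card_dvd_of_le
        (Subgroup.map_le_iff_le_comap.2 inf_le_left))))
  refine ⟨⟨_, H01.isPiHallOf_map_subtype.2 hH⟩, fun H K hH hK => ?_⟩
  obtain ⟨g, -, hg⟩ := H01.exists_conj_of_subgroupOf hH.1 hK.1
    (h2 _ _ (H01.isPiHallOf_iff_subgroupOf.1 hH).2 (H01.isPiHallOf_iff_subgroupOf.1 hK).2)
  exact ⟨g, hg⟩

/-- Let `π` be a set of primes and `A` a normal subgroup of the finite group `G`. Suppose `A` has a Hall `π`-subgroup and all Hall `π`-subgroups of `A` are conjugate in `A`, and likewise for `G/A`. Then `G` has a Hall `π`-subgroup and all Hall `π`-subgroups of `G` are conjugate. (The conjugacy of complements of coprime order that the usual proof uses rests, in general, on the odd order Theorem.) -/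
theorem result {G : Type*} [Group G] [Finite G] (π : Set ℕ) (A : Subgroup G) [A.Normal]
    (hA : Cfsg.IsCPiGroup π ↥A) (hQ : Cfsg.IsCPiGroup π (G ⧸ A)) : Cfsg.IsCPiGroup π G := by
  have hs := QuotientGroup.mk'_surjective A
  have hA' : ∀ D E : Subgroup G, IsPiHallOf π D A → IsPiHallOf π E A →
      ∃ a ∈ A, MulAut.conj a • D = E := fun D E hD hE => by
    obtain ⟨g, hg⟩ := hA.2 _ _ (H01.isPiHallOf_iff_subgroupOf.1 hD).2
      (H01.isPiHallOf_iff_subgroupOf.1 hE).2
    exact H01.exists_conj_of_subgroupOf hD.1 hE.1 ⟨g, hg.symm⟩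
  refine ⟨?_, fun H K hH hK => ?_⟩
  · obtain ⟨D, hD⟩ := hA.1
    obtain ⟨B, hB⟩ := hQ.1
    have hD' := H01.isPiHallOf_map_subtype.2 hD
    obtain ⟨H, hH⟩ := (core' A hD' hB).1
    refine ⟨H, H01.isPiHall_iff.2 ⟨hH.2.1, ?_⟩⟩
    rw [← Subgroup.relIndex_mul_index hH.1, ← Subgroup.relIndex_mul_index inf_le_left,
      B.index_comap_of_surjective hs, Subgroup.inf_relIndex_left]
    refine (H01.isPiHallOf_iff.1 hH).2.2.mul (H01.PiNum.mul ?_ (H01.isPiHall_iff.1 hB).2)
    rw [H27.relIndex_eq_relIndex_of_forall_mul (QuotientGroup.le_comap_mk' A B) (fun g _ => by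
      obtain ⟨a, ha, e⟩ := hA' _ _ hD' (H01.isPiHallOf_conj_smul hD' (g := g)
        (H01.le_normalizer_of_normal ⊤ A (Subgroup.mem_top g)))
      refine ⟨a, ha, a⁻¹ * g, H01.conj_smul_eq_iff_mem_normalizer.1 ?_, by group⟩
      rw [← H01.conj_smul_conj_smul, ← e, H01.conj_smul_conj_smul, inv_mul_cancel, map_one,
        one_smul])]
    exact (H01.isPiHallOf_iff.1 hD').2.2.of_dvd
      (Subgroup.relIndex_dvd_of_le_left A Subgroup.le_normalizer)
  have hinf : ∀ H : Subgroup G, IsPiHall π H → IsPiHallOf π (H ⊓ A) A := fun H hH =>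
    H01.isPiHallOf_inf_normal (H01.isPiHallOf_top.2 hH) le_top (H01.le_normalizer_of_normal ⊤ A)
  obtain ⟨q, hq⟩ := hQ.2 _ _ (H01.isPiHall_map hH _ hs) (H01.isPiHall_map hK _ hs)
  obtain ⟨g, rfl⟩ := hs q
  have h1 := H01.isPiHall_conj_smul hH g
  obtain ⟨a, ha, e⟩ := hA' _ _ (hinf _ h1) (hinf _ hK)
  have h2 := H01.isPiHall_conj_smul h1 a
  have h3 : ∀ X : Subgroup G, IsPiHall π X → X ⊓ A = K ⊓ A →
      X.map (QuotientGroup.mk' A) = K.map (QuotientGroup.mk' A) →
      IsPiHallOf π X ((K.map (QuotientGroup.mk' A)).comap (QuotientGroup.mk' A) ⊓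
        Subgroup.normalizer ((K ⊓ A : Subgroup G) : Set G)) := by
    intro X hX e1 e2
    have h4 : X ≤ (K.map (QuotientGroup.mk' A)).comap (QuotientGroup.mk' A) ⊓
        Subgroup.normalizer ((K ⊓ A : Subgroup G) : Set G) :=
      le_inf (e2 ▸ Subgroup.le_comap_map _ _) (e1 ▸ H01.le_normalizer_inf Subgroup.le_normalizer
        (H01.le_normalizer_of_normal X A))
    exact H01.isPiHallOf_iff.2 ⟨h4, hX.1,
      (H01.isPiHall_iff.1 hX).2.of_dvd (Subgroup.relIndex_dvd_index_of_le h4)⟩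
  obtain ⟨c, hc⟩ := (core' A (hinf K hK) (H01.isPiHall_map hK _ hs)).2 _ K
    (h3 _ h2 (by rw [← e, Subgroup.smul_inf, H01.conj_smul_eq_of_normal a A]) (by
      rw [H01.map_conj_smul, H01.map_conj_smul, QuotientGroup.mk'_apply,
        (QuotientGroup.eq_one_iff a).2 ha, map_one, one_smul, hq]
      rfl)) (h3 K hK rfl rfl)
  rw [H01.conj_smul_conj_smul, H01.conj_smul_conj_smul] at hc
  exact ⟨_, hc.symm⟩

end Cfsg.Agent.S4310
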