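import Cfsg.Statements.S4314
import Mathlib
import Cfsg.Agent.H27.ClassGraph
import Cfsg.Agent.H04.Basic
-- import your own Cfsg.Agent.* helpers here

set_option autoImplicit false
open Cfsg

namespace Cfsg.Agent.S4314

open scoped Pointwise commutatorElement

/-- Let `G` be a finite group every conjugacy class of which has size 1 or a prime. Then either `G` is nilpotent of class at most 2, or `G/Z(G)` is a non-abelian group of order `pq` for distinct primes `p, q` (a Frobenius group of order `pq`). -/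
theorem result {G : Type*} [Group G] [Finite G]
    (h : ∀ x : G, (Subgroup.centralizer ({x} : Set G)).index = 1 ∨ ((Subgroup.centralizer ({x} : Set G)).index).Prime) :
    Subgroup.upperCentralSeries G 2 = ⊤ ∨
      ∃ p q : ℕ, p.Prime ∧ q.Prime ∧ p ≠ q ∧ Nat.card (G ⧸ Subgroup.center G) = p * q ∧ ¬ IsMulCommutative (G ⧸ Subgroup.center G) := by
  by_cases h1 : ∃ p q : ℕ, p.Prime ∧ q.Prime ∧ p ≠ q ∧ (∃ x : G, H27.cs x = p) ∧ ∃ y : G, H27.cs y = q
  · right
    obtain ⟨p, q, hp, hq, hpq, ⟨x, hx⟩, y, hy⟩ := h1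
    obtain ⟨K, H, hK, h1, h2, h3, h4, h5⟩ := H27.exists_split_of_disconnected (G := G) {p} (fun g => by
        rcases h g with e | e
        · left; rw [H27.cs, e]; exact H01.piNum_one _
        · by_cases e' : H27.cs g = p
          · left; rw [e', ← pow_one p]; exact H01.piNum_prime_pow hp (by simp) 1
          · right; rw [← pow_one (H27.cs g)]; exact H01.piNum_prime_pow e e' 1)
      ⟨x, fun h => h p hp (hx ▸ dvd_rfl) rfl⟩ ⟨y, fun h => hpq (h q hq (hy ▸ dvd_rfl)).symm⟩
    have h6 : ∃ x : G, H27.cs x ≠ 1 := ⟨x, hx ▸ hp.ne_one⟩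
    have h7 := H27.not_le_center_of_split h1.sup_eq_top h6
    have h8 := H27.not_le_center_of_split h1.symm.sup_eq_top h6
    obtain ⟨h9, h10⟩ := H27.frob_quotient_center h1 h4 h5 h7 h8
    have hs := QuotientGroup.mk'_surjective (Subgroup.center G)
    have h11 := H01.isComplement'_map h1 h4 _ hs
    have key : ∀ L : Subgroup G, IsMulCommutative L → ¬ L ≤ Subgroup.center G →
        (∀ a ∈ L, a ∉ Subgroup.center G → (H27.cent a).map (QuotientGroup.mk' (Subgroup.center G)) ≤
          L.map (QuotientGroup.mk' (Subgroup.center G))) →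
        (L.map (QuotientGroup.mk' (Subgroup.center G))).index.Prime := by
      intro L hL hL1 hL2
      obtain ⟨a, ha, ha'⟩ := SetLike.not_le_iff_exists.1 hL1
      rw [le_antisymm (Subgroup.map_mono (f := QuotientGroup.mk' (Subgroup.center G))
        (K' := H27.cent a) fun b hb => H27.mem_cent.2
          (congrArg Subtype.val (hL.1.1 (⟨b, hb⟩ : L) ⟨a, ha⟩))) (hL2 a ha ha'),
        Subgroup.index_map_eq _ hs (by rw [QuotientGroup.ker_mk']; exact H27.center_le_cent a)]
      exact (h a).resolve_left fun e => ha' (H27.cs_eq_one_iff.1 e)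
    have h12 := key K h2 h7 fun a ha ha' => (H27.map_cent_le _ a).trans
      (H02.IsFrob.centralizer_le_of_coe_eq h9 h10 ⟨a, ha, rfl⟩
        fun e => ha' ((QuotientGroup.eq_one_iff a).1 e))
    have h13 := key H h3 h8 fun a ha ha' => (H27.map_cent_le _ a).trans
      (H02.IsFrob.centralizer_le h9 ⟨a, ha, rfl⟩ fun e => ha' ((QuotientGroup.eq_one_iff a).1 e))
    refine ⟨_, _, h12, h13, (Nat.coprime_primes h12 h13).1 ?_, ?_, fun e => h9.2.1 ?_⟩
    · rw [h11.symm.index_eq_card, h11.index_eq_card]
      exact (h4.symm.coprime_dvd_left (H.card_map_dvd _)).coprime_dvd_right (K.card_map_dvd _)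
    · rw [h11.index_eq_card, Subgroup.index_mul_card]
    · rw [← H02.IsFrob.normalizer_eq h9, Subgroup.normalizer_eq_top_iff]
      exact ⟨fun n hn g => by rwa [e.1.1 g n, mul_inv_cancel_right]⟩
  left
  by_cases h2 : ∃ x : G, x ∉ Subgroup.center G
  swap
  · push Not at h2
    rw [eq_top_iff]
    exact fun x _ => Subgroup.upperCentralSeries_mono G one_le_two
      (by rw [Subgroup.upperCentralSeries_one]; exact h2 x)
  obtain ⟨x, hx⟩ := h2
  have hp := (h x).resolve_left fun e => hx (H27.cs_eq_one_iff.1 e)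
  haveI := Fact.mk hp
  have h3 : ∀ y : G, y ∉ Subgroup.center G → H27.cs y = H27.cs x := fun y hy => by
    by_contra h3
    exact h1 ⟨_, _, (h y).resolve_left fun e => hy (H27.cs_eq_one_iff.1 e), hp, h3, ⟨y, rfl⟩, x, rfl⟩
  have h4 : IsPGroup (H27.cs x) (G ⧸ Subgroup.center G) := by
    obtain ⟨k, hk⟩ := (H01.piNum_singleton_iff hp (Subgroup.center G).index_ne_zero_of_finite).1
      fun r hr hd => by
        by_contra h4
        haveI := Fact.mk hr
        obtain ⟨R⟩ : Nonempty (Sylow r G) := inferInstance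
        refine H27.exists_sylow_le_iff.1 ⟨R, H27.sylow_le_center_of_not_dvd_cs R fun y hy => ?_⟩ hd
        by_cases h5 : y ∈ Subgroup.center G
        · exact hr.not_dvd_one (H27.cs_eq_one_iff.2 h5 ▸ hy)
        · exact h4 ((Nat.prime_dvd_prime_iff_eq hr hp).1 (hy.trans (h3 y h5).dvd))
    exact IsPGroup.of_card hk
  haveI := Group.of_quotient_center_nilpotent h4.isNilpotent
  rw [eq_top_iff]
  intro a _
  rw [Subgroup.mem_upperCentralSeries_succ_iff]
  intro b
  rw [Subgroup.upperCentralSeries_one, Subgroup.mem_center_iff]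
  intro y
  by_cases h5 : y ∈ Subgroup.center G
  · exact (Subgroup.mem_center_iff.1 h5 _).symm
  have h6 : IsCoatom (H27.cent y) := H04.isCoatom_of_index_prime (by rw [← H27.cs, h3 y h5]; exact hp)
  haveI := Subgroup.NormalizerCondition.normal_of_coatom _ Group.normalizerCondition_of_isNilpotent h6
  haveI : IsCyclic (G ⧸ H27.cent y) := isCyclic_of_prime_card (h3 y h5)
  refine (H27.mem_cent.1 (Subgroup.Normal.quotient_commutative_iff_commutator_le.1 ?_
    (Subgroup.commutator_mem_commutator (Subgroup.mem_top a) (Subgroup.mem_top b)))).symm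
  exact IsCyclic.isMulCommutative

end Cfsg.Agent.S4314
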