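import Mathlib
import Cfsg.Statements.S4321
import Cfsg.Agent.H04.QW

set_option autoImplicit false
open Cfsg

namespace Cfsg.Agent.S4321

/-- Let `G` be a finite group and `p` a prime not dividing the order of the centre of `G`. Consider the primes dividing the size of some conjugacy class of a `p`-singular element (an element of order divisible by `p`), two of them adjacent when their product divides such a class size. Then any two distinct such primes are joined by a path with at most 3 edges (the graph is connected of diameter at most 3). -/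
theorem result {G : Type*} [Group G] [Finite G] (p : ℕ) [Fact p.Prime]
    (hZ : ¬ p ∣ Nat.card ↥(Subgroup.center G)) (r s : ℕ) (hr : (r.Prime ∧ ∃ x : G, p ∣ orderOf x ∧ r ∣ (Subgroup.centralizer ({x} : Set G)).index)) (hs : (s.Prime ∧ ∃ x : G, p ∣ orderOf x ∧ s ∣ (Subgroup.centralizer ({x} : Set G)).index)) (hrs : r ≠ s) :
    (∃ x : G, p ∣ orderOf x ∧ r * s ∣ (Subgroup.centralizer ({x} : Set G)).index) ∨ (∃ t : ℕ, (t.Prime ∧ ∃ x : G, p ∣ orderOf x ∧ t ∣ (Subgroup.centralizer ({x} : Set G)).index) ∧ t ≠ r ∧ t ≠ s ∧ (∃ x : G, p ∣ orderOf x ∧ r * t ∣ (Subgroup.centralizer ({x} : Set G)).index) ∧ (∃ x : G, p ∣ orderOf x ∧ t * s ∣ (Subgroup.centralizer ({x} : Set G)).index)) ∨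
      (∃ t u : ℕ, (t.Prime ∧ ∃ x : G, p ∣ orderOf x ∧ t ∣ (Subgroup.centralizer ({x} : Set G)).index) ∧ (u.Prime ∧ ∃ x : G, p ∣ orderOf x ∧ u ∣ (Subgroup.centralizer ({x} : Set G)).index) ∧ t ≠ r ∧ u ≠ s ∧ t ≠ u ∧ (∃ x : G, p ∣ orderOf x ∧ r * t ∣ (Subgroup.centralizer ({x} : Set G)).index) ∧ (∃ x : G, p ∣ orderOf x ∧ t * u ∣ (Subgroup.centralizer ({x} : Set G)).index) ∧ (∃ x : G, p ∣ orderOf x ∧ u * s ∣ (Subgroup.centralizer ({x} : Set G)).index)) := by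
  obtain ⟨r1, x, x1, x2⟩ := hr
  obtain ⟨s1, y, y1, y2⟩ := hs
  obtain ⟨z, t, u, z1, t1, u1, h1, h2, h3, h4⟩ := H04.QW.link' hZ x1 y1
  have E : ∀ {a b n : ℕ}, a.Prime → b.Prime → a ≠ b → a ∣ n → b ∣ n → a * b ∣ n := fun ha hb h c d =>
    ((Nat.coprime_primes ha hb).2 h).mul_dvd_of_dvd_of_dvd c d
  by_cases e1 : t = r
  · subst e1
    by_cases e2 : u = s
    · exact .inl ⟨z, z1, E r1 s1 hrs h2 (e2 ▸ h3)⟩
    by_cases e3 : u = t
    · exact .inl ⟨y, y1, E r1 s1 hrs (e3 ▸ h4) y2⟩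
    exact .inr (.inl ⟨u, ⟨u1, z, z1, h3⟩, e3, e2, ⟨z, z1, E r1 u1 (Ne.symm e3) h2 h3⟩, y, y1, E u1 s1 e2 h4 y2⟩)
  have e4 := E r1 t1 (Ne.symm e1) x2 h1
  by_cases e2 : u = s
  · subst e2
    by_cases e3 : t = u
    · exact .inl ⟨x, x1, e3 ▸ e4⟩
    exact .inr (.inl ⟨t, ⟨t1, z, z1, h2⟩, e1, e3, ⟨x, x1, e4⟩, z, z1, E t1 u1 e3 h2 h3⟩)
  by_cases e3 : t = u
  · subst e3
    exact .inr (.inl ⟨t, ⟨t1, z, z1, h2⟩, e1, e2, ⟨x, x1, e4⟩, y, y1, E t1 s1 e2 h4 y2⟩)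
  exact .inr (.inr ⟨t, u, ⟨t1, z, z1, h2⟩, ⟨u1, z, z1, h3⟩, e1, e2, e3, ⟨x, x1, e4⟩, ⟨z, z1, E t1 u1 e3 h2 h3⟩, y, y1,
    E u1 s1 e2 h4 y2⟩)

end Cfsg.Agent.S4321
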