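import Mathlib
import Cfsg.Statements.S4323
import Cfsg.Agent.H23.Mt2

set_option autoImplicit false
open Cfsg

namespace Cfsg.Agent.S4323

/-- Let `q` be a prime and `A` a non-cyclic group of order `q²` acting by automorphisms on a finite group `G` of order prime to `q`, such that the fixed-point subgroup `C_G(a)` is abelian for every non-identity `a ∈ A`. Then `G` is solvable. -/
theorem result {A G : Type*} [Group A] [Finite A]
    [Group G] [Finite G] [MulDistribMulAction A G] (q : ℕ) (hq : q.Prime) (hA : Nat.card A = q ^ 2) (hnc : ¬ IsCyclic A)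
    (hcop : ¬ q ∣ Nat.card G) (h : ∀ a : A, a ≠ 1 → IsMulCommutative ↥(FixedPoints.subgroup (Subgroup.zpowers a) G)) :
    Group.IsSolvable G := by
  open BG H03 in
  let φ := MulDistribMulAction.toMulAut A G
  have hE : IsElem q 2 (sA φ) ⊤ := by
    refine ⟨le_top, ⟨abelian_of_card_le_sq hq (pg_of_card (by rw [card_sA, hA])) (by rw [card_sA, hA]), ?_⟩, by rw [card_sA, hA]⟩
    rintro _ ⟨a, rfl⟩
    obtain ⟨k, hk, e⟩ := (Nat.dvd_prime_pow hq).1 (hA ▸ orderOf_dvd_natCard a)
    have : k ≤ 1 := by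
      by_contra h2
      exact hnc (isCyclic_of_orderOf_eq_card a (by rw [e, hA, show k = 2 by omega]))
    rw [← map_pow, orderOf_dvd_iff_pow_eq_one.1 (e ▸ (pow_dvd_pow q this).trans (by rw [pow_one])), map_one]
  refine sol_of_sK φ (H23.Mt.main _ _ (sA φ) (sK φ) rfl ⟨hq, hE, sA_norm φ, by rwa [card_sK], ?_⟩)
  rintro _ ⟨a, rfl⟩ h1
  rw [sK_cent1]
  have := h a (by rintro rfl; exact h1 (map_one _))
  refine abelian_iff.2 (le_cent_iff.2 ?_)
  have k : ∀ g ∈ fixedSubgroup (φ a), g ∈ FixedPoints.subgroup (Subgroup.zpowers a) G := fun g hg b =>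
    (show Subgroup.zpowers a ≤ MulAction.stabilizer A g from Subgroup.zpowers_le.2 hg) b.2
  rintro _ ⟨x, hx, rfl⟩ _ ⟨y, hy, rfl⟩
  rw [← map_mul, ← map_mul, mul_comm_of_abelian this (k x hx) (k y hy)]

end Cfsg.Agent.S4323
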