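import Cfsg.Statements.S4421
import Mathlib
import Cfsg.Agent.H02.Basic
-- import your own Cfsg.Agent.* helpers here

set_option autoImplicit false
open Cfsg

namespace Cfsg.Agent.S4421

open scoped Pointwise commutatorElement

/-- A factorization of a normalizer from two-step control of fusion. Let `G` be a finite group and `A ≤ S ≤ H` subgroups of `G` such that: (i) `S` controls the `G`-fusion of `A` in the sense that every `G`-conjugate of `A` lying in `S` is an `S`-conjugate of `A`; (ii) `H` controls the `G`-fusion of `S` in the same sense; (iii) every conjugate of `S` by an element of the normalizer of `A` lies in `H`. Then `N_G(A) = N_H(A) · (N_G(S) ∩ N_G(A))`: every element of the normalizer of `A` is a product of an element of `H` normalizing `A` and an element normalizing both `S` and `A`. -/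
theorem result {G : Type*} [Group G] [Finite G] (A S H : Subgroup G)
    (hAS : A ≤ S) (hSH : S ≤ H)
    (h1 : ∀ g : G, A.map (MulAut.conj g).toMonoidHom ≤ S → ∃ s ∈ S, A.map (MulAut.conj g).toMonoidHom = A.map (MulAut.conj s).toMonoidHom)
    (h2 : ∀ g : G, S.map (MulAut.conj g).toMonoidHom ≤ H → ∃ y ∈ H, S.map (MulAut.conj g).toMonoidHom = S.map (MulAut.conj y).toMonoidHom)
    (h3 : ∀ x ∈ Subgroup.normalizer (A : Set G), S.map (MulAut.conj x).toMonoidHom ≤ H) :
    ∀ x ∈ Subgroup.normalizer (A : Set G), ∃ y ∈ H ⊓ Subgroup.normalizer (A : Set G),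
      ∃ z ∈ Subgroup.normalizer (S : Set G) ⊓ Subgroup.normalizer (A : Set G), x = y * z := by
  intro x hx
  obtain ⟨y, hy, e1⟩ := h2 x (h3 x hx)
  simp only [H02.map_conj_eq_smul] at *
  have hxA : MulAut.conj x • A = A := H02.mem_normalizer_iff_smul_eq.1 hx
  have hn : MulAut.conj (y⁻¹ * x) • S = S := by
    rw [← H02.conj_smul_conj_smul, e1, H02.conj_smul_conj_smul]; simp
  obtain ⟨s, hs, e2⟩ := h1 (y⁻¹ * x) (by
    rw [← hn]; exact Subgroup.pointwise_smul_le_pointwise_smul_iff.2 hAS)
  have e3 : MulAut.conj (y * s) • A = A := by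
    rw [← H02.conj_smul_conj_smul, ← e2, H02.conj_smul_conj_smul]; simpa using hxA
  have h4 : y * s ∈ Subgroup.normalizer (A : Set G) := H02.mem_normalizer_iff_smul_eq.2 e3
  refine ⟨y * s, ⟨H.mul_mem hy (hSH hs), h4⟩, s⁻¹ * (y⁻¹ * x), ⟨?_, ?_⟩, by group⟩
  · exact Subgroup.mul_mem _ (Subgroup.inv_mem _ (Subgroup.le_normalizer hs))
      (H02.mem_normalizer_iff_smul_eq.2 hn)
  · have := Subgroup.mul_mem _ (Subgroup.inv_mem _ h4) hx
    simpa [mul_assoc] using this

end Cfsg.Agent.S4421
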