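import Mathlib
import Cfsg.Statements.S4425
import Cfsg.Agent.H21.Contrib

set_option autoImplicit false
open Cfsg

namespace Cfsg.Agent.S4425
open H05 Cfsg H20 H21 MonoidAlgebra Classical
open scoped ComplexConjugate

theorem tilde_eq {G : Type*} [Group G] (p : ℕ) (c : ℂ) (χ : G → ℂ) :
    (fun x : G => if p ∣ orderOf x then (0 : ℂ) else c * χ x) = c • pRegularPart p χ := by
  funext x
  simp only [Pi.smul_apply, smul_eq_mul, pRegularPart_apply]
  split_ifs <;> simp


/-- Let χ be an irreducible character of the finite group G, p a prime, p^a the p-part of the order of G and p^b the p-part of the degree χ(1). Let χ̃ be the class function equal to p^a · χ on p-regular elements and zero on p-singular elements. Then p^(−b) · χ̃ is a generalized character of G, while p^(−(b+1)) · χ̃ is not. -/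
theorem result {G : Type*} [Group G] [Finite G] (p : ℕ) [Fact p.Prime] (χ : Cfsg.IrrCharacter G) : Cfsg.IsGeneralizedCharacter G (fun x : G => if p ∣ orderOf x then (0 : ℂ) else ((p ^ ((Nat.card G).factorization p - (Cfsg.charDegree (χ : G → ℂ)).factorization p) : ℕ) : ℂ) * (χ : G → ℂ) x) ∧ ¬ Cfsg.IsGeneralizedCharacter G (fun x : G => if p ∣ orderOf x then (0 : ℂ) else ((p ^ (Nat.card G).factorization p : ℕ) : ℂ) / ((p ^ ((Cfsg.charDegree (χ : G → ℂ)).factorization p + 1) : ℕ) : ℂ) * (χ : G → ℂ) x) := by
  have hp : p.Prime := Fact.out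
  haveI := Fintype.ofFinite G
  have hle := nu_le_card (p := p) χ
  rw [tilde_eq, tilde_eq]
  constructor
  · refine isGeneralizedCharacter_of_classInner
      ((pRegularPart_isClassFunction χ.2.isClassFunction).smul _) fun ψ hψ => ?_
    rw [classInner_smul_left, Nat.cast_pow]
    exact exists_int_pow_contrib hp χ hψ.isGeneralizedCharacter (by unfold nu at *; omega)
  · intro h
    obtain ⟨M, hM⟩ := exists_isPModular hp
    haveI := hM.2.1
    obtain ⟨ψ, hψ, h0⟩ := exists_height_zero p ⟨χ, H21.mem_blockOf_self (M := M) χ⟩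
    obtain ⟨n, hn⟩ := h.exists_classInner_eq_int ψ.2.isGeneralizedCharacter
    have hp0 : (p : ℂ) ≠ 0 := by exact_mod_cast hp.ne_zero
    apply not_ideal_omega_zReg hM (H21.isPBlock_blockOf χ) (H21.mem_blockOf_self χ) hψ h0
    set i := (Nat.card G).factorization p - (charDegree (χ : G → ℂ)).factorization p with hi
    have hu1 := (ring_pow_mul_deg_div_iff hM χ i).2 (by unfold nu at *; omega)
    have hu2 := mt (ideal_pow_mul_deg_div_iff hM χ i).1 (by unfold nu at *; omega)
    rw [← ideal_unit_mul_iff hu1 hu2]
    have : (p : ℂ) ^ i * (χ : G → ℂ) 1 / Nat.card G * omega (χ : G → ℂ) (zReg p (ψ : G → ℂ)) =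
        p * n := by
      rw [← hn, classInner_smul_left]
      change _ = (p : ℂ) * (_ * contrib p _ _)
      rw [contrib_eq_omega χ ψ.2.isGeneralizedCharacter, hi, pow_sub₀ _ hp0 hle]
      push_cast
      field_simp
      ring
    rw [this]
    exact ideal_mul_right (ideal_p hM) (ring_intCast n)

end Cfsg.Agent.S4425
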