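import Mathlib
import Cfsg.Statements.S4426
import Cfsg.Agent.H21.Contrib

set_option autoImplicit false
open Cfsg

namespace Cfsg.Agent.S4426
open H05 Cfsg H20 H21 MonoidAlgebra Classical
open scoped ComplexConjugate

theorem tilde_eq {G : Type*} [Group G] (p : ℕ) (c : ℂ) (χ : G → ℂ) :
    (fun x : G => if p ∣ orderOf x then (0 : ℂ) else c * χ x) = c • pRegularPart p χ := by
  funext x
  simp only [Pi.smul_apply, smul_eq_mul, pRegularPart_apply]
  split_ifs <;> simp

theorem unit_iff {p : ℕ} {M : Ideal AlgInt} (hM : IsPModular p M) {n : ℤ} {m : ℕ} (hm : m ≠ 0)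
    (h : MemLocalRing M ((n : ℂ) / (m : ℂ))) :
    (n ≠ 0 ∧ padicValInt p n = m.factorization p) ↔ ¬ MemLocalIdeal M ((n : ℂ) / (m : ℂ)) := by
  haveI := hM.2.1
  by_cases hn : n = 0
  · subst hn
    simp [ideal_zero]
  have hn' : n.natAbs ≠ 0 := Int.natAbs_ne_zero.2 hn
  have h1 : padicValInt p n = n.natAbs.factorization p := by
    rw [Nat.factorization_def _ hM.1]; rfl
  have h2 : MemLocalRing M ((n.natAbs : ℂ) / (m : ℂ)) ∧
      (MemLocalIdeal M ((n : ℂ) / (m : ℂ)) ↔ MemLocalIdeal M ((n.natAbs : ℂ) / (m : ℂ))) := by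
    rcases Int.natAbs_eq n with h3 | h3
    · have : (n : ℂ) = (n.natAbs : ℂ) := by
        conv_lhs => rw [h3, Int.cast_natCast]
      rw [← this]; exact ⟨h, Iff.rfl⟩
    · have : (n.natAbs : ℂ) = -(n : ℂ) := by
        conv_rhs => rw [h3, Int.cast_neg, Int.cast_natCast, neg_neg]
      rw [this, neg_div, ideal_neg_iff]; exact ⟨ring_neg h, Iff.rfl⟩
  rw [h2.2, ideal_div_natCast_iff hM hn' hm, h1]
  have := (ring_div_natCast_iff hM hn' hm).1 h2.1
  constructor
  · rintro ⟨-, h⟩; omega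
  · intro h; exact ⟨hn, by omega⟩


/-- Let χ be an irreducible character in the p-block B of the finite group G (relative to a maximal ideal M of the algebraic integers containing p), let p^a be the p-part of the order of G, and let χ̃ be the class function equal to p^a · χ on p-regular elements and zero elsewhere. For ξ ∈ B the inner product [χ̃, ξ] is an integer. The following are equivalent: (a) χ has height zero in B; (b) for some ξ ∈ B the integer [χ̃, ξ] is nonzero and the exact power of p dividing it equals the exact power of p dividing ξ(1); (c) the same holds for every ξ ∈ B. -/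
theorem result {G : Type*} [Group G] [Fintype G] (p : ℕ) [Fact p.Prime] (M : Ideal Cfsg.AlgInt) (hM : Cfsg.IsPModular p M) (B : Set (Cfsg.IrrCharacter G)) (hB : Cfsg.IsPBlock M B) (χ : Cfsg.IrrCharacter G) (hχ : χ ∈ B) : (Cfsg.blockHeight p B (χ : G → ℂ) = 0 ↔ ∃ ξ ∈ B, ∃ n : ℤ, Cfsg.classInner (fun x : G => if p ∣ orderOf x then (0 : ℂ) else ((p ^ (Nat.card G).factorization p : ℕ) : ℂ) * (χ : G → ℂ) x) (ξ : G → ℂ) = (n : ℂ) ∧ n ≠ 0 ∧ padicValInt p n = (Cfsg.charDegree (ξ : G → ℂ)).factorization p) ∧ (Cfsg.blockHeight p B (χ : G → ℂ) = 0 ↔ ∀ ξ ∈ B, ∃ n : ℤ, Cfsg.classInner (fun x : G => if p ∣ orderOf x then (0 : ℂ) else ((p ^ (Nat.card G).factorization p : ℕ) : ℂ) * (χ : G → ℂ) x) (ξ : G → ℂ) = (n : ℂ) ∧ n ≠ 0 ∧ padicValInt p n = (Cfsg.charDegree (ξ : G → ℂ)).factorization p) := by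
  haveI := hM.2.1
  have hp := hM.1
  have key : ∀ ξ ∈ B, ((∃ n : ℤ, Cfsg.classInner (fun x : G => if p ∣ orderOf x then (0 : ℂ) else ((p ^ (Nat.card G).factorization p : ℕ) : ℂ) * (χ : G → ℂ) x) (ξ : G → ℂ) = (n : ℂ) ∧ n ≠ 0 ∧ padicValInt p n = (Cfsg.charDegree (ξ : G → ℂ)).factorization p) ↔ blockHeight p B (χ : G → ℂ) = 0) := by
    intro ξ hξ
    obtain ⟨n, hn⟩ := exists_int_card_contrib hp χ.2.isGeneralizedCharacter
      ξ.2.isGeneralizedCharacter
    have h1 : Cfsg.classInner (fun x : G => if p ∣ orderOf x then (0 : ℂ) else ((p ^ (Nat.card G).factorization p : ℕ) : ℂ) * (χ : G → ℂ) x) (ξ : G → ℂ) = (n : ℂ) := by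
      rw [tilde_eq, classInner_smul_left, ← hn, Nat.cast_pow]
      rfl
    have hp0 : p ^ (Nat.card G).factorization p ≠ 0 := pow_ne_zero _ hp.ne_zero
    have hfac := Nat.factorization_pow_self (n := (Nat.card G).factorization p) hp
    have hu1 := (ring_div_natCast_iff hM hp0 (Nat.card_pos (α := G)).ne').2 hfac.ge
    have hu2 := mt (ideal_div_natCast_iff hM hp0 (Nat.card_pos (α := G)).ne').1
      (by rw [hfac]; exact lt_irrefl _)
    have h2 : (n : ℂ) / (charDegree (ξ : G → ℂ) : ℂ) =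
        ((p ^ (Nat.card G).factorization p : ℕ) : ℂ) / Nat.card G *
          omega (ξ : G → ℂ) (zReg p (χ : G → ℂ)) := by
      rw [← hn, contrib_comm χ.2.isGeneralizedCharacter ξ.2.isGeneralizedCharacter,
        contrib_eq_omega ξ χ.2.isGeneralizedCharacter, ξ.2.charDegree_eq]
      have := ξ.2.apply_one_ne_zero
      push_cast
      field_simp
    have h3 : MemLocalRing M ((n : ℂ) / (charDegree (ξ : G → ℂ) : ℂ)) := by
      rw [h2]; exact ring_mul hu1 (ring_omega_zReg_irr _ _)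
    have h4 : MemLocalIdeal M ((n : ℂ) / (charDegree (ξ : G → ℂ) : ℂ)) ↔
        blockHeight p B (χ : G → ℂ) ≠ 0 := by
      rw [h2, ideal_unit_mul_iff hu1 hu2, ideal_omega_zReg_iff hM hB hξ hχ]
    have h5 := unit_iff hM ξ.2.charDegree_pos.ne' h3
    rw [h4, not_not] at h5
    rw [← h5, h1]
    constructor
    · rintro ⟨m, hm, h⟩
      have : n = m := by exact_mod_cast hm
      exact this ▸ h
    · exact fun h => ⟨n, rfl, h⟩
  refine ⟨⟨fun h => ⟨χ, hχ, (key χ hχ).2 h⟩, fun ⟨ξ, hξ, h⟩ => (key ξ hξ).1 h⟩,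
    ⟨fun h ξ hξ => (key ξ hξ).2 h, fun h => (key χ hχ).1 (h χ hχ)⟩⟩

end Cfsg.Agent.S4426
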