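import Mathlib
import Cfsg.Statements.S4430
import Cfsg.Agent.H21.Major

set_option autoImplicit false
open Cfsg

namespace Cfsg.Agent.S4430
open H05 Cfsg H20 H21 MonoidAlgebra Classical
open scoped ComplexConjugate

/-- Let H be a subgroup of the finite group G, b a block of H whose induced block B₀ in G is defined (relative to a maximal ideal M of the algebraic integers containing p), and ξ ∈ b. For a block B of G let n_B be the value at 1 of the B-part of the induced character ξ^G (a natural number: the sum over χ ∈ B of the multiplicity of χ in ξ^G times χ(1)). Then for B = B₀ the exact power of p dividing n_B equals the exact power of p dividing ξ^G(1), while for every other block B either n_B = 0 or n_B is divisible by a strictly higher power of p than ξ^G(1). -/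
theorem result {G : Type*} [Group G] [Fintype G] (p : ℕ) [Fact p.Prime] (M : Ideal Cfsg.AlgInt) (hM : Cfsg.IsPModular p M) (H : Subgroup G) [Fintype H] (b : Set (Cfsg.IrrCharacter H)) (B₀ : Set (Cfsg.IrrCharacter G)) (hind : Cfsg.IsInducedBlock M H b B₀) (ξ : Cfsg.IrrCharacter H) (hξ : ξ ∈ b) : (∃ n : ℕ, Cfsg.blockPart B₀ (Cfsg.indFun H (ξ : H → ℂ)) 1 = (n : ℂ) ∧ n ≠ 0 ∧ n.factorization p = (Cfsg.charDegree (Cfsg.indFun H (ξ : H → ℂ))).factorization p) ∧ ∀ B : Set (Cfsg.IrrCharacter G), Cfsg.IsPBlock M B → B ≠ B₀ → ∃ n : ℕ, Cfsg.blockPart B (Cfsg.indFun H (ξ : H → ℂ)) 1 = (n : ℂ) ∧ (n = 0 ∨ (Cfsg.charDegree (Cfsg.indFun H (ξ : H → ℂ))).factorization p < n.factorization p) := by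
  haveI := hM.2.1
  have hchar := H06.isCharacter_indFun H ξ.2.isCharacter
  have hdeg0 : indFun H (ξ : H → ℂ) 1 ≠ 0 := by
    rw [H06.indFun_one]
    exact mul_ne_zero (by exact_mod_cast Subgroup.index_ne_zero_of_finite) ξ.2.apply_one_ne_zero
  have hdeg : charDegree (indFun H (ξ : H → ℂ)) ≠ 0 := by
    intro h
    apply hdeg0
    rw [← hchar.charDegree_eq, h, Nat.cast_zero]
  obtain ⟨χ, hχ⟩ := block_nonempty hind.2.1
  have key : ∀ B : Set (IrrCharacter G), IsPBlock M B → ∃ n : ℕ,
      blockPart B (indFun H (ξ : H → ℂ)) 1 = (n : ℂ) ∧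
      MemLocalIdeal M ((n : ℂ) / (charDegree (indFun H (ξ : H → ℂ)) : ℂ) -
        omega (χ : G → ℂ) (idem B)) := by
    intro B hB
    obtain ⟨m, hm, -⟩ := hchar.exists_nat_coeff
    have h1 : blockPart B (indFun H (ξ : H → ℂ)) 1 =
        ((∑ ψ with ψ ∈ B, m ψ * charDegree (ψ : G → ℂ) : ℕ) : ℂ) := by
      rw [blockPart_eq]
      push_cast
      exact Finset.sum_congr rfl fun ψ _ => by rw [hm, ψ.2.charDegree_eq]
    refine ⟨_, h1, ?_⟩
    rw [← h1, blockPart_eq_ev B hchar.isClassFunction, ← one_def, mul_one, hchar.charDegree_eq]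
    have h2 := omega_indFun H (ξ : H → ℂ) (isCen_idem B)
    have h3 := induced_omega hind hξ hχ (isCen_idem B) (int_block hB)
    rw [← h2] at h3
    exact h3
  constructor
  · obtain ⟨n, hn, h⟩ := key B₀ hind.2.1
    rw [omega_idem_of_mem hχ] at h
    have h1 := not_ideal_of_sub h not_ideal_one
    have h2 := ring_of_sub h ring_one
    have hn0 : n ≠ 0 := by
      rintro rfl
      apply h1
      simpa using ideal_zero
    rw [ideal_div_natCast_iff hM hn0 hdeg] at h1
    rw [ring_div_natCast_iff hM hn0 hdeg] at h2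
    exact ⟨n, hn, hn0, by omega⟩
  · intro B hB hne
    obtain ⟨n, hn, h⟩ := key B hB
    rw [omega_idem_of_notMem fun h' => hne (block_eq_of_mem hB hind.2.1 h' hχ), sub_zero] at h
    refine ⟨n, hn, ?_⟩
    by_cases hn0 : n = 0
    · exact Or.inl hn0
    · exact Or.inr ((ideal_div_natCast_iff hM hn0 hdeg).1 h)

end Cfsg.Agent.S4430
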