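import Mathlib
import Cfsg.Statements.S4431
import Cfsg.Agent.H21.Height

set_option autoImplicit false
open Cfsg

namespace Cfsg.Agent.S4431
open H05 Cfsg H20 H21 MonoidAlgebra Classical

/-- Let H be a subgroup of the finite group G and b a block of H whose induced block B₀ in G is defined (relative to a maximal ideal M of the algebraic integers containing p). Let χ be an irreducible character of G, ψ ∈ b, and let η be the class function on H equal to p^a · χ on the p-regular elements of H and zero elsewhere, p^a being the p-part of the order of H. Then (a) if χ ∉ B₀, the number [η, ψ]/ψ(1) lies in the local ideal at M; (b) if χ ∈ B₀ has height zero, it does not. -/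
theorem result {G : Type*} [Group G] [Fintype G] (p : ℕ) [Fact p.Prime] (M : Ideal Cfsg.AlgInt) (hM : Cfsg.IsPModular p M) (H : Subgroup G) [Fintype H] (b : Set (Cfsg.IrrCharacter H)) (B₀ : Set (Cfsg.IrrCharacter G)) (hind : Cfsg.IsInducedBlock M H b B₀) (χ : Cfsg.IrrCharacter G) (ψ : Cfsg.IrrCharacter H) (hψ : ψ ∈ b) : (χ ∉ B₀ → Cfsg.MemLocalIdeal M (Cfsg.classInner (fun h : H => if p ∣ orderOf h then (0 : ℂ) else ((p ^ (Nat.card H).factorization p : ℕ) : ℂ) * (χ : G → ℂ) h) (ψ : H → ℂ) / (ψ : H → ℂ) 1)) ∧ (χ ∈ B₀ → Cfsg.blockHeight p B₀ (χ : G → ℂ) = 0 → ¬ Cfsg.MemLocalIdeal M (Cfsg.classInner (fun h : H => if p ∣ orderOf h then (0 : ℂ) else ((p ^ (Nat.card H).factorization p : ℕ) : ℂ) * (χ : G → ℂ) h) (ψ : H → ℂ) / (ψ : H → ℂ) 1)) := by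
  haveI := hM.2.1
  have key : classInner (fun h : H => if p ∣ orderOf h then (0 : ℂ) else ((p ^ (Nat.card H).factorization p : ℕ) : ℂ) * (χ : G → ℂ) h) (ψ : H → ℂ) / (ψ : H → ℂ) 1 =
      ((p ^ (Nat.card H).factorization p : ℕ) : ℂ) / (Nat.card H : ℂ) *
        omega (ψ : H → ℂ) (zReg p fun h : H => (χ : G → ℂ) h) := by
    unfold omega
    rw [ev_zReg_comm, ev_zReg_eq_classInner _ ψ.2.isGeneralizedCharacter]
    have h1 : (fun h : H => if p ∣ orderOf h then (0 : ℂ) else ((p ^ (Nat.card H).factorization p : ℕ) : ℂ) * (χ : G → ℂ) h) =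
        ((p ^ (Nat.card H).factorization p : ℕ) : ℂ) • (fun h : H => if p ∣ orderOf h then (0 : ℂ) else (χ : G → ℂ) h) := by
      funext h
      simp only [Pi.smul_apply, smul_eq_mul]
      split_ifs <;> simp
    rw [h1, classInner_smul_left]
    have := card_ne_zero_complex (G := H)
    field_simp
  have hp0 : p ^ (Nat.card H).factorization p ≠ 0 := pow_ne_zero _ hM.1.ne_zero
  have hfac : (p ^ (Nat.card H).factorization p).factorization p = (Nat.card H).factorization p :=
    Nat.factorization_pow_self hM.1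
  have hu1 : MemLocalRing M (((p ^ (Nat.card H).factorization p : ℕ) : ℂ) / (Nat.card H : ℂ)) :=
    (ring_div_natCast_iff hM hp0 Nat.card_pos.ne').2 hfac.ge
  have hu2 : ¬ MemLocalIdeal M (((p ^ (Nat.card H).factorization p : ℕ) : ℂ) / (Nat.card H : ℂ)) := by
    rw [ideal_div_natCast_iff hM hp0 Nat.card_pos.ne', hfac]
    exact lt_irrefl _
  rw [key, ideal_unit_mul_iff hu1 hu2]
  have h := not_ideal_omega_res_zReg_iff hM hind hψ χ
  refine ⟨fun h1 => ?_, fun h1 h2 => h.2 ⟨h1, h2⟩⟩
  by_contra h2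
  exact h1 (h.1 h2).1

end Cfsg.Agent.S4431
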