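import Mathlib
import Cfsg.Agent.H20.Quot2
-- Template for statement S4434 (row 4434; see /opt/grader/pristine/manifest.json for weights).
-- Copy to Cfsg/Agent/S4434.lean and replace the sorry. The statement below is byte-identical to the frozen
-- statement Cfsg.CfsgFrozen.S4434 (Cfsg/Statements/S4434.lean; the theorem Cfsg.blk_quotient_by_normal_p_subgroup_contains_block_with_image_defect_groups);
-- the grader kernel-checks Cfsg.Agent.S4434.result against that frozen type. Keep the theorem IN THIS FILE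
-- (a `result` declared elsewhere and merely imported here is not credited); helpers may live anywhere
-- under Cfsg/Agent/.
import Cfsg.Statements.S4434
-- import your own Cfsg.Agent.* helpers here

set_option autoImplicit false
open Cfsg

open H20 H05 H21 MonoidAlgebra Cfsg

namespace Cfsg.Agent.S4434

/-- Let N be a normal p-subgroup of the finite group G and write Ḡ = G/N; fix a maximal ideal M of the algebraic integers containing p. Then every block B of G contains a block B̄ of Ḡ (the inflation of every member of B̄ lies in B) whose defect groups are exactly the images in Ḡ of the defect groups of B. -/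
theorem result {G : Type*} [Group G] [Finite G] (p : ℕ) [Fact p.Prime] (M : Ideal Cfsg.AlgInt) (hM : Cfsg.IsPModular p M) (N : Subgroup G) [N.Normal] (hN : IsPGroup p N) (B : Set (Cfsg.IrrCharacter G)) (hB : Cfsg.IsPBlock M B) : ∃ Bbar : Set (Cfsg.IrrCharacter (G ⧸ N)), Cfsg.IsPBlock M Bbar ∧ (∀ χ ∈ Bbar, ∀ ψ : Cfsg.IrrCharacter G, (ψ : G → ℂ) = (χ : G ⧸ N → ℂ) ∘ QuotientGroup.mk → ψ ∈ B) ∧ ∀ Dbar : Subgroup (G ⧸ N), Cfsg.IsDefectGroup p M Bbar Dbar ↔ ∃ P : Subgroup G, Cfsg.IsDefectGroup p M B P ∧ Dbar = P.map (QuotientGroup.mk' N) := by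
  have := hM.2.1
  have hf := QuotientGroup.mk'_surjective N
  obtain ⟨P, hP⟩ := hB.exists_isDefectGroup p
  obtain ⟨b, hb, hsub, hD⟩ := exists_dom_defectGroup hM hf (by rwa [QuotientGroup.ker_mk']) hB hP
  refine ⟨b, hb, fun χ hχ ψ e => ?_, fun D => ⟨fun h => ?_, ?_⟩⟩
  · have : ψ = infl hf χ := Subtype.ext e
    rw [this]; exact hsub hχ
  · obtain ⟨x, rfl⟩ := hD.exists_conj hM hb h
    obtain ⟨y, rfl⟩ := hf x
    exact ⟨cj y P, hP.cj y, (map_cj _ _ _).symm⟩
  · rintro ⟨P', hP', rfl⟩
    obtain ⟨x, rfl⟩ := hP.exists_conj hM hB hP'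
    rw [map_cj]; exact hD.cj _

end Cfsg.Agent.S4434
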