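import Mathlib
import Cfsg.Agent.H20.FongR
-- Template for statement S4435 (row 4435; see /opt/grader/pristine/manifest.json for weights).
-- Copy to Cfsg/Agent/S4435.lean and replace the sorry. The statement below is byte-identical to the frozen
-- statement Cfsg.CfsgFrozen.S4435 (Cfsg/Statements/S4435.lean; the theorem Cfsg.blk_stabilizer_correspondence_for_covering_blocks);
-- the grader kernel-checks Cfsg.Agent.S4435.result against that frozen type. Keep the theorem IN THIS FILE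
-- (a `result` declared elsewhere and merely imported here is not credited); helpers may live anywhere
-- under Cfsg/Agent/.
import Cfsg.Statements.S4435
-- import your own Cfsg.Agent.* helpers here

set_option autoImplicit false
open Cfsg

open H20 H05 H21 MonoidAlgebra

namespace Cfsg.Agent.S4435

/-- Let N be a normal subgroup of the finite group G, b a block of N (relative to a maximal ideal M of the algebraic integers containing p), and T the stabilizer of b in G (the elements g such that conjugating any member of b by g gives a member of b); N ≤ T. Say that a block of T (or of G) covers b when some member has a constituent in b on restriction to N. Then: (i) every block B′ of T covering b induces a block B of G, B covers b, every ψ ∈ B′ induces to an irreducible character of G, and B consists exactly of the characters induced from members of B′; (ii) distinct blocks of T covering b induce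 distinct blocks of G; (iii) every block of G covering b is induced by some block of T covering b. -/
theorem result {G : Type*} [Group G] [Fintype G] (p : ℕ) [Fact p.Prime] (M : Ideal Cfsg.AlgInt) (hM : Cfsg.IsPModular p M) (N : Subgroup G) [hN : N.Normal] [Fintype N] (b : Set (Cfsg.IrrCharacter N)) (hb : Cfsg.IsPBlock M b) (T : Subgroup G) [Fintype T] (hT : ∀ g : G, g ∈ T ↔ ∀ θ ∈ b, ∀ θ' : Cfsg.IrrCharacter N, (∀ n : N, (θ' : N → ℂ) n = (θ : N → ℂ) ⟨g * n * g⁻¹, hN.conj_mem n n.2 g⟩) → θ' ∈ b) (hNT : N ≤ T) : (∀ B' : Set (Cfsg.IrrCharacter T), Cfsg.IsPBlock M B' → (∃ ψ ∈ B', ∃ θ ∈ b, Cfsg.classInner (fun n : N => (ψ : T → ℂ) ⟨(n : G), hNT n.2⟩) (θ : N → ℂ) ≠ 0) → ∃ B : Set (Cfsg.IrrCharacter G), Cfsg.IsInducedBlock M T B' B ∧ (∃ χ ∈ B, ∃ θ ∈ b, Cfsg.classInner (fun n : N => (χ : G → ℂ) n) (θ : N → ℂ) ≠ 0) ∧ (∀ ψ ∈ B', Cfsg.IsIrrCharacter G (Cfsg.indFun T (ψ : T → ℂ))) ∧ ∀ χ : Cfsg.IrrCharacter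 G, χ ∈ B ↔ ∃ ψ ∈ B', (χ : G → ℂ) = Cfsg.indFun T (ψ : T → ℂ)) ∧ (∀ B'₁ B'₂ : Set (Cfsg.IrrCharacter T), Cfsg.IsPBlock M B'₁ → Cfsg.IsPBlock M B'₂ → (∃ ψ ∈ B'₁, ∃ θ ∈ b, Cfsg.classInner (fun n : N => (ψ : T → ℂ) ⟨(n : G), hNT n.2⟩) (θ : N → ℂ) ≠ 0) → (∃ ψ ∈ B'₂, ∃ θ ∈ b, Cfsg.classInner (fun n : N => (ψ : T → ℂ) ⟨(n : G), hNT n.2⟩) (θ : N → ℂ) ≠ 0) → ∀ B : Set (Cfsg.IrrCharacter G), Cfsg.IsInducedBlock M T B'₁ B → Cfsg.IsInducedBlock M T B'₂ B → B'₁ = B'₂) ∧ (∀ B : Set (Cfsg.IrrCharacter G), Cfsg.IsPBlock M B → (∃ χ ∈ B, ∃ θ ∈ b, Cfsg.classInner (fun n : N => (χ : G → ℂ) n) (θ : N → ℂ) ≠ 0) → ∃ B' : Set (Cfsg.IrrCharacter T), Cfsg.IsPBlock M B' ∧ (∃ ψ ∈ B', ∃ θ ∈ b, Cfsg.classInner (fun n : N => (ψ : T → ℂ) ⟨(n : G), hNT n.2⟩) (θ : N → ℂ) ≠ 0) ∧ Cfsg.IsInducedBlock M T B' B) := by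
  have := hM.2.1
  obtain rfl := eq_bstab hb hT
  have h := frd_overSet hb
  have hA := isInt_overSet hNT (cInv_iI_bstab b) hb.isInt_idem
  have hsub : ∀ B' : Set (Cfsg.IrrCharacter (bstab N b)), Cfsg.IsPBlock M B' → (∃ ψ ∈ B', ∃ θ ∈ b,
      Cfsg.classInner (fun n : N => (ψ : bstab N b → ℂ) ⟨(n : G), hNT n.2⟩) (θ : N → ℂ) ≠ 0) →
      B' ⊆ overSet (bstab N b) b := by
    rintro B' hB' ⟨ψ, hψ, h1⟩
    rw [hB'.eq_blockOf hψ]
    exact blockOf_subset_of_isInt hA ((mem_overSet hNT).2 h1)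
  have hev : ∀ χ : Cfsg.IrrCharacter G, ev (χ : G → ℂ) (iI _ (overSet (bstab N b) b)) ≠ 0 ↔
      ∃ θ ∈ b, Cfsg.classInner (fun n : N => (χ : G → ℂ) n) (θ : N → ℂ) ≠ 0 := fun χ => by
    rw [iI_overSet_bstab, iI, ev_inc_idem_ne_zero_iff χ.2.isCharacter]
    simp only [over_iff]
  refine ⟨fun B' hB' hc => ?_, fun B₁ B₂ h1 h2 c1 c2 B i1 i2 => h.block_inj (hsub _ h1 c1) (hsub _ h2 c2) i1 i2, ?_⟩
  · have hs := hsub B' hB' hc
    obtain ⟨ψ, hψ⟩ := hB'.nonempty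
    exact ⟨_, h.isInducedBlock hs hB', ⟨h.ind (hs hψ), ⟨ψ, hψ, rfl⟩,
      (hev _).1 ((h.mem_indSet_iff le_rfl).1 ⟨ψ, hs hψ, rfl⟩)⟩, fun ψ hψ => h.isIrr (hs hψ), fun χ => Iff.rfl⟩
  · rintro B hB ⟨χ, hχ, h1⟩
    obtain ⟨B', hs, hi⟩ := h.exists_block hA hB hχ ((hev χ).2 h1)
    obtain ⟨ψ, hψ⟩ := hi.1.nonempty
    exact ⟨B', hi.1, ⟨ψ, hψ, (mem_overSet hNT).1 (hs hψ)⟩, hi⟩

end Cfsg.Agent.S4435
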