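import Mathlib
import Cfsg.Agent.H20.BlkFus
-- Template for statement S4437 (row 4437; see /opt/grader/pristine/manifest.json for weights).
-- Copy to Cfsg/Agent/S4437.lean and replace the sorry. The statement below is byte-identical to the frozen
-- statement Cfsg.CfsgFrozen.S4437 (Cfsg/Statements/S4437.lean; the theorem Cfsg.blk_induced_from_p_centralizer_full_defect_iff_stabilizer_index);
-- the grader kernel-checks Cfsg.Agent.S4437.result against that frozen type. Keep the theorem IN THIS FILE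
-- (a `result` declared elsewhere and merely imported here is not credited); helpers may live anywhere
-- under Cfsg/Agent/.
import Cfsg.Statements.S4437
-- import your own Cfsg.Agent.* helpers here

set_option autoImplicit false
open Cfsg

open H20 H05 H21 MonoidAlgebra

namespace Cfsg.Agent.S4437

/-- Let P be a p-subgroup of the finite group G, H = P·C_G(P), and b a block of H (relative to a maximal ideal M of the algebraic integers containing p) having P as a defect group; let B be the block of G induced by b. Let T be the stabilizer of b in N_G(P): the elements g of N_G(P) such that the g-conjugate of every member of b is again a member of b. Then B has defect group P if and only if p does not divide the index of H in T. -/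
theorem result {G : Type*} [Group G] [Fintype G] (p : ℕ) [Fact p.Prime] (M : Ideal Cfsg.AlgInt) (hM : Cfsg.IsPModular p M) (P : Subgroup G) (hP : IsPGroup p P) (H : Subgroup G) [Fintype H] (hH : H = P ⊔ Subgroup.centralizer (P : Set G)) (b : Set (Cfsg.IrrCharacter H)) (hb : Cfsg.IsPBlock M b) (hbP : Cfsg.IsDefectGroup p M b (P.subgroupOf H)) (B : Set (Cfsg.IrrCharacter G)) (hind : Cfsg.IsInducedBlock M H b B) (T : Subgroup G) (hT : ∀ g : G, g ∈ T ↔ (g ∈ Subgroup.normalizer (P : Set G) ∧ ∀ θ ∈ b, ∀ θ' : Cfsg.IrrCharacter H, (∀ h h' : H, (h' : G) = g * h * g⁻¹ → (θ' : H → ℂ) h' = (θ : H → ℂ) h) → θ' ∈ b)) : Cfsg.IsDefectGroup p M B P ↔ ¬ p ∣ H.relIndex T := by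
  have := hM.2.1
  subst hH
  have hPH : P ≤ P ⊔ Subgroup.centralizer (P : Set G) := le_sup_left
  have hHN : P ⊔ Subgroup.centralizer (P : Set G) ≤ Subgroup.normalizer (P : Set G) :=
    sup_le Subgroup.le_normalizer (Subgroup.centralizer_le_normalizer _)
  have hγ := hb.isBI
  have htr := hγ.trunc_centralizer hM hP hPH hHN
  obtain ⟨γ', hγ', h1⟩ := exists_isBI_mul (H := Subgroup.centralizer (P : Set G))
    (hγ.cInv.mono (SetLike.coe_subset_coe.2 le_sup_right)) htr hγ.mul_self hγ.ne_zero
  obtain ⟨f, hf, hfe⟩ := exists_bp_of_isBI hP hγ'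
  rw [← hfe] at h1 hγ'
  have heq : iB M _ b = pI M ⟨P, f⟩ :=
    hγ.eq_of_mul_ne_zero (BP.isBI_sup (a := ⟨P, f⟩) hM hf) (by rw [h1]; exact hγ'.ne_zero)
  have hpof : POf p M B ⟨P, f⟩ := pOf_of_isInducedBlock (a := ⟨P, f⟩) hM hf hPH le_sup_right hHN hind
    (by rw [h1]; exact hγ'.ne_zero)
  have hTe : T = pstab ⟨P, f⟩ := by
    ext g
    rw [hT, BP.mem_pstab_iff (a := ⟨P, f⟩) hf, ← heq]
    refine and_congr_right fun hg => ?_
    have hc : cj g (P ⊔ Subgroup.centralizer (P : Set G)) = P ⊔ Subgroup.centralizer (P : Set G) := by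
      rw [cj_sup, cj_centralizer, cj_of_mem_normalizer hg]
    rw [← iB_bmap_cjIso_symm hc]
    constructor
    · intro h
      refine congrArg (iB M _) ?_
      obtain ⟨θ, hθ⟩ := hb.nonempty
      refine (hb.bmap _).eq_of_mem hb (χ := irrComap (cjIso g hc).symm θ) (irrComap_mem_bmap.2 hθ) ?_
      refine h θ hθ _ fun x x' hx => ?_
      rw [irrComap_apply]
      exact congrArg θ.1 (Subtype.ext (by rw [coe_cjIso_symm, hx]; group))
    · intro h θ hθ θ' hθ'
      rw [← (hb.bmap _).eq_of_iB_eq hb h, mem_bmap_iff_exists]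
      exact ⟨θ, hθ, fun x => hθ' _ _ (by rw [coe_cjIso_symm]; group)⟩
  subst hTe
  have hHT : P ⊔ Subgroup.centralizer (P : Set G) ≤ pstab ⟨P, f⟩ :=
    sup_le (le_pstab ⟨P, f⟩) (centralizer_le_pstab ⟨P, f⟩)
  have hTN : pstab ⟨P, f⟩ ≤ Subgroup.normalizer ((P ⊔ Subgroup.centralizer (P : Set G) : Subgroup G) : Set G) := by
    intro g hg
    rw [mem_normalizer_iff_cj, cj_sup, cj_centralizer, cj_of_mem_normalizer (pstab_le ⟨P, f⟩ hg)]
  have hn := normal_subgroupOf_of_le_normalizer hTN
  constructor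
  · intro hD hdvd
    have hmax := hpof.pMax_of_isDefectGroup hM hD
    obtain ⟨S, hS⟩ := exists_sylIn p (pstab (⟨P, f⟩ : Cfsg.BrauerPairIdx G))
    have h2 := hmax.le_sup_centralizer hM hS.isPGroup hS.le
    exact hS.not_dvd_relIndex (hdvd.trans (Subgroup.relIndex_dvd_of_le_left _ h2))
  · intro hnd
    have hmb := (maxBr_iB_iff hM hb hPH).2 hbP
    rw [heq] at hmb
    refine (hpof.pMax_of_maxBr hM ⟨le_pstab ⟨P, f⟩, hP, hmb.ne, fun R hR h2 h3 h4 => hmb.max R hR h2 ?_ h4⟩).isDefectGroup hM
    obtain ⟨S, hS⟩ := exists_sylIn p (P ⊔ Subgroup.centralizer (P : Set G))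
    have hS' : SylIn p S (pstab ⟨P, f⟩) := by
      refine sylIn_of_not_dvd hS.isPGroup (hS.le.trans hHT) ?_
      rw [← Subgroup.relIndex_mul_relIndex _ _ _ hS.le hHT]
      intro h
      rcases (Nat.Prime.dvd_mul hM.1).1 h with h | h
      · exact hS.not_dvd_relIndex h
      · exact hnd h
    obtain ⟨x, hx, h5⟩ := hS'.exists_conj_le hR h3
    have := (cj_le_iff.1 (h5.trans hS.le))
    rwa [cj_of_mem_normalizer (hTN (inv_mem hx))] at this

end Cfsg.Agent.S4437
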