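import Mathlib
import Cfsg.Agent.H20.Fong2
-- Template for statement S4440 (row 4440; see /opt/grader/pristine/manifest.json for weights).
-- Copy to Cfsg/Agent/S4440.lean and replace the sorry. The statement below is byte-identical to the frozen
-- statement Cfsg.CfsgFrozen.S4440 (Cfsg/Statements/S4440.lean; the theorem Cfsg.blk_p_solvable_degree_weighted_sum_vanishing_is_union_of_blocks);
-- the grader kernel-checks Cfsg.Agent.S4440.result against that frozen type. Keep the theorem IN THIS FILE
-- (a `result` declared elsewhere and merely imported here is not credited); helpers may live anywhere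
-- under Cfsg/Agent/.
import Cfsg.Statements.S4440
-- import your own Cfsg.Agent.* helpers here

set_option autoImplicit false
open Cfsg

open H20 H05 H21 MonoidAlgebra

namespace Cfsg.Agent.S4440

/-- Let G be a finite p-solvable group and fix a maximal ideal M of the algebraic integers containing p. Let U be a set of irreducible characters of G such that the class function Σ_{χ ∈ U} χ(1)·χ vanishes at every p-singular element of G. Then U is a union of p-blocks: if χ ∈ U and ψ lies in the same block as χ, then ψ ∈ U. -/
theorem result {G : Type*} [Group G] [Finite G] (p : ℕ) [Fact p.Prime] (M : Ideal Cfsg.AlgInt) (hM : Cfsg.IsPModular p M) (hsolv : Cfsg.IsPSolvable p G) (U : Set (Cfsg.IrrCharacter G)) (hU : ∀ x : G, p ∣ orderOf x → ∑ᶠ χ ∈ U, (χ : G → ℂ) 1 * (χ : G → ℂ) x = 0) (χ : Cfsg.IrrCharacter G) (hχ : χ ∈ U) (ψ : Cfsg.IrrCharacter G) (hψ : Cfsg.SameBlock M (χ : G → ℂ) (ψ : G → ℂ)) : ψ ∈ U := by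
  have := hM.2.1
  refine blockOf_subset_of_isInt (harada_psolvable hM hsolv fun g hg => ?_) hχ hψ
  have := hU g⁻¹ (by rwa [orderOf_inv])
  unfold Cfsg.blockCoeff
  rw [← mul_zero (Nat.card G : ℂ)⁻¹, ← this]
  congr 1
  exact finsum_mem_congr rfl fun a _ => by rw [a.2.isCharacter.apply_inv]

end Cfsg.Agent.S4440
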