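import Mathlib
import Cfsg.Statements.S4442
import Cfsg.Agent.H19.DefOne2

set_option autoImplicit false
open Cfsg

namespace Cfsg.Agent.S4442

/-- Blocks of defect one. Let p be an odd prime and G a finite group whose Sylow p-subgroup P has order p; let C = C_G(P) and N = N_G(P), and fix a maximal ideal M of the algebraic integers containing p. Let B be a block of G with defect group P, b a block of C inducing B, and θ the member of b having P in its kernel (there is exactly one). Let T be the stabilizer of θ in N (the elements g ∈ N with θ(g c g⁻¹) = θ(c) for all c ∈ C) and e the index of C in T. Then e divides p − 1 and B contains exactly e + (p − 1)/e irreducible characters. Moreover B is the disjoint union of a set X of e characters and a set Y of (p − 1)/e characters such that, with f the index of C in N: every χ ∈ X has χ(1) ≡ ±(f/e)·θ(1) (mod p), there is one sign ε with ψ(1) ≡ ε f θ(1) (mod p) for all ψ ∈ Y, and all members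 of Y agree on the p-regular elements of G. -/
theorem result {G : Type*} [Group G] [Finite G] (p : ℕ) [Fact p.Prime] (M : Ideal Cfsg.AlgInt) (hM : Cfsg.IsPModular p M) (hodd : p ≠ 2) (P : Sylow p G) (hP : Nat.card P = p) (B : Set (Cfsg.IrrCharacter G)) (hB : Cfsg.IsPBlock M B) (hBP : Cfsg.IsDefectGroup p M B P) (b : Set (Cfsg.IrrCharacter (Subgroup.centralizer ((P : Subgroup G) : Set G)))) (hind : Cfsg.IsInducedBlock M (Subgroup.centralizer ((P : Subgroup G) : Set G)) b B) (θ : Cfsg.IrrCharacter (Subgroup.centralizer ((P : Subgroup G) : Set G))) (hθ : θ ∈ b) (hθP : ∀ x : Subgroup.centralizer ((P : Subgroup G) : Set G), (x : G) ∈ (P : Subgroup G) → (θ : Subgroup.centralizer ((P : Subgroup G) : Set G) → ℂ) x = (θ : Subgroup.centralizer ((P : Subgroup G) : Set G) → ℂ) 1) (T : Subgroup G) (hT : ∀ g : G, g ∈ T ↔ (g ∈ Subgroup.normalizer ((P : Subgroup G) : Set G) ∧ ∀ c c' : Subgroup.centralizer ((P : Subgroup G) : Set G), (c' : G) = g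 * c * g⁻¹ → (θ : Subgroup.centralizer ((P : Subgroup G) : Set G) → ℂ) c' = (θ : Subgroup.centralizer ((P : Subgroup G) : Set G) → ℂ) c)) (e f : ℕ) (he : (Subgroup.centralizer ((P : Subgroup G) : Set G)).relIndex T = e) (hf : (Subgroup.centralizer ((P : Subgroup G) : Set G)).relIndex (Subgroup.normalizer ((P : Subgroup G) : Set G)) = f) : e ∣ p - 1 ∧ Nat.card B = e + (p - 1) / e ∧ ∃ X Y : Set (Cfsg.IrrCharacter G), B = X ∪ Y ∧ Disjoint X Y ∧ Nat.card X = e ∧ Nat.card Y = (p - 1) / e ∧ (∀ χ ∈ X, (Cfsg.charDegree (χ : G → ℂ) : ℤ) ≡ ((f / e * Cfsg.charDegree (θ : Subgroup.centralizer ((P : Subgroup G) : Set G) → ℂ) : ℕ) : ℤ) [ZMOD p] ∨ (Cfsg.charDegree (χ : G → ℂ) : ℤ) ≡ -((f / e * Cfsg.charDegree (θ : Subgroup.centralizer ((P : Subgroup G) : Set G) → ℂ) : ℕ) : ℤ) [ZMOD p]) ∧ (∃ ε : ℤ, (ε = 1 ∨ ε = -1) ∧ ∀ ψ ∈ Y, (Cfsg.charDegree (ψ : G → ℂ) : ℤ) ≡ ε * ((f * Cfsg.charDegree (θ : Subgroup.centralizer ((P : Subgroup G) : Set G) → ℂ) : ℕ)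 : ℤ) [ZMOD p]) ∧ ∀ ψ ∈ Y, ∀ ψ' ∈ Y, ∀ g : G, ¬ p ∣ orderOf g → (ψ : G → ℂ) g = (ψ' : G → ℂ) g := by
  classical
  have hp := (Fact.out : p.Prime)
  have := hM.2.1
  obtain ⟨H, _, _, S, hS⟩ := H19.exists_dOne' P hP
  let _ := Fintype.ofFinite G
  let _ := Fintype.ofFinite P
  have hC : ∀ g, g ∈ Subgroup.centralizer ((P : Subgroup G) : Set G) ↔ ∃ y, ∃ k : S.K, g = S.jP y * S.jH k :=
    fun g => by rw [← S.mem_centralizer_iff, hS]
  let j : S.K →* Subgroup.centralizer ((P : Subgroup G) : Set G) :=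
    (S.jH.comp S.K.subtype).codRestrict _ fun k => (hC _).2 ⟨1, k, by simp⟩
  have hj : ∀ (c : Subgroup.centralizer ((P : Subgroup G) : Set G)) y (k : S.K), (c : G) = S.jP y * S.jH k →
      θ.1 c = θ.1 (j k) := fun c y k e => by
    have h1 : c = ⟨S.jP y, (hC _).2 ⟨y, 1, by simp⟩⟩ * j k := Subtype.ext e
    rw [h1, H05.Cfsg.IsCharacter.apply_mul_of_eq (H05.Cfsg.IsIrrCharacter.isCharacter θ.2) (hθP _ (hS.le ⟨y, rfl⟩))]
  have hirr : Cfsg.IsIrrCharacter S.K fun k => θ.1 (j k) := by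
    let π : P × S.K →* Subgroup.centralizer ((P : Subgroup G) : Set G) :=
      S.jC.codRestrict _ fun x => (hC _).2 ⟨x.1, x.2, rfl⟩
    have h1 := H05.Cfsg.IsIrrCharacter.comp_of_surjective θ.2 π fun c => by
      obtain ⟨y, k, e⟩ := (hC c).1 c.2
      exact ⟨(y, k), Subtype.ext e.symm⟩
    refine H05.Cfsg.IsIrrCharacter.of_comp (H05.Cfsg.IsCharacter.comp (H05.Cfsg.IsIrrCharacter.isCharacter θ.2) j)
      (MonoidHom.snd P S.K) ?_
    convert h1 using 2 with x
    exact (hj _ x.1 x.2 rfl).symm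
  let θ' : Cfsg.IrrCharacter S.K := ⟨_, hirr⟩
  have hdeg : Cfsg.charDegree (θ' : S.K → ℂ) = Cfsg.charDegree θ.1 := by
    simp [Cfsg.charDegree, θ']
  obtain ⟨θ0, hB0⟩ := S.exists_eq_Blk hM hB (by
    have := H20.Cfsg.IsDefectGroup.card_eq hM hB hBP
    rw [hP] at this
    by_contra h
    rw [not_lt, Nat.le_zero] at h
    rw [h, pow_zero] at this
    exact hp.ne_one this)
  have hB1 : B = S.Blk θ' := by
    obtain ⟨χ, hχ⟩ := H20.Cfsg.IsPBlock.nonempty hB
    rw [H20.Cfsg.IsPBlock.eq_blockOf hB hχ]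
    exact S.blockOf_eq_Blk hM (S.mem_Blk_of_induced hM hC hj (S.not_dvd_deg (hB0 ▸ hχ)) (hind.2.2 θ hθ χ hχ))
  have hf' : S.K.index = f := by rw [← S.relIndex_centralizer, hS, hf]
  have hN : S.N = Subgroup.normalizer ((P : Subgroup G) : Set G) := by rw [S.N_eq, hS]
  have hTc : T.comap S.jH = S.T θ' := by
    ext h
    rw [Subgroup.mem_comap, hT, S.mem_T]
    refine ⟨fun h1 => H19.irr_ext fun k => h1.2 _ _ (by simp [j]), fun h1 => ⟨hN ▸ S.memH h, fun c c' e => ?_⟩⟩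
    obtain ⟨y, k, e1⟩ := (hC c).1 c.2
    have e2 := S.conj_mul 1 y h k
    rw [map_one, one_mul, ← e1, ← e] at e2
    rw [hj c y k e1, hj c' _ ⟨_, (MonoidHom.normal_ker S.a).conj_mem _ k.2 h⟩ e2]
    exact congrFun (congrArg Subtype.val h1) k
  have hCc := S.comap_centralizer
  rw [hS] at hCc
  have he' : S.e θ' = e := by
    rw [← he, S.relIndex_eq (fun y => (hC _).2 ⟨y, 1, by simp⟩) (fun g hg => (hT g).2
      ⟨Subgroup.centralizer_le_normalizer _ hg, fun c c' e => ?_⟩) (fun g hg => hN ▸ ((hT g).1 hg).1), hTc, hCc, H19.DOne.e]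
    rw [← H05.Cfsg.IsIrrCharacter.isClassFunction θ.2 c ⟨g, hg⟩]
    exact congrArg θ.1 (Subtype.ext e)
  have hfe : f / e = (S.T θ').index := by
    rw [← hf', ← he', ← Subgroup.relIndex_mul_index (S.K_le_T θ')]
    exact Nat.mul_div_cancel_left _ (S.e_pos θ')
  obtain ⟨X, Y, δ, ε, hD⟩ := S.exists_desc θ'
  have h1 : B = (X : Set _) ∪ Y := by rw [hB1]; ext χ; simpa using hD.mem χ
  have h2 : Y.card = (p - 1) / e := by rw [← hD.cardY, he', Nat.mul_div_cancel _ (he' ▸ S.e_pos _)]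
  have h3 : X.card = e := hD.cardX.trans he'
  refine ⟨he' ▸ Dvd.intro_left _ hD.cardY, ?_, X, Y, h1, by exact_mod_cast hD.disj, by simp [h3], by simp [h2],
    fun χ hχ => ?_, ⟨ε, hD.sign, fun ψ hψ => ?_⟩, fun ψ hψ ψ' hψ' g hg => ?_⟩
  · rw [h1, ← h2, ← h3, ← Finset.coe_union, ← Finset.card_union_of_disjoint hD.disj]; simp
  · have := hD.degX hχ
    rw [hfe, ← hdeg]
    rcases hD.signX χ hχ with h | h <;> rw [h] at this
    · exact Or.inl (by simpa using this)
    · exact Or.inr (by simpa using this)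
  · simpa [hf', hdeg] using hD.degY hψ
  · exact mul_left_cancel₀ (by rcases hD.sign with h | h <;> simp [h]) ((hD.reg ψ hψ g hg).trans (hD.reg ψ' hψ' g hg).symm)

end Cfsg.Agent.S4442
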