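import Mathlib
import Cfsg.Statements.S4444
import Cfsg.Agent.H07.Glb3

set_option autoImplicit false
open Cfsg
open H05 Cfsg H07

namespace Cfsg.Agent.S4444

/-- The Glauberman correspondence for a p-group of operators. Inside a finite group Γ let S normalise G with the orders of G and S coprime, S a p-group, and let C = G ⊓ C(S) be the fixed points. Call an irreducible character χ of G S-invariant when χ(s g s⁻¹) = χ(g) for s ∈ S, g ∈ G. Then: (i) for every S-invariant χ there is exactly one irreducible character β of C whose multiplicity [χ_C, β] in the restriction of χ is not divisible by p; (ii) that multiplicity is ≡ 1 or ≡ −1 (mod p); (iii) distinct S-invariant χ give distinct β; (iv) every irreducible character of C arises in this way. So χ ↦ β is a bijection from the S-invariant irreducible characters of G onto the irreducible characters of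 C. -/
theorem result {Γ : Type*} [Group Γ] [Fintype Γ] (G S : Subgroup Γ) [Fintype G] (hnorm : ∀ s ∈ S, ∀ g ∈ G, s * g * s⁻¹ ∈ G) (hcop : (Nat.card G).Coprime (Nat.card S)) (p : ℕ) (hp : p.Prime) (hS : IsPGroup p S) (C : Subgroup Γ) [Fintype C] (hC : C = G ⊓ Subgroup.centralizer (S : Set Γ)) (hCG : C ≤ G) : (∀ χ : Cfsg.IrrCharacter G, (∀ s ∈ S, ∀ g g' : G, (g' : Γ) = s * g * s⁻¹ → (χ : G → ℂ) g' = (χ : G → ℂ) g) → ∃! β : Cfsg.IrrCharacter C, ∃ m : ℕ, Cfsg.classInner (fun c : C => (χ : G → ℂ) ⟨c, hCG c.2⟩) (β : C → ℂ) = (m : ℂ) ∧ ¬ p ∣ m) ∧ (∀ χ : Cfsg.IrrCharacter G, (∀ s ∈ S, ∀ g g' : G, (g' : Γ) = s * g * s⁻¹ → (χ : G → ℂ) g' = (χ : G → ℂ) g) → ∀ β : Cfsg.IrrCharacter C, ∀ m : ℕ, Cfsg.classInner (fun c : C => (χ : G → ℂ) ⟨c, hCG c.2⟩) (β : C → ℂ) = (m : ℂ) → ¬ p ∣ m → ((m : ℤ) ≡ 1 [ZMOD p] ∨ (m : ℤ) ≡ -1 [ZMOD p])) ∧ (∀ χ χ' : Cfsg.IrrCharacter G,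 (∀ s ∈ S, ∀ g g' : G, (g' : Γ) = s * g * s⁻¹ → (χ : G → ℂ) g' = (χ : G → ℂ) g) → (∀ s ∈ S, ∀ g g' : G, (g' : Γ) = s * g * s⁻¹ → (χ' : G → ℂ) g' = (χ' : G → ℂ) g) → ∀ β : Cfsg.IrrCharacter C, ∀ m m' : ℕ, Cfsg.classInner (fun c : C => (χ : G → ℂ) ⟨c, hCG c.2⟩) (β : C → ℂ) = (m : ℂ) → ¬ p ∣ m → Cfsg.classInner (fun c : C => (χ' : G → ℂ) ⟨c, hCG c.2⟩) (β : C → ℂ) = (m' : ℂ) → ¬ p ∣ m' → χ = χ') ∧ (∀ β : Cfsg.IrrCharacter C, ∃ χ : Cfsg.IrrCharacter G, (∀ s ∈ S, ∀ g g' : G, (g' : Γ) = s * g * s⁻¹ → (χ : G → ℂ) g' = (χ : G → ℂ) g) ∧ ∃ m : ℕ, Cfsg.classInner (fun c : C => (χ : G → ℂ) ⟨c, hCG c.2⟩) (β : C → ℂ) = (m : ℂ) ∧ ¬ p ∣ m) := by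
  have := Fact.mk hp
  have hSG := H01.le_normalizer_of_conj_mem hnorm
  have hm : ∀ (χ : G → ℂ) (β : C → ℂ) (m : ℕ), classInner (fun c : C => χ ⟨c, hCG c.2⟩) β = (m : ℂ) →
      mult (Subgroup.inclusion hCG) χ β = m := fun χ β m h => mult_of_eq h
  have hm' : ∀ (χ : IrrCharacter G) (β : IrrCharacter C), classInner (fun c : C => χ.1 ⟨c, hCG c.2⟩) β.1 =
      (mult (Subgroup.inclusion hCG) χ.1 β.1 : ℂ) :=
    fun χ β => (mult_eq (Subgroup.inclusion hCG) χ.2.isCharacter β.2.isCharacter).symm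
  have h : Corr p (mult (Subgroup.inclusion hCG)) (IrrInv S G) {β | IsIrrCharacter C β} := by
    by_cases h0 : S = ⊥
    · subst h0
      rw [irrInv_of_le_centralizer bot_le]
      exact corr_refl hCG (hC ▸ le_inf le_rfl fun x _ y hy => by simp [show y = 1 from hy])
    · obtain ⟨n, hn⟩ := hS.exists_card_eq
      refine corr_pgroup hS hSG (fun h => hp.one_lt.ne' (Nat.eq_one_of_dvd_coprimes hcop h ?_)) hC hCG
      rw [hn]
      exact dvd_pow_self p fun h1 => h0 (Subgroup.card_eq_one.1 (by rw [hn, h1, pow_zero]))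
  refine ⟨fun χ hχ => ?_, fun χ hχ β m h1 h2 => ?_, fun χ χ' hχ hχ' β m m' h1 h2 h3 h4 => ?_,
    fun β => ?_⟩
  · have hχ' : χ.1 ∈ IrrInv S G := ⟨χ.2, (le_stab_iff hSG).2 hχ⟩
    obtain ⟨β, hβ, h1⟩ := h.ex' hχ'
    refine ⟨⟨β, hβ⟩, ⟨_, hm' χ ⟨β, hβ⟩, h1⟩, ?_⟩
    rintro γ ⟨m, h2, h3⟩
    exact Subtype.ext (h.uniq hχ' γ.2 hβ (by rwa [hm _ _ _ h2]) h1)
  · have hχ' : χ.1 ∈ IrrInv S G := ⟨χ.2, (le_stab_iff hSG).2 hχ⟩
    have := h.pm hχ' β.2 (by rwa [hm _ _ _ h1])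
    rw [hm _ _ _ h1] at this
    rw [← ZMod.intCast_eq_intCast_iff, ← ZMod.intCast_eq_intCast_iff]
    simpa using this
  · have h5 : χ.1 ∈ IrrInv S G := ⟨χ.2, (le_stab_iff hSG).2 hχ⟩
    have h6 : χ'.1 ∈ IrrInv S G := ⟨χ'.2, (le_stab_iff hSG).2 hχ'⟩
    exact Subtype.ext (h.inj _ h5 _ h6 _ β.2 (by rwa [hm _ _ _ h1]) (by rwa [hm _ _ _ h3]))
  · obtain ⟨χ, hχ, h1⟩ := h.surj β β.2
    exact ⟨⟨χ, hχ.1⟩, (le_stab_iff hSG).1 hχ.2, _, hm' ⟨χ, hχ.1⟩ β, h1⟩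

end Cfsg.Agent.S4444
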