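import Mathlib
import Cfsg.Statements.S4446
import Cfsg.Agent.H07.Glb2

set_option autoImplicit false
open Cfsg
open H05 Cfsg H07

namespace Cfsg.Agent.S4446

/-- Let the finite group Γ be generated by a normal subgroup G and a cyclic subgroup S of coprime orders, C = G ⊓ C(S), and let χ be an S-invariant irreducible character of G with canonical extension χ̂ to Γ (the extension whose determinantal order is coprime to the order of S). Then there are exactly one irreducible character β of C and one sign ε such that χ̂(c s) = ε β(c) for every c ∈ C and every generator s of S; this β is a constituent of the restriction of χ to C; distinct S-invariant χ give distinct β; and every irreducible character of C arises in this way. -/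
theorem result {Γ : Type*} [Group Γ] [Fintype Γ] (G S : Subgroup Γ) [Fintype G] (hnorm : ∀ s ∈ S, ∀ g ∈ G, s * g * s⁻¹ ∈ G) (hcop : (Nat.card G).Coprime (Nat.card S)) (htop : G ⊔ S = ⊤) (hcyc : IsCyclic S) (C : Subgroup Γ) [Fintype C] (hC : C = G ⊓ Subgroup.centralizer (S : Set Γ)) (hCG : C ≤ G) : (∀ (χ : Cfsg.IrrCharacter G) (χh : Cfsg.IrrCharacter Γ), (∀ s ∈ S, ∀ g g' : G, (g' : Γ) = s * g * s⁻¹ → (χ : G → ℂ) g' = (χ : G → ℂ) g) → (∀ g : G, (χh : Γ → ℂ) g = (χ : G → ℂ) g) → (Cfsg.detOrder (χh : Γ → ℂ)).Coprime (Nat.card S) → (∃! βε : Cfsg.IrrCharacter C × ℤ, (βε.2 = 1 ∨ βε.2 = -1) ∧ ∀ c : C, ∀ s : Γ, Subgroup.zpowers s = S → (χh : Γ → ℂ) ((c : Γ) * s) = (βε.2 : ℂ) * (βε.1 : C → ℂ) c) ∧ ∀ β : Cfsg.IrrCharacter C, ∀ ε : ℤ, (ε = 1 ∨ ε = -1) → (∀ c : C, ∀ s : Γ, Subgroup.zpowers s = S → (χh : Γ → ℂ) ((c : Γ) * s) = (ε : ℂ) * (β : C → ℂ) c) → Cfsg.classInner (fun c : C => (χ : G → ℂ) ⟨c, hCG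 c.2⟩) (β : C → ℂ) ≠ 0) ∧ (∀ (χ χ' : Cfsg.IrrCharacter G) (χh χh' : Cfsg.IrrCharacter Γ), (∀ s ∈ S, ∀ g g' : G, (g' : Γ) = s * g * s⁻¹ → (χ : G → ℂ) g' = (χ : G → ℂ) g) → (∀ s ∈ S, ∀ g g' : G, (g' : Γ) = s * g * s⁻¹ → (χ' : G → ℂ) g' = (χ' : G → ℂ) g) → (∀ g : G, (χh : Γ → ℂ) g = (χ : G → ℂ) g) → (∀ g : G, (χh' : Γ → ℂ) g = (χ' : G → ℂ) g) → (Cfsg.detOrder (χh : Γ → ℂ)).Coprime (Nat.card S) → (Cfsg.detOrder (χh' : Γ → ℂ)).Coprime (Nat.card S) → ∀ β : Cfsg.IrrCharacter C, ∀ ε ε' : ℤ, (ε = 1 ∨ ε = -1) → (ε' = 1 ∨ ε' = -1) → (∀ c : C, ∀ s : Γ, Subgroup.zpowers s = S → (χh : Γ → ℂ) ((c : Γ) * s) = (ε : ℂ) * (β : C → ℂ) c) → (∀ c : C, ∀ s : Γ, Subgroup.zpowers s = S → (χh' : Γ → ℂ) ((c : Γ) * s) = (ε' : ℂ) * (β : C → ℂ) c) → χ = χ') ∧ (∀ β : Cfsg.IrrCharacter C, ∃ (χ : Cfsg.IrrCharacter G) (χh : Cfsg.IrrCharacter Γ) (ε : ℤ), (∀ s ∈ S, ∀ g g' : G, (g' : Γ) = s * g * s⁻¹ → (χ : G → ℂ) g' = (χ : G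 → ℂ) g) ∧ (∀ g : G, (χh : Γ → ℂ) g = (χ : G → ℂ) g) ∧ (Cfsg.detOrder (χh : Γ → ℂ)).Coprime (Nat.card S) ∧ (ε = 1 ∨ ε = -1) ∧ ∀ c : C, ∀ s : Γ, Subgroup.zpowers s = S → (χh : Γ → ℂ) ((c : Γ) * s) = (ε : ℂ) * (β : C → ℂ) c) := by
  have hG : G.Normal := by
    rw [← Subgroup.normalizer_eq_top_iff, eq_top_iff, ← htop]
    exact sup_le Subgroup.le_normalizer (H01.le_normalizer_of_conj_mem hnorm)
  have hd : G.index = Nat.card S := by
    have := (Subgroup.isComplement'_of_disjoint_and_mul_eq_univ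
      (Subgroup.disjoint_of_coprime_natCard hcop) (by rw [← Subgroup.normal_mul, htop]; rfl) :
      G.IsComplement' S)
    exact this.symm.index_eq_card
  have hc : G.index.Coprime (Nat.card G) := hd ▸ hcop.symm
  obtain ⟨s₀, hs₀⟩ := (Subgroup.isCyclic_iff_exists_zpowers_eq_top S).1 hcyc
  have ho : orderOf s₀ = Nat.card S := by rw [← hs₀, Nat.card_zpowers]
  have hx : (orderOf s₀).Coprime (Nat.card G) := ho ▸ hcop.symm
  have hC' : C = G ⊓ Subgroup.centralizer {s₀} := by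
    rw [hC, ← hs₀, Subgroup.zpowers_eq_closure, Subgroup.centralizer_closure]
  have can : ∀ {χ : IrrCharacter G} {χh : IrrCharacter Γ}, (∀ g : G, χh.1 g = χ.1 g) →
      (detOrder χh.1).Coprime (Nat.card S) → Canon G χh := fun {χ χh} h1 h2 =>
    ⟨χh.2.isCharacter, by simpa only [h1] using χ.2, hd ▸ h2.symm⟩
  have gen : ∀ {χ : Γ → ℂ}, Canon G χ → ∀ s, Subgroup.zpowers s = S → ∀ c : C, χ (c * s) = χ (c * s₀) := by
    intro χ hχ s hs
    obtain ⟨k, rfl⟩ := (mem_powers_iff_mem_zpowers (x := s₀) (y := s)).2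
      (hs₀ ▸ hs ▸ Subgroup.mem_zpowers s)
    have hk : k.Coprime (orderOf s₀) := by
      have h1 : orderOf (s₀ ^ k) = orderOf s₀ := by rw [ho, ← hs, Nat.card_zpowers]
      rw [orderOf_pow, Nat.div_eq_self] at h1
      exact Nat.Coprime.symm (h1.resolve_left (orderOf_pos _).ne')
    refine congrFun (H05.Cfsg.IsClassFunction.ext_inner (slice_cf (fun c hc => ?_) hχ.ch.isClassFunction)
      (slice_cf (hC'.le.trans inf_le_right) hχ.ch.isClassFunction)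
      fun γ hγ => hχ.slice_pow hc hx hC' hγ.isCharacter hk)
    exact Subgroup.mem_centralizer_singleton_iff.2
      (Commute.pow_right (Subgroup.mem_centralizer_singleton_iff.1 (hC'.le hc).2) k)
  have ip : ∀ {χ : Γ → ℂ} {β : C → ℂ} {ε : ℤ}, (∀ c : C, χ (c * s₀) = ε * β c) → ∀ γ,
      classInner (fun c : C => χ (c * s₀)) γ = ε * classInner β γ := fun {χ β ε} h γ => by
    rw [show (fun c : C => χ (c * s₀)) = (ε : ℂ) • β from funext h, classInner_smul_left]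
  have nz : ∀ {ε : ℤ}, ε = 1 ∨ ε = -1 → (ε : ℂ) ≠ 0 := by
    rintro _ (rfl | rfl) <;> simp
  refine ⟨fun χ χh _ h1 h2 => ⟨?_, fun β ε hε h3 h4 => ?_⟩,
    fun χ χ' χh χh' _ _ h1 h1' h2 h2' β ε ε' hε hε' h3 h3' => ?_, fun β => ?_⟩
  · obtain ⟨β, ε, hβ, hε, h3⟩ := (can h1 h2).exists_slice hc hx hC'
    refine ⟨(⟨β, hβ⟩, ε), ⟨hε, fun c s hs => (gen (can h1 h2) s hs c).trans (h3 c)⟩, ?_⟩
    rintro ⟨γ, δ⟩ ⟨hδ, h4⟩
    have h5 := (ip (fun c => h4 c s₀ hs₀) γ).symm.trans (ip h3 γ)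
    rw [γ.2.classInner_self, mul_one] at h5
    obtain rfl := hβ.eq_of_classInner_ne_zero γ.2 (right_ne_zero_of_mul (h5 ▸ nz hδ))
    rw [γ.2.classInner_self, mul_one] at h5
    exact Prod.ext rfl (by exact_mod_cast h5)
  · have h5 := (isCharacter_slice C.subtype (Subgroup.zpowers s₀).subtype (comm_of_cent hC')
      χh.2.isCharacter β.2.isCharacter).eq_zero_of_apply_one (by
        rw [← h4]; congr 1; ext c; simpa using h1 ⟨c, hCG c.2⟩)
    have h6 := congrFun h5 ⟨s₀, Subgroup.mem_zpowers s₀⟩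
    simp only [Subgroup.coe_subtype, ip (fun c => h3 c s₀ hs₀), β.2.classInner_self] at h6
    exact nz hε (by simpa using h6)
  · by_contra hne
    have h4 := slice_orth hx hC' (can h1 h2) (can h1' h2') (by
      simp only [h1, h1']; exact fun h => hne (Subtype.ext h))
    rw [ip (fun c => h3 c s₀ hs₀), show (fun c : C => χh'.1 (c * s₀)) = (ε' : ℂ) • β.1 from
      funext fun c => h3' c s₀ hs₀, classInner_intCast_smul_right, β.2.classInner_self, mul_one] at h4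
    exact mul_ne_zero (nz hε) (nz hε') h4
  · obtain ⟨χ, h1, h2⟩ := exists_canon_slice (hs₀ ▸ htop) hx hC' β.2
    obtain ⟨γ, ε, hγ, hε, h3⟩ := h1.exists_slice hc hx hC'
    rw [ip h3] at h2
    obtain rfl := hγ.eq_of_classInner_ne_zero β.2 (right_ne_zero_of_mul h2)
    exact ⟨⟨_, h1.irr⟩, ⟨χ, H05.Cfsg.IsIrrCharacter.of_restrict h1.ch G h1.irr⟩, ε,
      fun s _ g g' e => by simp only [e]; exact h1.ch.isClassFunction g s, fun _ => rfl,
      (hd ▸ h1.det).symm, hε, fun c s hs => (gen h1 s hs c).trans (h3 c)⟩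

end Cfsg.Agent.S4446
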