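import Mathlib
import Cfsg.Statements.S4450
import Cfsg.Agent.H07.Glb6

set_option autoImplicit false
open Cfsg
open H05 H06 Cfsg H07

namespace Cfsg.Agent.S4450

/-- Let N ≤ G be normal subgroups of the finite group Γ with the index of G in Γ coprime to the index of N in G, and Γ/G or G/N solvable. Then for every irreducible character ϑ of N invariant under conjugation by Γ, the induced character ϑ^G has an irreducible constituent invariant under conjugation by Γ. -/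
theorem result {Γ : Type*} [Group Γ] [Fintype Γ] (G N : Subgroup Γ) [hG : G.Normal] [hN : N.Normal] [Fintype G] [Fintype N] (hNG : N ≤ G) (hcop : (G.index).Coprime (N.relIndex G)) (hsolv : Group.IsSolvable (Γ ⧸ G) ∨ Group.IsSolvable (G ⧸ N.subgroupOf G)) (θ : Cfsg.IrrCharacter N) (hinv : ∀ (x : Γ) (n : N), (θ : N → ℂ) ⟨x * n * x⁻¹, hN.conj_mem n n.2 x⟩ = (θ : N → ℂ) n) : ∃ χ : Cfsg.IrrCharacter G, Cfsg.classInner (fun n : N => (χ : G → ℂ) ⟨n, hNG n.2⟩) (θ : N → ℂ) ≠ 0 ∧ ∀ (x : Γ) (g : G), (χ : G → ℂ) ⟨x * g * x⁻¹, hG.conj_mem g g.2 x⟩ = (χ : G → ℂ) g := by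
  obtain ⟨χ, h1, h2⟩ := exists_inv_over_top hNG hcop (hsolv.imp (fun h => by
      obtain ⟨n, hn⟩ := h.1
      rw [← map_derivedSeries_eq (QuotientGroup.mk'_surjective _), Subgroup.map_eq_bot_iff, QuotientGroup.ker_mk'] at hn
      exact ⟨n, fun x hx => hn (map_derivedSeries_le_derivedSeries (Subgroup.subtype ⊤) n ⟨x, hx, rfl⟩)⟩) solMod_of_quotient)
    (θ := θ.1) ⟨θ.2, fun x _ => ⟨Subgroup.le_normalizer_of_normal (K := ⊤) trivial, hinv x⟩⟩
  exact ⟨⟨χ, h1.1⟩, (mult_ne_zero_iff (Subgroup.inclusion hNG) h1.1.isCharacter θ.2.isCharacter).1 h2,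
    fun x g => stab_apply (h1.2 (Subgroup.mem_top x)) rfl⟩

end Cfsg.Agent.S4450
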