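import Mathlib
import Cfsg.Statements.S4451
import Cfsg.Agent.H07.Glb2

set_option autoImplicit false
open Cfsg
open H05 Cfsg H07

namespace Cfsg.Agent.S4451

theorem connect {A : Type*} [Group A] [Finite A] {Q : A → Prop} [IsMulCommutative A]
    (h : ∀ (p k : ℕ) (z x : A), p.Prime → z ^ p ^ k = 1 → x ≠ 1 → z * x ≠ 1 → Q x → Q (z * x))
    (x₀ : A) (h0 : x₀ ≠ 1) (hQ : Q x₀) (x : A) (hx : x ≠ 1) : Q x := by
  have h' : ∀ (p k : ℕ) (z x : A), p.Prime → z ^ p ^ k = 1 → x ≠ 1 → z * x ≠ 1 → (Q x ↔ Q (z * x)) :=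
    fun p k z x hp hz h1 h2 => ⟨h p k z x hp hz h1 h2, fun h3 => by
      simpa using h p k z⁻¹ (z * x) hp (by simp [hz]) h2 (by simpa using h1) h3⟩
  have key : ∀ (n : ℕ) (x : A), orderOf x = n → x ≠ 1 → ∃ (p k : ℕ) (u : A), p.Prime ∧ u ^ p ^ k = 1 ∧
      u ≠ 1 ∧ (Q x ↔ Q u) := by
    intro n
    induction n using Nat.strong_induction_on with
    | _ n ih =>
    intro x hn hx
    have hn1 : n ≠ 1 := fun h => hx (orderOf_eq_one_iff.1 (hn.trans h))
    have hn0 : n ≠ 0 := hn ▸ (orderOf_pos x).ne'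
    have hp := Nat.minFac_prime hn1
    obtain ⟨a, m, h1, h2⟩ := Nat.exists_eq_pow_mul_and_not_dvd hn0 _ hp.ne_one
    obtain ⟨j, hj1, hj0⟩ := Nat.chineseRemainder
      (((Nat.Prime.coprime_iff_not_dvd hp).2 h1).pow_left a) 1 0
    have hpn := n.minFac_dvd
    generalize n.minFac = q at *
    have hxn : x ^ (q ^ a * m) = 1 := by rw [← h2, ← hn, pow_orderOf_eq_one]
    have hz : (x ^ j) ^ q ^ a = 1 := by
      rw [← pow_mul, mul_comm, pow_mul, pow_eq_pow_mod j (by rwa [← pow_mul]), hj0]; simp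
    by_cases hw : (x ^ j)⁻¹ * x = 1
    · rw [inv_mul_eq_one] at hw
      exact ⟨_, a, x, hp, hw ▸ hz, hx, Iff.rfl⟩
    · have h3 : ((x ^ j)⁻¹ * x) ^ m = 1 := by
        have : (x ^ m) ^ q ^ a = 1 := by rwa [← pow_mul, mul_comm]
        rw [Commute.mul_pow (mul_comm' _ _), inv_pow, ← pow_mul, mul_comm, pow_mul,
          pow_eq_pow_mod j this, hj1, ← pow_eq_pow_mod 1 this]; simp
      have h4 : m < n := by
        have : a ≠ 0 := fun h => h1 (by simpa [h2, h] using hpn)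
        have hm : 0 < m := Nat.pos_of_ne_zero fun h => hn0 (by simp [h2, h])
        calc m < q ^ a * m := lt_mul_of_one_lt_left hm (Nat.one_lt_pow this hp.one_lt)
          _ = n := h2.symm
      obtain ⟨p, k, u, h5, h6, h7, h8⟩ := ih _ ((orderOf_le_of_pow_eq_one
        (Nat.pos_of_ne_zero fun h => hn0 (by simp [h2, h])) h3).trans_lt h4) _ rfl hw
      exact ⟨p, k, u, h5, h6, h7, by simpa using (h' _ a _ _ hp hz hw (by simpa using hx)).symm.trans h8⟩
  obtain ⟨p, k, u, h1, h2, h3, h4⟩ := key _ x₀ rfl h0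
  obtain ⟨q, l, v, h5, h6, h7, h8⟩ := key _ x rfl hx
  rw [h8]
  by_cases h9 : v * u = 1
  · have := h p k (u⁻¹ * u⁻¹) u h1 (by rw [← mul_inv_rev, inv_pow, ← sq, ← pow_mul, mul_comm, pow_mul, h2]; simp)
      h3 (by simpa using h3) (h4.1 hQ)
    rwa [inv_mul_cancel_right, ← eq_inv_of_mul_eq_one_left h9] at this
  · exact (h' p k u v h1 h2 h7 (by rwa [mul_comm'])).2 (mul_comm' u v ▸ h q l v u h5 h6 h3 h9 (h4.1 hQ))


/-- Let the finite group Γ be generated by a normal subgroup G and a cyclic subgroup S of coprime orders such that every non-identity element of S has the same centraliser C = G ⊓ C(S) in G. Let χ be an S-invariant irreducible character of G, χ̂ its canonical extension to Γ (determinantal order coprime to the order of S), and β the irreducible character of C with χ̂(c s) = ε₀ β(c) for c ∈ C and generators s of S (ε₀ = ±1). Then there are a sign ε = ±1, which may differ from ε₀, and a linear character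 μ of S with μ² = 1, such that: (a) χ̂(c x) = ε β(c) μ(x) for all c ∈ C and all x ∈ S other than 1; (b) the restriction of χ to C equals |S|·ϑ + ε β for some character ϑ of C or ϑ = 0; (c) |S| divides χ(1) − ε β(1). -/
theorem result {Γ : Type*} [Group Γ] [Fintype Γ] (G S : Subgroup Γ) [Fintype G] (hnorm : ∀ s ∈ S, ∀ g ∈ G, s * g * s⁻¹ ∈ G) (hcop : (Nat.card G).Coprime (Nat.card S)) (htop : G ⊔ S = ⊤) (hcyc : IsCyclic S) (C : Subgroup Γ) [Fintype C] (hC : C = G ⊓ Subgroup.centralizer (S : Set Γ)) (hCG : C ≤ G) (hfpf : ∀ x ∈ S, x ≠ 1 → G ⊓ Subgroup.centralizer ({x} : Set Γ) = C) (χ : Cfsg.IrrCharacter G) (hinv : (∀ s ∈ S, ∀ g g' : G, (g' : Γ) = s * g * s⁻¹ → (χ : G → ℂ) g' = (χ : G → ℂ) g)) (χh : Cfsg.IrrCharacter Γ) (hext : (∀ g : G, (χh : Γ → ℂ) g = (χ : G → ℂ) g)) (hdet : (Cfsg.detOrder (χh : Γ → ℂ)).Coprime (Nat.card S)) (β : Cfsg.IrrCharacter C) (ε₀ : ℤ) (hε₀ : ε₀ = 1 ∨ ε₀ = -1) (hβ : ∀ c : C, ∀ s : Γ,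 Subgroup.zpowers s = S → (χh : Γ → ℂ) ((c : Γ) * s) = (ε₀ : ℂ) * (β : C → ℂ) c) : ∃ ε : ℤ, (ε = 1 ∨ ε = -1) ∧ (∃ μ : S → ℂ, Cfsg.IsCharacter S μ ∧ μ 1 = 1 ∧ (∀ x : S, μ x * μ x = 1) ∧ ∀ c : C, ∀ x : S, x ≠ 1 → (χh : Γ → ℂ) ((c : Γ) * x) = (ε : ℂ) * (β : C → ℂ) c * μ x) ∧ (∃ ϑ : C → ℂ, Cfsg.IsCharacter C ϑ ∧ (fun c : C => (χ : G → ℂ) ⟨c, hCG c.2⟩) = fun c => (Nat.card S : ℂ) * ϑ c + (ε : ℂ) * (β : C → ℂ) c) ∧ (Nat.card S : ℤ) ∣ (Cfsg.charDegree (χ : G → ℂ) : ℤ) - ε * (Cfsg.charDegree (β : C → ℂ) : ℤ) := by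
  classical
  have hG : G.Normal := by
    rw [← Subgroup.normalizer_eq_top_iff, eq_top_iff, ← htop]
    exact sup_le Subgroup.le_normalizer (H01.le_normalizer_of_conj_mem hnorm)
  have hd : G.index = Nat.card S := by
    have := (Subgroup.isComplement'_of_disjoint_and_mul_eq_univ
      (Subgroup.disjoint_of_coprime_natCard hcop) (by rw [← Subgroup.normal_mul, htop]; rfl) :
      G.IsComplement' S)
    exact this.symm.index_eq_card
  have hc : G.index.Coprime (Nat.card G) := hd ▸ hcop.symm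
  obtain ⟨s₀, hs₀⟩ := (Subgroup.isCyclic_iff_exists_zpowers_eq_top S).1 hcyc
  have can : Canon G χh := ⟨χh.2.isCharacter, by simpa only [hext] using χ.2, hd ▸ hdet.symm⟩
  rcases subsingleton_or_nontrivial S with h0 | h0
  · have h1 : s₀ = 1 := congrArg Subtype.val
      (Subsingleton.elim (⟨s₀, hs₀ ▸ Subgroup.mem_zpowers s₀⟩ : S) 1)
    refine ⟨ε₀, hε₀, ⟨1, isCharacter_one, rfl, by simp, fun c x hx => (hx (Subsingleton.elim _ _)).elim⟩,
      ⟨0, isCharacter_zero, funext fun c => ?_⟩, by rw [Nat.card_of_subsingleton (1 : S)]; simp⟩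
    simpa [h1, ← hext] using hβ c s₀ hs₀
  have hα : ∀ γ : IrrCharacter C, IsCharacter S (fun x : S => classInner (fun c : C => χh.1 (c * x)) γ.1) :=
    fun γ => isCharacter_slice C.subtype S.subtype (fun c x => ((hC.le c.2).2 x x.2).symm)
      χh.2.isCharacter γ.2.isCharacter
  have sl : ∀ x : S, x ≠ 1 → ∃ (γ : IrrCharacter C) (δ : ℤ), (δ = 1 ∨ δ = -1) ∧
      (∀ c : C, χh.1 (c * x) = δ * γ.1 c) ∧ ∀ γ' : IrrCharacter C,
      classInner (fun c : C => χh.1 (c * x)) γ'.1 = ((if γ = γ' then δ else 0 : ℤ) : ℂ) := by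
    intro x hx
    obtain ⟨γ, δ, h1, h2, h3⟩ := can.exists_slice hc (hcop.symm.coprime_dvd_left
      (Subgroup.orderOf_dvd_natCard S x.2)) (hfpf x x.2 fun h => hx (Subtype.ext h)).symm
    refine ⟨⟨γ, h1⟩, δ, h2, h3, fun γ' => ?_⟩
    rw [show (fun c : C => χh.1 (c * x)) = (δ : ℂ) • γ from funext h3, classInner_smul_left,
      classInner_irr ⟨γ, h1⟩ γ']
    split_ifs <;> simp
  have hs1 : (⟨s₀, hs₀ ▸ Subgroup.mem_zpowers s₀⟩ : S) ≠ 1 := fun h => by
    rw [show s₀ = 1 from congrArg Subtype.val h, Subgroup.zpowers_one_eq_bot] at hs₀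
    exact (Subgroup.nontrivial_iff_ne_bot S).1 h0 hs₀.symm
  have nz : ∀ x : S, x ≠ 1 → classInner (fun c : C => χh.1 (c * x)) β.1 ≠ 0 := by
    refine connect (fun p k z x hp hz hx hzx h h' => ?_) _ hs1 ?_
    · obtain ⟨γ, δ, h1, -, h2⟩ := sl x hx
      have h3 := dvd_sub_of_pElt (hα β).isGeneralizedCharacter hp hz (mul_comm' z x) (a := 0)
        (by simpa using h') (h2 β)
      rw [h2 β] at h
      split_ifs at h h3
      · have := Int.natAbs_dvd_natAbs.2 h3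
        rcases h1 with rfl | rfl <;> simpa [hp.ne_one] using this
      · simp at h
    · rw [show (fun c : C => χh.1 (c * s₀)) = (ε₀ : ℂ) • β.1 from funext fun c => hβ c s₀ hs₀,
        classInner_smul_left, β.2.classInner_self]
      rcases hε₀ with rfl | rfl <;> simp
  have sl' : ∀ x : S, x ≠ 1 → ∃ δ : ℤ, (δ = 1 ∨ δ = -1) ∧
      (∀ c : C, χh.1 (c * x) = δ * β.1 c) ∧ ∀ γ' : IrrCharacter C,
      classInner (fun c : C => χh.1 (c * x)) γ'.1 = ((if β = γ' then δ else 0 : ℤ) : ℂ) := by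
    intro x hx
    obtain ⟨γ, δ, h1, h2, h3⟩ := sl x hx
    obtain rfl : γ = β := by
      by_contra h; exact nz x hx (by rw [h3, if_neg h]; simp)
    exact ⟨δ, h1, h2, h3⟩
  obtain ⟨a, ε, μ, hε, h1⟩ := eq_reg_add_of_norm_one (hα β) fun x hx => by
    obtain ⟨δ, h1, -, h2⟩ := sl' x hx
    rw [h2, if_pos rfl]; rcases h1 with rfl | rfl <;> simp
  have h2 : ∀ γ : IrrCharacter C, ∃ n : ℕ, (mult (Subgroup.inclusion hCG) χ.1 γ.1 : ℂ) =
      Nat.card S * n + if β = γ then (ε : ℂ) else 0 := by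
    intro γ
    have h3 : (mult (Subgroup.inclusion hCG) χ.1 γ.1 : ℂ) =
        classInner (fun c : C => χh.1 (c * (1 : S))) γ.1 := by
      rw [mult_eq _ χ.2.isCharacter γ.2.isCharacter]; congr 1; ext c; simp [← hext]
    split_ifs with h4
    · subst h4
      exact ⟨a, by rw [h3, h1, regChar_one]; simp [mul_comm]⟩
    · obtain ⟨n, hn⟩ := (hα γ).exists_classInner_eq_nat isCharacter_one
      refine ⟨n, ?_⟩
      rw [h3, ← hn, card_mul_classInner, Finset.sum_eq_single 1 (fun x _ hx => ?_) (by simp)]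
      · simp
      · obtain ⟨δ, -, -, h5⟩ := sl' x hx
        simp [h5, h4]
  choose n hn using h2
  have h3 : (fun c : C => χ.1 ⟨c, hCG c.2⟩) = fun c => (Nat.card S : ℂ) *
      (∑ γ : IrrCharacter C, (n γ : ℂ) • γ.1) c + (ε : ℂ) * β.1 c := by
    refine (comp_eq_sum_mult (Subgroup.inclusion hCG) χ.2.isCharacter).trans (funext fun c => ?_)
    simp [hn, add_mul, Finset.sum_add_distrib, Finset.mul_sum, mul_assoc]
  have h4 : ∀ x : S, x ≠ 1 → ∃ δ : ℤ, (δ = 1 ∨ δ = -1) ∧ (∀ c : C, χh.1 (c * x) = δ * β.1 c) ∧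
      (δ : ℂ) = ε * μ x := fun x hx => by
    obtain ⟨δ, h5, h6, h7⟩ := sl' x hx
    exact ⟨δ, h5, h6, by simpa [h7, regChar_of_ne hx] using h1 x⟩
  refine ⟨ε, hε, ⟨_, isCharacter_monoidHom μ, by simp, fun x => ?_, fun c x hx => ?_⟩,
    ⟨_, isCharacter_sum_nat n, h3⟩, charDegree (∑ γ : IrrCharacter C, (n γ : ℂ) • γ.1), ?_⟩
  · by_cases hx : x = 1
    · simp [hx]
    · obtain ⟨δ, h5, -, h6⟩ := h4 x hx
      have h7 : (ε : ℂ) * ε = 1 := by rcases hε with rfl | rfl <;> simp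
      have h8 : (δ : ℂ) * δ = 1 := by rcases h5 with rfl | rfl <;> simp
      linear_combination h8 - (μ x : ℂ) * μ x * h7 - (δ + ε * μ x) * h6
  · obtain ⟨δ, -, h5, h6⟩ := h4 x hx
    rw [h5, h6]; ring
  · have h5 := congrFun h3 1
    rw [← (isCharacter_sum_nat n).charDegree_eq, ← β.2.charDegree_eq] at h5
    have h6 := χ.2.charDegree_eq.trans h5
    exact_mod_cast sub_eq_iff_eq_add.2 h6

end Cfsg.Agent.S4451
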