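import Mathlib
import Cfsg.Statements.S4452
import Cfsg.Agent.H07.Glb3

set_option autoImplicit false
open Cfsg
open H05 Cfsg H07

namespace Cfsg.Agent.S4452

/-- Let the finite group G be the product of a normal subgroup K and a solvable subgroup H of coprime orders, and let N = N_G(H). Then the number of irreducible characters of G of degree coprime to the order of H equals the number of irreducible characters of N of degree coprime to the order of H. (The two sets are in fact in a canonical bijection; only the equality of their sizes is stated here.) -/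
theorem result {G : Type*} [Group G] [Finite G] (K H : Subgroup G) [K.Normal] (hKH : K ⊔ H = ⊤) (hcop : (Nat.card K).Coprime (Nat.card H)) (hsolv : Group.IsSolvable H) : Nat.card {χ : Cfsg.IrrCharacter G // (Cfsg.charDegree (χ : G → ℂ)).Coprime (Nat.card H)} = Nat.card {η : Cfsg.IrrCharacter (Subgroup.normalizer (H : Set G)) // (Cfsg.charDegree (η : Subgroup.normalizer (H : Set G) → ℂ)).Coprime (Nat.card H)} := by
  set N := Subgroup.normalizer (H : Set G) with hN
  have hHN : H ≤ N := Subgroup.le_normalizer
  have e1 := Subgroup.subgroupOfEquivOfLe hHN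
  have hd : K ⊓ H = ⊥ := (Subgroup.disjoint_of_coprime_natCard hcop).eq_bot
  have h1 : K ⊓ N = K ⊓ Subgroup.centralizer (H : Set G) := by
    refine le_antisymm (fun k hk => ⟨hk.1, fun h hh => ?_⟩)
      (inf_le_inf_left _ (Subgroup.centralizer_le_normalizer _))
    have : k * h * k⁻¹ * h⁻¹ ∈ K ⊓ H :=
      ⟨by simpa [mul_assoc] using K.mul_mem hk.1 (‹K.Normal›.conj_mem _ (K.inv_mem hk.1) h),
        H.mul_mem ((Subgroup.mem_normalizer_iff.1 hk.2 h).1 hh) (H.inv_mem hh)⟩
    rw [hd, Subgroup.mem_bot, mul_inv_eq_one, mul_inv_eq_iff_eq_mul] at this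
    exact this.symm
  have h2 : K.subgroupOf N ⊔ H.subgroupOf N = ⊤ := by
    rw [eq_top_iff]
    intro x _
    have hx : (x : G) ∈ ((K ⊔ H : Subgroup G) : Set G) := hKH ▸ Subgroup.mem_top _
    rw [Subgroup.normal_mul] at hx
    obtain ⟨k, hk, h, hh, e⟩ := hx
    have : x = ⟨k, by simpa [← e] using N.mul_mem x.2 (N.inv_mem (hHN hh))⟩ * ⟨h, hHN hh⟩ :=
      Subtype.ext e.symm
    rw [this]
    exact Subgroup.mul_mem_sup hk hh
  have e2 : K.subgroupOf N ≃* (K ⊓ Subgroup.centralizer (H : Set G) : Subgroup G) :=
    (MulEquiv.subgroupCongr (Subgroup.inf_subgroupOf_right K N).symm).trans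
      ((Subgroup.subgroupOfEquivOfLe inf_le_right).trans (MulEquiv.subgroupCongr h1))
  have h3 := card_coprime_degree h2 (by
    rw [Nat.card_congr e1.toEquiv, Nat.card_congr e2.toEquiv]
    exact hcop.coprime_dvd_left (Subgroup.card_dvd_of_le inf_le_left))
  rw [Nat.card_congr e1.toEquiv] at h3
  rw [h3, card_coprime_degree hKH hcop, card_irrInv_eq (H01.le_normalizer_of_normal H K) hcop,
    irrInv_of_le_centralizer, ← card_irr_congr e2, Nat.card_congr (MulEquiv.monoidHomCongrLeft e1).toEquiv]
  · rfl
  · intro h hh k hk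
    exact Subtype.ext ((h1.le ⟨hk, k.2⟩).2 h hh).symm

end Cfsg.Agent.S4452
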