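import Mathlib
import Cfsg.Statements.S4453
import Cfsg.Agent.H07.Glb6

set_option autoImplicit false
open Cfsg
open H05 H06 Cfsg H07

namespace Cfsg.Agent.S4453

/-- Inside a finite group Γ let S normalise the solvable subgroup G of odd order with the orders of G and S coprime, let C = G ⊓ C(S), and let L ≤ K be S-invariant normal subgroups of G with K/L abelian, G = KC and H = LC (so C ≤ H ≤ G). Then for each S-invariant irreducible character χ of G there is exactly one S-invariant irreducible character ψ of H whose multiplicity in the restriction of χ to H is odd, and χ ↦ ψ is a bijection from the S-invariant irreducible characters of G onto those of H (distinct χ give distinct ψ, and every S-invariant ψ arises). -/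
theorem result {Γ : Type*} [Group Γ] [Fintype Γ] (G S : Subgroup Γ) [Fintype G] (hnorm : ∀ s ∈ S, ∀ g ∈ G, s * g * s⁻¹ ∈ G) (hcop : (Nat.card G).Coprime (Nat.card S)) (hGsolv : Group.IsSolvable G) (hodd : Odd (Nat.card G)) (C : Subgroup Γ) [Fintype C] (hC : C = G ⊓ Subgroup.centralizer (S : Set Γ)) (hCG : C ≤ G) (K L H : Subgroup Γ) [Fintype H] (hLK : L ≤ K) (hKG : K ≤ G) (hKn : ∀ g ∈ G, ∀ k ∈ K, g * k * g⁻¹ ∈ K) (hLn : ∀ g ∈ G, ∀ l ∈ L, g * l * g⁻¹ ∈ L) (hKS : ∀ s ∈ S, ∀ k ∈ K, s * k * s⁻¹ ∈ K) (hLS : ∀ s ∈ S, ∀ l ∈ L, s * l * s⁻¹ ∈ L) (hab : ∀ a ∈ K, ∀ b ∈ K, a * b * a⁻¹ * b⁻¹ ∈ L) (hGKC : K ⊔ C = G) (hH : H = L ⊔ C) (hHG : H ≤ G) : (∀ χ : Cfsg.IrrCharacter G, (∀ s ∈ S, ∀ g g' : G, (g' : Γ) = s * g * s⁻¹ → (χ : G → ℂ) g' = (χ : G → ℂ) g) → ∃! ψ : Cfsg.IrrCharacter H, (∀ s ∈ S, ∀ g g' : H, (g' : Γ) = s * g * s⁻¹ →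 (ψ : H → ℂ) g' = (ψ : H → ℂ) g) ∧ ∃ m : ℕ, Cfsg.classInner (fun h : H => (χ : G → ℂ) ⟨h, hHG h.2⟩) (ψ : H → ℂ) = (m : ℂ) ∧ Odd m) ∧ (∀ χ χ' : Cfsg.IrrCharacter G, (∀ s ∈ S, ∀ g g' : G, (g' : Γ) = s * g * s⁻¹ → (χ : G → ℂ) g' = (χ : G → ℂ) g) → (∀ s ∈ S, ∀ g g' : G, (g' : Γ) = s * g * s⁻¹ → (χ' : G → ℂ) g' = (χ' : G → ℂ) g) → ∀ ψ : Cfsg.IrrCharacter H, (∀ s ∈ S, ∀ g g' : H, (g' : Γ) = s * g * s⁻¹ → (ψ : H → ℂ) g' = (ψ : H → ℂ) g) → ∀ m m' : ℕ, Cfsg.classInner (fun h : H => (χ : G → ℂ) ⟨h, hHG h.2⟩) (ψ : H → ℂ) = (m : ℂ) → Odd m → Cfsg.classInner (fun h : H => (χ' : G → ℂ) ⟨h, hHG h.2⟩) (ψ : H → ℂ) = (m' : ℂ) → Odd m' → χ = χ') ∧ (∀ ψ : Cfsg.IrrCharacter H, (∀ s ∈ S, ∀ g g' : H, (g' : Γ) = s * g * s⁻¹ → (ψ : H → ℂ) g' = (ψ : H → ℂ) g) → ∃ χ : Cfsg.IrrCharacter G, (∀ s ∈ S, ∀ g g' : G, (g' : Γ) = s * g * s⁻¹ → (χ : G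 → ℂ) g' = (χ : G → ℂ) g) ∧ ∃ m : ℕ, Cfsg.classInner (fun h : H => (χ : G → ℂ) ⟨h, hHG h.2⟩) (ψ : H → ℂ) = (m : ℂ) ∧ Odd m) := by
  have hSG := H01.le_normalizer_of_conj_mem hnorm
  have hSL := H01.le_normalizer_of_conj_mem hLS
  have hSK := H01.le_normalizer_of_conj_mem hKS
  have hGL := H01.le_normalizer_of_conj_mem hLn
  have hm : ∀ {X : Subgroup Γ}, C ≤ Subgroup.normalizer (X : Set Γ) → S ≤ Subgroup.normalizer (X : Set Γ) →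
      ∀ c ∈ X ⊔ C, ∀ s ∈ S, s * c * s⁻¹ * c⁻¹ ∈ X := fun {X} h1 h2 c hc s hs => by
    rw [← SetLike.mem_coe, Subgroup.coe_mul_of_right_le_normalizer_left _ _ h1] at hc
    obtain ⟨l, hl, c, hc, rfl⟩ := hc
    convert mul_mem (H01.conj_mem_of_le_normalizer h2 hs hl) (inv_mem hl) using 1
    simp only [mul_inv_rev, ← mul_assoc]
    rw [mul_assoc _ c, ← (hC.le hc).2 _ (inv_mem hs)]; group
  have hH' : ∀ c, c ∈ H ↔ c ∈ G ∧ ∀ s ∈ S, s * c * s⁻¹ * c⁻¹ ∈ L := fun c => ⟨fun h => ⟨hHG h,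
    hm (hCG.trans hGL) hSL c (hH ▸ h)⟩, fun h => by
      obtain ⟨n, hn, h1⟩ := H01.coset_fixed' hSL (H01.coprime_of_le_right hcop.symm (hLK.trans hKG))
        (.inr (H02.isSolvable_of_le (hLK.trans hKG))) h.2
      simpa [hH] using Subgroup.mul_mem_sup (inv_mem hn) (hC.ge ⟨mul_mem (hKG (hLK hn)) h.1, h1⟩)⟩
  have hSH := le_normalizer_of_comm hSG hSL hH'
  have h := corr_odd hLK hKG (Subgroup.commutator_le.2 hab) hSL hSK hSG hGL (H01.le_normalizer_of_conj_mem hKn) hcop.symm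
    hodd (by
      rw [Subgroup.commutator_comm]
      exact Subgroup.commutator_le.2 fun s hs g hg =>
        hm (hCG.trans (H01.le_normalizer_of_conj_mem hKn)) hSK g (hGKC ▸ hg) s hs) hH' hHG
  have hm : ∀ {χ : G → ℂ} {β : H → ℂ} {m : ℕ}, classInner (fun c : H => χ ⟨c, hHG c.2⟩) β = (m : ℂ) → Odd m →
      ¬ 2 ∣ mult (Subgroup.inclusion hHG) χ β := fun h h' => by
    rw [mult_of_eq (ι := Subgroup.inclusion hHG) h]; exact h'.not_two_dvd_nat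
  have hm' : ∀ (χ : IrrCharacter G) (β : IrrCharacter H), ¬ 2 ∣ mult (Subgroup.inclusion hHG) χ.1 β.1 →
      ∃ m : ℕ, classInner (fun c : H => χ.1 ⟨c, hHG c.2⟩) β.1 = m ∧ Odd m := fun χ β h =>
    ⟨_, (mult_eq (Subgroup.inclusion hHG) χ.2.isCharacter β.2.isCharacter).symm, Nat.not_even_iff_odd.1 (mt even_iff_two_dvd.1 h)⟩
  refine ⟨fun χ hχ => ?_, fun χ χ' hχ hχ' β hβ m m' h1 h2 h3 h4 => Subtype.ext (h.inj _ ⟨χ.2, (le_stab_iff hSG).2 hχ⟩ _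
    ⟨χ'.2, (le_stab_iff hSG).2 hχ'⟩ _ ⟨β.2, (le_stab_iff hSH).2 hβ⟩ (hm h1 h2) (hm h3 h4)), fun β hβ => ?_⟩
  · have hχ' : χ.1 ∈ IrrInv S G := ⟨χ.2, (le_stab_iff hSG).2 hχ⟩
    obtain ⟨β, hβ, h1⟩ := h.ex' hχ'
    refine ⟨⟨β, hβ.1⟩, ⟨(le_stab_iff hSH).1 hβ.2, hm' χ ⟨β, hβ.1⟩ h1⟩, ?_⟩
    rintro γ ⟨h4, m, h2, h3⟩
    exact Subtype.ext (h.uniq hχ' ⟨γ.2, (le_stab_iff hSH).2 h4⟩ hβ (hm h2 h3) h1)
  · obtain ⟨χ, hχ, h1⟩ := h.surj β ⟨β.2, (le_stab_iff hSH).2 hβ⟩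
    exact ⟨⟨χ, hχ.1⟩, (le_stab_iff hSG).1 hχ.2, hm' ⟨χ, hχ.1⟩ β h1⟩

end Cfsg.Agent.S4453
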