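import Mathlib
import Cfsg.Statements.S4454
import Cfsg.Agent.H07.Glb4
import Cfsg.Agent.H24.CharOn

set_option autoImplicit false
open Cfsg
open H05 Cfsg H07
open scoped ComplexConjugate

namespace Cfsg.Agent.S4454

/-- Let N ≤ G be normal subgroups of the finite group Γ with Γ/G cyclic and Γ/N a Frobenius group with kernel G/N: G ≠ Γ, N ≠ G, and no element of Γ outside G fixes a non-identity coset of N in G under conjugation. Let ϑ be an irreducible character of N invariant under conjugation by Γ and suppose ϑ is fully ramified in G: the character of G induced from ϑ equals e·χ for an irreducible character χ of G and a natural number e. Then the index of G in Γ divides e − 1 or e + 1. -/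
theorem result {Γ : Type*} [Group Γ] [Fintype Γ] (G N : Subgroup Γ) [hG : G.Normal] [hN : N.Normal] [Fintype G] [Fintype N] (hNG : N ≤ G) (hGlt : G ≠ ⊤) (hNlt : N ≠ G) (hcyc : IsCyclic (Γ ⧸ G)) (hfrob : ∀ x : Γ, x ∉ G → ∀ g : Γ, g ∈ G → x * g * x⁻¹ * g⁻¹ ∈ N → g ∈ N) (θ : Cfsg.IrrCharacter N) (hinv : ∀ (x : Γ) (n : N), (θ : N → ℂ) ⟨x * n * x⁻¹, hN.conj_mem n n.2 x⟩ = (θ : N → ℂ) n) (χ : Cfsg.IrrCharacter G) (e : ℕ) (hram : Cfsg.indFun (N.subgroupOf G) (fun n : N.subgroupOf G => (θ : N → ℂ) ⟨(n : G), n.2⟩) = fun g => (e : ℂ) * (χ : G → ℂ) g) : (G.index : ℤ) ∣ (e : ℤ) - 1 ∨ (G.index : ℤ) ∣ (e : ℤ) + 1 := by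
  classical
  obtain ⟨x', hx'⟩ := hcyc.exists_zpow_surjective
  obtain ⟨x, rfl⟩ := QuotientGroup.mk_surjective x'
  have htop : G ⊔ Subgroup.zpowers x = ⊤ := eq_top_iff.2 fun y _ => by
    obtain ⟨k, hk⟩ := hx' (y : Γ ⧸ G)
    simp only [← QuotientGroup.mk_zpow, QuotientGroup.eq] at hk
    rw [sup_comm, ← mul_inv_cancel_left (x ^ k) y]
    exact Subgroup.mul_mem_sup ⟨k, rfl⟩ hk
  have hxG : x ∉ G := fun h => hGlt (by rwa [sup_eq_left.2 (Subgroup.zpowers_le.2 h)] at htop)
  obtain ⟨S, hS⟩ : ∃ S, S = N ⊔ Subgroup.zpowers x := ⟨_, rfl⟩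
  have hNS : N ≤ S := hS ▸ le_sup_left
  have hxS : x ∈ S := hS ▸ Subgroup.mem_sup_right (Subgroup.mem_zpowers x)
  have hmem : ∀ y ∈ S, ∃ n ∈ N, ∃ k : ℤ, y = n * x ^ k := fun y hy => by
    have hy' : y ∈ ((N ⊔ Subgroup.zpowers x : Subgroup Γ) : Set Γ) := hS ▸ hy
    rw [Subgroup.normal_mul] at hy'
    obtain ⟨n, hn, _, ⟨k, rfl⟩, rfl⟩ := hy'
    exact ⟨n, hn, k, rfl⟩
  have hSG : ∀ y ∈ S, y ∈ G → y ∈ N := fun y hy hyG => by
    obtain ⟨n, hn, k, rfl⟩ := hmem y hy
    refine N.mul_mem hn (hfrob x hxG _ ((G.mul_mem_cancel_left (hNG hn)).1 hyG) ?_)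
    convert N.one_mem using 1; group
  have hcS : IsCyclic (S ⧸ N.subgroupOf S) := ⟨QuotientGroup.mk ⟨x, hxS⟩, fun y => by
    obtain ⟨⟨y, hy⟩, rfl⟩ := QuotientGroup.mk_surjective y
    obtain ⟨n, hn, k, rfl⟩ := hmem y hy
    refine ⟨k, ?_⟩
    simp only [← QuotientGroup.mk_zpow, QuotientGroup.eq, Subgroup.mem_subgroupOf]
    simpa [mul_assoc] using hN.conj_mem' n hn (x ^ k)⟩
  have hcard : Nat.card (S ⧸ N.subgroupOf S) = G.index := by
    have h1 : N.subgroupOf S = G.subgroupOf S :=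
      le_antisymm (fun y hy => hNG hy) fun y hy => hSG y y.2 hy
    have h2 : G ⊔ S = ⊤ := by rw [hS, ← sup_assoc, sup_eq_left.2 hNG, htop]
    rw [← Subgroup.index_eq_card, h1, ← G.relIndex_top_right, ← h2, Subgroup.relIndex_sup_left]
    rfl
  -- the character `χ`
  have hθG := (isIrr_subgroupOf_iff N G hNG θ.1).2 θ.2
  have hθS := (isIrr_subgroupOf_iff N S hNS θ.1).2 θ.2
  have hcj : ∀ y, H06.conjFun N y θ.1 = θ.1 := fun y => funext (hinv y)
  have h1 : classInner (fun n : N.subgroupOf G => χ.1 n)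
      (fun n => θ.1 (Subgroup.subgroupOfEquivOfLe hNG n)) = e := by
    rw [← H06.frobenius_reciprocity_right _ _ _ χ.2.isClassFunction]
    exact (congrArg _ hram).trans (by
      rw [show (fun g => (e : ℂ) * χ.1 g) = (e : ℂ) • χ.1 from rfl, classInner_natCast_smul_right,
        χ.2.classInner_self, mul_one])
  have he : (e : ℂ) ≠ 0 := fun h => by
    have := congrFun hram 1
    rw [H06.indFun_one, h, zero_mul] at this
    exact mul_ne_zero (Nat.cast_ne_zero.2 Subgroup.index_ne_zero_of_finite) θ.2.apply_one_ne_zero this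
  have h2 := H06.clifford_invariant _ χ.2 hθG (h1 ▸ he) fun g => conjFun_subgroupOf N G hNG g (hcj g)
  rw [h1] at h2
  have h3 : ∀ n : N, χ.1 ⟨n, hNG n.2⟩ = e * θ.1 n := fun n => congrFun h2 ⟨⟨n, hNG n.2⟩, n.2⟩
  obtain ⟨χh, h4, h5⟩ := exists_ext_of_cyclic G hcyc χ.2 fun y => funext fun g => by
    apply mul_left_cancel₀ he
    rw [H06.conjFun_apply, ← congrFun hram, ← congrFun hram]
    exact (H06.indFun_comp_mulEquiv (N.subgroupOf G)
      (MulAut.conjNormal y) (N.subgroupOf G) (fun a => ⟨fun h => hN.conj_mem _ h y,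
        fun h => by simpa [mul_assoc, Subgroup.mem_subgroupOf] using hN.conj_mem' _ h y⟩) _ g).symm.trans
      (congrFun (congrArg _ (funext fun n : N.subgroupOf G => hinv y ⟨(n : G), n.2⟩)) g)
  obtain ⟨θh, h6, h7⟩ := exists_ext_of_cyclic _ hcS hθS fun g => conjFun_subgroupOf N S hNS g (hcj g)
  have h7' : IsIrrCharacter _ fun n : N.subgroupOf S => θh n := by simpa only [h7] using hθS
  have h8 : ∀ ψ : IrrCharacter S, ∃ β, IsCharacter S β ∧ (∀ n ∈ N.subgroupOf S, β n = β 1) ∧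
      (mult S.subtype χh ψ.1 : ℂ) • ψ.1 = β * θh := fun ψ => by
    by_cases h : mult S.subtype χh ψ.1 = 0
    · exact ⟨0, isCharacter_zero, fun _ _ => rfl, by simp [h]⟩
    obtain ⟨φ, hφ, h9⟩ := exists_mult_under (N.subgroupOf S).subtype ψ.2
    have h10 := (mult_ne_zero_iff _ h4.isCharacter hφ.isCharacter).1
      (mult_ne_zero_trans h4.isCharacter ψ.2 hφ.isCharacter h h9)
    rw [show (fun c : N.subgroupOf S => χh ((S.subtype.comp (N.subgroupOf S).subtype) c)) =
      (e : ℂ) • fun n : N.subgroupOf S => θh n from funext fun c =>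
        (h5 ⟨c, hNG c.2⟩).trans ((h3 ⟨c, c.2⟩).trans (congrArg ((e : ℂ) * ·) (h7 c).symm)),
      classInner_smul_left] at h10
    obtain rfl := h7'.eq_of_classInner_ne_zero hφ (right_ne_zero_of_mul h10)
    obtain ⟨β, h11, h12, h13⟩ := gallagher_one_surj _ h6.isCharacter h7' ψ.2
      ((mult_sub_ne_zero _ ψ.2.isCharacter hφ.isCharacter).1 h9)
    exact ⟨_, h11.isCharacter.natCast_smul (mult S.subtype χh ψ.1), fun n hn => by simp [h12 n hn],
      by rw [smul_mul_assoc, ← h13]⟩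
  choose β hβ1 hβ2 hβ3 using h8
  obtain ⟨α, hα, h9⟩ := (H05.Cfsg.IsCharacter.sum Finset.univ fun ψ _ => hβ1 ψ).exists_quotient
    (N.subgroupOf S) fun n hn => by simp [fun ψ => hβ2 ψ n hn]
  have h10 : ∀ y : S, χh y = α y * θh y := fun y => by
    have := congrFun (comp_eq_sum_mult S.subtype h4.isCharacter) y
    simp only [hβ3, ← Finset.sum_mul, h9] at this
    exact this
  have : Nontrivial (S ⧸ N.subgroupOf S) := by
    rw [← Finite.one_lt_card_iff_nontrivial, hcard]; exact Subgroup.one_lt_index_of_ne_top hGlt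
  obtain ⟨a, ε, μ, hε, h11⟩ := eq_reg_add_of_norm_one hα fun y hy => by
    obtain ⟨y, rfl⟩ := QuotientGroup.mk_surjective y
    have hyG : (y : Γ) ∉ G := fun h => hy ((QuotientGroup.eq_one_iff _).2 (hSG y y.2 h))
    let F : Γ → ℂ := fun z => χh z * conj (χh z)
    have hF : IsClassFunction Γ F := h4.isClassFunction.mul h4.isClassFunction.conj
    have k1 : ∀ g : G, ∑ n : N, F (n * g * y) = ∑ n : N, F (n * y) := fun g => by
      obtain ⟨_, ⟨c, hc, rfl⟩, k2⟩ := H24.exists_eq_commutator_of_fpf (K := G.map (QuotientGroup.mk' N))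
        (x := QuotientGroup.mk' N y) (Subgroup.le_normalizer_of_normal (Subgroup.mem_top _)) (by
          rw [eq_bot_iff]
          rintro _ ⟨⟨c, hc, rfl⟩, k3⟩
          refine (QuotientGroup.eq_one_iff _).2 (hfrob y hyG c hc ((QuotientGroup.eq_one_iff _).1 ?_))
          have k4 := Subgroup.mem_centralizer_singleton_iff.1 k3
          simp only [QuotientGroup.mk'_apply] at k4
          simp [← k4]) ⟨g, g.2, rfl⟩
      simp only [← map_inv, ← map_mul, QuotientGroup.mk'_apply] at k2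
      have k3 := QuotientGroup.eq_iff_div_mem.1 k2
      refine Fintype.sum_equiv ((Equiv.mulRight (⟨_, k3⟩ : N)).trans
        (MulAut.conjNormal c⁻¹ : MulAut N).toEquiv) _ _ fun n => ?_
      rw [← hF _ c⁻¹]; congr 1; simp [div_eq_mul_inv, mul_assoc]
    have k2 : ∑ g : G, ∑ n : N, F (n * g * y) = Nat.card N * ∑ g : G, F (g * y) := by
      rw [Finset.sum_comm, Finset.sum_congr rfl (g := fun _ => ∑ g : G, F (g * y))]
      · simp
      · exact fun n _ => Fintype.sum_equiv (Equiv.mulLeft (⟨n, hNG n.2⟩ : G)) _ _ fun g => rfl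
    have k3 := coset_ip_self G h4.isCharacter (by simpa only [h5] using χ.2) y
    have k4 := coset_ip_self _ h6.isCharacter h7' y
    have k5 : ∑ n : N, F (n * y) = α y * conj (α y) *
        ∑ n : N.subgroupOf S, θh (n * y) * conj (θh (n * y)) := by
      rw [Finset.mul_sum]
      refine (Fintype.sum_equiv (Subgroup.subgroupOfEquivOfLe hNS).toEquiv _ _ fun n => ?_).symm
      have := h10 (n * y)
      rw [QuotientGroup.mk_mul, (QuotientGroup.eq_one_iff _).2 n.2, one_mul] at this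
      simp only [F]
      rw [show ((Subgroup.subgroupOfEquivOfLe hNS).toEquiv n : Γ) * y = ((n * y : S) : Γ) from rfl, this]
      simp; ring
    rw [inv_mul_eq_one₀ (H06.natCard_ne_zero _)] at k3 k4
    simp only [k1, Finset.sum_const, Finset.card_univ, nsmul_eq_mul, ← Nat.card_eq_fintype_card] at k2
    rw [k5, ← k4, show ∑ g : G, F (g * y) = Nat.card G from k3.symm,
      Nat.card_congr (Subgroup.subgroupOfEquivOfLe hNS).toEquiv, Complex.mul_conj,
      Complex.normSq_eq_norm_sq] at k2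
    have k6 : ((‖α y‖ ^ 2 : ℝ) : ℂ) = 1 := by
      have := H06.natCard_ne_zero G
      have := H06.natCard_ne_zero N
      field_simp at k2
      exact k2
    exact (pow_eq_one_iff_of_nonneg (norm_nonneg _) two_ne_zero).1 (by exact_mod_cast k6)
  have h12 := h10 1
  have h13 := h3 1
  rw [← h5] at h13
  rw [QuotientGroup.mk_one, h11, regChar_one, hcard, show θh 1 = θ.1 1 from h7 1] at h12
  have h14 : (e : ℂ) = a * G.index + ε := by
    simpa using mul_right_cancel₀ θ.2.apply_one_ne_zero (h13.symm.trans h12)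
  have h15 : (e : ℤ) = a * G.index + ε := by exact_mod_cast h14
  rcases hε with rfl | rfl
  · exact .inl ⟨a, by rw [h15]; ring⟩
  · exact .inr ⟨a, by rw [h15]; ring⟩

end Cfsg.Agent.S4454
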