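import Mathlib
import Cfsg.Statements.S4459
import Cfsg.Agent.H07.Deg4

set_option autoImplicit false
open Cfsg
open H05 H06 Cfsg H07

namespace Cfsg.Agent.S4459

/-- Let G be a non-abelian finite group and p a prime. Then the irreducible character degrees of G are exactly 1 and p if and only if either G has an abelian normal subgroup of index p or the centre of G has index p³. -/
theorem result {G : Type*} [Group G] [Finite G] (hG : ∃ a b : G, a * b ≠ b * a) (p : ℕ) (hp : p.Prime) : ((∀ χ : Cfsg.IrrCharacter G, Cfsg.charDegree (χ : G → ℂ) = 1 ∨ Cfsg.charDegree (χ : G → ℂ) = p) ∧ ∃ χ : Cfsg.IrrCharacter G, Cfsg.charDegree (χ : G → ℂ) = p) ↔ ((∃ A : Subgroup G, A.Normal ∧ (∀ a ∈ A, ∀ b ∈ A, a * b = b * a) ∧ A.index = p) ∨ (Subgroup.center G).index = p ^ 3) := by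
  have := Fact.mk hp
  have h0 : ¬ IsMulCommutative G := fun h => hG.elim fun a ⟨b, h1⟩ => h1 (mul_comm' a b)
  constructor
  · rintro ⟨h1, h2⟩
    refine or_iff_not_imp_left.2 fun h3 => ?_
    replace h3 : ∀ A : Subgroup G, A.Normal → IsMulCommutative A → A.index ≠ p := fun A h4 h5 h6 =>
      h3 ⟨A, h4, fun a ha b hb => setLike_mul_comm ha hb, h6⟩
    have := (two_deg h1 hp.ne_one).resolve_left fun ⟨A, h4, h5, h6⟩ => h3 A h4 h5 h6
    obtain ⟨q, e, hq, h4, P, h5, h6, h7, h8⟩ := two_deg_nilp h1 h2 hp.ne_one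
    obtain rfl : p = q := (Nat.prime_dvd_prime_iff_eq hp hq).1 (hp.dvd_of_dvd_pow h4.dvd)
    obtain ⟨k, hk⟩ := H03.exists_index_pResidual (G := G) (p := p)
    obtain ⟨j, -, hj⟩ := (Nat.dvd_prime_pow hp).1 (hk ▸ Subgroup.index_dvd_of_le
      (show pResidual p G ≤ Subgroup.center G from fun x hx => Subgroup.mem_center_iff.2 fun g => by
        obtain ⟨⟨a, b⟩, rfl⟩ := h8.2 g
        simp only [mul_assoc, ← (H02.commute_of_normal_of_inf h8.disjoint.eq_bot hx b.2).eq]
        rw [← mul_assoc, ← mul_assoc, setLike_mul_comm hx a.2]))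
    exact center_index_cube h1 h0 hj h3
  · intro h
    have h1 : ∀ χ : IrrCharacter G, charDegree χ.1 = 1 ∨ charDegree χ.1 = p := fun χ => by
      rcases h with ⟨A, h1, h2, h3⟩ | h
      · have : IsMulCommutative A := ⟨⟨fun a b => Subtype.ext (h2 _ a.2 _ b.2)⟩⟩
        exact (Nat.dvd_prime hp).1 (h3 ▸ ito_charDegree_dvd_index χ.2 A)
      obtain ⟨i, -, hi⟩ := (Nat.dvd_prime_pow hp).1 (h ▸ charDegree_dvd_index_center χ.2)
      have h1 := charDegree_sq_le_index_center χ.2
      rw [hi, h, ← pow_mul, Nat.pow_le_pow_iff_right hp.one_lt] at h1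
      obtain rfl | rfl : i = 0 ∨ i = 1 := by omega
      · exact .inl hi
      · exact .inr (hi.trans (pow_one p))
    obtain ⟨χ, h2⟩ := exists_deg_ne_one h0
    exact ⟨h1, χ, (h1 χ).resolve_left h2⟩

end Cfsg.Agent.S4459
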