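import Mathlib
import Cfsg.Statements.S4462
import Cfsg.Agent.H07.Deg4

set_option autoImplicit false
open Cfsg
open H05 H06 Cfsg H07

namespace Cfsg.Agent.S4462

universe u in
theorem aux (n : ℕ) : ∀ (G : Type u) [Group G] [Finite G] [Group.IsSolvable G],
    (Subsingleton G ∨ Nat.card {d : ℕ // ∃ χ : IrrCharacter G, charDegree χ.1 = d} ≤ n) →
    ∃ N : ℕ → Subgroup G, N 0 = ⊥ ∧ N n = ⊤ ∧ Monotone N ∧ (∀ i, (N i).Normal) ∧
      ∀ i, ∀ _ : (N i).subgroupOf (N (i + 1)) |>.Normal, Group.IsNilpotent (N (i + 1) ⧸ (N i).subgroupOf (N (i + 1))) := by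
  have hf : ∀ (G : Type u) [Group G] [Finite G], Finite {d : ℕ // ∃ χ : IrrCharacter G, charDegree χ.1 = d} :=
    fun G _ _ => (Set.finite_range fun χ : IrrCharacter G => charDegree χ.1).to_subtype
  induction n with
  | zero =>
    intro G _ _ _ h
    have : Nonempty {d : ℕ // ∃ χ : IrrCharacter G, charDegree χ.1 = d} := ⟨⟨_, ⟨1, isIrrCharacter_one⟩, rfl⟩⟩
    have := hf G
    have := h.resolve_right Nat.card_pos.not_ge
    exact ⟨fun _ => ⊥, rfl, Subsingleton.elim _ _, monotone_const, fun _ => inferInstance, fun _ _ => inferInstance⟩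
  | succ n ih =>
    intro G _ _ _ h
    obtain ⟨N, h1, h2, h3, h4, h5⟩ := ih (G ⧸ fittingSubgroup G) (or_iff_not_imp_left.2 fun h1 => by
      have h2 := mt QuotientGroup.subsingleton_iff.2 h1
      obtain ⟨χ, hχ⟩ := Finite.exists_max fun χ : IrrCharacter G => charDegree χ.1
      have := hf G
      refine Nat.le_of_lt_succ (lt_of_lt_of_le (Set.ncard_lt_ncard
        (s := {d | ∃ χ : IrrCharacter (G ⧸ fittingSubgroup G), charDegree χ.1 = d})
        (t := {d | ∃ χ : IrrCharacter G, charDegree χ.1 = d})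
        ⟨fun d h => h.elim fun ψ h => ⟨inflIrr _ ψ, h⟩, fun h3 => ?_⟩ this)
        (h.resolve_left fun h3 => h2 (Subsingleton.elim _ _)))
      obtain ⟨ψ, h3⟩ := h3 ⟨χ, rfl⟩
      obtain ⟨χ', h4⟩ := deg_quot_fitting_lt h2 ψ
      exact (h4.trans_le (hχ χ')).ne h3)
    refine ⟨fun i => i.casesOn ⊥ fun i => (N i).comap (QuotientGroup.mk' _), rfl, by simp [h2],
      monotone_nat_of_le_succ fun i => ?_, fun i => ?_, fun i _ => ?_⟩
    · rcases i with _ | i
      exacts [bot_le, Subgroup.comap_mono (h3 i.le_succ)]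
    · rcases i with _ | i
      exacts [inferInstanceAs (⊥ : Subgroup G).Normal, (h4 i).comap _]
    rcases i with _ | i
    · have : Group.IsNilpotent ((N 0).comap (QuotientGroup.mk' (fittingSubgroup G))) := by
        rw [h1, MonoidHom.comap_bot, QuotientGroup.ker_mk']; infer_instance
      exact Group.nilpotent_of_surjective (G := (N 0).comap (QuotientGroup.mk' (fittingSubgroup G)))
        (QuotientGroup.mk' _) (QuotientGroup.mk'_surjective _)
    · have := h4 i
      have := h5 i inferInstance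
      let f := (QuotientGroup.mk' ((N i).subgroupOf (N (i + 1)))).comp
        ((QuotientGroup.mk' (fittingSubgroup G)).subgroupComap (N (i + 1)))
      exact H02.isNilpotent_of_injective (QuotientGroup.lift _ f fun x hx => (QuotientGroup.eq_one_iff _).2 hx)
        ((QuotientGroup.injective_lift_iff _ _ _).2 (Subgroup.ext fun x => (QuotientGroup.eq_one_iff
          (N := (N i).subgroupOf (N (i + 1))) ((QuotientGroup.mk' (fittingSubgroup G)).subgroupComap (N (i + 1)) x)).symm))


/-- Let G be a finite solvable group with exactly n distinct irreducible character degrees. Then G has normal subgroups 1 = N₀ ≤ N₁ ≤ ⋯ ≤ Nₙ = G with every quotient N_{i+1}/N_i nilpotent (the nilpotent length of G is at most n). -/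
theorem result {G : Type*} [Group G] [Finite G] (hsolv : Group.IsSolvable G) (n : ℕ) (hcd : Nat.card {d : ℕ // ∃ χ : Cfsg.IrrCharacter G, Cfsg.charDegree (χ : G → ℂ) = d} = n) : ∃ N : Fin (n + 1) → Subgroup G, N 0 = ⊥ ∧ N (Fin.last n) = ⊤ ∧ Monotone N ∧ (∀ i, (N i).Normal) ∧ ∀ i : Fin n, ∀ h : (N i.castSucc).subgroupOf (N i.succ) |>.Normal, Group.IsNilpotent (↥(N i.succ) ⧸ (N i.castSucc).subgroupOf (N i.succ)) := by
  obtain ⟨N, h1, h2, h3, h4, h5⟩ := aux n G (.inr hcd.le)
  exact ⟨fun i => N i, h1, h2, fun i j h => h3 h, fun i => h4 i, fun i => h5 i⟩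

end Cfsg.Agent.S4462
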