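import Mathlib
import Cfsg.Statements.S4467
import Cfsg.Agent.H07.Deg3
import Cfsg.Agent.H16.Primitive
import Cfsg.Agent.BG.Api4
import Cfsg.Agent.H02.MinNormal

set_option autoImplicit false
open Cfsg

namespace Cfsg.Agent.S4467

section
open H05 H06 H07 BG Subgroup
universe u
variable {G : Type u} [Group G] [Finite G] {p : ℕ}

def PC (p : ℕ) (G : Type*) [Group G] : Prop :=
  ∀ x y : G, (∃ k, x ^ p ^ k = 1) → (∃ k, y ^ p ^ k = 1) → ∃ k, (x * y) ^ p ^ k = 1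

def Res (p n : ℕ) : Prop :=
  ∃ q : ℕ, IsPrimePow q ∧ q ∣ n ∧ ((q : ℤ) ≡ -1 [ZMOD p] ∨ (q : ℤ) ≡ 0 [ZMOD p] ∨ (q : ℤ) ≡ 1 [ZMOD p])

theorem pg_zp {x : G} (h : ∃ k, x ^ p ^ k = 1) : IsPGroup p (zpowers x) := by
  rintro ⟨_, j, rfl⟩
  obtain ⟨k, hk⟩ := h
  exact ⟨k, Subtype.ext (by
    show (x ^ j) ^ p ^ k = 1
    rw [← zpow_natCast, ← zpow_mul, mul_comm, zpow_mul, zpow_natCast, hk, one_zpow])⟩

theorem idx {q : ℕ} (hp : p.Prime) (hq : q.Prime) (hpq : p ≠ q) {R E : Subgroup G} (hR : IsPGroup p R)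
    (hE : IsPGroup q E) (hn : R ≤ N_(E)) (hc : ¬ R ≤ C_(E)) :
    ∃ j, j ≠ 0 ∧ (E ⊓ C_(R)).relIndex E = q ^ j ∧ q ^ j ≡ 1 [MOD p] := by
  haveI := Fact.mk hp
  obtain ⟨m, hm⟩ := pg_card hq hE
  obtain ⟨j, -, hj⟩ := (Nat.dvd_prime_pow hq).1 (hm ▸ BG.relIndex_dvd_card (E ⊓ C_(R)) E)
  refine ⟨j, ?_, hj, ?_⟩
  · rintro rfl
    exact hc (cent_symm ((relIndex_eq_one.1 hj).trans inf_le_right))
  have h1 := H16.card_modEq_card_inf_centralizer hR hn
  rw [← BG.card_mul_relIndex (inf_le_left : E ⊓ C_(R) ≤ E), hj] at h1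
  exact Nat.ModEq.cancel_left_of_coprime ((Nat.Prime.coprime_iff_not_dvd hp).2
    (pg_not_dvd hp hq (pg_le hE inf_le_left) hpq)) (by rwa [mul_one])

theorem imprim [Group.IsSolvable G] (hp : p.Prime) (hT : ∀ K : Subgroup G, (∀ x, (∃ k, x ^ p ^ k = 1) → x ∈ K) → K = ⊤)
    {H : Subgroup G} (hH : IsCoatom H) (hc : H.normalCore = ⊥) (hi : ¬ p ∣ H.index) : Res p H.index := by
  haveI : Nontrivial G := by
    by_contra h
    rw [not_nontrivial_iff_subsingleton] at h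
    exact hH.1 (Subsingleton.elim _ _)
  obtain ⟨V, _, h0, hm, ha, q, hq, hV⟩ := H02.exists_minimal_normal_elementary (G := G)
  have nt : ∀ A : Subgroup G, A ≤ N_(V) := fun A => le_normalizer_of_normal
  have h1 : V ⊔ H = ⊤ := hH.2 _ (right_lt_sup.2 fun h => h0 (eq_bot_mono hc (normal_le_normalCore.2 h)))
  have h2 : V ⊓ H = ⊥ := eq_bot_mono hc (@normal_le_normalCore _ _ _ _ (normalizer_eq_top_iff.1 (top_le_iff.1
    (h1 ▸ sup_le (le_norm_of_abelian ha inf_le_left) (norm_inf (nt H) (le_norm H))))) |>.2 inf_le_right)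
  have h3 : H.index = Nat.card V := by
    rw [← relIndex_top_right, ← h1, (sdprod_sup (nt H) h2).relIndex_right]
  have hVq := pg_of_pow hV
  have hpq : p ≠ q := by
    rintro rfl
    exact hi (h3 ▸ pg_dvd hp hVq h0)
  obtain ⟨x, hx, h4⟩ : ∃ x, (∃ k, x ^ p ^ k = 1) ∧ x ∉ C_(V) := by
    by_contra hh
    push Not at hh
    haveI : H.Normal := normalizer_eq_top_iff.1 (top_le_iff.1 (h1 ▸ sup_le
      (le_norm_of_cent (cent_symm (hT _ hh ▸ le_top))) (le_norm H)))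
    refine hH.1 (hT H fun x hx => zpowers_le.1 (relIndex_eq_one.1 (by_contra fun e => ?_)))
    obtain ⟨r, hr, h5⟩ := Nat.exists_prime_and_dvd e
    obtain rfl := pg_prime_eq hp (pg_zp hx) hr (h5.trans (BG.relIndex_dvd_card _ _))
    exact hi (h5.trans (relIndex_dvd_index_of_normal _ _))
  obtain ⟨j, h5, h6, h7⟩ := idx hp hq hpq (pg_zp hx) hVq (nt _) (mt zpowers_le.1 h4)
  exact ⟨q ^ j, hq.isPrimePow.pow h5, h3 ▸ h6 ▸ BG.relIndex_dvd_card _ _, Or.inr (Or.inr (by exact_mod_cast h7))⟩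

theorem center_sub (E : Subgroup G) : center E = (E ⊓ C_(E)).subgroupOf E := by
  ext x
  rw [mem_center_iff, mem_subgroupOf]
  exact ⟨fun h => ⟨x.2, fun y hy => congrArg Subtype.val (h ⟨y, hy⟩)⟩, fun h y => Subtype.ext (h.2 y y.2)⟩

theorem sq_idx {E : Subgroup G} (h : ⁅E, E⁆ ≤ C_(E)) {θ : E → ℂ} (hθ : IsIrrCharacter E θ) (hk : charKer θ = ⊥) :
    charDegree θ ^ 2 = (E ⊓ C_(E)).relIndex E := by
  rw [deg_sq_eq_index hθ, H06.charCenter_eq_center hk, center_sub]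
  · rfl
  refine le_trans ?_ center_le_charCenter
  rw [center_sub, subgroupOf, ← map_le_iff_le_comap, map_subtype_commutator]
  exact le_inf (der_le E) h

theorem prim [Group.IsSolvable G] (hp : p.Prime) (hT : ∀ K : Subgroup G, (∀ x, (∃ k, x ^ p ^ k = 1) → x ∈ K) → K = ⊤)
    (hn : ¬ Group.IsNilpotent G) {χ : G → ℂ} (hχ : IsPrimitiveChar χ) (hk : charKer χ = ⊥) (hd : ¬ p ∣ charDegree χ) :
    Res p (charDegree χ) := by
  have nt : ∀ K : Subgroup G, K.Normal → ∀ A : Subgroup G, A ≤ N_(K) := fun K _ A => le_normalizer_of_normal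
  have hZ : center G = C_((⊤ : Subgroup G)) := by rw [coe_top, centralizer_univ]
  obtain ⟨q, hq, h1⟩ : ∃ q : ℕ, q.Prime ∧ ¬ piCoreOf {q} (⊤ : Subgroup G) ≤ C_((⊤ : Subgroup G)) := by
    by_contra hh
    push Not at hh
    have h1 := cent_symm (nil_le_of_pcores (fit_nil (⊤ : Subgroup G)) fun q hq _ => (pcore_fit_le _ _).trans (hh q hq))
    haveI := nil_of_le_fit ((le_inf le_rfl h1).trans (fit_cent_le (X := (⊤ : Subgroup G)) inferInstance))
    exact hn (Group.nilpotent_of_mulEquiv topEquiv)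
  obtain ⟨E, ⟨hEn, hEq, hE⟩, hmin⟩ := (wellFounded_lt (α := Subgroup G)).has_min
    {E | E.Normal ∧ IsPGroup q E ∧ ¬ E ≤ C_((⊤ : Subgroup G))}
    ⟨_, normalizer_eq_top_iff.1 (top_le_iff.1 (le_norm_pcore _ _)), pcore_pg hq _, h1⟩
  have h2 : ⁅E, E⁆ ≤ C_((⊤ : Subgroup G)) := by_contra fun e => hmin _ ⟨inferInstance, pg_le hEq (der_le E), e⟩
    (nil_comm_lt (le_norm E) (by rw [sup_idem]; exact pg_nil hq hEq) fun e => hE (e ▸ bot_le))
  have h3 : E ⊓ C_(E) ≤ C_((⊤ : Subgroup G)) := by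
    haveI := abelian_center E
    exact hZ ▸ H06.charCenter_eq_center hk ▸ hχ.le_charCenter _
  obtain ⟨x, hx, h4⟩ : ∃ x, (∃ k, x ^ p ^ k = 1) ∧ x ∉ C_(E) := by
    by_contra hh
    push Not at hh
    exact hE (cent_symm (hT _ hh).ge)
  obtain ⟨θ, e, hθ, he, -, h5⟩ := hχ.res_eq_smul E
  have h6 : charKer θ = ⊥ := eq_bot_iff.2 fun y hy => Subtype.ext (mem_bot.1 (hk ▸ hχ.1.isCharacter.mem_charKer.2
    ((congrFun h5 y).trans ((congrArg ((e : ℂ) * ·) (hθ.isCharacter.mem_charKer.1 hy)).trans (congrFun h5 1).symm))))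
  have h7 : charDegree θ ∣ charDegree χ := Dvd.intro_left e (charDegree_eq_of_apply_one (by
    rw [Nat.cast_mul, hθ.charDegree_eq]; exact congrFun h5 1)).symm
  have h8 := sq_idx (h2.trans (cent_anti le_top)) hθ h6
  obtain ⟨m, hm⟩ := pg_card hq hEq
  obtain ⟨a, -, ha⟩ := (Nat.dvd_prime_pow hq).1 (hm ▸ hθ.charDegree_dvd_card)
  have hpq : p ≠ q := by
    rintro rfl
    refine hd ((ha ▸ dvd_pow_self p ?_).trans h7)
    rintro rfl
    rw [ha] at h8
    exact hE ((relIndex_eq_one.1 h8.symm).trans h3)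
  set R := zpowers x
  have hR : IsPGroup p R := pg_zp hx
  obtain ⟨j, j0, j1, j2⟩ := idx hp hq hpq hR hEq (nt E hEn R) (mt zpowers_le.1 h4)
  set C := E ⊓ C_(R) with hC
  have c1 : ⁅E, R⁆ ≤ C_(C) := by
    rw [comm_comm, ← comm_eq_bot]
    refine three_subgroup ?_ ?_
    · exact comm_eq_bot.2 ((comm_mono le_rfl inf_le_left).trans (h2.trans (cent_anti le_top)))
    · rw [comm_eq_bot.2 (inf_le_right : C ≤ _), commutator_bot_left]
  have c2 : C ⊓ C_(C) = E ⊓ C_(E) := by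
    refine le_antisymm (le_inf (inf_le_left.trans inf_le_left) ?_) (le_inf (le_inf inf_le_left
      (h3.trans (cent_anti le_top))) (inf_le_right.trans (cent_anti inf_le_left)))
    rw [← coprime_comm_sup_cent (nt E hEn R) (pg_coprime_ne hp hq hR hEq hpq) (Or.inr (pg_sol hq hEq))]
    exact le_cent_sup (inf_le_left.trans (cent_symm c1)) inf_le_right
  haveI := Fact.mk hq
  haveI : IsCyclic (center C) := by
    have c3 : IsCyclic ↥(C ⊓ C_(C)) := cyclic_of_le (isCyclic_center_of_faithful hχ.1 hk) (c2 ▸ hZ ▸ h3)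
    rw [center_sub]
    exact (subgroupOfEquivOfLe inf_le_left).isCyclic.2 c3
  obtain ⟨η, hη, c3⟩ := exists_faithful_irr_of_pGroup (pg_le hEq (inf_le_left : C ≤ E))
  have c4 := sq_idx ((der_mono inf_le_left).trans (h2.trans (cent_anti le_top))) hη c3
  obtain ⟨m', hm'⟩ := pg_card hq (pg_le hEq (inf_le_left : C ≤ E))
  obtain ⟨b, -, hb⟩ := (Nat.dvd_prime_pow hq).1 (hm' ▸ hη.charDegree_dvd_card)
  have c5 := relIndex_mul (inf_le_left : C ⊓ C_(C) ≤ C) (inf_le_left : C ≤ E)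
  rw [← c4, c2, ← h8, j1, ha, hb, ← pow_mul, ← pow_mul, ← pow_add] at c5
  have c6 := Nat.pow_right_injective hq.two_le c5
  obtain ⟨k, rfl⟩ : ∃ k, j = k * 2 := ⟨a - b, by omega⟩
  refine ⟨q ^ k, hq.isPrimePow.pow (by omega), (pow_dvd_pow q (by omega)).trans (ha ▸ h7), ?_⟩
  have c7 : (p : ℤ) ∣ (((q ^ k : ℕ) : ℤ) - -1) * ((q ^ k : ℕ) - 1) := by
    have := (Int.natCast_modEq_iff.2 j2).symm.dvd
    rw [pow_mul] at this
    push_cast at this ⊢
    convert this using 1; ring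
  exact ((Nat.prime_iff_prime_int.1 hp).dvd_or_dvd c7).imp (fun h => (Int.modEq_iff_dvd.2 h).symm)
    fun h => Or.inr (Int.modEq_iff_dvd.2 h).symm

theorem Res.mono {m n : ℕ} (h : Res p m) (hd : m ∣ n) : Res p n :=
  let ⟨q, h1, h2, h3⟩ := h; ⟨q, h1, h2.trans hd, h3⟩

theorem main (hp : p.Prime) (n : ℕ) : ∀ (G : Type u) [Group G] [Finite G] [Group.IsSolvable G], Nat.card G = n →
    ∀ χ, IsIrrCharacter G χ → charKer χ = ⊥ → ¬ PC p G → Res p (charDegree χ) := by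
  induction n using Nat.strong_induction_on with | _ n ih => ?_
  intro G _ _ _ hn χ hχ hk hP
  classical
  have := Fintype.ofFinite G
  by_cases hd : p ∣ charDegree χ
  · exact ⟨p, hp.isPrimePow, hd, Or.inr (Or.inl (Int.modEq_zero_iff_dvd.2 dvd_rfl))⟩
  set N := closure {x : G | ∃ k, x ^ p ^ k = 1} with hN
  by_cases h1 : N = ⊤
  swap
  · haveI : N.Normal := normalizer_eq_top_iff.1 (top_le_iff.1 (le_norm_of_cj_le fun g _ => by
      rw [cj_le_iff]
      exact (closure_le _).2 fun x ⟨k, hx⟩ => mem_cj_inv.2 (subset_closure ⟨k, by rw [conj_pow, hx]; simp⟩)))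
    have := Fintype.ofFinite N
    by_contra hh
    refine hP fun x y hx hy => ⟨Nat.card G, ?_⟩
    let x' : N := ⟨x, subset_closure hx⟩
    let y' : N := ⟨y, subset_closure hy⟩
    refine mem_bot.1 (hk ▸ hχ.isCharacter.mem_charKer.2 (apply_eq_one_of_forall_constituent
      (hχ.isCharacter.restrict N).isClassFunction (g := (x' * y') ^ p ^ Nat.card G) fun θ hθ h2 => ?_))
    obtain ⟨ψ, hψ, h3, h4⟩ := exists_faithful_quotient hθ
    have h5 : Nat.card (N ⧸ charKer θ) < n := (Nat.le_of_dvd Nat.card_pos (card_quotient_dvd_card _)).trans_lt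
      (hn ▸ card_top (G := G) ▸ card_lt (lt_top_iff_ne_top.2 h1))
    obtain ⟨k, h6⟩ : ∃ k, ((x' * y' : N) : N ⧸ charKer θ) ^ p ^ k = 1 := by
      by_contra h6
      refine hh ((ih _ h5 _ rfl ψ hψ h3 fun h7 => h6 (h7 x' y' ?_ ?_)).mono
        ((dvd_of_eq (congrArg charDegree h4).symm).trans (degree_dvd_of_under N hχ hθ h2)))
      · exact hx.imp fun k e => by rw [← QuotientGroup.mk_pow, show x' ^ p ^ k = 1 from Subtype.ext e]; rfl
      · exact hy.imp fun k e => by rw [← QuotientGroup.mk_pow, show y' ^ p ^ k = 1 from Subtype.ext e]; rfl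
    rw [← hθ.isCharacter.mem_charKer, ← QuotientGroup.eq_one_iff, QuotientGroup.mk_pow, ← orderOf_dvd_iff_pow_eq_one]
    obtain ⟨j, -, hj⟩ := (Nat.dvd_prime_pow hp).1 (orderOf_dvd_of_pow_eq_one h6)
    rw [hj]
    exact pow_dvd_pow p ((Nat.lt_pow_self hp.one_lt).le.trans (hj ▸ orderOf_le_card.trans (hn ▸ h5.le)))
  have hT : ∀ K : Subgroup G, (∀ x, (∃ k, x ^ p ^ k = 1) → x ∈ K) → K = ⊤ := fun K h =>
    top_le_iff.1 (h1 ▸ (closure_le _).2 h)
  by_cases h2 : IsPrimitiveChar χ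
  · refine prim hp hT (fun h3 => hP fun x y hx hy => ?_) h2 hk hd
    haveI : Group.IsNilpotent (⊤ : Subgroup G) := inferInstance
    have h4 : ∀ x : G, (∃ k, x ^ p ^ k = 1) → x ∈ piCoreOf {p} ⊤ := fun x hx =>
      zpowers_le.1 (nil_le_pcore this ((isPi_singleton hp).2 (pg_zp hx)) le_top)
    exact (pcore_pg hp ⊤ ⟨_, mul_mem (h4 x hx) (h4 y hy)⟩).imp fun k e => congrArg Subtype.val e
  simp only [IsPrimitiveChar, hχ, true_and, not_forall] at h2
  obtain ⟨_, L, φ, hφ, h3, h4⟩ := h2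
  obtain ⟨H, hH, h5⟩ := (eq_top_or_exists_le_coatom L).resolve_left h4
  have h6 : H.index ∣ charDegree χ := (index_dvd_of_le h5).trans (h3 ▸ charDegree_indFun L hφ ▸ Dvd.intro _ rfl)
  let π := QuotientGroup.mk' H.normalCore
  have hs := QuotientGroup.mk'_surjective H.normalCore
  have h7 : π.ker ≤ H := (QuotientGroup.ker_mk' _).le.trans (normalCore_le H)
  have h8 := index_map_eq H hs h7
  refine (h8 ▸ imprim hp (fun K h => ?_) (H := H.map π) ?_ ?_ (h8 ▸ fun e => hd (e.trans h6))).mono h6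
  · rw [← map_comap_eq_self_of_surjective hs K, hT (K.comap π) fun x hx => h _ (hx.imp fun k e => by
      rw [← map_pow, e, map_one]), map_top_of_surjective _ hs]
  · refine ⟨fun e => hH.1 (index_eq_one.1 (h8 ▸ index_eq_one.2 e)), fun K hK => ?_⟩
    rw [← map_comap_eq_self_of_surjective hs K, hH.2 (K.comap π) (lt_of_le_of_ne (map_le_iff_le_comap.1 hK.le)
      fun e => hK.ne ((congrArg (map π) e).trans (map_comap_eq_self_of_surjective hs K))), map_top_of_surjective _ hs]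
  · rw [← map_comap_eq_self_of_surjective hs (H.map π).normalCore, Subgroup.map_eq_bot_iff, QuotientGroup.ker_mk']
    exact normal_le_normalCore.2 ((comap_mono (normalCore_le _)).trans (comap_map_eq_self h7).le)

end

/-- Let the finite solvable group G have a faithful irreducible character of degree n, and suppose that for the prime p a Sylow p-subgroup of G is not normal. Then n is divisible by a prime power q > 1 with q congruent to −1, 0 or 1 modulo p. -/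
theorem result {G : Type*} [Group G] [Finite G] (χ : Cfsg.IrrCharacter G) (hfaith : ∀ g : G, (χ : G → ℂ) g = (χ : G → ℂ) 1 → g = 1) (n : ℕ) (hn : Cfsg.charDegree (χ : G → ℂ) = n) (hsolv : Group.IsSolvable G) (p : ℕ) (hp : p.Prime) (P : Sylow p G) (hP : ¬ (P : Subgroup G).Normal) : ∃ q : ℕ, IsPrimePow q ∧ q ∣ n ∧ ((q : ℤ) ≡ -1 [ZMOD p] ∨ (q : ℤ) ≡ 0 [ZMOD p] ∨ (q : ℤ) ≡ 1 [ZMOD p]) := by
  open H05 in
  subst hn
  refine main hp _ G rfl χ.1 χ.2 (eq_bot_iff.2 fun g hg => hfaith g (χ.2.isCharacter.mem_charKer.1 hg)) fun h => hP ?_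
  let K : Subgroup G := ⟨⟨⟨{x | ∃ k, x ^ p ^ k = 1}, fun {a b} => h a b⟩, 0, by simp⟩,
    fun ⟨k, hk⟩ => ⟨k, by rw [inv_pow, hk, inv_one]⟩⟩
  have h1 : K = P := P.is_maximal' (fun x => x.2.imp fun k e => Subtype.ext e)
    fun x hx => (P.2 ⟨x, hx⟩).imp fun k e => congrArg Subtype.val e
  exact h1 ▸ ⟨fun x ⟨k, hx⟩ g => ⟨k, by rw [conj_pow, hx]; simp⟩⟩

end Cfsg.Agent.S4467
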