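import Mathlib
import Cfsg.Statements.S4471
import Cfsg.Agent.H21.LG

set_option autoImplicit false
open Cfsg

namespace Cfsg.Agent.S4471

/-- Let p ≥ 7 be a prime and let the finite group G have a faithful irreducible character of degree n with n < 2p and n ≠ p. If the Sylow p-subgroups of G are non-abelian then p² does not divide the index of O_p(G) in G; consequently, in every case G/O_p(G) has abelian Sylow p-subgroups. -/
theorem result {G : Type*} [Group G] [Finite G] (χ : Cfsg.IrrCharacter G) (hfaith : ∀ g : G, (χ : G → ℂ) g = (χ : G → ℂ) 1 → g = 1) (n : ℕ) (hn : Cfsg.charDegree (χ : G → ℂ) = n) (p : ℕ) (hp : p.Prime) (h7 : 7 ≤ p) (hn2 : n < 2 * p) (hnp : n ≠ p) : ((∃ P : Sylow p G, ∃ x ∈ (P : Subgroup G), ∃ y ∈ (P : Subgroup G), x * y ≠ y * x) → ¬ p ^ 2 ∣ (Cfsg.pCore p G).index) ∧ ∀ Q : Sylow p (G ⧸ Cfsg.pCore p G), ∀ x ∈ (Q : Subgroup (G ⧸ Cfsg.pCore p G)), ∀ y ∈ (Q : Subgroup (G ⧸ Cfsg.pCore p G)), x * y = y *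 x := by
  subst hn
  haveI := Fact.mk hp
  have h := H21.LG.main χ.2 hfaith hp h7 hn2 hnp
  refine ⟨fun ⟨P, x, hx, y, hy, e⟩ => h P fun _ =>
    e (congrArg Subtype.val (mul_comm' (⟨x, hx⟩ : (P : Subgroup G)) ⟨y, hy⟩)), fun Q x hx y hy => ?_⟩
  obtain ⟨P, rfl⟩ := Sylow.mapSurjective_surjective (QuotientGroup.mk'_surjective (pCore p G)) p Q
  by_cases hP : IsMulCommutative (P : Subgroup G)
  · obtain ⟨x, hx, rfl⟩ := hx
    obtain ⟨y, hy, rfl⟩ := hy
    rw [← map_mul, ← map_mul]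
    exact congrArg _ (congrArg Subtype.val (mul_comm' (⟨x, hx⟩ : (P : Subgroup G)) ⟨y, hy⟩))
  generalize P.mapSurjective (QuotientGroup.mk'_surjective (pCore p G)) = Q at hx hy
  obtain ⟨k, hk⟩ := IsPGroup.iff_card.1 Q.2
  haveI : IsCyclic (Q : Subgroup (G ⧸ pCore p G)) := isCyclic_of_card_dvd_prime (p := p) (by
    rcases k with _ | _ | k
    · simp [hk]
    · simp [hk]
    · exact absurd (((pow_dvd_pow p (by omega)).trans hk.symm.dvd).trans (Subgroup.card_subgroup_dvd_card _))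
        (h P hP))
  exact congrArg Subtype.val (mul_comm' (⟨x, hx⟩ : (Q : Subgroup (G ⧸ pCore p G))) ⟨y, hy⟩)

end Cfsg.Agent.S4471
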