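import Mathlib
import Cfsg.Statements.S4474
import Cfsg.Agent.H07.RealRep

set_option autoImplicit false
open Cfsg
open H05 Cfsg H07 Matrix
open scoped ComplexOrder

namespace Cfsg.Agent.S4474

/-- Let χ be an irreducible character of the finite group G. Then the Frobenius–Schur indicator of χ (the average over s ∈ G of χ(s²)) equals 1 if and only if χ is afforded by a real representation: there is a representation of G on a real coordinate space whose trace function, viewed in ℂ, is χ. -/
theorem result {G : Type*} [Group G] [Fintype G] (χ : Cfsg.IrrCharacter G) : ((Nat.card G : ℂ)⁻¹ * ∑ s : G, (χ : G → ℂ) (s * s)) = 1 ↔ ∃ (n : ℕ) (ρ : Representation ℝ G (Fin n → ℝ)), ∀ g : G, ((LinearMap.trace ℝ (Fin n → ℝ) (ρ g) : ℝ) : ℂ) = (χ : G → ℂ) g := by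
  constructor
  · intro h
    obtain ⟨ρ, h1, h2⟩ := χ.2.exists_rep
    obtain ⟨Q, hQ⟩ := exists_real_conj ρ (by rw [h2]; exact h)
    let c := (Complex.ofRealHom.mapMatrix (m := Fin (charDegree χ.1)))
    have h3 : ∀ g, c ((Q.1 * mat ρ g * Q⁻¹.1).map Complex.re) = Q.1 * mat ρ g * Q⁻¹.1 := fun g =>
      Matrix.ext fun i j => Complex.conj_eq_iff_re.1 (congrFun (congrFun (hQ g) i) j)
    have h4 : Function.Injective c := Matrix.map_injective Complex.ofReal_injective
    refine ⟨_, (Matrix.toLinAlgEquiv' (R := ℝ)).toMonoidHom.comp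
      ⟨⟨fun g => (Q.1 * mat ρ g * Q⁻¹.1).map Complex.re, h4 (by rw [h3]; simp)⟩, fun g h => h4 (by
        rw [map_mul c, h3, h3, h3]; simp [mul_assoc])⟩, fun g => ?_⟩
    rw [← congrFun h2 g, ← trace_mat, ← Matrix.trace_units_conj Q, ← congrArg trace (h3 g)]
    exact (congrArg _ (Matrix.trace_toLin'_eq _)).trans (by simp [c, Matrix.trace])
  · rintro ⟨n, ρ, h⟩
    let R : G →* Matrix (Fin n) (Fin n) ℂ := (Complex.ofRealHom.mapMatrix (m := Fin n)).toMonoidHom.comp
      ((LinearMap.toMatrixAlgEquiv' (R := ℝ) (n := Fin n)).toMonoidHom.comp ρ)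
    let σ : Representation ℂ G (Fin n → ℂ) := (Matrix.toLinAlgEquiv' (R := ℂ)).toMonoidHom.comp R
    have h1 : ∀ g, mat σ g = R g := fun g => LinearMap.toMatrix'_toLin' _
    have h2 : σ.character = χ.1 := funext fun g => by
      rw [← trace_mat, h1, ← h, LinearMap.trace_eq_matrix_trace ℝ (Pi.basisFun ℝ _)]
      simp [R, Matrix.trace]
    have := isIrreducible_of_isIrrCharacter σ (h2 ▸ χ.2)
    have h3 := (exists_form σ fun g => by rw [h2, ← h]; simp).2 (∑ g, (R g)ᵀ * R g) fun g => by
      simp only [Finset.mul_sum, Finset.sum_mul, h1]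
      exact Fintype.sum_equiv (Equiv.mulRight g) _ _ fun x => by simp [mul_assoc]
    rw [h2] at h3
    simp only [transpose_sum, transpose_mul, transpose_transpose] at h3
    have h4 : (∑ g, (R g)ᵀ * R g).PosDef := by
      classical
      rw [← Finset.add_sum_erase _ _ (Finset.mem_univ 1)]
      simp only [map_one, transpose_one, mul_one]
      exact PosDef.one.add_posSemidef (posSemidef_sum _ fun g _ => by
        convert posSemidef_conjTranspose_mul_self (R g) using 2
        ext; simp [R])
    have : Nonempty (Fin n) := by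
      by_contra h5
      exact χ.2.apply_one_ne_zero (by rw [← h2, ← trace_mat]; exact Finset.sum_eq_zero fun i _ => (h5 ⟨i⟩).elim)
    have h5 := congrArg trace h3
    rw [trace_smul, smul_eq_mul] at h5
    exact mul_right_cancel₀ h4.trace_pos.ne' (h5.symm.trans (one_mul _).symm)

end Cfsg.Agent.S4474
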