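import Mathlib
import Cfsg.Statements.S4476
import Cfsg.Agent.H07.Deg
import Cfsg.Agent.H05.FrobeniusSchur

set_option autoImplicit false
open Cfsg
open H05 H06 Cfsg H07

namespace Cfsg.Agent.S4476

/-- Let G be a finite group of even order g with exactly t involutions, and put α = (g − 1)/t (a rational number). Then (a) some non-identity element x of G has at most α² conjugates; and (b) some non-principal real-valued irreducible character of G has degree at most α. -/
theorem result {G : Type*} [Group G] [Fintype G] (heven : Even (Nat.card G)) (t : ℕ) (ht : Nat.card {x : G // orderOf x = 2} = t) : (∃ x : G, x ≠ 1 ∧ ((Subgroup.centralizer ({x} : Set G)).index : ℚ) ≤ (((Nat.card G : ℚ) - 1) / t) ^ 2) ∧ ∃ χ : Cfsg.IrrCharacter G, (χ : G → ℂ) ≠ (fun _ => 1) ∧ (∀ g : G, ((χ : G → ℂ) g).im = 0) ∧ (Cfsg.charDegree (χ : G → ℂ) : ℚ) ≤ ((Nat.card G : ℚ) - 1) / t := by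
  classical
  have ht0 : (0 : ℚ) < t := by
    obtain ⟨x, hx⟩ := exists_prime_orderOf_dvd_card' 2 heven.two_dvd
    have : Nonempty {x : G // orderOf x = 2} := ⟨⟨x, hx⟩⟩
    exact_mod_cast ht ▸ Nat.card_pos
  let o : IrrCharacter G := ⟨1, isIrrCharacter_one⟩
  let R : Finset (IrrCharacter G) := (Finset.univ.erase o).filter fun χ => ∀ g, (χ.1 g).im = 0
  have h1 : (t : ℚ) ≤ ∑ χ ∈ R, (charDegree χ.1 : ℚ) := by
    have h1 := congrArg Complex.re (card_sqrt_eq_sum (1 : G))
    have h2 : Nat.card {s : G // s * s = 1} = 1 + t := by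
      rw [← ht, Nat.subtype_card (insert 1 (Finset.univ.filter fun x => orderOf x = 2)) fun x => ?_,
        Finset.card_insert_of_notMem (by simp), add_comm,
        Nat.subtype_card (Finset.univ.filter fun x : G => orderOf x = 2) (by simp)]
      simp only [Finset.mem_insert, Finset.mem_filter, Finset.mem_univ, true_and, orderOf_eq_prime_iff, sq]
      exact ⟨fun h => h.elim (by simp +contextual) (·.1), by tauto⟩
    rw [h2, Complex.re_sum, ← Finset.add_sum_erase _ _ (Finset.mem_univ o)] at h1
    rw [show fsIndicator o.1 = 1 by simp [o, fsIndicator]] at h1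
    rw [← Rat.cast_le (K := ℝ), Rat.cast_natCast, Rat.cast_sum, Finset.sum_filter,
      show (t : ℝ) = ∑ χ ∈ Finset.univ.erase o, (fsIndicator χ.1 * χ.1 1).re by simpa [o] using h1]
    refine Finset.sum_le_sum fun χ _ => ?_
    rw [← χ.2.charDegree_eq]
    split_ifs with h3
    · rcases χ.2.fsIndicator_of_real h3 with h4 | h4 <;> simp [h4]
    · simp [χ.2.fsIndicator_of_not_real (not_forall.1 h3)]
  have h2 : ∑ χ ∈ R, (charDegree χ.1 : ℚ) ^ 2 ≤ Nat.card G - 1 := by
    rw [← sum_charDegree_sq, ← Finset.add_sum_erase _ _ (Finset.mem_univ o),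
      charDegree_eq_of_apply_one (n := 1) (by simp [o])]
    push_cast
    rw [add_sub_cancel_left]
    exact Finset.sum_le_sum_of_subset_of_nonneg (Finset.filter_subset _ _) fun _ _ _ => by positivity
  have h3 : R.Nonempty := Finset.nonempty_of_sum_ne_zero (ht0.trans_le h1).ne'
  have h4 : (0 : ℚ) < Nat.card G - 1 := lt_of_lt_of_le (Finset.sum_pos (fun χ _ => by
    have := χ.2.charDegree_pos; positivity) h3) h2
  constructor
  · by_contra h
    push Not at h
    have h5 : ∑ x : G, (Nat.card (Subgroup.centralizer ({x} : Set G)) : ℚ) =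
        Nat.card (IrrCharacter G) * Nat.card G := by
      rw [← Rat.cast_inj (α := ℝ)]
      push_cast
      simp only [← sum_irr_norm_sq]
      rw [Finset.sum_comm]
      simp [fun χ : IrrCharacter G => χ.2.sum_norm_sq]
    have h6 : (R.card : ℚ) + 1 ≤ Nat.card (IrrCharacter G) := by
      rw [Nat.card_eq_fintype_card, ← Finset.card_univ, ← Finset.card_erase_add_one (Finset.mem_univ o)]
      exact_mod_cast Nat.add_le_add_right (Finset.card_filter_le _ _) 1
    have h7 := (pow_le_pow_left₀ ht0.le h1 2).trans (sq_sum_le_card_mul_sum_sq.trans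
      (mul_le_mul_of_nonneg_left h2 (by positivity)))
    have : Nontrivial G := Finite.one_lt_card_iff_nontrivial.1 (by exact_mod_cast sub_pos.1 h4)
    have h8 := Finset.sum_lt_sum_of_nonempty (s := Finset.univ.erase (1 : G))
      (by simpa [Finset.erase_nonempty] using Finset.univ_nontrivial)
      (f := fun x => ((Nat.card G - 1) / t : ℚ) ^ 2 * Nat.card (Subgroup.centralizer ({x} : Set G)))
      (g := fun _ => (Nat.card G : ℚ)) fun x hx => by
        refine (mul_lt_mul_of_pos_right (h x (Finset.ne_of_mem_erase hx))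
          (by exact_mod_cast Nat.card_pos)).trans_eq ?_
        exact_mod_cast (Subgroup.centralizer ({x} : Set G)).index_mul_card
    rw [← Finset.mul_sum, Finset.sum_erase_eq_sub (Finset.mem_univ _), h5, Finset.sum_const,
      Finset.card_erase_of_mem (Finset.mem_univ _), Finset.card_univ, ← Nat.card_eq_fintype_card,
      show Subgroup.centralizer ({1} : Set G) = ⊤ by simp [Subgroup.eq_top_iff', Subgroup.mem_centralizer_iff],
      Subgroup.card_top, nsmul_eq_mul, Nat.cast_pred Nat.card_pos, div_pow, div_mul_eq_mul_div,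
      div_lt_iff₀ (by positivity)] at h8
    have h9 : (0 : ℚ) < (Nat.card G - 1) * Nat.card G := mul_pos h4 (by exact_mod_cast Nat.card_pos)
    nlinarith [mul_le_mul_of_nonneg_left h7 h9.le, mul_le_mul_of_nonneg_left h6 (mul_pos h9 h4).le]
  · by_contra h
    push Not at h
    have h5 := Finset.sum_lt_sum_of_nonempty h3 (f := fun χ => (Nat.card G - 1) / t * (charDegree χ.1 : ℚ))
      (g := fun χ => (charDegree χ.1 : ℚ) ^ 2) fun χ hχ => by
        simp only [R, Finset.mem_filter, Finset.mem_erase] at hχ
        rw [sq]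
        exact mul_lt_mul_of_pos_right (h χ (fun e => hχ.1.1 (Subtype.ext e)) hχ.2)
          (by exact_mod_cast χ.2.charDegree_pos)
    rw [← Finset.mul_sum] at h5
    refine (h5.trans_le h2).not_ge (le_trans (le_of_eq ?_) (mul_le_mul_of_nonneg_left h1 (by positivity)))
    field_simp

end Cfsg.Agent.S4476
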