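import Mathlib
import Cfsg.Statements.S4477
import Cfsg.Agent.H07.Misc3

set_option autoImplicit false
open Cfsg
open H05 H06 Cfsg H07

namespace Cfsg.Agent.S4477

/-- Let G be a finite 2-group whose number of involutions is congruent to 1 modulo 4. Then G is cyclic or its commutator subgroup has index 4. -/
theorem result {G : Type*} [Group G] [Finite G] (hG : IsPGroup 2 G) (ht : Nat.card {x : G // orderOf x = 2} % 4 = 1) : IsCyclic G ∨ (commutator G).index = 4 := by
  classical
  letI := Fintype.ofFinite G
  refine H07.alperin_feit_thompson _ G hG rfl ?_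
  have : Finset.univ.filter (fun s : G => s * s = 1) = insert 1 (Finset.univ.filter fun x : G => orderOf x = 2) := by
    haveI := Fact.mk Nat.prime_two
    ext x
    by_cases h : x = 1 <;> simp [h, orderOf_eq_prime_iff, sq]
  rw [Nat.subtype_card _ (fun _ => Finset.mem_filter_univ _)] at ht ⊢
  rw [this, Finset.card_insert_of_notMem (by simp)]
  omega

end Cfsg.Agent.S4477
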