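import Mathlib
import Cfsg.Statements.S4479
import Cfsg.Agent.H21.Klein
import Cfsg.Agent.H02.PPrimeCore

set_option autoImplicit false
open Cfsg

namespace Cfsg.Agent.S4479
open H05 Cfsg H20 H21 MonoidAlgebra Classical
open scoped ComplexConjugate

/-- An order formula from the principal 2-block. Let G be a finite group of order 4·g₀ with g₀ odd having no normal 2-complement (no normal subgroup of order g₀); let P be a Sylow 2-subgroup, J an involution of P, and fix a maximal ideal M of the algebraic integers containing 2. Suppose the principal 2-block consists of the principal character and three further distinct characters χ₁, χ₂, χ₃ of degrees x₁, x₂, x₃, with χ_i(J) = ε_i = ±1. Then, writing c(J) and c(P) for the orders of the centralizers of J and of P, the order of G equals 8·α·c(J)³/c(P)² with α = x₁x₂x₃ / ((x₁ + ε₁)(x₂ + ε₂)(x₃ + ε₃)).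 -/
theorem result {G : Type*} [Group G] [Finite G] (M : Ideal Cfsg.AlgInt) (hM : Cfsg.IsPModular 2 M) (g₀ : ℕ) (hg₀ : Odd g₀) (hG : Nat.card G = 4 * g₀) (hnc : ¬ ∃ N : Subgroup G, N.Normal ∧ Nat.card N = g₀) (P : Sylow 2 G) (J : G) (hJ : J ∈ (P : Subgroup G)) (hJ2 : orderOf J = 2) (χ₁ χ₂ χ₃ : Cfsg.IrrCharacter G) (ε₁ ε₂ ε₃ : ℤ) (hB : Cfsg.principalBlock M G = {χ : Cfsg.IrrCharacter G | (χ : G → ℂ) = (fun _ => 1) ∨ χ = χ₁ ∨ χ = χ₂ ∨ χ = χ₃}) (hdist : (χ₁ : G → ℂ) ≠ (fun _ => 1) ∧ (χ₂ : G → ℂ) ≠ (fun _ => 1) ∧ (χ₃ : G → ℂ) ≠ (fun _ => 1) ∧ χ₁ ≠ χ₂ ∧ χ₁ ≠ χ₃ ∧ χ₂ ≠ χ₃) (hε : (ε₁ = 1 ∨ ε₁ = -1) ∧ (ε₂ = 1 ∨ ε₂ = -1) ∧ (ε₃ = 1 ∨ ε₃ = -1)) (hval : (χ₁ : G → ℂ) J = ε₁ ∧ (χ₂ : G → ℂ) J = ε₂ ∧ (χ₃ : G → ℂ) J = ε₃) : (Nat.card G : ℚ) = 8 * (((Cfsg.charDegree (χ₁ : G → ℂ) : ℚ) * Cfsg.charDegree (χ₂ : G → ℂ) * Cfsg.charDegree (χ₃ : G → ℂ)) / ((Cfsg.charDegree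 (χ₁ : G → ℂ) + ε₁) * (Cfsg.charDegree (χ₂ : G → ℂ) + ε₂) * (Cfsg.charDegree (χ₃ : G → ℂ) + ε₃))) * (Nat.card (Subgroup.centralizer ({J} : Set G)) : ℚ) ^ 3 / (Nat.card (Subgroup.centralizer ((P : Subgroup G) : Set G)) : ℚ) ^ 2 := by
  haveI := hM.2.1
  have hfac : (Nat.card G).factorization 2 = 2 := by
    rw [hG, Nat.factorization_mul (by norm_num) hg₀.pos.ne', Finsupp.add_apply,
      Nat.factorization_eq_zero_of_not_dvd hg₀.not_two_dvd_nat]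
    exact Nat.prime_two.factorization_pow (k := 2) ▸ by simp
  have hP : Nat.card P = 4 := by rw [P.card_eq_multiplicity, hfac]; rfl
  have h : KleinHyp M P := kleinHyp_of_not_hasNPC hM P hP fun hc => hnc ⟨pPrimeCore 2 G,
    inferInstance, by
      have h1 := (pPrimeCore 2 G).card_mul_index
      rw [core_index_of_hasNPC hc, hfac, hG] at h1
      omega⟩
  obtain ⟨d1, d2, d3, d12, d13, d23⟩ := hdist
  obtain ⟨v1, v2, v3⟩ := hval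
  have h0 := h.sum_odd hJ2 (y := 1) (by simp)
  have h1 := h.order_formula hJ hJ2
  rw [sum_mem_four hB d1 d2 d3 d12 d13 d23, v1, v2, v3,
    ← χ₁.2.charDegree_eq, ← χ₂.2.charDegree_eq, ← χ₃.2.charDegree_eq] at h0 h1
  simp only [irrOne_apply] at h0 h1
  have p1 := χ₁.2.charDegree_pos
  have p2 := χ₂.2.charDegree_pos
  have p3 := χ₃.2.charDegree_pos
  have q1 := h.four_dvd hJ2 χ₁.2.isCharacter v1
  have q2 := h.four_dvd hJ2 χ₂.2.isCharacter v2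
  have q3 := h.four_dvd hJ2 χ₃.2.isCharacter v3
  generalize charDegree (χ₁ : G → ℂ) = x₁ at *
  generalize charDegree (χ₂ : G → ℂ) = x₂ at *
  generalize charDegree (χ₃ : G → ℂ) = x₃ at *
  have c3 : (Nat.card (Subgroup.centralizer ((P : Subgroup G) : Set G)) : ℚ) ≠ 0 :=
    Nat.cast_ne_zero.2 Nat.card_pos.ne'
  have h0' : 1 * 1 + ε₁ * x₁ + ε₂ * x₂ + ε₃ * x₃ = (0 : ℚ) := by exact_mod_cast h0
  have h1' : (Nat.card G : ℚ) * (1 ^ 3 / 1 + ε₁ ^ 3 / x₁ + ε₂ ^ 3 / x₂ + ε₃ ^ 3 / x₃) *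
      (Nat.card (Subgroup.centralizer ((P : Subgroup G) : Set G)) : ℚ) ^ 2 =
      8 * (Nat.card (Subgroup.centralizer ({J} : Set G)) : ℚ) ^ 3 := by
    apply Rat.cast_injective (α := ℂ)
    push_cast
    exact h1
  have r1 : (x₁ : ℚ) + ε₁ ≠ 0 := fun h => by
    have : (x₁ : ℤ) + ε₁ = 0 := by exact_mod_cast h
    omega
  have r2 : (x₂ : ℚ) + ε₂ ≠ 0 := fun h => by
    have : (x₂ : ℤ) + ε₂ = 0 := by exact_mod_cast h
    omega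
  have r3 : (x₃ : ℚ) + ε₃ ≠ 0 := fun h => by
    have : (x₃ : ℤ) + ε₃ = 0 := by exact_mod_cast h
    omega
  have s1 : (x₁ : ℚ) ≠ 0 := by positivity
  have s2 : (x₂ : ℚ) ≠ 0 := by positivity
  have s3 : (x₃ : ℚ) ≠ 0 := by positivity
  have e1 : (ε₁ : ℚ) ^ 2 = 1 := by rcases hε.1 with h | h <;> simp [h]
  have e2 : (ε₂ : ℚ) ^ 2 = 1 := by rcases hε.2.1 with h | h <;> simp [h]
  have e3 : (ε₃ : ℚ) ^ 2 = 1 := by rcases hε.2.2 with h | h <;> simp [h]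
  have key : (1 ^ 3 / 1 + ε₁ ^ 3 / x₁ + ε₂ ^ 3 / x₂ + ε₃ ^ 3 / x₃ : ℚ) =
      (x₁ + ε₁) * (x₂ + ε₂) * (x₃ + ε₃) / (x₁ * x₂ * x₃) := by
    field_simp
    linear_combination (ε₁ * x₂ * x₃ + ε₂ * ε₃ * x₁ * ε₁ * 0) * e1 + (ε₂ * x₁ * x₃) * e2 + (ε₃ * x₁ * x₂) * e3
      - ε₁ * ε₂ * ε₃ * h0' + ε₂ * ε₃ * x₁ * e1 + ε₁ * ε₃ * x₂ * e2 + ε₁ * ε₂ * x₃ * e3
  rw [key] at h1'
  field_simp at h1' ⊢
  linear_combination h1'

end Cfsg.Agent.S4479
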