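import Mathlib
import Cfsg.Statements.S4480
import Cfsg.Agent.H21.FS
import Cfsg.Agent.S4479

set_option autoImplicit false
open Cfsg

namespace Cfsg.Agent.S4480
open H05 Cfsg H20 H21 MonoidAlgebra Classical
open scoped ComplexConjugate

/-- Same setting as the Klein-four order formula: G of order 4·g₀ (g₀ odd) with no normal 2-complement, P a Sylow 2-subgroup, J an involution of P, M over 2, principal 2-block {1, χ₁, χ₂, χ₃} with χ_i(J) = ε_i = ±1. Suppose ε₁ε₂ε₃ = −1 and ε₃ = −1, and put q = x₃ = χ₃(1). Then there is a natural number m with 4·c(J) = m·c(P)·(q + 1), and the order of G equals (m³·c(P)/4)·(q³ − q)/2, that is 8·#G = m³·c(P)·(q³ − q). -/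
theorem result {G : Type*} [Group G] [Finite G] (M : Ideal Cfsg.AlgInt) (hM : Cfsg.IsPModular 2 M) (g₀ : ℕ) (hg₀ : Odd g₀) (hG : Nat.card G = 4 * g₀) (hnc : ¬ ∃ N : Subgroup G, N.Normal ∧ Nat.card N = g₀) (P : Sylow 2 G) (J : G) (hJ : J ∈ (P : Subgroup G)) (hJ2 : orderOf J = 2) (χ₁ χ₂ χ₃ : Cfsg.IrrCharacter G) (ε₁ ε₂ ε₃ : ℤ) (hB : Cfsg.principalBlock M G = {χ : Cfsg.IrrCharacter G | (χ : G → ℂ) = (fun _ => 1) ∨ χ = χ₁ ∨ χ = χ₂ ∨ χ = χ₃}) (hdist : (χ₁ : G → ℂ) ≠ (fun _ => 1) ∧ (χ₂ : G → ℂ) ≠ (fun _ => 1) ∧ (χ₃ : G → ℂ) ≠ (fun _ => 1) ∧ χ₁ ≠ χ₂ ∧ χ₁ ≠ χ₃ ∧ χ₂ ≠ χ₃) (hε : (ε₁ = 1 ∨ ε₁ = -1) ∧ (ε₂ = 1 ∨ ε₂ = -1) ∧ (ε₃ = 1 ∨ ε₃ = -1)) (hval : (χ₁ : G → ℂ) J = ε₁ ∧ (χ₂ : G → ℂ) J = ε₂ ∧ (χ₃ : G → ℂ) J = ε₃) (hprod : ε₁ * ε₂ * ε₃ = -1) (hε₃ : ε₃ = -1) : ∃ m : ℕ, 4 * Nat.card (Subgroup.centralizer ({J} : Set G)) = m * Nat.card (Subgroup.centralizer ((P : Subgroup G) : Set G)) * (Cfsg.charDegree (χ₃ : G → ℂ) + 1) ∧ 8 * Nat.card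 G = m ^ 3 * Nat.card (Subgroup.centralizer ((P : Subgroup G) : Set G)) * (Cfsg.charDegree (χ₃ : G → ℂ) ^ 3 - Cfsg.charDegree (χ₃ : G → ℂ)) := by
  haveI := hM.2.1
  haveI := Fintype.ofFinite G
  have hord := Cfsg.Agent.S4479.result M hM g₀ hg₀ hG hnc P J hJ hJ2 χ₁ χ₂ χ₃ ε₁ ε₂ ε₃ hB hdist hε hval
  have hfac : (Nat.card G).factorization 2 = 2 := by
    rw [hG, Nat.factorization_mul (by norm_num) hg₀.pos.ne', Finsupp.add_apply,
      Nat.factorization_eq_zero_of_not_dvd hg₀.not_two_dvd_nat]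
    exact Nat.prime_two.factorization_pow (k := 2) ▸ by simp
  have hP : Nat.card P = 4 := by rw [P.card_eq_multiplicity, hfac]; rfl
  have h : KleinHyp M P := kleinHyp_of_not_hasNPC hM P hP fun hc => hnc ⟨pPrimeCore 2 G,
    inferInstance, by
      have h1 := (pPrimeCore 2 G).card_mul_index
      rw [core_index_of_hasNPC hc, hfac, hG] at h1
      omega⟩
  obtain ⟨d1, d2, d3, d12, d13, d23⟩ := hdist
  obtain ⟨v1, v2, v3⟩ := hval
  have h0 := h.sum_odd hJ2 (y := 1) (by simp)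
  rw [sum_mem_four hB d1 d2 d3 d12 d13 d23, v1, v2, v3,
    ← χ₁.2.charDegree_eq, ← χ₂.2.charDegree_eq, ← χ₃.2.charDegree_eq] at h0
  simp only [irrOne_apply] at h0
  have p1 := χ₁.2.charDegree_pos
  have p2 := χ₂.2.charDegree_pos
  have p3 := χ₃.2.charDegree_pos
  have q1 := h.four_dvd hJ2 χ₁.2.isCharacter v1
  have q2 := h.four_dvd hJ2 χ₂.2.isCharacter v2
  have q3 := h.four_dvd hJ2 χ₃.2.isCharacter v3
  subst hε₃
  have h0' : 1 * 1 + ε₁ * charDegree (χ₁ : G → ℂ) + ε₂ * charDegree (χ₂ : G → ℂ) +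
    (-1 : ℤ) * charDegree (χ₃ : G → ℂ) = (0 : ℤ) := by exact_mod_cast h0
  obtain ⟨rfl, rfl⟩ : ε₁ = 1 ∧ ε₂ = 1 := by
    rcases hε.1 with rfl | rfl <;> rcases hε.2.1 with rfl | rfl <;> omega
  have hJi := H08.inv_eq_of_orderOf hJ2
  have hcj : ∀ χ : IrrCharacter G, (conjIrr χ : G → ℂ) J = (χ : G → ℂ) J := fun χ => by
    show conj ((χ : G → ℂ) J) = _
    rw [← χ.2.apply_inv, hJi]
  have hmem : ∀ χ : IrrCharacter G, χ = χ₁ ∨ χ = χ₂ ∨ χ = χ₃ → conjIrr χ = χ₁ ∨ conjIrr χ = χ₂ ∨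
      conjIrr χ = χ₃ := fun χ hχ => by
    have h1 : χ ∈ principalBlock M G := by rw [hB]; exact Or.inr hχ
    have h2 := conjIrr_mem_principal hM h1
    rw [hB] at h2
    rcases h2 with h2 | h2
    · exfalso
      have h3 : (χ : G → ℂ) = fun _ => 1 := funext fun g => by
        have := congrArg conj (congrFun h2 g)
        simpa [conjIrr] using this
      rcases hχ with rfl | rfl | rfl <;> contradiction
    · exact h2
  have hreal : ∀ χ : IrrCharacter G, conjIrr χ = χ → Odd (charDegree (χ : G → ℂ)) →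
      fsIndicator (χ : G → ℂ) = 1 := fun χ h1 h2 =>
    fsIndicator_of_odd χ.2 ((conj_eq_iff_forall_im _).1 (congrArg Subtype.val h1)) h2
  have hdeg : charDegree (χ₁ : G → ℂ) = charDegree (χ₂ : G → ℂ) := by
    by_contra hne
    have c1 : conjIrr χ₁ = χ₁ := by
      rcases hmem χ₁ (by simp) with h1 | h1 | h1
      · exact h1
      · exact absurd (by rw [← h1]; exact (charDegree_conj _).symm) hne
      · have := hcj χ₁
        rw [h1, v1, v3] at this
        norm_num at this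
    have c2 : conjIrr χ₂ = χ₂ := by
      rcases hmem χ₂ (by simp) with h1 | h1 | h1
      · exact absurd (by rw [← h1]; exact (charDegree_conj _)) hne
      · exact h1
      · have := hcj χ₂
        rw [h1, v2, v3] at this
        norm_num at this
    have c3 : conjIrr χ₃ = χ₃ := by
      rcases hmem χ₃ (by simp) with h1 | h1 | h1
      · have := hcj χ₃
        rw [h1, v1, v3] at this
        norm_num at this
      · have := hcj χ₃
        rw [h1, v2, v3] at this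
        norm_num at this
      · exact h1
    have hs := sum_fs_block_eq_zero hM (int_block (isPBlock_principal (M := M) (G := G))) (u := J)
      (fun s hs => by
        have h1 : orderOf (pPart 2 (s * s)) = 2 := by rw [← H08.orderOf_eq_of_isConj hs, hJ2]
        rw [← sq, pPart_pow] at h1
        rcases h.order_two_or (orderOf_pPart 2 s) with h2 | h2
        · simp [h2] at h1
        · rw [sq, H08.mul_self_of_orderOf h2] at h1
          simp at h1) ⟨1, by simpa using hJ2⟩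
    rw [sum_mem_four hB d1 d2 d3 d12 d13 d23, v1, v2, v3, hreal _ c1 (Nat.odd_iff.2 (by omega)),
      hreal _ c2 (Nat.odd_iff.2 (by omega)), hreal _ c3 (Nat.odd_iff.2 (by omega)),
      hreal (irrOne G) (Subtype.ext (funext fun g => by simp [conjIrr])) (by
        rw [charDegree_eq_of_apply_one (n := 1) (by simp)]; exact odd_one)] at hs
    norm_num at hs
  rw [← hdeg] at hord h0'
  generalize charDegree (χ₁ : G → ℂ) = x at *
  generalize charDegree (χ₃ : G → ℂ) = q at *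
  obtain ⟨s, rfl⟩ : ∃ s, x = 2 * s + 1 := ⟨x / 2, by omega⟩
  obtain rfl : q = 4 * s + 3 := by omega
  have hle : Subgroup.centralizer ((P : Subgroup G) : Set G) ≤ Subgroup.centralizer ({J} : Set G) :=
    Subgroup.centralizer_le (Set.singleton_subset_iff.2 hJ)
  obtain ⟨r, hr⟩ := Subgroup.card_dvd_of_le hle
  have hi := (Subgroup.centralizer ({J} : Set G)).card_mul_index
  have cP : 0 < Nat.card (Subgroup.centralizer ((P : Subgroup G) : Set G)) := Nat.card_pos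
  have cJ : 0 < Nat.card (Subgroup.centralizer ({J} : Set G)) := Nat.card_pos
  generalize (Subgroup.centralizer ({J} : Set G)).index = i at *
  generalize Nat.card (Subgroup.centralizer ({J} : Set G)) = cJ' at *
  generalize Nat.card (Subgroup.centralizer ((P : Subgroup G) : Set G)) = c at *
  subst hr
  rw [← hi] at hord ⊢
  have hr0 : 0 < r := Nat.pos_of_mul_pos_left cJ
  have key : i * (s + 1) ^ 2 = (2 * s + 1) * (4 * s + 3) * r ^ 2 := by
    have : (i : ℚ) * (s + 1) ^ 2 = (2 * s + 1) * (4 * s + 3) * r ^ 2 := by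
      push_cast at hord
      have e : (4 * (s : ℚ) + 3 + -1) = 2 * (2 * s + 1) := by ring
      have e' : (2 * (s : ℚ) + 1 + 1) = 2 * (s + 1) := by ring
      rw [e, e'] at hord
      field_simp at hord
      linear_combination hord / 8
    exact_mod_cast this
  have hcop : Nat.Coprime ((s + 1) ^ 2) ((2 * s + 1) * (4 * s + 3)) := by
    refine Nat.Coprime.pow_left _ (Nat.Coprime.mul_right ?_ ?_)
    · exact Nat.isCoprime_iff_coprime.1 ⟨2, -1, by push_cast; ring⟩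
    · exact Nat.isCoprime_iff_coprime.1 ⟨4, -1, by push_cast; ring⟩
  obtain ⟨m, rfl⟩ : s + 1 ∣ r :=
    (Nat.pow_dvd_pow_iff two_ne_zero).1 (hcop.dvd_of_dvd_mul_left ⟨i, by rw [← key]; ring⟩)
  refine ⟨m, by ring, ?_⟩
  have : i = (2 * s + 1) * (4 * s + 3) * m ^ 2 :=
    Nat.eq_of_mul_eq_mul_right (pow_pos (show 0 < s + 1 by omega) 2) (by rw [key]; ring)
  rw [this, show (4 * s + 3) ^ 3 - (4 * s + 3) = 8 * (s + 1) * (2 * s + 1) * (4 * s + 3) from
    Nat.sub_eq_of_eq_add (by ring)]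
  ring

end Cfsg.Agent.S4480
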