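import Mathlib
import Cfsg.Statements.S4482
import Cfsg.Agent.S4481

set_option autoImplicit false
open Cfsg

namespace Cfsg.Agent.S4482
open H05 Cfsg H20 H21 MonoidAlgebra Classical
open scoped ComplexConjugate

/-- An order formula for groups with dihedral Sylow 2-subgroups and one class of involutions. Let G be a finite group whose Sylow 2-subgroup P = ⟨σ, τ⟩ is dihedral of order 2^n ≥ 8 (σ of order 2^(n−1), τ an involution inverting σ), let J be the central involution σ^(2^(n−2)), and suppose J, τ and στ are conjugate in G. Fix M over 2 and let χ₁ be an irreducible character in the principal 2-block taking one constant value δ₁ = ±1 at every non-identity power of σ, with χ₁ ≠ 1. Then, with x₁ = χ₁(1) and c(·) denoting orders of centralizers, x₁ ≠ δ₁ and #G · (x₁ − δ₁)² = 2·x₁(x₁ + δ₁)·c(J)³·(1/c(J, τ) + 1/c(J, στ))², where c(J, y) is the order of the joint centralizer of J and y. -/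
theorem result {G : Type*} [Group G] [Finite G] (M : Ideal Cfsg.AlgInt) (hM : Cfsg.IsPModular 2 M) (n : ℕ) (hn : 3 ≤ n) (P : Sylow 2 G) (σ τ : G) (hσ : σ ∈ (P : Subgroup G)) (hτ : τ ∈ (P : Subgroup G)) (hσo : orderOf σ = 2 ^ (n - 1)) (hτo : orderOf τ = 2) (hrel : τ * σ * τ⁻¹ = σ⁻¹) (hgen : Subgroup.closure ({σ, τ} : Set G) = (P : Subgroup G)) (hconj : IsConj (σ ^ (2 ^ (n - 2))) τ ∧ IsConj (σ ^ (2 ^ (n - 2))) (σ * τ)) (χ₁ : Cfsg.IrrCharacter G) (hχ₁ : χ₁ ∈ Cfsg.principalBlock M G) (h1 : (χ₁ : G → ℂ) ≠ (fun _ => 1)) (δ₁ : ℤ) (hδ₁ : δ₁ = 1 ∨ δ₁ = -1) (hval : ∀ l : ℕ, 0 < l → l < 2 ^ (n - 1) → (χ₁ : G → ℂ) (σ ^ l) = δ₁) : (Cfsg.charDegree (χ₁ : G → ℂ) : ℤ) ≠ δ₁ ∧ (Nat.card G : ℚ) * ((Cfsg.charDegree (χ₁ : G → ℂ) : ℚ) - δ₁) ^ 2 = 2 * (Cfsg.charDegree (χ₁ : G → ℂ) : ℚ) * ((Cfsg.charDegree (χ₁ : G → ℂ) : ℚ) + δ₁) * (Nat.card (Subgroup.centralizer ({σ ^ (2 ^ (n - 2))} : Set G)) : ℚ) ^ 3 * (1 / (Nat.card (Subgroup.centralizer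 ({σ ^ (2 ^ (n - 2)), τ} : Set G)) : ℚ) + 1 / (Nat.card (Subgroup.centralizer ({σ ^ (2 ^ (n - 2)), σ * τ} : Set G)) : ℚ)) ^ 2 := by
  haveI := hM.2.1
  haveI := Fintype.ofFinite G
  obtain ⟨m, rfl⟩ : ∃ m, n = m + 3 := ⟨n - 3, by omega⟩
  simp only [show m + 3 - 1 = m + 2 from rfl, show m + 3 - 2 = m + 1 from rfl] at hσo hconj hval ⊢
  have h : DihHyp (P : Subgroup G) σ τ m := ⟨hσo, H08.mul_self_of_orderOf hτo, hrel, hgen⟩
  have hζ := Complex.isPrimitiveRoot_exp (2 ^ (m + 2)) (by positivity)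
  generalize Complex.exp _ = ζ at hζ
  obtain ⟨e⟩ := H08.nonempty_closure_equiv_dihedral (by positivity) h.ord h.sq h.rel h.τ_notMem
  obtain ⟨-, a, b, d, χ', δ, δ₂, δ₃, s1, s2, s3, -, -, -, -, -, -, -, -, hB, hv, hodd⟩ :=
    Cfsg.Agent.S4481.result M hM (m + 3) hn P ⟨(MulEquiv.subgroupCongr hgen.symm).trans e⟩ σ hσ hσo
      ζ hζ
  simp only [show m + 3 - 1 = m + 2 from rfl, show m + 3 - 2 = m + 1 from rfl] at hv
  have hpow : 2 ^ (m + 2) = 2 * 2 ^ (m + 1) := by ring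
  have hpow' : 2 ^ (m + 1) = 2 * 2 ^ m := by ring
  have hpos : 0 < 2 ^ m := by positivity
  have hζw : ζ ^ 2 ^ (m + 1) = -1 :=
    (hζ.pow (by positivity) (b := 2) (by ring)).eq_neg_one_of_two_right
  have v1 := hval 1 (by omega) (by omega)
  have v2 := hval 2 (by omega) (by omega)
  have vJ := hval (2 ^ (m + 1)) (by omega) (by omega)
  obtain rfl : χ₁ = a := by
    rw [hB] at hχ₁
    rcases hχ₁ with h' | h' | rfl | rfl | ⟨j, rfl⟩
    · exact absurd h' h1
    · exact h'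
    · rw [(hv 1 (by omega) (by omega)).2.1] at v1
      rw [(hv 2 (by omega) (by omega)).2.1, ← v1] at v2
      rcases s2 with rfl | rfl <;> norm_num at v2
    · rw [(hv 1 (by omega) (by omega)).2.2.1] at v1
      rw [(hv 2 (by omega) (by omega)).2.2.1, ← v1] at v2
      rcases s3 with rfl | rfl <;> norm_num at v2
    · rw [(hv _ (by omega) (by omega)).2.2.2 j, pow_mul', hζw] at vJ
      rcases neg_one_pow_eq_or ℂ ((j : ℕ) + 1) with h' | h' <;> rw [h'] at vJ <;>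
        rcases s1 with rfl | rfl <;> rcases hδ₁ with rfl | rfl <;> norm_num at vJ
  obtain rfl : δ₁ = δ := by
    rw [(hv 1 (by omega) (by omega)).1] at v1
    exact_mod_cast v1.symm
  have hδ : (δ₁ : ℂ) * δ₁ = 1 := by rcases hδ₁ with rfl | rfl <;> norm_num
  let j₀ : Fin (2 ^ (m + 3 - 2) - 1) := ⟨0, by show 0 < 2 ^ (m + 1) - 1; omega⟩
  set θ := χ' j₀ with hθ
  have hθB : θ ∈ principalBlock M G := by rw [hB]; exact Or.inr (Or.inr (Or.inr (Or.inr ⟨_, rfl⟩)))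
  set J := σ ^ 2 ^ (m + 1) with hJ
  have hJ2 : orderOf J = 2 := h.ord_J
  let φ : G → ℂ := (irrOne G : G → ℂ) + (δ₁ : ℂ) • (χ₁ : G → ℂ) - (δ₁ : ℂ) • (θ : G → ℂ)
  have hφ : ∀ g, φ g = 1 + δ₁ * (χ₁ : G → ℂ) g - δ₁ * (θ : G → ℂ) g := fun g => rfl
  have hφodd : ∀ g, ¬ 2 ∣ orderOf g → φ g = 0 := fun g hg => by
    rw [hφ, (hodd g (Nat.odd_iff.2 (by omega)) j₀).2, sub_self]
  have hφσ : ∀ l < 2 ^ (m + 2), φ (σ ^ l) = 2 - ζ ^ l - (ζ ^ l)⁻¹ := fun l hl => by
    rcases Nat.eq_zero_or_pos l with rfl | hl0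
    · rw [hφodd _ (by simp)]; norm_num
    · rw [hφ, hval l hl0 hl, (hv l hl0 hl).2.2.2 j₀]
      simp only [j₀, zero_add, one_mul]
      linear_combination (1 - ζ ^ l - (ζ ^ l)⁻¹) * hδ
  have hφσ' : ∀ l : ℕ, φ (σ ^ l) = 2 - ζ ^ l - (ζ ^ l)⁻¹ := fun l => by
    rw [pow_eq_pow_mod l h.pow_N, pow_eq_pow_mod l hζ.pow_eq_one]
    exact hφσ _ (Nat.mod_lt _ (by positivity))
  have hcl : IsClassFunction G φ := fun g x => by
    simp only [hφ, χ₁.2.isClassFunction g x, θ.2.isClassFunction g x]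
  have hzp : ∀ x ∈ Subgroup.zpowers σ, ∃ k < 2 ^ (m + 2), x = σ ^ k := fun x hx => by
    obtain ⟨k, hk⟩ := exists_pow_val (N := 2 ^ (m + 2)) h.pow_N hx
    exact ⟨_, k.val_lt, hk⟩
  have hτi : τ⁻¹ = τ := H08.inv_eq_of_orderOf hτo
  have hτσ : ∀ k : ℕ, τ * σ ^ k = (σ ^ k)⁻¹ * τ := fun k => by
    rw [← h.τ_conj (Subgroup.pow_mem _ (Subgroup.mem_zpowers σ) k)]; group
  have hτσ' : ∀ k : ℕ, τ * (σ ^ k)⁻¹ = σ ^ k * τ := fun k => by
    rw [mul_inv_eq_iff_eq_mul, mul_assoc, hτσ]; group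
  have hcj0 : ∀ i : ℕ, σ ^ (2 * i) * τ = σ ^ i * τ * (σ ^ i)⁻¹ := fun i => by
    rw [mul_assoc, hτσ']; group
  have hcj1 : ∀ i : ℕ, σ ^ (2 * i + 1) * τ = σ ^ i * (σ * τ) * (σ ^ i)⁻¹ := fun i => by
    rw [mul_assoc, mul_assoc σ, hτσ']; group
  have hrefl : ∀ k : ℕ, IsConj J (σ ^ k * τ) := fun k => by
    obtain ⟨i, rfl | rfl⟩ := Nat.even_or_odd' k
    · rw [hcj0]; exact hconj.1.trans (H08.isConj_conj _ _)
    · rw [hcj1]; exact hconj.2.trans (H08.isConj_conj _ _)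
  have hnot : ∀ k : ℕ, σ ^ k * τ ∉ Subgroup.zpowers σ := fun k hk => h.τ_notMem
    ((Subgroup.mul_mem_cancel_left _ (Subgroup.pow_mem _ (Subgroup.mem_zpowers σ) k)).1 hk)
  have hmemP : ∀ k : ℕ, σ ^ k * τ ∈ (P : Subgroup G) := fun k =>
    Subgroup.mul_mem _ (Subgroup.pow_mem _ hσ k) hτ
  have hset : (Finset.univ.filter fun s => s ∈ (P : Subgroup G) ∧ orderOf s = 2) =
      insert J ((Finset.range (2 ^ (m + 2))).image fun k => σ ^ k * τ) := by
    ext x
    simp only [Finset.mem_filter, Finset.mem_univ, true_and, Finset.mem_insert, Finset.mem_image,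
      Finset.mem_range]
    constructor
    · rintro ⟨hx, hx2⟩
      rcases h.cases hx with h' | ⟨y, hy, rfl⟩
      · exact Or.inl ((h.eq_J h' (H08.mul_self_of_orderOf hx2)).resolve_left
          (H08.ne_one_of_orderOf hx2))
      · obtain ⟨k, hk, rfl⟩ := hzp y hy
        exact Or.inr ⟨k, hk, rfl⟩
    · rintro (rfl | ⟨k, -, rfl⟩)
      · exact ⟨h.zpowers_le h.J_mem, hJ2⟩
      · exact ⟨hmemP k, by rw [← H08.orderOf_eq_of_isConj (hrefl k), hJ2]⟩
  have hinv : ∀ w : G, orderOf w = 2 → IsConj J w := fun w hw => by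
    obtain ⟨u, hu⟩ := H08.exists_conj_mem_sylow P (H08.isPGroup_zpowers_of_orderOf hw)
    have : u * w * u⁻¹ ∈ (Finset.univ.filter fun s => s ∈ (P : Subgroup G) ∧ orderOf s = 2) := by
      simp only [Finset.mem_filter, Finset.mem_univ, true_and, orderOf_conj', hw, and_true]
      exact hu
    rw [hset, Finset.mem_insert, Finset.mem_image] at this
    refine IsConj.trans ?_ (H08.isConj_conj u w).symm
    rcases this with h' | ⟨k, -, h'⟩
    · rw [h']
    · rw [← h']; exact hrefl k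
  have hNPC : ∀ g : G, 2 ∣ orderOf g →
      HasNormalPComplement 2 (Subgroup.centralizer ({pPart 2 g} : Set G)) := fun g hg => by
    obtain ⟨u, hu⟩ := H08.exists_conj_mem_sylow P (isPGroup_zpowers (orderOf_pPart 2 g))
    have hne : pPart 2 g ≠ 1 := fun e => pPart_eq_one_iff.1 e hg
    by_cases h' : u * pPart 2 g * u⁻¹ ∈ Subgroup.zpowers σ
    · exact hasNPC_centralizer_isConj (H08.isConj_conj u _).symm
        (h.hasNPC_pow h' (by simpa using hne))
    · have := h.sq_of_notMem hu h'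
      rw [conj_mul] at this
      exact hasNPC_centralizer_isConj (hinv _ (H08.orderOf_eq_two_iff'.2
        ⟨by simpa using this, hne⟩)) h.hasNPC_J
  obtain ⟨K, hK, hsd⟩ := exists_sd_of_hasNPC (sylIn_of_sylow P h.le_C_J) h.hasNPC_J
  have hmain := pairSum_eq_sylow hJ2 hJ2 hJ2 hsd hK P.2 hcl (fun g hg => by
      obtain ⟨w, hw, hw2⟩ := H08.exists_invol_zpowers (x := g)
        (even_iff_two_dvd.2 (by_contra fun h' => hg (hφodd g h')))
      exact ⟨w, hinv w hw2, hw⟩) (fun g hg => by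
      have hg2 : 2 ∣ orderOf g := hJ2 ▸ orderOf_dvd_of_mem_zpowers hg
      rw [hφ, hφ, principal_apply_pPart hM hχ₁ (hNPC g hg2), principal_apply_pPart hM hθB (hNPC g hg2)])
  set nn : G → ℂ := fun s => (Nat.card K : ℂ) / Nat.card ↥(K ⊓ Subgroup.centralizer ({s} : Set G))
    with hnn
  have hJn : J ∉ (Finset.range (2 ^ (m + 2))).image fun k => σ ^ k * τ := by
    simp only [Finset.mem_image, not_exists, not_and]
    exact fun k _ e => hnot k (e ▸ h.J_mem)
  have hinj : Set.InjOn (fun k : ℕ => σ ^ k * τ) (Finset.range (2 ^ (m + 2))) := fun i hi j hj e =>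
    pow_injOn_Iio_orderOf (by simpa [hσo] using hi) (by simpa [hσo] using hj) (mul_right_cancel e)
  have hJr : ∀ x ∈ (P : Subgroup G), x ∉ Subgroup.zpowers σ → J ∉ Subgroup.zpowers x :=
    fun x hx hx' hJx => hx' (by
      have h2 : orderOf x = 2 := H08.orderOf_eq_two_iff'.2 ⟨h.sq_of_notMem hx hx', fun e =>
        hx' (e ▸ Subgroup.one_mem _)⟩
      rw [← eq_of_invol_mem_zpowers hJx (Subgroup.mem_zpowers x) hJ2 h2]; exact h.J_mem)
  have hζ0 : ζ ≠ 0 := hζ.ne_zero (by positivity)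
  have hterm : ∀ k l : ℕ, (if IsConj J (σ ^ k * τ) ∧ IsConj J (σ ^ l * τ) ∧
      J ∈ Subgroup.zpowers (σ ^ k * τ * (σ ^ l * τ)) then φ (σ ^ k * τ * (σ ^ l * τ)) else 0) =
      2 - ζ ^ k * (ζ ^ l)⁻¹ - ζ ^ l * (ζ ^ k)⁻¹ := fun k l => by
    have e1 : σ ^ k * τ * (σ ^ l * τ) = σ ^ (k + (2 ^ (m + 2) - 1) * l) := by
      rw [mul_assoc, ← mul_assoc τ, hτσ, mul_assoc, h.sq, mul_one, pow_add, mul_left_cancel_iff,
        inv_eq_iff_mul_eq_one, ← pow_add,
        show l + (2 ^ (m + 2) - 1) * l = 2 ^ (m + 2) * l by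
          rw [add_comm, ← Nat.succ_mul, Nat.succ_eq_add_one, Nat.sub_add_cancel (by omega)],
        pow_mul, h.pow_N, one_pow]
    have e2 : ζ ^ (k + (2 ^ (m + 2) - 1) * l) = ζ ^ k * (ζ ^ l)⁻¹ := by
      rw [pow_add]
      congr 1
      refine eq_inv_of_mul_eq_one_right ?_
      rw [← pow_add, show l + (2 ^ (m + 2) - 1) * l = 2 ^ (m + 2) * l by
          rw [add_comm, ← Nat.succ_mul, Nat.succ_eq_add_one, Nat.sub_add_cancel (by omega)],
        pow_mul, hζ.pow_eq_one, one_pow]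
    have e3 : φ (σ ^ k * τ * (σ ^ l * τ)) = 2 - ζ ^ k * (ζ ^ l)⁻¹ - ζ ^ l * (ζ ^ k)⁻¹ := by
      rw [e1, hφσ', e2, mul_inv_rev, inv_inv]
    split_ifs with h'
    · exact e3
    · rw [← e3]
      by_contra h0
      obtain ⟨w, hw, hw2⟩ := H08.exists_invol_zpowers (x := σ ^ k * τ * (σ ^ l * τ))
        (even_iff_two_dvd.2 (by_contra fun h' => h0 (hφodd _ h').symm))
      refine h' ⟨hrefl k, hrefl l, ?_⟩
      rwa [eq_of_invol_mem_zpowers (w := J) h.J_mem (Subgroup.zpowers_le.2 (e1 ▸ Subgroup.pow_mem _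
        (Subgroup.mem_zpowers σ) _) hw) hJ2 hw2]
  have hsplit : ∀ (f : ℕ → ℂ) (L : ℕ), ∑ k ∈ Finset.range (2 * L), f k =
      ∑ i ∈ Finset.range L, (f (2 * i) + f (2 * i + 1)) := fun f L => by
    induction L with
    | zero => simp
    | succ L ih => rw [mul_add, mul_one, Finset.sum_range_succ, Finset.sum_range_succ, ih,
        Finset.sum_range_succ, add_assoc]
  have hnc : ∀ x ∈ (P : Subgroup G), ∀ s, nn (x * s * x⁻¹) = nn s := fun x hx s => by
    simp only [hnn]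
    rw [← card_cj x (K ⊓ Subgroup.centralizer ({s} : Set G)), cj_inf,
      mem_normalizer_iff_cj.1 (hsd.le_normalizer (h.le_C_J hx)), H08.centralizer_conj]
  have hn0 : ∀ i, nn (σ ^ (2 * i) * τ) = nn τ := fun i => by
    rw [hcj0, hnc _ (Subgroup.pow_mem _ hσ i)]
  have hn1 : ∀ i, nn (σ ^ (2 * i + 1) * τ) = nn (σ * τ) := fun i => by
    rw [hcj1, hnc _ (Subgroup.pow_mem _ hσ i)]
  have hS0 : ∑ k ∈ Finset.range (2 ^ (m + 2)), nn (σ ^ k * τ) =
      2 ^ (m + 1) * (nn τ + nn (σ * τ)) := by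
    rw [hpow, hsplit]
    simp only [hn0, hn1, Finset.sum_const, Finset.card_range, nsmul_eq_mul]
    push_cast; ring
  have hS1 : ∑ k ∈ Finset.range (2 ^ (m + 2)), nn (σ ^ k * τ) * ζ ^ k = 0 := by
    have := (hζ.pow (by positivity) hpow).geom_sum_eq_zero (by omega)
    rw [hpow, hsplit]
    simp only [hn0, hn1]
    rw [Finset.sum_congr rfl (g := fun i => (nn τ + nn (σ * τ) * ζ) * (ζ ^ 2) ^ i)
      (fun i _ => by ring), ← Finset.mul_sum, this, mul_zero]
  have hJJ := H08.mul_self_of_orderOf hJ2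
  have hsum : ∑ s with s ∈ (P : Subgroup G) ∧ orderOf s = 2,
      ∑ t with t ∈ (P : Subgroup G) ∧ orderOf t = 2, nn s * nn t *
        (if IsConj J s ∧ IsConj J t ∧ J ∈ Subgroup.zpowers (s * t) then φ (s * t) else 0) =
      2 * (2 ^ (m + 1) * (nn τ + nn (σ * τ))) ^ 2 := by
    have z1 : J ∉ Subgroup.zpowers (J * J) := by simpa [hJJ] using H08.ne_one_of_orderOf hJ2
    have z2 : ∀ k : ℕ, J ∉ Subgroup.zpowers (J * (σ ^ k * τ)) := fun k =>
      hJr _ (Subgroup.mul_mem _ (h.zpowers_le h.J_mem) (hmemP k)) fun h' =>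
        hnot k ((Subgroup.mul_mem_cancel_left _ h.J_mem).1 h')
    have z3 : ∀ k : ℕ, J ∉ Subgroup.zpowers (σ ^ k * τ * J) := fun k =>
      hJr _ (Subgroup.mul_mem _ (hmemP k) (h.zpowers_le h.J_mem)) fun h' =>
        hnot k ((Subgroup.mul_mem_cancel_right _ h.J_mem).1 h')
    simp only [hset, Finset.sum_insert hJn, Finset.sum_image hinj, z1, z2, z3, and_false, if_false,
      mul_zero, Finset.sum_const_zero, zero_add, hterm]
    have : ∀ k l : ℕ, nn (σ ^ k * τ) * nn (σ ^ l * τ) * (2 - ζ ^ k * (ζ ^ l)⁻¹ - ζ ^ l * (ζ ^ k)⁻¹) =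
        2 * (nn (σ ^ k * τ) * nn (σ ^ l * τ)) -
          nn (σ ^ k * τ) * ζ ^ k * (nn (σ ^ l * τ) * (ζ ^ l)⁻¹) -
          nn (σ ^ k * τ) * (ζ ^ k)⁻¹ * (nn (σ ^ l * τ) * ζ ^ l) := fun k l => by ring
    simp only [this, Finset.sum_sub_distrib, ← Finset.mul_sum, ← Finset.sum_mul, hS0, hS1]
    ring
  have hval' : ∀ s ∈ (P : Subgroup G), s ∉ Subgroup.zpowers σ → 2 ^ (m + 1) * nn s =
      (Nat.card (Subgroup.centralizer ({J} : Set G)) : ℂ) /
        Nat.card (Subgroup.centralizer ({J, s} : Set G)) := fun s hs hs' => by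
    have hss := h.sq_of_notMem hs hs'
    have hs2 : orderOf s = 2 := H08.orderOf_eq_two_iff'.2 ⟨hss, fun e => hs' (e ▸ Subgroup.one_mem _)⟩
    have hc : Commute J s := (h.comm_J hs).symm
    have e1 : Subgroup.centralizer ({J, s} : Set G) =
        Subgroup.centralizer ({J} : Set G) ⊓ Subgroup.centralizer ({s} : Set G) := by
      ext x; simp [Subgroup.mem_centralizer_iff]
    have e0 : ∀ x ∈ Subgroup.zpowers σ, x * s = s * x → x = 1 ∨ x = J := fun x hx hxs => by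
      refine h.eq_J hx ?_
      have := h.conj_of_notMem hs hs' hx
      rw [← hxs, mul_inv_cancel_right] at this
      exact mul_eq_one_iff_eq_inv.2 this
    have e2 : (P : Subgroup G) ⊓ Subgroup.centralizer ({s} : Set G) =
        Subgroup.closure ({J, s} : Set G) := by
      apply le_antisymm
      · rintro x ⟨hx, hxs⟩
        have hxs' : x * s = s * x := Subgroup.mem_centralizer_singleton_iff.1 hxs
        rw [H08.mem_closure_klein hJJ hss hc]
        by_cases hx' : x ∈ Subgroup.zpowers σ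
        · rcases e0 x hx' hxs' with h' | h' <;> simp [h']
        · have := e0 _ (h.mul_mem_of_notMem hx hx' hs hs') (by rw [← mul_assoc, hxs'])
          have e : x = x * s * s := by rw [mul_assoc, hss, mul_one]
          rcases this with h' | h' <;> rw [h'] at e <;> simp [e]
      · refine (Subgroup.closure_le _).2 ?_
        rintro x (rfl | rfl)
        · exact ⟨h.zpowers_le h.J_mem, Subgroup.mem_centralizer_singleton_iff.2 hc⟩
        · exact ⟨hs, Subgroup.mem_centralizer_singleton_iff.2 rfl⟩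
    have e3 := (H08.isKleinFour_iff.1 (H08.isKleinFour_closure hJ2 hs2
      (fun e => hs' (e ▸ h.J_mem)) hc)).1
    rw [e1, hsd.card_inf_centralizer hs, hsd.card_eq, e2, e3, h.card_P, hnn]
    have : (Nat.card ↥(K ⊓ Subgroup.centralizer ({s} : Set G)) : ℂ) ≠ 0 := card_ne_zero_complex
    push_cast
    field_simp
    ring
  have hθ1 : (θ : G → ℂ) 1 = (χ₁ : G → ℂ) 1 + δ₁ := by
    have := (hodd 1 (by simp) j₀).2
    linear_combination (-(δ₁ : ℂ)) * this + ((χ₁ : G → ℂ) 1 - (θ : G → ℂ) 1) * hδ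
  have hθJ : (θ : G → ℂ) J = -2 * δ₁ := by
    rw [(hv _ (by omega) (by omega)).2.2.2 j₀]
    simp only [j₀, zero_add, one_mul, hζw]
    ring
  have hx0 := χ₁.2.apply_one_ne_zero
  have hx1 := θ.2.apply_one_ne_zero
  rw [hsum, mul_add, hval' τ hτ h.τ_notMem, hval' _ (by simpa using hmemP 1) (by simpa using hnot 1),
    H08.pairSum_sub, H08.pairSum_add, H08.pairSum_smul, H08.pairSum_smul, H08.pairSum_irr χ₁.2,
    H08.pairSum_irr θ.2, H08.pairSum_irr (irrOne G).2, vJ, hθJ, hθ1] at hmain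
  rw [hθ1] at hx1
  rw [← χ₁.2.charDegree_eq] at hmain hx0 hx1
  have hi : ((Subgroup.centralizer ({J} : Set G)).index : ℂ) =
      Nat.card G / Nat.card (Subgroup.centralizer ({J} : Set G)) := by
    rw [eq_div_iff card_ne_zero_complex, mul_comm]
    exact_mod_cast Subgroup.card_mul_index _
  rw [hi] at hmain
  simp only [irrOne_apply] at hmain
  have c1 : (Nat.card G : ℂ) ≠ 0 := card_ne_zero_complex
  have c2 : (Nat.card (Subgroup.centralizer ({J} : Set G)) : ℂ) ≠ 0 := card_ne_zero_complex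
  have key : (Nat.card G : ℂ) * ((charDegree (χ₁ : G → ℂ) : ℂ) - δ₁) ^ 2 =
      2 * (charDegree (χ₁ : G → ℂ) : ℂ) * ((charDegree (χ₁ : G → ℂ) : ℂ) + δ₁) *
      (Nat.card (Subgroup.centralizer ({J} : Set G)) : ℂ) ^ 3 *
      (1 / (Nat.card (Subgroup.centralizer ({J, τ} : Set G)) : ℂ) +
        1 / (Nat.card (Subgroup.centralizer ({J, σ * τ} : Set G)) : ℂ)) ^ 2 := by
    generalize (Nat.card (Subgroup.centralizer ({J, τ} : Set G)) : ℂ) = c₀ at *
    generalize (Nat.card (Subgroup.centralizer ({J, σ * τ} : Set G)) : ℂ) = c₁ at *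
    generalize (Nat.card (Subgroup.centralizer ({J} : Set G)) : ℂ) = c at *
    generalize (charDegree (χ₁ : G → ℂ) : ℂ) = x at *
    generalize (Nat.card G : ℂ) = g at *
    rw [div_eq_mul_one_div c c₀, div_eq_mul_one_div c c₁] at hmain
    generalize 1 / c₀ = u at *
    generalize 1 / c₁ = v at *
    rcases hδ₁ with rfl | rfl <;> push_cast at * <;> field_simp at hmain <;>
      linear_combination hmain
  have key' : (Nat.card G : ℚ) * ((charDegree (χ₁ : G → ℂ) : ℚ) - δ₁) ^ 2 =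
      2 * (charDegree (χ₁ : G → ℂ) : ℚ) * ((charDegree (χ₁ : G → ℂ) : ℚ) + δ₁) *
      (Nat.card (Subgroup.centralizer ({J} : Set G)) : ℚ) ^ 3 *
      (1 / (Nat.card (Subgroup.centralizer ({J, τ} : Set G)) : ℚ) +
        1 / (Nat.card (Subgroup.centralizer ({J, σ * τ} : Set G)) : ℚ)) ^ 2 := by
    apply Rat.cast_injective (α := ℂ)
    push_cast
    exact key
  refine ⟨fun h0 => ?_, key'⟩
  have h0' : (charDegree (χ₁ : G → ℂ) : ℚ) = δ₁ := by exact_mod_cast h0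
  rw [← h0', sub_self] at key'
  have p1 : (0 : ℚ) < charDegree (χ₁ : G → ℂ) := by exact_mod_cast χ₁.2.charDegree_pos
  have p2 : (0 : ℚ) < Nat.card (Subgroup.centralizer ({J} : Set G)) := by
    exact_mod_cast Nat.card_pos
  have p3 : (0 : ℚ) < Nat.card (Subgroup.centralizer ({J, τ} : Set G)) := by
    exact_mod_cast Nat.card_pos
  have p4 : (0 : ℚ) < Nat.card (Subgroup.centralizer ({J, σ * τ} : Set G)) := by
    exact_mod_cast Nat.card_pos
  exact absurd key' (ne_of_lt (by rw [zero_pow two_ne_zero, mul_zero]; positivity))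

end Cfsg.Agent.S4482
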