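import Mathlib
import Cfsg.Statements.S4483
import Cfsg.Agent.H21.DefectVal

set_option autoImplicit false
open Cfsg

namespace Cfsg.Agent.S4483
open H05 Cfsg H20 H21 MonoidAlgebra Classical
open scoped ComplexConjugate

/-- Let G be a finite group of order 2^n·g₀ with g₀ odd, and M a maximal ideal of the algebraic integers containing 2. Every real-valued irreducible character of G of odd degree lies in the principal 2-block; consequently G has at most 2^(2n) real-valued irreducible characters of odd degree. -/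
theorem result {G : Type*} [Group G] [Finite G] (M : Ideal Cfsg.AlgInt) (hM : Cfsg.IsPModular 2 M) : (∀ χ : Cfsg.IrrCharacter G, (∀ g : G, ((χ : G → ℂ) g).im = 0) → Odd (Cfsg.charDegree (χ : G → ℂ)) → χ ∈ Cfsg.principalBlock M G) ∧ Nat.card {χ : Cfsg.IrrCharacter G // (∀ g : G, ((χ : G → ℂ) g).im = 0) ∧ Odd (Cfsg.charDegree (χ : G → ℂ))} ≤ 2 ^ (2 * (Nat.card G).factorization 2) := by
  haveI := hM.2.1
  have h1 : ∀ χ : Cfsg.IrrCharacter G, (∀ g : G, ((χ : G → ℂ) g).im = 0) → Odd (Cfsg.charDegree (χ : G → ℂ)) → χ ∈ Cfsg.principalBlock M G := by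
    intro χ hre hodd
    refine mem_principal_of_inv_twin hM (ψ := χ) (Nat.two_dvd_ne_zero.2 (Nat.odd_iff.1 hodd))
      (H21.sameBlock_refl _) fun g _ => ?_
    rw [χ.2.apply_inv, Complex.conj_eq_iff_im.2 (hre g)]
  refine ⟨h1, ?_⟩
  have h2 := card_block_le hM (isPBlock_principal (M := M) (G := G))
  rw [blockDefect_principal hM] at h2
  refine le_trans ?_ h2
  exact Nat.card_le_card_of_injective
    (fun χ => (⟨χ.1, h1 χ.1 χ.2.1 χ.2.2⟩ : principalBlock M G))
    fun a b h => Subtype.ext (congrArg (fun x : principalBlock M G => x.1) h)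

end Cfsg.Agent.S4483
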