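import Mathlib
import Cfsg.Statements.S4484
import Cfsg.Agent.H12.Bli

set_option autoImplicit false
open Cfsg

namespace Cfsg.Agent.S4484

/-- A refinement of Burnside's result on simple groups of order divisible by only two primes. Let G be a finite simple group of order p^a · q^b · g₀ with p, q distinct primes, a > 0, g₀ coprime to p and q, and the order of G different from p. Then g₀ − 1 > log p / log 6, that is 6^(g₀ − 1) > p. -/
theorem result {G : Type*} [Group G] [Finite G] [IsSimpleGroup G] (p q a b g₀ : ℕ) (hp : p.Prime) (hq : q.Prime) (hpq : p ≠ q) (ha : 0 < a) (hg : Nat.card G = p ^ a * q ^ b * g₀) (hcop : ¬ p ∣ g₀) (hcoq : ¬ q ∣ g₀) (hne : Nat.card G ≠ p) : p < 6 ^ (g₀ - 1) := by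
  classical
  open Subgroup H05 H20 H21 H12.Bli in
  have := Fact.mk hp
  by_contra! hlt
  have pG : p ∣ Nat.card G := by rw [hg]; exact ((dvd_pow_self p ha.ne').mul_right _).mul_right _
  obtain ⟨P⟩ : Nonempty (Sylow p G) := inferInstance
  have : Nontrivial P := (nontrivial_iff_ne_bot _).2 (P.ne_bot_of_dvd_card pG)
  have := P.2.center_nontrivial
  obtain ⟨y, hy⟩ := exists_prime_orderOf_dvd_card' (G := center P) p ((P.2.to_subgroup _).card_eq_or_dvd.resolve_left Finite.one_lt_card.ne')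
  have oz : orderOf y.1.1 = p := by rw [orderOf_coe, orderOf_coe, hy]
  have hk : ¬ p ∣ (centralizer {y.1.1}).index := fun h => P.not_dvd_index (h.trans (index_dvd_of_le fun x hx =>
    mem_centralizer_singleton_iff.2 (congrArg Subtype.val (mem_center_iff.1 y.2 ⟨x, hx⟩))))
  generalize y.1.1 = z at *
  obtain ⟨M, hM⟩ := exists_isPModular hp
  obtain ⟨N, hN⟩ := exists_isPModular hq
  have := hM.2.1
  have := hN.2.1
  obtain ⟨χ, hχ, χ1, χq⟩ : ∃ χ ∈ principalBlock M G, χ ≠ trivIrr G ∧ ¬ q ∣ charDegree χ.1 := by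
    by_contra! k
    have := isPBlock_principalBlock.weak_block_orth hM (x := (1 : G)) (y := z) (by simp [hp.one_lt.ne']) (oz ▸ dvd_rfl)
    rw [H20.finsum_mem_irr, ← Finset.add_sum_erase _ _ ((Set.Finite.mem_toFinset _).2 one_mem_principalBlock), add_eq_zero_iff_eq_neg] at this
    refine not_ideal_one (M := N) ?_
    rw [show (1 : ℂ) = _ by simpa using this]
    refine ideal_neg (ideal_sum fun χ h => ideal_mul_right ?_ (ring_conj_irr χ z))
    rw [← χ.2.charDegree_eq]
    exact (ideal_natCast_iff hN).2 (k χ (by simpa using (Finset.mem_erase.1 h).2) (Finset.mem_erase.1 h).1)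
  have ker := χ.2.charKer_eq_bot_of_simple fun e => χ1 (Subtype.ext e)
  have n0 := χ.2.charDegree_pos
  obtain ⟨χ, n, ρ, hi, rfl⟩ := χ
  obtain ⟨v, ω, h1, hb⟩ := exists_eigenbasis ρ z
  rw [oz] at h1
  have m := (mult hM hχ hk ω h1 fun k => by
    exact trace_eq_sum_of_eigenbasis v (ρ (z ^ k)) _ fun i => by rw [map_pow]; exact pow_apply_of_eigen _ (hb i) k).trans
    (Nat.le_of_dvd (Nat.pos_of_ne_zero (by rintro rfl; simp at hcop)) (Nat.Coprime.dvd_of_dvd_mul_left (n := g₀) (m := p ^ a * q ^ b)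
      (Nat.Coprime.mul_right (Nat.Coprime.pow_right _ ((hp.coprime_iff_not_dvd.2 fun h => hk (h.trans (Nat.gcd_dvd_left _ _))).symm))
        (Nat.Coprime.pow_right _ ((hq.coprime_iff_not_dvd.2 fun h => χq (h.trans (Nat.gcd_dvd_right _ _))).symm)))
      (hg ▸ (Nat.gcd_dvd_left _ _).trans (index_dvd_card _))))
  have nω : ∀ i, ‖ω i‖ = 1 := fun i => Complex.norm_eq_one_of_pow_eq_one (h1 i) hp.ne_zero
  let j : Fin (Module.finrank ℂ (Fin n → ℂ)) := ⟨0, charDegree_character ρ ▸ n0⟩
  have j0 : ω j ≠ 0 := by rw [← norm_ne_zero_iff, nω]; simp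
  obtain ⟨u, u0, u1, hu⟩ := pigeon (p := p) (((Finset.univ.image ω).erase (ω j)).image (· / ω j)) (by
    simp only [Finset.mem_image, Finset.mem_erase]
    rintro _ ⟨_, ⟨-, i, -, rfl⟩, rfl⟩; simp [nω]) (lt_of_le_of_lt (Nat.pow_le_pow_right (by omega) (Finset.card_image_le.trans (by
      rw [Finset.card_erase_of_mem (by simp)]; exact Nat.sub_le_sub_right m 1))) (hlt.lt_of_ne fun e =>
      absurd (Nat.Prime.eq_one_of_pow (e ▸ hp)) fun h => by rw [h] at e; exact absurd (e ▸ hp) (by norm_num)))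
  have := central ρ hi (charKer_character ρ ▸ ker) v (fun i => ω i ^ u) (x := z ^ u) (fun i => by rw [map_pow]; exact pow_apply_of_eigen _ (hb i) u) j
    (by simp [nω]) fun i => by
      by_cases e : ω i = ω j
      · simp [e]
      · have := hu (ω i / ω j) (Finset.mem_image_of_mem _ (by simp [e]))
        rwa [div_pow, div_sub_one (pow_ne_zero _ j0), norm_div, norm_pow, nω, one_pow, div_one] at this
  refine hne ((Nat.prime_dvd_prime_iff_eq hp (prime_card_of_simple_of_center_ne_bot fun e => ?_)).1 pG).symm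
  exact pow_ne_one_of_lt_orderOf u0.ne' (oz ▸ u1) (mem_bot.1 (e ▸ this))

end Cfsg.Agent.S4484
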