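import Mathlib
import Cfsg.Agent.H20.First
import Cfsg.Agent.H02.PCore
-- Template for statement S4487 (row 4487; see /opt/grader/pristine/manifest.json for weights).
-- Copy to Cfsg/Agent/S4487.lean and replace the sorry. The statement below is byte-identical to the frozen
-- statement Cfsg.CfsgFrozen.S4487 (Cfsg/Statements/S4487.lean; the theorem Cfsg.blk_single_block_of_self_centralizing_p_core);
-- the grader kernel-checks Cfsg.Agent.S4487.result against that frozen type. Keep the theorem IN THIS FILE
-- (a `result` declared elsewhere and merely imported here is not credited); helpers may live anywhere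
-- under Cfsg/Agent/.
import Cfsg.Statements.S4487
-- import your own Cfsg.Agent.* helpers here

set_option autoImplicit false
open Cfsg

open H20 H05 H21 MonoidAlgebra

namespace Cfsg.Agent.S4487

/-- Let G be a finite group and p a prime such that G has no non-trivial normal subgroup of order prime to p and C_G(O_p(G)) ≤ O_p(G). Then G has a single p-block: any two irreducible characters lie in the same block relative to every maximal ideal M of the algebraic integers containing p. -/
theorem result {G : Type*} [Group G] [Finite G] (p : ℕ) [Fact p.Prime] (M : Ideal Cfsg.AlgInt) (hM : Cfsg.IsPModular p M) (hcore : Cfsg.pPrimeCore p G = ⊥) (hconstr : Subgroup.centralizer ((Cfsg.pCore p G) : Set G) ≤ Cfsg.pCore p G) (χ ψ : Cfsg.IrrCharacter G) : Cfsg.SameBlock M (χ : G → ℂ) (ψ : G → ℂ) := by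
  have := hM.2.1
  exact sameBlock_of_centralizer_isPGroup hM (P := Cfsg.pCore p G) (H02.pCore_isPGroup p G)
    ((H02.pCore_isPGroup p G).to_le hconstr) χ.2 ψ.2

end Cfsg.Agent.S4487
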