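import Mathlib
import Cfsg.Statements.S4488
import Cfsg.Agent.H07.Feit

set_option autoImplicit false
open Cfsg
open H05 H06 H07 Subgroup

namespace Cfsg.Agent.S4488

/-- Let the finite group G have a faithful p-rational character χ of degree n (all values of χ lie in the field generated over ℚ by a root of unity of order prime to p), and let p^a be the order of a Sylow p-subgroup of G. Then a ≤ Σ_{i ≥ 0} ⌊n / ((p − 1)·p^i)⌋ (a finite sum; the terms vanish once (p − 1)p^i > n). -/
theorem result {G : Type*} [Group G] [Finite G] (p : ℕ) (hp : p.Prime) (χ : G → ℂ) (hχ : Cfsg.IsCharacter G χ) (hfaith : ∀ g : G, χ g = χ 1 → g = 1) (hrat : (∃ r : ℕ, 0 < r ∧ ¬ p ∣ r ∧ ∀ g : G, χ g ∈ IntermediateField.adjoin ℚ ({Complex.exp (2 * Real.pi * Complex.I / r)} : Set ℂ))) (n : ℕ) (hn : Cfsg.charDegree χ = n) : (Nat.card G).factorization p ≤ ∑ i ∈ Finset.range (n + 1), n / ((p - 1) * p ^ i) := by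
  have := Fact.mk hp
  obtain ⟨r, hr0, hr, h⟩ := hrat
  obtain ⟨P⟩ : Nonempty (Sylow p G) := inferInstance
  refine hn ▸ fix_bound hχ ((Nat.Prime.coprime_iff_not_dvd hp).2 hr).symm (fun σ hσ g => ?_) P.2 ?_
  · have h1 := hσ _ (Complex.isPrimitiveRoot_exp r hr0.ne').pow_eq_one
    refine IntermediateField.adjoin_induction ℚ (p := fun x _ => σ x = x) ?_ (fun q => ?_)
      (fun x y _ _ hx hy => ?_) (fun x _ hx => ?_) (fun x y _ _ hx hy => ?_) (h g)
    · rintro _ rfl; exact h1
    · simp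
    · rw [map_add, hx, hy]
    · rw [map_inv₀, hx]
    · rw [map_mul, hx, hy]
  · rw [show charKer χ = ⊥ from eq_bot_iff.2 fun g hg => hfaith g (hχ.mem_charKer.1 hg), relIndex_bot_left,
      P.card_eq_multiplicity]

end Cfsg.Agent.S4488
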