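import Mathlib
import Cfsg.Statements.S4490
import Cfsg.Agent.H21.DefectVal

set_option autoImplicit false
open Cfsg

namespace Cfsg.Agent.S4490
open H05 Cfsg H20 H21 MonoidAlgebra Classical
open scoped ComplexConjugate

/-- Let G be a finite group and M a maximal ideal of the algebraic integers containing 2. Every 2-block B of G whose defect groups are the Sylow 2-subgroups of G (a block of full defect) and which is not the principal block is different from its complex-conjugate block, the block formed by the complex conjugates of the members of B. -/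
theorem result {G : Type*} [Group G] [Finite G] (M : Ideal Cfsg.AlgInt) (hM : Cfsg.IsPModular 2 M) (B : Set (Cfsg.IrrCharacter G)) (hB : Cfsg.IsPBlock M B) (P : Sylow 2 G) (hfull : Cfsg.IsDefectGroup 2 M B (P : Subgroup G)) (hnp : B ≠ Cfsg.principalBlock M G) : {ψ : Cfsg.IrrCharacter G | ∃ χ ∈ B, (ψ : G → ℂ) = fun g => (starRingEnd ℂ) ((χ : G → ℂ) g)} ≠ B := by
  haveI := hM.2.1
  intro h
  obtain ⟨χ, hχ, h0⟩ := H21.exists_height_zero 2 (block_nonempty hB)
  have h1 := (blockHeight_eq_zero_iff 2 hχ).1 h0
  rw [← hfull.factorization_card hM hB, P.card_eq_multiplicity,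
    Nat.factorization_pow_self Nat.prime_two] at h1
  have hodd : ¬ 2 ∣ charDegree (χ : G → ℂ) := fun h2 => by
    have := (Nat.prime_two.dvd_iff_one_le_factorization χ.2.charDegree_pos.ne').1 h2
    omega
  let ψ : IrrCharacter G := ⟨_, χ.2.conj⟩
  have hψ : ψ ∈ B := h ▸ (⟨χ, hχ, rfl⟩ : ψ ∈ {ψ : Cfsg.IrrCharacter G | ∃ χ ∈ B, (ψ : G → ℂ) = fun g => (starRingEnd ℂ) ((χ : G → ℂ) g)})
  exact hnp (block_eq_of_mem hB isPBlock_principal hχ (mem_principal_of_inv_twin hM hodd
    (block_sameBlock hB hχ hψ) fun g _ => (χ.2.apply_inv g).symm))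

end Cfsg.Agent.S4490
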