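import Mathlib
import Cfsg.Agent.H20.Fong
-- Template for statement S4492 (row 4492; see /opt/grader/pristine/manifest.json for weights).
-- Copy to Cfsg/Agent/S4492.lean and replace the sorry. The statement below is byte-identical to the frozen
-- statement Cfsg.CfsgFrozen.S4492 (Cfsg/Statements/S4492.lean; the theorem Cfsg.blk_p_solvable_block_over_invariant_character_of_p_prime_core);
-- the grader kernel-checks Cfsg.Agent.S4492.result against that frozen type. Keep the theorem IN THIS FILE
-- (a `result` declared elsewhere and merely imported here is not credited); helpers may live anywhere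
-- under Cfsg/Agent/.
import Cfsg.Statements.S4492
-- import your own Cfsg.Agent.* helpers here

set_option autoImplicit false
open Cfsg

open H20 H05 H21 MonoidAlgebra

namespace Cfsg.Agent.S4492

/-- Let G be a finite p-solvable group, N = O_{p'}(G) its largest normal subgroup of order prime to p, and θ an irreducible character of N invariant under conjugation by G; fix a maximal ideal M of the algebraic integers containing p. Then the irreducible characters of G lying over θ (those whose restriction to N contains θ) form a single p-block of G, and the defect groups of that block are exactly the Sylow p-subgroups of G. -/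
theorem result {G : Type*} [Group G] [Fintype G] (p : ℕ) [Fact p.Prime] (M : Ideal Cfsg.AlgInt) (hM : Cfsg.IsPModular p M) (hsolv : Cfsg.IsPSolvable p G) (N : Subgroup G) [hN : N.Normal] [Fintype N] (hNdef : N = Cfsg.pPrimeCore p G) (θ : Cfsg.IrrCharacter N) (hinv : ∀ (g : G) (n : N), (θ : N → ℂ) ⟨g * n * g⁻¹, hN.conj_mem n n.2 g⟩ = (θ : N → ℂ) n) : ∃ B : Set (Cfsg.IrrCharacter G), Cfsg.IsPBlock M B ∧ (∀ χ : Cfsg.IrrCharacter G, χ ∈ B ↔ Cfsg.classInner (fun n : N => (χ : G → ℂ) n) (θ : N → ℂ) ≠ 0) ∧ (∀ P : Sylow p G, Cfsg.IsDefectGroup p M B (P : Subgroup G)) ∧ ∀ D : Subgroup G, Cfsg.IsDefectGroup p M B D → ∃ P : Sylow p G, D = (P : Subgroup G) := by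
  have := hM.2.1
  subst hNdef
  have hG : Cfsg.IsPConstrained p G := H24.PS.constrained hsolv
  have hθ' : ∀ g, cjB _ g {θ} = {θ} := by
    intro g
    ext ψ
    rw [mem_cjB]
    simp only [Set.mem_singleton_iff, exists_eq_left]
    constructor
    · intro h
      exact Subtype.ext (funext fun n => (h n).trans (hinv g n))
    · rintro rfl n
      exact (hinv g n).symm
  obtain ⟨h1, -, h3, -⟩ := fong_block hM hG hθ' (B := {χ | Over _ (χ : G → ℂ) θ}) (fun χ => Iff.rfl)
  refine ⟨_, h1, fun χ => over_iff, h3, fun D hD => ?_⟩
  obtain ⟨P⟩ : Nonempty (Sylow p G) := inferInstance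
  obtain ⟨x, rfl⟩ := (h3 P).exists_conj hM h1 hD
  have := (sylIn_top P).cj_of_mem (Subgroup.mem_top x)
  obtain ⟨P', h⟩ := this.exists_sylow
  exact ⟨P', h.symm⟩

end Cfsg.Agent.S4492
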