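import Mathlib
import Cfsg.Statements.S4493
import Cfsg.Agent.H07.Deg

set_option autoImplicit false
open Cfsg
open H05 H06 Cfsg H07

namespace Cfsg.Agent.S4493

/-- Let G be a finite solvable group and p a prime. Then G has a normal abelian Sylow p-subgroup if and only if no irreducible character degree of G is divisible by p. -/
theorem result {G : Type*} [Group G] [Finite G] (hsolv : Group.IsSolvable G) (p : ℕ) (hp : p.Prime) : (∃ P : Subgroup G, P.Normal ∧ (∀ x ∈ P, ∀ y ∈ P, x * y = y * x) ∧ IsPGroup p P ∧ ¬ p ∣ P.index) ↔ ∀ χ : Cfsg.IrrCharacter G, ¬ p ∣ Cfsg.charDegree (χ : G → ℂ) := by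
  have := Fact.mk hp
  refine ⟨fun ⟨P, h1, h2, h3, h4⟩ χ h => ?_, fun h => ?_⟩
  · have : IsMulCommutative P := ⟨⟨fun a b => Subtype.ext (h2 _ a.2 _ b.2)⟩⟩
    exact h4 (h.trans (ito_charDegree_dvd_index χ.2 _))
  obtain ⟨P⟩ : Nonempty (Sylow p G) := inferInstance
  have := ito_psolv H24.PS.of_solvable h P
  have := comm_of_normal_pGroup _ P.2 h
  exact ⟨P, inferInstance, fun x hx y hy => setLike_mul_comm hx hy, P.2, P.not_dvd_index⟩

end Cfsg.Agent.S4493
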