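import Mathlib
import Cfsg.Statements.S4495
import Cfsg.Agent.H19.SelfC

set_option autoImplicit false
open Cfsg

namespace Cfsg.Agent.S4495

/-- Let the finite group G contain an element x of prime order p with C_G(x) = ⟨x⟩, and let t be the number of conjugacy classes of elements of order p. If t ≠ p − 1 then the commutator subgroup has index at most (p − 1)/t; if t = p − 1 it has index exactly p. -/
theorem result {G : Type*} [Group G] [Finite G] (p : ℕ) (hp : p.Prime) (x : G) (hx : orderOf x = p) (hC : Subgroup.centralizer ({x} : Set G) = Subgroup.zpowers x) (t : ℕ) (ht : Nat.card {C : ConjClasses G // ∃ g ∈ C.carrier, orderOf g = p} = t) : (t ≠ p - 1 → (commutator G).index * t ≤ p - 1) ∧ (t = p - 1 → (commutator G).index = p) := by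
  have := Fact.mk hp
  have := Fintype.ofFinite G
  obtain ⟨P, H, _, _, _, _, T, y, hK, hy, rfl⟩ := H19.exists_dOne_selfC hx hC
  have h1 := T.card_classes
  rw [ht, T.index_K hK] at h1
  have h0 : 0 < p - 1 := Nat.sub_pos_of_lt hp.one_lt
  have h2 : t = p - 1 ↔ Nat.card H = 1 :=
    ⟨fun e => Nat.eq_of_mul_eq_mul_left h0 (by rw [mul_one, ← e, h1, e]), fun e => by rw [← h1, e, mul_one]⟩
  refine ⟨fun h => ?_, fun h => T.index_commutator hK (h2.1 h)⟩
  rw [← h1, mul_comm]
  exact Nat.mul_le_mul_left _ (T.index_le_of_dvd (T.dvd_card_commutator hK (mt h2.2 h)))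

end Cfsg.Agent.S4495
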