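import Mathlib
import Cfsg.Statements.S4497
import Cfsg.Agent.H19.SelfC

set_option autoImplicit false
open Cfsg

namespace Cfsg.Agent.S4497

/-- Let the finite group G contain an element x of prime order p with C_G(x) = ⟨x⟩, let t be the number of conjugacy classes of elements of order p, and let S* = O_{p′}(G) be the largest normal subgroup of order prime to p. Then S* ≤ G′; if t ≠ p − 1 the quotient G′/S* is simple (in particular non-trivial); if t = p − 1 then G′ = S*. -/
theorem result {G : Type*} [Group G] [Finite G] (p : ℕ) (hp : p.Prime) (x : G) (hx : orderOf x = p) (hC : Subgroup.centralizer ({x} : Set G) = Subgroup.zpowers x) (t : ℕ) (ht : Nat.card {C : ConjClasses G // ∃ g ∈ C.carrier, orderOf g = p} = t) : Cfsg.pPrimeCore p G ≤ commutator G ∧ (t ≠ p - 1 → ∀ h : ((Cfsg.pPrimeCore p G).subgroupOf (commutator G)).Normal, IsSimpleGroup (↥(commutator G) ⧸ (Cfsg.pPrimeCore p G).subgroupOf (commutator G))) ∧ (t = p - 1 → commutator G = Cfsg.pPrimeCore p G) := by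
  have := Fact.mk hp
  have := Fintype.ofFinite G
  obtain ⟨P, H, _, _, _, _, T, y, hK, hy, rfl⟩ := H19.exists_dOne_selfC hx hC
  have h1 := T.card_classes
  rw [ht, T.index_K hK] at h1
  have h0 : 0 < p - 1 := Nat.sub_pos_of_lt hp.one_lt
  have h2 : t = p - 1 ↔ Nat.card H = 1 :=
    ⟨fun e => Nat.eq_of_mul_eq_mul_left h0 (by rw [mul_one, ← e, h1, e]), fun e => by rw [← h1, e, mul_one]⟩
  have h3 := T.le_commutator hK (H02.not_dvd_card_pPrimeCore (G := G) hp)
  refine ⟨h3, fun h _ => ?_, fun h => le_antisymm (H02.le_pPrimeCore (hp.coprime_iff_not_dvd.2 fun e => T.cardG ?_).symm) h3⟩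
  swap
  · rw [← (commutator G).card_mul_index, T.index_commutator hK (h2.1 h), sq]
    exact mul_dvd_mul_right e p
  have h4 := T.dvd_card_commutator hK (mt h2.2 h)
  have : Nontrivial (commutator G ⧸ (Cfsg.pPrimeCore p G).subgroupOf (commutator G)) :=
    ⟨(⟨_, T.P_le_of_dvd h4 y⟩ : commutator G), 1, fun e =>
      H02.not_dvd_card_pPrimeCore hp (T.dvd_card_of_mem hy (Subgroup.mem_subgroupOf.1 ((QuotientGroup.eq_one_iff _).1 e)))⟩
  refine ⟨fun L hL => ?_⟩
  set M := L.comap (QuotientGroup.mk' _)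
  by_cases h5 : p ∣ Nat.card M
  · have h6 : T.jP y ∈ (M.map (commutator G).subtype).normalCore := fun g =>
      ⟨⟨_, Subgroup.Normal.conj_mem inferInstance _ (T.P_le_of_dvd h4 y) g⟩, H19.mem_of_pow_eq_one hp
        (fun e => T.cardG (e.trans (Subgroup.card_subgroup_dvd_card _))) h5
        (Subtype.ext (by simp [conj_pow, T.pow_P])), rfl⟩
    have h7 := (T.commutator_le hK (T.dvd_card_of_mem hy h6)).trans (Subgroup.normalCore_le _)
    refine Or.inr (eq_top_iff.2 fun g _ => ?_)
    obtain ⟨g, rfl⟩ := QuotientGroup.mk_surjective g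
    obtain ⟨u, hu, e⟩ := h7 g.2
    rwa [← show u = g from Subtype.ext e]
  · have h6 := H02.le_pPrimeCore_of_subnormal (p := p) (Subgroup.IsSubnormal.trans' (Subgroup.Normal.isSubnormal
      (inferInstance : M.Normal)) (Subgroup.Normal.isSubnormal (inferInstance : (commutator G).Normal)))
      (by rw [Subgroup.card_subtype]; exact (hp.coprime_iff_not_dvd.2 h5).symm)
    refine Or.inl (eq_bot_iff.2 fun g hg => ?_)
    obtain ⟨g, rfl⟩ := QuotientGroup.mk_surjective g
    exact (QuotientGroup.eq_one_iff _).2 (h6 ⟨g, hg, rfl⟩)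

end Cfsg.Agent.S4497
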