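import Mathlib
import Cfsg.Statements.S4498
import Cfsg.Agent.H21.Column
import Cfsg.Agent.H19.Sing

set_option autoImplicit false
open Cfsg

namespace Cfsg.Agent.S4498

open H05 Cfsg
open scoped ComplexConjugate

/-- Let p and q be distinct primes dividing the order of the finite group G, and suppose G has no element of order p·q. Fix maximal ideals M_p over p and M_q over q of the algebraic integers. Then the principal p-block and the principal q-block of G have a non-principal irreducible character in common. -/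
theorem result {G : Type*} [Group G] [Finite G] (p q : ℕ) [Fact p.Prime] [Fact q.Prime] (hpq : p ≠ q) (hp : p ∣ Nat.card G) (hq : q ∣ Nat.card G) (hno : ∀ g : G, orderOf g ≠ p * q) (Mp Mq : Ideal Cfsg.AlgInt) (hMp : Cfsg.IsPModular p Mp) (hMq : Cfsg.IsPModular q Mq) : ∃ χ : Cfsg.IrrCharacter G, (χ : G → ℂ) ≠ (fun _ => 1) ∧ χ ∈ Cfsg.principalBlock Mp G ∧ χ ∈ Cfsg.principalBlock Mq G := by
  classical
  have := Fintype.ofFinite G
  have := hMp.2.1
  have := hMq.2.1
  have hp' : p.Prime := Fact.out
  have hq' : q.Prime := Fact.out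
  obtain ⟨x, hx⟩ := exists_prime_orderOf_dvd_card' p hp
  obtain ⟨y, hy⟩ := exists_prime_orderOf_dvd_card' q hq
  by_contra! hc
  have key : ∀ {r : ℕ} [Fact r.Prime] {M : Ideal Cfsg.AlgInt}, Cfsg.IsPModular r M → ∀ {z g : G}, orderOf z = r →
      ¬ r ∣ orderOf g → (∑ χ with χ ∈ Cfsg.principalBlock M G, conj ((χ : G → ℂ) z) • (χ : G → ℂ)) g = 0 :=
    fun {r _ M} hM z g hz hg => by
      have := H21.sum_principal_of_ne hM (g := g) (h := z) fun e => by
        rw [H21.pPart_eq_one_iff.2 hg, isConj_one_right, H21.pPart_eq_one_iff] at e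
        exact e hz.symm.dvd
      simpa [mul_comm] using this
  have h1 : classInner (∑ χ with χ ∈ Cfsg.principalBlock Mp G, conj ((χ : G → ℂ) x) • (χ : G → ℂ))
      (∑ χ with χ ∈ Cfsg.principalBlock Mq G, conj ((χ : G → ℂ) y) • (χ : G → ℂ)) = 0 := by
    rw [classInner_def, Finset.sum_eq_zero fun g _ => ?_, mul_zero]
    by_cases h : p ∣ orderOf g
    · rw [key hMq hy fun h' => hno _ (orderOf_pow_orderOf_div (orderOf_pos g).ne'
        (((Nat.coprime_primes hp' hq').2 hpq).mul_dvd_of_dvd_of_dvd h h')), map_zero, mul_zero]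
    · rw [key hMp hx h, zero_mul]
  simp only [classInner_sum_left, classInner_sum_right, classInner_smul_left, classInner_smul_right, classInner_irr,
    mul_ite, mul_one, mul_zero, Finset.sum_ite_eq', Finset.sum_ite_eq, Finset.mem_filter, Finset.mem_univ, true_and] at h1
  rw [Finset.sum_eq_single (H21.irrOne G) (fun χ h e => if_neg fun h' => hc χ (fun e' => e (Subtype.ext e')) h' (Finset.mem_filter.1 h).2)
    (fun h => absurd (Finset.mem_filter.2 ⟨Finset.mem_univ _, H21.one_mem_principal⟩) h), if_pos H21.one_mem_principal] at h1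
  simp [H21.irrOne] at h1

end Cfsg.Agent.S4498
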