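import Mathlib
import Cfsg.Statements.S4500
import Cfsg.Agent.H19.ThreeP

set_option autoImplicit false
open Cfsg

namespace Cfsg.Agent.S4500

/-- Let G be a non-trivial finite group of order p^a · q^b · r^c with p, q, r distinct primes and a ≤ 2. Then G has a non-principal irreducible character whose degree is a power of q, and a non-principal irreducible character whose degree is a power of r; the power may be the zeroth, so a non-principal linear character serves for both. -/
theorem result {G : Type*} [Group G] [Finite G] [Nontrivial G] (p q r a b c : ℕ) (hp : p.Prime) (hq : q.Prime) (hr : r.Prime) (hpq : p ≠ q) (hpr : p ≠ r) (hqr : q ≠ r) (ha : a ≤ 2) (hG : Nat.card G = p ^ a * q ^ b * r ^ c) : (∃ χ : Cfsg.IrrCharacter G, (χ : G → ℂ) ≠ (fun _ => 1) ∧ ∃ k : ℕ, Cfsg.charDegree (χ : G → ℂ) = q ^ k) ∧ ∃ χ : Cfsg.IrrCharacter G, (χ : G → ℂ) ≠ (fun _ => 1) ∧ ∃ k : ℕ, Cfsg.charDegree (χ : G → ℂ) = r ^ k := by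
  open H05 H19 in
  have key : ∀ q r b c : ℕ, q.Prime → r.Prime → p ≠ q → p ≠ r → Nat.card G = p ^ a * q ^ b * r ^ c →
      ∃ χ : IrrCharacter G, (χ : G → ℂ) ≠ (fun _ => 1) ∧ ∃ k : ℕ, charDegree (χ : G → ℂ) = q ^ k := by
    intro q r b c hq hr hpq hpr hG
    rcases a.eq_zero_or_pos with rfl | h0
    · have h1 := burnside_paqb G hq hr (by simpa using hG)
      have h2 : 1 < Nat.card {χ : IrrCharacter G // (χ : G → ℂ) 1 = 1} := by
        rw [card_linear_irr]
        have := mt Subgroup.index_eq_one.1 (Group.IsSolvable.commutator_lt_top_of_nontrivial G).ne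
        have := (commutator G).index_ne_zero_of_finite
        omega
      have := Finite.one_lt_card_iff_nontrivial.1 h2
      obtain ⟨⟨χ, h3⟩, h4⟩ := exists_ne (⟨irrOne G, rfl⟩ : {χ : IrrCharacter G // (χ : G → ℂ) 1 = 1})
      exact ⟨χ, fun e => h4 (Subtype.ext (Subtype.ext e)), 0, charDegree_eq_of_apply_one (by simpa using h3)⟩
    obtain ⟨χ, h1, h2, h3⟩ := exists_deg_not_dvd (G := G) hp hr (hG ▸ ((dvd_pow_self p h0.ne').mul_right _).mul_right _) fun h => by
      have := (Nat.pow_dvd_pow_iff_le_right hp.one_lt).1 (((Nat.coprime_primes hp hq).2 hpq).pow 3 b |>.dvd_of_dvd_mul_right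
        (((Nat.coprime_primes hp hr).2 hpr).pow 3 c |>.dvd_of_dvd_mul_right (hG ▸ h)))
      omega
    obtain ⟨k, -, h4⟩ := (Nat.dvd_prime_pow hq).1 (((hp.coprime_iff_not_dvd.2 h2).symm.pow_right a).dvd_of_dvd_mul_left
      (((hr.coprime_iff_not_dvd.2 h3).symm.pow_right c).dvd_of_dvd_mul_right (hG ▸ χ.2.charDegree_dvd_card)))
    exact ⟨χ, fun e => h1 (Subtype.ext e), k, h4⟩
  exact ⟨key q r b c hq hr hpq hpr hG, key r q c b hr hq hpr hpq (by rw [hG]; ring)⟩

end Cfsg.Agent.S4500
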