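import Mathlib
import Cfsg.Statements.S4501
import Cfsg.Agent.H19.ThreeP

set_option autoImplicit false
open Cfsg

namespace Cfsg.Agent.S4501

/-- Let G be a non-abelian finite simple group and p, q distinct primes. If the order of G is 4·p^a·q^b with a ≤ 2, then G is isomorphic to the alternating group of degree 5. If the order of G is 3·p^a·q^b with a ≤ 2, then G is isomorphic to the alternating group of degree 5 or to PSL(2,7). -/
theorem result {G : Type*} [Group G] [Finite G] [IsSimpleGroup G] (hna : ∃ x y : G, x * y ≠ y * x) (p q a b : ℕ) (hp : p.Prime) (hq : q.Prime) (hpq : p ≠ q) (ha : a ≤ 2) : (Nat.card G = 4 * p ^ a * q ^ b → Nonempty (G ≃* alternatingGroup (Fin 5))) ∧ (Nat.card G = 3 * p ^ a * q ^ b → Nonempty (G ≃* alternatingGroup (Fin 5)) ∨ Nonempty (G ≃* Matrix.ProjectiveSpecialLinearGroup (Fin 2) (ZMod 7))) := by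
  open H05 H19 in
  have hG : ¬ IsMulCommutative G := fun h => let ⟨x, y, e⟩ := hna; e (mul_comm' x y)
  have hs : ¬ Group.IsSolvable G := fun h => hG ⟨⟨IsSimpleGroup.comm_iff_isSolvable.2 h⟩⟩
  refine ⟨fun h => H08.A5_of_simple (card_sixty_of_dvd hG hp hq ?_ ?_ h.dvd), fun h => ?_⟩
  · rintro rfl
    exact hs (burnside_paqb G hp hq (a := a + 2) (b := b) (by rw [h]; ring))
  · rintro rfl
    exact hs (burnside_paqb G hp hq (a := a) (b := b + 2) (by rw [h]; ring))
  have hp3 : p ≠ 3 := by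
    rintro rfl
    exact hs (burnside_paqb G hp hq (a := a + 1) (b := b) (by rw [h]; ring))
  have hq3 : q ≠ 3 := by
    rintro rfl
    exact hs (burnside_paqb G hp hq (a := a) (b := b + 1) (by rw [h]; ring))
  have h3 : ¬ 3 ∣ p ^ a * q ^ b := fun e => by
    rcases (Nat.prime_three.dvd_mul).1 e with e | e
    exacts [hp3 ((Nat.prime_dvd_prime_iff_eq Nat.prime_three hp).1 (Nat.prime_three.dvd_of_dvd_pow e)).symm,
      hq3 ((Nat.prime_dvd_prime_iff_eq Nat.prime_three hq).1 (Nat.prime_three.dvd_of_dvd_pow e)).symm]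
  by_cases hq2 : q ≠ 2
  · by_cases hp2 : p ≠ 2
    · refine absurd (Cfsg.Agent.S0205.result ?_) hs
      rw [h]
      exact (((by decide : Odd 3).mul (hp.odd_of_ne_two hp2).pow).mul (hq.odd_of_ne_two hq2).pow)
    obtain rfl := not_not.1 hp2
    refine Or.inl (H08.A5_of_simple (card_sixty_of_dvd (a := 1) (b := b) hG Nat.prime_three hq (by norm_num) hq2 ?_))
    rw [h, mul_comm 3]
    exact mul_dvd_mul_right (mul_dvd_mul_right (pow_dvd_pow 2 ha) _) _
  obtain rfl := not_not.1 hq2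
  obtain ⟨χ, ψ, h4, h5, h6, h7, h8⟩ := exists_consecutive_deg hG (by rw [h, mul_assoc]; simp) fun e =>
    h3 (Nat.dvd_of_mul_dvd_mul_left three_pos (by rwa [h, mul_assoc, sq] at e))
  have h9 : ∀ χ : IrrCharacter G, ¬ 3 ∣ charDegree (χ : G → ℂ) → charDegree (χ : G → ℂ) ∣ p ^ a * 2 ^ b := fun χ e =>
    (Nat.prime_three.coprime_iff_not_dvd.2 e).symm.dvd_of_dvd_mul_left (by rw [← mul_assoc, ← h]; exact χ.2.charDegree_dvd_card)
  have h10 : ∀ χ : IrrCharacter G, χ ≠ irrOne G → ¬ 3 ∣ charDegree (χ : G → ℂ) → ¬ 2 ∣ charDegree (χ : G → ℂ) →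
      charDegree (χ : G → ℂ) = p ^ a ∧ a ≠ 0 := fun χ e1 e2 e3 => by
    obtain ⟨k, e4, e5⟩ := (Nat.dvd_prime_pow hp).1
      (((Nat.prime_two.coprime_iff_not_dvd.2 e3).symm.pow_right b).dvd_of_dvd_mul_right (h9 χ e2))
    have := Fact.mk hp
    obtain ⟨M, hM⟩ := H21.exists_isPModular hp
    have := hM.2.1
    obtain ⟨P⟩ : Nonempty (Sylow p G) := inferInstance
    have e6 : (Nat.card G).factorization p = a := by
      rw [h, mul_comm 3, mul_assoc, Nat.factorization_mul_apply_of_coprime (Nat.Coprime.pow_left _ (Nat.Coprime.mul_right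
        ((Nat.coprime_primes hp Nat.prime_three).2 hp3) (((Nat.coprime_primes hp hq).2 hpq).pow_right _))),
        hp.factorization_pow, Finsupp.single_eq_same, Nat.factorization_eq_zero_of_not_dvd, add_zero]
      exact (hp.coprime_iff_not_dvd).1 (Nat.Coprime.mul_right
        ((Nat.coprime_primes hp Nat.prime_three).2 hp3) (((Nat.coprime_primes hp hq).2 hpq).pow_right _))
    have e7 := P.card_eq_multiplicity
    rw [e6] at e7
    obtain ⟨c, e8⟩ := (P.2.to_subgroup (Subgroup.center _)).exists_card_eq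
    have e9 := (Cfsg.Agent.S4730.result p M hM (center_eq_bot_of_simple hG) P a c e7 e8 χ (fun g e => by
      simpa [χ.2.charKer_eq_bot_of_simple fun e => e1 (Subtype.ext e)] using χ.2.isCharacter.mem_charKer.2 e) k e5).2 (by
        interval_cases a
        · have := (Nat.card_eq_one_iff_unique.1 e7).1
          exact ⟨⟨fun _ _ => Subsingleton.elim _ _⟩⟩
        · have := isCyclic_of_prime_card (e7.trans (pow_one p))
          infer_instance
        · exact IsPGroup.isMulCommutative_of_card_eq_prime_sq e7)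
    rw [H20.Cfsg.IsPBlock.blockDefect_eq_zero_iff hM (H21.isPBlock_blockOf χ) (H21.mem_blockOf_self χ), e5, e6, hp.factorization_pow,
      Finsupp.single_eq_same] at e9
    subst e9
    exact ⟨e5, fun e => e1 (eq_irrOne_of_perfect (commutator_eq_top_of_simple hG) (by rw [e5, e, pow_zero]))⟩
  have h11 : ∀ d, d ∣ p ^ a * 2 ^ b → d.Coprime (p ^ a) → ∃ m, d = 2 ^ m := fun d e1 e2 =>
    let ⟨m, _, e⟩ := (Nat.dvd_prime_pow hq).1 (e2.dvd_of_dvd_mul_left e1); ⟨m, e⟩
  have h12 : a = 1 := by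
    have e0 := hp.eq_two_or_odd.resolve_left hpq
    have e1 : p ^ 2 % 4 = 1 := by
      obtain e | e : p % 4 = 1 ∨ p % 4 = 3 := by omega
      all_goals rw [Nat.pow_mod, e]
    have e2 : p ^ 2 % 3 = 1 := by
      have := mt (Nat.prime_dvd_prime_iff_eq Nat.prime_three hp).1 hp3.symm
      obtain e | e : p % 3 = 1 ∨ p % 3 = 2 := by omega
      all_goals rw [Nat.pow_mod, e]
    by_contra e
    by_cases e3 : 2 ∣ charDegree (χ : G → ℂ)
    · obtain ⟨e4, e5⟩ := h10 ψ h5 h8 (by omega)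
      obtain rfl : a = 2 := by omega
      omega
    · obtain ⟨e4, e5⟩ := h10 χ h4 h7 e3
      obtain rfl : a = 2 := by omega
      obtain ⟨m, e6⟩ := h11 _ (h9 ψ h8) (by rw [h6, e4]; exact Nat.coprime_self_add_left.2 (Nat.coprime_one_left _))
      have := Nat.pow_le_pow_left hp.two_le 2
      rcases m with _ | _ | m <;> omega
  subst h12
  have h13 := hp.five_le_of_ne_two_of_ne_three hpq hp3
  have h14 : ∀ n, Odd n → n ∣ 3 * 2 ^ (b + 1) → n ≤ 3 := fun n e1 e2 =>
    Nat.le_of_dvd three_pos ((Nat.Coprime.pow_right _ (Nat.coprime_two_right.2 e1)).dvd_of_dvd_mul_right e2)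
  rcases Cfsg.Agent.S0997.result (G := G) (fun e => hG inferInstance) p 2 b 3 hp hq hpq (by rw [h]; ring) (by omega) with
    ⟨m, F, _, _, e1, -, ⟨e⟩⟩ | ⟨m, F, _, _, e1, e2, -, ⟨e⟩⟩
  · have e3 := H09.card_PSL_two_mul (F := F)
    obtain ⟨k, rfl⟩ := hp.odd_of_ne_two hpq
    rw [← Nat.card_congr e.toEquiv, e1, Nat.add_sub_cancel, Nat.gcd_eq_left (dvd_mul_right 2 k),
      show (2 * k + 1) ^ 2 - 1 = 4 * k * (k + 1) from Nat.sub_eq_of_eq_add (by ring)] at e3
    have e4 : 3 * 2 ^ (b + 1) = 4 * k * (k + 1) := Nat.eq_of_mul_eq_mul_left hp.pos (by rw [← e3, h]; ring)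
    obtain rfl | rfl : k = 2 ∨ k = 3 := by
      rcases k.even_or_odd with e5 | e5
      · have := h14 _ e5.add_one (e4 ▸ dvd_mul_left _ _); omega
      · have := h14 _ e5 (e4 ▸ (dvd_mul_left _ _).mul_right _); omega
    · exact Or.inl (H08.A5_of_simple (by omega))
    · have : Fact (Nat.Prime 7) := ⟨by norm_num⟩
      obtain ⟨f⟩ := H09.nonempty_psl_equiv_of_card_eq (ι := Fin 2) (F := F) (K := ZMod 7) (by simpa using e1)
      exact Or.inr ⟨e.trans f⟩
  · have e3 := H09.card_PSL_two_mul (F := F)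
    have e4 : m ≠ 0 := by rintro rfl; omega
    obtain ⟨k, hk⟩ : ∃ k, 2 ^ m = 2 * k + 2 := ⟨2 ^ (m - 1) - 1, by
      have := Nat.one_le_two_pow (n := m - 1)
      have := Nat.two_pow_pred_mul_two (Nat.pos_of_ne_zero e4)
      omega⟩
    rw [← Nat.card_congr e.toEquiv, e1, hk, show Nat.gcd 2 (2 * k + 2 - 1) = 1 by simp,
      show (2 * k + 2) ^ 2 - 1 = (2 * k + 1) * (2 * k + 3) from Nat.sub_eq_of_eq_add (by ring)] at e3
    have e5 : 3 * 2 ^ (b + 1) = (2 * k + 1) * (2 * (2 * k + 2)) := Nat.eq_of_mul_eq_mul_left hp.pos (by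
      rw [h, e2, hk] at e3; rw [e2, hk]; linear_combination 2 * e3)
    have := h14 _ (odd_two_mul_add_one k) (e5 ▸ dvd_mul_right _ _)
    obtain rfl : k = 1 := by omega
    exact Or.inl (H08.A5_of_simple (by omega))

end Cfsg.Agent.S4501
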