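import Cfsg.Statements.S4504
import Cfsg.Agent.H20.TuF
import Cfsg.Agent.H20.TuZ
import Cfsg.Agent.H25.TuR
import Cfsg.Agent.H10.TuI
import Cfsg.Agent.H08.TuM
import Cfsg.Agent.H05.TuA
import Cfsg.Agent.H15.TuO
import Cfsg.Agent.H04.TuD
import Cfsg.Agent.H27.TuE
import Cfsg.Agent.H12.TuS

set_option autoImplicit false
open Cfsg

namespace Cfsg.Agent.S4504

/-- Let G be a finite group whose order is divisible by the prime p exactly once and which has no normal subgroup of order p. If G has a faithful character of degree exactly (p − 1)/2, then G modulo its centre is isomorphic to PSL(2, p). -/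
theorem result {G : Type*} [Group G] [Finite G] (p : ℕ) (hp : p.Prime) (hdiv : p ∣ Nat.card G) (hsq : ¬ p ^ 2 ∣ Nat.card G) (hnn : ∀ H : Subgroup G, H.Normal → Nat.card H ≠ p) (χ : G → ℂ) (hχ : Cfsg.IsCharacter G χ) (hfaith : ∀ g : G, χ g = χ 1 → g = 1) (hdeg : 2 * Cfsg.charDegree χ + 1 = p) : Nonempty ((G ⧸ Subgroup.center G) ≃* Matrix.ProjectiveSpecialLinearGroup (Fin 2) (ZMod p)) := by
  exact H20.TuF.fin H25.Tu.r H10.TuI.i (H12.Tu.sS H08.Tu.m) (H05.Tu.a H08.Tu.m) H15.Tu.o H04.TuD.d H20.TuZ.z H27.TuE.e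
    p hp hdiv hsq hnn χ hχ hfaith hdeg

end Cfsg.Agent.S4504
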