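import Mathlib
import Cfsg.Statements.S4505
import Cfsg.Agent.H21.Rob2

set_option autoImplicit false
open Cfsg

namespace Cfsg.Agent.S4505
open H05 Cfsg H20 H21 MonoidAlgebra Classical
open scoped ComplexConjugate

/-- Let G be a finite group, p a prime and M a maximal ideal of the algebraic integers containing p. For every σ, the number of p-blocks of defect exactly σ is at most the number of conjugacy classes of p-regular elements whose centralizer has order divisible by p^σ but not by p^(σ+1). -/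
theorem result {G : Type*} [Group G] [Finite G] (p : ℕ) [Fact p.Prime] (M : Ideal Cfsg.AlgInt) (hM : Cfsg.IsPModular p M) (σ : ℕ) : Nat.card {B : Set (Cfsg.IrrCharacter G) // Cfsg.IsPBlock M B ∧ Cfsg.blockDefect p B = σ} ≤ Nat.card {C : ConjClasses G // ∃ g : G, ConjClasses.mk g = C ∧ ¬ p ∣ orderOf g ∧ (Nat.card (Subgroup.centralizer ({g} : Set G))).factorization p = σ} := by
  haveI := Fintype.ofFinite G
  haveI := hM.2.1
  haveI := Fintype.ofFinite {C : ConjClasses G // ∃ g : G, ConjClasses.mk g = C ∧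
    ¬ p ∣ orderOf g ∧ (Nat.card (Subgroup.centralizer ({g} : Set G))).factorization p = σ}
  haveI := Fintype.ofFinite {B : Set (IrrCharacter G) // IsPBlock M B ∧ blockDefect p B = σ}
  rw [Nat.card_eq_fintype_card, Nat.card_eq_fintype_card]
  choose x hx1 hx2 hx3 using fun C : {C : ConjClasses G // ∃ g : G, ConjClasses.mk g = C ∧
    ¬ p ∣ orderOf g ∧ (Nat.card (Subgroup.centralizer ({g} : Set G))).factorization p = σ} => C.2
  refine card_le_of_mul_eq_one (F := Res M) (Matrix.of fun B i => lB M B.1 (x i))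
    (Matrix.of fun i B => (eB M B.1).coeff (x i)) ?_
  ext B B'
  rw [Matrix.mul_apply, Matrix.one_apply]
  simp only [Matrix.of_apply]
  rw [sum_lB_coeff B.2.1 B'.2.1 x]
  · simp only [Subtype.ext_iff]
  · intro i j h
    exact Subtype.ext (by rw [← hx1, ← hx1]; exact ConjClasses.mk_eq_mk_iff_isConj.2 h)
  · intro g h1 h2
    have h3 := defect_le_of_lB hM B.2.1 h1
    obtain ⟨χ, hχ, h4⟩ := B'.2.1.factorization_centralizer_le hM
      (fun h => h2 ((B'.2.1.coeff_eB_eq_zero_iff g).2 h))
    obtain ⟨D, hD⟩ := B'.2.1.exists_isDefectGroup p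
    obtain ⟨Q, hQ⟩ := exists_sylIn p (Subgroup.centralizer ({g} : Set G))
    have h5 := (hD.subConj_of_coeff hM B'.2.1 hQ.isPGroup
      (le_centralizer_singleton_iff.1 hQ.le) h2).card_dvd
    rw [hQ.card_eq, hD.card_eq hM B'.2.1, Nat.pow_dvd_pow_iff_le_right hM.1.one_lt, B'.2.2] at h5
    rw [B.2.2] at h3
    refine ⟨⟨ConjClasses.mk g, g, rfl, B'.2.1.not_dvd_of_coeff_eB_ne_zero hM h2,
      le_antisymm h5 h3⟩, ?_⟩
    exact ConjClasses.mk_eq_mk_iff_isConj.1 (hx1 _)

end Cfsg.Agent.S4505
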