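import Mathlib
import Cfsg.Agent.H20.PRat
import Cfsg.Agent.H20.QForm
-- Template for statement S4506 (row 4506; see /opt/grader/pristine/manifest.json for weights).
-- Copy to Cfsg/Agent/S4506.lean and replace the sorry. The statement below is byte-identical to the frozen
-- statement Cfsg.CfsgFrozen.S4506 (Cfsg/Statements/S4506.lean; the theorem Cfsg.chr_p_conjugate_count_times_degree_p_part_bound);
-- the grader kernel-checks Cfsg.Agent.S4506.result against that frozen type. Keep the theorem IN THIS FILE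
-- (a `result` declared elsewhere and merely imported here is not credited); helpers may live anywhere
-- under Cfsg/Agent/.
import Cfsg.Statements.S4506
-- import your own Cfsg.Agent.* helpers here

set_option autoImplicit false
open Cfsg

open H20 H05 H21 MonoidAlgebra Cfsg Classical ComplexConjugate

namespace Cfsg.Agent.S4506

/-- Let G be a finite group, p a prime, p^a the p-part of the order of G and g′ its p′-part. Call two irreducible characters p-conjugate when one is obtained from the other by applying a field automorphism of ℂ that fixes the g′-th roots of unity, and let r be the number of characters p-conjugate to the irreducible character χ (χ included). Then the exponent of p in r·χ(1) is at most a; and if p^a divides r·χ(1) then p^a already divides χ(1). -/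
theorem result {G : Type*} [Group G] [Finite G] (p : ℕ) (hp : p.Prime) (χ : Cfsg.IrrCharacter G) (r : ℕ) (hr : Nat.card {ψ : Cfsg.IrrCharacter G // ∃ σ : ℂ ≃+* ℂ, σ (Complex.exp (2 * Real.pi * Complex.I / ((Nat.card G / p ^ (Nat.card G).factorization p) : ℕ))) = Complex.exp (2 * Real.pi * Complex.I / ((Nat.card G / p ^ (Nat.card G).factorization p) : ℕ)) ∧ (ψ : G → ℂ) = fun g => σ ((χ : G → ℂ) g)} = r) : (r * Cfsg.charDegree (χ : G → ℂ)).factorization p ≤ (Nat.card G).factorization p ∧ (p ^ (Nat.card G).factorization p ∣ r * Cfsg.charDegree (χ : G → ℂ) → p ^ (Nat.card G).factorization p ∣ Cfsg.charDegree (χ : G → ℂ)) := by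
  have : Fact p.Prime := ⟨hp⟩
  obtain ⟨M, hM⟩ := exists_isPModular hp
  have := hM.2.1
  have := Fintype.ofFinite G
  have hn : Nat.card G ≠ 0 := Nat.card_pos.ne'
  generalize_proofs at hr
  obtain ⟨S, hS, h1, h2⟩ : ∃ S : Finset (IrrCharacter G), S.card = r ∧ χ ∈ S ∧ ∀ ψ ∈ S,
      ∃ σ : ℂ →+* ℂ, PGal p (Nat.card G) σ ∧ ∀ g, (ψ : G → ℂ) g = σ ((χ : G → ℂ) g) := by
    refine ⟨Finset.univ.filter _, (Fintype.card_subtype _).symm.trans (Nat.card_eq_fintype_card.symm.trans hr),
      Finset.mem_filter.2 ⟨Finset.mem_univ _, RingEquiv.refl _, rfl, rfl⟩, fun ψ hψ => ?_⟩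
    obtain ⟨σ, h1, h2⟩ := (Finset.mem_filter.1 hψ).2
    refine ⟨σ, fun ω hω => ?_, congrFun h2⟩
    have hm : Nat.card G / p ^ (Nat.card G).factorization p ≠ 0 := (Nat.ordCompl_pos p hn).ne'
    have := NeZero.mk hm
    obtain ⟨i, -, rfl⟩ := (Complex.isPrimitiveRoot_exp _ hm).eq_pow_of_pow_eq_one hω
    rw [map_pow]; exact congrArg (· ^ i) h1
  have hr0 : 0 < r := hS ▸ Finset.card_pos.2 ⟨χ, h1⟩
  have hrc : (r : ℂ) ≠ 0 := by exact_mod_cast hr0.ne'
  have h3 : ∀ ψ ∈ S, pRegularPart p (ψ : G → ℂ) = pRegularPart p (χ : G → ℂ) := fun ψ hψ =>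
    pRegularPart_congr fun g hg => by
      obtain ⟨σ, h1, h2⟩ := h2 ψ hψ
      rw [h2, h1.apply_reg hp hn χ.2.isGeneralizedCharacter hg pow_card_eq_one']
  set Ψ : G → ℂ := ∑ ψ ∈ S, (ψ : G → ℂ) with hΨ
  have h4 : pRegularPart p Ψ = (r : ℂ) • pRegularPart p (χ : G → ℂ) := by
    rw [hΨ, pRegularPart_sum, Finset.sum_congr rfl h3, Finset.sum_const, hS, Nat.cast_smul_eq_nsmul]
  have h5 : ∀ ψ : IrrCharacter G, classInner Ψ ψ = if ψ ∈ S then 1 else 0 := fun ψ => by
    simp [hΨ, H05.classInner_sum_left, classInner_irr]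
  have h6 := factorization_degree_le p χ
  obtain ⟨i, hi⟩ := Nat.exists_eq_add_of_le' h6
  obtain ⟨m, hm⟩ := exists_int_pow_contrib hp χ χ.2.isGeneralizedCharacter hi.le
  have hc : contrib p (χ : G → ℂ) χ ≠ 0 := fun h => by
    rw [contrib_self_eq, classInner_self_eq_zero] at h
    exact χ.2.apply_one_ne_zero (by simpa [pRegularPart_apply, hp.ne_one] using congrFun h 1)
  have hp0 : (0 : ℝ) < p ^ i := pow_pos (by exact_mod_cast hp.pos) i
  have hm0 : 0 < m := by
    have h7 : (0 : ℝ) ≤ m := by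
      have := congrArg Complex.re hm
      rw [← Nat.cast_pow, ← Complex.ofReal_natCast, Complex.re_ofReal_mul, Complex.intCast_re] at this
      exact this ▸ mul_nonneg (Nat.cast_nonneg _) (contrib_self_re_nonneg _)
    refine lt_of_le_of_ne (by exact_mod_cast h7) ?_
    rintro rfl
    simp [hc, hp.ne_zero] at hm
  set s : ℝ := (Nat.card G : ℝ)⁻¹ * ∑ g with p ∣ orderOf g, ‖Ψ g‖ ^ 2 with hs
  have hs0 : 0 ≤ s := by positivity
  have h7 : (r : ℝ) * r * m = p ^ i * (r - s) := by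
    have := contrib_split (p := p) Ψ Ψ
    rw [contrib_self_eq, h4, H05.classInner_smul_left, classInner_natCast_smul_right, ← contrib_self_eq] at this
    nth_rw 2 [hΨ] at this
    rw [H05.classInner_sum_right, Finset.sum_congr rfl fun ψ hψ => (h5 ψ).trans (if_pos hψ)] at this
    apply Complex.ofReal_injective
    simp only [Complex.mul_conj', Finset.sum_const, hS, nsmul_eq_mul, mul_one] at this
    push_cast [hs]
    rw [← this, ← hm]; ring
  have hr1 : (0 : ℝ) < r := by exact_mod_cast hr0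
  have hm1 : (1 : ℝ) ≤ m := by exact_mod_cast hm0
  have h8 : r ≤ p ^ i := by
    have : (r : ℝ) * r ≤ p ^ i * r := by nlinarith [mul_pos hr1 hr1, mul_nonneg hp0.le hs0]
    exact_mod_cast le_of_mul_le_mul_right this hr1
  have h9 : r.factorization p ≤ i :=
    (Nat.pow_le_pow_iff_right hp.one_lt).1 ((Nat.le_of_dvd hr0 (Nat.ordProj_dvd r p)).trans h8)
  have hd := χ.2.charDegree_pos.ne'
  rw [hp.pow_dvd_iff_le_factorization (mul_ne_zero hr0.ne' hd), hp.pow_dvd_iff_le_factorization hd,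
    Nat.factorization_mul hr0.ne' hd, Finsupp.add_apply]
  refine ⟨by omega, fun h => ?_⟩
  have h10 : (p : ℝ) ^ i ≤ r := by
    exact_mod_cast Nat.le_of_dvd hr0 ((hp.pow_dvd_iff_le_factorization hr0.ne').2 (by omega))
  have h11 : ∀ g, p ∣ orderOf g → Ψ g = 0 := by
    have : s ≤ 0 := by
      by_contra! h
      nlinarith [mul_pos hr1 hr1, mul_pos hp0 h, mul_le_mul_of_nonneg_right h10 hr1.le]
    have := (mul_eq_zero.1 (le_antisymm this hs0)).resolve_left (by simp)
    rw [Finset.sum_eq_zero_iff_of_nonneg fun _ _ => by positivity] at this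
    exact fun g hg => by simpa using this g (by simpa using hg)
  have h12 : ∀ ψ : IrrCharacter G, contrib p (χ : G → ℂ) ψ ≠ 0 → ψ ∈ S := fun ψ hψ => by
    by_contra h
    have := h5 ψ
    rw [if_neg h, ← show pRegularPart p Ψ = Ψ from funext fun g => by
      rw [pRegularPart_apply]; split_ifs with h; exacts [(h11 g h).symm, rfl], h4, H05.classInner_smul_left] at this
    exact mul_ne_zero hrc hψ this
  have hB := H20.isPBlock_blockOf (M := M) χ
  have hχ := H20.mem_blockOf_self (M := M) χ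
  generalize blockOf M (χ : G → ℂ) = B at hB hχ
  have h13 : Finset.univ.filter (· ∈ B) = S := by
    obtain ⟨ψ₀, h0, h0'⟩ := H20.Cfsg.IsPBlock.exists_height_zero hB p
    have h14 := h12 _ (contrib_ne_zero hM hB hχ h0 h0')
    ext ψ
    simp only [Finset.mem_filter, Finset.mem_univ, true_and]
    refine ⟨fun hψ => h12 _ ?_, fun hψ => by_contra fun h => hc ?_⟩
    · have := contrib_ne_zero hM hB hψ h0 h0'
      rwa [contrib_comm ψ.2.isGeneralizedCharacter ψ₀.2.isGeneralizedCharacter, contrib, h3 _ h14] at this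
    · have := contrib_eq_zero hM (int_block hB) hχ h
      rwa [contrib_comm χ.2.isGeneralizedCharacter ψ.2.isGeneralizedCharacter, contrib, h3 _ hψ] at this
  obtain ⟨D, hD⟩ := H20.Cfsg.IsPBlock.exists_isDefectGroup hB p
  by_contra hne
  obtain ⟨⟨u, hu⟩, hu1⟩ := Subgroup.ne_bot_iff_exists_ne_one.1 fun h => hne
    ((H20.Cfsg.IsPBlock.blockDefect_eq_zero_iff hM hB hχ).1 ((H20.Cfsg.IsDefectGroup.eq_bot_iff hM hB hD).1 h)).ge
  have hu2 := orderOf_pow_of_mem (H20.Cfsg.IsDefectGroup.isPGroup hD) hu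
  have hu3 := dvd_orderOf_of_isPGroup (H20.Cfsg.IsDefectGroup.isPGroup hD) hu (by simpa using hu1)
  have hN : ∑ ψ ∈ S, (ψ : G → ℂ) u * conj ((ψ : G → ℂ) u) ≠ 0 := by
    have := sum_brSet hM hu2 (int_block hB) (y := 1) (y' := 1) (by simp [hp.ne_one]) (by simp [hp.ne_one])
    rw [h13, OneMemClass.coe_one, mul_one] at this
    rw [this, ← H21.finsum_mem_irr]
    exact sum_sq_degree_ne_zero ((subConj_iff_brSet_nonempty hM hB hD hu2).1 (.of_le (Subgroup.zpowers_le.2 hu)))
  have h14 : ∀ ψ : IrrCharacter G, ∃ k : ℕ, ψ ∈ S → k.Coprime (Nat.card G) ∧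
      ∀ g, (ψ : G → ℂ) g = (χ : G → ℂ) (g ^ k) := fun ψ => by
    by_cases hψ : ψ ∈ S
    · obtain ⟨σ, -, h⟩ := h2 ψ hψ
      obtain ⟨k, hk, hk'⟩ := exists_pow_of_galois G σ
      exact ⟨k, fun _ => ⟨hk, fun g => (h g).trans (hk' _ χ.2.isGeneralizedCharacter g)⟩⟩
    · exact ⟨0, fun h => absurd h hψ⟩
  choose k hk using h14
  have hko : ∀ ψ ∈ S, orderOf (u ^ k ψ) = orderOf u := fun ψ hψ =>
    Nat.Coprime.orderOf_pow ((hk ψ hψ).1.symm.coprime_dvd_left (orderOf_dvd_natCard u))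
  have h15 : ∀ ψ ∈ S, ∀ η ∈ S, (η : G → ℂ) (u ^ k ψ) = (ψ : G → ℂ) (u ^ k η) := fun ψ hψ η hη => by
    rw [(hk η hη).2, (hk ψ hψ).2, ← pow_mul, ← pow_mul, mul_comm]
  have h16 : ∀ ψ : IrrCharacter G, ∃ e : ℕ, ψ ∈ S → ∑ η ∈ S, (η : G → ℂ) u * conj ((η : G → ℂ) (u ^ k ψ)) =
      e * ∑ η ∈ S, (η : G → ℂ) u * conj ((η : G → ℂ) u) ∧ (ψ = χ → e = 1) := fun ψ => by
    by_cases hψ : ψ = χ
    · refine ⟨1, fun _ => ⟨?_, fun _ => rfl⟩⟩
      rw [Nat.cast_one, one_mul, hψ]
      exact Finset.sum_congr rfl fun η hη => by rw [h15 χ h1 η hη, ← (hk η hη).2]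
    by_cases hc : IsConj u (u ^ k ψ)
    · exact ⟨1, fun _ => ⟨by simp [← IsClassFunction.isConj (IsIrrCharacter.isClassFunction (Subtype.prop _)) hc],
        fun _ => rfl⟩⟩
    · refine ⟨0, fun h => ⟨?_, fun h => absurd h hψ⟩⟩
      rw [Nat.cast_zero, zero_mul, ← h13]
      exact block_orth hM (ring_blockCoeff hB) (by rwa [pPart_of_pow hu2, pPart_of_pow (hko ψ h ▸ hu2)])
  choose e he using h16
  have h17 : ((∑ ψ ∈ S, e ψ : ℕ) : ℂ) * ∑ η ∈ S, (η : G → ℂ) u * conj ((η : G → ℂ) u) = 0 := by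
    rw [Nat.cast_sum, Finset.sum_mul, ← Finset.sum_congr rfl fun ψ hψ => (he ψ hψ).1, Finset.sum_comm]
    refine Finset.sum_eq_zero fun η hη => ?_
    rw [← Finset.mul_sum, ← map_sum, Finset.sum_congr rfl fun ψ hψ => h15 ψ hψ η hη, ← Finset.sum_apply,
      ← hΨ, h11 _ (hko η hη ▸ hu3), map_zero, mul_zero]
  rw [mul_eq_zero_iff_right hN, Nat.cast_eq_zero, Finset.sum_eq_zero_iff] at h17
  exact one_ne_zero (((he χ h1).2 rfl).symm.trans (h17 χ h1))

end Cfsg.Agent.S4506
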