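import Mathlib
import Cfsg.Statements.S4507
import Cfsg.Agent.H19.DefOne2

set_option autoImplicit false
open Cfsg

namespace Cfsg.Agent.S4507

/-- Let G be a finite group whose order g is divisible by the prime p exactly once, g′ = g/p, and fix a maximal ideal M of the algebraic integers containing p. Call two irreducible characters p-conjugate when a field automorphism of ℂ fixing the g′-th roots of unity carries one to the other. Let B be a p-block of positive defect (its defect group is a Sylow p-subgroup). Then B contains a subset Y (the exceptional family) such that: Y is a full p-conjugacy class (its members are pairwise p-conjugate and every p-conjugate of a member of Y lies in Y); every member of B outside Y is p-conjugate only to itself; the size t of Y divides p − 1 and B has exactly t + (p − 1)/t members; and there are signs δ_χ = ±1 (χ ∈ B) such that for every p-regular element x and every θ ∈ Y, Σ_{χ ∈ B ∖ Y} δ_χ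 χ(x) + δ_θ θ(x) = 0. -/
theorem result {G : Type*} [Group G] [Finite G] (p : ℕ) [Fact p.Prime] (M : Ideal Cfsg.AlgInt) (hM : Cfsg.IsPModular p M) (hdiv : p ∣ Nat.card G) (hsq : ¬ p ^ 2 ∣ Nat.card G) (B : Set (Cfsg.IrrCharacter G)) (hB : Cfsg.IsPBlock M B) (hd : 0 < Cfsg.blockDefect p B) : ∃ Y : Set (Cfsg.IrrCharacter G), Y ⊆ B ∧ Y.Nonempty ∧ (∀ θ ∈ Y, ∀ ψ : Cfsg.IrrCharacter G, (∃ σ : ℂ ≃+* ℂ, σ (Complex.exp (2 * Real.pi * Complex.I / ((Nat.card G / p ^ (Nat.card G).factorization p) : ℕ))) = Complex.exp (2 * Real.pi * Complex.I / ((Nat.card G / p ^ (Nat.card G).factorization p) : ℕ)) ∧ (ψ : G → ℂ) = fun g => σ ((θ : G → ℂ) g)) ↔ ψ ∈ Y) ∧ (∀ χ ∈ B, χ ∉ Y → ∀ ψ : Cfsg.IrrCharacter G, (∃ σ : ℂ ≃+* ℂ, σ (Complex.exp (2 * Real.pi * Complex.I / ((Nat.card G / p ^ (Nat.card G).factorization p) : ℕ))) = Complex.exp (2 * Real.pi * Complex.I / ((Nat.card G / p ^ (Nat.card G).factorization p) : ℕ)) ∧ (ψ : G → ℂ) = fun g => σ ((χ : G →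 ℂ) g)) → ψ = χ) ∧ Nat.card Y ∣ p - 1 ∧ Nat.card B = Nat.card Y + (p - 1) / Nat.card Y ∧ ∃ δ : Cfsg.IrrCharacter G → ℤ, (∀ χ ∈ B, δ χ = 1 ∨ δ χ = -1) ∧ ∀ x : G, ¬ p ∣ orderOf x → ∀ θ ∈ Y, (∑ᶠ χ ∈ B \ Y, (δ χ : ℂ) * (χ : G → ℂ) x) + (δ θ : ℂ) * (θ : G → ℂ) x = 0 := by
  classical
  have hp := (Fact.out : p.Prime)
  obtain ⟨P⟩ : Nonempty (Sylow p G) := inferInstance
  have hf : (Nat.card G).factorization p = 1 := by
    have h2 := (hp.dvd_iff_one_le_factorization Nat.card_pos.ne').1 hdiv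
    have h3 := mt (hp.pow_dvd_iff_le_factorization Nat.card_pos.ne').2 hsq
    omega
  obtain ⟨H, _, _, S, hS⟩ := H19.exists_dOne' P (by rw [P.card_eq_multiplicity, hf, pow_one])
  let _ := Fintype.ofFinite G
  let _ := Fintype.ofFinite P
  obtain ⟨θ, rfl⟩ := S.exists_eq_Blk hM hB hd
  obtain ⟨X, Y, δ, ε, hD⟩ := S.exists_desc θ
  obtain ⟨m, hm⟩ : ∃ m, m = Nat.card G / p ^ (Nat.card G).factorization p := ⟨_, rfl⟩
  have hm1 : ¬ p ∣ m := hm ▸ Nat.not_dvd_ordCompl hp Nat.card_pos.ne'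
  have hm0 : m ≠ 0 := fun h => hm1 (h ▸ dvd_zero p)
  have hm2 : ∀ g : G, ¬ p ∣ orderOf g → g ^ m = 1 := fun g hg => by
    have h1 := orderOf_dvd_natCard g
    rw [← Nat.ordProj_mul_ordCompl_eq_self (Nat.card G) p, ← hm] at h1
    exact orderOf_dvd_iff_pow_eq_one.1 ((Nat.Coprime.pow_right _ ((Nat.Prime.coprime_iff_not_dvd hp).2 hg).symm).dvd_of_dvd_mul_left h1)
  have hm3 : ∀ h : H, h ^ m = 1 := fun h => S.injH (by simpa using hm2 _ (S.not_dvd_orderOf_H h))
  have hfix : ∀ σ : ℂ ≃+* ℂ, σ (Complex.exp (2 * Real.pi * Complex.I / m)) = Complex.exp (2 * Real.pi * Complex.I / m) ↔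
      H19.FixR m σ := fun σ => by
    have hζ := Complex.isPrimitiveRoot_exp m hm0
    have : NeZero m := ⟨hm0⟩
    refine ⟨fun h ω hω => ?_, fun h => h _ hζ.pow_eq_one⟩
    obtain ⟨i, -, rfl⟩ := hζ.eq_pow_of_pow_eq_one hω
    rw [map_pow, h]
  rw [← hm]
  simp only [hfix]
  have hY : Y.card ≠ 0 := fun h => by
    have := hD.cardY
    have := hp.two_le
    rw [h] at *; omega
  have hXY : S.Blk θ \ (Y : Set _) = X := by
    ext χ
    have : χ ∈ X → χ ∉ Y := fun h => Finset.disjoint_left.1 hD.disj h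
    simp only [Set.mem_diff, hD.mem, Finset.mem_coe]; tauto
  refine ⟨Y, fun χ h => (hD.mem χ).2 (Or.inr h), by simpa using Finset.card_ne_zero.1 hY, fun ψ hψ ψ' => ⟨?_, fun h => ?_⟩,
    fun χ h1 h2 ψ => ?_, by simpa using Dvd.intro _ hD.cardY, ?_, fun χ => if χ ∈ Y then -ε else δ χ, fun χ h => ?_,
    fun g hg ψ hψ => ?_⟩
  · rintro ⟨σ, hσ, e⟩
    obtain rfl : ψ' = H19.gal σ ψ := Subtype.ext e
    refine ((hD.mem _).1 (S.gal_mem_Blk hm3 hσ ((hD.mem ψ).2 (Or.inr hψ)))).resolve_left fun h => ?_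
    have := hD.gal_X h hm2 hσ.symm
    rw [H19.gal_symm_gal] at this
    exact Finset.disjoint_left.1 hD.disj (this ▸ h) hψ
  · obtain ⟨σ, hσ, rfl⟩ := hD.galois m hm1 hm3 ψ hψ ψ' h
    exact ⟨σ, hσ, rfl⟩
  · rintro ⟨σ, hσ, e⟩
    obtain rfl : ψ = H19.gal σ χ := Subtype.ext e
    exact hD.gal_X (((hD.mem χ).1 h1).resolve_right h2) hm2 hσ
  · have : S.Blk θ = ((Y ∪ X : Finset _) : Set _) := by ext χ; simpa [or_comm] using hD.mem χ
    rw [this, ← hD.cardY, ← hD.cardX]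
    simp only [SetLike.coe_sort_coe, Nat.card_eq_fintype_card, Fintype.card_coe]
    rw [Finset.card_union_of_disjoint hD.disj.symm, Nat.mul_div_cancel_left _ (Nat.pos_of_ne_zero hY)]
  · have := hD.sign
    dsimp only
    split_ifs with h1
    · omega
    · exact hD.signX χ (((hD.mem χ).1 h).resolve_right h1)
  · dsimp only
    rw [hXY, finsum_mem_coe_finset, Finset.sum_congr rfl fun χ h => by
      rw [if_neg (Finset.disjoint_left.1 hD.disj h)], ← hD.reg ψ hψ g hg, if_pos (by exact hψ)]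
    simp

end Cfsg.Agent.S4507
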