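import Mathlib
import Cfsg.Statements.S4508
import Cfsg.Agent.H19.SelfC

set_option autoImplicit false
open Cfsg

namespace Cfsg.Agent.S4508

/-- Let the finite group G contain an element x of prime order p with C_G(x) = ⟨x⟩, and let t be the number of conjugacy classes of elements of order p. If G has an irreducible character of degree p − 1, then t is even or the commutator subgroup has even index. -/
theorem result {G : Type*} [Group G] [Finite G] (p : ℕ) (hp : p.Prime) (x : G) (hx : orderOf x = p) (hC : Subgroup.centralizer ({x} : Set G) = Subgroup.zpowers x) (t : ℕ) (ht : Nat.card {C : ConjClasses G // ∃ g ∈ C.carrier, orderOf g = p} = t) (χ : Cfsg.IrrCharacter G) (hχ : Cfsg.charDegree (χ : G → ℂ) + 1 = p) : Even t ∨ Even (commutator G).index := by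
  have := Fact.mk hp
  have := Fintype.ofFinite G
  obtain ⟨P, H, _, _, _, _, T, y, hK, hy, rfl⟩ := H19.exists_dOne_selfC hx hC
  have h1 := T.card_classes
  rw [ht, T.index_K hK] at h1
  exact (Nat.even_or_odd t).imp_right (T.even_of_deg hK hχ h1)

end Cfsg.Agent.S4508
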