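import Mathlib
import Cfsg.Statements.S4509
import Cfsg.Agent.H19.SelfC

set_option autoImplicit false
open Cfsg

namespace Cfsg.Agent.S4509

/-- Let the finite group G contain an element x of prime order p with C_G(x) = ⟨x⟩; let t be the number of conjugacy classes of elements of order p and 1 + n·p the number of subgroups of order p. Then G has a normal subgroup of order 1 + n·p if and only if either t = p − 1, or t < p − 1 and G″ ≠ G′. Moreover, if t = p − 1 then G′ has order 1 + n·p and G/G′ is cyclic of order p; and if t < p − 1 and G″ ≠ G′ then G″ has order 1 + n·p and G′ has order p·(1 + n·p). -/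
theorem result {G : Type*} [Group G] [Finite G] (p : ℕ) (hp : p.Prime) (x : G) (hx : orderOf x = p) (hC : Subgroup.centralizer ({x} : Set G) = Subgroup.zpowers x) (t : ℕ) (ht : Nat.card {C : ConjClasses G // ∃ g ∈ C.carrier, orderOf g = p} = t) (n : ℕ) (hn : Nat.card {H : Subgroup G // Nat.card H = p} = 1 + n * p) : ((∃ S : Subgroup G, S.Normal ∧ Nat.card S = 1 + n * p) ↔ (t = p - 1 ∨ (t < p - 1 ∧ derivedSeries G 2 ≠ derivedSeries G 1))) ∧ (t = p - 1 → Nat.card (commutator G) = 1 + n * p ∧ IsCyclic (G ⧸ commutator G) ∧ (commutator G).index = p) ∧ (t < p - 1 → derivedSeries G 2 ≠ derivedSeries G 1 → Nat.card (derivedSeries G 2) = 1 + n * p ∧ Nat.card (commutator G) = p * (1 + n * p)) := by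
  have := Fact.mk hp
  have := Fintype.ofFinite G
  obtain ⟨P, H, _, _, _, _, T, y, hK, hy, rfl⟩ := H19.exists_dOne_selfC hx hC
  have h1 := T.card_classes
  rw [ht, T.index_K hK] at h1
  have h0 : 0 < p - 1 := Nat.sub_pos_of_lt hp.one_lt
  have h2 : t = p - 1 ↔ Nat.card H = 1 :=
    ⟨fun e => Nat.eq_of_mul_eq_mul_left h0 (by rw [mul_one, ← e, h1, e]), fun e => by rw [← h1, e, mul_one]⟩
  rw [T.card_subgroups] at hn
  have h3 : t = p - 1 → Nat.card (commutator G) = 1 + n * p := fun h => by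
    have := (commutator G).card_mul_index
    rw [T.index_commutator hK (h2.1 h), T.card_G, h2.1 h, mul_one, mul_comm, hn] at this
    exact Nat.eq_of_mul_eq_mul_left hp.pos this
  have h4 := fun (h : t < p - 1) h' => hn ▸ T.card_derived_two hK (mt h2.2 h.ne) h'
  refine ⟨⟨fun ⟨S, _, hS⟩ => or_iff_not_imp_left.2 fun h => ⟨lt_of_le_of_ne (h1 ▸ Nat.le_mul_of_pos_right _ Nat.card_pos) h,
    fun e => ?_⟩, fun h => h.elim (fun h => ⟨_, inferInstance, h3 h⟩) fun h => ⟨_, inferInstance, (h4 h.1 h.2).1⟩⟩,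
    fun h => ⟨h3 h, isCyclic_of_prime_card (T.index_commutator hK (h2.1 h)), T.index_commutator hK (h2.1 h)⟩, h4⟩
  have h5 : ¬ p ∣ Nat.card S := fun e => hp.not_dvd_one ((Nat.dvd_add_left (dvd_mul_left p n)).1 (hS ▸ e))
  have h6 : S ⊔ T.N = ⊤ := Subgroup.eq_top_of_card_eq _ (by rw [T.card_mul_card_N hK h5, hS, ← hn, T.N.index_mul_card])
  have h7 : ∀ g : G, ∃ z k, (g : G ⧸ S) = (T.jP z * T.jH k :) := fun g => by
    obtain ⟨s, hs, m, hm, rfl⟩ := Subgroup.mem_sup_of_normal_left.1 (h6 ▸ Subgroup.mem_top g)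
    obtain ⟨z, k, rfl⟩ := T.decomp m hm
    exact ⟨z, k, by rw [QuotientGroup.mk_mul, (QuotientGroup.eq_one_iff _).2 hs, one_mul]⟩
  have : (T.jP.range.map (QuotientGroup.mk' S)).Normal := ⟨by
    rintro _ ⟨_, ⟨w, rfl⟩, rfl⟩ g
    obtain ⟨g, rfl⟩ := QuotientGroup.mk_surjective g
    obtain ⟨z, k, e⟩ := h7 g
    have := T.conj_mul z w k 1
    simp only [OneMemClass.coe_one, map_one, mul_one, mul_inv_cancel] at this
    exact ⟨_, ⟨T.a k w, rfl⟩, by rw [e, ← this]; rfl⟩⟩
  have h8 := T.commutator_le hK (M := (T.jP.range.map (QuotientGroup.mk' S)).comap (QuotientGroup.mk' S))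
    (T.dvd_card_of_mem hy ⟨_, ⟨y, rfl⟩, rfl⟩)
  have h9 : derivedSeries G 2 ≤ S := Subgroup.commutator_le.2 fun a ha b hb => by
    obtain ⟨_, ⟨u, rfl⟩, hu⟩ := h8 ha
    obtain ⟨_, ⟨v, rfl⟩, hv⟩ := h8 hb
    rw [← QuotientGroup.eq_one_iff, ← QuotientGroup.mk'_apply, map_commutatorElement, ← hu, ← hv,
      ← map_commutatorElement, ← map_commutatorElement, commutatorElement_eq_one_iff_mul_comm.2 (T.commP u v), map_one, map_one]
  exact h5 ((T.dvd_card_commutator hK (mt h2.2 h)).trans (Subgroup.card_dvd_of_le (e.ge.trans h9)))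

end Cfsg.Agent.S4509
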