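import Mathlib
import Cfsg.Statements.S4510
import Cfsg.Agent.H21.DefectVal

set_option autoImplicit false
open Cfsg

namespace Cfsg.Agent.S4510
open H05 Cfsg H20 H21 MonoidAlgebra Classical
open scoped ComplexConjugate

/-- Let G be a finite group, p a prime, M a maximal ideal of the algebraic integers containing p, and call the defect of a conjugacy class the exponent of p in the order of the centralizer of its elements. Two irreducible characters lying in p-blocks of defect exactly d lie in the same block if and only if their central characters (class size times χ(x)/χ(1)) agree modulo the local ideal at M at every p-regular element x whose class has defect exactly d. -/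
theorem result {G : Type*} [Group G] [Finite G] (p : ℕ) [Fact p.Prime] (M : Ideal Cfsg.AlgInt) (hM : Cfsg.IsPModular p M) (d : ℕ) (χ ψ : Cfsg.IrrCharacter G) (hχ : Cfsg.blockDefect p (Cfsg.blockOf M (χ : G → ℂ)) = d) (hψ : Cfsg.blockDefect p (Cfsg.blockOf M (ψ : G → ℂ)) = d) : Cfsg.SameBlock M (χ : G → ℂ) (ψ : G → ℂ) ↔ ∀ x : G, ¬ p ∣ orderOf x → (Nat.card (Subgroup.centralizer ({x} : Set G))).factorization p = d → Cfsg.MemLocalIdeal M (Cfsg.centralChar (χ : G → ℂ) x - Cfsg.centralChar (ψ : G → ℂ) x) := by
  haveI := hM.2.1
  refine ⟨fun h x _ _ => h x, fun h => ?_⟩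
  have hB := H21.isPBlock_blockOf (M := M) χ
  have hB' := H21.isPBlock_blockOf (M := M) ψ
  have hχB := H21.mem_blockOf_self (M := M) χ
  have hψB := H21.mem_blockOf_self (M := M) ψ
  -- `λ_χ` and `λ_ψ` agree on `e_B`
  have key : lam M (ψ : G → ℂ) (eB M (blockOf M (χ : G → ℂ))) =
      lam M (χ : G → ℂ) (eB M (blockOf M (χ : G → ℂ))) := by
    refine lam_ext_classSum (fun a b => lam_add ψ.2) (fun c a h => lam_smul ψ.2 h c)
      (fun a b => lam_add χ.2) (fun c a h => lam_smul χ.2 h c) (isCen_eB _) fun g hg => ?_
    have hreg := hB.not_dvd_of_coeff_eB_ne_zero hM hg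
    obtain ⟨θ, hθ, h1⟩ := hB.factorization_centralizer_le hM
      (fun h' => hg ((hB.coeff_eB_eq_zero_iff g).2 h'))
    have h2 := factorization_degree_add p hθ
    have h3 := factorization_index_add (p := p) (Subgroup.centralizer ({g} : Set G))
    by_cases hd : (Nat.card (Subgroup.centralizer ({g} : Set G))).factorization p = d
    · rw [lam_classSum ψ.2, lam_classSum χ.2, eq_comm,
        red_eq_iff (ring_centralChar χ.2 g) (ring_centralChar ψ.2 g)]
      exact h g hreg hd
    · have van : ∀ η : IrrCharacter G, blockDefect p (blockOf M (η : G → ℂ)) = d →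
          lam M (η : G → ℂ) (classSum (Res M) g) = 0 := by
        intro η hη
        obtain ⟨η₀, hη₀, h0⟩ := H21.exists_height_zero p ⟨η, H21.mem_blockOf_self (M := M) η⟩
        rw [sameBlock_lam hη₀ (isCen_classSum g), lam_classSum_eq_zero_iff η₀.2]
        by_contra hcon
        have h4 := factorization_index_le_of_not_ideal hM η₀ hcon
        have h5 := (blockHeight_eq_zero_iff p hη₀).1 h0
        omega
      rw [van ψ hψ, van χ hχ]
  rw [hB.lam_eB_of_mem hχB] at key
  exact hB.lam_eB_eq_one_iff.1 key

end Cfsg.Agent.S4510
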