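import Mathlib
import Cfsg.Statements.S4512
import Cfsg.Agent.H21.Klein

set_option autoImplicit false
open Cfsg

namespace Cfsg.Agent.S4512
open H05 Cfsg H20 H21 MonoidAlgebra Classical
open scoped ComplexConjugate

/-- If G is a finite group with a Sylow 2-subgroup that is a Klein four-group and a single conjugacy class of involutions, then its principal 2-block (relative to a maximal ideal M of the algebraic integers containing 2) has 2-regular rank 3: the restrictions of its irreducible characters to the elements of odd order span a space of dimension 3 (it has three irreducible Brauer characters). -/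
theorem result {G : Type*} [Group G] [Finite G] (M : Ideal Cfsg.AlgInt) (hM : Cfsg.IsPModular 2 M) (P : Sylow 2 G)
    (hP : Nat.card P = 4) (hexp : ∀ x : P, x * x = 1)
    (hone : ∀ s t : G, orderOf s = 2 → orderOf t = 2 → IsConj s t) :
    Cfsg.blockRank 2 (Cfsg.principalBlock M G) = 3 := by
  exact KleinHyp.rank_eq ⟨hM, H08.isKleinFour_iff.2 ⟨hP, fun x hx =>
    congrArg Subtype.val (hexp ⟨x, hx⟩)⟩, hone⟩

end Cfsg.Agent.S4512
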