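import Mathlib
import Cfsg.Statements.S4513
import Cfsg.Agent.H21.FrobB

set_option autoImplicit false
open Cfsg

namespace Cfsg.Agent.S4513
open H05 Cfsg H20 H21 MonoidAlgebra Classical
open scoped ComplexConjugate
attribute [-instance] H19.instFintypeSubgroupFrob

/-- Blocks of defect one for p = 2. Let M be a maximal ideal of the algebraic integers containing 2, B a 2-block of the finite group G whose defect group is the subgroup generated by an involution x, C = C_G(x), b a block of C inducing B and θ a member of b taking the same value at x as at 1 (there is exactly one). Then B consists of exactly two irreducible characters, which agree on every element of odd order, and they can be labelled χ₁, χ₂ with signs ε₁, ε₂ = ±1, ε₁ε₂ = −1, such that χᵢ(x y) = εᵢ θ(y) for every element y of C of odd order. -/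
theorem result {G : Type*} [Group G] [Finite G] (M : Ideal Cfsg.AlgInt) (hM : Cfsg.IsPModular 2 M) (x : G) (hx : orderOf x = 2)
    (B : Set (Cfsg.IrrCharacter G)) (hB : Cfsg.IsPBlock M B) (hBD : Cfsg.IsDefectGroup 2 M B (Subgroup.zpowers x))
    (b : Set (Cfsg.IrrCharacter ↥(Subgroup.centralizer ({x} : Set G)))) (hb : Cfsg.IsInducedBlock M (Subgroup.centralizer ({x} : Set G)) b B)
    (θ : Cfsg.IrrCharacter ↥(Subgroup.centralizer ({x} : Set G))) (hθ : θ ∈ b)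
    (hθx : ∀ z : ↥(Subgroup.centralizer ({x} : Set G)), (z : G) = x → (θ : ↥(Subgroup.centralizer ({x} : Set G)) → ℂ) z = (θ : ↥(Subgroup.centralizer ({x} : Set G)) → ℂ) 1) :
    Nat.card B = 2 ∧ (∀ χ ∈ B, ∀ ψ ∈ B, ∀ g : G, ¬ 2 ∣ orderOf g → (χ : G → ℂ) g = (ψ : G → ℂ) g) ∧
      ∃ χ₁ ∈ B, ∃ χ₂ ∈ B, χ₁ ≠ χ₂ ∧ ∃ ε₁ ε₂ : ℤ, (ε₁ = 1 ∨ ε₁ = -1) ∧ (ε₂ = 1 ∨ ε₂ = -1) ∧ ε₁ * ε₂ = -1 ∧
        ∀ y : ↥(Subgroup.centralizer ({x} : Set G)), ¬ 2 ∣ orderOf y →
          (χ₁ : G → ℂ) (x * y) = (ε₁ : ℂ) * (θ : ↥(Subgroup.centralizer ({x} : Set G)) → ℂ) y ∧ (χ₂ : G → ℂ) (x * y) = (ε₂ : ℂ) * (θ : ↥(Subgroup.centralizer ({x} : Set G)) → ℂ) y := by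
  haveI := hM.2.1
  haveI := Fintype.ofFinite G
  haveI := Fact.mk Nat.prime_two
  clear hθx
  revert b θ
  rw [← centralizer_zpowers]
  intro b hb θ hθ
  have h := mx_of_induced hM hBD hb
  have hx' := Subgroup.mem_zpowers x
  have hx1 : x ≠ 1 := by rintro rfl; simp at hx
  have hab : Subgroup.zpowers x ≤ Subgroup.centralizer (Subgroup.zpowers x : Set G) :=
    Subgroup.le_centralizer _
  have h1 : ∀ g, g * x * g⁻¹ ∈ Subgroup.zpowers x →
      g ∈ Subgroup.centralizer (Subgroup.zpowers x : Set G) := fun g hg => by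
    rw [mem_zpowers_iff_mem_range_orderOf, hx, Finset.mem_image] at hg
    obtain ⟨k, hk, e⟩ := hg
    rw [Finset.mem_range] at hk
    interval_cases k
    · exact (hx1 (by simpa using e.symm)).elim
    · exact mem_centralizer_zpowers.2 (by simpa using e.symm)
  have hn : pstab ⟨_, b⟩ ≤ Subgroup.centralizer (Subgroup.zpowers x : Set G) := fun t ht =>
    h1 t (Mx.conj_mem ht hx')
  have hN : NR ⟨_, b⟩ (Subgroup.zpowers x) := ⟨le_rfl, inf_le_left.trans hn⟩
  have hb' : sb M 2 ⟨_, b⟩ x = b := eq_of_heq (Sigma.mk.inj h.fp_self).2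
  have h2 : Nat.card B = 2 := by rw [h.nil_card hab hn, Nat.card_zpowers, hx]
  have h3 : ∀ χ ∈ B, ∀ y : Subgroup.centralizer (Subgroup.zpowers x : Set G), ¬ 2 ∣ orderOf y →
      (χ : G → ℂ) (x * y) = ndc M 2 ⟨_, b⟩ χ (Subgroup.zpowers x) x * θ.1 y := fun χ hχ y hy => by
    have e : pPart 2 (x * y) = x := pPart_mul_of_commute ⟨1, hx⟩ (by simpa using hy) (y.2 x hx')
    rw [h.apply_eq_sum_pc (blockPart_irr_of_mem hχ), e, Finset.sum_eq_single (sp M 2 ⟨_, b⟩ x),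
      h.ex_sp (η := 1) (fSt_const 1) hx', Pi.one_apply, one_mul,
      ← h.bs_eq_nd hab hN χ.2.isClassFunction (hb'.symm ▸ hθ) hy]
    · exact (bs_eq_pc (a := sp M 2 ⟨_, b⟩ x) χ.2.isClassFunction hx' y).symm
    · intro a ha hne
      rw [h.ex_eq_zero, zero_mul]
      intro h4
      obtain ⟨g, hg⟩ := h.exists_iff.2 h4
      have h5 := (mem_pairs.1 ha).1
      rw [mem_pstab.1 (centralizer_le_pstab a (h5 ▸ h1 g
        (hg.le (conj_mem_cj.2 (h5 ▸ hx')))))] at hg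
      exact hne (h.eq_sp hg h5)
    · exact fun h4 => (h4 (h.sp_mem hx')).elim
  have h0 : ¬ 2 ∣ orderOf (1 : Subgroup.centralizer (Subgroup.zpowers x : Set G)) := by simp
  have h4 : ∀ χ ∈ B, ∃ ε : ℤ, (ε = 1 ∨ ε = -1) ∧ ndc M 2 ⟨_, b⟩ χ (Subgroup.zpowers x) x = ε :=
    fun χ hχ => by
      have h5 := h.mv_eq_nd hab hN χ.2.isClassFunction χ.2.isClassFunction
      have h6 := h3 χ hχ 1 h0
      have h7 := χ.2.isGeneralizedCharacter.apply_inv x
      rw [OneMemClass.coe_one, mul_one] at h6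
      rw [inv_eq_of_mul_eq_one_left (by rw [← sq, ← hx, pow_orderOf_eq_one]), h6, map_mul,
        ← θ.2.isGeneralizedCharacter.apply_inv, inv_one, mul_left_inj' θ.2.apply_one_ne_zero] at h7
      rw [h.nil_mv hab hn hχ hx', ← h7, eq_comm, mul_self_eq_one_iff] at h5
      rcases h5 with h5 | h5
      exacts [⟨1, .inl rfl, by simpa using h5⟩, ⟨-1, .inr rfl, by simpa using h5⟩]
  refine ⟨h2, fun χ hχ ψ hψ g hg => h.nil_agree hab hn hχ hψ hg, ?_⟩
  rw [natCard_eq_card_filter, Finset.card_eq_two] at h2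
  obtain ⟨χ, ψ, hne, e⟩ := h2
  have hχ : χ ∈ B := (Finset.mem_filter.1 (e ▸ Finset.mem_insert_self _ _ :)).2
  have hψ : ψ ∈ B := (Finset.mem_filter.1 (e ▸ Finset.mem_insert_of_mem (Finset.mem_singleton_self _) :)).2
  obtain ⟨ε, h5, h6⟩ := h4 χ hχ
  obtain ⟨ε', h7, h8⟩ := h4 ψ hψ
  refine ⟨χ, hχ, ψ, hψ, hne, ε, ε', h5, h7, ?_, fun y hy => ⟨h6 ▸ h3 χ hχ y hy, h8 ▸ h3 ψ hψ y hy⟩⟩
  have h9 := block_orth hM (ring_blockCoeff hB) (g := x * (1 : Subgroup.centralizer (Subgroup.zpowers x : Set G))) (h := 1) (by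
    rw [pPart_one, isConj_one_left, pPart_eq_one_iff]; simp [hx])
  rw [e, Finset.sum_pair hne, h3 χ hχ 1 h0, h3 ψ hψ 1 h0, h6, h8, h.nil_agree hab hn hχ hψ (by simp),
    ← add_mul, ← add_mul, mul_eq_zero, mul_eq_zero, map_eq_zero] at h9
  have h10 : ε + ε' = 0 := by
    exact_mod_cast (h9.resolve_right ψ.2.apply_one_ne_zero).resolve_right θ.2.apply_one_ne_zero
  rcases h5 with rfl | rfl <;> omega

end Cfsg.Agent.S4513
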