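import Mathlib
import Cfsg.Agent.H20.Misc
-- Template for statement S4633 (row 4633; see /opt/grader/pristine/manifest.json for weights).
-- Copy to Cfsg/Agent/S4633.lean and replace the sorry. The statement below is byte-identical to the frozen
-- statement Cfsg.CfsgFrozen.S4633 (Cfsg/Statements/S4633.lean; the theorem Cfsg.blk6_cyclic_defect_inertial_quotient_structure);
-- the grader kernel-checks Cfsg.Agent.S4633.result against that frozen type. Keep the theorem IN THIS FILE
-- (a `result` declared elsewhere and merely imported here is not credited); helpers may live anywhere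
-- under Cfsg/Agent/.
import Cfsg.Statements.S4633
-- import your own Cfsg.Agent.* helpers here

set_option autoImplicit false
open Cfsg

open H20 H05 H21 MonoidAlgebra Cfsg

namespace Cfsg.Agent.S4633

/-- Let B be a block of the finite group G relative to a maximal ideal M of the algebraic integers containing the prime p, with a nontrivial cyclic defect group P. Let c be a block of C_G(P) inducing B and T the stabilizer of c in N_G(P) (the elements of N_G(P) conjugating c to itself); T contains C_G(P). Then T/C_G(P) is cyclic of order dividing p − 1, and it acts freely on the non-identity elements of P: an element of T fixing some non-identity element of P under conjugation lies in C_G(P). -/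
theorem result {G : Type*} [Group G] [Finite G] (p : ℕ) [Fact p.Prime] (M : Ideal Cfsg.AlgInt) (hM : Cfsg.IsPModular p M) (B : Set (Cfsg.IrrCharacter G)) (hB : Cfsg.IsPBlock M B) (P : Subgroup G) (hPD : Cfsg.IsDefectGroup p M B P) (hP1 : P ≠ ⊥) (hcyc : IsCyclic P) (c : Set (Cfsg.IrrCharacter (Subgroup.centralizer (P : Set G)))) (hc : Cfsg.IsInducedBlock M (Subgroup.centralizer (P : Set G)) c B) (T : Subgroup G) (hT : ∀ g : G, g ∈ T ↔ (g ∈ Subgroup.normalizer (P : Set G) ∧ Cfsg.StabilizesBlock (Subgroup.centralizer (P : Set G)) c g)) [hn : ((Subgroup.centralizer (P : Set G)).subgroupOf T).Normal] : IsCyclic (T ⧸ (Subgroup.centralizer (P : Set G)).subgroupOf T) ∧ (Subgroup.centralizer (P : Set G)).relIndex T ∣ p - 1 ∧ ∀ g ∈ T, ∀ x ∈ P, x ≠ 1 → g * x * g⁻¹ = x → g ∈ Subgroup.centralizer (P : Set G) := by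
  have := hM.2.1
  have h1 : POf p M B ⟨P, c⟩ := pOf_of_isInducedBlock_centralizer hM hPD.isPGroup hc
  have h2 := h1.pMax_of_isDefectGroup hM hPD
  have h3 : T = pstab ⟨P, c⟩ := Subgroup.ext fun g => (hT g).trans (mem_pstab_iff (a := ⟨P, c⟩)).symm
  have h4 : P ≤ Subgroup.centralizer (P : Set G) := by
    have := hcyc.isMulCommutative
    exact Subgroup.le_centralizer P
  have h5 : T ≤ Subgroup.normalizer (P : Set G) := fun g hg => ((hT g).1 hg).1
  have h6 : ∀ g ∈ T, ∀ x ∈ P, x ≠ 1 → g * x * g⁻¹ = x → g ∈ Subgroup.centralizer (P : Set G) := by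
    intro g hg x hx hx1 hgx
    have e1 : pPart p g ∈ Subgroup.centralizer (P : Set G) := by
      have := h2.pPart_mem hM (h3 ▸ hg)
      rwa [sup_eq_right.2 h4] at this
    have e2 : pReg p g ∈ Subgroup.centralizer (P : Set G) :=
      mem_centralizer_of_isCyclic hPD.isPGroup hcyc (pReg_mem p (h5 hg)) (not_dvd_orderOf_pReg p g) hx hx1
        (mul_inv_eq_iff_eq_mul.2 (commute_pReg p (a := x) (mul_inv_eq_iff_eq_mul.1 hgx).symm).symm)
    rw [← pPart_mul_pReg p g]
    exact mul_mem e1 e2
  obtain ⟨h7, h8⟩ := cyclic_quot_of_free hPD.isPGroup hcyc hP1 h5 h6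
  exact ⟨h7, h8, h6⟩

end Cfsg.Agent.S4633
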