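import Mathlib
import Cfsg.Statements.S4634
import Cfsg.Agent.H21.DadeE

set_option autoImplicit false
open Cfsg

namespace Cfsg.Agent.S4634
open H05 Cfsg H20 H21 MonoidAlgebra Classical
open scoped ComplexConjugate
attribute [-instance] H19.instFintypeSubgroupFrob

/-- Let B be a block of the finite group G relative to a maximal ideal M of the algebraic integers containing the prime p, with a nontrivial cyclic defect group P, let c be a block of C_G(P) inducing B, T the stabilizer of c in N_G(P) and e the index of C_G(P) in T. Let F be any finite group of order #P · e having a cyclic subgroup Q of order #P that is its own centralizer (F is then the semidirect product of Q by a cyclic group of order e acting faithfully). Then there is a perfect isometry from the set of all irreducible characters of F onto B whose signs agree on all the characters of F that do not contain Q in their kernel. -/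
theorem result {G : Type*} [Group G] [Finite G] (p : ℕ) [Fact p.Prime] (M : Ideal Cfsg.AlgInt) (hM : Cfsg.IsPModular p M) (B : Set (Cfsg.IrrCharacter G)) (hB : Cfsg.IsPBlock M B) (P : Subgroup G) (hPD : Cfsg.IsDefectGroup p M B P) (hP1 : P ≠ ⊥) (hcyc : IsCyclic P) (c : Set (Cfsg.IrrCharacter (Subgroup.centralizer (P : Set G)))) (hc : Cfsg.IsInducedBlock M (Subgroup.centralizer (P : Set G)) c B) (T : Subgroup G) (hT : ∀ g : G, g ∈ T ↔ (g ∈ Subgroup.normalizer (P : Set G) ∧ Cfsg.StabilizesBlock (Subgroup.centralizer (P : Set G)) c g)) (e : ℕ) (he : (Subgroup.centralizer (P : Set G)).relIndex T = e) (F : Type*) [Group F] [Finite F] (hF : Nat.card F = Nat.card P * e) (Q : Subgroup F) (hQ : IsCyclic Q) (hQcard : Nat.card Q = Nat.card P) (hQC : Subgroup.centralizer (Q : Set F) = Q) : ∃ (I : Cfsg.IrrCharacter F → Cfsg.IrrCharacter G) (ε : Cfsg.IrrCharacter F → ℤ), Cfsg.IsPerfectIsometry p M (Set.univ : Set (Cfsg.IrrCharacter F)) B I ε ∧ ∀ η η' : Cfsg.IrrCharacter F, (∃ x ∈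 Q, (η : F → ℂ) x ≠ (η : F → ℂ) 1) → (∃ x ∈ Q, (η' : F → ℂ) x ≠ (η' : F → ℂ) 1) → ε η = ε η' := by
  haveI := hM.2.1
  haveI := Fintype.ofFinite G
  haveI := Fintype.ofFinite F
  have h := mx_of_induced hM hPD hc
  obtain rfl : T = pstab ⟨P, c⟩ := Subgroup.ext fun g => (hT g).trans (mem_pstab_iff (a := ⟨P, c⟩)).symm
  obtain ⟨-, h1, h2, D, h3⟩ := h.dade hcyc hP1
  have hE := (card_range_cact (pstab_le ⟨P, c⟩)).trans he
  have h0 := Nat.le_of_dvd (Nat.sub_pos_of_lt hM.1.one_lt) (hE ▸ h1)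
  have hi : Q.index = e := Nat.eq_of_mul_eq_mul_left (Nat.card_pos (α := Q))
    (by rw [Q.card_mul_index, hF, hQcard])
  obtain ⟨k, hk⟩ := hPD.isPGroup.exists_card_eq
  have hQp : IsPGroup p Q := IsPGroup.of_card (hQcard.trans hk)
  have hnd : ¬ p ∣ Q.index := hi ▸ hE ▸ h3.ndvd
  have hN : Subgroup.normalizer (Q : Set F) = ⊤ := by
    have a1 := (hQp.toSylow hnd).card_eq_index_normalizer
    have a2 := card_sylow_modEq_one p F
    have a3 : Nat.card (Sylow p F) ≤ e := hi ▸ Nat.le_of_dvd (Nat.pos_of_ne_zero Q.index_ne_zero_of_finite)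
      (hQp.toSylow hnd).card_dvd_index
    have := hM.1.one_lt
    rw [Nat.ModEq.eq_of_lt_of_lt a2 (by omega) this] at a1
    exact Subgroup.index_eq_one.1 a1.symm
  haveI := Subgroup.normalizer_eq_top_iff.1 hN
  have hu : principalBlock M F = Set.univ := isPBlock_principalBlock.eq_univ_of_sameBlock fun χ ψ =>
    sameBlock_of_centralizer_isPGroup hM hQp (hQC.symm ▸ hQp) χ.2 ψ.2
  obtain ⟨g, h4⟩ := exists_mx hM isPBlock_principalBlock (isDefectGroup_principal hM (hQp.toSylow hnd))
  change Mx M p _ ⟨Q, g⟩ at h4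
  have hQ1 : Q ≠ ⊥ := fun e => hP1 (Subgroup.card_eq_one.1 (by rw [← hQcard, e, Subgroup.card_bot]))
  have h9 := h4.max.pOf.principal_pstab hM
  obtain ⟨hab, h5, h6, D', h7⟩ := h4.dade hQ hQ1
  have hE' : Nat.card (cact (pstab_le ⟨Q, g⟩)).range = e := by
    rw [card_range_cact, h9, hQC, hN, Subgroup.relIndex_top_right, hi]
  have h8 := h3.comap (mulEquivOfCyclicCardEq hQcard)
  have hE'' := (Nat.card_congr ((MulAut.congr (mulEquivOfCyclicCardEq hQcard)).toEquiv.subtypeEquiv
    (p := (· ∈ (cact (pstab_le ⟨P, c⟩)).range.comap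
      (MulAut.congr (mulEquivOfCyclicCardEq hQcard)).toMonoidHom))
    (q := (· ∈ (cact (pstab_le ⟨P, c⟩)).range)) fun _ => Iff.rfl)).trans hE
  rw [← eq_of_card_mulAut hM.1 hQp hQ (hE'.trans hE''.symm) h5] at h8
  obtain ⟨δ, a, ζ, F', ha⟩ := h7.exists_full h6
  obtain ⟨I, ε, h10, -⟩ := h8.perfect h7 (h2.trans (hE.trans hE'.symm)) F' ha h6
  rw [hu] at h10
  refine ⟨I, ε, h10, fun η η' ⟨x, x1, x2⟩ ⟨y, y1, y2⟩ => sign_eq_of_perfect hM.1 hQp
    (fun t ht v hv e => by_contra fun hv1 => ht ?_) h10 (fun e => x2 (e x x1)) fun e => y2 (e y y1)⟩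
  rw [← hQC]
  exact free_of_cyclic hM.1 hQp hQ (T := ⊤) hN.ge (by rwa [hQC, Subgroup.relIndex_top_right]) t
    trivial v hv hv1 e

end Cfsg.Agent.S4634
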