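import Mathlib
import Cfsg.Statements.S4635
import Cfsg.Agent.H21.DadeE

set_option autoImplicit false
open Cfsg

namespace Cfsg.Agent.S4635
open H05 Cfsg H20 H21 MonoidAlgebra Classical
open scoped ComplexConjugate
attribute [-instance] H19.instFintypeSubgroupFrob

/-- Let B be a block of the finite group G relative to a maximal ideal M of the algebraic integers containing the prime p, with a nontrivial cyclic defect group P; let Z be the subgroup of order p of P and H = N_G(Z), which contains N_G(P). Let c be the block of H with defect group P that induces B. Then B and c contain the same number of irreducible characters, have the same p-regular rank, and there is a perfect isometry from c onto B. -/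
theorem result {G : Type*} [Group G] [Finite G] (p : ℕ) [Fact p.Prime] (M : Ideal Cfsg.AlgInt) (hM : Cfsg.IsPModular p M) (B : Set (Cfsg.IrrCharacter G)) (hB : Cfsg.IsPBlock M B) (P : Subgroup G) (hPD : Cfsg.IsDefectGroup p M B P) (hP1 : P ≠ ⊥) (hcyc : IsCyclic P) (Z : Subgroup G) (hZ : Z ≤ P) (hZcard : Nat.card Z = p) (H : Subgroup G) (hH : H = Subgroup.normalizer (Z : Set G)) (c : Set (Cfsg.IrrCharacter H)) (hcD : Cfsg.IsDefectGroup p M c (P.subgroupOf H)) (hc : Cfsg.IsInducedBlock M H c B) : Nat.card c = Nat.card B ∧ Cfsg.blockRank p c = Cfsg.blockRank p B ∧ ∃ (I : Cfsg.IrrCharacter H → Cfsg.IrrCharacter G) (ε : Cfsg.IrrCharacter H → ℤ), Cfsg.IsPerfectIsometry p M c B I ε := by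
  haveI := hM.2.1
  haveI := Fintype.ofFinite G
  have hab : P ≤ Subgroup.centralizer (P : Set G) := fun x hx y hy =>
    congrArg Subtype.val (hcyc.commGroup.mul_comm ⟨y, hy⟩ ⟨x, hx⟩)
  have hN : Subgroup.normalizer (P : Set G) ≤ H := hH ▸ fun t ht => by
    obtain ⟨k, hk⟩ := exists_zpow_of_isCyclic hcyc ht
    exact Subgroup.mem_normalizer_fintype fun x hx => by rw [hk x (hZ hx)]; exact zpow_mem hx k
  have hP := P.le_normalizer.trans hN
  obtain ⟨f, g, h1, h2, h3⟩ := exists_mx_pair hM hab
    ((Subgroup.centralizer_le_normalizer _).trans hN) hPD hcD hc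
  obtain ⟨-, -, h5, D, h4⟩ := h1.dade hcyc hP1
  obtain ⟨-, -, h7, D', h6⟩ := h2.dade (isCyclic_of_surjective _
    (Subgroup.subgroupOfEquivOfLe hP).symm.surjective) fun e => hP1 (by
      rw [← Subgroup.map_subgroupOf_eq_of_le hP, show P.subgroupOf H = ⊥ from e, Subgroup.map_bot])
  have h8 := h4.comap (Subgroup.subgroupOfEquivOfLe hP)
  have h9 := comap_range_cact hP ((pstab_le ⟨P, f⟩).trans hN) (pstab_le ⟨P, f⟩) h3 (pstab_le ⟨_, g⟩)
  rw [h9] at h8
  obtain ⟨δ, a, ζ, F, ha⟩ := h6.exists_full h7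
  have h11 : blockRank p B = Nat.card (cact (pstab_le ⟨_, g⟩)).range := by
    rw [h5, ← h9]
    exact (Nat.card_congr ((MulAut.congr _).toEquiv.subtypeEquiv fun _ => Iff.rfl)).symm
  obtain ⟨I, ε, h10, -⟩ := h8.perfect h6 h11 F ha h7
  exact ⟨by rw [h8.card_eq, h6.card_eq, h11, h7], h7.trans h11.symm, I, ε, h10⟩

end Cfsg.Agent.S4635
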