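import Cfsg.Statements.S4636
import Cfsg.Agent.BG.Api
-- import your own Cfsg.Agent.* helpers here

set_option autoImplicit false
open scoped Pointwise
open Cfsg

namespace Cfsg.Agent.S4636

/-- Let P be a nontrivial cyclic p-subgroup of the finite group G and Z its subgroup of order p. For every x outside N_G(Z), P meets its conjugate xPx⁻¹ trivially; consequently N_G(Q) ≤ N_G(Z) for every nontrivial subgroup Q of P. -/
theorem result {G : Type*} [Group G] [Finite G] (p : ℕ) [Fact p.Prime] (P : Subgroup G) (hP : IsPGroup p P) (hP1 : P ≠ ⊥) (hcyc : IsCyclic P) (Z : Subgroup G) (hZ : Z ≤ P) (hZcard : Nat.card Z = p) : (∀ x : G, x ∉ Subgroup.normalizer (Z : Set G) → P ⊓ MulAut.conj x • P = ⊥) ∧ ∀ Q : Subgroup G, Q ≤ P → Q ≠ ⊥ → Subgroup.normalizer (Q : Set G) ≤ Subgroup.normalizer (Z : Set G) := by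
  open BG in
  have hdvd : ∀ Q : Subgroup G, Q ≤ P → Q ≠ ⊥ → Z ≤ Q := by
    intro Q hQ h1
    refine le_of_card_dvd_of_cyclic hcyc hZ hQ ?_
    obtain ⟨n, hn⟩ := IsPGroup.iff_card.1 (hP.to_le hQ)
    rw [hZcard, hn]
    rcases n with _ | n
    · exact absurd (Subgroup.card_eq_one.1 (by simpa using hn)) h1
    · exact dvd_pow_self _ (Nat.succ_ne_zero n)
  refine ⟨fun x hx => ?_, fun Q hQ h1 => norm_le_norm_of_cyclic (cyclic_of_le hcyc hQ) (hdvd Q hQ h1)⟩
  by_contra h
  apply hx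
  have h1 : Z ≤ cj x P := (hdvd _ inf_le_left h).trans inf_le_right
  have h2 : cj x⁻¹ Z ≤ P := by
    rw [cj_le_iff, inv_inv]; exact h1
  have h3 := eq_of_card_eq_of_cyclic hcyc h2 hZ (card_cj _ _)
  have := cj_eq_self_iff.1 h3
  exact (Subgroup.inv_mem_iff _).1 this

end Cfsg.Agent.S4636
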