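import Mathlib
import Cfsg.Statements.S4638
import Cfsg.Agent.H21.FrobC

set_option autoImplicit false
open Cfsg

namespace Cfsg.Agent.S4638
open H05 Cfsg H20 H21 MonoidAlgebra Classical
open scoped ComplexConjugate
attribute [-instance] H19.instFintypeSubgroupFrob

/-- Let B be a block of the finite group G relative to a maximal ideal M of the algebraic integers containing 2, with a Klein four defect group P, and let c be its Brauer correspondent: the block of N_G(P) with defect group P that induces B. Then there is a perfect isometry from c onto B. -/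
theorem result {G : Type*} [Group G] [Finite G] (M : Ideal Cfsg.AlgInt) (hM : Cfsg.IsPModular 2 M) (B : Set (Cfsg.IrrCharacter G)) (hB : Cfsg.IsPBlock M B) (P : Subgroup G) (hPD : Cfsg.IsDefectGroup 2 M B P) (hV : IsKleinFour P) (c : Set (Cfsg.IrrCharacter (Subgroup.normalizer (P : Set G)))) (hcD : Cfsg.IsDefectGroup 2 M c (P.subgroupOf (Subgroup.normalizer (P : Set G)))) (hc : Cfsg.IsInducedBlock M (Subgroup.normalizer (P : Set G)) c B) : ∃ (I : Cfsg.IrrCharacter (Subgroup.normalizer (P : Set G)) → Cfsg.IrrCharacter G) (ε : Cfsg.IrrCharacter (Subgroup.normalizer (P : Set G)) → ℤ), Cfsg.IsPerfectIsometry 2 M c B I ε := by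
  haveI := hM.2.1
  haveI := Fintype.ofFinite G
  obtain ⟨σ⟩ : Nonempty (P ≃* Multiplicative (ZMod 2 × ZMod 2)) := IsKleinFour.nonempty_mulEquiv
  have hab : P ≤ Subgroup.centralizer (P : Set G) := fun x hx y hy => congrArg Subtype.val
    (σ.injective (by rw [map_mul, map_mul, mul_comm]) : (⟨y, hy⟩ : P) * ⟨x, hx⟩ = ⟨x, hx⟩ * ⟨y, hy⟩)
  obtain ⟨f, g, h1, h2, h3⟩ := exists_mx_pair hM hab (Subgroup.centralizer_le_normalizer _) hPD hcD hc
  obtain ⟨-, -, D, h4, h5, -⟩ := h1.homo_frb le_rfl σ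
  obtain ⟨-, -, D', h6, h7, -⟩ := h2.homo_frb le_rfl
    ((Subgroup.subgroupOfEquivOfLe P.le_normalizer).trans σ)
  have h8 := h4.comap (Subgroup.subgroupOfEquivOfLe P.le_normalizer)
  have h9 := comap_range_cact P.le_normalizer (pstab_le ⟨P, f⟩) (pstab_le ⟨P, f⟩) h3 (pstab_le ⟨_, g⟩)
  rw [h9] at h8
  obtain ⟨δ, a, ζ, F, ha⟩ := h6.exists_full h7
  obtain ⟨I, ε, h10, -⟩ := h8.perfect h6 (by
    rw [h5, ← h9]
    exact (Nat.card_congr ((MulAut.congr _).toEquiv.subtypeEquiv fun _ => Iff.rfl)).symm) F ha h7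
  exact ⟨I, ε, h10⟩

end Cfsg.Agent.S4638
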