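import Mathlib
import Cfsg.Statements.S4639
import Cfsg.Agent.H21.DadeE

set_option autoImplicit false
open Cfsg

namespace Cfsg.Agent.S4639
open H05 Cfsg H20 H21 MonoidAlgebra Classical
open scoped ComplexConjugate
attribute [-instance] H19.instFintypeSubgroupFrob

/-- Let B be a block of the finite group G relative to a maximal ideal M of the algebraic integers containing the prime p, with a nontrivial commutative defect group P. Let c be a block of C_G(P) inducing B, T the stabilizer of c in N_G(P) and e the index of C_G(P) in T. Suppose that T/C_G(P) is commutative (all commutators of elements of T lie in C_G(P)) and acts freely on the non-identity elements of P (an element of T fixing a non-identity element of P under conjugation lies in C_G(P)). Then B has at most e + (#P − 1)/e irreducible characters and p-regular rank at most e; equality holds in the first bound exactly when it holds in the second; and both equalities hold when e ≤ 3. -/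
theorem result {G : Type*} [Group G] [Finite G] (p : ℕ) [Fact p.Prime] (M : Ideal Cfsg.AlgInt) (hM : Cfsg.IsPModular p M) (B : Set (Cfsg.IrrCharacter G)) (hB : Cfsg.IsPBlock M B) (P : Subgroup G) (hPD : Cfsg.IsDefectGroup p M B P) (hP1 : P ≠ ⊥) (hPab : ∀ x ∈ P, ∀ y ∈ P, x * y = y * x) (c : Set (Cfsg.IrrCharacter (Subgroup.centralizer (P : Set G)))) (hc : Cfsg.IsInducedBlock M (Subgroup.centralizer (P : Set G)) c B) (T : Subgroup G) (hT : ∀ g : G, g ∈ T ↔ (g ∈ Subgroup.normalizer (P : Set G) ∧ Cfsg.StabilizesBlock (Subgroup.centralizer (P : Set G)) c g)) (e : ℕ) (he : (Subgroup.centralizer (P : Set G)).relIndex T = e) (hEab : ∀ g ∈ T, ∀ h ∈ T, g * h * g⁻¹ * h⁻¹ ∈ Subgroup.centralizer (P : Set G)) (hfree : ∀ g ∈ T, ∀ x ∈ P, x ≠ 1 → g * x * g⁻¹ = x → g ∈ Subgroup.centralizer (P : Set G)) : Nat.card B ≤ e + (Nat.card P - 1) / e ∧ Cfsg.blockRank p B ≤ e ∧ (Nat.card B = e + (Nat.card P - 1) / e ↔ Cfsg.blockRank p B = e) ∧ (e ≤ 3 → Nat.card B = e + (Nat.card P - 1) / e ∧ Cfsg.blockRank p B = e) := by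
  haveI := hM.2.1
  haveI := Fintype.ofFinite G
  have h := mx_of_induced hM hPD hc
  have hab : P ≤ Subgroup.centralizer (P : Set G) := fun x hx y hy => hPab y hy x hx
  obtain rfl : T = pstab ⟨P, c⟩ := Subgroup.ext fun g => (hT g).trans (mem_pstab_iff (a := ⟨P, c⟩)).symm
  obtain ⟨D, hD⟩ := h.exists_frb hab hP1 hfree
  have h1 := hD.card_eq
  have h2 := hD.rank_le
  have h3 := hD.rank_eq_or
  have h4 : ∀ q, q.Prime → Nat.card P = q → blockRank p B = e := fun q hq hPq => by
    haveI := Fact.mk hq
    rw [(h.dade (isCyclic_of_prime_card hPq) hP1).2.2.1, card_range_cact, he]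
  rw [card_range_cact, he] at h1 h2 h3
  dsimp only at h1
  refine ⟨by omega, h2, by omega, fun h5 => ?_⟩
  have : blockRank p B = e := by
    rcases h3 h5 with h6 | h6 | h6 | h6
    · exact h6
    · exact h4 7 (by norm_num) h6
    · obtain ⟨k, hk⟩ := hPD.isPGroup.exists_card_eq
      have h7 : ∀ q, q.Prime → q ∣ 10 → q = p := fun q hq h8 =>
        (Nat.prime_dvd_prime_iff_eq hq hM.1).1 (hq.dvd_of_dvd_pow (hk ▸ h6 ▸ h8))
      have := h7 2 (by norm_num) (by norm_num)
      have := h7 5 (by norm_num) (by norm_num)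
      omega
    · exact h4 13 (by norm_num) h6
  omega

end Cfsg.Agent.S4639
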