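import Mathlib
import Cfsg.Agent.H20.Quot2
import Cfsg.Agent.H21.Subsec
import Cfsg.Agent.H21.Ker
import Cfsg.Agent.H07.Gallagher
-- Template for statement S4640 (row 4640; see /opt/grader/pristine/manifest.json for weights).
-- Copy to Cfsg/Agent/S4640.lean and replace the sorry. The statement below is byte-identical to the frozen
-- statement Cfsg.CfsgFrozen.S4640 (Cfsg/Statements/S4640.lean; the theorem Cfsg.blk6_stable_block_of_normal_subgroup_of_p_power_index_abelian_defect);
-- the grader kernel-checks Cfsg.Agent.S4640.result against that frozen type. Keep the theorem IN THIS FILE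
-- (a `result` declared elsewhere and merely imported here is not credited); helpers may live anywhere
-- under Cfsg/Agent/.
import Cfsg.Statements.S4640
-- import your own Cfsg.Agent.* helpers here

set_option autoImplicit false
open Cfsg

open H20 H05 H21 MonoidAlgebra Cfsg

namespace Cfsg.Agent.S4640

open Classical in
/-- extension by zero -/
noncomputable def ext0 {G : Type*} [Group G] (N : Subgroup G) : (N → ℂ) →ₗ[ℂ] (G → ℂ) where
  toFun f g := if h : g ∈ N then f ⟨g, h⟩ else 0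
  map_add' f f' := by ext g; by_cases h : g ∈ N <;> simp [h]
  map_smul' c f := by ext g; by_cases h : g ∈ N <;> simp [h]

theorem nonvanish {G : Type*} [Group G] [Fintype G] {p : ℕ} {M : Ideal AlgInt} (hM : IsPModular p M)
    {B : Set (IrrCharacter G)} (hB : IsPBlock M B) {D : Subgroup G} (hD : IsDefectGroup p M B D) {u : G}
    (hu : u ∈ D) (h : D ≤ Subgroup.centralizer {u}) {χ : IrrCharacter G} (hχ : χ ∈ B) :
    ∃ y : G, ¬ p ∣ orderOf y ∧ (χ : G → ℂ) (u * y) ≠ 0 := by
  classical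
  have := hM.2.1
  have : Fact p.Prime := ⟨hM.1⟩
  have := Fintype.ofFinite (Subgroup.centralizer ({u} : Set G))
  obtain ⟨c, hc, hcD⟩ := exists_major hM hB hD hu h
  obtain ⟨k, hk⟩ := IsPGroup.iff_orderOf.1 hD.isPGroup ⟨u, hu⟩
  have hs : Sub p M B _ u c := ⟨hM, ⟨k, by rw [← hk, Subgroup.orderOf_mk]⟩, rfl, hc⟩
  obtain ⟨ψ, hψ, h0⟩ := hB.exists_height_zero p
  by_contra hn
  push Not at hn
  refine (hs.major_sm (blockDefect_eq_of_subgroupOf hM hB hD h hc.1 hcD) hχ hψ).2.1 ?_ h0
  rw [sm, hs.contrib_bs_left _ (blockPart_bs _), contrib_def, Finset.sum_eq_zero fun y hy => by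
    rw [sh, hn y (by simpa using hy), zero_mul]]
  simpa using ideal_zero

/-- Let N be a normal subgroup of the finite group G of index a power of the prime p, M a maximal ideal of the algebraic integers containing p, b a block of N stabilized by every element of G, and B a block of G covering b (some member of B has a member of b as a constituent of its restriction to N). Suppose that B has a commutative defect group P. Then G = NP and P ∩ N is a defect group of b; every member of B restricts to a member of b; every member of b is the restriction of exactly [G : N] members of B; B contains exactly [G : N] times as many irreducible characters as b; and B and b have the same p-regular rank. -/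
theorem result {G : Type*} [Group G] [Fintype G] (p : ℕ) [Fact p.Prime] (M : Ideal Cfsg.AlgInt) (hM : Cfsg.IsPModular p M) (N : Subgroup G) [N.Normal] [Fintype N] (hNi : ∃ k : ℕ, N.index = p ^ k) (b : Set (Cfsg.IrrCharacter N)) (hb : Cfsg.IsPBlock M b) (hstab : ∀ g : G, Cfsg.StabilizesBlock N b g) (B : Set (Cfsg.IrrCharacter G)) (hB : Cfsg.IsPBlock M B) (hcov : ∃ χ ∈ B, ∃ θ ∈ b, Cfsg.classInner (fun n : N => (χ : G → ℂ) n) (θ : N → ℂ) ≠ 0) (P : Subgroup G) (hPD : Cfsg.IsDefectGroup p M B P) (hPab : ∀ x ∈ P, ∀ y ∈ P, x * y = y * x) : N ⊔ P = ⊤ ∧ Cfsg.IsDefectGroup p M b ((P ⊓ N).subgroupOf N) ∧ (∀ χ ∈ B, ∃ θ ∈ b, ∀ n : N, (χ : G → ℂ) n = (θ : N → ℂ) n) ∧ (∀ θ ∈ b, Nat.card {χ : Cfsg.IrrCharacter G // χ ∈ B ∧ ∀ n : N, (χ : G → ℂ) n = (θ : N → ℂ) n} = N.index) ∧ Nat.card B = N.index * Nat.card b ∧ Cfsg.blockRank p B = Cfsg.blockRank p b := by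
  classical
  have := hM.2.1
  obtain ⟨k, hk⟩ := hNi
  have hst : ∀ g, cjB N g b = b := fun g => mem_bstab.1 (stabilizesBlock_iff_mem_bstab.1 (hstab g))
  replace hcov := covers_iff.2 hcov
  have hN : (⊤ : Subgroup G) ≤ Subgroup.normalizer (N : Set G) := by rw [Subgroup.normalizer_eq_top]
  have h1 := hb.isBI.isBI_of_index hM le_top hN (by rw [Subgroup.relIndex_top_right, hk])
    ((isCen_inc_eB_of_inv hst).cInv _)
  obtain ⟨B', hB', h2⟩ := isBI_top_iff.1 h1
  obtain rfl : B = B' := hcov.unique_of_index hM hk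
    ((covers_iff_iB hB' hb).2 (by rw [← h2, hB'.eB_mul_self]; exact hB'.eB_ne_zero)) hB hB' hb
  obtain ⟨h3, h4⟩ := hb.isBI.sup_eq_of_index hM h1 le_top hN (by rw [Subgroup.relIndex_top_right, hk])
    (h2 ▸ (maxBr_top_iff hM hB).2 hPD)
  have h5 := (maxBr_iB_iff hM hb inf_le_right).1 h4
  have h6 : ∀ g : G, ∃ n ∈ N, ∃ u ∈ P, n * u = g := fun g => by
    have : g ∈ ((N ⊔ P : Subgroup G) : Set G) := h3 ▸ Subgroup.mem_top g
    rwa [Subgroup.normal_mul] at this
  have hab : commutator G ≤ N := by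
    rw [commutator_eq_closure, Subgroup.closure_le]
    rintro _ ⟨x, y, rfl⟩
    obtain ⟨n, hn, u, hu, rfl⟩ := h6 x
    obtain ⟨n', hn', u', hu', rfl⟩ := h6 y
    rw [SetLike.mem_coe, ← QuotientGroup.eq_one_iff, ← QuotientGroup.mk'_apply, map_commutatorElement,
      commutatorElement_eq_one_iff_mul_comm]
    simp only [map_mul, QuotientGroup.mk'_apply, (QuotientGroup.eq_one_iff _).2 hn,
      (QuotientGroup.eq_one_iff _).2 hn', one_mul]
    rw [← QuotientGroup.mk_mul, hPab u hu u' hu', QuotientGroup.mk_mul]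
  have ho : ∀ (χ : IrrCharacter G) (θ : IrrCharacter N), (∀ n : N, (χ : G → ℂ) n = (θ : N → ℂ) n) →
      classInner (fun n : N => (χ : G → ℂ) n) (θ : N → ℂ) = 1 := fun χ θ h => by
    rw [funext h, θ.2.classInner_self]
  have h7 : ∀ χ ∈ B, ∃ θ ∈ b, ∀ n : N, (χ : G → ℂ) n = (θ : N → ℂ) n := fun χ hχ => by
    have h8 := H07.isIrr_res_of_forall_hom N hab χ.2 fun lam h8 h9 => MonoidHom.ext fun g => by
      obtain ⟨n, hn, u, hu, rfl⟩ := h6 g
      obtain ⟨y, h10, h11⟩ := nonvanish hM hB hPD hu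
        (fun x hx z hz => Set.mem_singleton_iff.1 hz ▸ hPab u hu x hx) hχ
      have h12 := congrFun h9 (u * y)
      rw [map_mul, h8 y (mem_of_index_eq_pow hM.1 hk h10), mul_one, mul_eq_left₀ h11] at h12
      rw [map_mul, h8 n hn, one_mul, MonoidHom.one_apply, Units.val_eq_one.1 h12]
    refine ⟨⟨_, h8⟩, ?_, fun _ => rfl⟩
    rw [← orb_eq_self hst]
    exact hcov.mem_orb hB hb.isInt_idem hχ (over_iff.2 (by rw [ho χ _ fun _ => rfl]; exact one_ne_zero))
  have h8 : ∀ θ ∈ b, ∀ χ : IrrCharacter G, Over N (χ : G → ℂ) θ →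
      χ ∈ B ∧ ∀ n : N, (χ : G → ℂ) n = (θ : N → ℂ) n := fun θ hθ χ h => by
    have h9 : χ ∈ B := by
      rw [hcov.unique_of_index hM hk ⟨χ, H20.mem_blockOf_self χ, θ, hθ, h⟩ hB (H20.isPBlock_blockOf χ) hb]
      exact H20.mem_blockOf_self χ
    obtain ⟨θ', -, h10⟩ := h7 χ h9
    rw [over_iff, funext h10, classInner_irr] at h
    obtain rfl : θ' = θ := by simpa using h
    exact ⟨h9, h10⟩
  have h9 : ∀ θ ∈ b, (Finset.univ.filter fun χ : IrrCharacter G =>
      χ ∈ B ∧ ∀ n : N, (χ : G → ℂ) n = (θ : N → ℂ) n).card = N.index := fun θ hθ => by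
    obtain ⟨χ, hχ⟩ := exists_over θ
    have h10 := H07.sum_sq_inner_eq_index N θ.2
      (H07.conjFun_eq_of_res N χ.2.isClassFunction (h8 θ hθ χ hχ).2)
    rw [← Nat.cast_inj (R := ℂ), ← h10, Finset.card_filter, Nat.cast_sum]
    refine Finset.sum_congr rfl fun ψ _ => ?_
    split_ifs with h
    · simp [ho ψ θ h.2]
    · simp [not_not.1 fun h' => h (h8 θ hθ ψ (over_iff.2 h'))]
  refine ⟨h3, h5, h7, fun θ hθ => ?_, ?_, ?_⟩
  · rw [← h9 θ hθ, Nat.card_eq_fintype_card, Fintype.card_subtype]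
  · choose! r hr1 hr2 using h7
    rw [Nat.card_eq_fintype_card, Nat.card_eq_fintype_card, Fintype.card_subtype, Fintype.card_subtype,
      Finset.card_eq_sum_card_fiberwise (f := r) (t := Finset.univ.filter fun θ => θ ∈ b)
        (fun χ hχ => by simpa using hr1 χ (by simpa using hχ)), mul_comm, ← smul_eq_mul, ← Finset.sum_const]
    refine Finset.sum_congr rfl fun θ hθ => ?_
    rw [← h9 θ (by simpa using hθ), Finset.filter_filter]
    refine congrArg _ (Finset.filter_congr fun χ _ => and_congr_right fun hχ => ⟨fun h => h ▸ hr2 χ hχ, fun h =>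
      Subtype.ext (funext fun n => (hr2 χ hχ n).symm.trans (h n))⟩)
  · have h10 : ∀ (χ : IrrCharacter G) (θ : IrrCharacter N), (∀ n : N, (χ : G → ℂ) n = (θ : N → ℂ) n) →
        pRegularPart p (χ : G → ℂ) = ext0 N (pRegularPart p (θ : N → ℂ)) := fun χ θ h => funext fun g => by
      by_cases hg : g ∈ N
      · simp [ext0, hg, pRegularPart_apply, ← h]
      · simp [ext0, hg, pRegularPart_of_dvd _ (not_not.1 fun h' => hg (mem_of_index_eq_pow hM.1 hk h'))]
    have h11 : Function.Injective (ext0 N) := fun f f' h => funext fun n => by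
      simpa [ext0] using congrFun h n
    rw [blockRank, blockRank, (Submodule.equivMapOfInjective _ h11 _).finrank_eq, Submodule.map_span,
      Set.image_image]
    refine congrArg (fun S : Set (G → ℂ) => Module.finrank ℂ (Submodule.span ℂ S)) (Set.ext fun f => ?_)
    constructor
    · rintro ⟨χ, hχ, rfl⟩
      obtain ⟨θ, hθ, h⟩ := h7 χ hχ
      exact ⟨θ, hθ, (h10 χ θ h).symm⟩
    · rintro ⟨θ, hθ, rfl⟩
      obtain ⟨χ, hχ⟩ := exists_over θ
      exact ⟨χ, (h8 θ hθ χ hχ).1, h10 χ θ (h8 θ hθ χ hχ).2⟩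

end Cfsg.Agent.S4640
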