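import Mathlib
import Cfsg.Agent.H20.Pim
import Cfsg.Agent.S4491
import Cfsg.Agent.H20.Defect
-- Template for statement S4641 (row 4641; see /opt/grader/pristine/manifest.json for weights).
-- Copy to Cfsg/Agent/S4641.lean and replace the sorry. The statement below is byte-identical to the frozen
-- statement Cfsg.CfsgFrozen.S4641 (Cfsg/Statements/S4641.lean; the theorem Cfsg.blk6_block_degree_square_sum_factorization);
-- the grader kernel-checks Cfsg.Agent.S4641.result against that frozen type. Keep the theorem IN THIS FILE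
-- (a `result` declared elsewhere and merely imported here is not credited); helpers may live anywhere
-- under Cfsg/Agent/.
import Cfsg.Statements.S4641
-- import your own Cfsg.Agent.* helpers here

set_option autoImplicit false
open Cfsg

open H20 H05 H21 MonoidAlgebra Cfsg Classical

namespace Cfsg.Agent.S4641

/-- Let B be a block of the finite group G relative to a maximal ideal M of the algebraic integers containing the prime p, let p^a be the p-part of the order of G and p^d the order of a defect group D of B, and let g be the greatest common divisor of the degrees of the members of B. Then the p-part of g is exactly p^(a−d), and writing g = p^(a−d)·u there is a positive integer v, prime to p and at least the p-regular rank of B (its number of irreducible Brauer characters), with Σ_{χ ∈ B} χ(1)² = p^(2a−d)·u²·v. -/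
theorem result {G : Type*} [Group G] [Finite G] (p : ℕ) [Fact p.Prime] (M : Ideal Cfsg.AlgInt) (hM : Cfsg.IsPModular p M) (B : Set (Cfsg.IrrCharacter G)) (hB : Cfsg.IsPBlock M B) (D : Subgroup G) (hD : Cfsg.IsDefectGroup p M B D) (a d : ℕ) (ha : (Nat.card G).factorization p = a) (hd : Nat.card D = p ^ d) (g : ℕ) (hg1 : ∀ χ ∈ B, g ∣ Cfsg.charDegree (χ : G → ℂ)) (hg2 : ∀ g' : ℕ, (∀ χ ∈ B, g' ∣ Cfsg.charDegree (χ : G → ℂ)) → g' ∣ g) : g.factorization p = a - d ∧ ∃ v : ℕ, 0 < v ∧ ¬ p ∣ v ∧ Cfsg.blockRank p B ≤ v ∧ ∑ᶠ χ ∈ B, Cfsg.charDegree (χ : G → ℂ) ^ 2 = p ^ (2 * a - d) * (g / p ^ (a - d)) ^ 2 * v := by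
  have := hM.2.1
  have hp := hM.1
  have := Fintype.ofFinite G
  have hdd : blockDefect p B = d := by
    have := H20.Cfsg.IsDefectGroup.factorization_card hM hB hD
    rw [hd, hp.factorization_pow] at this
    simpa using this.symm
  have hda : d ≤ a := by rw [← hdd, ← ha]; exact blockDefect_le p B
  obtain ⟨χ0, hχ0, h0⟩ := H20.exists_height_zero p (block_nonempty hB)
  have hg0 : g ≠ 0 := by
    rintro rfl
    exact χ0.2.charDegree_pos.ne' (Nat.eq_zero_of_zero_dvd (hg1 χ0 hχ0))
  have hpg : p ^ (a - d) ∣ g := by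
    refine hg2 _ fun χ hχ => ?_
    have := factorization_degree_add p hχ
    refine (pow_dvd_pow _ ?_).trans (Nat.ordProj_dvd _ p)
    omega
  have hgf : g.factorization p = a - d := by
    apply le_antisymm
    · have h1 := (blockHeight_eq_zero_iff p hχ0).1 h0
      have h2 := (Nat.factorization_le_iff_dvd hg0 χ0.2.charDegree_pos.ne').2 (hg1 χ0 hχ0) p
      omega
    · exact (hp.pow_dvd_iff_le_factorization hg0).1 hpg
  refine ⟨hgf, ?_⟩
  set u := g / p ^ (a - d) with hu
  have hgu : g = p ^ (a - d) * u := (Nat.mul_div_cancel' hpg).symm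
  have hpu : Nat.Coprime p u := by
    rw [hu, ← hgf]; exact Nat.coprime_ordCompl hp hg0
  obtain ⟨n, dd, π, e, φ, h⟩ := exists_ib' hM G
  obtain ⟨Dm, hDm⟩ := ib_exists_dec h
  have hA : IsInt M (idem B) := int_block hB
  choose m hm0 hm using h.exists_nat_one
  -- degrees of the Brauer characters
  have hm1 : ∀ β ∈ ibr π B, g ∣ m β := by
    intro β hβ
    obtain ⟨z, -, hz⟩ := h.exists_inv hA hβ
    have h1 := hz 1 (by simpa using hp.one_lt.ne')
    rw [hm] at h1
    have h2 : (m β : ℤ) = ∑ χ with χ ∈ B, z χ * charDegree (χ : G → ℂ) := by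
      apply Int.cast_injective (α := ℂ)
      push_cast
      rw [h1]
      exact Finset.sum_congr rfl fun χ _ => by rw [χ.2.charDegree_eq]
    rw [← Int.natCast_dvd_natCast, h2]
    exact Finset.dvd_sum fun χ hχ => Dvd.dvd.mul_left (Int.natCast_dvd_natCast.2
      (hg1 χ (Finset.mem_filter.1 hχ).2)) _
  -- degrees of the projective characters
  set Φ : Fin n → ℕ := fun β => ∑ χ : IrrCharacter G, charDegree (χ : G → ℂ) * Dm χ β with hΦ
  have hΦ1 : ∀ β ∈ ibr π B, Φ β = ∑ χ with χ ∈ B, charDegree (χ : G → ℂ) * Dm χ β := by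
    intro β hβ
    rw [Finset.sum_filter]
    refine Finset.sum_congr rfl fun χ _ => ?_
    split_ifs with hχ
    · rfl
    · have := (h.pm β).t1_of_mem h.wed hA hχ hβ
      rw [hDm] at this
      rw [Nat.cast_eq_zero.1 this, mul_zero]
  have hΦ2 : ∀ β ∈ ibr π B, p ^ a * u ∣ Φ β := by
    intro β hβ
    refine Nat.Coprime.mul_dvd_of_dvd_of_dvd (Nat.Coprime.pow_left _ hpu) ?_ ?_
    · rw [← ha]; exact pim_dvd hM (h.pm β).sq fun χ => hDm χ β
    · rw [hΦ1 β hβ]
      exact Finset.dvd_sum fun χ hχ => Dvd.dvd.mul_right ((Dvd.intro_left _ hgu.symm).trans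
        (hg1 χ (Finset.mem_filter.1 hχ).2)) _
  have hΦ3 : ∀ β ∈ ibr π B, 0 < Φ β := by
    intro β hβ
    obtain ⟨z, hz, -⟩ := h.exists_inv hA hβ
    have h1 := hz β
    rw [if_pos rfl] at h1
    by_contra h2
    have h3 : ∀ χ : IrrCharacter G, Dm χ β = 0 := by
      intro χ
      have h4 : Φ β = 0 := by omega
      have := (Finset.sum_eq_zero_iff.1 h4) χ (Finset.mem_univ _)
      exact (Nat.mul_eq_zero.1 this).resolve_left χ.2.charDegree_pos.ne'
    simp [hDm, h3] at h1
  have hsum : ∑ᶠ χ ∈ B, charDegree (χ : G → ℂ) ^ 2 = ∑ β ∈ ibr π B, m β * Φ β := by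
    have : ∑ β ∈ ibr π B, m β * Φ β =
        ∑ β ∈ ibr π B, ∑ χ with χ ∈ B, m β * (charDegree (χ : G → ℂ) * Dm χ β) :=
      Finset.sum_congr rfl fun β hβ => by rw [hΦ1 β hβ, Finset.mul_sum]
    rw [H21.finsum_mem_irr, this, Finset.sum_comm]
    refine Finset.sum_congr rfl fun χ hχ => ?_
    have h1 := h.apply_mem hA (Finset.mem_filter.1 hχ).2 (g := 1) (by simpa using hp.one_lt.ne')
    apply Nat.cast_injective (R := ℂ)
    push_cast
    rw [sq, χ.2.charDegree_eq]
    nth_rewrite 2 [h1]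
    rw [Finset.mul_sum]
    refine Finset.sum_congr rfl fun β _ => ?_
    rw [hDm, hm]; ring
  have hv : ∑ β ∈ ibr π B, m β * Φ β = p ^ (2 * a - d) * u ^ 2 *
      ∑ β ∈ ibr π B, (m β / g) * (Φ β / (p ^ a * u)) := by
    rw [Finset.mul_sum]
    refine Finset.sum_congr rfl fun β hβ => ?_
    obtain ⟨x, hx⟩ := hm1 β hβ
    obtain ⟨y, hy⟩ := hΦ2 β hβ
    have hu0 : 0 < u := Nat.pos_of_ne_zero (by rintro h; rw [h] at hgu; exact hg0 (by simpa using hgu))
    rw [hx, hy, Nat.mul_div_cancel_left _ (Nat.pos_of_ne_zero hg0),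
      Nat.mul_div_cancel_left _ (Nat.mul_pos (pow_pos hp.pos _) hu0)]
    nth_rewrite 1 [hgu]
    have : 2 * a - d = (a - d) + a := by omega
    rw [this]; ring
  have hge : blockRank p B ≤ ∑ β ∈ ibr π B, (m β / g) * (Φ β / (p ^ a * u)) := by
    rw [h.blockRank_eq hA, Finset.card_eq_sum_ones]
    refine Finset.sum_le_sum fun β hβ => Nat.mul_pos ?_ ?_
    · exact Nat.div_pos (Nat.le_of_dvd (hm0 β) (hm1 β hβ)) (Nat.pos_of_ne_zero hg0)
    · refine Nat.div_pos (Nat.le_of_dvd (hΦ3 β hβ) (hΦ2 β hβ)) (Nat.pos_of_ne_zero ?_)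
      intro h0
      have := hΦ2 β hβ
      rw [h0] at this
      exact (hΦ3 β hβ).ne' (Nat.eq_zero_of_zero_dvd this)
  have hS0 : ∑ᶠ χ ∈ B, charDegree (χ : G → ℂ) ^ 2 ≠ 0 := by
    rw [H21.finsum_mem_irr]
    intro h0
    have := (Finset.sum_eq_zero_iff.1 h0) χ0 (by simpa using hχ0)
    exact χ0.2.charDegree_pos.ne' (by simpa using this)
  have hF := Cfsg.Agent.S4491.result p M hM B hB
  rw [ha, hdd] at hF
  rw [hsum, hv] at hS0 hF
  generalize ∑ β ∈ ibr π B, (m β / g) * (Φ β / (p ^ a * u)) = v at *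
  refine ⟨v, Nat.pos_of_ne_zero (by rintro rfl; simp at hS0), ?_, hge, by rw [hsum, hv]⟩
  intro hpv
  have h1 : p ^ (2 * a - d + 1) ∣ p ^ (2 * a - d) * u ^ 2 * v := by
    rw [pow_succ, mul_assoc]
    exact Nat.mul_dvd_mul_left _ (Dvd.dvd.mul_left hpv _)
  have := (hp.pow_dvd_iff_le_factorization hS0).1 h1
  omega

end Cfsg.Agent.S4641
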