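import Mathlib
import Cfsg.Agent.H20.Fong
-- Template for statement S4642 (row 4642; see /opt/grader/pristine/manifest.json for weights).
-- Copy to Cfsg/Agent/S4642.lean and replace the sorry. The statement below is byte-identical to the frozen
-- statement Cfsg.CfsgFrozen.S4642 (Cfsg/Statements/S4642.lean; the theorem Cfsg.blk6_stable_character_of_p_prime_core_block_of_principal_type);
-- the grader kernel-checks Cfsg.Agent.S4642.result against that frozen type. Keep the theorem IN THIS FILE
-- (a `result` declared elsewhere and merely imported here is not credited); helpers may live anywhere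
-- under Cfsg/Agent/.
import Cfsg.Statements.S4642
-- import your own Cfsg.Agent.* helpers here

set_option autoImplicit false
open Cfsg

open H20 H05 H21 MonoidAlgebra

namespace Cfsg.Agent.S4642

/-- Let G be a finite group, p a prime, M a maximal ideal of the algebraic integers containing p, K the largest normal subgroup of G of order prime to p, and L the preimage in G of the largest normal p-subgroup of G/K. Let Q be a Sylow p-subgroup of L and suppose C_G(Q) ≤ L. Let θ be an irreducible character of K invariant under conjugation by every element of G, and let B be the set of irreducible characters of G whose restriction to K contains θ. Then B is a block of G, every Sylow p-subgroup of G is a defect group of B, and B is of principal type: for every p-subgroup R of G exactly one block of C_G(R) induces B. -/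
theorem result {G : Type*} [Group G] [Fintype G] (p : ℕ) [Fact p.Prime] (M : Ideal Cfsg.AlgInt) (hM : Cfsg.IsPModular p M) (K : Subgroup G) (hK : K = Cfsg.pPrimeCore p G) [Fintype K] (L : Subgroup G) (hL : L = Cfsg.pPrimePCore p G) (Q : Subgroup G) (hQL : Q ≤ L) (hQp : IsPGroup p Q) (hQS : ¬ p ∣ Q.relIndex L) (hCQ : Subgroup.centralizer (Q : Set G) ≤ L) (θ : Cfsg.IrrCharacter K) (hθ : ∀ g : G, Cfsg.IsConjCharOf K g (θ : K → ℂ) (θ : K → ℂ)) (B : Set (Cfsg.IrrCharacter G)) (hBdef : ∀ χ : Cfsg.IrrCharacter G, χ ∈ B ↔ Cfsg.classInner (fun k : K => (χ : G → ℂ) k) (θ : K → ℂ) ≠ 0) : Cfsg.IsPBlock M B ∧ (∀ S : Sylow p G, Cfsg.IsDefectGroup p M B S) ∧ ∀ R : Subgroup G, IsPGroup p R → ∃! f : Set (Cfsg.IrrCharacter (Subgroup.centralizer (R : Set G))), Cfsg.IsInducedBlock M (Subgroup.centralizer (R : Set G)) f B := by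
  have := hM.2.1
  subst hK hL
  have hG : Cfsg.IsPConstrained p G := by
    intro P
    have h1 : SylIn p Q (Cfsg.pPrimePCore p G) := sylIn_of_not_dvd hQp hQL hQS
    obtain ⟨x, hx, e⟩ := h1.exists_conj (sylIn_map P)
    rw [e, ← cj_centralizer]
    exact (cj_mono x hCQ).trans (cj_normal x _).le
  have hθ' : ∀ g, cjB _ g {θ} = {θ} := by
    intro g
    ext ψ
    rw [mem_cjB]
    simp only [Set.mem_singleton_iff, exists_eq_left]
    constructor
    · intro h
      exact Subtype.ext (funext fun n => (h n).trans (hθ g n _ rfl))
    · rintro rfl n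
      exact (hθ g n _ rfl).symm
  obtain ⟨h1, -, h3, h4⟩ := fong_block hM hG hθ' (B := B) (fun χ => (hBdef χ).trans over_iff.symm)
  exact ⟨h1, h3, fun R hR => existsUnique_induced_of_isBI hM h1 hR (h4 R hR)⟩

end Cfsg.Agent.S4642
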