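import Mathlib
import Cfsg.Statements.S4644
import Cfsg.Agent.H21.Abel

set_option autoImplicit false
open Cfsg

namespace Cfsg.Agent.S4644
open H05 Cfsg H20 H21 MonoidAlgebra Classical
open scoped ComplexConjugate

/-- Let B be a block of the finite group G relative to a maximal ideal M of the algebraic integers containing the prime p, with a commutative defect group P; let c be a block of C_G(P) inducing B and T the stabilizer of c in N_G(P). Let u be an element of P fixed under conjugation by every element of T, H = C_G(u) (so C_G(P) ≤ H), and f the block of H induced by c inside H. Then B and f have the same p-regular rank and the same number of irreducible characters. -/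
theorem result {G : Type*} [Group G] [Finite G] (p : ℕ) [Fact p.Prime] (M : Ideal Cfsg.AlgInt) (hM : Cfsg.IsPModular p M) (B : Set (Cfsg.IrrCharacter G)) (hB : Cfsg.IsPBlock M B) (P : Subgroup G) (hPD : Cfsg.IsDefectGroup p M B P) (hPab : ∀ x ∈ P, ∀ y ∈ P, x * y = y * x) (c : Set (Cfsg.IrrCharacter (Subgroup.centralizer (P : Set G)))) (hc : Cfsg.IsInducedBlock M (Subgroup.centralizer (P : Set G)) c B) (T : Subgroup G) (hT : ∀ g : G, g ∈ T ↔ (g ∈ Subgroup.normalizer (P : Set G) ∧ Cfsg.StabilizesBlock (Subgroup.centralizer (P : Set G)) c g)) (u : G) (hu : u ∈ P) (huT : ∀ g ∈ T, g * u * g⁻¹ = u) (H : Subgroup G) (hH : H = Subgroup.centralizer ({u} : Set G)) (f : Set (Cfsg.IrrCharacter H)) (hf : Cfsg.IsInducedBlockIn M H (Subgroup.centralizer (P : Set G)) c f) : Cfsg.blockRank p B = Cfsg.blockRank p f ∧ Nat.card B = Nat.card f := by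
  haveI := hM.2.1
  haveI := Fintype.ofFinite G
  have h := mx_of_induced hM hPD hc
  have hab : P ≤ Subgroup.centralizer (P : Set G) := fun x hx y hy => hPab y hy x hx
  rw [← centralizer_zpowers] at hH
  subst hH
  have hu' := Subgroup.zpowers_le.2 hu
  have e := h.eq_fb (pn_of_inducedIn (a := ⟨_, f⟩) (b := ⟨P, c⟩) hM hPD.isPGroup hu'
    (Mx.le_cent (b := ⟨P, c⟩) hab hu') hf).ple
  have h1 : pstab ⟨P, c⟩ ⊓ Subgroup.centralizer ((⊥ : Subgroup G) : Set G) ≤
      Subgroup.centralizer (Subgroup.zpowers u : Set G) := fun t ht =>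
    mem_centralizer_zpowers.2 (huT t ((hT t).2 (mem_pstab_iff.1 ht.1)))
  have h2 := h.rank_fb_sup hab bot_le hu h1
  have h3 := h.card_fb_sup hab bot_le hu h1
  rw [bot_sup_eq, ← e] at h2 h3
  exact ⟨(h2.trans (h.rank_fb_bot rfl)).symm, (h3.trans (h.card_fb_bot rfl)).symm⟩

end Cfsg.Agent.S4644
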