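import Mathlib
import Cfsg.Statements.S4645
import Cfsg.Agent.H21.Abel

set_option autoImplicit false
open Cfsg

namespace Cfsg.Agent.S4645
open H05 Cfsg H20 H21 MonoidAlgebra Classical
open scoped ComplexConjugate

/-- Let B be a block of the finite group G relative to a maximal ideal M of the algebraic integers containing the prime p, with a nontrivial cyclic defect group P; let c be a block of C_G(P) inducing B and T the stabilizer of c in N_G(P). Let Q be a nontrivial subgroup of P (so C_G(P) ≤ C_G(Q)), f the block of C_G(Q) induced by c inside C_G(Q), and T' the stabilizer of f in N_G(Q). Then T' = T·C_G(Q), the index of C_G(Q) in T' equals the index of C_G(P) in T, f has p-regular rank 1, and f is a nilpotent block of C_G(Q). -/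
theorem result {G : Type*} [Group G] [Finite G] (p : ℕ) [Fact p.Prime] (M : Ideal Cfsg.AlgInt) (hM : Cfsg.IsPModular p M) (B : Set (Cfsg.IrrCharacter G)) (hB : Cfsg.IsPBlock M B) (P : Subgroup G) (hPD : Cfsg.IsDefectGroup p M B P) (hP1 : P ≠ ⊥) (hcyc : IsCyclic P) (c : Set (Cfsg.IrrCharacter (Subgroup.centralizer (P : Set G)))) (hc : Cfsg.IsInducedBlock M (Subgroup.centralizer (P : Set G)) c B) (T : Subgroup G) (hT : ∀ g : G, g ∈ T ↔ (g ∈ Subgroup.normalizer (P : Set G) ∧ Cfsg.StabilizesBlock (Subgroup.centralizer (P : Set G)) c g)) (Q : Subgroup G) (hQP : Q ≤ P) (hQ1 : Q ≠ ⊥) (f : Set (Cfsg.IrrCharacter (Subgroup.centralizer (Q : Set G)))) (hf : Cfsg.IsInducedBlockIn M (Subgroup.centralizer (Q : Set G)) (Subgroup.centralizer (P : Set G)) c f) (T' : Subgroup G) (hT' : ∀ g : G, g ∈ T' ↔ (g ∈ Subgroup.normalizer (Q : Set G) ∧ Cfsg.StabilizesBlock (Subgroup.centralizer (Q : Set G)) f g)) : T' = T ⊔ Subgroup.centralizer (Q : Set G) ∧ (Subgroup.centralizer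 (Q : Set G)).relIndex T' = (Subgroup.centralizer (P : Set G)).relIndex T ∧ Cfsg.blockRank p f = 1 ∧ Cfsg.IsNilpotentBlock p M f := by
  haveI := hM.2.1
  haveI := Fintype.ofFinite G
  have h := mx_of_induced hM hPD hc
  have hab : P ≤ Subgroup.centralizer (P : Set G) := fun x hx y hy =>
    congrArg Subtype.val (hcyc.commGroup.mul_comm ⟨y, hy⟩ ⟨x, hx⟩)
  have hl := (pn_of_inducedIn (a := ⟨Q, f⟩) (b := ⟨P, c⟩) hM hPD.isPGroup hQP
    (Mx.le_cent (b := ⟨P, c⟩) hab hQP) hf).ple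
  obtain rfl : T = pstab ⟨P, c⟩ := Subgroup.ext fun g => (hT g).trans (mem_pstab_iff (a := ⟨P, c⟩)).symm
  obtain rfl : T' = pstab ⟨Q, f⟩ := Subgroup.ext fun g => (hT' g).trans (mem_pstab_iff (a := ⟨Q, f⟩)).symm
  have h1 : pstab ⟨P, c⟩ ⊓ Subgroup.centralizer (Q : Set G) ≤ Subgroup.centralizer (P : Set G) := by
    rintro t ⟨ht, ht'⟩
    obtain ⟨⟨x, hx⟩, hx1⟩ := Subgroup.ne_bot_iff_exists_ne_one.1 hQ1
    refine h.mem_centralizer_of_reg ht hab (mem_centralizer_of_isCyclic hPD.isPGroup hcyc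
      (pstab_le ⟨P, c⟩ (pReg_mem p ht)) (not_dvd_orderOf_pReg p t) (hQP hx)
      (fun e => hx1 (Subtype.ext e)) ?_)
    rw [mul_inv_eq_iff_eq_mul, (pReg_mem p ht') x hx]
  have h2 : pstab ⟨P, c⟩ ≤ Subgroup.normalizer (Q : Set G) := fun t ht => by
    obtain ⟨k, hk⟩ := exists_zpow_of_isCyclic hcyc (pstab_le ⟨P, c⟩ ht)
    exact Subgroup.mem_normalizer_fintype fun x hx => by
      rw [hk x (hQP hx)]; exact zpow_mem hx k
  have h3 : pstab ⟨Q, f⟩ = pstab ⟨P, c⟩ ⊔ Subgroup.centralizer (Q : Set G) := by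
    refine le_antisymm (fun g hg => ?_) (sup_le (fun t ht => hl.mem_pstab hM h.bp ht (h2 ht))
      (centralizer_le_pstab ⟨Q, f⟩))
    obtain ⟨y, hy, h4⟩ := h.max.exists_pstab_of_comm hM hab hl (g := g) (by rwa [mem_pstab.1 hg])
    rw [← mul_inv_cancel_left y g]
    exact mul_mem (Subgroup.mem_sup_left hy) (Subgroup.mem_sup_right h4)
  have h4 := h.nilp_fb hab hQP h1
  rw [← h.eq_fb hl] at h4
  refine ⟨h3, ?_, rank_of_nilpotent hM h4, h4⟩
  rw [h3, relIndex_sup_left' (h2.trans (normalizer_le_normalizer_centralizer Q)),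
    ← Subgroup.inf_relIndex_right, ← Subgroup.inf_relIndex_right (Subgroup.centralizer (P : Set G))]
  congr 1
  exact le_antisymm (le_inf (fun x hx => h1 ⟨hx.2, hx.1⟩) inf_le_right)
    (inf_le_inf_right _ (centralizer_anti hQP))

end Cfsg.Agent.S4645
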