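import Mathlib
import Cfsg.Statements.S4649
import Cfsg.Agent.H21.DadeE

set_option autoImplicit false
open Cfsg

namespace Cfsg.Agent.S4649
open H05 Cfsg H20 H21 MonoidAlgebra Classical
open scoped ComplexConjugate
attribute [-instance] H19.instFintypeSubgroupFrob

/-- A block with cyclic defect group, of a finite group relative to a maximal ideal M of the algebraic integers containing the prime p, is nilpotent if and only if its p-regular rank is 1 (it has a unique irreducible Brauer character). -/
theorem result {G : Type*} [Group G] [Finite G] (p : ℕ) [Fact p.Prime] (M : Ideal Cfsg.AlgInt) (hM : Cfsg.IsPModular p M) (B : Set (Cfsg.IrrCharacter G)) (hB : Cfsg.IsPBlock M B) (P : Subgroup G) (hPD : Cfsg.IsDefectGroup p M B P) (hcyc : IsCyclic P) : Cfsg.IsNilpotentBlock p M B ↔ Cfsg.blockRank p B = 1 := by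
  haveI := hM.2.1
  haveI := Fintype.ofFinite G
  refine ⟨rank_of_nilpotent hM, fun hl => ?_⟩
  obtain ⟨c, h⟩ := exists_mx hM hB hPD
  by_cases hne : P = ⊥
  · subst hne
    exact (isNilpotentBlock_iff_of_comm hM h.max bot_le).2 fun x _ y hy => by
      rw [Subgroup.mem_bot.1 hy, one_mul, mul_one]
  · obtain ⟨h1, -, h2, -⟩ := h.dade hcyc hne
    rw [hl, card_range_cact, eq_comm, Subgroup.relIndex_eq_one] at h2
    exact (isNilpotentBlock_iff_of_comm hM h.max h1).2 h2

end Cfsg.Agent.S4649
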