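import Mathlib
import Cfsg.Statements.S4648
import Cfsg.Agent.H21.RankOne
import Cfsg.Agent.S4649

set_option autoImplicit false
open Cfsg

namespace Cfsg.Agent.S4648
open H05 Cfsg H20 H21 MonoidAlgebra Classical
open scoped ComplexConjugate
attribute [-instance] H19.instFintypeSubgroupFrob

/-- Let B be a block of the finite group G relative to a maximal ideal M of the algebraic integers containing the prime p, with a nontrivial defect group D. If B has p-regular rank 1 and at most four irreducible characters, then B is nilpotent, D has exactly as many elements as B has irreducible characters, and p is 2 or 3. -/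
theorem result {G : Type*} [Group G] [Finite G] (p : ℕ) [Fact p.Prime] (M : Ideal Cfsg.AlgInt) (hM : Cfsg.IsPModular p M) (B : Set (Cfsg.IrrCharacter G)) (hB : Cfsg.IsPBlock M B) (D : Subgroup G) (hD : Cfsg.IsDefectGroup p M B D) (hD1 : D ≠ ⊥) (hl : Cfsg.blockRank p B = 1) (hk : Nat.card B ≤ 4) : Cfsg.IsNilpotentBlock p M B ∧ Nat.card D = Nat.card B ∧ (p = 2 ∨ p = 3) := by
  haveI := hM.2.1
  haveI := Fintype.ofFinite G
  have h1 := card_eq_of_rank_one hM hB hl hk
  have h2 := hD.card_eq hM hB
  have h3 : blockDefect p B ≠ 0 := fun e => hD1 (Subgroup.card_eq_one.1 (by rw [h2, e, pow_zero]))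
  have h4 := Nat.le_self_pow h3 p
  have h5 : p = 2 ∨ p = 3 := by
    have := hM.1.two_le
    have : p ≠ 4 := fun e => absurd (e ▸ hM.1) (by norm_num)
    omega
  refine ⟨?_, h2.trans h1.symm, h5⟩
  by_cases hc : IsCyclic D
  · exact (Cfsg.Agent.S4649.result p M hM B hB D hD hc).2 hl
  have h6 : Nat.card D = 4 := by
    by_contra h7
    have h8 : Nat.card D ≠ 1 := fun e => hD1 (Subgroup.card_eq_one.1 e)
    have h9 := Nat.card_pos (α := D)
    haveI := Fact.mk Nat.prime_three
    rcases (show Nat.card D = 2 ∨ Nat.card D = 3 by omega) with e | e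
    exacts [hc (isCyclic_of_prime_card e), hc (isCyclic_of_prime_card e)]
  obtain rfl : p = 2 := h5.resolve_right fun e => by
    have := dvd_pow_self p h3
    rw [← h2, h6, e] at this
    omega
  haveI : IsKleinFour D := ⟨h6, (not_isCyclic_iff_exponent_eq_prime Nat.prime_two h6).1 hc⟩
  obtain ⟨σ⟩ : Nonempty (D ≃* Multiplicative (ZMod 2 × ZMod 2)) := IsKleinFour.nonempty_mulEquiv
  obtain ⟨c, h⟩ := exists_mx hM hB hD
  obtain ⟨a1, -, E, -, a2, -⟩ := h.homo_frb le_rfl σ
  rw [hl, card_range_cact, eq_comm, Subgroup.relIndex_eq_one] at a2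
  exact (isNilpotentBlock_iff_of_comm hM h.max a1).2 a2

end Cfsg.Agent.S4648
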