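import Mathlib
import Cfsg.Agent.H20.BlkFus
-- Template for statement S4650 (row 4650; see /opt/grader/pristine/manifest.json for weights).
-- Copy to Cfsg/Agent/S4650.lean and replace the sorry. The statement below is byte-identical to the frozen
-- statement Cfsg.CfsgFrozen.S4650 (Cfsg/Statements/S4650.lean; the theorem Cfsg.blk6_abelian_defect_free_inertial_action_iff_local_blocks_nilpotent);
-- the grader kernel-checks Cfsg.Agent.S4650.result against that frozen type. Keep the theorem IN THIS FILE
-- (a `result` declared elsewhere and merely imported here is not credited); helpers may live anywhere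
-- under Cfsg/Agent/.
import Cfsg.Statements.S4650
-- import your own Cfsg.Agent.* helpers here

set_option autoImplicit false
open Cfsg

open H20 H05 H21 MonoidAlgebra

namespace Cfsg.Agent.S4650

/-- Let B be a block of the finite group G relative to a maximal ideal M of the algebraic integers containing the prime p, with a nontrivial commutative defect group P; let c be a block of C_G(P) inducing B and T the stabilizer of c in N_G(P). Then T/C_G(P) acts freely on the non-identity elements of P (an element of T fixing a non-identity element of P under conjugation lies in C_G(P)) if and only if, for every nontrivial subgroup Q of P, the block of C_G(Q) induced by c inside C_G(Q) is a nilpotent block of C_G(Q). -/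
theorem result {G : Type*} [Group G] [Finite G] (p : ℕ) [Fact p.Prime] (M : Ideal Cfsg.AlgInt) (hM : Cfsg.IsPModular p M) (B : Set (Cfsg.IrrCharacter G)) (hB : Cfsg.IsPBlock M B) (P : Subgroup G) (hPD : Cfsg.IsDefectGroup p M B P) (hPab : ∀ x ∈ P, ∀ y ∈ P, x * y = y * x) (hP1 : P ≠ ⊥) (c : Set (Cfsg.IrrCharacter (Subgroup.centralizer (P : Set G)))) (hc : Cfsg.IsInducedBlock M (Subgroup.centralizer (P : Set G)) c B) (T : Subgroup G) (hT : ∀ g : G, g ∈ T ↔ (g ∈ Subgroup.normalizer (P : Set G) ∧ Cfsg.StabilizesBlock (Subgroup.centralizer (P : Set G)) c g)) : (∀ g ∈ T, ∀ x ∈ P, x ≠ 1 → g * x * g⁻¹ = x → g ∈ Subgroup.centralizer (P : Set G)) ↔ ∀ Q : Subgroup G, Q ≤ P → Q ≠ ⊥ → ∀ f : Set (Cfsg.IrrCharacter (Subgroup.centralizer (Q : Set G))), Cfsg.IsInducedBlockIn M (Subgroup.centralizer (Q : Set G)) (Subgroup.centralizer (P : Set G)) c f → Cfsg.IsNilpotentBlock p M f := by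
  have := hM.2.1
  obtain rfl : T = pstab ⟨P, c⟩ := Subgroup.ext fun y => (hT y).trans (mem_pstab_iff (a := ⟨P, c⟩)).symm
  have hab : P ≤ Subgroup.centralizer (P : Set G) := fun x hx y hy => hPab y hy x hx
  have hP := hPD.isPGroup
  have hb : PMax p M B ⟨P, c⟩ :=
    (pOf_of_isInducedBlock_centralizer hM (a := ⟨P, c⟩) hP hc).pMax_of_isDefectGroup hM hPD
  have key : ∀ Q ≤ P, ∀ f, Cfsg.IsPBlock M f → (Cfsg.IsInducedBlockIn M (Subgroup.centralizer (Q : Set G))
      (Subgroup.centralizer (P : Set G)) c f ↔ PN p M ⟨Q, f⟩ ⟨P, c⟩) := by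
    intro Q hQ f hf
    rw [isInducedBlockIn_iff_iB hM hP (centralizer_anti hQ) hab inf_le_left
      (H28.centralizer_le_normalizer' P) hb.bp.2 hf, pn_iff hM]
    exact ⟨fun h => ⟨⟨hP.to_le hQ, hf⟩, hb.bp, hQ,
      (hab.trans (centralizer_anti hQ)).trans (centralizer_le_pstab ⟨Q, f⟩), h⟩, fun h => h.2.2.2.2⟩
  constructor
  · intro h Q hQ hQ1 f hf
    have hf' : Cfsg.IsPBlock M f := hf.2.1
    have ha := (key Q hQ f hf').1 hf
    refine (nilBI_pI_iff hM ha.1).1 ((nilBI_centralizer_iff hM ha.1).2 fun d hd h1 x hx hx' hp => ?_)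
    have hQC : Q ≤ Subgroup.centralizer (Q : Set G) := hQ.trans (hab.trans (centralizer_anti hQ))
    obtain ⟨z, hz, h2⟩ := hd.exists_cjP_ple hM ha (h1.trans (sup_le hQC le_rfl)) le_rfl
      (centralizer_le_pstab ⟨Q, f⟩) (hb.maxBr_of_le_centralizer hM ha.ple
        (hab.trans (centralizer_anti hQ)) (centralizer_le_pstab ⟨Q, f⟩))
    obtain ⟨y, hy, h3⟩ := hb.exists_pstab_of_comm hM hab h2 (g := z * x * z⁻¹) (by
      rw [cjP_cjP, inv_mul_cancel_right, ← cjP_cjP, mem_pstab.1 hx]; exact h2)
    have h4 : Q ≤ (cjP z d).1 := by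
      rw [← cj_of_mem_normalizer (H28.centralizer_le_normalizer' Q hz)]
      exact cj_mono z hd.ple.le
    have h5 : y ∈ Subgroup.centralizer (Q : Set G) := by
      have := (Subgroup.centralizer (Q : Set G)).mul_mem (mul_mem (mul_mem hz hx') (inv_mem hz))
        (inv_mem (centralizer_anti h4 h3))
      simpa [mul_assoc] using this
    obtain ⟨u, hu, hu1⟩ := (Subgroup.bot_or_exists_ne_one Q).resolve_left hQ1
    have h6 := h y hy u (hQ hu) hu1 (by rw [← Subgroup.mem_centralizer_iff.1 h5 u hu]; group)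
    have h7 := mul_mem (centralizer_anti h2.le h6) h3
    rwa [mul_inv_cancel_left, cjP_fst, ← cj_centralizer, conj_mem_cj] at h7
  · intro h g hg x hx hx1 hgx
    have hQ : Subgroup.zpowers x ≤ P := Subgroup.zpowers_le.2 hx
    obtain ⟨f, hf⟩ := exists_ple hM hb.bp hQ
    have ha := hf.pn hM hb.bp ((hab.trans (centralizer_anti hQ)).trans (H28.centralizer_le_normalizer' _))
    have h1 := h _ hQ (by simpa using hx1) f ((key _ hQ f ha.1.2).2 ha)
    have h2 := (nilBI_centralizer_iff hM ha.1).1 ((nilBI_pI_iff hM ha.1).2 h1) _ ha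
      ((hab.trans (centralizer_anti hQ)).trans le_sup_right) _ (pReg_mem p hg) (pReg_mem p ?_)
      (not_dvd_orderOf_pReg p g)
    · rw [← pPart_mul_pReg p g]
      exact mul_mem (sup_le hab le_rfl (hb.pPart_mem hM hg)) h2
    · rw [H21.centralizer_zpowers, Subgroup.mem_centralizer_singleton_iff]
      calc g * x = g * x * g⁻¹ * g := by group
        _ = x * g := by rw [hgx]

end Cfsg.Agent.S4650
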