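import Mathlib
import Cfsg.Agent.H20.Chains
-- Template for statement S4651 (row 4651; see /opt/grader/pristine/manifest.json for weights).
-- Copy to Cfsg/Agent/S4651.lean and replace the sorry. The statement below is byte-identical to the frozen
-- statement Cfsg.CfsgFrozen.S4651 (Cfsg/Statements/S4651.lean; the theorem Cfsg.blk6_alternating_sum_over_normal_chains_of_character_count_minus_rank);
-- the grader kernel-checks Cfsg.Agent.S4651.result against that frozen type. Keep the theorem IN THIS FILE
-- (a `result` declared elsewhere and merely imported here is not credited); helpers may live anywhere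
-- under Cfsg/Agent/.
import Cfsg.Statements.S4651
-- import your own Cfsg.Agent.* helpers here

set_option autoImplicit false
open Cfsg

open H20 H05 H21 MonoidAlgebra Cfsg

namespace Cfsg.Agent.S4651

/-- An alternating-sum identity over chains of p-subgroups (the character-count form behind the chain reformulation of Alperin's weight conjecture, which holds unconditionally for the difference k − l). Let b be a block of the finite group G relative to a maximal ideal M of the algebraic integers containing the prime p. Consider the nonempty chains s = {Q_0 < Q_1 < ⋯ < Q_m} of nontrivial p-subgroups of G in which every member is normal in the largest member; let N_G(s) be the intersection of the normalizers of the members (the stabilizer of the chain), and let b_s be the set of irreducible characters of N_G(s) lying in blocks of N_G(s) that induce b. Then #G · (k(b) − l(b)) equals the sum over all such chains s of (−1)^m · #N_G(s) · (k(b_s) − l(b_s)), where k counts irreducible characters and l is the p-regular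 rank; equivalently, k(b) − l(b) is the alternating sum of k(b_s) − l(b_s) over representatives of the conjugacy classes of such chains. -/
theorem result {G : Type*} [Group G] [Finite G] (p : ℕ) [Fact p.Prime] (M : Ideal Cfsg.AlgInt) (hM : Cfsg.IsPModular p M) (b : Set (Cfsg.IrrCharacter G)) (hb : Cfsg.IsPBlock M b) : (Nat.card G : ℤ) * ((Nat.card b : ℤ) - (Cfsg.blockRank p b : ℤ)) = ∑ᶠ s ∈ {s : Finset (Subgroup G) | s.Nonempty ∧ (∀ Q ∈ s, ∀ R ∈ s, Q ≤ R ∨ R ≤ Q) ∧ (∀ Q ∈ s, Q ≠ ⊥ ∧ IsPGroup p Q) ∧ ∃ T ∈ s, ∀ Q ∈ s, Q ≤ T ∧ T ≤ Subgroup.normalizer ((Q : Subgroup G) : Set G)}, (-1 : ℤ) ^ (s.card - 1) * (Nat.card (((⨅ Q ∈ s, Subgroup.normalizer ((Q : Subgroup G) : Set G) : Subgroup G))) : ℤ) * ((Nat.card {ψ : Cfsg.IrrCharacter (((⨅ Q ∈ s, Subgroup.normalizer ((Q : Subgroup G) : Set G) : Subgroup G))) | ∃ β : Set (Cfsg.IrrCharacter (((⨅ Q ∈ s, Subgroup.normalizer ((Q : Subgroup G) : Set G) : Subgroup G)))), ψ ∈ β ∧ Cfsg.IsInducedBlock M (((⨅ Q ∈ s, Subgroup.normalizer ((Q : Subgroup G) : Set G) : Subgroup G)))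 β b} : ℤ) - (Cfsg.blockRank p {ψ : Cfsg.IrrCharacter (((⨅ Q ∈ s, Subgroup.normalizer ((Q : Subgroup G) : Set G) : Subgroup G))) | ∃ β : Set (Cfsg.IrrCharacter (((⨅ Q ∈ s, Subgroup.normalizer ((Q : Subgroup G) : Set G) : Subgroup G)))), ψ ∈ β ∧ Cfsg.IsInducedBlock M (((⨅ Q ∈ s, Subgroup.normalizer ((Q : Subgroup G) : Set G) : Subgroup G))) β b} : ℤ)) := by
  classical
  have := hM.2.1
  have := Fintype.ofFinite (Finset (Subgroup G))
  have h := knorr_robinson hM (ε := eB M b) (isCen_idem b).redA
  rw [← Finset.add_sum_erase _ _ (a := ∅) (Finset.mem_filter.2 ⟨Finset.mem_univ _, by simp [NCh]⟩)] at h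
  have e : (⨅ Q ∈ (∅ : Finset (Subgroup G)), Subgroup.normalizer ((Q : Subgroup G) : Set G)) = ⊤ := by simp
  rw [e, ← card_vSet_range (φ := MonoidHom.id G) Function.injective_id (MonoidHom.range_eq_top.2 Function.surjective_id),
    ← rank_vSet_range (φ := MonoidHom.id G) Function.injective_id (MonoidHom.range_eq_top.2 Function.surjective_id), vSet_id hb, Subgroup.card_top,
    Finset.card_empty, pow_zero, one_mul] at h
  rw [eq_neg_of_add_eq_zero_left h, ← Finset.sum_neg_distrib, finsum_mem_eq_finite_toFinset_sum _ (Set.toFinite _)]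
  have key : ∀ s : Finset (Subgroup G), s ≠ ∅ → (∀ Q ∈ s, ∀ R ∈ s, Q ≤ R ∨ R ≤ Q) → (∀ Q ∈ s, Q ≠ ⊥) → s.sup id ∈ s :=
    fun s h1 h2 h3 => (sup_mem_or h2).resolve_left fun e => by
      obtain ⟨Q, hQ⟩ := Finset.nonempty_iff_ne_empty.2 h1
      exact h3 Q hQ (le_bot_iff.1 (e ▸ Finset.le_sup (f := id) hQ))
  refine Finset.sum_congr ?_ fun s hs => ?_
  · ext s
    rw [Finset.mem_erase, Finset.mem_filter]
    simp only [Finset.mem_univ, true_and, Set.Finite.mem_toFinset,
      Set.mem_ofPred_eq, NCh, Finset.nonempty_iff_ne_empty]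
    refine and_congr_right fun h1 => and_congr_right fun h2 => and_congr_right fun h3 => ⟨fun h4 =>
      ⟨_, key s h1 h2 fun Q hQ => (h3 Q hQ).1, fun Q hQ => ⟨Finset.le_sup (f := id) hQ, h4 Q hQ⟩⟩, ?_⟩
    rintro ⟨T, -, hT⟩ Q hQ
    exact (Finset.sup_le fun R hR => (hT R hR).1).trans (hT Q hQ).2
  · simp only [Set.Finite.mem_toFinset, Set.mem_ofPred_eq] at hs
    obtain ⟨h1, h2, h3, T, hT, hT'⟩ := hs
    rw [vSet_eq_induced hM hb fun β hβ => by
      obtain ⟨B, hB⟩ := exists_indVia hM (Subgroup.subtype_injective _) (h3 T hT).2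
        (by rw [Subgroup.range_subtype]; exact le_iInf₂ fun Q hQ => (hT' Q hQ).2)
        (by
          rw [Subgroup.range_subtype]
          exact le_iInf₂ fun Q hQ => (Subgroup.centralizer_le (hT' Q hQ).1).trans (Subgroup.centralizer_le_normalizer _))
        (by rw [Subgroup.range_subtype]; exact iInf₂_le T hT) hβ
      exact ⟨B, hB.isInducedBlock⟩]
    obtain ⟨n, hn⟩ := Nat.exists_eq_succ_of_ne_zero h1.card_ne_zero
    rw [hn, Nat.succ_sub_one, pow_succ]
    ring

end Cfsg.Agent.S4651
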