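import Mathlib
import Cfsg.Agent.H20.Pair
-- Template for statement S4652 (row 4652; see /opt/grader/pristine/manifest.json for weights).
-- Copy to Cfsg/Agent/S4652.lean and replace the sorry. The statement below is byte-identical to the frozen
-- statement Cfsg.CfsgFrozen.S4652 (Cfsg/Statements/S4652.lean; the theorem Cfsg.blk5_principal_block_defect_groups_are_sylow);
-- the grader kernel-checks Cfsg.Agent.S4652.result against that frozen type. Keep the theorem IN THIS FILE
-- (a `result` declared elsewhere and merely imported here is not credited); helpers may live anywhere
-- under Cfsg/Agent/.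
import Cfsg.Statements.S4652
-- import your own Cfsg.Agent.* helpers here

set_option autoImplicit false
open Cfsg

open H20 H05 H21 MonoidAlgebra

namespace Cfsg.Agent.S4652

/-- Fix a prime p and a maximal ideal M of the algebraic integers containing p. The defect groups of the principal p-block of a finite group G are exactly the Sylow p-subgroups of G: a subgroup D is a defect group of the principal block if and only if D is a Sylow p-subgroup. -/
theorem result {G : Type*} [Group G] [Fintype G] (p : ℕ) [Fact p.Prime] (M : Ideal Cfsg.AlgInt) (hM : Cfsg.IsPModular p M) (D : Subgroup G) : Cfsg.IsDefectGroup p M (Cfsg.principalBlock M G) D ↔ ∃ S : Sylow p G, (S : Subgroup G) = D := by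
  have := hM.2.1
  exact ⟨fun h => (h.sylIn_of_principal hM).exists_sylow,
    fun ⟨S, hS⟩ => hS ▸ isDefectGroup_principal hM S⟩

end Cfsg.Agent.S4652
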