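import Mathlib
import Cfsg.Agent.H20.Knorr
-- Template for statement S4653 (row 4653; see /opt/grader/pristine/manifest.json for weights).
-- Copy to Cfsg/Agent/S4653.lean and replace the sorry. The statement below is byte-identical to the frozen
-- statement Cfsg.CfsgFrozen.S4653 (Cfsg/Statements/S4653.lean; the theorem Cfsg.blk5_block_idempotent_supported_on_centralizer_of_normal_p_subgroup);
-- the grader kernel-checks Cfsg.Agent.S4653.result against that frozen type. Keep the theorem IN THIS FILE
-- (a `result` declared elsewhere and merely imported here is not credited); helpers may live anywhere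
-- under Cfsg/Agent/.
import Cfsg.Statements.S4653
-- import your own Cfsg.Agent.* helpers here

set_option autoImplicit false
open Cfsg

open H20 H05 H21 MonoidAlgebra

namespace Cfsg.Agent.S4653

/-- Fix a prime p and a maximal ideal M of the algebraic integers containing p. Let P be a normal p-subgroup of the finite group G and B a p-block of G. Then the idempotent of B is supported on C_G(P): its coefficient at every element of G outside C_G(P) is zero. -/
theorem result {G : Type*} [Group G] [Fintype G] (p : ℕ) [Fact p.Prime] (M : Ideal Cfsg.AlgInt) (hM : Cfsg.IsPModular p M) (P : Subgroup G) [P.Normal] (hP : IsPGroup p P) (B : Set (Cfsg.IrrCharacter G)) (hB : Cfsg.IsPBlock M B) (g : G) (hg : g ∉ Subgroup.centralizer (P : Set G)) : Cfsg.blockCoeff B g = 0 := by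
  have := hM.2.1
  exact hB.blockCoeff_eq_zero_of_normal hM hP hg

end Cfsg.Agent.S4653
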