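import Mathlib
import Cfsg.Agent.H20.Knorr
-- Template for statement S4654 (row 4654; see /opt/grader/pristine/manifest.json for weights).
-- Copy to Cfsg/Agent/S4654.lean and replace the sorry. The statement below is byte-identical to the frozen
-- statement Cfsg.CfsgFrozen.S4654 (Cfsg/Statements/S4654.lean; the theorem Cfsg.blk5_block_over_normal_p_subgroup_is_trace_of_centralizer_block);
-- the grader kernel-checks Cfsg.Agent.S4654.result against that frozen type. Keep the theorem IN THIS FILE
-- (a `result` declared elsewhere and merely imported here is not credited); helpers may live anywhere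
-- under Cfsg/Agent/.
import Cfsg.Statements.S4654
-- import your own Cfsg.Agent.* helpers here

set_option autoImplicit false
open Cfsg

open H20 H05 H21 MonoidAlgebra

namespace Cfsg.Agent.S4654

/-- Fix a prime p and a maximal ideal M of the algebraic integers containing p. Let P be a normal p-subgroup of the finite group G, B a p-block of G and e a p-block of C_G(P) such that (P, e) is a Brauer pair of B (as P is normal, this says that e occurs in the idempotent of B, which is supported on C_G(P)). Let T be the stabilizer of e in G under conjugation. Then the idempotent of e is a block idempotent of T: some block E of T has, at every element of T, the same idempotent coefficient as e (zero off C_G(P)); and the idempotent of B is the sum of the distinct G-conjugates of the idempotent of e: its coefficient at g is the sum over all x in G of the coefficient of e at x⁻¹ g x, divided by the order of T. -/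
theorem result {G : Type*} [Group G] [Fintype G] (p : ℕ) [Fact p.Prime] (M : Ideal Cfsg.AlgInt) (hM : Cfsg.IsPModular p M) (P : Subgroup G) [P.Normal] (hP : IsPGroup p P) (B : Set (Cfsg.IrrCharacter G)) (e : Set (Cfsg.IrrCharacter (Subgroup.centralizer (P : Set G)))) (hBe : Cfsg.IsBrauerPairOf p M B P e) (T : Subgroup G) (hT : ∀ x : G, x ∈ T ↔ Cfsg.StabilizesBlock (Subgroup.centralizer (P : Set G)) e x) : (∃ E : Set (Cfsg.IrrCharacter T), Cfsg.IsPBlock M E ∧ ∀ t : T, Cfsg.blockCoeff E t = Cfsg.subgroupBlockCoeff (Subgroup.centralizer (P : Set G)) e (t : G)) ∧ ∀ g : G, Cfsg.blockCoeff B g = (Nat.card T : ℂ)⁻¹ * ∑ x : G, Cfsg.subgroupBlockCoeff (Subgroup.centralizer (P : Set G)) e (x⁻¹ * g * x) := by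
  classical
  have := hM.2.1
  have ha : POf p M B ⟨P, e⟩ := hBe
  have hN : (⊤ : Subgroup G) ≤ Subgroup.normalizer (P : Set G) := (Subgroup.normalizer_eq_top P).ge
  obtain rfl : T = pstab ⟨P, e⟩ := Subgroup.ext fun y => (hT y).trans
    ((mem_pstab_iff (a := ⟨P, e⟩)).trans (and_iff_right (hN trivial))).symm
  constructor
  · obtain ⟨F, hF, -, h2⟩ := BP.exists_iI_eq hM ha.1 (le_pstab _) (centralizer_le_pstab _) le_rfl
    exact ⟨F, hF, (iI_eq_iI_iff (centralizer_le_pstab _)).1 h2⟩
  have hB := ha.2.1
  have he := ha.1.2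
  have hs : ∀ g, g ∉ Subgroup.centralizer (P : Set G) → (eB M B).coeff g = 0 :=
    fun _ h => by_contra fun h1 => h (hB.mem_centralizer_of_coeff_eB hM hP h1)
  have h1 : Covers (Subgroup.centralizer (P : Set G)) B e := by
    have h2 := ha.mul_eq hM
    rw [trunc_eq_self hs] at h2
    exact (covers_iff_iB hB he).2 (h2.symm ▸ he.iB_ne_zero)
  have h2 : inc _ (idem (orb (Subgroup.centralizer (P : Set G)) e)) = idem B := by
    rw [inc_idem_orb]
    congr 1
    ext χ
    refine ⟨fun ⟨θ, hθ, h⟩ => ?_, fun h => h1.exists_over hB he.isInt_idem h⟩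
    rw [h1.unique_of_supp ⟨χ, H20.mem_blockOf_self χ, θ, hθ, h⟩ hB (H20.isPBlock_blockOf χ) he hs]
    exact H20.mem_blockOf_self χ
  have hT' : pstab (⟨P, e⟩ : BrauerPairIdx G) = bstab _ e :=
    Subgroup.ext fun y => (hT y).trans stabilizesBlock_iff_mem_bstab
  have h3 : ∑ x : G, idem (cjB _ x⁻¹ e) = (Nat.card (bstab _ e) : ℂ) •
      idem (orb (Subgroup.centralizer (P : Set G)) e) := by
    refine cen_ext (IsCen.sum fun x _ => isCen_idem _) ((isCen_idem _).smul _) fun θ => ?_
    rw [omega_sum, omega_smul]
    simp only [omega_idem]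
    by_cases hθ : θ ∈ orb _ e
    · obtain ⟨y, hy⟩ := mem_orb.1 hθ
      rw [if_pos hθ, mul_one, Finset.sum_boole, Nat.cast_inj, ← Fintype.card_subtype,
        ← Nat.card_eq_fintype_card]
      refine Nat.card_congr (Equiv.subtypeEquiv (Equiv.mulLeft y) fun x => ?_)
      rw [Equiv.coe_mulLeft, ← inv_inv x, ← cjB_eq_cjB_iff, inv_inv]
      exact ⟨fun h => (he.cjB _).eq_of_mem (he.cjB _) hy h, fun h => h ▸ hy⟩
    · rw [if_neg hθ, mul_zero]
      exact Finset.sum_eq_zero fun x _ => if_neg fun h => hθ (mem_orb.2 ⟨_, h⟩)
  intro g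
  have h4 := congrArg (fun a => (inc _ a).coeff g) h3
  simp only [map_sum, map_smul, h2, coeff_sum', coeff_smul', coeff_inc_idem_cjB, inv_inv,
    coeff_idem] at h4
  simp only [subgroupBlockCoeff_eq, iI]
  rw [h4, hT', inv_mul_cancel_left₀ card_ne_zero']

end Cfsg.Agent.S4654
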