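import Mathlib
import Cfsg.Agent.H20.Pair
-- Template for statement S4655 (row 4655; see /opt/grader/pristine/manifest.json for weights).
-- Copy to Cfsg/Agent/S4655.lean and replace the sorry. The statement below is byte-identical to the frozen
-- statement Cfsg.CfsgFrozen.S4655 (Cfsg/Statements/S4655.lean; the theorem Cfsg.blk5_brauer_pair_unique_subpair_on_each_subgroup);
-- the grader kernel-checks Cfsg.Agent.S4655.result against that frozen type. Keep the theorem IN THIS FILE
-- (a `result` declared elsewhere and merely imported here is not credited); helpers may live anywhere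
-- under Cfsg/Agent/.
import Cfsg.Statements.S4655
-- import your own Cfsg.Agent.* helpers here

set_option autoImplicit false
open Cfsg

open H20 H05 H21 MonoidAlgebra

namespace Cfsg.Agent.S4655

/-- Fix a prime p and a maximal ideal M of the algebraic integers containing p. Let (P, e) be a Brauer pair of the finite group G (P a p-subgroup, e a p-block of C_G(P)) and Q a subgroup of P. Then there is exactly one p-block f of C_G(Q) such that the Brauer pair (Q, f) lies below (P, e). -/
theorem result {G : Type*} [Group G] [Fintype G] (p : ℕ) [Fact p.Prime] (M : Ideal Cfsg.AlgInt) (hM : Cfsg.IsPModular p M) (P Q : Subgroup G) (e : Set (Cfsg.IrrCharacter (Subgroup.centralizer (P : Set G)))) (hPe : Cfsg.IsBrauerPair p M P e) (hQP : Q ≤ P) : ∃! f : Set (Cfsg.IrrCharacter (Subgroup.centralizer (Q : Set G))), Cfsg.IsPBlock M f ∧ Cfsg.SubpairLE p M Q f P e := by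
  have := hM.2.1
  obtain ⟨f, hf⟩ := exists_ple (b := ⟨P, e⟩) hM hPe hQP
  refine ⟨f, ⟨(hf.bp_left hPe).2, hf⟩, fun f' hf' => ?_⟩
  have h := PLE.unique (a := ⟨Q, f'⟩) (c := ⟨P, e⟩) hM hPe hf'.2 hf rfl
  exact eq_of_heq (Sigma.mk.inj h).2

end Cfsg.Agent.S4655
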