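import Mathlib
import Cfsg.Agent.H20.Pair
-- Template for statement S4657 (row 4657; see /opt/grader/pristine/manifest.json for weights).
-- Copy to Cfsg/Agent/S4657.lean and replace the sorry. The statement below is byte-identical to the frozen
-- statement Cfsg.CfsgFrozen.S4657 (Cfsg/Statements/S4657.lean; the theorem Cfsg.blk5_brauer_pair_belongs_to_unique_block);
-- the grader kernel-checks Cfsg.Agent.S4657.result against that frozen type. Keep the theorem IN THIS FILE
-- (a `result` declared elsewhere and merely imported here is not credited); helpers may live anywhere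
-- under Cfsg/Agent/.
import Cfsg.Statements.S4657
-- import your own Cfsg.Agent.* helpers here

set_option autoImplicit false
open Cfsg

open H20 H05 H21 MonoidAlgebra

namespace Cfsg.Agent.S4657

/-- Fix a prime p and a maximal ideal M of the algebraic integers containing p. Every Brauer pair (P, e) of the finite group G is a Brauer pair of exactly one p-block B of G. -/
theorem result {G : Type*} [Group G] [Fintype G] (p : ℕ) [Fact p.Prime] (M : Ideal Cfsg.AlgInt) (hM : Cfsg.IsPModular p M) (P : Subgroup G) (e : Set (Cfsg.IrrCharacter (Subgroup.centralizer (P : Set G)))) (hPe : Cfsg.IsBrauerPair p M P e) : ∃! B : Set (Cfsg.IrrCharacter G), Cfsg.IsBrauerPairOf p M B P e := by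
  have := hM.2.1
  obtain ⟨B, hB⟩ := exists_pOf (a := ⟨P, e⟩) hM hPe
  exact ⟨B, hB, fun B' hB' => POf.unique (a := ⟨P, e⟩) hM hB' hB⟩

end Cfsg.Agent.S4657
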