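import Mathlib
import Cfsg.Agent.H20.PairMax
-- Template for statement S4662 (row 4662; see /opt/grader/pristine/manifest.json for weights).
-- Copy to Cfsg/Agent/S4662.lean and replace the sorry. The statement below is byte-identical to the frozen
-- statement Cfsg.CfsgFrozen.S4662 (Cfsg/Statements/S4662.lean; the theorem Cfsg.blk5_subpair_normalizer_in_defect_group_of_stabilizer_block);
-- the grader kernel-checks Cfsg.Agent.S4662.result against that frozen type. Keep the theorem IN THIS FILE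
-- (a `result` declared elsewhere and merely imported here is not credited); helpers may live anywhere
-- under Cfsg/Agent/.
import Cfsg.Statements.S4662
-- import your own Cfsg.Agent.* helpers here

set_option autoImplicit false
open Cfsg

open H20 H05 H21 MonoidAlgebra

namespace Cfsg.Agent.S4662

/-- Fix a prime p and a maximal ideal M of the algebraic integers containing p. Let (P, e) be a maximal Brauer pair of the p-block B of the finite group G, Q ≤ P, and f the p-block of C_G(Q) with (Q, f) ≤ (P, e). Let T be the stabilizer of f in N_G(Q). Then the idempotent of f is a block idempotent of T, and N_P(Q) is contained in a defect group of that block of T; moreover for some x in G the conjugate pair (x Q x⁻¹, conjugate of f) again lies below (P, e) and, with T' the stabilizer of the conjugate of f in N_G(x Q x⁻¹), N_P(x Q x⁻¹) is a defect group of the block of T' whose idempotent is that of the conjugate of f. -/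
theorem result {G : Type*} [Group G] [Fintype G] (p : ℕ) [Fact p.Prime] (M : Ideal Cfsg.AlgInt) (hM : Cfsg.IsPModular p M) (B : Set (Cfsg.IrrCharacter G)) (P Q : Subgroup G) (e : Set (Cfsg.IrrCharacter (Subgroup.centralizer (P : Set G)))) (f : Set (Cfsg.IrrCharacter (Subgroup.centralizer (Q : Set G)))) (hmax : Cfsg.IsMaximalBrauerPair p M B P e) (hQP : Q ≤ P) (hf : Cfsg.IsPBlock M f) (hle : Cfsg.SubpairLE p M Q f P e) (T : Subgroup G) (hT : ∀ y : G, y ∈ T ↔ y ∈ Subgroup.normalizer (Q : Set G) ∧ Cfsg.StabilizesBlock (Subgroup.centralizer (Q : Set G)) f y) : (∃ F : Set (Cfsg.IrrCharacter T), Cfsg.IsPBlock M F ∧ (∀ t : T, Cfsg.blockCoeff F t = Cfsg.subgroupBlockCoeff (Subgroup.centralizer (Q : Set G)) f (t : G)) ∧ ∃ D : Subgroup T, Cfsg.IsDefectGroup p M F D ∧ (P ⊓ Subgroup.normalizer (Q : Set G)).subgroupOf T ≤ D) ∧ ∃ x : G, Cfsg.SubpairLE p M (Q.map (MulAut.conj x).toMonoidHom) (Cfsg.conjBlock Q x f) P e ∧ ∀ (T' : Subgroup G), (∀ y : G, y ∈ T' ↔ y ∈ Subgroup.normalizer ((Q.map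 (MulAut.conj x).toMonoidHom) : Set G) ∧ Cfsg.StabilizesBlock (Subgroup.centralizer ((Q.map (MulAut.conj x).toMonoidHom) : Set G)) (Cfsg.conjBlock Q x f) y) → ∃ F' : Set (Cfsg.IrrCharacter T'), Cfsg.IsPBlock M F' ∧ (∀ t : T', Cfsg.blockCoeff F' t = Cfsg.subgroupBlockCoeff (Subgroup.centralizer ((Q.map (MulAut.conj x).toMonoidHom) : Set G)) (Cfsg.conjBlock Q x f) (t : G)) ∧ Cfsg.IsDefectGroup p M F' ((P ⊓ Subgroup.normalizer ((Q.map (MulAut.conj x).toMonoidHom) : Set G)).subgroupOf T') := by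
  have := hM.2.1
  have hb : PMax p M B ⟨P, e⟩ := hmax
  have h : PLE p M ⟨Q, f⟩ ⟨P, e⟩ := hle
  have key : ∀ a : BrauerPairIdx G, PLE p M a ⟨P, e⟩ →
      P ⊓ pstab a = P ⊓ Subgroup.normalizer (a.1 : Set G) := fun a ha =>
    le_antisymm (inf_le_inf_left _ (pstab_le a))
      (le_inf inf_le_left (ha.inf_normalizer_le_pstab hM hb.bp))
  constructor
  · obtain rfl : T = pstab ⟨Q, f⟩ := Subgroup.ext fun y => (hT y).trans (mem_pstab_iff (a := ⟨Q, f⟩)).symm
    obtain ⟨F, hF, h1, h2⟩ := (h.bp_left hb.bp).exists_iI_eq hM (le_pstab _)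
      (centralizer_le_pstab _) le_rfl
    obtain ⟨D, hD, h3⟩ := h.exists_maxBr_ge hM hb.bp (pstab_le _)
    rw [← h1] at hD
    rw [key _ h] at h3
    exact ⟨F, hF, (iI_eq_iI_iff (centralizer_le_pstab _)).1 h2, _,
      (maxBr_iB_iff hM hF hD.le).1 hD, Subgroup.subgroupOf_mono _ h3⟩
  · obtain ⟨x, hx, h1⟩ := (hb.pOf_of_ple hM h).exists_cjP_maxBr hM hb le_rfl
    refine ⟨x, hx, fun T' hT' => ?_⟩
    obtain rfl : T' = pstab (cjP x ⟨Q, f⟩) :=
      Subgroup.ext fun y => (hT' y).trans (mem_pstab_iff (a := cjP x ⟨Q, f⟩)).symm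
    obtain ⟨F, hF, h2, h3⟩ := (hx.bp_left hb.bp).exists_iI_eq hM (le_pstab _)
      (centralizer_le_pstab _) le_rfl
    rw [← pstab_cjP, ← h2] at h1
    have h4 := (maxBr_iB_iff hM hF h1.le).1 h1
    rw [key _ hx] at h4
    exact ⟨F, hF, (iI_eq_iI_iff (centralizer_le_pstab _)).1 h3, h4⟩

end Cfsg.Agent.S4662
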