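import Mathlib
import Cfsg.Agent.H20.Block
import Cfsg.Agent.H21.BlockOrth
-- Template for statement S4664 (row 4664; see /opt/grader/pristine/manifest.json for weights).
-- Copy to Cfsg/Agent/S4664.lean and replace the sorry. The statement below is byte-identical to the frozen
-- statement Cfsg.CfsgFrozen.S4664 (Cfsg/Statements/S4664.lean; the theorem Cfsg.blk5_block_idempotent_coefficients_in_p_prime_cyclotomic_field);
-- the grader kernel-checks Cfsg.Agent.S4664.result against that frozen type. Keep the theorem IN THIS FILE
-- (a `result` declared elsewhere and merely imported here is not credited); helpers may live anywhere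
-- under Cfsg/Agent/.
import Cfsg.Statements.S4664
-- import your own Cfsg.Agent.* helpers here

set_option autoImplicit false
open Cfsg

open H20 H05 H21 MonoidAlgebra Cfsg

namespace Cfsg.Agent.S4664

/-- Fix a prime p and a maximal ideal M of the algebraic integers containing p, and let B be a p-block of the finite group G. Let m be the p'-part of the order of G and η = exp(2πi/m). Then every coefficient of the idempotent of B lies in the cyclotomic field ℚ(η). -/
theorem result {G : Type*} [Group G] [Fintype G] (p : ℕ) [Fact p.Prime] (M : Ideal Cfsg.AlgInt) (hM : Cfsg.IsPModular p M) (B : Set (Cfsg.IrrCharacter G)) (hB : Cfsg.IsPBlock M B) (g : G) : Cfsg.blockCoeff B g ∈ IntermediateField.adjoin ℚ ({Complex.exp (2 * Real.pi * Complex.I / ((Nat.card G / p ^ (Nat.card G).factorization p : ℕ) : ℂ))} : Set ℂ) := by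
  classical
  by_cases hg : p ∣ orderOf g
  · rw [hB.blockCoeff_eq_zero_of_dvd hM hg]; exact zero_mem _
  set m := Nat.card G / p ^ (Nat.card G).factorization p with hm
  have hm0 : m ≠ 0 := (Nat.ordCompl_pos p Nat.card_pos.ne').ne'
  have h1 : orderOf g⁻¹ ∣ m := by
    rw [orderOf_inv]
    refine (Nat.Coprime.pow_right ((Nat.card G).factorization p)
      ((Nat.Prime.coprime_iff_not_dvd hM.1).2 hg).symm).dvd_of_dvd_mul_left ?_
    rw [hm, Nat.ordProj_mul_ordCompl_eq_self]
    exact orderOf_dvd_natCard g
  have hζ := Complex.isPrimitiveRoot_exp m hm0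
  rw [blockCoeff_eq]
  refine mul_mem (inv_mem (natCast_mem _ _)) (sum_mem fun χ _ => mul_mem ?_ ?_)
  · rw [← χ.2.charDegree_eq]; exact natCast_mem _ _
  · obtain ⟨ω, h2, h3⟩ := χ.2.isCharacter.exists_roots g⁻¹
    have := h3 1
    rw [pow_one] at this
    rw [this]
    refine sum_mem fun i _ => pow_mem ?_ _
    have : NeZero m := ⟨hm0⟩
    obtain ⟨j, -, hj⟩ := hζ.eq_pow_of_pow_eq_one (ξ := ω i) (by
      obtain ⟨c, hc⟩ := h1
      rw [hc, pow_mul, h2, one_pow])
    rw [← hj]
    exact pow_mem (IntermediateField.mem_adjoin_simple_self _ _) _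

end Cfsg.Agent.S4664
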