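import Mathlib
import Cfsg.Statements.S4665
import Cfsg.Agent.H21.BF

set_option autoImplicit false
open Cfsg

namespace Cfsg.Agent.S4665
open H05 Cfsg H20 H21 MonoidAlgebra Classical
open scoped ComplexConjugate

/-- Fix a prime p, a maximal ideal M of the algebraic integers containing p, and a p-block B of the finite group G, and let p^a be the p-part of the order of G. Let χ be an integer combination of the irreducible characters in B. If the function that agrees with χ on p-regular elements and vanishes on p-singular elements is again an integer combination of the irreducible characters in B, then p^a divides χ(1). -/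
theorem result {G : Type*} [Group G] [Fintype G] (p : ℕ) [Fact p.Prime] (M : Ideal Cfsg.AlgInt) (hM : Cfsg.IsPModular p M) (B : Set (Cfsg.IrrCharacter G)) (hB : Cfsg.IsPBlock M B) (χ : G → ℂ) (hχ : (∃ n : Cfsg.IrrCharacter G → ℤ, ∀ g : G, χ g = ∑ᶠ ψ ∈ B, (n ψ : ℂ) * (ψ : G → ℂ) g)) (h0 : (∃ n : Cfsg.IrrCharacter G → ℤ, ∀ g : G, Cfsg.pRegularPart p χ g = ∑ᶠ ψ ∈ B, (n ψ : ℂ) * (ψ : G → ℂ) g)) : ∃ k : ℤ, χ 1 = (p ^ (Nat.card G).factorization p : ℂ) * k := by
  obtain ⟨n, hn⟩ := h0
  have h1 : IsGeneralizedCharacter G (pRegularPart p χ) := by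
    have : pRegularPart p χ = ∑ ψ with ψ ∈ B, (n ψ : ℂ) • (ψ : G → ℂ) := funext fun g => by
      rw [hn, H21.finsum_mem_irr]; simp [Finset.sum_apply]
    rw [this]
    exact IsGeneralizedCharacter.sum _ fun ψ _ => ψ.2.isGeneralizedCharacter.intCast_smul _
  obtain ⟨k, hk⟩ := exists_int_of_vanish hM.1 h1 fun g h1 h2 =>
    pRegularPart_of_dvd _ (dvd_orderOf_of_pow hM.1 h1 h2)
  exact ⟨k, by rw [← hk, pRegularPart_of_not_dvd _ (by simpa using hM.1.one_lt.ne')]⟩

end Cfsg.Agent.S4665
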