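import Mathlib
import Cfsg.Statements.S4666
import Cfsg.Agent.H21.BF

set_option autoImplicit false
open Cfsg

namespace Cfsg.Agent.S4666
open H05 Cfsg H20 H21 MonoidAlgebra Classical
open scoped ComplexConjugate

/-- Fix a prime p and a maximal ideal M of the algebraic integers containing p, and a p-block B of the finite group G of defect d. For every integer combination χ of the irreducible characters in B, p^d times the function that agrees with χ on p-regular elements and vanishes elsewhere is again an integer combination of the irreducible characters in B. -/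
theorem result {G : Type*} [Group G] [Fintype G] (p : ℕ) [Fact p.Prime] (M : Ideal Cfsg.AlgInt) (hM : Cfsg.IsPModular p M) (B : Set (Cfsg.IrrCharacter G)) (hB : Cfsg.IsPBlock M B) (χ : G → ℂ) (hχ : (∃ n : Cfsg.IrrCharacter G → ℤ, ∀ g : G, χ g = ∑ᶠ ψ ∈ B, (n ψ : ℂ) * (ψ : G → ℂ) g)) : (∃ n : Cfsg.IrrCharacter G → ℤ, ∀ g : G, (p ^ Cfsg.blockDefect p B : ℂ) * Cfsg.pRegularPart p χ g = ∑ᶠ ψ ∈ B, (n ψ : ℂ) * (ψ : G → ℂ) g) := by
  haveI := hM.2.1
  obtain ⟨n, hn⟩ := hχ
  refine ⟨fun ψ => ∑ θ with θ ∈ B, n θ * cm p B θ ψ, fun g => ?_⟩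
  have : χ = ∑ ψ with ψ ∈ B, (n ψ : ℂ) • (ψ : G → ℂ) := funext fun g => by
    rw [hn, H21.finsum_mem_irr]; simp [Finset.sum_apply]
  rw [H21.finsum_mem_irr, this, pRegularPart_sum, Finset.sum_apply, Finset.mul_sum]
  push_cast
  simp only [Finset.sum_mul]
  rw [Finset.sum_comm]
  refine Finset.sum_congr rfl fun θ hθ => ?_
  have hθ' := (Finset.mem_filter.1 hθ).2
  rw [pRegularPart_smul, pRegularPart_eq_sum_contrib hM (int_block hB) hθ', Pi.smul_apply,
    Finset.sum_apply, smul_eq_mul, Finset.mul_sum, Finset.mul_sum]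
  refine Finset.sum_congr rfl fun ψ _ => ?_
  rw [cast_cm hM.1 hθ', Pi.smul_apply, smul_eq_mul]; ring

end Cfsg.Agent.S4666
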