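import Mathlib
import Cfsg.Agent.H20.Knorr
import Cfsg.Agent.H26.CharP
-- Template for statement S4668 (row 4668; see /opt/grader/pristine/manifest.json for weights).
-- Copy to Cfsg/Agent/S4668.lean and replace the sorry. The statement below is byte-identical to the frozen
-- statement Cfsg.CfsgFrozen.S4668 (Cfsg/Statements/S4668.lean; the theorem Cfsg.blk5_chain_normalizer_block_idempotents_in_centralizer_of_top);
-- the grader kernel-checks Cfsg.Agent.S4668.result against that frozen type. Keep the theorem IN THIS FILE
-- (a `result` declared elsewhere and merely imported here is not credited); helpers may live anywhere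
-- under Cfsg/Agent/.
import Cfsg.Statements.S4668
-- import your own Cfsg.Agent.* helpers here

set_option autoImplicit false
open Cfsg

open H20 H05 H21 MonoidAlgebra

namespace Cfsg.Agent.S4668

/-- Fix a prime p and a maximal ideal M of the algebraic integers containing p. Let Q₀ < Q₁ < ⋯ < Q_m be a strictly increasing chain of p-subgroups of the finite group G and N the intersection of their normalizers. Then every block idempotent of N is supported on C_G(Q_m): for every p-block E of N, the idempotent coefficient of E vanishes at every element of N outside C_G(Q_m). -/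
theorem result {G : Type*} [Group G] [Fintype G] (p : ℕ) [Fact p.Prime] (M : Ideal Cfsg.AlgInt) (hM : Cfsg.IsPModular p M) (m : ℕ) (Q : Fin (m + 1) → Subgroup G) (hQ : StrictMono Q) (hQp : ∀ i, IsPGroup p (Q i)) (N : Subgroup G) (hN : ∀ g : G, g ∈ N ↔ ∀ i, g ∈ Subgroup.normalizer (Q i : Set G)) (E : Set (Cfsg.IrrCharacter N)) (hE : Cfsg.IsPBlock M E) (n : N) (hn : (n : G) ∉ Subgroup.centralizer (Q (Fin.last m) : Set G)) : Cfsg.blockCoeff E n = 0 := by
  have := hM.2.1
  by_cases hp : p ∣ orderOf n
  · exact hE.blockCoeff_eq_zero_of_dvd hM hp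
  have hNn : ∀ i, N ≤ Subgroup.normalizer (Q i : Set G) := fun i g hg => (hN g).1 hg i
  have : ((Q (Fin.last m)).subgroupOf N).Normal := normal_subgroupOf_of_le_normalizer (hNn _)
  by_contra h
  have h1 : n ∈ Subgroup.centralizer ((Q (Fin.last m)).subgroupOf N : Set N) := by_contra fun h1 =>
    h (hE.blockCoeff_eq_zero_of_normal hM (P := (Q (Fin.last m)).subgroupOf N)
      (hQp _).comap_subtype h1)
  have h2 : ∀ x ∈ Q (Fin.last m), x ∈ N → x * n = n * x := fun x hx hxN =>
    congrArg Subtype.val (h1 ⟨x, hxN⟩ hx)
  have hc : (orderOf (n : G)).Coprime p := by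
    rw [Subgroup.orderOf_coe]
    exact ((Nat.Prime.coprime_iff_not_dvd hM.1).2 hp).symm
  have key : ∀ i, (n : G) ∈ Subgroup.centralizer (Q i : Set G) := by
    intro i
    induction i using WellFoundedLT.induction with
    | ind i ih =>
      let P : Subgroup G := ⨆ j : {j // j < i}, Q j
      have hPi : P ≤ Q i := iSup_le fun j => hQ.monotone j.2.le
      refine H26.pxq (P := P) ((hQp i).to_le hPi) (hQp i) hc (hPi.trans Subgroup.le_normalizer)
        (hNn i n.2) (le_centralizer_singleton_iff.1 (iSup_le fun j =>
          le_centralizer_singleton_iff.2 (ih j j.2))) fun x hx => ?_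
      refine h2 x (hQ.monotone (Fin.le_last i) hx.1) ((hN x).2 fun j => ?_)
      rcases lt_or_ge j i with hj | hj
      · exact Subgroup.centralizer_le_normalizer _
          (centralizer_anti (le_iSup (fun j : {j // j < i} => Q j) ⟨j, hj⟩) hx.2)
      · exact Subgroup.le_normalizer (hQ.monotone hj hx.1)
  exact hn (key _)

end Cfsg.Agent.S4668
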