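import Mathlib
import Cfsg.Agent.H20.Knorr
-- Template for statement S4670 (row 4670; see /opt/grader/pristine/manifest.json for weights).
-- Copy to Cfsg/Agent/S4670.lean and replace the sorry. The statement below is byte-identical to the frozen
-- statement Cfsg.CfsgFrozen.S4670 (Cfsg/Statements/S4670.lean; the theorem Cfsg.blk5_brauer_correspondence_over_subgroup_containing_normalizer);
-- the grader kernel-checks Cfsg.Agent.S4670.result against that frozen type. Keep the theorem IN THIS FILE
-- (a `result` declared elsewhere and merely imported here is not credited); helpers may live anywhere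
-- under Cfsg/Agent/.
import Cfsg.Statements.S4670
-- import your own Cfsg.Agent.* helpers here

set_option autoImplicit false
open Cfsg

open H20 H05 H21 MonoidAlgebra

namespace Cfsg.Agent.S4670

/-- Fix a prime p and a maximal ideal M of the algebraic integers containing p. Let P be a p-subgroup of the finite group G and H a subgroup containing N_G(P). For every p-block B of G with defect group P there is exactly one p-block c of H with defect group P whose idempotent agrees with that of B, modulo the local ideal at M, at every element of C_G(P) (their Brauer-map images at P coincide); and every p-block c of H with defect group P arises in this way from exactly one such B. This is the Brauer correspondence over H. -/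
theorem result {G : Type*} [Group G] [Fintype G] (p : ℕ) [Fact p.Prime] (M : Ideal Cfsg.AlgInt) (hM : Cfsg.IsPModular p M) (P H : Subgroup G) (hP : IsPGroup p P) (hH : Subgroup.normalizer (P : Set G) ≤ H) : (∀ B : Set (Cfsg.IrrCharacter G), Cfsg.IsPBlock M B → Cfsg.IsDefectGroup p M B P → ∃! c : Set (Cfsg.IrrCharacter H), Cfsg.IsPBlock M c ∧ Cfsg.IsDefectGroup p M c (P.subgroupOf H) ∧ ∀ x : G, x ∈ Subgroup.centralizer (P : Set G) → Cfsg.MemLocalIdeal M (Cfsg.blockCoeff B x - Cfsg.subgroupBlockCoeff H c x)) ∧ (∀ c : Set (Cfsg.IrrCharacter H), Cfsg.IsPBlock M c → Cfsg.IsDefectGroup p M c (P.subgroupOf H) → ∃! B : Set (Cfsg.IrrCharacter G), Cfsg.IsPBlock M B ∧ Cfsg.IsDefectGroup p M B P ∧ ∀ x : G, x ∈ Subgroup.centralizer (P : Set G) → Cfsg.MemLocalIdeal M (Cfsg.blockCoeff B x - Cfsg.subgroupBlockCoeff H c x)) := by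
  have := hM.2.1
  have hPH : P ≤ H := Subgroup.le_normalizer.trans hH
  have key : ∀ (B : Set (Cfsg.IrrCharacter G)) (c : Set (Cfsg.IrrCharacter H)), IsPBlock M B →
      IsPBlock M c → ((∀ x : G, x ∈ Subgroup.centralizer (P : Set G) →
        Cfsg.MemLocalIdeal M (Cfsg.blockCoeff B x - Cfsg.subgroupBlockCoeff H c x)) ↔
      trunc (Subgroup.centralizer (P : Set G)) (eB M B) =
        trunc (Subgroup.centralizer (P : Set G)) (iB M H c)) := by
    intro B c hB hc
    have h1 : ∀ x, Cfsg.MemLocalIdeal M (Cfsg.blockCoeff B x - Cfsg.subgroupBlockCoeff H c x) ↔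
        (eB M B).coeff x = (iB M H c).coeff x := fun x => by
      rw [subgroupBlockCoeff_eq, ← red_eq_iff (hB.ring_blockCoeff x) (hc.isInt_iI x), ← redA_iI]
      rfl
    simp only [h1]
    refine ⟨fun h => ext_coeff fun x => ?_, fun h x hx => ?_⟩
    · by_cases hx : x ∈ Subgroup.centralizer (P : Set G)
      · rw [coeff_trunc_of_mem _ hx, coeff_trunc_of_mem _ hx, h x hx]
      · rw [coeff_trunc_of_notMem _ hx, coeff_trunc_of_notMem _ hx]
    · rw [← coeff_trunc_of_mem (eB M B) hx, h, coeff_trunc_of_mem _ hx]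
  constructor
  · intro B hB hD
    have h1 := (maxBr_top_iff hM hB).2 hD
    obtain ⟨_, ⟨c, hc, rfl⟩, h2, h3⟩ := h1.exists_isBI_le hM hB.isBI_top le_top
      (inf_le_left.trans hH)
    refine ⟨c, ⟨hc, (maxBr_iB_iff hM hc hPH).1 h2, (key B c hB hc).2 h3⟩, fun c' hc' => ?_⟩
    refine (hc.eq_of_iB_eq hc'.1 (hc.isBI.eq_of_trunc_eq hM hc'.1.isBI hP hPH h2.ne ?_)).symm
    rw [← h3, (key B c' hB hc'.1).1 hc'.2.2]
  · intro c hc hD
    have h1 := (maxBr_iB_iff hM hc hPH).2 hD
    obtain ⟨_, h4, h2, h3⟩ := h1.exists_isBI_ge hM hc.isBI le_top (inf_le_left.trans hH)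
    obtain ⟨B, hB, rfl⟩ := isBI_top_iff.1 h4
    refine ⟨B, ⟨hB, (maxBr_top_iff hM hB).1 h2, (key B c hB hc).2 h3⟩, fun B' hB' => ?_⟩
    refine (hB.eq_of_eB_eq hB'.1 (h4.eq_of_trunc_eq hM hB'.1.isBI_top hP le_top h2.ne ?_)).symm
    rw [h3, (key B' c hB'.1 hc).1 hB'.2.2]

end Cfsg.Agent.S4670
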