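import Mathlib
import Cfsg.Agent.H20.Knorr
-- Template for statement S4672 (row 4672; see /opt/grader/pristine/manifest.json for weights).
-- Copy to Cfsg/Agent/S4672.lean and replace the sorry. The statement below is byte-identical to the frozen
-- statement Cfsg.CfsgFrozen.S4672 (Cfsg/Statements/S4672.lean; the theorem Cfsg.blk5_stable_block_of_normal_subgroup_of_p_power_index);
-- the grader kernel-checks Cfsg.Agent.S4672.result against that frozen type. Keep the theorem IN THIS FILE
-- (a `result` declared elsewhere and merely imported here is not credited); helpers may live anywhere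
-- under Cfsg/Agent/.
import Cfsg.Statements.S4672
-- import your own Cfsg.Agent.* helpers here

set_option autoImplicit false
open Cfsg

open H20 H05 H21 MonoidAlgebra

namespace Cfsg.Agent.S4672

/-- Fix a prime p and a maximal ideal M of the algebraic integers containing p. Let N be a normal subgroup of the finite group G of p-power index and c a p-block of N stable under conjugation by G. Then the idempotent of c is a block idempotent of G: there is a p-block B of G whose idempotent coefficients agree with those of c on N and vanish off N; and for every defect group P of such a block B, G = NP and P ∩ N is a defect group of c. -/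
theorem result {G : Type*} [Group G] [Fintype G] (p : ℕ) [Fact p.Prime] (M : Ideal Cfsg.AlgInt) (hM : Cfsg.IsPModular p M) (N : Subgroup G) [N.Normal] (hN : ∃ k : ℕ, N.index = p ^ k) (c : Set (Cfsg.IrrCharacter N)) (hc : Cfsg.IsPBlock M c) (hst : ∀ x : G, Cfsg.StabilizesBlock N c x) : (∃ B : Set (Cfsg.IrrCharacter G), Cfsg.IsPBlock M B ∧ ∀ g : G, Cfsg.blockCoeff B g = Cfsg.subgroupBlockCoeff N c g) ∧ ∀ B : Set (Cfsg.IrrCharacter G), Cfsg.IsPBlock M B → (∀ g : G, Cfsg.blockCoeff B g = Cfsg.subgroupBlockCoeff N c g) → ∀ P : Subgroup G, Cfsg.IsDefectGroup p M B P → N ⊔ P = ⊤ ∧ Cfsg.IsDefectGroup p M c ((P ⊓ N).subgroupOf N) := by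
  have := hM.2.1
  obtain ⟨k, hk⟩ := hN
  have hN : (⊤ : Subgroup G) ≤ Subgroup.normalizer (N : Set G) := (Subgroup.normalizer_eq_top N).ge
  have h1 : CInv ((⊤ : Subgroup G) : Set G) (iB M N c) := (cInv_iB_iff hc hN).2 fun x _ => hst x
  have hk' : N.relIndex ⊤ = p ^ k := by rwa [Subgroup.relIndex_top_right]
  have h2 := hc.isBI.isBI_of_index hM le_top hN hk' h1
  constructor
  · obtain ⟨B, hB, h3⟩ := isBI_top_iff.1 h2
    refine ⟨B, hB, fun g => ?_⟩
    rw [subgroupBlockCoeff_eq, eq_idem_of_redA_eq (a := iI N c) (B := B) (isCen_iff_cInv.2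
      (cInv_iff_cjA.2 fun u _ => (stabilizesBlock_iff.1 (hst u)).2)) (iI_mul_self c) hc.isInt_iI
      hB.isInt_idem (by rw [redA_iI, h3]), coeff_idem]
  · intro B hB h3 P hP
    have h4 : eB M B = iB M N c := by
      rw [← redA_iI, eB]
      congr 1
      exact ext_coeff fun g => by rw [coeff_idem, h3, subgroupBlockCoeff_eq]
    have h5 := (maxBr_top_iff hM hB).2 hP
    rw [h4] at h5
    obtain ⟨h6, h7⟩ := hc.isBI.sup_eq_of_index hM h2 le_top hN hk' h5
    exact ⟨h6, (maxBr_iB_iff hM hc inf_le_right).1 h7⟩

end Cfsg.Agent.S4672
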