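import Mathlib
import Cfsg.Agent.H20.Knorr
-- Template for statement S4673 (row 4673; see /opt/grader/pristine/manifest.json for weights).
-- Copy to Cfsg/Agent/S4673.lean and replace the sorry. The statement below is byte-identical to the frozen
-- statement Cfsg.CfsgFrozen.S4673 (Cfsg/Statements/S4673.lean; the theorem Cfsg.blk5_covered_block_stabilizer_meets_p_power_overgroup_in_normal_subgroup);
-- the grader kernel-checks Cfsg.Agent.S4673.result against that frozen type. Keep the theorem IN THIS FILE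
-- (a `result` declared elsewhere and merely imported here is not credited); helpers may live anywhere
-- under Cfsg/Agent/.
import Cfsg.Statements.S4673
-- import your own Cfsg.Agent.* helpers here

set_option autoImplicit false
open Cfsg

open H20 H05 H21 MonoidAlgebra

namespace Cfsg.Agent.S4673

/-- Fix a prime p and a maximal ideal M of the algebraic integers containing p. Let N ≤ L be normal subgroups of the finite group G with L/N a p-group, let B be a p-block of G covering the p-block c of N (some member of B has a constituent in c on restriction to N), and suppose that N contains a defect group of B. Then the stabilizer T of c in G satisfies T ∩ L = N. -/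
theorem result {G : Type*} [Group G] [Fintype G] (p : ℕ) [Fact p.Prime] (M : Ideal Cfsg.AlgInt) (hM : Cfsg.IsPModular p M) (N L : Subgroup G) [N.Normal] [L.Normal] [Fintype N] (hNL : N ≤ L) (hLN : ∃ k : ℕ, (N.subgroupOf L).index = p ^ k) (B : Set (Cfsg.IrrCharacter G)) (hB : Cfsg.IsPBlock M B) (c : Set (Cfsg.IrrCharacter N)) (hc : Cfsg.IsPBlock M c) (hcov : (∃ χ ∈ B, ∃ θ ∈ c, Cfsg.classInner (fun n : N => (χ : G → ℂ) n) (θ : N → ℂ) ≠ 0)) (hD : ∃ D : Subgroup G, Cfsg.IsDefectGroup p M B D ∧ D ≤ N) (T : Subgroup G) (hT : ∀ x : G, x ∈ T ↔ Cfsg.StabilizesBlock N c x) : T ⊓ L = N := by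
  have := hM.2.1
  have := charP_Res hM
  obtain ⟨k, hk⟩ := hLN
  obtain ⟨D, hD, hDN⟩ := hD
  have hN : ∀ K : Subgroup G, K ≤ Subgroup.normalizer (N : Set G) := fun K =>
    le_top.trans (Subgroup.normalizer_eq_top N).ge
  have hL : (⊤ : Subgroup G) ≤ Subgroup.normalizer (L : Set G) := (Subgroup.normalizer_eq_top L).ge
  have h1 := (covers_iff_iB hB hc).1 (covers_iff.2 hcov)
  have hT' : CInv T (iB M N c) := (cInv_iB_iff hc (hN T)).2 fun x hx => (hT x).1 hx
  have hNT : N ≤ T := fun x hx => (hT x).2 ((cInv_iB_iff hc (hN N)).1 (cInv_iB c) x hx)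
  obtain ⟨γ, hγ, h2⟩ := exists_isBI_mul_ne_zero L h1
  rw [← mul_assoc, ← (isCen_eB B).comm, mul_assoc] at h2
  have h3 : γ * iB M N c = iB M N c := (hc.isBI.dichotomy (hγ.cInv.mono hNL)
    (hγ.trunc_of_index hM (hN L) hk) hγ.mul_self).resolve_right (right_ne_zero_of_mul h2)
  have h4 : ∀ R ≤ T ⊓ L, IsPGroup p R →
      trunc (Subgroup.centralizer (R : Set G)) (iB M N c) ≠ 0 → R ≤ N := by
    intro R hR hRp h5
    rw [← h3, trunc_centralizer_mul hRp (hγ.cInv.mono (hR.trans inf_le_right))
      (hT'.mono (hR.trans inf_le_left))] at h5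
    have h6 := hγ.trunc_mul_ne_zero_of_le hM le_top hL hRp (hR.trans inf_le_right)
      (left_ne_zero_of_mul h5) hB.isBI_top (by rw [← mul_assoc] at h2; exact left_ne_zero_of_mul h2)
    exact (((hD.subConj_iff hM hB hRp).2 (trunc_ne_zero_iff.1 (left_ne_zero_of_mul h6))).trans
      (SubConj.of_le hDN)).le_of_normal'
  refine le_antisymm (fun x hx => ?_) (le_inf hNT hNL)
  rw [← pPart_mul_pReg p x]
  refine mul_mem (hc.isBI.le_of_fong hM (le_inf hNT hNL) (hN _) (hT'.mono inf_le_left) h4
    (S := Subgroup.zpowers (pPart p x)) ?_ ?_ (Subgroup.mem_zpowers _)) ?_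
  · obtain ⟨j, hj⟩ := orderOf_pPart p x
    exact H26.isPGroup_zpowers ⟨j, by rw [← hj, pow_orderOf_eq_one]⟩
  · exact Subgroup.zpowers_le_of_mem (pPart_mem p hx)
  · exact mem_of_index_eq_pow (N := N.subgroupOf L) hM.1 hk (g := ⟨_, pReg_mem p hx.2⟩)
      (by rw [Subgroup.orderOf_mk]; exact not_dvd_orderOf_pReg p x)

end Cfsg.Agent.S4673
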