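import Mathlib
import Cfsg.Agent.H20.Knorr
-- Template for statement S4674 (row 4674; see /opt/grader/pristine/manifest.json for weights).
-- Copy to Cfsg/Agent/S4674.lean and replace the sorry. The statement below is byte-identical to the frozen
-- statement Cfsg.CfsgFrozen.S4674 (Cfsg/Statements/S4674.lean; the theorem Cfsg.blk5_covering_blocks_correspond_via_normalizer_of_defect_group);
-- the grader kernel-checks Cfsg.Agent.S4674.result against that frozen type. Keep the theorem IN THIS FILE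
-- (a `result` declared elsewhere and merely imported here is not credited); helpers may live anywhere
-- under Cfsg/Agent/.
import Cfsg.Statements.S4674
-- import your own Cfsg.Agent.* helpers here

set_option autoImplicit false
open Cfsg

open H20 H05 H21 MonoidAlgebra

namespace Cfsg.Agent.S4674

/-- Fix a prime p and a maximal ideal M of the algebraic integers containing p. Let N be a normal subgroup of the finite group G, Q a p-subgroup of N, H = N_G(Q) and L = H ∩ N = N_N(Q). Let d be a p-block of N with defect group Q and e the p-block of L with defect group Q that induces d inside N (its Brauer correspondent). Then block induction from H to G is a bijection from the p-blocks of H covering e onto the p-blocks of G covering d: every block of H covering e induces exactly one block of G, and that block covers d; and every block of G covering d is induced by exactly one block of H covering e. -/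
theorem result {G : Type*} [Group G] [Fintype G] (p : ℕ) [Fact p.Prime] (M : Ideal Cfsg.AlgInt) (hM : Cfsg.IsPModular p M) (N : Subgroup G) [N.Normal] [Fintype N] (Q : Subgroup G) (hQ : IsPGroup p Q) (hQN : Q ≤ N) [Fintype ↥(Subgroup.normalizer (Q : Set G) ⊓ N)] (d : Set (Cfsg.IrrCharacter N)) (hd : Cfsg.IsPBlock M d) (hdQ : Cfsg.IsDefectGroup p M d (Q.subgroupOf N)) (e : Set (Cfsg.IrrCharacter ↥(Subgroup.normalizer (Q : Set G) ⊓ N))) (he : Cfsg.IsPBlock M e) (heQ : Cfsg.IsDefectGroup p M e (Q.subgroupOf (Subgroup.normalizer (Q : Set G) ⊓ N))) (hed : Cfsg.IsInducedBlockIn M N (Subgroup.normalizer (Q : Set G) ⊓ N) e d) : (∀ c : Set (Cfsg.IrrCharacter ↥(Subgroup.normalizer (Q : Set G))), Cfsg.IsPBlock M c → (∃ ψ ∈ c, ∃ ξ ∈ e, Cfsg.classInner (fun l : ↥(Subgroup.normalizer (Q : Set G) ⊓ N) => (ψ : ↥(Subgroup.normalizer (Q : Set G)) → ℂ) (Subgroup.inclusion inf_le_left l)) (ξ : ↥(Subgroup.normalizer (Q : Set G) ⊓ N) → ℂ) ≠ 0) → ∃! B : Set (Cfsg.IrrCharacter G), Cfsg.IsInducedBlock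 M (Subgroup.normalizer (Q : Set G)) c B ∧ (∃ χ ∈ B, ∃ θ ∈ d, Cfsg.classInner (fun n : N => (χ : G → ℂ) n) (θ : N → ℂ) ≠ 0)) ∧ (∀ B : Set (Cfsg.IrrCharacter G), Cfsg.IsPBlock M B → (∃ χ ∈ B, ∃ θ ∈ d, Cfsg.classInner (fun n : N => (χ : G → ℂ) n) (θ : N → ℂ) ≠ 0) → ∃! c : Set (Cfsg.IrrCharacter ↥(Subgroup.normalizer (Q : Set G))), (Cfsg.IsPBlock M c ∧ ∃ ψ ∈ c, ∃ ξ ∈ e, Cfsg.classInner (fun l : ↥(Subgroup.normalizer (Q : Set G) ⊓ N) => (ψ : ↥(Subgroup.normalizer (Q : Set G)) → ℂ) (Subgroup.inclusion inf_le_left l)) (ξ : ↥(Subgroup.normalizer (Q : Set G) ⊓ N) → ℂ) ≠ 0) ∧ Cfsg.IsInducedBlock M (Subgroup.normalizer (Q : Set G)) c B) := by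
  have := hM.2.1
  have := charP_Res hM
  have hQH : Q ≤ (Subgroup.normalizer (Q : Set G)) := Subgroup.le_normalizer
  have hCH : Subgroup.centralizer (Q : Set G) ≤ (Subgroup.normalizer (Q : Set G)) := Subgroup.centralizer_le_normalizer _
  have hL : (Subgroup.normalizer (Q : Set G)) ≤ Subgroup.normalizer (((Subgroup.normalizer (Q : Set G)) ⊓ N : Subgroup G) : Set G) :=
    H26.le_normalizer_inf Subgroup.le_normalizer (le_top.trans (Subgroup.normalizer_eq_top N).ge)
  have hd1 := (maxBr_iB_iff hM hd hQN).2 hdQ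
  have he1 := (maxBr_iB_iff hM he (le_inf hQH hQN)).2 heQ
  have h1 : trunc (Subgroup.centralizer (Q : Set G)) (iB M N d) = iB M _ e := by
    refine (hd1.isBI_trunc hM hd.isBI).eq_of_mul_ne_zero he.isBI ?_
    rw [(isInducedBlockIn_iff_iB hM hQ inf_le_right (le_inf hQH hQN) (inf_le_inf_right _ hCH)
      inf_le_left he hd).1 hed]
    exact he.iB_ne_zero
  have hind : ∀ {c : Set (IrrCharacter (Subgroup.normalizer (Q : Set G)))} {B : Set (IrrCharacter G)}, IsInducedBlock M (Subgroup.normalizer (Q : Set G)) c B →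
      trunc (Subgroup.centralizer (Q : Set G)) (eB M B) * iB M (Subgroup.normalizer (Q : Set G)) c = iB M (Subgroup.normalizer (Q : Set G)) c := fun h =>
    (isInducedBlock_iff_iB hM hQ hQH hCH le_rfl h.1 h.2.1).1 h
  constructor
  · intro c hc hce
    rw [coversIn_iff inf_le_left hL he hc] at hce
    obtain ⟨B, hB⟩ := exists_isInducedBlock hM hQ hQH hCH le_rfl hc
    refine ⟨B, ⟨hB, covers_iff.1 ((covers_iff_iB hB.2.1 hd).2 fun h => hce ?_)⟩,
      fun B' hB' => hB'.1.unique hB⟩
    rw [← hind hB, (commute_iB (((isCen_eB B).cInv _).trunc_centralizer le_rfl) c).eq, mul_assoc,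
      ← h1, ← trunc_centralizer_mul hQ ((isCen_eB B).cInv _) ((cInv_iB d).mono hQN), h, map_zero,
      mul_zero]
  · intro B hB hBd
    have h2 := hd.isBI.trunc_mul_ne_zero_of_normal hM hQ hQN hd1.ne ((isCen_eB B).cInv _)
      hB.eB_mul_self ((covers_iff_iB hB hd).1 (covers_iff.2 hBd))
    rw [h1] at h2
    have hβ : CInv (Subgroup.normalizer (Q : Set G)) (trunc (Subgroup.centralizer (Q : Set G)) (eB M B)) :=
      ((isCen_eB B).cInv _).trunc_centralizer le_rfl
    obtain ⟨_, ⟨c, hc, rfl⟩, h3⟩ := exists_isBI_mul_ne_zero (Subgroup.normalizer (Q : Set G)) h2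
    have h4 : IsInducedBlock M (Subgroup.normalizer (Q : Set G)) c B := by
      rw [isInducedBlock_iff_iB hM hQ hQH hCH le_rfl hc hB]
      refine (hc.isBI.dichotomy hβ (trunc_eq_self fun g hg => coeff_trunc_of_notMem _
        fun h => hg (hCH h)) (trunc_idem_of_cInv hM hQ hB.eB_mul_self
          ((isCen_eB B).cInv _))).resolve_right fun h => h3 ?_
      rw [← mul_assoc, ← (commute_iB hβ c).eq, h, zero_mul]
    have h5 : iB M (Subgroup.normalizer (Q : Set G)) c * iB M _ e ≠ 0 := fun h => h3 (by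
      rw [← mul_assoc, ← (commute_iB hβ c).eq, mul_assoc, h, mul_zero])
    have key : ∀ c : Set (IrrCharacter (Subgroup.normalizer (Q : Set G))), iB M (Subgroup.normalizer (Q : Set G)) c * iB M _ e ≠ 0 → IsInducedBlock M (Subgroup.normalizer (Q : Set G)) c B →
        ∀ D, MaxBr p (iB M (Subgroup.normalizer (Q : Set G)) c) (Subgroup.normalizer (Q : Set G)) D → D ⊓ N = Q ∧ MaxBr p (eB M B) ⊤ D ∧
          trunc (Subgroup.centralizer (D : Set G)) (eB M B) =
            trunc (Subgroup.centralizer (D : Set G)) (iB M (Subgroup.normalizer (Q : Set G)) c) := by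
      intro c h5 h4 D hD
      have hc := h4.1
      obtain ⟨x, hx, -, -, h6⟩ := he.isBI.exists_cj_maxBr_inf hM inf_le_left hL hc.isBI h5 hD
      have h7 : D ⊓ N = Q := by
        obtain ⟨y, hy, h7⟩ := he1.exists_cj_eq hM he.isBI h6
        have h8 := cj_injective y (h7.trans (cj_of_mem_normalizer hy.1).symm)
        have h9 : cj x (D ⊓ (Subgroup.normalizer (Q : Set G) ⊓ N)) = cj x Q := by
          rw [cj_inf, cj_of_mem_normalizer (hL hx), h8, cj_of_mem_normalizer hx]
        have h7 := cj_injective x h9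
        rw [← inf_assoc, inf_eq_left.2 hD.le] at h7
        exact h7
      have hQD : Q ≤ D := h7 ▸ inf_le_left
      refine ⟨h7, hB.isBI_top.maxBr_of_le hM hc.isBI le_top (inf_le_left.trans ?_) hD ?_⟩
      · rw [← h7]
        exact H26.le_normalizer_inf le_rfl (le_top.trans (Subgroup.normalizer_eq_top N).ge)
      · rw [← trunc_trunc_of_subset (centralizer_anti hQD) (eB M B), ← trunc_centralizer_mul hD.pg
          (hβ.mono hD.le) ((cInv_iB c).mono hD.le), hind h4]
        exact hD.ne
    refine ⟨c, ⟨⟨hc, (coversIn_iff inf_le_left hL he hc).2 h5⟩, h4⟩, fun c' hc' => ?_⟩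
    have h5' := (coversIn_iff inf_le_left hL he hc'.1.1).1 hc'.1.2
    obtain ⟨D, hD⟩ := exists_maxBr p (Subgroup.normalizer (Q : Set G)) hc.iB_ne_zero
    obtain ⟨D', hD'⟩ := exists_maxBr p (Subgroup.normalizer (Q : Set G)) hc'.1.1.iB_ne_zero
    obtain ⟨h6, h7, h8⟩ := key c h5 h4 D hD
    obtain ⟨h6', h7', -⟩ := key c' h5' hc'.2 D' hD'
    obtain ⟨x, -, rfl⟩ := h7.exists_cj_eq hM hB.isBI_top h7'
    have hx : x ∈ (Subgroup.normalizer (Q : Set G)) := mem_normalizer_iff_cj.2 (by
      conv_lhs => rw [← h6', cj_inf, cj_normal x N, h6])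
    obtain ⟨-, -, h8'⟩ := key c' h5' hc'.2 _ (hD'.cj_of_mem (cInv_iB c') hx)
    exact (hc.eq_of_iB_eq hc'.1.1 (hc.isBI.eq_of_trunc_eq hM hc'.1.1.isBI hD.pg hD.le hD.ne
      (h8.symm.trans h8'))).symm

end Cfsg.Agent.S4674
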