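import Mathlib
import Cfsg.Statements.S4676
import Cfsg.Agent.H21.BF

set_option autoImplicit false
open Cfsg

namespace Cfsg.Agent.S4676
open H05 Cfsg H20 H21 MonoidAlgebra Classical
open scoped ComplexConjugate

/-- Fix a prime p and a maximal ideal M of the algebraic integers containing p. Let B be a p-block of the finite group G with defect group P. For χ in B, let the height of χ be the exponent of p in the degree of χ minus the least such exponent over the members of B. Then the sum over χ in B of p raised to twice the height of χ is at most the integer part of (order of P)²/4, plus 1; in particular B has at most that many irreducible characters. -/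
theorem result {G : Type*} [Group G] [Fintype G] (p : ℕ) [Fact p.Prime] (M : Ideal Cfsg.AlgInt) (hM : Cfsg.IsPModular p M) (B : Set (Cfsg.IrrCharacter G)) (hB : Cfsg.IsPBlock M B) (P : Subgroup G) (hP : Cfsg.IsDefectGroup p M B P) : ∑ᶠ χ ∈ B, p ^ (2 * Cfsg.blockHeight p B (χ : G → ℂ)) ≤ Nat.card P ^ 2 / 4 + 1 := by
  haveI := hM.2.1
  obtain ⟨χ, hχ, h0⟩ := H21.exists_height_zero p (block_nonempty hB)
  have h1 := four_mul_sum_erase_le hM hB hχ
  have h2 := Finset.sum_le_sum (s := (Finset.univ.filter fun ψ : IrrCharacter G => ψ ∈ B).erase χ)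
    (f := fun ψ : IrrCharacter G => (p : ℤ) ^ (2 * blockHeight p B (ψ : G → ℂ))) (g := fun ψ => cm p B χ ψ ^ 2)
    fun ψ hψ => by
      rw [cm_comm]
      exact pow_le_cm_sq hM hB (by simpa using (Finset.mem_erase.1 hψ).2) hχ h0
  rw [H21.finsum_mem_irr, ← Finset.add_sum_erase _ _ (show χ ∈ _ by simpa using hχ), h0,
    hP.card_eq hM hB, ← pow_mul, mul_comm _ 2]
  have h3 : 4 * ∑ ψ ∈ (Finset.univ.filter fun ψ : IrrCharacter G => ψ ∈ B).erase χ,
      p ^ (2 * blockHeight p B (ψ : G → ℂ)) ≤ p ^ (2 * blockDefect p B) := by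
    have := (mul_le_mul_of_nonneg_left h2 (by norm_num : (0 : ℤ) ≤ 4)).trans h1
    exact_mod_cast this
  simp only [mul_zero, pow_zero]
  omega

end Cfsg.Agent.S4676
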