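import Mathlib
import Cfsg.Agent.H20.BlkFus
-- Template for statement S4679 (row 4679; see /opt/grader/pristine/manifest.json for weights).
-- Copy to Cfsg/Agent/S4679.lean and replace the sorry. The statement below is byte-identical to the frozen
-- statement Cfsg.CfsgFrozen.S4679 (Cfsg/Statements/S4679.lean; the theorem Cfsg.blk5_fully_normalized_iff_normalizer_is_defect_group);
-- the grader kernel-checks Cfsg.Agent.S4679.result against that frozen type. Keep the theorem IN THIS FILE
-- (a `result` declared elsewhere and merely imported here is not credited); helpers may live anywhere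
-- under Cfsg/Agent/.
import Cfsg.Statements.S4679
-- import your own Cfsg.Agent.* helpers here

set_option autoImplicit false
open Cfsg

open H20 H05 H21 MonoidAlgebra

namespace Cfsg.Agent.S4679

/-- Fix a prime p and a maximal ideal M of the algebraic integers containing p, a p-block B of the finite group G with maximal Brauer pair (P, e), its fusion system F on P, a Brauer pair (Q, f) ≤ (P, e), and let T be the stabilizer of f in N_G(Q). Then Q is fully normalized in F if and only if N_P(Q) is a defect group of the block of T whose idempotent is that of f. -/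
theorem result {G : Type*} [Group G] [Fintype G] (p : ℕ) [Fact p.Prime] (M : Ideal Cfsg.AlgInt) (hM : Cfsg.IsPModular p M) (B : Set (Cfsg.IrrCharacter G)) (P : Subgroup G) (e : Set (Cfsg.IrrCharacter (Subgroup.centralizer (P : Set G)))) (hmax : Cfsg.IsMaximalBrauerPair p M B P e) (F : Cfsg.FusionSystem P) (hF : Cfsg.IsBlockFusionSystemOn p M B P e F) (Q : Subgroup G) (f : Set (Cfsg.IrrCharacter (Subgroup.centralizer (Q : Set G)))) (hQP : Q ≤ P) (hf : Cfsg.IsPBlock M f) (hle : Cfsg.SubpairLE p M Q f P e) (T : Subgroup G) (hT : ∀ y : G, y ∈ T ↔ y ∈ Subgroup.normalizer (Q : Set G) ∧ Cfsg.StabilizesBlock (Subgroup.centralizer (Q : Set G)) f y) : F.IsFullyNormalized Q ↔ ∃ F' : Set (Cfsg.IrrCharacter T), Cfsg.IsPBlock M F' ∧ (∀ t : T, Cfsg.blockCoeff F' t = Cfsg.subgroupBlockCoeff (Subgroup.centralizer (Q : Set G)) f (t : G)) ∧ Cfsg.IsDefectGroup p M F' ((P ⊓ Subgroup.normalizer (Q : Set G)).subgroupOf T) := by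
  have := hM.2.1
  obtain rfl : T = pstab ⟨Q, f⟩ := Subgroup.ext fun y => (hT y).trans (mem_pstab_iff (a := ⟨Q, f⟩)).symm
  have ha : BP p M ⟨Q, f⟩ := PLE.bp_left (b := ⟨P, e⟩) hle hmax.1.1
  have h1 : P ⊓ Subgroup.normalizer (Q : Set G) ≤ pstab ⟨Q, f⟩ :=
    PLE.inf_normalizer_le_pstab hM (b := ⟨P, e⟩) (a := ⟨Q, f⟩) hmax.1.1 hle
  rw [BFus.fn_iff hM (b := ⟨P, e⟩) (a := ⟨Q, f⟩) hF hle]
  constructor
  · intro h
    obtain ⟨F', h2, h3, h4⟩ := ha.exists_iI_eq hM (le_pstab _) (centralizer_le_pstab _) le_rfl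
    refine ⟨F', h2, (iI_eq_iI_iff (centralizer_le_pstab ⟨Q, f⟩)).1 h4, ?_⟩
    rw [← maxBr_iB_iff hM h2 h1, h3]
    exact h
  · rintro ⟨F', h2, h3, h4⟩
    rw [← maxBr_iB_iff hM h2 h1,
      iB_eq_of_iI_eq ((iI_eq_iI_iff (centralizer_le_pstab ⟨Q, f⟩)).2 h3)] at h4
    exact h4

end Cfsg.Agent.S4679
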