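import Mathlib
import Cfsg.Agent.H20.BlkFus
-- Template for statement S4681 (row 4681; see /opt/grader/pristine/manifest.json for weights).
-- Copy to Cfsg/Agent/S4681.lean and replace the sorry. The statement below is byte-identical to the frozen
-- statement Cfsg.CfsgFrozen.S4681 (Cfsg/Statements/S4681.lean; the theorem Cfsg.blk5_principal_block_fusion_system_is_group_fusion_system);
-- the grader kernel-checks Cfsg.Agent.S4681.result against that frozen type. Keep the theorem IN THIS FILE
-- (a `result` declared elsewhere and merely imported here is not credited); helpers may live anywhere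
-- under Cfsg/Agent/.
import Cfsg.Statements.S4681
-- import your own Cfsg.Agent.* helpers here

set_option autoImplicit false
open Cfsg

open H20 H05 H21 MonoidAlgebra

namespace Cfsg.Agent.S4681

/-- Fix a prime p and a maximal ideal M of the algebraic integers containing p. Let B₀ be the principal p-block of the finite group G, P a Sylow p-subgroup and e₀ the principal p-block of C_G(P). Then (P, e₀) is a maximal Brauer pair of B₀, and the fusion system of B₀ on (P, e₀) is the fusion system of G on P: its maps from each subgroup of P are exactly the conjugation maps into P by elements of G. -/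
theorem result {G : Type*} [Group G] [Fintype G] (p : ℕ) [Fact p.Prime] (M : Ideal Cfsg.AlgInt) (hM : Cfsg.IsPModular p M) (S : Sylow p G) : Cfsg.IsMaximalBrauerPair p M (Cfsg.principalBlock M G) (S : Subgroup G) (Cfsg.principalBlock M (Subgroup.centralizer ((S : Subgroup G) : Set G))) ∧ ∀ F : Cfsg.FusionSystem (S : Subgroup G), Cfsg.IsBlockFusionSystemOn p M (Cfsg.principalBlock M G) (S : Subgroup G) (Cfsg.principalBlock M (Subgroup.centralizer ((S : Subgroup G) : Set G))) F → ∀ Q : Subgroup G, F.Hom Q = (Cfsg.groupFusionSystem (S : Subgroup G)).Hom Q := by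
  have := hM.2.1
  have hb := pOf_principal hM S.isPGroup'
  refine ⟨hb.pMax_of_isDefectGroup hM (isDefectGroup_principal hM S), fun F hF Q => ?_⟩
  have : F = Cfsg.groupFusionSystem (S : Subgroup G) := by
    refine H28.eq_of_M fun R φ => ?_
    rw [H28.M_group]
    constructor
    · intro h
      have ha := pOf_principal hM (S.isPGroup'.to_le h.le)
      obtain ⟨g, -, e⟩ := (BFus.M_iff hM (b := ⟨S, _⟩) hF (ha.principal_ple hM hb h.le)).1 h
      exact ⟨h.le, fun x hx => h.mem hx, g, e⟩
    · rintro ⟨h1, h2, g, e⟩
      have ha := pOf_principal hM (S.isPGroup'.to_le h1)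
      refine (BFus.M_iff hM (b := ⟨S, _⟩) hF (ha.principal_ple hM hb h1)).2 ⟨g,
        (ha.cjP hM g).principal_ple hM hb ?_, e⟩
      rintro _ ⟨x, hx, rfl⟩
      have := h2 x hx
      rwa [e x hx] at this
  rw [this]

end Cfsg.Agent.S4681
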