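import Mathlib
import Cfsg.Agent.H20.BlkFus
-- Template for statement S4682 (row 4682; see /opt/grader/pristine/manifest.json for weights).
-- Copy to Cfsg/Agent/S4682.lean and replace the sorry. The statement below is byte-identical to the frozen
-- statement Cfsg.CfsgFrozen.S4682 (Cfsg/Statements/S4682.lean; the theorem Cfsg.blk5_abelian_defect_subpair_stabilizer_factorization);
-- the grader kernel-checks Cfsg.Agent.S4682.result against that frozen type. Keep the theorem IN THIS FILE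
-- (a `result` declared elsewhere and merely imported here is not credited); helpers may live anywhere
-- under Cfsg/Agent/.
import Cfsg.Statements.S4682
-- import your own Cfsg.Agent.* helpers here

set_option autoImplicit false
open Cfsg

open H20 H05 H21 MonoidAlgebra

namespace Cfsg.Agent.S4682

/-- Fix a prime p and a maximal ideal M of the algebraic integers containing p, a p-block B of the finite group G with maximal Brauer pair (P, e), P abelian, and a Brauer pair (Q, f) ≤ (P, e). Let T_Q be the stabilizer of f in N_G(Q) and T_P the stabilizer of e in N_G(P). Then every element of T_Q is a product of an element of T_P and an element of C_G(Q); and the index of C_G(Q) in T_Q equals the index of T_P ∩ C_G(Q) in T_P ∩ N_G(Q). -/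
theorem result {G : Type*} [Group G] [Fintype G] (p : ℕ) [Fact p.Prime] (M : Ideal Cfsg.AlgInt) (hM : Cfsg.IsPModular p M) (B : Set (Cfsg.IrrCharacter G)) (P : Subgroup G) (e : Set (Cfsg.IrrCharacter (Subgroup.centralizer (P : Set G)))) (hmax : Cfsg.IsMaximalBrauerPair p M B P e) (hab : ∀ x ∈ P, ∀ y ∈ P, x * y = y * x) (Q : Subgroup G) (f : Set (Cfsg.IrrCharacter (Subgroup.centralizer (Q : Set G)))) (hQP : Q ≤ P) (hf : Cfsg.IsPBlock M f) (hle : Cfsg.SubpairLE p M Q f P e) (TQ : Subgroup G) (hTQ : ∀ y : G, y ∈ TQ ↔ y ∈ Subgroup.normalizer (Q : Set G) ∧ Cfsg.StabilizesBlock (Subgroup.centralizer (Q : Set G)) f y) (TP : Subgroup G) (hTP : ∀ y : G, y ∈ TP ↔ y ∈ Subgroup.normalizer (P : Set G) ∧ Cfsg.StabilizesBlock (Subgroup.centralizer (P : Set G)) e y) : (∀ x ∈ TQ, ∃ y ∈ TP, ∃ c ∈ Subgroup.centralizer (Q : Set G), x = y * c) ∧ ((Subgroup.centralizer (Q : Set G)).subgroupOf TQ).index = ((TP ⊓ Subgroup.centralizer (Q : Set G)).subgroupOf (TP ⊓ Subgroup.normalizer (Q : Set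 G))).index := by
  have := hM.2.1
  obtain rfl : TQ = pstab ⟨Q, f⟩ := Subgroup.ext fun y => (hTQ y).trans (mem_pstab_iff (a := ⟨Q, f⟩)).symm
  obtain rfl : TP = pstab ⟨P, e⟩ := Subgroup.ext fun y => (hTP y).trans (mem_pstab_iff (a := ⟨P, e⟩)).symm
  have hab' : P ≤ Subgroup.centralizer (P : Set G) := fun x hx y hy => hab y hy x hx
  have h1 : ∀ x ∈ pstab ⟨Q, f⟩, ∃ y ∈ pstab ⟨P, e⟩, y⁻¹ * x ∈ Subgroup.centralizer (Q : Set G) :=
    fun x hx => PMax.exists_pstab_of_comm hM (b := ⟨P, e⟩) (a := ⟨Q, f⟩) hmax hab' hle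
      (by rw [mem_pstab.1 hx]; exact hle)
  refine ⟨fun x hx => ?_, ?_⟩
  · obtain ⟨y, hy, h⟩ := h1 x hx
    exact ⟨y, hy, _, h, by simp⟩
  have h2 : pstab ⟨Q, f⟩ = (pstab ⟨P, e⟩ ⊓ Subgroup.normalizer (Q : Set G)) ⊔
      Subgroup.centralizer (Q : Set G) := by
    refine le_antisymm (fun x hx => ?_) (sup_le (fun x hx =>
      PLE.mem_pstab hM (b := ⟨P, e⟩) (a := ⟨Q, f⟩) hmax.1.1 hle hx.1 hx.2) (centralizer_le_pstab ⟨Q, f⟩))
    obtain ⟨y, hy, h⟩ := h1 x hx
    have h3 : y ∈ Subgroup.normalizer (Q : Set G) := by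
      have := (Subgroup.normalizer (Q : Set G)).mul_mem (pstab_le ⟨Q, f⟩ hx)
        (Subgroup.inv_mem _ (H28.centralizer_le_normalizer' Q h))
      simpa using this
    have := Subgroup.mul_mem_sup (show y ∈ pstab ⟨P, e⟩ ⊓ Subgroup.normalizer (Q : Set G) from ⟨hy, h3⟩) h
    simpa using this
  have h3 := relIndex_sup_left' (H := pstab ⟨P, e⟩ ⊓ Subgroup.normalizer (Q : Set G))
    (N := Subgroup.centralizer (Q : Set G))
    (inf_le_right.trans (normalizer_le_normalizer_centralizer Q))
  rw [← h2] at h3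
  refine h3.trans ?_
  show _ = Subgroup.relIndex _ _
  rw [← Subgroup.inf_relIndex_right, ← Subgroup.inf_relIndex_right (pstab ⟨P, e⟩ ⊓ _)]
  congr 1
  ext x
  simp only [Subgroup.mem_inf]
  tauto

end Cfsg.Agent.S4682
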