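import Mathlib
import Cfsg.Agent.H20.PairMax
import Cfsg.Agent.H21.Subsec
-- Template for statement S4683 (row 4683; see /opt/grader/pristine/manifest.json for weights).
-- Copy to Cfsg/Agent/S4683.lean and replace the sorry. The statement below is byte-identical to the frozen
-- statement Cfsg.CfsgFrozen.S4683 (Cfsg/Statements/S4683.lean; the theorem Cfsg.blk5_subsection_norms_sum_to_local_block_rank);
-- the grader kernel-checks Cfsg.Agent.S4683.result against that frozen type. Keep the theorem IN THIS FILE
-- (a `result` declared elsewhere and merely imported here is not credited); helpers may live anywhere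
-- under Cfsg/Agent/.
import Cfsg.Statements.S4683
-- import your own Cfsg.Agent.* helpers here

set_option autoImplicit false
open Cfsg

open H20 H05 H21 MonoidAlgebra Cfsg

namespace Cfsg.Agent.S4683

/-- Fix a prime p and a maximal ideal M of the algebraic integers containing p, a p-block B of the finite group G, a p-element u and a p-block e of C = C_G(u) such that (⟨u⟩, e) is a Brauer pair of B (a Brauer element of B). For χ ∈ B let χ_u be the e-part of the class function c ↦ χ(u c) on C and χ_u' the e-part of c ↦ χ(u⁻¹ c). Then the sum over χ ∈ B and over the p-regular elements s of C of χ_u(s)·χ_u'(s⁻¹) equals the order of C times the p-regular rank of e (the number of irreducible Brauer characters of e). -/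
theorem result {G : Type*} [Group G] [Fintype G] (p : ℕ) [Fact p.Prime] (M : Ideal Cfsg.AlgInt) (hM : Cfsg.IsPModular p M) (B : Set (Cfsg.IrrCharacter G)) (u : G) (hu : ∃ k : ℕ, orderOf u = p ^ k) (e : Set (Cfsg.IrrCharacter (Subgroup.centralizer (Subgroup.zpowers u : Set G)))) (hBe : Cfsg.IsBrauerPairOf p M B (Subgroup.zpowers u) e) : ∑ᶠ χ ∈ B, ∑ᶠ s : Subgroup.centralizer (Subgroup.zpowers u : Set G), Cfsg.pRegularPart p (Cfsg.blockPart e (fun c : Subgroup.centralizer (Subgroup.zpowers u : Set G) => (χ : G → ℂ) (u * c))) s * Cfsg.blockPart e (fun c : Subgroup.centralizer (Subgroup.zpowers u : Set G) => (χ : G → ℂ) (u⁻¹ * c)) s⁻¹ = (Nat.card (Subgroup.centralizer (Subgroup.zpowers u : Set G)) : ℂ) * (Cfsg.blockRank p e : ℂ) := by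
  classical
  have := hM.2.1
  have := Fintype.ofFinite (Subgroup.centralizer (Subgroup.zpowers u : Set G))
  have hC' := centralizer_zpowers u
  have hind : IsInducedBlock M _ e B :=
    (pOf_iff_isInducedBlock hM (a := ⟨Subgroup.zpowers u, e⟩) hBe.1
      (by show Subgroup.zpowers u ≤ Subgroup.centralizer (Subgroup.zpowers u : Set G)
          rw [hC']; exact zpowers_le_centralizer u)).1 hBe
  have h : Sub p M B _ u e := ⟨hM, hu, hC', hind⟩
  have h1 := h.sm_trace
  simp only [sm, ← Finset.mul_sum] at h1
  have h2 := mul_left_cancel₀ (pow_ne_zero _ (Nat.cast_ne_zero.2 hM.1.ne_zero)) h1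
  rw [← h2, H21.finsum_mem_irr, Finset.mul_sum]
  refine Finset.sum_congr rfl fun χ _ => ?_
  rw [contrib, card_mul_classInner, finsum_eq_sum_of_fintype]
  refine Finset.sum_congr rfl fun s _ => ?_
  congr 1
  show bs e u⁻¹ χ s⁻¹ = (starRingEnd ℂ) (bs e u χ s)
  rw [bs, bs, blockPart_eq, blockPart_eq, map_sum]
  refine Finset.sum_congr rfl fun ξ _ => ?_
  rw [classInner_sh h.mem h.comm, classInner_sh (inv_mem h.mem)
    (fun c hc => ((show Commute c u from h.comm c hc).inv_right)), ξ.2.apply_inv]
  obtain ⟨n, hn⟩ := (χ.2.isCharacter.restrict _).exists_classInner_eq_nat ξ.2.isCharacter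
  have := ξ.2.apply_inv ⟨u, h.mem⟩
  rw [hn, map_mul, map_mul, map_div₀, ξ.2.conj_apply_one, ← this, map_natCast]
  rfl

end Cfsg.Agent.S4683
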