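import Mathlib
import Cfsg.Agent.H20.BlkFus
-- Template for statement S4687 (row 4687; see /opt/grader/pristine/manifest.json for weights).
-- Copy to Cfsg/Agent/S4687.lean and replace the sorry. The statement below is byte-identical to the frozen
-- statement Cfsg.CfsgFrozen.S4687 (Cfsg/Statements/S4687.lean; the theorem Cfsg.blk5_abelian_defect_nilpotent_iff_inertial_quotient_trivial);
-- the grader kernel-checks Cfsg.Agent.S4687.result against that frozen type. Keep the theorem IN THIS FILE
-- (a `result` declared elsewhere and merely imported here is not credited); helpers may live anywhere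
-- under Cfsg/Agent/.
import Cfsg.Statements.S4687
-- import your own Cfsg.Agent.* helpers here

set_option autoImplicit false
open Cfsg

open H20 H05 H21 MonoidAlgebra

namespace Cfsg.Agent.S4687

/-- Fix a prime p and a maximal ideal M of the algebraic integers containing p, and a p-block B of the finite group G with maximal Brauer pair (P, e), P abelian. Then B is nilpotent if and only if its inertial quotient is trivial: every element of N_G(P) stabilizing e centralizes P. -/
theorem result {G : Type*} [Group G] [Fintype G] (p : ℕ) [Fact p.Prime] (M : Ideal Cfsg.AlgInt) (hM : Cfsg.IsPModular p M) (B : Set (Cfsg.IrrCharacter G)) (P : Subgroup G) (e : Set (Cfsg.IrrCharacter (Subgroup.centralizer (P : Set G)))) (hmax : Cfsg.IsMaximalBrauerPair p M B P e) (hab : ∀ x ∈ P, ∀ y ∈ P, x * y = y * x) : Cfsg.IsNilpotentBlock p M B ↔ ∀ x : G, x ∈ Subgroup.normalizer (P : Set G) → Cfsg.StabilizesBlock (Subgroup.centralizer (P : Set G)) e x → x ∈ Subgroup.centralizer (P : Set G) := by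
  have := hM.2.1
  rw [isNilpotentBlock_iff_of_comm hM (b := ⟨P, e⟩) hmax (fun x hx y hy => hab y hy x hx)]
  exact ⟨fun h x h1 h2 => h ((mem_pstab_iff (a := ⟨P, e⟩)).2 ⟨h1, h2⟩),
    fun h x hx => h x (mem_pstab_iff.1 hx).1 (mem_pstab_iff.1 hx).2⟩

end Cfsg.Agent.S4687
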