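import Mathlib
import Cfsg.Agent.H20.BlkFus
-- Template for statement S4688 (row 4688; see /opt/grader/pristine/manifest.json for weights).
-- Copy to Cfsg/Agent/S4688.lean and replace the sorry. The statement below is byte-identical to the frozen
-- statement Cfsg.CfsgFrozen.S4688 (Cfsg/Statements/S4688.lean; the theorem Cfsg.blk5_nilpotent_block_local_blocks_nilpotent);
-- the grader kernel-checks Cfsg.Agent.S4688.result against that frozen type. Keep the theorem IN THIS FILE
-- (a `result` declared elsewhere and merely imported here is not credited); helpers may live anywhere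
-- under Cfsg/Agent/.
import Cfsg.Statements.S4688
-- import your own Cfsg.Agent.* helpers here

set_option autoImplicit false
open Cfsg

open H20 H05 H21 MonoidAlgebra

namespace Cfsg.Agent.S4688

/-- Fix a prime p and a maximal ideal M of the algebraic integers containing p, and a nilpotent p-block B of the finite group G with maximal Brauer pair (P, e). Then for every Brauer pair (Q, f) of B, f is a nilpotent block of C_G(Q); and if moreover (Q, f) ≤ (P, e), then C_P(Q) is a defect group of f as a block of C_G(Q). -/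
theorem result {G : Type*} [Group G] [Fintype G] (p : ℕ) [Fact p.Prime] (M : Ideal Cfsg.AlgInt) (hM : Cfsg.IsPModular p M) (B : Set (Cfsg.IrrCharacter G)) (P : Subgroup G) (e : Set (Cfsg.IrrCharacter (Subgroup.centralizer (P : Set G)))) (hmax : Cfsg.IsMaximalBrauerPair p M B P e) (hnil : Cfsg.IsNilpotentBlock p M B) (Q : Subgroup G) (f : Set (Cfsg.IrrCharacter (Subgroup.centralizer (Q : Set G)))) (hQf : Cfsg.IsBrauerPairOf p M B Q f) : Cfsg.IsNilpotentBlock p M f ∧ (Cfsg.SubpairLE p M Q f P e → Cfsg.IsDefectGroup p M f ((P ⊓ Subgroup.centralizer (Q : Set G)).subgroupOf (Subgroup.centralizer (Q : Set G)))) := by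
  have := hM.2.1
  refine ⟨(nilBI_pI_iff hM (a := ⟨Q, f⟩) hQf.1).1 (hnil.nilBI_centralizer hM (a := ⟨Q, f⟩) hQf),
    fun hle => ?_⟩
  exact (maxBr_iB_iff hM hQf.1.2 inf_le_right).1 (hnil.maxBr hM (b := ⟨P, e⟩) (a := ⟨Q, f⟩) hmax hle
    le_rfl (centralizer_le_pstab ⟨Q, f⟩) (BP.isBI (a := ⟨Q, f⟩) hQf.1))

end Cfsg.Agent.S4688
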