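import Mathlib
import Cfsg.Statements.S4690
import Cfsg.Agent.H21.Nilp

set_option autoImplicit false
open Cfsg

namespace Cfsg.Agent.S4690
open H05 Cfsg H20 H21 MonoidAlgebra Classical
open scoped ComplexConjugate

/-- Fix a prime p and a maximal ideal M of the algebraic integers containing p, and a nilpotent p-block B of the finite group G with defect group P. Then there is a bijection from B onto the irreducible characters of P carrying the height of each χ ∈ B to the exponent of p in the degree of its image. -/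
theorem result {G : Type*} [Group G] [Fintype G] (p : ℕ) [Fact p.Prime] (M : Ideal Cfsg.AlgInt) (hM : Cfsg.IsPModular p M) (B : Set (Cfsg.IrrCharacter G)) (hnil : Cfsg.IsNilpotentBlock p M B) (P : Subgroup G) (hP : Cfsg.IsDefectGroup p M B P) : ∃ Φ : B ≃ Cfsg.IrrCharacter P, ∀ χ : B, Cfsg.blockHeight p B ((χ : Cfsg.IrrCharacter G) : G → ℂ) = (Cfsg.charDegree ((Φ χ : Cfsg.IrrCharacter P) : P → ℂ)).factorization p := by
  haveI := hM.2.1
  obtain ⟨e, h⟩ := exists_mx hM hnil.1 hP
  obtain ⟨χ, hχ, h0⟩ := hnil.1.exists_height_zero p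
  obtain ⟨Φ, -, h2⟩ := h.exists_equiv_of_ctl (h.ctl_of_nilpotent hnil) hχ h0
  refine ⟨Φ.symm, fun ψ => ?_⟩
  obtain ⟨η, rfl⟩ := Φ.surjective ψ
  have h3 := h2 η 1 (by simpa using hM.1.one_lt.ne')
  rw [← η.2.charDegree_eq, ← χ.2.charDegree_eq, ← Nat.cast_mul] at h3
  have h4 := nu_eq_add_height hχ (Φ η).2 h0
  rw [nu, charDegree_eq_of_apply_one h3, Nat.factorization_mul η.2.charDegree_pos.ne'
    χ.2.charDegree_pos.ne', Finsupp.add_apply, nu] at h4
  rw [Equiv.symm_apply_apply]
  dsimp only at h4 ⊢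
  omega

end Cfsg.Agent.S4690
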