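import Mathlib
import Cfsg.Agent.H20.BlkFus
-- Template for statement S4691 (row 4691; see /opt/grader/pristine/manifest.json for weights).
-- Copy to Cfsg/Agent/S4691.lean and replace the sorry. The statement below is byte-identical to the frozen
-- statement Cfsg.CfsgFrozen.S4691 (Cfsg/Statements/S4691.lean; the theorem Cfsg.blk5_p_nilpotent_iff_principal_block_nilpotent);
-- the grader kernel-checks Cfsg.Agent.S4691.result against that frozen type. Keep the theorem IN THIS FILE
-- (a `result` declared elsewhere and merely imported here is not credited); helpers may live anywhere
-- under Cfsg/Agent/.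
import Cfsg.Statements.S4691
-- import your own Cfsg.Agent.* helpers here

set_option autoImplicit false
open Cfsg

open H20 H05 H21 MonoidAlgebra

namespace Cfsg.Agent.S4691

/-- Fix a prime p and a maximal ideal M of the algebraic integers containing p. A finite group G has a normal p-complement if and only if its principal p-block is nilpotent. -/
theorem result {G : Type*} [Group G] [Fintype G] (p : ℕ) [Fact p.Prime] (M : Ideal Cfsg.AlgInt) (hM : Cfsg.IsPModular p M) : Cfsg.HasNormalPComplement p G ↔ Cfsg.IsNilpotentBlock p M (Cfsg.principalBlock M G) := by
  have := hM.2.1
  exact (isNilpotentBlock_principal_iff hM).symm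

end Cfsg.Agent.S4691
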