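import Mathlib
import Cfsg.Agent.H20.BlkFus
-- Template for statement S4692 (row 4692; see /opt/grader/pristine/manifest.json for weights).
-- Copy to Cfsg/Agent/S4692.lean and replace the sorry. The statement below is byte-identical to the frozen
-- statement Cfsg.CfsgFrozen.S4692 (Cfsg/Statements/S4692.lean; the theorem Cfsg.blk5_stable_block_under_p_group_extension_nilpotent_iff);
-- the grader kernel-checks Cfsg.Agent.S4692.result against that frozen type. Keep the theorem IN THIS FILE
-- (a `result` declared elsewhere and merely imported here is not credited); helpers may live anywhere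
-- under Cfsg/Agent/.
import Cfsg.Statements.S4692
-- import your own Cfsg.Agent.* helpers here

set_option autoImplicit false
open Cfsg

open H20 H05 H21 MonoidAlgebra

namespace Cfsg.Agent.S4692

/-- Fix a prime p and a maximal ideal M of the algebraic integers containing p. Let N be a normal subgroup of p-power index in the finite group G and c a p-block of N stable under conjugation by G, and let B be the p-block of G whose idempotent is that of c (it exists and is unique). Then c is nilpotent as a block of N if and only if B is nilpotent as a block of G. -/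
theorem result {G : Type*} [Group G] [Fintype G] (p : ℕ) [Fact p.Prime] (M : Ideal Cfsg.AlgInt) (hM : Cfsg.IsPModular p M) (N : Subgroup G) [N.Normal] (hN : ∃ k : ℕ, N.index = p ^ k) (c : Set (Cfsg.IrrCharacter N)) (hc : Cfsg.IsPBlock M c) (hst : ∀ x : G, Cfsg.StabilizesBlock N c x) (B : Set (Cfsg.IrrCharacter G)) (hB : Cfsg.IsPBlock M B) (hBc : ∀ g : G, Cfsg.blockCoeff B g = Cfsg.subgroupBlockCoeff N c g) : Cfsg.IsNilpotentBlock p M c ↔ Cfsg.IsNilpotentBlock p M B := by
  have := hM.2.1
  obtain ⟨k, hk⟩ := hN
  have h1 : eB M B = iB M N c := by
    rw [← redA_iI]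
    refine congrArg (redA M) (ext_coeff fun g => ?_)
    rw [← subgroupBlockCoeff_eq, ← hBc]
    rfl
  rw [← nilBI_iB_iff hM hc, ← nilBI_top_iff hM hB, h1]
  exact nilBI_iff_of_index hM hk hc.isBI (h1 ▸ hB.isBI_top)

end Cfsg.Agent.S4692
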