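import Mathlib
import Cfsg.Agent.H20.BlkFus
-- Template for statement S4693 (row 4693; see /opt/grader/pristine/manifest.json for weights).
-- Copy to Cfsg/Agent/S4693.lean and replace the sorry. The statement below is byte-identical to the frozen
-- statement Cfsg.CfsgFrozen.S4693 (Cfsg/Statements/S4693.lean; the theorem Cfsg.blk5_centric_subpair_stabilizer_block_reduces_to_nilpotent_local_block);
-- the grader kernel-checks Cfsg.Agent.S4693.result against that frozen type. Keep the theorem IN THIS FILE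
-- (a `result` declared elsewhere and merely imported here is not credited); helpers may live anywhere
-- under Cfsg/Agent/.
import Cfsg.Statements.S4693
-- import your own Cfsg.Agent.* helpers here

set_option autoImplicit false
open Cfsg

open H20 H05 H21 MonoidAlgebra

namespace Cfsg.Agent.S4693

/-- Fix a prime p and a maximal ideal M of the algebraic integers containing p, a p-block B of the finite group G with maximal Brauer pair (P, e) and fusion system F on P, and a Brauer pair (Q, f) ≤ (P, e) with Q centric in F. Suppose every element of G normalizes Q and stabilizes f. Then the idempotent of B agrees with that of f modulo M at every element of G, and f is the idempotent of a nilpotent block of Q·C_G(Q): some p-block of Q·C_G(Q) has the idempotent coefficients of f and is nilpotent. -/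
theorem result {G : Type*} [Group G] [Fintype G] (p : ℕ) [Fact p.Prime] (M : Ideal Cfsg.AlgInt) (hM : Cfsg.IsPModular p M) (B : Set (Cfsg.IrrCharacter G)) (P : Subgroup G) (e : Set (Cfsg.IrrCharacter (Subgroup.centralizer (P : Set G)))) (hmax : Cfsg.IsMaximalBrauerPair p M B P e) (F : Cfsg.FusionSystem P) (hF : Cfsg.IsBlockFusionSystemOn p M B P e F) (Q : Subgroup G) (f : Set (Cfsg.IrrCharacter (Subgroup.centralizer (Q : Set G)))) (hQP : Q ≤ P) (hf : Cfsg.IsPBlock M f) (hle : Cfsg.SubpairLE p M Q f P e) (hcen : F.IsCentric Q) (hG : ∀ x : G, x ∈ Subgroup.normalizer (Q : Set G) ∧ Cfsg.StabilizesBlock (Subgroup.centralizer (Q : Set G)) f x) : (∀ g : G, Cfsg.MemLocalIdeal M (Cfsg.blockCoeff B g - Cfsg.subgroupBlockCoeff (Subgroup.centralizer (Q : Set G)) f g)) ∧ ∃ F' : Set (Cfsg.IrrCharacter ↥(Q ⊔ Subgroup.centralizer (Q : Set G))), Cfsg.IsPBlock M F' ∧ (∀ t : ↥(Q ⊔ Subgroup.centralizer (Q : Set G)), Cfsg.blockCoeff F' t = Cfsg.subgroupBlockCoeff (Subgroup.centralizer (Q : Set G)) f (t :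 G)) ∧ Cfsg.IsNilpotentBlock p M F' := by
  have := hM.2.1
  have ha : BP p M ⟨Q, f⟩ := PLE.bp_left (b := ⟨P, e⟩) hle hmax.1.1
  have hB := PMax.pOf_of_ple hM (b := ⟨P, e⟩) (a := ⟨Q, f⟩) hmax hle
  have hT : ⊤ ≤ pstab ⟨Q, f⟩ := fun x _ => (mem_pstab_iff (a := ⟨Q, f⟩)).2 (hG x)
  have h1 := ha.isBI_of_le hM le_top le_top hT
  have h2 : eB M B = pI M ⟨Q, f⟩ := by
    refine hB.2.1.isBI_top.eq_of_mul_ne_zero h1 ?_
    rw [← hB.2.1.isBI_top.trunc_centralizer hM ha.1 le_top (hT.trans (pstab_le _)), hB.mul_eq hM]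
    exact h1.ne_zero
  refine ⟨fun g => ?_, ?_⟩
  · rw [pI, ← redA_iI] at h2
    have h3 := (redA_eq_iff hB.2.1.isInt_idem ha.2.isInt_iI).1 h2 g
    rwa [subgroupBlockCoeff_eq]
  obtain ⟨F', h3, h4, h5⟩ := ha.exists_iI_eq hM le_sup_left le_sup_right (le_top.trans hT)
  refine ⟨F', h3, (iI_eq_iI_iff le_sup_right).1 h5, (nilBI_iB_iff hM h3).1 ?_⟩
  rw [h4]
  have h6 := ((BFus.centric_iff hM (b := ⟨P, e⟩) (a := ⟨Q, f⟩) hF hle).1 hcen).sup_of_centralizer ha.1
  rw [sup_inf_self] at h6
  exact (ha.isBI_sup hM).nilBI_of_le hM h6 le_rfl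

end Cfsg.Agent.S4693
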