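import Mathlib
import Cfsg.Agent.H20.Quot2
-- Template for statement S4694 (row 4694; see /opt/grader/pristine/manifest.json for weights).
-- Copy to Cfsg/Agent/S4694.lean and replace the sorry. The statement below is byte-identical to the frozen
-- statement Cfsg.CfsgFrozen.S4694 (Cfsg/Statements/S4694.lean; the theorem Cfsg.blk5_brauer_pair_with_weight_is_centric_and_radical);
-- the grader kernel-checks Cfsg.Agent.S4694.result against that frozen type. Keep the theorem IN THIS FILE
-- (a `result` declared elsewhere and merely imported here is not credited); helpers may live anywhere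
-- under Cfsg/Agent/.
import Cfsg.Statements.S4694
-- import your own Cfsg.Agent.* helpers here

set_option autoImplicit false
open Cfsg

open H20 H05 H21 MonoidAlgebra Cfsg

namespace Cfsg.Agent.S4694

theorem aux {G : Type*} [Group G] [Finite G] {p : ℕ} {M : Ideal AlgInt} [M.IsMaximal]
    (hM : IsPModular p M) {Q K : Subgroup G} [Q.Normal] [K.Normal] (hQ : IsPGroup p Q)
    (hK : K = Q ⊔ Subgroup.centralizer (Q : Set G)) {B : Set (IrrCharacter G)} (hB : IsPBlock M B)
    {χ : IrrCharacter G} (hχ : χ ∈ B) (hk : χ ∈ kerSet Q)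
    (hd : (Nat.card G).factorization p ≤
      (charDegree (χ : G → ℂ)).factorization p + (Nat.card Q).factorization p)
    {b : Set (IrrCharacter K)} (hb : IsPBlock M b) (hcov : Covers K B b) :
    IsDefectGroup p M b (Q.subgroupOf K) := by
  classical
  have := Fintype.ofFinite G
  have := Fintype.ofFinite K
  have hPK : Q ≤ K := hK ▸ le_sup_left
  have hCK : Subgroup.centralizer (Q : Set G) ≤ K := hK ▸ le_sup_right
  have hs : Q.subgroupOf K ⊔ Subgroup.centralizer (Q.subgroupOf K : Set K) = ⊤ := by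
    rw [centralizer_subgroupOf' hPK, ← Subgroup.subgroupOf_sup hPK hCK, ← hK, Subgroup.subgroupOf_self]
  obtain ⟨θ, hθ, ho⟩ := hcov.exists_over hB hb.isInt_idem hχ
  refine isDefectGroup_of_ker hM hQ.comap_subtype hs hb hθ (fun n hn =>
    H07.apply_eq_of_constituent (χ.2.isCharacter.restrict K) θ.2 (over_iff.1 ho) (hk n hn)) ?_
  obtain ⟨f, hf, h1⟩ := H07.exists_degree_eq_mul K χ.2 θ.2 (over_iff.1 ho)
  have hf0 : f ≠ 0 := by rintro rfl; exact K.index_ne_zero_of_finite (zero_dvd_iff.1 hf)
  rw [h1, Nat.factorization_mul hf0 (charDegree_ne_zero' θ), Finsupp.add_apply] at hd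
  have h4 := (Nat.factorization_le_iff_dvd hf0 K.index_ne_zero_of_finite).2 hf p
  have : Fact p.Prime := ⟨hM.1⟩
  have hi := factorization_index_add (p := p) K
  rw [Nat.card_congr (Subgroup.subgroupOfEquivOfLe hPK).toEquiv]
  omega

/-- Fix a prime p and a maximal ideal M of the algebraic integers containing p, a p-block B of the finite group G and a Brauer pair (Q, e) of B. Let T be the stabilizer of e in N_G(Q) and suppose that (Q, e) carries a weight: the block of T whose idempotent is that of e contains an irreducible character χ that is constant on the cosets of Q and whose degree has p-part equal to the p-part of the index of Q in T. Then Z(Q) is a defect group of e as a block of C_G(Q), and Q is the largest normal p-subgroup of T: every p-subgroup of T normalized by T lies in Q. -/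
theorem result {G : Type*} [Group G] [Fintype G] (p : ℕ) [Fact p.Prime] (M : Ideal Cfsg.AlgInt) (hM : Cfsg.IsPModular p M) (B : Set (Cfsg.IrrCharacter G)) (Q : Subgroup G) (e : Set (Cfsg.IrrCharacter (Subgroup.centralizer (Q : Set G)))) (hQe : Cfsg.IsBrauerPairOf p M B Q e) (T : Subgroup G) (hT : ∀ y : G, y ∈ T ↔ y ∈ Subgroup.normalizer (Q : Set G) ∧ Cfsg.StabilizesBlock (Subgroup.centralizer (Q : Set G)) e y) (F' : Set (Cfsg.IrrCharacter T)) (hF' : Cfsg.IsPBlock M F') (hF'e : ∀ t : T, Cfsg.blockCoeff F' t = Cfsg.subgroupBlockCoeff (Subgroup.centralizer (Q : Set G)) e (t : G)) (χ : Cfsg.IrrCharacter T) (hχ : χ ∈ F') (hχQ : ∀ q : G, q ∈ Q → ∀ t : T, ∀ t' : T, (t' : G) = q * (t : G) → (χ : T → ℂ) t' = (χ : T → ℂ) t) (hdeg : (Cfsg.charDegree (χ : T → ℂ)).factorization p + (Nat.card Q).factorization p = (Nat.card T).factorization p) : Cfsg.IsDefectGroup p M e ((Q ⊓ Subgroup.centralizer (Q : Set G)).subgroupOf (Subgroup.centralizer (Q : Set G))) ∧ ∀ R : Subgroup G, R ≤ T → IsPGroup p R → (∀ t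 ∈ T, t ∈ Subgroup.normalizer (R : Set G)) → R ≤ Q := by
  have := hM.2.1
  have ha : BP p M ⟨Q, e⟩ := hQe.1
  have hQ : IsPGroup p Q := ha.1
  obtain rfl : T = pstab ⟨Q, e⟩ := Subgroup.ext fun y => (hT y).trans (mem_pstab_iff (a := ⟨Q, e⟩)).symm
  have hQT : Q ≤ pstab ⟨Q, e⟩ := le_pstab ⟨Q, e⟩
  have hCT : Subgroup.centralizer (Q : Set G) ≤ pstab ⟨Q, e⟩ := centralizer_le_pstab ⟨Q, e⟩
  have hTN : pstab ⟨Q, e⟩ ≤ Subgroup.normalizer (Q : Set G) := pstab_le ⟨Q, e⟩
  have hI : iB M _ F' = pI M ⟨Q, e⟩ := iB_eq_of_iI_eq ((iI_eq_iI_iff hCT).2 hF'e)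
  have hS := ha.isBI_sup hM
  generalize pstab (⟨Q, e⟩ : BrauerPairIdx G) = T at *
  have : (Q.subgroupOf T).Normal := normal_subgroupOf_of_le_normalizer hTN
  have hk : χ ∈ kerSet (Q.subgroupOf T) := fun n hn => hχQ n hn 1 n (by simp)
  have hc := Nat.card_congr (Subgroup.subgroupOfEquivOfLe hQT).toEquiv
  constructor
  · have hKT := sup_le hQT hCT
    have hK : (Q ⊔ Subgroup.centralizer (Q : Set G)).subgroupOf T =
        Q.subgroupOf T ⊔ Subgroup.centralizer (Q.subgroupOf T : Set T) := by
      rw [centralizer_subgroupOf' hQT, Subgroup.subgroupOf_sup hQT hCT]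
    have : ((Q ⊔ Subgroup.centralizer (Q : Set G)).subgroupOf T).Normal := hK ▸ inferInstance
    have hS' := hS
    rw [← hI] at hS'
    obtain ⟨b, hb, h1⟩ := (isBI_inc_iff hKT).1 hS'
    have h2 := aux (Q := Q.subgroupOf T) hM hQ.comap_subtype hK hF' hχ hk (by rw [hc]; exact hdeg.ge) hb
      ((covers_iff_iB hF' hb).2 (by rw [h1, hF'.eB_mul_self]; exact hF'.eB_ne_zero))
    rw [← maxBr_iB_iff hM hb (D := Q.subgroupOf T) (Subgroup.comap_mono le_sup_left), h1, ← maxBr_inc_iff hKT hQT] at h2
    obtain ⟨k, hk⟩ := exists_relIndex_sup_eq_pow' (K := Subgroup.centralizer (Q : Set G)) hQ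
      (le_normalizer_centralizer Q)
    have h3 := (ha.isBI.sup_eq_of_index hM hS le_sup_right
      (sup_le (le_normalizer_centralizer Q) Subgroup.le_normalizer) hk (by rw [← hI]; exact h2)).2
    exact (maxBr_iB_iff hM ha.2 inf_le_right).1 h3
  · intro R hRT hR hn
    have : (R.subgroupOf T).Normal := normal_subgroupOf_of_le_normalizer hn
    have hf := QuotientGroup.mk'_surjective (Q.subgroupOf T)
    obtain ⟨ψ, rfl⟩ := exists_infl hf (χ := χ) (by rwa [QuotientGroup.ker_mk'])
    rw [charDegree_infl, ← hc] at hdeg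
    have h1 := factorization_card_quotient hM.1 (Q.subgroupOf T)
    have hb := H20.isPBlock_blockOf (M := M) ψ
    obtain ⟨D, hD⟩ := hb.exists_isDefectGroup p
    have h2 := (hD.eq_bot_iff hM hb).2
      ((hb.blockDefect_eq_zero_iff hM (H20.mem_blockOf_self ψ)).2 (by omega))
    have := this.map _ hf
    have h3 := hD.normal_le hM hb (P := (R.subgroupOf T).map _) ((hR.comap_subtype (K := T)).map (QuotientGroup.mk' (Q.subgroupOf T)))
    rw [h2, le_bot_iff, Subgroup.map_eq_bot_iff, QuotientGroup.ker_mk'] at h3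
    exact (subgroupOf_le_iff hRT).1 h3

end Cfsg.Agent.S4694
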