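import Mathlib
import Cfsg.Statements.S4696
import Cfsg.Agent.H21.DadeE

set_option autoImplicit false
open Cfsg

namespace Cfsg.Agent.S4696
open H05 Cfsg H20 H21 MonoidAlgebra Classical
open scoped ComplexConjugate
attribute [-instance] H19.instFintypeSubgroupFrob

/-- Let p be a prime, M a maximal ideal of the algebraic integers containing p, and B a p-block of the finite group G whose defect group D is cyclic of order p^a with a ≥ 1. Let C = C_G(D), let b be a block of C inducing B, let T be the stabilizer of b in N_G(D) (the elements g of N_G(D) such that the g-conjugate of every member of b is again in b), and let e be the index of C in T (the inertial index of B). Then e divides p − 1, every irreducible character in B has height zero, and B is the disjoint union of a set X of e characters and a set Y of (p^a − 1)/e characters, the members of Y agreeing on p-regular elements,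 for which there are signs δ_χ = ±1 (χ ∈ X) and δ₀ = ±1 such that: for every ψ ∈ Y and every p-regular g, δ₀ ψ(g) + Σ_{χ ∈ X} δ_χ χ(g) = 0; for all χ, χ' ∈ X the integers δ_χ χ(1) and δ_χ' χ'(1) are congruent modulo p^a; and for ψ ∈ Y and χ ∈ X, ψ(1) ≡ −e δ₀ δ_χ χ(1) modulo p^a. -/
theorem result {G : Type*} [Group G] [Finite G] (p : ℕ) [Fact p.Prime] (M : Ideal Cfsg.AlgInt) (hM : Cfsg.IsPModular p M) (D : Subgroup G) (hD : IsCyclic D) (a : ℕ) (ha : 1 ≤ a) (hDa : Nat.card D = p ^ a) (B : Set (Cfsg.IrrCharacter G)) (hB : Cfsg.IsPBlock M B) (hBD : Cfsg.IsDefectGroup p M B D) (b : Set (Cfsg.IrrCharacter (Subgroup.centralizer (D : Set G)))) (hind : Cfsg.IsInducedBlock M (Subgroup.centralizer (D : Set G)) b B) (T : Subgroup G) (hT : ∀ g : G, g ∈ T ↔ (g ∈ Subgroup.normalizer (D : Set G) ∧ ∀ θ ∈ b, ∀ θ' : Cfsg.IrrCharacter (Subgroup.centralizer (D : Set G)), (∀ h h' : Subgroup.centralizer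 (D : Set G), (h' : G) = g * h * g⁻¹ → (θ' : Subgroup.centralizer (D : Set G) → ℂ) h' = (θ : Subgroup.centralizer (D : Set G) → ℂ) h) → θ' ∈ b)) (e : ℕ) (he : (Subgroup.centralizer (D : Set G)).relIndex T = e) : e ∣ p - 1 ∧ (∀ χ ∈ B, Cfsg.blockHeight p B (χ : G → ℂ) = 0) ∧ ∃ X Y : Set (Cfsg.IrrCharacter G), B = X ∪ Y ∧ Disjoint X Y ∧ Nat.card X = e ∧ Nat.card Y = (p ^ a - 1) / e ∧ (∀ ψ ∈ Y, ∀ ψ' ∈ Y, ∀ g : G, ¬ p ∣ orderOf g → (ψ : G → ℂ) g = (ψ' : G → ℂ) g) ∧ ∃ (δ : Cfsg.IrrCharacter G → ℤ) (δ₀ : ℤ), (∀ χ ∈ X, δ χ = 1 ∨ δ χ = -1) ∧ (δ₀ = 1 ∨ δ₀ = -1) ∧ (∀ ψ ∈ Y, ∀ g : G, ¬ p ∣ orderOf g → (δ₀ : ℂ) * (ψ : G → ℂ) g + ∑ᶠ χ ∈ X, (δ χ : ℂ) * (χ : G → ℂ) g = 0) ∧ (∀ χ ∈ X, ∀ χ' ∈ X, δ χ * (Cfsg.charDegree (χ : G → ℂ) : ℤ) ≡ δ χ' * (Cfsg.charDegree (χ' : G → ℂ) : ℤ) [ZMOD (p : ℤ) ^ a]) ∧ (∀ ψ ∈ Y, ∀ χ ∈ X, (Cfsg.charDegree (ψ : G → ℂ) : ℤ) ≡ -((e : ℤ) * δ₀ * δ χ * (Cfsg.charDegree (χ :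 G → ℂ) : ℤ)) [ZMOD (p : ℤ) ^ a]) := by
  haveI := hM.2.1
  haveI := Fintype.ofFinite G
  have h := mx_of_induced hM hBD hind
  obtain rfl := pstab_eq_of_forall hT
  have hne : D ≠ ⊥ := fun e => (Nat.one_lt_pow (n := a) (by omega) hM.1.one_lt).ne (by
    rw [← hDa, e, Subgroup.card_bot])
  obtain ⟨-, h1, h2, E, h3⟩ := h.dade hD hne
  obtain ⟨δ, α, ζ, F, hα⟩ := h3.exists_full h2
  have h4 := F.card_Y h3
  have h5 := (F.card_X h3).trans h2
  have h6 := fun χ χ' => F.dvd_X h3 hα hBD.isPGroup (χ := χ) (χ' := χ')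
  rw [card_range_cact, he] at h1 h4 h5
  rw [hDa] at h4
  simp only [hDa, Nat.cast_pow] at h6
  have h7 : ∀ ψ ∈ eY ζ, ∀ g : G, ¬ p ∣ orderOf g →
      δ * (ψ : G → ℂ) g = ∑ χ ∈ eX B ζ, α χ * (χ : G → ℂ) g := fun ψ hψ g hg => by
    simpa using F.reg_aux h3 hψ hg
  have e0 : 0 < e := Nat.pos_of_dvd_of_pos h1 (Nat.sub_pos_of_lt hM.1.one_lt)
  refine ⟨h1, fun χ hχ => F.height h3 hBD.isPGroup hα hχ, eX B ζ, eY ζ, ?_, ?_, by simpa using h5,
    ?_, fun ψ hψ ψ' hψ' g hg => F.reg_eq h3 hψ hψ' hg, fun χ => -α χ, δ, fun χ hχ => ?_, F.sign,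
    fun ψ hψ g hg => ?_, fun χ hχ χ' hχ' => ?_, fun ψ hψ χ hχ => ?_⟩
  · ext χ
    simp only [Set.mem_union, Finset.mem_coe, mem_eX]
    exact ⟨fun h => by tauto, fun h => h.elim (·.1) F.mem_of_Y⟩
  · exact Set.disjoint_left.2 fun χ h1 h2 => (mem_eX.1 h1).2 h2
  · rw [← h4, Nat.add_sub_cancel, Nat.mul_div_cancel_left _ e0]; simp
  · rcases hα χ hχ with e | e <;> simp [e]
  · rw [finsum_mem_coe_finset, h7 ψ hψ g hg, ← Finset.sum_add_distrib]; simp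
  · simpa using (h6 χ χ' hχ hχ').neg
  · have h8 := h7 ψ hψ 1 (by simpa using hM.1.ne_one)
    simp only [← fun χ : IrrCharacter G => χ.2.isCharacter.charDegree_eq] at h8
    norm_cast at h8
    have h9 : ∑ χ' ∈ eX B ζ, α χ' * charDegree (χ' : G → ℂ) ≡
        ∑ χ' ∈ eX B ζ, α χ * charDegree (χ : G → ℂ) [ZMOD (p : ℤ) ^ a] :=
      Int.ModEq.sum fun χ' hχ' => h6 χ' χ hχ' hχ
    rw [← h8, Finset.sum_const, h5, nsmul_eq_mul] at h9
    have := h9.mul_left δ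
    rcases F.sign with e | e <;> simpa [e, mul_assoc] using this

end Cfsg.Agent.S4696
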