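import Mathlib
import Cfsg.Statements.S4697
import Cfsg.Agent.H21.CycQ

set_option autoImplicit false
open Cfsg

namespace Cfsg.Agent.S4697
open H05 Cfsg H20 H21 MonoidAlgebra Classical
open scoped ComplexConjugate
attribute [-instance] H19.instFintypeSubgroupFrob

/-- Let p be a prime, M a maximal ideal of the algebraic integers containing p, and B a p-block of the finite group G with an abelian defect group D of order p^d. If D has rank 2 (its least number of generators is 2) then B contains at most p^d irreducible characters; if D has rank 3 then the number k of irreducible characters in B satisfies k^3 ≤ p^(5d). -/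
theorem result {G : Type*} [Group G] [Finite G] (p : ℕ) [Fact p.Prime] (M : Ideal Cfsg.AlgInt) (hM : Cfsg.IsPModular p M) (B : Set (Cfsg.IrrCharacter G)) (hB : Cfsg.IsPBlock M B) (D : Subgroup G) (hBD : Cfsg.IsDefectGroup p M B D) (hab : IsMulCommutative D) (d : ℕ) (hDd : Nat.card D = p ^ d) : (Group.rank D = 2 → Nat.card B ≤ p ^ d) ∧ (Group.rank D = 3 → Nat.card B ^ 3 ≤ p ^ (5 * d)) := by
  haveI := hM.2.1
  haveI := Fintype.ofFinite G
  obtain ⟨S, h1, h2⟩ := Group.rank_spec D
  refine ⟨fun h => ?_, fun h => ?_⟩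
  · obtain ⟨u, v, -, rfl⟩ := Finset.card_eq_two.1 (h1.trans h)
    exact hDd ▸ card_le_of_two_gen hM hB hBD hab (by simpa using h2)
  have key : ∀ u v w : D, Subgroup.closure {u, v, w} = ⊤ → orderOf v ≤ orderOf u →
      orderOf w ≤ orderOf u → Nat.card B ^ 3 ≤ p ^ (5 * d) := fun u v w h3 h4 h5 => by
    obtain ⟨K, _, _, b, Q, f, a1, a2, a3, a4, a5, a6, -⟩ := exists_major_quot hM hB hBD u.2 fun x hx =>
      mem_centralizer_zpowers.2 (by
        rw [mul_inv_eq_iff_eq_mul]; exact congrArg Subtype.val (hab.is_comm.comm ⟨x, hx⟩ u))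
    have b1 := card_le_of_two_gen hM a1 a2 ⟨⟨fun x y => by
      obtain ⟨x, rfl⟩ := a3 x
      obtain ⟨y, rfl⟩ := a3 y
      rw [← map_mul, ← map_mul, hab.is_comm.comm]⟩⟩ (u := f v) (v := f w) (top_le_iff.1 (by
        rw [← MonoidHom.range_eq_top.2 a3, MonoidHom.range_eq_map, ← h3, MonoidHom.map_closure,
          Subgroup.closure_le]
        rintro _ ⟨_, rfl | rfl | rfl, rfl⟩
        · exact a4 ▸ one_mem _
        · exact Subgroup.subset_closure (by simp)
        · exact Subgroup.subset_closure (by simp)))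
    have b2 := a6 1 fun y hy => by have := qf_nonneg (b := b) hM.1 y; omega
    have b3 : Nat.card B ≤ Nat.card D * Nat.card Q := by
      rw [hBD.card_eq hM hB]
      refine le_trans ?_ (Nat.mul_le_mul_left _ ((blockRank_le_card (p := p) b).trans b1))
      exact_mod_cast (mul_one _).ge.trans b2
    have b4 : Nat.card D ≤ orderOf u * (orderOf v * orderOf w) := by
      letI : CommGroup D := { (inferInstance : Group D) with mul_comm := hab.is_comm.comm }
      rw [← Nat.card_zpowers, ← Nat.card_zpowers, ← Nat.card_zpowers, ← Nat.card_prod, ← Nat.card_prod]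
      refine Nat.card_le_card_of_surjective (((Subgroup.zpowers u).subtype.coprod
        ((Subgroup.zpowers v).subtype.coprod (Subgroup.zpowers w).subtype))) (MonoidHom.range_eq_top.1
          (top_le_iff.1 (h3.ge.trans ((Subgroup.closure_le _).2 ?_))))
      rintro _ (rfl | rfl | rfl)
      · exact ⟨(⟨_, Subgroup.mem_zpowers _⟩, 1, 1), by simp⟩
      · exact ⟨(1, ⟨_, Subgroup.mem_zpowers _⟩, 1), by simp⟩
      · exact ⟨(1, 1, ⟨_, Subgroup.mem_zpowers _⟩), by simp⟩
    rw [Subgroup.orderOf_coe] at a5
    have b5 : Nat.card D ≤ orderOf u ^ 3 :=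
      b4.trans ((Nat.mul_le_mul_left _ (Nat.mul_le_mul h4 h5)).trans_eq (by ring))
    have b6 : Nat.card Q ^ 3 ≤ Nat.card D ^ 2 := Nat.le_of_mul_le_mul_left (c := Nat.card D)
      ((Nat.mul_le_mul_right _ b5).trans_eq (by rw [← mul_pow, ← a5]; ring)) Nat.card_pos
    calc Nat.card B ^ 3 ≤ (Nat.card D * Nat.card Q) ^ 3 := Nat.pow_le_pow_left b3 3
      _ ≤ Nat.card D ^ 3 * Nat.card D ^ 2 := by rw [mul_pow]; exact Nat.mul_le_mul_left _ b6
      _ = _ := by rw [hDd]; ring
  obtain ⟨u, v, w, -, -, -, rfl⟩ := Finset.card_eq_three.1 (h1.trans h)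
  have h3 : Subgroup.closure {u, v, w} = ⊤ := by simpa using h2
  rcases le_total (orderOf v) (orderOf u) with a | a <;>
    rcases le_total (orderOf w) (orderOf u) with b | b <;>
    rcases le_total (orderOf w) (orderOf v) with c | c
  all_goals first
    | exact key u v w h3 (by omega) (by omega)
    | exact key v u w (by rwa [Set.insert_comm]) (by omega) (by omega)
    | exact key w u v (by rwa [Set.insert_comm, Set.pair_comm]) (by omega) (by omega)

end Cfsg.Agent.S4697
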