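import Cfsg.Statements.S4699
import Cfsg.Agent.H24.TIc
-- import your own Cfsg.Agent.* helpers here

set_option autoImplicit false
open Cfsg

namespace Cfsg.Agent.S4699

/-- Let p be a prime and G a finite group whose Sylow p-subgroup P is cyclic of order p^n with n ≥ 2 and meets every other Sylow p-subgroup trivially. Then every faithful irreducible representation of G on a finite-dimensional space over a finite field of characteristic p has dimension at least p^n − (p − 1). -/
theorem result {G : Type*} [Group G] [Finite G] (p : ℕ) [Fact p.Prime] (P : Sylow p G) (hcyc : IsCyclic P) (n : ℕ) (hn : 2 ≤ n) (hPn : Nat.card P = p ^ n) (hTI : ∀ Q : Sylow p G, Q ≠ P → (P : Subgroup G) ⊓ (Q : Subgroup G) = ⊥) (F : Type*) [Field F] [Finite F] [CharP F p] (V : Type*) [AddCommGroup V] [Module F V] [FiniteDimensional F V] (ρ : Representation F G V) (hfaith : Function.Injective ρ) (hirr : ρ.IsIrreducible) : p ^ n - (p - 1) ≤ Module.finrank F V := by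
  by_contra! hd
  have hp : p.Prime := Fact.out
  obtain ⟨⟨x, x0⟩, hx⟩ := hcyc.exists_zpow_surjective
  have x1 : Subgroup.zpowers x = P := le_antisymm ((Subgroup.zpowers_le_of_mem x0)) fun g hg =>
    let ⟨k, hk⟩ := hx ⟨g, hg⟩; ⟨k, congrArg Subtype.val hk⟩
  have x2 : orderOf x = p ^ n := by rw [← Nat.card_zpowers, x1, hPn]
  have : Nontrivial (V →ₗ[F] V) := ⟨⟨ρ x, 1, fun e => by
    rw [← map_one ρ, hfaith.eq_iff] at e
    rw [e, orderOf_one] at x2
    exact (Nat.one_lt_pow (by omega) hp.one_lt).ne x2⟩⟩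
  have := charP_of_injective_algebraMap (algebraMap F (V →ₗ[F] V)).injective p
  have h1 : IsNilpotent (ρ x - 1) := ⟨p ^ n, by
    rw [sub_pow_char_pow_of_commute _ _ (Commute.one_right _), ← map_pow, ← x2, pow_orderOf_eq_one, map_one, one_pow, sub_self]⟩
  have h2 : (ρ x - 1) ^ Module.finrank F V = 0 := by simpa [h1.charpoly_eq_X_pow_finrank] using (ρ x - 1).aeval_self_charpoly
  obtain ⟨s, c, m, m0, s1, s2⟩ := H24.TIc.main (F := F) p ρ.toHomUnits P x1 x2 hTI h2 (by have := hp.one_lt; omega)
  rw [MonoidHom.coe_toHomUnits] at s2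
  set X := ρ x - 1 with hX
  obtain ⟨k, hk⟩ : ∃ k, p = k + 2 := ⟨p - 2, by have := hp.two_le; omega⟩
  have h3 : X ^ p = 0 := by
    rcases Representation.IsIrreducible.bijective_or_eq_zero (ρ := ρ) (σ := ρ) ⟨s, fun g => ((Units.mul_inv_eq_iff_eq_mul _).1 (s1 g)).symm⟩ with e | e
    · have e1 : IsUnit (X * (m • X ^ k + X ^ (k + 1) * c)) := by
        convert (Module.End.isUnit_iff s).2 e using 1
        rw [s2, hk, mul_add, mul_smul_comm, ← mul_assoc, ← pow_succ', ← pow_succ']; rfl
      have e2 : Function.Surjective X := Function.Surjective.of_comp ((Module.End.isUnit_iff _).1 e1).2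
      have e3 := ((Module.End.isUnit_iff X).2 ⟨LinearMap.injective_iff_surjective.2 e2, e2⟩).pow (Module.finrank F V)
      rw [h2, isUnit_zero_iff] at e3
      rw [← mul_one (X ^ p), ← e3, mul_zero]
    · have e1 : X ^ (k + 1) = X * X ^ (k + 1) * (-m⁻¹ • c) := by
        have : s = 0 := congrArg (·.toLinearMap) e
        rw [this, hk, eq_comm, add_eq_zero_iff_eq_neg] at s2
        rw [← pow_succ', mul_smul_comm, neg_smul, ← smul_neg, ← s2, inv_smul_smul₀ m0]; rfl
      have e2 : ∀ j, X ^ (k + 1) = X ^ j * X ^ (k + 1) * (-m⁻¹ • c) ^ j := fun j => by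
        induction j with
        | zero => simp
        | succ j ih => rw [pow_succ X j, pow_succ' (-m⁻¹ • c), ← mul_assoc, mul_assoc (X ^ j), mul_assoc (X ^ j), ← e1, ← ih]
      rw [hk, pow_succ, e2 (Module.finrank F V), h2]; simp
  rw [hX, sub_pow_char_of_commute _ (Commute.one_right _), one_pow, sub_eq_zero, ← map_pow, ← map_one ρ, hfaith.eq_iff] at h3
  have := (Nat.pow_dvd_pow_iff_le_right hp.one_lt).1 (x2 ▸ orderOf_dvd_of_pow_eq_one ((pow_one p).symm ▸ h3 : x ^ p ^ 1 = 1))
  omega

end Cfsg.Agent.S4699
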