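import Mathlib
import Cfsg.Statements.S4706
import Cfsg.Agent.H19.PermP

set_option autoImplicit false
open Cfsg

namespace Cfsg.Agent.S4706

/-- Let p > 2 be a prime and G a permutation group on p letters whose Sylow p-subgroup P has normalizer of order 2p. Then either P is normal in G, or p − 1 = 2^a for some a and G is isomorphic to SL(2, 2^a). -/
theorem result {α : Type*} [Fintype α] [DecidableEq α] {p : ℕ} [Fact p.Prime] (hp : 2 < p) (hα : Fintype.card α = p) (G : Subgroup (Equiv.Perm α)) (P : Sylow p G) (hN : Nat.card (Subgroup.normalizer ((P : Subgroup G) : Set G)) = 2 * p) : (P : Subgroup G).Normal ∨ ∃ (a : ℕ) (F : Type) (_ : Field F) (_ : Fintype F), p = 2 ^ a + 1 ∧ Fintype.card F = 2 ^ a ∧ Nonempty (G ≃* Matrix.SpecialLinearGroup (Fin 2) F) := by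
  have hp' : p.Prime := Fact.out
  refine or_iff_not_imp_left.2 fun hnn => ?_
  obtain ⟨x, hx⟩ := exists_prime_orderOf_dvd_card' (G := G) p
    ((dvd_mul_left p 2).trans (hN ▸ Subgroup.card_subgroup_dvd_card _))
  obtain ⟨e, he⟩ := H18.exists_coords hα hx
  have : MulAction.IsPretransitive G α := ⟨fun a b => by
    obtain ⟨τ, -, h⟩ := H18.exists_translation he (e b - e a)
    exact ⟨τ, e.injective (by rw [h, add_sub_cancel])⟩⟩
  have h1 : Nat.card α = p := Nat.card_eq_fintype_card.trans hα
  have h3 : 3 < p := lt_of_le_of_ne hp fun e => hnn (Subgroup.normalizer_eq_top_iff.1 (Subgroup.eq_top_of_le_card _ (by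
    have := Nat.le_of_dvd (Nat.factorial_pos _) (H18.card_dvd_factorial (G := G) (α := α))
    rwa [hN, ← e, ← show Nat.factorial 3 = 2 * 3 from rfl, e, ← hα])))
  obtain ⟨⟨m, h2, h4⟩, h5⟩ := H19.sl2_of_action (MulAction.IsPreprimitive.of_prime_card (h1 ▸ hp')) h3 P hN hnn (Or.inl h1)
  obtain ⟨F, _, _, hF⟩ := H19.exists_field_two_pow (show m ≠ 0 by omega)
  exact ⟨m, F, inferInstance, inferInstance, by omega, hF, h5 F (hF.trans h4.symm)⟩

end Cfsg.Agent.S4706
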