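import Mathlib
import Cfsg.Statements.S4707
import Cfsg.Agent.H19.PermP

set_option autoImplicit false
open Cfsg

namespace Cfsg.Agent.S4707

/-- Let p > 3 be a prime and G a primitive permutation group of degree 2p that is not doubly transitive. If a Sylow p-subgroup of G has normalizer of order 2p, then p = 5 and G is isomorphic to the alternating group of degree 5. -/
theorem result {α : Type*} [Fintype α] [DecidableEq α] {p : ℕ} [Fact p.Prime] (hp : 3 < p) (hα : Fintype.card α = 2 * p) (G : Subgroup (Equiv.Perm α)) (hprim : MulAction.IsPreprimitive G α) (hnot2 : ¬ MulAction.IsMultiplyPretransitive G α 2) (P : Sylow p G) (hN : Nat.card (Subgroup.normalizer ((P : Subgroup G) : Set G)) = 2 * p) : p = 5 ∧ Nonempty (G ≃* alternatingGroup (Fin 5)) := by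
  have hp' : p.Prime := Fact.out
  have h1 : Nat.card α = 2 * p := Nat.card_eq_fintype_card.trans hα
  have : Nontrivial α := Finite.one_lt_card_iff_nontrivial.1 (by omega)
  obtain ⟨a⟩ : Nonempty α := inferInstance
  obtain ⟨⟨m, h2, h4⟩, h5⟩ := H19.sl2_of_action hprim hp P hN (fun h => by
    have h6 : (P : Subgroup G) ≠ ⊥ :=
      P.ne_bot_of_dvd_card ((dvd_mul_left p 2).trans (hN ▸ Subgroup.card_subgroup_dvd_card _))
    have := H18.normal_trans_of_prim_perm hprim P h6
    obtain ⟨k, hk⟩ := P.2.index (MulAction.stabilizer (P : Subgroup G) a)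
    rw [MulAction.index_stabilizer_of_transitive, h1] at hk
    have := Nat.le_of_dvd two_pos ((Nat.prime_dvd_prime_iff_eq Nat.prime_two hp').1
      (Nat.prime_two.dvd_of_dvd_pow (hk ▸ dvd_mul_right 2 p))).symm.dvd
    omega) (Or.inr ⟨h1, hnot2⟩)
  obtain ⟨F, _, _, hF⟩ := H19.exists_field_two_pow (show m ≠ 0 by omega)
  obtain ⟨e⟩ := h5 F (hF.trans h4.symm)
  obtain ⟨f⟩ := H19.nonempty_sl_equiv_psl_of_even (F := F) (hF ▸ (Nat.even_pow' (by omega)).2 even_two)
  have h6 : ¬ 8 ≤ Fintype.card F := fun h8 => H19.not_index_two_mul hF h8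
    (U := (MulAction.stabilizer G a).map (e.trans f).toMonoidHom)
    (((e.trans f).mapSubgroup.isCoatom_iff _).2 (MulAction.IsPreprimitive.isCoatom_stabilizer_of_isPreprimitive G a)) (by
      rw [Subgroup.index_map_of_bijective (f := (e.trans f).toMonoidHom) (e.trans f).bijective,
        MulAction.index_stabilizer_of_transitive]; omega)
  have h7 : m = 2 := by
    have : m < 3 := (Nat.pow_lt_pow_iff_right one_lt_two).1 (by omega)
    interval_cases m <;> omega
  subst h7
  obtain ⟨g⟩ := H08.A5_of_psl2 (Or.inl hF)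
  exact ⟨by omega, ⟨(e.trans f).trans g⟩⟩

end Cfsg.Agent.S4707
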