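import Mathlib
import Cfsg.Agent.H20.Cnt
import Cfsg.Agent.H21.Contrib
-- Template for statement S4708 (row 4708; see /opt/grader/pristine/manifest.json for weights).
-- Copy to Cfsg/Agent/S4708.lean and replace the sorry. The statement below is byte-identical to the frozen
-- statement Cfsg.CfsgFrozen.S4708 (Cfsg/Statements/S4708.lean; the theorem Cfsg.blk7_principal_block_degree_square_sum_normal_subgroup);
-- the grader kernel-checks Cfsg.Agent.S4708.result against that frozen type. Keep the theorem IN THIS FILE
-- (a `result` declared elsewhere and merely imported here is not credited); helpers may live anywhere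
-- under Cfsg/Agent/.
import Cfsg.Statements.S4708
-- import your own Cfsg.Agent.* helpers here

set_option autoImplicit false
open Cfsg

open H20 H05 H21 MonoidAlgebra Cfsg Classical

namespace Cfsg.Agent.S4708

theorem sum_sq_eq {G : Type*} [Group G] [Finite G] (A : Set (IrrCharacter G)) :
    ((∑ χ with χ ∈ A, charDegree (χ : G → ℂ) ^ 2 : ℕ) : ℂ) = Nat.card G * blockCoeff A 1 := by
  rw [blockCoeff_eq, mul_inv_cancel_left₀ card_ne_zero']
  simp [IsIrrCharacter.charDegree_eq (Subtype.prop _), sq]

/-- Let p be a prime, M a maximal ideal of the algebraic integers containing p, G a finite group and H a normal subgroup. Write λ(X) for the sum of the squares of the degrees of the irreducible characters in the principal p-block of a group X. Then λ(H) ≤ λ(G) ≤ [G : H]·λ(H). -/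
theorem result {G : Type*} [Group G] [Finite G] (p : ℕ) [Fact p.Prime] (M : Ideal Cfsg.AlgInt) (hM : Cfsg.IsPModular p M) (H : Subgroup G) [H.Normal] : (∑ᶠ θ ∈ Cfsg.principalBlock M H, Cfsg.charDegree (θ : H → ℂ) ^ 2) ≤ (∑ᶠ χ ∈ Cfsg.principalBlock M G, Cfsg.charDegree (χ : G → ℂ) ^ 2) ∧ (∑ᶠ χ ∈ Cfsg.principalBlock M G, Cfsg.charDegree (χ : G → ℂ) ^ 2) ≤ H.index * ∑ᶠ θ ∈ Cfsg.principalBlock M H, Cfsg.charDegree (θ : H → ℂ) ^ 2 := by
  have := hM.2.1
  have := Fintype.ofFinite G
  have := Fintype.ofFinite H
  simp only [H21.finsum_mem_irr]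
  constructor
  · have h1 : ∀ θ : IrrCharacter H, ∃ χ : IrrCharacter G, θ ∈ principalBlock M H →
        χ ∈ principalBlock M G ∧ classInner (fun h : H => (χ : G → ℂ) h) θ ≠ 0 := by
      intro θ
      by_cases hθ : θ ∈ principalBlock M H
      swap
      · exact ⟨trivIrr G, fun h => absurd h hθ⟩
      by_contra! h
      refine contrib_ne_zero hM isPBlock_principalBlock hθ one_mem_principalBlock
        (height_eq_zero_of_apply_one rfl) ?_
      rw [contrib_comm θ.2.isGeneralizedCharacter (trivIrr H).2.isGeneralizedCharacter, contrib]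
      have e : pRegularPart p (trivIrr H : H → ℂ) = ∑ ψ with ψ ∈ principalBlock M G,
          contrib p (trivIrr G : G → ℂ) ψ • fun h : H => (ψ : G → ℂ) h := by
        ext h
        have := congrFun (pRegularPart_eq_sum_contrib hM (int_block isPBlock_principalBlock)
          (one_mem_principalBlock (G := G))) h
        simpa [pRegularPart_apply] using this
      rw [e, H05.classInner_sum_left]
      refine Finset.sum_eq_zero fun ψ hψ => ?_
      rw [H05.classInner_smul_left, (h ψ).2 (Finset.mem_filter.1 hψ).2, mul_zero]
    choose f hf using h1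
    rw [← Finset.sum_fiberwise_of_maps_to (t := Finset.univ.filter (· ∈ principalBlock M G)) (g := f)
      fun θ hθ => by simpa using (hf θ (by simpa using hθ)).1]
    refine Finset.sum_le_sum fun χ _ => (Finset.sum_sq_le_sq_sum_of_nonneg fun _ _ => Nat.zero_le _).trans
      (Nat.pow_le_pow_left ?_ 2)
    obtain ⟨m, hm, e⟩ := (χ.2.isCharacter.restrict H).exists_nat_coeff
    have e1 : charDegree (χ : G → ℂ) = ∑ θ, m θ * charDegree (θ : H → ℂ) := by
      have := congrFun e 1
      apply Nat.cast_injective (R := ℂ)
      simpa [IsIrrCharacter.charDegree_eq (Subtype.prop _)] using this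
    rw [e1]
    refine (Finset.sum_le_sum fun θ hθ => ?_).trans (Finset.sum_le_univ_sum_of_nonneg fun _ => Nat.zero_le _)
    simp only [Finset.mem_filter, Finset.mem_univ, true_and] at hθ
    refine Nat.le_mul_of_pos_left _ (Nat.pos_of_ne_zero fun h0 => (hf θ hθ.1).2 ?_)
    rw [hθ.2, hm, h0, Nat.cast_zero]
  · have h1 := congrArg (fun a => a.coeff 1) (inc_idem_orb (N := H) (principalBlock M H))
    simp only [orb_eq_self cjB_principal, coeff_idem, coeff_inc_of_mem H _ H.one_mem] at h1
    generalize hA : {χ : IrrCharacter G | ∃ θ ∈ principalBlock M H, Over H (χ : G → ℂ) θ} = A at h1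
    refine (Finset.sum_le_sum_of_subset (t := Finset.univ.filter (· ∈ A)) fun χ hχ => ?_).trans (le_of_eq ?_)
    · simpa [← hA] using (principal_covers H).exists_over isPBlock_principalBlock (int_block isPBlock_principalBlock)
        (by simpa using hχ)
    · apply Nat.cast_injective (R := ℂ)
      rw [Nat.cast_mul, sum_sq_eq, sum_sq_eq, ← h1, ← mul_assoc, ← Nat.cast_mul, H.index_mul_card]
      rfl

end Cfsg.Agent.S4708
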