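import Mathlib
import Cfsg.Agent.H20.Pim
import Cfsg.Agent.H20.PowFix
import Cfsg.Agent.H21.Subsec
-- Template for statement S4712 (row 4712; see /opt/grader/pristine/manifest.json for weights).
-- Copy to Cfsg/Agent/S4712.lean and replace the sorry. The statement below is byte-identical to the frozen
-- statement Cfsg.CfsgFrozen.S4712 (Cfsg/Statements/S4712.lean; the theorem Cfsg.blk7_p_rational_characters_ge_block_rank);
-- the grader kernel-checks Cfsg.Agent.S4712.result against that frozen type. Keep the theorem IN THIS FILE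
-- (a `result` declared elsewhere and merely imported here is not credited); helpers may live anywhere
-- under Cfsg/Agent/.
import Cfsg.Statements.S4712
-- import your own Cfsg.Agent.* helpers here

set_option autoImplicit false
open Cfsg

open H20 H05 H21 MonoidAlgebra Cfsg Classical ComplexConjugate

namespace Cfsg.Agent.S4712

theorem sec_nonneg {G : Type*} [Group G] [Fintype G] {p : ℕ} [Fact p.Prime] {M : Ideal AlgInt}
    (hM : IsPModular p M) {A : Set (IrrCharacter G)} (hA : IsInt M (idem A)) {k : ℕ}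
    (hk : ¬ p ∣ k) (hk1 : ∀ y : G, ¬ p ∣ orderOf y → y ^ k = y) {x : G} (hx : ∃ k, orderOf x = p ^ k) :
    ∃ r : ℕ, ∑ g with pPart p g = x, ∑ χ with χ ∈ A, (χ : G → ℂ) (g ^ k) * conj ((χ : G → ℂ) g) = r := by
  have := hM.2.1
  by_cases hc : IsConj (x ^ k) x
  · obtain ⟨t, ht⟩ := isConj_iff.1 hc
    have hC := centralizer_pow_of_not_dvd hM.1 hx hk
    have hmem : ∀ y, y ∈ Subgroup.centralizer ({x} : Set G) ↔
        t * y * t⁻¹ ∈ Subgroup.centralizer ({x} : Set G) := by
      intro y
      nth_rewrite 1 [← hC]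
      nth_rewrite 2 [← ht]
      simp only [Subgroup.mem_centralizer_iff, Set.mem_singleton_iff, forall_eq]
      constructor
      · intro h
        calc t * x ^ k * t⁻¹ * (t * y * t⁻¹) = t * (x ^ k * y) * t⁻¹ := by group
          _ = _ := by rw [h]; group
      · intro h
        calc x ^ k * y = t⁻¹ * (t * x ^ k * t⁻¹ * (t * y * t⁻¹)) * t := by group
          _ = _ := by rw [h]; group
    let α : Subgroup.centralizer ({x} : Set G) ≃* Subgroup.centralizer ({x} : Set G) :=
      { toFun := fun y => ⟨t * y * t⁻¹, (hmem _).1 y.2⟩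
        invFun := fun y => ⟨t⁻¹ * y * t, (hmem _).2 (by simp [mul_assoc])⟩
        left_inv := fun y => Subtype.ext (by simp [mul_assoc])
        right_inv := fun y => Subtype.ext (by simp [mul_assoc])
        map_mul' := fun y z => Subtype.ext (by simp [mul_assoc]) }
    have := Fintype.ofFinite (Subgroup.centralizer ({x} : Set G))
    obtain ⟨r, hr⟩ := exists_nat_trace_aut hM (int_brSet (M := M) x A) α
    refine ⟨Nat.card (Subgroup.centralizer ({x} : Set G)) * r, ?_⟩
    rw [sum_pPart_eq hx]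
    push_cast
    rw [← hr, Finset.mul_sum]
    have h1 : ∀ y : Subgroup.centralizer ({x} : Set G), ¬ p ∣ orderOf y →
        ∑ χ with χ ∈ A, (χ : G → ℂ) ((x * y) ^ k) * conj ((χ : G → ℂ) (x * y)) =
          ∑ ψ with ψ ∈ brSet M x A, (ψ : _ → ℂ) (α y) * conj ((ψ : _ → ℂ) y) := by
      intro y hy
      rw [← sum_brSet hM hx hA (by rwa [MulEquiv.orderOf_eq]) hy]
      refine Finset.sum_congr rfl fun χ _ => ?_
      have hcomm : Commute x (y : G) := Subgroup.mem_centralizer_iff.1 y.2 x rfl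
      rw [hcomm.mul_pow, hk1 y (by rwa [Subgroup.orderOf_coe]), ← χ.2.isClassFunction (x ^ k * y) t]
      have : t * (x ^ k * y) * t⁻¹ = x * (α y : G) := by
        show _ = x * (t * y * t⁻¹)
        calc _ = (t * x ^ k * t⁻¹) * (t * y * t⁻¹) := by group
          _ = _ := by rw [ht]
      rw [this]
    rw [Finset.sum_congr rfl fun y hy => h1 y (Finset.mem_filter.1 hy).2, Finset.sum_comm]
    refine Finset.sum_congr rfl fun ψ _ => ?_
    rw [contrib, H05.classInner_def, ← mul_assoc,
      mul_inv_cancel₀ (card_ne_zero_complex), one_mul, Finset.sum_filter]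
    refine Finset.sum_congr rfl fun y _ => ?_
    rw [pRegularPart_apply]
    split_ifs <;> simp
  · refine ⟨0, ?_⟩
    rw [Nat.cast_zero]
    refine Finset.sum_eq_zero fun g hg => block_orth hM hA ?_
    rw [pPart_pow, (Finset.mem_filter.1 hg).2]
    exact hc

theorem rank_le_fix {G : Type*} [Group G] [Finite G] {p : ℕ} [Fact p.Prime] {M : Ideal AlgInt}
    (hM : IsPModular p M) {A : Set (IrrCharacter G)} (hA : IsInt M (idem A)) {k : ℕ}
    (hk : k.Coprime (Nat.card G)) (hpk : ¬ p ∣ k) (hk1 : ∀ y : G, ¬ p ∣ orderOf y → y ^ k = y) :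
    blockRank p A ≤ (Finset.univ.filter fun χ : IrrCharacter G =>
      χ ∈ A ∧ ∀ g, (χ : G → ℂ) (g ^ k) = (χ : G → ℂ) g).card := by
  have := hM.2.1
  have := Fintype.ofFinite G
  obtain ⟨σ, hσ⟩ := PowG.exists_of_coprime hk
  set F : G → ℂ := fun g => ∑ χ with χ ∈ A, (χ : G → ℂ) (g ^ k) * conj ((χ : G → ℂ) g) with hF
  have h1 : ∑ g, F g = Nat.card G * ((Finset.univ.filter fun χ : IrrCharacter G =>
      χ ∈ A ∧ ∀ g, (χ : G → ℂ) (g ^ k) = (χ : G → ℂ) g).card : ℂ) := by
    simp only [hF]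
    rw [Finset.sum_comm, Finset.card_eq_sum_ones, Nat.cast_sum, Finset.mul_sum, Finset.sum_filter,
      Finset.sum_filter]
    refine Finset.sum_congr rfl fun χ _ => ?_
    have h2 := H05.classInner_irr (galIrr σ χ) χ
    rw [H05.classInner_def] at h2
    simp only [galIrr_apply, hσ.apply χ.2.isCharacter.isGeneralizedCharacter, hσ.fix_iff] at h2
    by_cases hχ : χ ∈ A
    · rw [if_pos hχ]
      rw [inv_mul_eq_iff_eq_mul₀ card_ne_zero_complex] at h2
      rw [h2]
      simp [hχ]
    · simp [hχ]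
  have h2 : ∑ g with pPart p g = 1, F g = Nat.card G * (blockRank p A : ℂ) := by
    rw [blockRank_eq_sum hM hA, Finset.mul_sum]
    simp only [hF]
    rw [Finset.sum_comm]
    refine Finset.sum_congr rfl fun χ _ => ?_
    rw [contrib, H05.classInner_def, ← mul_assoc, mul_inv_cancel₀ (card_ne_zero_complex), one_mul,
      Finset.sum_filter]
    refine Finset.sum_congr rfl fun y _ => ?_
    rw [pRegularPart_apply]
    by_cases hy : p ∣ orderOf y
    · simp [pPart_eq_one_iff, hy]
    · simp [pPart_eq_one_iff, hy, hk1 y hy]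
  have h3 : ∀ x : G, ∃ r : ℕ, ∑ g with pPart p g = x, F g = r := by
    intro x
    by_cases hx : ∃ k, orderOf x = p ^ k
    · exact sec_nonneg hM hA hpk hk1 hx
    · refine ⟨0, ?_⟩
      rw [Nat.cast_zero]
      refine Finset.sum_eq_zero fun g hg => absurd ?_ hx
      rw [← (Finset.mem_filter.1 hg).2]
      exact orderOf_pPart p g
  choose r hr using h3
  rw [← Finset.sum_fiberwise (g := pPart p), Finset.sum_congr rfl fun x _ => hr x] at h1
  rw [hr] at h2
  have h4 : r 1 ≤ ∑ x, r x := Finset.single_le_sum (fun _ _ => Nat.zero_le _) (Finset.mem_univ _)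
  have h5 : ∑ x, r x = Nat.card G * (Finset.univ.filter fun χ : IrrCharacter G =>
      χ ∈ A ∧ ∀ g, (χ : G → ℂ) (g ^ k) = (χ : G → ℂ) g).card := by exact_mod_cast h1
  have h6 : r 1 = Nat.card G * blockRank p A := by exact_mod_cast h2
  rw [h5, h6] at h4
  convert Nat.le_of_mul_le_mul_left h4 (Nat.card_pos (α := G))

theorem exists_gen {p n : ℕ} (hp : p.Prime) (h2 : p ≠ 2) (hn : n ≠ 0) : ∃ k0 : ℕ, k0.Coprime n ∧
    ¬ p ∣ k0 ∧ k0 ≡ 1 [MOD n / p ^ n.factorization p] ∧
    ∀ k : ℕ, k.Coprime n → k ≡ 1 [MOD n / p ^ n.factorization p] → ∃ j, k ≡ k0 ^ j [MOD n] := by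
  set a := n.factorization p
  set m := n / p ^ a
  have hnm : n = p ^ (a) * m := (Nat.ordProj_mul_ordCompl_eq_self n p).symm
  have hpm : p.Coprime m := Nat.coprime_ordCompl hp hn
  have hco : (p ^ (a + 1)).Coprime m := Nat.Coprime.pow_left _ hpm
  have := ZMod.isCyclic_units_of_prime_pow p hp h2 (a + 1)
  have : NeZero (p ^ (a + 1)) := ⟨pow_ne_zero _ hp.ne_zero⟩
  obtain ⟨g, hg⟩ := IsCyclic.exists_monoid_generator (α := (ZMod (p ^ (a + 1)))ˣ)
  obtain ⟨k0, h1, h3⟩ := Nat.chineseRemainder hco (g : ZMod (p ^ (a + 1))).val 1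
  have hg1 : Nat.Coprime (g : ZMod (p ^ (a + 1))).val (p ^ (a + 1)) := ZMod.val_coe_unit_coprime g
  have hk0 : k0.Coprime (p ^ (a + 1)) := by
    rw [Nat.Coprime, h1.gcd_eq]; exact hg1
  have hk0p : k0.Coprime p := hk0.coprime_dvd_right (dvd_pow_self p (by omega))
  have hk0m : k0.Coprime m := by
    rw [Nat.Coprime, h3.gcd_eq]; simp
  refine ⟨k0, by rw [hnm]; exact Nat.Coprime.mul_right (hk0p.pow_right _) hk0m,
    (Nat.Prime.coprime_iff_not_dvd hp).1 hk0p.symm, h3, fun k hk hk1 => ?_⟩
  by_cases ha : a = 0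
  · refine ⟨0, ?_⟩
    rw [hnm, ha]; simpa using hk1
  have hkp : k.Coprime p := hk.coprime_dvd_right (by rw [hnm]; exact (dvd_pow_self p ha).mul_right _)
  obtain ⟨j, hj⟩ := hg (ZMod.unitOfCoprime k (hkp.pow_right (a + 1)))
  refine ⟨j, ?_⟩
  rw [hnm, ← Nat.modEq_and_modEq_iff_modEq_mul (Nat.Coprime.pow_left _ hpm)]
  constructor
  · refine Nat.ModEq.of_dvd (pow_dvd_pow p (Nat.le_succ a)) ?_
    rw [← ZMod.natCast_eq_natCast_iff]
    have := congrArg (fun u : (ZMod (p ^ (a + 1)))ˣ => (u : ZMod (p ^ (a + 1)))) hj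
    simp only [Units.val_pow_eq_pow_val, ZMod.coe_unitOfCoprime] at this
    rw [← this, Nat.cast_pow, (ZMod.natCast_eq_natCast_iff _ _ _).2 h1, ZMod.natCast_zmod_val]
  · have := h3.pow j
    rw [one_pow] at this
    exact hk1.trans this.symm

/-- Let p be an odd prime, M a maximal ideal of the algebraic integers containing p, G a finite group of order n with p-part p^a, and B a p-block of G. Call an irreducible character χ p-rational when χ(g^k) = χ(g) for every g and every k coprime to n with k ≡ 1 modulo n/p^a (χ is fixed by the Galois automorphisms fixing the roots of unity of order prime to p). Then the number of p-rational irreducible characters in B is at least the p-regular rank of B (the number of irreducible Brauer characters in B). -/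
theorem result {G : Type*} [Group G] [Finite G] (p : ℕ) [Fact p.Prime] (hodd : p ≠ 2) (M : Ideal Cfsg.AlgInt) (hM : Cfsg.IsPModular p M) (B : Set (Cfsg.IrrCharacter G)) (hB : Cfsg.IsPBlock M B) : Cfsg.blockRank p B ≤ Nat.card {χ : Cfsg.IrrCharacter G // χ ∈ B ∧ ∀ k : ℕ, Nat.Coprime k (Nat.card G) → k ≡ 1 [MOD Nat.card G / p ^ (Nat.card G).factorization p] → ∀ g : G, (χ : G → ℂ) (g ^ k) = (χ : G → ℂ) g} := by
  have := hM.2.1
  have hp := hM.1
  obtain ⟨k0, h1, h2, h3, h4⟩ := exists_gen hp hodd (Nat.card_pos (α := G)).ne'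
  have h5 : ∀ y : G, ¬ p ∣ orderOf y → y ^ k0 = y := by
    intro y hy
    have : orderOf y ∣ Nat.card G / p ^ (Nat.card G).factorization p := by
      have h := orderOf_dvd_natCard y
      rw [← Nat.ordProj_mul_ordCompl_eq_self (Nat.card G) p] at h
      exact (Nat.Coprime.pow_right _ ((Nat.Prime.coprime_iff_not_dvd hp).2 hy).symm).dvd_of_dvd_mul_left h
    conv_rhs => rw [← pow_one y]
    exact pow_eq_pow_iff_modEq.2 (h3.of_dvd this)
  refine (rank_le_fix hM (int_block hB) h1 h2 h5).trans ?_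
  rw [Nat.card_eq_fintype_card, Fintype.card_subtype]
  refine Finset.card_le_card fun χ hχ => ?_
  obtain ⟨hχ1, hχ2⟩ := (Finset.mem_filter.1 hχ).2
  refine Finset.mem_filter.2 ⟨Finset.mem_univ _, hχ1, fun k hk hk1 g => ?_⟩
  obtain ⟨j, hj⟩ := h4 k hk hk1
  rw [pow_eq_pow_iff_modEq.2 (hj.of_dvd (orderOf_dvd_natCard g))]
  clear hj
  induction j with
  | zero => simp
  | succ j ih => rw [pow_succ, pow_mul, hχ2, ih]

end Cfsg.Agent.S4712
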