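import Mathlib
import Cfsg.Agent.H20.Quot2
-- Template for statement S4714 (row 4714; see /opt/grader/pristine/manifest.json for weights).
-- Copy to Cfsg/Agent/S4714.lean and replace the sorry. The statement below is byte-identical to the frozen
-- statement Cfsg.CfsgFrozen.S4714 (Cfsg/Statements/S4714.lean; the theorem Cfsg.blk7_central_defect_group_block_characters);
-- the grader kernel-checks Cfsg.Agent.S4714.result against that frozen type. Keep the theorem IN THIS FILE
-- (a `result` declared elsewhere and merely imported here is not credited); helpers may live anywhere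
-- under Cfsg/Agent/.
import Cfsg.Statements.S4714
-- import your own Cfsg.Agent.* helpers here

set_option autoImplicit false
open Cfsg

open H20 H05 H21 MonoidAlgebra Cfsg

namespace Cfsg.Agent.S4714

/-- Let p be a prime, M a maximal ideal of the algebraic integers containing p, D a p-subgroup of the finite group G with G = D·C_G(D), and B a p-block with defect group D. Let χ be a member of B having D in its kernel (there is exactly one, the canonical character of B). Then the irreducible characters in B are exactly the functions θ on G for which there is an irreducible character ζ of D such that θ(yx) = ζ(y)χ(x) whenever y ∈ D, x has order prime to p and x commutes with y, and θ(z) = 0 whenever the p-part of z does not lie in D. -/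
theorem result {G : Type*} [Group G] [Finite G] (p : ℕ) [Fact p.Prime] (M : Ideal Cfsg.AlgInt) (hM : Cfsg.IsPModular p M) (D : Subgroup G) (hD : IsPGroup p D) (hG : D ⊔ Subgroup.centralizer (D : Set G) = ⊤) (B : Set (Cfsg.IrrCharacter G)) (hB : Cfsg.IsPBlock M B) (hBD : Cfsg.IsDefectGroup p M B D) (χ : Cfsg.IrrCharacter G) (hχ : χ ∈ B) (hχD : ∀ y ∈ D, (χ : G → ℂ) y = (χ : G → ℂ) 1) : (∀ θ : Cfsg.IrrCharacter G, θ ∈ B ↔ ∃ ζ : Cfsg.IrrCharacter D, (∀ (y : D) (x : G), ¬ p ∣ orderOf x → Commute (y : G) x → (θ : G → ℂ) ((y : G) * x) = (ζ : D → ℂ) y * (χ : G → ℂ) x) ∧ (∀ z : G, (∀ y : G, Cfsg.IsPPart p z y → y ∉ D) → (θ : G → ℂ) z = 0)) ∧ ∀ ζ : Cfsg.IrrCharacter D, ∃ θ ∈ B, (∀ (y : D) (x : G), ¬ p ∣ orderOf x → Commute (y : G) x → (θ : G → ℂ) ((y : G) * x) = (ζ : D → ℂ) y * (χ : G → ℂ) x) ∧ (∀ z : G, (∀ y : G, Cfsg.IsPPart p z y → y ∉ D) → (θ : G → ℂ) z = 0) := by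
  have := hM.2.1
  have : D.Normal := by
    rw [← Subgroup.normalizer_eq_top_iff, eq_top_iff, ← hG]
    exact sup_le Subgroup.le_normalizer (Subgroup.centralizer_le_normalizer _)
  obtain ⟨Φ, hΦ⟩ := exists_thZ_equiv hM hG hB hBD hχ hχD
  have key : ∀ (ζ : D → ℂ) (θ : G → ℂ), ThZ p D χ ζ θ ↔ (∀ (y : D) (x : G), ¬ p ∣ orderOf x →
      Commute (y : G) x → θ ((y : G) * x) = ζ y * (χ : G → ℂ) x) ∧
      (∀ z : G, (∀ y : G, Cfsg.IsPPart p z y → y ∉ D) → θ z = 0) := by
    intro ζ θ
    refine and_congr ⟨fun h y x hx _ => h y x hx, fun h y x hx => h y x hx ?_⟩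
      ⟨fun h z hz => h z (hz _ (isPPart_pPart p z)), fun h z hz => h z fun y hy => ?_⟩
    · exact Subgroup.mem_centralizer_iff.1
        (mem_centralizer_of_mem_sup hD (hG ▸ Subgroup.mem_top x) hx) _ y.2
    · rwa [isPPart_iff.1 hy]
  have h2 : ∀ ζ : IrrCharacter D, ∃ θ ∈ B, ThZ p D χ ζ θ := fun ζ =>
    ⟨Φ.symm ζ, (Φ.symm ζ).2, by simpa using hΦ (Φ.symm ζ)⟩
  simp only [← key]
  refine ⟨fun θ => ⟨fun hθ => ⟨_, hΦ ⟨θ, hθ⟩⟩, fun ⟨ζ, hζ⟩ => ?_⟩, h2⟩
  obtain ⟨θ', hθ', h⟩ := h2 ζ
  rwa [show θ = θ' from Subtype.ext (hζ.ext h)]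

end Cfsg.Agent.S4714
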