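import Mathlib
import Cfsg.Agent.H20.HtBound
-- Template for statement S4715 (row 4715; see /opt/grader/pristine/manifest.json for weights).
-- Copy to Cfsg/Agent/S4715.lean and replace the sorry. The statement below is byte-identical to the frozen
-- statement Cfsg.CfsgFrozen.S4715 (Cfsg/Statements/S4715.lean; the theorem Cfsg.blk7_height_le_inertial_index_log_add_defect_sub_center);
-- the grader kernel-checks Cfsg.Agent.S4715.result against that frozen type. Keep the theorem IN THIS FILE
-- (a `result` declared elsewhere and merely imported here is not credited); helpers may live anywhere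
-- under Cfsg/Agent/.
import Cfsg.Statements.S4715
-- import your own Cfsg.Agent.* helpers here

set_option autoImplicit false
open Cfsg

open H20 H05 H21 MonoidAlgebra Cfsg

namespace Cfsg.Agent.S4715

/-- Let p be a prime, M a maximal ideal of the algebraic integers containing p, B a p-block of the finite group G with defect group D of order p^d, H = D·C_G(D), b a block of H inducing B, T the stabilizer of b in N_G(D) and e = [T : H] the inertial index of B; let n be the integer with p^n ≤ e < p^(n+1) and p^c the order of the centre of D. Then every irreducible character in B has height h with h + c ≤ n + d. -/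
theorem result {G : Type*} [Group G] [Finite G] (p : ℕ) [Fact p.Prime] (M : Ideal Cfsg.AlgInt) (hM : Cfsg.IsPModular p M) (B : Set (Cfsg.IrrCharacter G)) (hB : Cfsg.IsPBlock M B) (D : Subgroup G) (hBD : Cfsg.IsDefectGroup p M B D) (d : ℕ) (hDd : Nat.card D = p ^ d) (H : Subgroup G) (hH : H = D ⊔ Subgroup.centralizer (D : Set G)) (b : Set (Cfsg.IrrCharacter H)) (hind : Cfsg.IsInducedBlock M H b B) (T : Subgroup G) (hT : ∀ g : G, g ∈ T ↔ (g ∈ Subgroup.normalizer (D : Set G) ∧ ∀ θ ∈ b, ∀ θ' : Cfsg.IrrCharacter H, (∀ h h' : H, (h' : G) = g * h * g⁻¹ → (θ' : H → ℂ) h' = (θ : H → ℂ) h) → θ' ∈ b)) (e : ℕ) (he : H.relIndex T = e) (n : ℕ) (hn : p ^ n ≤ e ∧ e < p ^ (n + 1)) (c : ℕ) (hc : Nat.card (Subgroup.center D) = p ^ c) : ∀ χ ∈ B, Cfsg.blockHeight p B (χ : G → ℂ) + c ≤ n + d := by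
  intro χ hχ
  subst hH he
  have := hM.2.1
  have := Fintype.ofFinite G
  obtain ⟨f, h1, h2⟩ := exists_pair_of_sup hM hBD.isPGroup hind
  have h3 := card_center_mul_le ⟨hM, h1.pMax_of_isDefectGroup hM hBD⟩ hχ
  have h4 : pstab ⟨D, f⟩ ≤ T := fun g hg => by
    obtain ⟨h5, h6⟩ := mem_pstab_iff_iI.1 hg
    have h7 : g ∈ Subgroup.normalizer ((D ⊔ Subgroup.centralizer (D : Set G) : Subgroup G) : Set G) :=
      Subgroup.normalizer_inf_normalizer_le_normalizer_sup _ _ ⟨h5, (mem_pstab_iff.1 hg).2.1⟩
    have h8 := (stabilizesBlock_iff.2 ⟨h7, by rw [h2]; exact h6⟩ : StabilizesBlock _ b g)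
    refine (hT g).2 ⟨h5, fun θ hθ θ' h9 => ?_⟩
    obtain ⟨θ'', h10, h11⟩ := h8.2 θ hθ
    rwa [(isConjCharOf_iff (cj_of_mem_normalizer h7)).1 h9, ← (isConjCharOf_iff (cj_of_mem_normalizer h7)).1 h11]
  have h5 := h3.trans (Nat.mul_le_mul_left _ (Subgroup.relIndex_le_of_le_right h4
    Subgroup.FiniteIndex.index_ne_zero))
  have h6 : blockDefect p B = d :=
    Nat.pow_right_injective hM.1.two_le ((H20.Cfsg.IsDefectGroup.card_eq hM hB hBD).symm.trans hDd)
  rw [hc, h6, ← pow_add] at h5
  have h7 := h5.trans_lt (Nat.mul_lt_mul_of_pos_left hn.2 (pow_pos hM.1.pos d))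
  rw [← pow_add, Nat.pow_lt_pow_iff_right hM.1.one_lt] at h7
  omega

end Cfsg.Agent.S4715
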