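import Mathlib
import Cfsg.Statements.S4717
import Cfsg.Agent.H21.Ker

set_option autoImplicit false
open Cfsg

namespace Cfsg.Agent.S4717
open H05 Cfsg H20 H21 MonoidAlgebra Classical
open scoped ComplexConjugate

/-- Let p be a prime, M a maximal ideal of the algebraic integers containing p, and r a natural number; say that a finite group X has deficiency class r when X has no non-principal p-block of defect ≥ r. If G has deficiency class r then so does the centralizer of every p-element of G; conversely, if r > 0 and the centralizer of every element of order p has deficiency class r, then G has deficiency class r. -/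
theorem result {G : Type*} [Group G] [Finite G] (p : ℕ) [Fact p.Prime] (M : Ideal Cfsg.AlgInt) (hM : Cfsg.IsPModular p M) (r : ℕ) : ((∀ B' : Set (Cfsg.IrrCharacter G), Cfsg.IsPBlock M B' → B' ≠ Cfsg.principalBlock M G → Cfsg.blockDefect p B' < r) → ∀ y : G, (∃ k : ℕ, orderOf y = p ^ k) → (∀ B' : Set (Cfsg.IrrCharacter ↥(Subgroup.centralizer ({y} : Set G))), Cfsg.IsPBlock M B' → B' ≠ Cfsg.principalBlock M ↥(Subgroup.centralizer ({y} : Set G)) → Cfsg.blockDefect p B' < r)) ∧ (0 < r → (∀ y : G, orderOf y = p → (∀ B' : Set (Cfsg.IrrCharacter ↥(Subgroup.centralizer ({y} : Set G))), Cfsg.IsPBlock M B' → B' ≠ Cfsg.principalBlock M ↥(Subgroup.centralizer ({y} : Set G)) → Cfsg.blockDefect p B' < r)) → (∀ B' : Set (Cfsg.IrrCharacter G), Cfsg.IsPBlock M B' → B' ≠ Cfsg.principalBlock M G → Cfsg.blockDefect p B' < r)) := by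
  haveI := hM.2.1
  constructor
  · intro h y hy b hb hne
    obtain ⟨B, hB⟩ := exists_induced_centralizer hM hy hb
    refine lt_of_le_of_lt (hB.blockDefect_le hM) (h B hB.2.1 fun e => hne ?_)
    exact (third_main hM ⟨B, hB⟩).1 (e ▸ hB)
  · intro hr h B hB hne
    obtain ⟨D, hD⟩ := hB.exists_isDefectGroup p
    by_cases h0 : D = ⊥
    · rw [(hD.eq_bot_iff hM hB).1 h0]; exact hr
    haveI : Nontrivial D := (Subgroup.nontrivial_iff_ne_bot D).2 h0
    haveI := hD.isPGroup.center_nontrivial
    have hc : p ∣ Nat.card (Subgroup.center D) := by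
      obtain ⟨k, hk⟩ := (hD.isPGroup.to_subgroup (Subgroup.center D)).exists_card_eq
      rw [hk]
      refine dvd_pow_self p fun e => ?_
      rw [e, pow_zero] at hk
      exact absurd hk Finite.one_lt_card.ne'
    haveI := Fintype.ofFinite (Subgroup.center D)
    obtain ⟨z, hz⟩ := exists_prime_orderOf_dvd_card' p hc
    have hzD : D ≤ Subgroup.centralizer ({((z : D) : G)} : Set G) := fun d hd x hx => by
      rw [Set.mem_singleton_iff.1 hx]
      exact (congrArg Subtype.val (Subgroup.mem_center_iff.1 z.2 ⟨d, hd⟩)).symm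
    obtain ⟨c, hc, hcD⟩ := exists_major hM hB hD (z : D).2 hzD
    rw [← blockDefect_eq_of_subgroupOf hM hB hD hzD hc.1 hcD]
    refine h _ (by rw [Subgroup.orderOf_coe, Subgroup.orderOf_coe, hz]) c hc.1 fun e => hne ?_
    exact hc.unique ((third_main hM ⟨B, hc⟩).2 e)

end Cfsg.Agent.S4717
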