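import Mathlib
import Cfsg.Agent.H20.BFC
import Cfsg.Agent.H21.Quot
import Cfsg.Agent.H21.Height
import Cfsg.Agent.H21.Landau
import Cfsg.Agent.H21.Contrib
-- Template for statement S4719 (row 4719; see /opt/grader/pristine/manifest.json for weights).
-- Copy to Cfsg/Agent/S4719.lean and replace the sorry. The statement below is byte-identical to the frozen
-- statement Cfsg.CfsgFrozen.S4719 (Cfsg/Statements/S4719.lean; the theorem Cfsg.blk7_two_deficiency_class_order_bound);
-- the grader kernel-checks Cfsg.Agent.S4719.result against that frozen type. Keep the theorem IN THIS FILE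
-- (a `result` declared elsewhere and merely imported here is not credited); helpers may live anywhere
-- under Cfsg/Agent/.
import Cfsg.Statements.S4719
-- import your own Cfsg.Agent.* helpers here

set_option autoImplicit false
universe u
open Cfsg

open H20 H05 H21 MonoidAlgebra Cfsg

namespace Cfsg.Agent.S4719

theorem aux (a r : ℕ) : ∃ N : ℕ, ∀ (G : Type u) [Group G] [Finite G] (M : Ideal AlgInt), IsPModular 2 M →
    (Nat.card G).factorization 2 ≤ a →
    (∀ B : Set (IrrCharacter G), IsPBlock M B → B ≠ principalBlock M G → blockDefect 2 B < r) →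
    ∀ E : Subgroup G, (∀ x ∈ E, x * x = 1) → Nat.card E = 2 ^ (r + 1) → Nat.card G ≤ N := by
  induction r with
  | zero =>
    obtain ⟨N, hN⟩ := card_le_of_irr.{u} (2 ^ (2 * a))
    refine ⟨N, fun G _ _ M hM ha h _ _ _ => hN G ?_⟩
    have := hM.2.1
    have h1 : principalBlock M G = Set.univ := Set.eq_univ_of_forall fun χ => by
      by_contra hne
      exact absurd (h _ (H20.isPBlock_blockOf χ) fun e => hne (e ▸ H20.mem_blockOf_self χ)) (Nat.not_lt_zero _)
    have h2 := card_block_le hM (isPBlock_principalBlock (M := M) (G := G))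
    have h3 := blockDefect_le 2 (principalBlock M G)
    rw [h1, Nat.card_univ] at h2
    rw [h1] at h3
    exact h2.trans (Nat.pow_le_pow_right two_pos (by omega))
  | succ r ih =>
    obtain ⟨N, hN⟩ := ih
    obtain ⟨N', hN'⟩ := card_le_of_four.{u} (2 * N) a
    refine ⟨N', fun G _ _ M hM ha h E hE hc => ?_⟩
    have := hM.2.1
    have hcomm : ∀ x ∈ E, ∀ y ∈ E, x * y = y * x := fun x hx y hy => by
      have h1 := hE _ (E.mul_mem hx hy)
      calc x * y = x * (x * y * (x * y)) * y := by rw [h1, mul_one]
        _ = x * x * (y * x) * (y * y) := by group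
        _ = y * x := by rw [hE x hx, hE y hy, one_mul, mul_one]
    have hord : ∀ t ∈ E, t ≠ 1 → orderOf t = 2 := fun t ht h1 => orderOf_eq_prime (by rw [sq, hE t ht]) h1
    have key : ∀ t ∈ E, t ≠ 1 → Nat.card (Subgroup.centralizer ({t} : Set G)) ≤ 2 * N := fun t ht h1 => by
      set C := Subgroup.centralizer ({t} : Set G)
      let t' : C := ⟨t, self_mem_centralizer t⟩
      have hZ : Subgroup.zpowers t' ≤ Subgroup.center _ := by
        rw [Subgroup.zpowers_le, Subgroup.mem_center_iff]
        exact fun g => Subtype.ext (Subgroup.mem_centralizer_singleton_iff.1 g.2)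
      have : (Subgroup.zpowers t').Normal :=
        ⟨fun n hn g => by rw [Subgroup.mem_center_iff.1 (hZ hn) g, mul_inv_cancel_right]; exact hn⟩
      have h2 : Nat.card (Subgroup.zpowers t') = 2 := by rw [Nat.card_zpowers, Subgroup.orderOf_mk, hord t ht h1]
      have hq := pQuot_of_center (p := 2) (IsPGroup.of_card (n := 1) h2) hZ
      have hEC : E ≤ C := fun x hx => Subgroup.mem_centralizer_singleton_iff.2 (hcomm x hx t ht)
      rw [Subgroup.card_eq_card_quotient_mul_card_subgroup (Subgroup.zpowers t'), h2, mul_comm]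
      refine Nat.mul_le_mul_left _ (hN _ M hM (le_trans ((Nat.factorization_le_iff_dvd Nat.card_pos.ne'
        Nat.card_pos.ne').2 ((Subgroup.card_quotient_dvd_card _).trans C.card_subgroup_dvd_card) 2) ha)
        (fun b hb hne => ?_) ((E.subgroupOf C).map (QuotientGroup.mk' _)) ?_ ?_)
      · obtain ⟨β, hβ, rfl⟩ := hq.exists_dom_eq hM hb
        obtain ⟨B, hB⟩ := exists_induced_centralizer hM ⟨1, hord t ht h1⟩ hβ
        have h3 := h B hB.2.1 fun e => hne (by
          rw [(third_main hM ⟨B, hB⟩).1 (e ▸ hB), hq.dom_principal hM])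
        have h4 := H20.Cfsg.IsInducedBlock.blockDefect_le hM hB
        have h5 := hq.blockDefect_dom hM hβ
        rw [QuotientGroup.ker_mk', h2, Nat.prime_two.factorization_self] at h5
        omega
      · rintro _ ⟨x, hx, rfl⟩
        rw [← map_mul, show x * x = 1 from Subtype.ext (hE _ hx), map_one]
      · have h3 := ((QuotientGroup.mk' (Subgroup.zpowers t')).domRestrict (E.subgroupOf C)).ker.card_mul_index
        rw [Subgroup.index_ker, MonoidHom.domRestrict_range, MonoidHom.ker_domRestrict, QuotientGroup.ker_mk',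
          Nat.card_congr (Subgroup.subgroupOfEquivOfLe (Subgroup.zpowers_le.2 (show t' ∈ E.subgroupOf C from ht))).toEquiv,
          h2, Nat.card_congr (Subgroup.subgroupOfEquivOfLe hEC).toEquiv, hc, pow_succ' 2 (r + 1)] at h3
        exact Nat.eq_of_mul_eq_mul_left two_pos h3
    have h4 : 2 < Nat.card E := by
      rw [hc]; exact lt_of_lt_of_le (by norm_num) (Nat.pow_le_pow_right two_pos (by omega : 2 ≤ r + 1 + 1))
    have := Fintype.ofFinite E
    rw [Nat.card_eq_fintype_card] at h4
    obtain ⟨x, hx⟩ := Fintype.exists_ne_of_one_lt_card (by omega) (1 : E)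
    obtain ⟨y, hy1, hy2⟩ : ∃ y : E, y ≠ 1 ∧ y ≠ x := by
      classical
      by_contra hne
      push Not at hne
      have : (Finset.univ : Finset E) ⊆ {1, x} := fun y _ => by
        by_cases h : y = 1
        · simp [h]
        · simp [hne y h]
      have := (Finset.card_le_card this).trans Finset.card_le_two
      rw [Finset.card_univ] at this
      omega
    have hx' : (x : G) ≠ 1 := fun e => hx (Subtype.ext e)
    refine hN' G x y (hord x x.2 hx') (hE y y.2) (hcomm x x.2 y y.2) (key x x.2 hx')
      (key y y.2 fun e => hy1 (Subtype.ext e)) (key _ (E.mul_mem x.2 y.2) fun e => hy2 (Subtype.ext ?_)) ha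
    rw [← mul_right_inj (x : G), e, hE x x.2]

/-- For every natural number a there is a bound N with the following property. Let G be a finite group with Sylow 2-subgroups of order 2^a and r ≥ 0 such that G has no non-principal 2-block (relative to a maximal ideal of the algebraic integers containing 2) of defect ≥ r, and suppose a Sylow 2-subgroup of G contains an elementary abelian subgroup of order 2^(r+1). Then the order of G is at most N. -/
theorem result (a : ℕ) : ∃ N : ℕ, ∀ (G : Type u) [Group G] [Finite G] (M : Ideal Cfsg.AlgInt) (r : ℕ) (P : Sylow 2 G), Cfsg.IsPModular 2 M → Nat.card P = 2 ^ a → (∀ B : Set (Cfsg.IrrCharacter G), Cfsg.IsPBlock M B → B ≠ Cfsg.principalBlock M G → Cfsg.blockDefect 2 B < r) → (∃ E : Subgroup G, E ≤ (P : Subgroup G) ∧ IsMulCommutative E ∧ (∀ x ∈ E, x * x = 1) ∧ Nat.card E = 2 ^ (r + 1)) → Nat.card G ≤ N := by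
  choose N hN using aux.{u} a
  refine ⟨(Finset.range (a + 1)).sup N, fun G _ _ M r P hM hP h ⟨E, hEP, _, hE, hc⟩ => ?_⟩
  have h1 : (Nat.card G).factorization 2 = a := by
    rw [P.card_eq_multiplicity] at hP
    exact Nat.pow_right_injective le_rfl hP
  have h2 := Subgroup.card_le_of_le hEP
  rw [hc, hP, Nat.pow_le_pow_iff_right one_lt_two] at h2
  exact (hN r G M hM h1.le h E hE hc).trans (Finset.le_sup (f := N) (Finset.mem_range.2 (by omega)))

end Cfsg.Agent.S4719
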