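import Mathlib
import Cfsg.Statements.S4720
import Cfsg.Agent.H21.Column
import Cfsg.Agent.H06.Induction

set_option autoImplicit false
open Cfsg

namespace Cfsg.Agent.S4720
open H05 Cfsg H20 H21 MonoidAlgebra Classical
open scoped ComplexConjugate

/-- Let p be a prime, M a maximal ideal of the algebraic integers containing p, P a p-subgroup of the finite group G, N a subgroup with P ≤ N ≤ N_G(P), and U a nonempty subset of P normalized by N such that an element of U and an element of P that are conjugate in G are already conjugate in N, and such that λ(C_G(y)) = w·#C_N(y) for every y ∈ U with one rational number w, where λ(X) denotes the sum of the squares of the degrees of the irreducible characters in the principal p-block of X. For a complex function θ on P and χ in the principal block of G put a_χ(θ) = #P⁻¹ Σ_{y ∈ P} χ(y) θ(y⁻¹). Then for generalized characters θ, η of P with θ vanishing outside U, Σ_χ a_χ(θ)·conj(a_χ(η)) = (w/#P²)·Σ_{y ∈ P}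 θ(y)·conj(Σ_{x ∈ N} η(x y x⁻¹)) (η extended by zero off P; the conjugates lie in P), the first sum over the principal p-block of G. -/
theorem result {G : Type*} [Group G] [Finite G] (p : ℕ) [Fact p.Prime] (M : Ideal Cfsg.AlgInt) (hM : Cfsg.IsPModular p M) (P : Subgroup G) (hP : IsPGroup p P) (N : Subgroup G) (hPN : P ≤ N) (hNN : N ≤ Subgroup.normalizer (P : Set G)) (U : Set G) (hUne : U.Nonempty) (hUP : U ⊆ (P : Set G)) (hUN : ∀ n ∈ N, ∀ u ∈ U, n * u * n⁻¹ ∈ U) (hfus : ∀ u ∈ U, ∀ g : G, g * u * g⁻¹ ∈ (P : Set G) → ∃ n ∈ N, n * u * n⁻¹ = g * u * g⁻¹) (w : ℚ) (hw : ∀ y ∈ U, ((∑ᶠ ψ ∈ Cfsg.principalBlock M ↥(Subgroup.centralizer ({y} : Set G)), Cfsg.charDegree (ψ : ↥(Subgroup.centralizer ({y} : Set G)) → ℂ) ^ 2) : ℚ) = w * Nat.card ↥(N ⊓ Subgroup.centralizer ({y} : Set G))) (θ η : ↥P → ℂ) (hθ : Cfsg.IsGeneralizedCharacter ↥P θ) (hη : Cfsg.IsGeneralizedCharacter ↥P η) (hθU : ∀ y : ↥P, (y : G) ∉ U → θ y = 0) : ∑ᶠ χ ∈ Cfsg.principalBlock M G, ((Nat.card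 ↥P : ℂ)⁻¹ * ∑ᶠ y : ↥P, (χ : G → ℂ) (y : G) * θ y⁻¹) * (starRingEnd ℂ) ((Nat.card ↥P : ℂ)⁻¹ * ∑ᶠ y : ↥P, (χ : G → ℂ) (y : G) * η y⁻¹) = ((w : ℂ) / ((Nat.card ↥P : ℂ) ^ 2)) * ∑ᶠ y : ↥P, θ y * (starRingEnd ℂ) (∑ᶠ x : ↥N, Cfsg.extendByZero P η ((x : G) * (y : G) * (x : G)⁻¹)) := by
  haveI := Fintype.ofFinite G
  have hN0 : (Nat.card P : ℂ) ≠ 0 := card_ne_zero_complex
  rw [H21.finsum_mem_irr]
  simp only [finsum_eq_sum_of_fintype]
  have key : ∀ y : P, θ y * ∑ y' : P, conj (η y') *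
      ∑ χ with χ ∈ principalBlock M G, (χ : G → ℂ) (y : G)⁻¹ * conj ((χ : G → ℂ) (y' : G)⁻¹) =
      w * (θ y * conj (∑ x : N, extendByZero P η ((x : G) * (y : G) * (x : G)⁻¹))) := by
    intro y
    by_cases hy : (y : G) ∈ U
    swap
    · rw [hθU y hy]; simp
    have hw' : (lamP M (Subgroup.centralizer ({(y : G)} : Set G)) : ℂ) =
        w * Nat.card ↥(N ⊓ Subgroup.centralizer ({(y : G)} : Set G)) := by
      have := hw y hy
      rw [H21.finsum_mem_irr] at this
      rw [lamP]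
      exact_mod_cast congrArg (fun q : ℚ => (q : ℂ)) this
    have h1 : ∀ y' : P, ∑ χ with χ ∈ principalBlock M G,
        (χ : G → ℂ) (y : G)⁻¹ * conj ((χ : G → ℂ) (y' : G)⁻¹) =
        if ∃ n ∈ N, n * (y : G) * n⁻¹ = y' then
          (lamP M (Subgroup.centralizer ({(y : G)} : Set G)) : ℂ) else 0 := by
      intro y'
      have e : ∑ χ with χ ∈ principalBlock M G,
          (χ : G → ℂ) (y : G)⁻¹ * conj ((χ : G → ℂ) (y' : G)⁻¹) =
          conj (∑ χ with χ ∈ principalBlock M G, (χ : G → ℂ) y * conj ((χ : G → ℂ) y')) := by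
        rw [map_sum]
        refine Finset.sum_congr rfl fun χ _ => ?_
        rw [χ.2.apply_inv, χ.2.apply_inv, map_mul]
      rw [e]
      split_ifs with hc
      · obtain ⟨n, -, hn⟩ := hc
        rw [sum_principal_col_of_isConj hM (orderOf_pow_of_mem hP y.2) (isConj_iff.2 ⟨n, hn⟩),
          map_natCast]
      · rw [sum_principal_col_of_not hM (orderOf_pow_of_mem hP y.2) (orderOf_pow_of_mem hP y'.2),
          map_zero]
        intro h
        obtain ⟨g, hg⟩ := isConj_iff.1 h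
        obtain ⟨n, hn, he⟩ := hfus y hy g (by rw [hg]; exact y'.2)
        exact hc ⟨n, hn, he.trans hg⟩
    simp only [h1]
    rw [sum_subgroup_conj N (y : G) (extendByZero P η), map_mul, map_natCast, hw',
      Finset.sum_filter]
    have h2 : ∑ y' : G, (if ∃ n ∈ N, n * (y : G) * n⁻¹ = y' then extendByZero P η y' else 0) =
        ∑ y' : P, η y' * if ∃ n ∈ N, n * (y : G) * n⁻¹ = y' then 1 else 0 := by
      rw [← H06.sum_extendByZero_mul P η fun y' => if ∃ n ∈ N, n * (y : G) * n⁻¹ = y' then 1 else 0]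
      exact Finset.sum_congr rfl fun y' _ => by split_ifs <;> simp
    rw [h2, map_sum, Finset.mul_sum, Finset.mul_sum, Finset.mul_sum, Finset.mul_sum]
    refine Finset.sum_congr rfl fun y' _ => ?_
    split_ifs <;> simp
    ring
  have e1 : ∀ (χ : IrrCharacter G) (f : P → ℂ), ∑ y : P, (χ : G → ℂ) y * f y⁻¹ =
      ∑ y : P, (χ : G → ℂ) (y : G)⁻¹ * f y := fun χ f =>
    (Equiv.sum_comp (Equiv.inv P) _).symm.trans (Finset.sum_congr rfl fun y _ => by simp)
  simp only [e1]
  rw [div_mul_eq_mul_div, Finset.mul_sum (a := (w : ℂ)), ← Finset.sum_congr rfl fun y _ => key y]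
  simp only [Finset.mul_sum, map_mul, map_sum, map_inv₀, map_natCast, Finset.sum_mul,
    Finset.sum_div]
  conv_lhs => rw [Finset.sum_comm]
  conv_rhs => rw [Finset.sum_comm]
  refine Finset.sum_congr rfl fun y' _ => ?_
  conv_lhs => rw [Finset.sum_comm]
  refine Finset.sum_congr rfl fun y _ => Finset.sum_congr rfl fun χ _ => ?_
  field_simp

end Cfsg.Agent.S4720
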