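import Mathlib
import Cfsg.Statements.S4721
import Cfsg.Agent.H19.Frob3
import Cfsg.Agent.H05.Burnside

set_option autoImplicit false
open Cfsg

namespace Cfsg.Agent.S4721

open H05

/-- Let p be a prime, M a maximal ideal of the algebraic integers containing p, and G a finite group with a nontrivial abelian Sylow p-subgroup P, N = N_G(P), C = C_G(P), such that N/C is cyclic of order 3, #P > 4, and C_G(y) ∩ N = C for every non-identity y ∈ P. Then the principal p-block is the disjoint union of a set X of exactly 3 characters containing the principal character and a set Y of (#P − 1)/3 characters, with signs a_χ = ±1 (χ ∈ X, a = 1 at the principal character) and δ = ±1 such that every χ ∈ X takes the value a_χ at every element whose p-part is a non-identity element of P, and there is a map ζ from the non-principal linear characters of P onto Y, constant on N-conjugacy classes, with ζ_ψ(z) = δ·Σ ψ'(y) over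 the N-orbit of ψ, for z with p-part y ≠ 1 in P. If moreover G has an involution lying in no proper normal subgroup of G, then exactly two of the three numbers −δ and a_χ (χ ∈ X non-principal) equal −1, and the product of the degrees of the two non-principal members of X and of any member of Y is a perfect square. -/
theorem result {G : Type*} [Group G] [Finite G] (p : ℕ) [Fact p.Prime] (M : Ideal Cfsg.AlgInt) (hM : Cfsg.IsPModular p M) (P : Sylow p G) (hab : IsMulCommutative P) (hP1 : Nat.card P ≠ 1) (hCN : (Subgroup.centralizer ((P : Subgroup G) : Set G)).relIndex (Subgroup.normalizer ((P : Subgroup G) : Set G)) = 3) (hcyc : ∃ g : G, g ∈ Subgroup.normalizer ((P : Subgroup G) : Set G) ∧ Subgroup.centralizer ((P : Subgroup G) : Set G) ⊔ Subgroup.zpowers g = Subgroup.normalizer ((P : Subgroup G) : Set G)) (hm2 : 3 + 1 < Nat.card P) (hfrob : ∀ y : G, y ∈ (P : Subgroup G) → y ≠ 1 → Subgroup.centralizer ({y}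 : Set G) ⊓ Subgroup.normalizer ((P : Subgroup G) : Set G) = Subgroup.centralizer ((P : Subgroup G) : Set G)) : ∃ (X Y : Set (Cfsg.IrrCharacter G)), Cfsg.principalBlock M G = X ∪ Y ∧ Disjoint X Y ∧ Nat.card X = 3 ∧ Nat.card Y = (Nat.card P - 1) / 3 ∧ (∃ χ₁ ∈ X, (χ₁ : G → ℂ) = fun _ => 1) ∧ ∃ (a : Cfsg.IrrCharacter G → ℤ) (δ : ℤ) (ζ : (↥(P : Subgroup G) →* ℂˣ) → Cfsg.IrrCharacter G), (δ = 1 ∨ δ = -1) ∧ (∀ χ ∈ X, (a χ = 1 ∨ a χ = -1) ∧ ∀ z y : G, Cfsg.IsPPart p z y → y ∈ (P : Subgroup G) → y ≠ 1 → (χ : G → ℂ) z = (a χ : ℂ)) ∧ (∀ ψ : ↥(P : Subgroup G) →* ℂˣ, ψ ≠ 1 → ζ ψ ∈ Y) ∧ (∀ η ∈ Y, ∃ ψ : ↥(P : Subgroup G) →* ℂˣ, ψ ≠ 1 ∧ ζ ψ = η) ∧ (∀ ψ ψ' : ↥(P : Subgroup G) →* ℂˣ, ψ ≠ 1 → (∃ n : G, n ∈ Subgroup.normalizer ((P : Subgroup G) : Set G) ∧ ∀ w w' : ↥(P : Subgroup G), (w' : G) = n * w * n⁻¹ → ψ' w' = ψ w) → ζ ψ' = ζ ψ) ∧ (∀ ψ : ↥(P : Subgroup G) →* ℂˣ, ψ ≠ 1 → ∀ (z : G) (y : ↥(P : Subgroup G)), Cfsg.IsPPart p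 z (y : G) → (y : G) ≠ 1 → (ζ ψ : G → ℂ) z = (δ : ℂ) * ∑ᶠ ψ' ∈ {ψ' : ↥(P : Subgroup G) →* ℂˣ | ∃ n : G, n ∈ Subgroup.normalizer ((P : Subgroup G) : Set G) ∧ ∀ w w' : ↥(P : Subgroup G), (w' : G) = n * w * n⁻¹ → ψ' w' = ψ w}, ((ψ' y : ℂˣ) : ℂ)) ∧ ((∃ t : G, orderOf t = 2 ∧ ∀ K : Subgroup G, K.Normal → t ∈ K → K = ⊤) → Nat.card {χ : Cfsg.IrrCharacter G // χ ∈ X ∧ (χ : G → ℂ) ≠ (fun _ => 1) ∧ a χ = -1} + (if δ = 1 then 1 else 0) = 2 ∧ ∀ η ∈ Y, IsSquare (Cfsg.charDegree (η : G → ℂ) * ∏ᶠ χ ∈ {χ : Cfsg.IrrCharacter G | χ ∈ X ∧ (χ : G → ℂ) ≠ fun _ => 1}, Cfsg.charDegree (χ : G → ℂ))) := by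
  classical
  have := Fintype.ofFinite G
  have F : H19.Frob P := ⟨hab, hfrob⟩
  have hm : H19.frobIdx (P : Subgroup G) = 3 := hCN
  obtain ⟨δ, a, ζ, D⟩ := F.exists_desc_three hM hm hm2
  obtain ⟨χ, χ', hne, hX, ha⟩ := D.three hm
  have hY : (H19.fY ζ).card = (Nat.card P - 1) / 3 := hm ▸ D.card_Y_eq
  have h1 : ∀ ξ : Cfsg.IrrCharacter G, (ξ ∈ H19.fX M ζ ∧ (ξ : G → ℂ) ≠ fun _ => 1) ↔ ξ = χ ∨ ξ = χ' := fun ξ => by
    rw [← Finset.mem_singleton (b := ξ) (a := χ'), ← Finset.mem_insert, ← hX, Finset.mem_erase, and_comm]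
    exact and_congr_left' (not_congr ⟨fun e => Subtype.ext e, fun e => e ▸ rfl⟩)
  refine ⟨H19.fX M ζ, H19.fY ζ, ?_, ?_, ?_, by simpa using hY,
    ⟨_, D.one_mem_X, rfl⟩, a, δ, ζ, D.sign, fun χ hχ => ⟨ha χ hχ, fun z y h hy hy1 => D.apply_X hχ h hy hy1⟩,
    fun ψ h => H19.mem_fY.2 ⟨ψ, h, rfl⟩, fun η h => H19.mem_fY.1 h,
    fun ψ ψ' h hr => ((D.eq_iff _ _ h (H19.DRel.ne_one hr h)).2 hr).symm, fun ψ h z y hz hy => ?_,
    fun ⟨t, ht, hK⟩ => ?_⟩
  · ext χ
    simp only [Set.mem_union, Finset.mem_coe, H19.mem_fX]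
    have := D.mem_of_Y (η := χ)
    tauto
  · exact Set.disjoint_left.2 fun χ h h' => (H19.mem_fX.1 h).2 h'
  · have := Finset.card_erase_add_one D.one_mem_X
    rw [hX, Finset.card_pair hne] at this
    simpa using this.symm
  · rw [D.apply_exc h hz hy, H21.finsum_mem_fintype, Int.cast_zero, zero_add]
    congr
  have hχ := (h1 χ).2 (Or.inl rfl)
  have hχ' := (h1 χ').2 (Or.inr rfl)
  have key : ∀ η ∈ H19.fY ζ, ((if a χ = -1 then 1 else 0) + (if a χ' = -1 then 1 else 0) +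
      (if -δ = -1 then 1 else 0) = 2) ∧ IsSquare (Cfsg.charDegree (χ : G → ℂ) * Cfsg.charDegree (χ' : G → ℂ) *
        Cfsg.charDegree (η : G → ℂ) : ℤ) := fun η hη => by
    obtain ⟨u, v, w, e1, e2, e3⟩ := D.invol_rel hm hm2 hne hX ht hη
    have e4 := D.reg_one hη
    rw [← Finset.add_sum_erase _ _ D.one_mem_X, hX, Finset.sum_pair hne, D.a_one, H19.charDegree_irrOne21] at e4
    refine H19.iso_pair (by exact_mod_cast χ.2.charDegree_pos) (by exact_mod_cast χ'.2.charDegree_pos)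
      (by exact_mod_cast η.2.charDegree_pos) (ha χ hχ.1) (ha χ' hχ'.1) (by have := D.sign; omega)
      (by push_cast at e4; linear_combination e4) e2 e3 fun e => hχ.2 ?_
    exact χ.2.charKer_eq_top_iff.1 (hK _ inferInstance (χ.2.isCharacter.mem_charKer.2 (by
      rw [e1, e, ← χ.2.charDegree_eq, Int.cast_natCast])))
  refine ⟨?_, fun η hη => ?_⟩
  · obtain ⟨η, hη⟩ := Finset.card_pos.1 (by have := D.two_le_card_Y; omega : 0 < (H19.fY ζ).card)
    rw [← (key η hη).1, Nat.card_eq_fintype_card, Fintype.card_subtype, ← Finset.sum_pair hne (f := fun ξ => if a ξ = -1 then 1 else 0),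
      Finset.sum_boole]
    simp only [neg_inj, Nat.cast_id]
    congr 2
    ext ξ
    simp only [Finset.mem_filter, Finset.mem_univ, true_and, Finset.mem_insert, Finset.mem_singleton, ← h1,
      Finset.mem_coe, and_assoc]
  · rw [show {ξ : Cfsg.IrrCharacter G | ξ ∈ (H19.fX M ζ : Set _) ∧ (ξ : G → ℂ) ≠ fun _ => 1} = {χ, χ'} from
      Set.ext h1, finprod_mem_pair hne, mul_comm]
    exact_mod_cast Int.isSquare_natCast_iff.1 (by exact_mod_cast (key η hη).2)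

end Cfsg.Agent.S4721
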