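import Mathlib
import Cfsg.Statements.S4722
import Cfsg.Agent.H21.Column
import Cfsg.Agent.H02.PPrimeCore

set_option autoImplicit false
open Cfsg

namespace Cfsg.Agent.S4722
open H05 Cfsg H20 H21 MonoidAlgebra Classical
open scoped ComplexConjugate

theorem two_le_card_pos {ι : Type*} (s : Finset ι) (a d v : ι → ℝ) (hd : ∀ i ∈ s, 0 < d i)
    (h1 : ∑ i ∈ s, a i * d i = 0) (h2 : ∑ i ∈ s, a i * v i = 0)
    (h3 : ∑ i ∈ s, a i * v i ^ 2 / d i = 0) {i₀ : ι} (hi : i₀ ∈ s) (ha : a i₀ ≠ 0)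
    (hv : v i₀ = d i₀) (hne : ∀ i ∈ s, i ≠ i₀ → v i ≠ d i) :
    2 ≤ (s.filter fun i => 0 < a i).card := by
  by_contra hcon
  obtain ⟨j, hj, hjs⟩ : ∃ j ∈ s, ∀ i ∈ s, 0 < a i → i = j := by
    by_cases h : ∃ j ∈ s, 0 < a j
    · obtain ⟨j, hj, hj'⟩ := h
      exact ⟨j, hj, fun i hi hi' => Finset.card_le_one.1
        (by omega : (s.filter fun i => 0 < a i).card ≤ 1) i (Finset.mem_filter.2 ⟨hi, hi'⟩) j
        (Finset.mem_filter.2 ⟨hj, hj'⟩)⟩
    · exact ⟨i₀, hi, fun i hi hi' => absurd ⟨i, hi, hi'⟩ h⟩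
  set c := v j / d j with hc
  have hs : ∑ i ∈ s, a i * ((v i - c * d i) ^ 2 / d i) = 0 := by
    have : ∀ i ∈ s, a i * ((v i - c * d i) ^ 2 / d i) =
        a i * v i ^ 2 / d i - 2 * c * (a i * v i) + c ^ 2 * (a i * d i) := fun i hi => by
      have := (hd i hi).ne'
      field_simp; ring
    rw [Finset.sum_congr rfl this, Finset.sum_add_distrib, Finset.sum_sub_distrib,
      ← Finset.mul_sum, ← Finset.mul_sum, h1, h2, h3]; ring
  have hz := (Finset.sum_eq_zero_iff_of_nonpos (fun i hi => by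
    by_cases hai : 0 < a i
    · rw [hjs i hi hai, hc, div_mul_cancel₀ _ (hd j hj).ne']; simp
    · exact mul_nonpos_of_nonpos_of_nonneg (not_lt.1 hai)
        (div_nonneg (sq_nonneg _) (hd i hi).le))).1 hs
  have hc1 : c = 1 := by
    have := hz i₀ hi
    rw [mul_eq_zero, div_eq_zero_iff, sq_eq_zero_iff, hv] at this
    have h4 := (hd i₀ hi).ne'
    rcases this with h | h | h
    · exact absurd h ha
    · exact mul_right_cancel₀ h4 (by linarith)
    · exact absurd h h4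
  rw [Finset.sum_eq_single i₀ (fun i hi' hne' => ?_) (fun h => absurd hi h)] at h1
  · exact mul_ne_zero ha (hd i₀ hi).ne' h1
  · have := hz i hi'
    rw [mul_eq_zero, div_eq_zero_iff, sq_eq_zero_iff, hc1, one_mul, sub_eq_zero] at this
    rcases this with h | h | h
    · rw [h, zero_mul]
    · exact absurd h (hne i hi' hne')
    · exact absurd h (hd i hi').ne'


/-- Let M be a maximal ideal of the algebraic integers containing 2, P a 2-subgroup of the finite group G, U a subset of P, and t an involution of G such that no element of U is inverted by any conjugate of t. Let θ be a generalized character of P vanishing outside U, and for χ in the principal 2-block B₀ put a_χ = #P⁻¹ Σ_{y ∈ P} χ(y) θ(y⁻¹). Then Σ_{χ ∈ B₀} a_χ χ(t)^2/χ(1) = 0, Σ_{χ ∈ B₀} a_χ χ(1) = 0 and Σ_{χ ∈ B₀} a_χ χ(t) = 0. If moreover #P⁻¹ Σ_{y ∈ P} θ(y) ≠ 0, then either at least two of the a_χ have positive real part and at least two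 have negative real part, or G has a proper normal subgroup containing O_2'(G) and t. -/
theorem result {G : Type*} [Group G] [Finite G] (M : Ideal Cfsg.AlgInt) (hM : Cfsg.IsPModular 2 M) (P : Subgroup G) (hP : IsPGroup 2 P) (U : Set G) (hUP : U ⊆ (P : Set G)) (t : G) (ht : orderOf t = 2) (hinv : ∀ u ∈ U, ∀ g : G, (g * t * g⁻¹) * u * (g * t * g⁻¹)⁻¹ ≠ u⁻¹) (θ : ↥P → ℂ) (hθ : Cfsg.IsGeneralizedCharacter ↥P θ) (hθU : ∀ y : ↥P, (y : G) ∉ U → θ y = 0) : (∑ᶠ χ ∈ Cfsg.principalBlock M G, ((Nat.card ↥P : ℂ)⁻¹ * ∑ᶠ y : ↥P, (χ : G → ℂ) (y : G) * θ y⁻¹) * (χ : G → ℂ) t ^ 2 / (χ : G → ℂ) 1 = 0) ∧ (∑ᶠ χ ∈ Cfsg.principalBlock M G, ((Nat.card ↥P : ℂ)⁻¹ * ∑ᶠ y : ↥P, (χ : G → ℂ) (y : G) * θ y⁻¹) * (χ : G → ℂ) 1 = 0) ∧ (∑ᶠ χ ∈ Cfsg.principalBlock M G, ((Nat.card ↥P : ℂ)⁻¹ * ∑ᶠ y : ↥P, (χ : G → ℂ) (y : G) * θ y⁻¹) * (χ : G → ℂ) t = 0) ∧ ((Nat.card ↥P : ℂ)⁻¹ * ∑ᶠ y : ↥P, θ y ≠ 0 → (2 ≤ Nat.card {χ : Cfsg.IrrCharacter G //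 χ ∈ Cfsg.principalBlock M G ∧ 0 < (((Nat.card ↥P : ℂ)⁻¹ * ∑ᶠ y : ↥P, (χ : G → ℂ) (y : G) * θ y⁻¹)).re} ∧ 2 ≤ Nat.card {χ : Cfsg.IrrCharacter G // χ ∈ Cfsg.principalBlock M G ∧ (((Nat.card ↥P : ℂ)⁻¹ * ∑ᶠ y : ↥P, (χ : G → ℂ) (y : G) * θ y⁻¹)).re < 0}) ∨ ∃ K : Subgroup G, K.Normal ∧ K ≠ ⊤ ∧ Cfsg.pPrimeCore 2 G ≤ K ∧ t ∈ K) := by
  haveI := Fintype.ofFinite G
  haveI := hM.2.1
  simp only [finsum_eq_sum_of_fintype (α := P)]
  rw [H21.finsum_mem_irr, H21.finsum_mem_irr, H21.finsum_mem_irr]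
  set a : IrrCharacter G → ℂ := fun χ => (Nat.card P : ℂ)⁻¹ * ∑ y : P, (χ : G → ℂ) y * θ y⁻¹ with ha
  let Θ : G → ℂ := ∑ χ with χ ∈ principalBlock M G, a χ • (χ : G → ℂ)
  have hΘ : ∀ g, Θ g = ∑ χ with χ ∈ principalBlock M G, a χ * (χ : G → ℂ) g := fun g => by
    simp [Θ, Finset.sum_apply]
  have hvan : ∀ g, (∃ s, IsConj t s ∧ s * g * s⁻¹ = g⁻¹) → Θ g = 0 := by
    rintro g ⟨s, hs, hsg⟩
    have : Θ g = (Nat.card P : ℂ)⁻¹ * ∑ y : P, θ y⁻¹ *
        ∑ χ with χ ∈ principalBlock M G, (χ : G → ℂ) y * conj ((χ : G → ℂ) g⁻¹) := by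
      rw [hΘ]
      simp only [ha, Finset.mul_sum, Finset.sum_mul]
      rw [Finset.sum_comm]
      refine Finset.sum_congr rfl fun y _ => Finset.sum_congr rfl fun χ _ => ?_
      rw [← χ.2.apply_inv, inv_inv]; ring
    rw [this, Finset.sum_eq_zero, mul_zero]
    intro y _
    by_cases hy : ((y⁻¹ : P) : G) ∈ U
    swap
    · rw [hθU _ hy, zero_mul]
    rw [sum_principal_of_ne hM, mul_zero]
    intro hc
    rw [pPart_of_pow (orderOf_pow_of_mem hP y.2), pPart_inv] at hc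
    obtain ⟨c, hc⟩ := isConj_iff.1 hc
    obtain ⟨b, rfl⟩ := isConj_iff.1 hs
    have h1 := congrArg (pPart 2) hsg
    rw [pPart_conj, pPart_inv] at h1
    have h2 : pPart 2 g = c * (y : G)⁻¹ * c⁻¹ := by rw [← inv_inv (pPart 2 g), ← hc]; group
    rw [h2] at h1
    refine hinv _ hy (c⁻¹ * b) ?_
    rw [Subgroup.coe_inv]
    calc c⁻¹ * b * t * (c⁻¹ * b)⁻¹ * (y : G)⁻¹ * (c⁻¹ * b * t * (c⁻¹ * b)⁻¹)⁻¹
        = c⁻¹ * (b * t * b⁻¹ * (c * (y : G)⁻¹ * c⁻¹) * (b * t * b⁻¹)⁻¹) * c := by group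
      _ = _ := by rw [h1]; group
  have ht2 := H08.mul_self_of_orderOf ht
  have e2 : ∑ χ with χ ∈ principalBlock M G, a χ * (χ : G → ℂ) 1 = 0 := by
    rw [← hΘ]; exact hvan 1 ⟨t, IsConj.refl t, by simp⟩
  have e3 : ∑ χ with χ ∈ principalBlock M G, a χ * (χ : G → ℂ) t = 0 := by
    rw [← hΘ]; exact hvan t ⟨t, IsConj.refl t, by rw [ht2, one_mul]⟩
  have e1 : ∑ χ with χ ∈ principalBlock M G, a χ * (χ : G → ℂ) t ^ 2 / (χ : G → ℂ) 1 = 0 := by
    have h1 : H08.pairSum t t Θ = 0 := by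
      refine Finset.sum_eq_zero fun b _ => Finset.sum_eq_zero fun c _ => hvan _ ⟨_,
        H08.isConj_conj c t, H08.conj_mul_left ?_ ?_⟩ <;>
      rw [conj_mul, ht2] <;> simp
    have h2 : H08.pairSum t t Θ = ∑ χ with χ ∈ principalBlock M G,
        a χ * H08.pairSum t t (χ : G → ℂ) := by
      simp only [H08.pairSum, hΘ, Finset.mul_sum]
      conv_rhs => rw [Finset.sum_comm]
      refine Finset.sum_congr rfl fun b _ => ?_
      rw [Finset.sum_comm]
    rw [h2] at h1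
    simp only [fun χ : IrrCharacter G => H08.pairSum_irr χ.2 t t] at h1
    have h3 : (Nat.card G : ℂ) ^ 2 ≠ 0 := pow_ne_zero _ card_ne_zero_complex
    refine mul_left_cancel₀ h3 ?_
    rw [mul_zero, ← h1, Finset.mul_sum]
    exact Finset.sum_congr rfl fun χ _ => by ring
  refine ⟨e1, e2, e3, fun h0 => ?_⟩
  rw [or_iff_not_imp_right]
  intro hK
  have hint : ∀ χ : IrrCharacter G, ∃ n : ℤ, a χ = n := fun χ => by
    obtain ⟨n, hn⟩ := (χ.2.isGeneralizedCharacter.restrict P).exists_classInner_eq_int hθ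
    refine ⟨n, ?_⟩
    rw [← hn, classInner_def]
    simp only [ha, hθ.apply_inv]
  choose n hn using hint
  have hv : ∀ χ : IrrCharacter G, ∃ m : ℤ, (χ : G → ℂ) t = m := fun χ =>
    χ.2.isGeneralizedCharacter.exists_int_of_sq_eq_one (by rw [sq, ht2])
  choose m hm using hv
  have hd : ∀ χ : IrrCharacter G, (χ : G → ℂ) 1 = charDegree (χ : G → ℂ) := fun χ =>
    χ.2.charDegree_eq.symm
  simp only [hn, hm, hd] at e1 e2 e3
  have f1 : ∑ χ with χ ∈ principalBlock M G, (n χ : ℝ) * (m χ : ℝ) ^ 2 /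
      (charDegree (χ : G → ℂ) : ℝ) = 0 := by exact_mod_cast e1
  have f2 : ∑ χ with χ ∈ principalBlock M G, (n χ : ℝ) * (charDegree (χ : G → ℂ) : ℝ) = 0 := by
    exact_mod_cast e2
  have f3 : ∑ χ with χ ∈ principalBlock M G, (n χ : ℝ) * (m χ : ℝ) = 0 := by exact_mod_cast e3
  have hn1 : (n (irrOne G) : ℝ) ≠ 0 := by
    intro h
    apply h0
    have h' : n (irrOne G) = 0 := by exact_mod_cast h
    have := hn (irrOne G)
    rw [h'] at this
    simp only [ha, irrOne_apply, one_mul, Int.cast_zero] at this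
    rw [← this, ← Equiv.sum_comp (Equiv.inv P)]
    rfl
  have hv1 : (m (irrOne G) : ℝ) = charDegree (irrOne G : G → ℂ) := by
    have := (hm (irrOne G)).symm.trans (hd (irrOne G))
    exact_mod_cast this
  have hne : ∀ χ ∈ Finset.univ.filter fun χ => χ ∈ principalBlock M G, χ ≠ irrOne G →
      (m χ : ℝ) ≠ charDegree (χ : G → ℂ) := fun χ hχ hne h => by
    have hχ := (Finset.mem_filter.1 hχ).2
    refine hK ⟨charKer (χ : G → ℂ), inferInstance, fun htop => hne ?_, fun x hx =>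
      χ.2.isCharacter.mem_charKer.2 (principal_apply_of_mem_core hM hχ hx),
      χ.2.isCharacter.mem_charKer.2 ?_⟩
    · have h1 : ∀ g, (χ : G → ℂ) g = (χ : G → ℂ) 1 := fun g =>
        χ.2.isCharacter.mem_charKer.1 (htop ▸ Subgroup.mem_top g)
      by_contra hne'
      have h2 := χ.2.classInner_of_ne (irrOne G).2 (fun h => hne' (Subtype.ext h))
      rw [classInner_def] at h2
      simp only [h1, irrOne_apply, map_one, mul_one, Finset.sum_const, Finset.card_univ,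
        nsmul_eq_mul, ← Nat.card_eq_fintype_card] at h2
      rw [inv_mul_cancel_left₀ card_ne_zero_complex] at h2
      exact χ.2.apply_one_ne_zero h2
    · rw [hm, hd]; exact_mod_cast h
  have hpos : ∀ χ ∈ Finset.univ.filter fun χ => χ ∈ principalBlock M G,
      (0 : ℝ) < charDegree (χ : G → ℂ) := fun χ _ => by exact_mod_cast χ.2.charDegree_pos
  have hmem : irrOne G ∈ Finset.univ.filter fun χ => χ ∈ principalBlock M G := by
    simpa using one_mem_principal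
  constructor
  · have := two_le_card_pos _ (fun χ => (n χ : ℝ)) _ _ hpos f2 f3 f1 hmem hn1 hv1 hne
    rw [Finset.filter_filter] at this
    rw [Nat.card_eq_fintype_card, Fintype.card_subtype]
    convert this using 3 with χ
    rw [show (Nat.card P : ℂ)⁻¹ * ∑ y : P, (χ : G → ℂ) y * θ y⁻¹ = n χ from hn χ]; simp
  · have := two_le_card_pos _ (fun χ => -(n χ : ℝ)) _ (fun χ => (m χ : ℝ)) hpos
      (by simpa using f2) (by simpa using f3) (by simpa [neg_div] using f1) hmem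
      (neg_ne_zero.2 hn1) hv1 hne
    rw [Finset.filter_filter] at this
    rw [Nat.card_eq_fintype_card, Fintype.card_subtype]
    convert this using 3 with χ
    rw [show (Nat.card P : ℂ)⁻¹ * ∑ y : P, (χ : G → ℂ) y * θ y⁻¹ = n χ from hn χ]; simp

end Cfsg.Agent.S4722
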