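import Mathlib
import Cfsg.Agent.H20.Quot2
-- Template for statement S4723 (row 4723; see /opt/grader/pristine/manifest.json for weights).
-- Copy to Cfsg/Agent/S4723.lean and replace the sorry. The statement below is byte-identical to the frozen
-- statement Cfsg.CfsgFrozen.S4723 (Cfsg/Statements/S4723.lean; the theorem Cfsg.blk7_normal_subgroup_block_height_zero_character_sylow_stable);
-- the grader kernel-checks Cfsg.Agent.S4723.result against that frozen type. Keep the theorem IN THIS FILE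
-- (a `result` declared elsewhere and merely imported here is not credited); helpers may live anywhere
-- under Cfsg/Agent/.
import Cfsg.Statements.S4723
-- import your own Cfsg.Agent.* helpers here

set_option autoImplicit false
open Cfsg

open H20 H05 H21 MonoidAlgebra Cfsg

namespace Cfsg.Agent.S4723

theorem aux {G : Type*} [Group G] [Finite G] {p : ℕ} {M : Ideal AlgInt} [M.IsMaximal]
    (hM : IsPModular p M) {N : Subgroup G} [N.Normal] {k : ℕ} (hk : N.index = p ^ k)
    {b : Set (IrrCharacter N)} (hb : IsPBlock M b) (hinv : IsCen (iB M N b)) :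
    ∃ θ ∈ b, blockHeight p b (θ : N → ℂ) = 0 ∧ H06.inertia N (θ : N → ℂ) = ⊤ := by
  classical
  have := Fintype.ofFinite G
  have := Fintype.ofFinite N
  have : Fact p.Prime := ⟨hM.1⟩
  have hN : (⊤ : Subgroup G) ≤ Subgroup.normalizer (N : Set G) := by rw [Subgroup.normalizer_eq_top]
  have h1 := hb.isBI.isBI_of_index hM le_top hN (by rw [Subgroup.relIndex_top_right, hk]) (hinv.cInv _)
  obtain ⟨B, hB, h2⟩ := isBI_top_iff.1 h1
  obtain ⟨D, hD⟩ := hB.exists_isDefectGroup p
  obtain ⟨h3, h4⟩ := hb.isBI.sup_eq_of_index hM h1 le_top hN (by rw [Subgroup.relIndex_top_right, hk])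
    (h2 ▸ (maxBr_top_iff hM hB).2 hD)
  have h5 := ((maxBr_iB_iff hM hb inf_le_right).1 h4).factorization_card hM hb
  rw [Nat.card_congr (Subgroup.subgroupOfEquivOfLe inf_le_right).toEquiv] at h5
  have h6 := hD.factorization_card hM hB
  have hcov : Covers N B b := (covers_iff_iB hB hb).2 (by rw [← h2, hB.eB_mul_self]; exact hB.eB_ne_zero)
  obtain ⟨χ, hχ, h0⟩ := hB.exists_height_zero p
  obtain ⟨θ, hθ, ho⟩ := hcov.exists_over hB hb.isInt_idem hχ
  have h7 := (blockHeight_eq_zero_iff p hχ).1 h0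
  have h8 := factorization_degree_add p hθ
  have h9 := (Nat.factorization_le_iff_dvd (mul_ne_zero Subgroup.index_ne_zero_of_finite
    (charDegree_ne_zero' _)) (charDegree_ne_zero' χ)).2 (H07.index_inertia_dvd N χ.2 θ.2 (over_iff.1 ho)) p
  rw [Nat.factorization_mul Subgroup.index_ne_zero_of_finite (charDegree_ne_zero' _),
    Finsupp.add_apply] at h9
  have h10 : Nat.card G * Nat.card (D ⊓ N : Subgroup G) = Nat.card N * Nat.card D := by
    have e1 := Subgroup.card_mul_index N
    have e2 := Subgroup.card_mul_index (N.subgroupOf D)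
    have e3 : (N.subgroupOf D).index = N.index := by
      rw [← Subgroup.relIndex, ← Subgroup.relIndex_sup_left, h3, Subgroup.relIndex_top_right]
    rw [e3, ← Subgroup.inf_subgroupOf_left,
      Nat.card_congr (Subgroup.subgroupOfEquivOfLe inf_le_left).toEquiv] at e2
    rw [← e1, ← e2]; ring
  have h11 := congrArg (fun n => n.factorization p) h10
  simp only [Nat.factorization_mul Nat.card_pos.ne' Nat.card_pos.ne', Finsupp.add_apply] at h11
  refine ⟨θ, hθ, by omega, ?_⟩
  obtain ⟨j, -, hj⟩ := (Nat.dvd_prime_pow hM.1).1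
    (hk ▸ Subgroup.index_dvd_of_le (H06.le_inertia N θ.2.isClassFunction))
  rw [hj, hM.1.factorization_pow, Finsupp.single_eq_same] at h9
  rw [← Subgroup.index_eq_one, hj, show j = 0 by omega, pow_zero]

/-- Let p be a prime, M a maximal ideal of the algebraic integers containing p, H a normal subgroup of the finite group G and b a p-block of H. Let T be the stabilizer of b in G. Then b contains a character θ of height zero whose own stabilizer in G (the elements g with θ(g h g⁻¹) = θ(h) for all h ∈ H) has index prime to p in T, i.e. contains a Sylow p-subgroup of T. -/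
theorem result {G : Type*} [Group G] [Finite G] (p : ℕ) [Fact p.Prime] (M : Ideal Cfsg.AlgInt) (hM : Cfsg.IsPModular p M) (H : Subgroup G) [H.Normal] (b : Set (Cfsg.IrrCharacter ↥H)) (hb : Cfsg.IsPBlock M b) (T : Subgroup G) (hT : (∀ g : G, g ∈ T ↔ ∀ θ ∈ b, ∀ θ' : Cfsg.IrrCharacter ↥H, (∀ h h' : ↥H, (h' : G) = g * h * g⁻¹ → (θ' : ↥H → ℂ) h' = (θ : ↥H → ℂ) h) → θ' ∈ b)) : ∃ θ ∈ b, Cfsg.blockHeight p b (θ : ↥H → ℂ) = 0 ∧ ∃ S : Subgroup G, S ≤ T ∧ (∀ g : G, g ∈ S ↔ (g ∈ T ∧ ∀ h h' : ↥H, (h' : G) = g * h * g⁻¹ → (θ : ↥H → ℂ) h' = (θ : ↥H → ℂ) h)) ∧ ¬ p ∣ S.relIndex T := by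
  have := hM.2.1
  have hTb : T = bstab H b := by
    ext g
    rw [hT, ← inv_mem_iff (x := g)]
    obtain ⟨θ₀, hθ₀⟩ := hb.nonempty
    constructor
    · intro h
      refine hb.mem_bstab_of_mem (h θ₀ hθ₀ (irrComap (MulAut.conjNormal g⁻¹) θ₀) fun x y e => ?_)
        (irrComap_mem_bmap.2 hθ₀)
      rw [irrComap_apply]; exact congrArg _ (Subtype.ext (by simp [e, mul_assoc]))
    · intro h θ hθ θ' e
      rw [← (mem_bstab.1 h :)]
      exact mem_cjB.2 ⟨θ, hθ, fun n => e _ _ (by simp [mul_assoc])⟩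
  subst hTb
  obtain ⟨S, hS⟩ := exists_sylIn p (bstab H b)
  have hHL : H ≤ H ⊔ S := le_sup_left
  obtain ⟨k, hk⟩ := exists_relIndex_sup_eq_pow (K := H) hS.isPGroup
  have hL : H ⊔ S ≤ bstab H b := sup_le (le_bstab b) hS.le
  have hSL : S ≤ H ⊔ S := le_sup_right
  generalize H ⊔ S = L at *
  let e := Subgroup.subgroupOfEquivOfLe hHL
  obtain ⟨θ, hθ, h1, h2⟩ := aux hM hk (hb.bmap e) (by
    have h1 := ((cInv_bstab (M := M) b).mono hL).isCen_res
    rwa [show inc H (eB M b) = iB M H b from rfl, ← inc_iB_subgroupOf hHL, res_inc] at h1)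
  obtain ⟨θ, rfl⟩ := (irrComap e).surjective θ
  rw [blockHeight_bmap] at h1
  refine ⟨θ, irrComap_mem_bmap.1 hθ, h1, bstab H b ⊓ H06.inertia H θ, inf_le_left, fun g => ?_, ?_⟩
  · rw [Subgroup.mem_inf, H06.mem_inertia']
    refine and_congr Iff.rfl ⟨fun h x y e => ?_, fun h x => h _ _ rfl⟩
    rw [← h x]; exact congrArg _ (Subtype.ext e)
  · refine fun hc => hS.not_dvd_relIndex (hc.trans (Subgroup.relIndex_dvd_of_le_left _
      (le_inf hS.le fun g hg => (H06.mem_inertia' H).2 fun n => ?_)))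
    exact (H06.mem_inertia' _).1 (h2 ▸ Subgroup.mem_top (⟨g, hSL hg⟩ : L)) ⟨⟨n, hHL n.2⟩, n.2⟩

end Cfsg.Agent.S4723
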