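import Mathlib
import Cfsg.Agent.H20.FongR
import Cfsg.Agent.H21.Height
-- Template for statement S4725 (row 4725; see /opt/grader/pristine/manifest.json for weights).
-- Copy to Cfsg/Agent/S4725.lean and replace the sorry. The statement below is byte-identical to the frozen
-- statement Cfsg.CfsgFrozen.S4725 (Cfsg/Statements/S4725.lean; the theorem Cfsg.blk7_induced_block_same_defect_height_zero_induction_multiplicity);
-- the grader kernel-checks Cfsg.Agent.S4725.result against that frozen type. Keep the theorem IN THIS FILE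
-- (a `result` declared elsewhere and merely imported here is not credited); helpers may live anywhere
-- under Cfsg/Agent/.
import Cfsg.Statements.S4725
-- import your own Cfsg.Agent.* helpers here

set_option autoImplicit false
open Cfsg

open H20 H05 H21 MonoidAlgebra Cfsg Classical

namespace Cfsg.Agent.S4725

/-- Let p be a prime, M a maximal ideal of the algebraic integers containing p, H a subgroup of the finite group G, and b a p-block of H inducing the p-block B of G, with b and B of the same defect. Then for every height-zero ζ ∈ b there is a height-zero χ ∈ B whose multiplicity in the character induced from ζ is not divisible by p. -/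
theorem result {G : Type*} [Group G] [Fintype G] (p : ℕ) [Fact p.Prime] (M : Ideal Cfsg.AlgInt) (hM : Cfsg.IsPModular p M) (H : Subgroup G) (b : Set (Cfsg.IrrCharacter ↥H)) (B : Set (Cfsg.IrrCharacter G)) (hind : Cfsg.IsInducedBlock M H b B) (hdef : Cfsg.blockDefect p b = Cfsg.blockDefect p B) (ζ : Cfsg.IrrCharacter ↥H) (hζ : ζ ∈ b) (hζ0 : Cfsg.blockHeight p b (ζ : ↥H → ℂ) = 0) : ∃ χ ∈ B, Cfsg.blockHeight p B (χ : G → ℂ) = 0 ∧ ∃ a : ℕ, Cfsg.classInner (Cfsg.indFun H (ζ : ↥H → ℂ)) (χ : G → ℂ) = (a : ℂ) ∧ ¬ p ∣ a := by
  have := hM.2.1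
  have hp := hM.1
  have hc := H06.isCharacter_indFun H ζ.2.isCharacter
  have h1 : ¬ MemLocalIdeal M (omega (indFun H (ζ : H → ℂ)) (idem B)) := by
    obtain ⟨χ, hχ⟩ := H20.Cfsg.IsPBlock.nonempty hind.2.1
    have := H20.Cfsg.IsInducedBlock.ideal_omega_sub hind hζ hχ (isCen_idem B) (int_block hind.2.1)
    rw [omega_idem_of_mem hχ, ← omega_indFun H _ (isCen_idem B)] at this
    exact not_ideal_of_sub this not_ideal_one
  have h0 : charDegree (indFun H (ζ : H → ℂ)) ≠ 0 := fun h => by
    have := hc.charDegree_eq
    rw [h, H06.indFun_one, eq_comm, Nat.cast_zero, mul_eq_zero] at this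
    exact this.elim (by simpa using H.index_ne_zero_of_finite) ζ.2.apply_one_ne_zero
  have h2 := factorization_degree_indFun hp ζ
  have h3 := (blockHeight_eq_zero_iff p hζ).1 hζ0
  by_contra! h
  apply h1
  rw [omega, ev_idem, H21.finsum_mem_irr, Finset.sum_div]
  refine ideal_sum fun χ hχ => ?_
  have hχ : χ ∈ B := (Finset.mem_filter.1 hχ).2
  obtain ⟨a, ha⟩ := hc.exists_classInner_eq_nat χ.2.isCharacter
  have h4 := factorization_degree_add p hχ
  rw [ha, mul_div_right_comm, ← hc.charDegree_eq, ← χ.2.charDegree_eq]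
  by_cases h5 : blockHeight p B (χ : G → ℂ) = 0
  · exact ideal_mul_left ((ring_div_natCast_iff hM χ.2.charDegree_pos.ne' h0).2 (by omega))
      ((ideal_natCast_iff hM).2 (h χ hχ h5 a ha))
  · exact ideal_mul_right ((ideal_div_natCast_iff hM χ.2.charDegree_pos.ne' h0).2 (by omega)) (ring_natCast _)

end Cfsg.Agent.S4725
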