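import Mathlib
import Cfsg.Agent.H21.Ker
-- Template for statement S4726 (row 4726; see /opt/grader/pristine/manifest.json for weights).
-- Copy to Cfsg/Agent/S4726.lean and replace the sorry. The statement below is byte-identical to the frozen
-- statement Cfsg.CfsgFrozen.S4726 (Cfsg/Statements/S4726.lean; the theorem Cfsg.blk7_induced_block_defect_groups_nested_when_centralizer_inside);
-- the grader kernel-checks Cfsg.Agent.S4726.result against that frozen type. Keep the theorem IN THIS FILE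
-- (a `result` declared elsewhere and merely imported here is not credited); helpers may live anywhere
-- under Cfsg/Agent/.
import Cfsg.Statements.S4726
-- import your own Cfsg.Agent.* helpers here

set_option autoImplicit false
open Cfsg

open H20 H05 H21 MonoidAlgebra Cfsg

namespace Cfsg.Agent.S4726

/-- Let p be a prime, M a maximal ideal of the algebraic integers containing p, H a subgroup of the finite group G and b a p-block of H with defect group D₀ such that C_G(D₀) ≤ H. Then b induces a block of G, and for every block B of G induced by b there is a defect group D of B with Z(D) ≤ Z(D₀) ≤ D₀ ≤ D (as subgroups of G). In particular, if the defect groups of B are abelian then D₀ is a defect group of B. -/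
theorem result {G : Type*} [Group G] [Finite G] (p : ℕ) [Fact p.Prime] (M : Ideal Cfsg.AlgInt) (hM : Cfsg.IsPModular p M) (H : Subgroup G) (b : Set (Cfsg.IrrCharacter ↥H)) (hb : Cfsg.IsPBlock M b) (D₀ : Subgroup ↥H) (hD₀ : Cfsg.IsDefectGroup p M b D₀) (hC : Subgroup.centralizer ((D₀.map H.subtype : Subgroup G) : Set G) ≤ H) : Cfsg.InducedBlockDefined M H b ∧ ∀ B : Set (Cfsg.IrrCharacter G), Cfsg.IsInducedBlock M H b B → (∃ D : Subgroup G, Cfsg.IsDefectGroup p M B D ∧ (Subgroup.center ↥D).map D.subtype ≤ ((Subgroup.center ↥D₀).map D₀.subtype).map H.subtype ∧ ((Subgroup.center ↥D₀).map D₀.subtype).map H.subtype ≤ D₀.map H.subtype ∧ D₀.map H.subtype ≤ D) ∧ (∀ D : Subgroup G, Cfsg.IsDefectGroup p M B D → IsMulCommutative ↥D → Cfsg.IsDefectGroup p M B (D₀.map H.subtype)) := by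
  have := hM.2.1
  have hDH : D₀.map H.subtype ≤ H := Subgroup.map_subtype_le _
  obtain ⟨g, hg⟩ := exists_ep_of_defect hM hb hD₀ hC
  have hmax := H20.Cfsg.IsDefectGroup.maxBr_map hM hb hD₀
  have hBI : IsBI M H (iB M H b) := ⟨b, hb, rfl⟩
  have e0 : ((Subgroup.center D₀).map D₀.subtype).map H.subtype =
      D₀.map H.subtype ⊓ Subgroup.centralizer (D₀.map H.subtype : Set G) := by
    ext x
    constructor
    · rintro ⟨_, ⟨y, hy, rfl⟩, rfl⟩
      refine ⟨⟨y, y.2, rfl⟩, ?_⟩
      rintro _ ⟨z, hz, rfl⟩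
      exact congrArg (fun t : D₀ => ((t : H) : G)) (Subgroup.mem_center_iff.1 hy ⟨z, hz⟩)
    · rintro ⟨⟨y, hy, rfl⟩, h⟩
      exact ⟨y, ⟨⟨y, hy⟩, Subgroup.mem_center_iff.2 fun z =>
        Subtype.ext (Subtype.ext (h _ ⟨z, z.2, rfl⟩)), rfl⟩, rfl⟩
  rw [e0]
  generalize D₀.map H.subtype = D at *
  have hn : D ⊔ Subgroup.centralizer (D : Set G) ≤ Subgroup.normalizer (D : Set G) :=
    sup_le Subgroup.le_normalizer (Subgroup.centralizer_le_normalizer _)
  constructor
  · obtain ⟨F, hF, hF1, -⟩ := BP.exists_iI_eq hM hg.bp (H := D ⊔ Subgroup.centralizer (D : Set G))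
      le_sup_left le_sup_right (sup_le (le_pstab ⟨D, g⟩) (centralizer_le_pstab ⟨D, g⟩))
    obtain ⟨B, hB⟩ := exists_isInducedBlock hM hmax.pg le_sup_left le_sup_right hn hF
    exact ⟨B, H20.Cfsg.IsInducedBlockIn.of_trans ((isInducedBlockIn_iff_iB hM hmax.pg (sup_le hDH hC)
      le_sup_left (inf_le_left.trans le_sup_right) hn hF hb).2 (by rw [hF1]; exact hg.mul)) (sup_le hDH hC) hB⟩
  · intro B hB
    obtain ⟨c, hc, hle⟩ := POf.exists_pMax hM (H21.EP.pOf_of_induced hM hB hg)
    have hcD := PMax.isDefectGroup hM hc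
    have h1 : D ≤ c.1 := hle.le
    have h2 : (Subgroup.center c.1).map c.1.subtype ≤ Subgroup.centralizer (D : Set G) := by
      rintro _ ⟨y, hy, rfl⟩ z hz
      exact congrArg Subtype.val (Subgroup.mem_center_iff.1 hy ⟨z, h1 hz⟩)
    have h3 : (Subgroup.center c.1).map c.1.subtype ≤ D := by
      obtain ⟨f, hf, -⟩ := PLE.exists_pn_of_le hM hc.bp hle (R := D ⊔ (Subgroup.center c.1).map c.1.subtype)
        le_sup_left (sup_le h1 (Subgroup.map_subtype_le _)) ((sup_le_sup_left h2 _).trans hn)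
      have h4 := hg.of_ple hM hBI hf.ple (sup_le hDH (h2.trans hC))
      exact le_sup_right.trans (hmax.max _ h4.bp.1 le_sup_left h4.le h4.ne).le
    refine ⟨⟨c.1, hcD, le_inf h3 h2, inf_le_left, h1⟩, fun E hE hab => ?_⟩
    obtain ⟨x, hx⟩ := H20.Cfsg.IsDefectGroup.exists_conj hM hB.2.1 hE hcD
    have h5 : c.1 ≤ D := fun y hy => h3 ⟨⟨y, hy⟩, Subgroup.mem_center_iff.2 fun z => Subtype.ext (by
      have h6 := congrArg Subtype.val (hab.is_comm.comm ⟨_, mem_cj.1 (hx.le z.2)⟩ ⟨_, mem_cj.1 (hx.le hy)⟩)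
      simp only [Subgroup.coe_mul, ← mul_assoc, mul_inv_cancel_right, mul_left_inj] at h6
      simpa [mul_assoc] using h6), rfl⟩
    rwa [le_antisymm h1 h5]

end Cfsg.Agent.S4726
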