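import Mathlib
import Cfsg.Statements.S4727
import Cfsg.Agent.H21.Ker

set_option autoImplicit false
open Cfsg

namespace Cfsg.Agent.S4727
open H05 Cfsg H20 H21 MonoidAlgebra Classical
open scoped ComplexConjugate

/-- Let p be a prime, π a set of primes containing p, M a maximal ideal of the algebraic integers containing p, and B a p-block of the finite group G with defect group D; let B₁ be the block of N_G(D) with defect group D that induces B (the Brauer correspondent of B). Suppose every element of O_π'(N_G(D)), the largest normal subgroup of N_G(D) whose order has no prime divisor in π, lies in the kernel of every member of B₁. If y is a p-element whose centralizer C has a normal Hall π'-subgroup (every element of C whose order has no prime divisor in π lies in O_π'(C)), then χ(y x) = χ(y) for every χ ∈ B and every x ∈ C whose order has no prime divisor in π. -/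
theorem result {G : Type*} [Group G] [Finite G] (p : ℕ) [Fact p.Prime] (M : Ideal Cfsg.AlgInt) (hM : Cfsg.IsPModular p M) (π : Set ℕ) (hpπ : p ∈ π) (B : Set (Cfsg.IrrCharacter G)) (hB : Cfsg.IsPBlock M B) (D : Subgroup G) (hBD : Cfsg.IsDefectGroup p M B D) (B₁ : Set (Cfsg.IrrCharacter ↥(Subgroup.normalizer (D : Set G)))) (hB₁ : Cfsg.IsInducedBlock M (Subgroup.normalizer (D : Set G)) B₁ B) (hB₁D : Cfsg.IsDefectGroup p M B₁ (D.subgroupOf (Subgroup.normalizer (D : Set G)))) (hker : ∀ n : ↥(Subgroup.normalizer (D : Set G)), n ∈ Cfsg.piCore {q | q ∉ π} ↥(Subgroup.normalizer (D : Set G)) → n ∈ Cfsg.blockKer B₁) (y : G) (hy : ∃ k : ℕ, orderOf y = p ^ k) (hC : ∀ x : ↥(Subgroup.centralizer ({y} : Set G)), (∀ q : ℕ, q.Prime → q ∣ orderOf x → q ∉ π) → x ∈ Cfsg.piCore {q | q ∉ π} ↥(Subgroup.centralizer ({y} : Set G))) : ∀ χ ∈ B, ∀ x : G, x ∈ Subgroup.centralizer ({y} : Set G) → (∀ q : ℕ, q.Prime → q ∣ orderOf x → q ∉ π) → (χ : G → ℂ) (y * x) = (χ : G → ℂ) y := by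
  haveI := hM.2.1
  have hσ : p ∉ {q | q ∉ π} := fun h => h hpπ
  intro χ hχ x hx hxπ
  have hxp : ¬ p ∣ orderOf (⟨x, hx⟩ : Subgroup.centralizer ({y} : Set G)) := fun h =>
    hxπ p hM.1 (by rwa [← Subgroup.orderOf_coe] at h) hpπ
  have h1p : ¬ p ∣ orderOf (1 : Subgroup.centralizer ({y} : Set G)) := by
    rw [orderOf_one, Nat.dvd_one]; exact hM.1.ne_one
  have e1 := blockPart_brSet_of_mem hM hy hB.isInt_idem hχ hxp
  have e2 := blockPart_brSet_of_mem hM hy hB.isInt_idem hχ h1p
  rw [OneMemClass.coe_one, mul_one] at e2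
  rw [← e2]
  refine e1.symm.trans ?_
  haveI := Fintype.ofFinite (Subgroup.centralizer ({y} : Set G))
  rw [blockPart_eq, blockPart_eq]
  refine Finset.sum_congr rfl fun ψ hψ => ?_
  have hψ' := (Finset.mem_filter.1 hψ).2
  have hb := H21.isPBlock_blockOf (M := M) ψ
  have hind := (mem_brSet_iff_induced hM hy hB hb (H21.mem_blockOf_self ψ)).1 hψ'
  obtain ⟨E, hE⟩ := hb.exists_isDefectGroup p
  have := ker_of_normalizer hM hσ hBD hB₁ hker hind hE (centralizer_defectGroup_le hM hy hb hE)
    ⟨x, hx⟩ (hC _ fun q hq h => hxπ q hq (by rwa [← Subgroup.orderOf_coe] at h)) ψ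
    (H21.mem_blockOf_self ψ)
  rw [this]

end Cfsg.Agent.S4727
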