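import Mathlib
import Cfsg.Agent.H20.Cnt
-- Template for statement S4729 (row 4729; see /opt/grader/pristine/manifest.json for weights).
-- Copy to Cfsg/Agent/S4729.lean and replace the sorry. The statement below is byte-identical to the frozen
-- statement Cfsg.CfsgFrozen.S4729 (Cfsg/Statements/S4729.lean; the theorem Cfsg.blk7_principal_block_small_faithful_degree_centralizer_of_sylow_p_group);
-- the grader kernel-checks Cfsg.Agent.S4729.result against that frozen type. Keep the theorem IN THIS FILE
-- (a `result` declared elsewhere and merely imported here is not credited); helpers may live anywhere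
-- under Cfsg/Agent/.
import Cfsg.Statements.S4729
-- import your own Cfsg.Agent.* helpers here

set_option autoImplicit false
open Cfsg

open H20 H05 H21 H07 MonoidAlgebra Cfsg Classical

namespace Cfsg.Agent.S4729

/-- Let p be a prime, M a maximal ideal of the algebraic integers containing p, G a finite perfect group and P a Sylow p-subgroup. If the principal p-block of G contains a faithful irreducible character of degree less than 2p, then the centralizer of P is a p-group. -/
theorem result {G : Type*} [Group G] [Finite G] (p : ℕ) [Fact p.Prime] (M : Ideal Cfsg.AlgInt) (hM : Cfsg.IsPModular p M) (hperf : commutator G = ⊤) (P : Sylow p G) (χ : Cfsg.IrrCharacter G) (hχ : χ ∈ Cfsg.principalBlock M G) (hfaith : ∀ g : G, (χ : G → ℂ) g = (χ : G → ℂ) 1 → g = 1) (hdeg : Cfsg.charDegree (χ : G → ℂ) < 2 * p) : IsPGroup p ↥(Subgroup.centralizer ((P : Subgroup G) : Set G)) := by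
  have := hM.2.1
  have hp := hM.1
  suffices key : ∀ k ∈ Subgroup.centralizer ((P : Subgroup G) : Set G), ¬ p ∣ orderOf k → k = 1 by
    refine IsPGroup.iff_orderOf.2 fun g => pReg_eq_one_iff.1 (Subtype.ext (key _ (pReg p g).2 ?_))
    simpa using not_dvd_orderOf_pReg p g
  intro k hk hk'
  set K := Subgroup.zpowers k
  have := Fintype.ofFinite K
  have hKC : K ≤ Subgroup.centralizer ((P : Subgroup G) : Set G) := Subgroup.zpowers_le.2 hk
  have hK : ¬ p ∣ Nat.card K := by rwa [Nat.card_zpowers]
  have h0 := χ.2.apply_one_ne_zero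
  have h1 : ∀ z : K, MemLocalIdeal M ((χ : G → ℂ) z / (χ : G → ℂ) 1 - 1) := fun z => by
    have h2 : ¬ p ∣ (Subgroup.centralizer ({(z : G)} : Set G)).index := fun h =>
      P.not_dvd_index (h.trans (Subgroup.index_dvd_of_le (le_centralizer_singleton_iff.2 (hKC z.2))))
    have h4 := H20.Cfsg.SameBlock.ideal_omega_sub hχ (trivIrr G).2 χ.2 (isCen_classSum (z : G)) (isInt_classSum _)
    rw [omega, omega, ev_classSum χ.2.isClassFunction, ev_classSum (isClassFunction_const 1), mul_div_assoc,
      mul_div_assoc, ← mul_sub, ideal_unit_mul_iff (ring_natCast _) (by rwa [ideal_natCast_iff hM]),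
      ideal_sub_comm] at h4
    simpa using h4
  obtain ⟨m, hm, e⟩ := (χ.2.isCharacter.restrict K).exists_nat_coeff
  have h2 : ∀ θ : IrrCharacter K, MemLocalIdeal M ((m θ : ℂ) / (χ : G → ℂ) 1 - if trivIrr K = θ then 1 else 0) := by
    intro θ
    rw [← classInner_irr, ← hm, classInner_def, classInner_def, mul_div_assoc, ← mul_sub, Finset.sum_div,
      ← Finset.sum_sub_distrib]
    refine ideal_mul_left (ring_inv_natCast hM hK) (ideal_sum fun z _ => ?_)
    rw [mul_div_right_comm, ← sub_mul]
    exact ideal_mul_right (h1 z) (ring_conj_irr θ z)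
  have h3 : m (trivIrr K) ≠ 0 := fun h => by simpa [h, ideal_neg_iff, not_ideal_one] using h2 (trivIrr K)
  have h4 : ∀ θ, θ ≠ trivIrr K → p ∣ m θ := fun θ h => by
    have := ideal_mul_right (h2 θ) (ring_irr χ 1)
    rwa [if_neg h.symm, sub_zero, div_mul_cancel₀ _ h0, ideal_natCast_iff hM] at this
  have h5 : ∀ θ : IrrCharacter K, (θ : K → ℂ) 1 = 1 := fun θ => θ.2.apply_one_of_comm
  have h6 : charDegree (χ : G → ℂ) = ∑ θ, m θ := by
    apply Nat.cast_injective (R := ℂ)
    simpa [χ.2.charDegree_eq, h5] using congrFun e 1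
  have h7 : ∀ θ, θ ≠ trivIrr K → m θ = 0 := by
    intro θ hθ
    by_contra h
    have h8 : ∀ η, η ≠ trivIrr K → η ≠ θ → m η = 0 := fun η h1 h2 => by
      by_contra h3
      have := Finset.sum_le_sum_of_subset (f := m) (Finset.subset_univ {η, θ})
      rw [Finset.sum_pair h2] at this
      have := Nat.le_of_dvd (Nat.pos_of_ne_zero h) (h4 θ hθ)
      have := Nat.le_of_dvd (Nat.pos_of_ne_zero h3) (h4 η h1)
      omega
    have h9 : m θ = p := by
      have := Finset.single_le_sum (f := m) (fun _ _ => Nat.zero_le _) (Finset.mem_univ θ)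
      obtain ⟨c, hc⟩ := h4 θ hθ
      rcases c with _ | _ | c
      · omega
      · omega
      · nlinarith
    obtain ⟨φ, hφ⟩ := θ.2.exists_monoidHom_of_comm
    have h10 := congrArg detHom e
    rw [detHom_restrict χ.2.isCharacter, detHom_sum _ fun η _ => η.2.isCharacter.natCast_smul _,
      Finset.prod_eq_single θ (fun η _ h => ?_) (by simp), detHom_smul θ.2.isCharacter, hφ, detHom_hom, h9] at h10
    · have h11 : detHom (χ : G → ℂ) = 1 := by
        ext g
        have := Abelianization.commutator_subset_ker (detHom (χ : G → ℂ)) (hperf ▸ Subgroup.mem_top g)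
        simpa using this
      apply hθ
      refine Subtype.ext (hφ.trans (funext fun z => ?_))
      have h12 : φ z ^ p = 1 := by simpa [h11] using (DFunLike.congr_fun h10 z).symm
      have h13 : φ z ^ Nat.card K = 1 := by rw [← map_pow, pow_card_eq_one', map_one]
      simp [(pow_eq_one_iff_of_coprime ((Nat.Prime.coprime_iff_not_dvd hp).2 hK)).1 ⟨h12, h13⟩]
    · rw [detHom_smul η.2.isCharacter]
      by_cases h' : η = trivIrr K
      · rw [h', show detHom (trivIrr K : K → ℂ) = 1 from detHom_hom 1]
        ext; simp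
      · rw [h8 η h' h]; ext; simp
  rw [Finset.sum_eq_single (trivIrr K) (fun θ _ h => by simp [h7 θ h]) (by simp)] at e
  exact hfaith k ((congrFun e ⟨k, Subgroup.mem_zpowers k⟩).trans (congrFun e 1).symm)

end Cfsg.Agent.S4729
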