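import Mathlib
import Cfsg.Agent.H20.Induced
import Cfsg.Agent.H21.BlockOrth
import Cfsg.Agent.H21.Blk
-- Template for statement S4731 (row 4731; see /opt/grader/pristine/manifest.json for weights).
-- Copy to Cfsg/Agent/S4731.lean and replace the sorry. The statement below is byte-identical to the frozen
-- statement Cfsg.CfsgFrozen.S4731 (Cfsg/Statements/S4731.lean; the theorem Cfsg.blk7_no_element_of_order_pq_block_intersection_congruence);
-- the grader kernel-checks Cfsg.Agent.S4731.result against that frozen type. Keep the theorem IN THIS FILE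
-- (a `result` declared elsewhere and merely imported here is not credited); helpers may live anywhere
-- under Cfsg/Agent/.
import Cfsg.Statements.S4731
-- import your own Cfsg.Agent.* helpers here

set_option autoImplicit false
open Cfsg

open H20 H05 H21 MonoidAlgebra Cfsg Classical

namespace Cfsg.Agent.S4731

/-- Let p ≠ q be primes, M_p and M_q maximal ideals of the algebraic integers containing p and q respectively, and G a finite group with no element of order pq; let q^b be the q-part of the order of G. For a p-block B_p (relative to M_p), a q-block B_q (relative to M_q) and a p-singular element y, the sum of χ(1)χ(y) over the irreducible characters χ lying in both B_p and B_q is q^b times an algebraic integer. -/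
theorem result {G : Type*} [Group G] [Finite G] (p q : ℕ) [Fact p.Prime] [Fact q.Prime] (hpq : p ≠ q) (Mp Mq : Ideal Cfsg.AlgInt) (hMp : Cfsg.IsPModular p Mp) (hMq : Cfsg.IsPModular q Mq) (hno : ∀ g : G, orderOf g ≠ p * q) (b : ℕ) (hb : (Nat.card G).factorization q = b) (Bp : Set (Cfsg.IrrCharacter G)) (hBp : Cfsg.IsPBlock Mp Bp) (Bq : Set (Cfsg.IrrCharacter G)) (hBq : Cfsg.IsPBlock Mq Bq) (y : G) (hy : p ∣ orderOf y) : ∃ ω : Cfsg.AlgInt, ∑ᶠ χ ∈ Bp ∩ Bq, (Cfsg.charDegree (χ : G → ℂ) : ℂ) * (χ : G → ℂ) y = (q : ℂ) ^ b * (ω : ℂ) := by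
  have := hMp.2.1
  have := hMq.2.1
  have hp := hMp.1
  have hq := hMq.1
  have := Fintype.ofFinite G
  have h1 : ∀ g : G, q ∣ orderOf g → ¬ p ∣ orderOf g := fun g h1 h2 =>
    hno _ (orderOf_pow_orderOf_div (orderOf_pos g).ne' (((Nat.coprime_primes hp hq).2 hpq).mul_dvd_of_dvd_of_dvd h2 h1))
  generalize hA : Bp ∩ Bq = A
  set θ : G → ℂ := ∑ χ with χ ∈ Bp, (χ : G → ℂ) y • (χ : G → ℂ) with hθ
  have h2 : ∀ g, blockPart Bq θ g = ∑ χ with χ ∈ A, (χ : G → ℂ) y * (χ : G → ℂ) g := fun g => by
    rw [hθ, blockPart_sum, Finset.sum_apply, Finset.sum_filter, Finset.sum_filter]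
    refine Finset.sum_congr rfl fun χ _ => ?_
    rw [blockPart_smul]
    by_cases h : χ ∈ Bq
    · simp [blockPart_irr_of_mem h, h, ← hA]
    · simp [blockPart_irr_of_notMem h, h, ← hA]
  have h3 : ∀ g, q ∣ orderOf g → blockPart Bq θ g = 0 := fun g hg => by
    refine blockPart_eq_zero_of_sec hMq (ring_blockCoeff hBq) isSec_regular.compl (fun u hu => ?_) (by simpa using hg)
    have := H20.Cfsg.IsPBlock.weak_block_orth' hMp hBp hy (y := u⁻¹) (by simpa using h1 u (by simpa using hu))
    rw [H21.finsum_mem_irr] at this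
    simpa [hθ, IsIrrCharacter.apply_inv (Subtype.prop _)] using this
  obtain ⟨Q⟩ : Nonempty (Sylow q G) := inferInstance
  have := Fintype.ofFinite (Q : Subgroup G)
  choose m hm using fun χ : IrrCharacter G =>
    (χ.2.isCharacter.restrict (Q : Subgroup G)).exists_classInner_eq_nat isCharacter_one
  refine ⟨⟨∑ χ with χ ∈ A, (χ : G → ℂ) y * m χ, IsIntegral.sum _ fun χ _ =>
    (χ.2.isIntegral _).mul (isIntegral_natCast _)⟩, ?_⟩
  have h4 : ∑ u : (Q : Subgroup G), blockPart Bq θ u = blockPart Bq θ 1 :=
    Finset.sum_eq_single_of_mem 1 (Finset.mem_univ _) fun u _ hu =>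
      h3 u (dvd_orderOf_of_isPGroup Q.isPGroup' u.2 (by simpa using hu))
  simp only [h2] at h4
  rw [H21.finsum_mem_irr, ← hb, ← Nat.cast_pow, ← Q.card_eq_multiplicity]
  simp only [IsIrrCharacter.charDegree_eq (Subtype.prop _), mul_comm ((_ : G → ℂ) 1)]
  rw [← h4, Finset.sum_comm, Finset.mul_sum]
  refine Finset.sum_congr rfl fun χ _ => ?_
  rw [← hm, classInner_one_right, ← Finset.mul_sum, mul_left_comm, mul_inv_cancel_left₀ card_ne_zero']

end Cfsg.Agent.S4731
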