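import Mathlib
import Cfsg.Agent.H20.Jor2
-- Template for statement S4732 (row 4732; see /opt/grader/pristine/manifest.json for weights).
-- Copy to Cfsg/Agent/S4732.lean and replace the sorry. The statement below is byte-identical to the frozen
-- statement Cfsg.CfsgFrozen.S4732 (Cfsg/Statements/S4732.lean; the theorem Cfsg.chr7_modular_linear_group_abelian_normal_subgroup_bounded_index);
-- the grader kernel-checks Cfsg.Agent.S4732.result against that frozen type. Keep the theorem IN THIS FILE
-- (a `result` declared elsewhere and merely imported here is not credited); helpers may live anywhere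
-- under Cfsg/Agent/.
import Cfsg.Statements.S4732
-- import your own Cfsg.Agent.* helpers here

set_option autoImplicit false
universe u v
open Cfsg

open H20.Jor Classical Polynomial

namespace Cfsg.Agent.S4732

theorem aeval_conj {K E : Type*} [Field K] [Ring E] [Algebra K E] {a a' : E} (h1 : a * a' = 1)
    (h2 : a' * a = 1) (b : E) (q : K[X]) : aeval (a * b * a') q = a * aeval b q * a' := by
  induction q using Polynomial.induction_on' with
  | add p q hp hq => rw [map_add, map_add, hp, hq, mul_add, add_mul]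
  | monomial n c =>
    have : (a * b * a') ^ n = a * b ^ n * a' := by
      induction n with
      | zero => simp [h1]
      | succ n ih =>
        rw [pow_succ, ih, pow_succ]
        calc _ = a * b ^ n * (a' * a) * b * a' := by noncomm_ring
          _ = _ := by rw [h2]; noncomm_ring
    simp [aeval_monomial, this, Algebra.algebraMap_eq_smul_one]

theorem nil_of_hom {K S : Type*} [Field K] [CommRing S] [Algebra K S] [Module.Finite K S] {a : S}
    (h : ∀ φ : S →ₐ[K] AlgebraicClosure K, φ a = 0) : IsNilpotent a := by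
  refine nilpotent_iff_mem_prime.2 fun J hJ => ?_
  have : Module.Finite K (S ⧸ J) := Module.Finite.quotient K J
  have h1 := h ((IsAlgClosed.lift (R := K) (S := S ⧸ J) (M := AlgebraicClosure K)).comp
    (Ideal.Quotient.mkₐ K J))
  rw [AlgHom.comp_apply] at h1
  have := IsArtinianRing.of_finite K S
  have : J.IsMaximal := IsArtinianRing.isMaximal_of_isPrime J
  let := Ideal.Quotient.field J
  rw [map_eq_zero] at h1
  exact Ideal.Quotient.eq_zero_iff_mem.1 h1

theorem unip_of_hom {K S : Type*} [Field K] [CommRing S] [Algebra K S] [Module.Finite K S] {a : S}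
    (p : ℕ) [hp : Fact p.Prime] [CharP K p]
    (h : ∀ φ : S →ₐ[K] AlgebraicClosure K, φ a = 1) : ∃ k, a ^ p ^ k = 1 := by
  obtain ⟨k, hk⟩ : IsNilpotent (a - 1) := nil_of_hom (K := K) fun φ => by
    rw [map_sub, h, map_one, sub_self]
  refine ⟨k, ?_⟩
  rcases subsingleton_or_nontrivial S with hs | hs
  · exact Subsingleton.elim _ _
  have : CharP S p := charP_of_injective_algebraMap (algebraMap K S).injective p
  have h1 : (a - 1) ^ p ^ k = 0 := pow_eq_zero_of_le (Nat.lt_pow_self hp.out.one_lt).le hk
  rwa [sub_pow_char_pow, one_pow, sub_eq_zero] at h1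

open scoped IsMulCommutative in
theorem conj_bound {p : ℕ} [hp : Fact p.Prime] {G : Type*} [Group G] [Finite G] {K : Type*} [Field K]
    [CharP K p] {n : ℕ} (ρ : Representation K G (Fin n → K)) (hρ : Function.Injective ρ)
    (F : Subgroup G) (hF : F ≤ 𝐂 F) (x : G) :
    {y | y ∈ F ∧ IsConj x y}.ncard ≤ p ^ (Nat.card G).factorization p * (n + 1) ^ (n * n) := by
  have hc : ∀ a ∈ F, ∀ b ∈ F, a * b = b * a := fun a ha b hb =>
    Subgroup.mem_centralizer_iff.1 (hF hb) a ha
  let S := Algebra.adjoin K (ρ '' F)
  have : IsMulCommutative S := Algebra.isMulCommutative_adjoin K (by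
    rintro _ ⟨a, ha, rfl⟩ _ ⟨b, hb, rfl⟩
    rw [← map_mul, ← map_mul, hc a ha b hb])
  have hfin : Module.Finite K S := Module.Finite.of_injective S.val.toLinearMap Subtype.val_injective
  have hS : Module.finrank K S ≤ n * n := by
    refine (LinearMap.finrank_le_finrank_of_injective (f := S.val.toLinearMap)
      Subtype.val_injective).trans ?_
    simp [Module.finrank_linearMap]
  let L := AlgebraicClosure K
  have := Fintype.ofFinite (S →ₐ[K] L)
  have hΦ : Fintype.card (S →ₐ[K] L) ≤ n * n := by
    rw [← Nat.card_eq_fintype_card]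
    have : Module.Free K S := Module.Free.of_divisionRing K S
    exact (card_algHom_le_finrank K S L).trans hS
  let r : F → S := fun y => ⟨ρ y, Algebra.subset_adjoin ⟨y, y.2, rfl⟩⟩
  have hr : ∀ a b : F, r (a * b) = r a * r b := fun a b => Subtype.ext (map_mul ρ _ _)
  have hr1 : r 1 = 1 := Subtype.ext (map_one ρ)
  let P : Subgroup G :=
    { carrier := {u | u ∈ F ∧ ∃ k, u ^ p ^ k = 1}
      one_mem' := ⟨F.one_mem, 0, by simp⟩
      mul_mem' := by
        rintro a b ⟨ha, i, hi⟩ ⟨hb, j, hj⟩
        refine ⟨F.mul_mem ha hb, i + j, ?_⟩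
        rw [Commute.mul_pow (hc a ha b hb), pow_add, pow_mul, hi, mul_comm (p ^ i), pow_mul, hj]
        simp
      inv_mem' := by
        rintro a ⟨ha, i, hi⟩
        exact ⟨F.inv_mem ha, i, by simp [hi]⟩ }
  have hP : Nat.card P ≤ p ^ (Nat.card G).factorization p := by
    obtain ⟨k, hk⟩ := IsPGroup.iff_card.1 (show IsPGroup p P from fun u => by
      obtain ⟨k, hk⟩ := u.2.2
      exact ⟨k, Subtype.ext hk⟩)
    rw [hk]
    exact Nat.pow_le_pow_right hp.out.pos ((hp.out.pow_dvd_iff_le_factorization Nat.card_pos.ne').1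
      (hk ▸ P.card_subgroup_dvd_card))
  have hfib : ∀ a b : F, (∀ φ : S →ₐ[K] L, φ (r a) = φ (r b)) → (a : G) * (b : G)⁻¹ ∈ P := by
    intro a b h
    refine ⟨F.mul_mem a.2 (F.inv_mem b.2), ?_⟩
    obtain ⟨k, h1⟩ := unip_of_hom (K := K) (S := S) (a := r (a * b⁻¹)) p fun φ => by
      have h2 : ∀ u v, φ (u * v) = φ u * φ v := map_mul φ
      have h3 : φ (r a) = φ (r b) := h φ
      rw [hr, h2, h3, ← h2, ← hr, mul_inv_cancel, hr1]
      exact map_one φ
    refine ⟨k, hρ ?_⟩
    rw [map_pow, map_one]
    exact congrArg Subtype.val h1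
  have := Fintype.ofFinite F
  set μ := (ρ x).charpoly
  set T := Finset.univ.filter fun y : F => IsConj x y
  have h1 : {y | y ∈ F ∧ IsConj x y}.ncard = T.card := by
    rw [← Set.ncard_coe_finset, ← Set.ncard_image_of_injective _ Subtype.val_injective]
    congr 1
    ext y
    simp [T, and_comm]
  rw [h1]
  refine (Finset.card_le_mul_card_image_of_maps_to (f := fun y (φ : S →ₐ[K] L) => φ (r y))
    (t := Fintype.piFinset fun _ => (μ.aroots L).toFinset) ?_ (Nat.card P) ?_).trans
    (Nat.mul_le_mul hP ?_)
  · intro y hy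
    obtain ⟨g, hg⟩ := isConj_iff.1 (Finset.mem_filter.1 hy).2
    refine Fintype.mem_piFinset.2 fun φ => ?_
    rw [Multiset.mem_toFinset, mem_aroots]
    refine ⟨(ρ x).charpoly_monic.ne_zero, ?_⟩
    rw [aeval_algHom_apply]
    have h2 : aeval (r y) μ = 0 := by
      apply Subtype.val_injective
      have := aeval_algHom_apply S.val (r y) μ
      simp only [Subalgebra.coe_val] at this
      rw [← this]
      show aeval (ρ y) μ = 0
      rw [← hg, map_mul, map_mul, aeval_conj (by rw [← map_mul]; simp) (by rw [← map_mul]; simp),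
        LinearMap.aeval_self_charpoly]
      simp
    rw [h2, map_zero]
  · intro t _
    rcases (T.filter fun y => (fun φ : S →ₐ[K] L => φ (r y)) = t).eq_empty_or_nonempty with h | ⟨b, hb⟩
    · rw [h]; simp
    rw [← Fintype.card_coe, ← Nat.card_eq_fintype_card]
    refine Nat.card_le_card_of_injective (fun a => (⟨(a : F) * (b : G)⁻¹, hfib _ _ fun φ => ?_⟩ : P)) ?_
    · exact congrFun ((Finset.mem_filter.1 a.2).2.trans (Finset.mem_filter.1 hb).2.symm) φ
    · intro a a' h
      exact Subtype.ext (Subtype.ext (mul_right_cancel (congrArg Subtype.val h)))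
  · rw [Fintype.card_piFinset, Finset.prod_const, Finset.card_univ]
    refine (Nat.pow_le_pow_left (m := n + 1) ?_ _).trans (Nat.pow_le_pow_right (by omega) hΦ)
    refine (Multiset.toFinset_card_le _).trans ((card_roots' _).trans ?_)
    rw [natDegree_map, LinearMap.charpoly_natDegree]
    simp

theorem dim {G : Type*} [Group G] [Finite G] {K : Type*} [Field K] {n : ℕ}
    (ρ : Representation K G (Fin n → K)) (hρ : Function.Injective ρ) :
    Dim (fun H : Subgroup G => Module.finrank K (Submodule.span K (ρ '' H))) (n * n) := by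
  refine ⟨fun H => (Submodule.finrank_le _).trans (by simp [Module.finrank_linearMap]),
    fun x H L h1 h2 h3 => Submodule.finrank_lt_finrank_of_lt (lt_of_le_of_ne
      (Submodule.span_mono (Set.image_mono h1)) fun e => h3 fun y hy => ?_)⟩
  have h4 : ρ y ∈ Submodule.span K (ρ '' H) := e ▸ Submodule.subset_span ⟨y, hy, rfl⟩
  have h5 : ∀ a ∈ Submodule.span K (ρ '' H), ρ x * a = a * ρ x := by
    intro a ha
    induction ha using Submodule.span_induction with
    | mem a ha =>
      obtain ⟨z, hz, rfl⟩ := ha
      rw [← map_mul, ← map_mul, Subgroup.mem_centralizer_iff.1 (h2 hz) x rfl]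
    | zero => simp
    | add a b _ _ ha hb => rw [mul_add, add_mul, ha, hb]
    | smul c a _ ha => rw [mul_smul_comm, smul_mul_assoc, ha]
  refine Subgroup.mem_centralizer_iff.2 ?_
  rintro _ rfl
  exact hρ (by rw [map_mul, map_mul, h5 _ h4])

/-- Let p be a prime. There is a function f of two natural-number arguments such that every finite group G admitting a faithful representation of degree n over a field of characteristic p, with Sylow p-subgroups of order p^m, has a normal abelian subgroup A with [G : A] < f(m, n). -/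
theorem result (p : ℕ) [Fact p.Prime] : ∃ f : ℕ → ℕ → ℕ, ∀ (G : Type u) [Group G] [Finite G] (F : Type v) [Field F] [CharP F p] (n : ℕ) (ρ : Representation F G (Fin n → F)), Function.Injective ρ → ∀ m : ℕ, (Nat.card G).factorization p = m → ∃ A : Subgroup G, A.Normal ∧ IsMulCommutative A ∧ A.index < f m n := by
  have hp : p.Prime := Fact.out
  choose f hf using fun m n : ℕ => jordan.{u} (p ^ m * (n + 1) ^ (n * n))
    (Nat.mul_pos (pow_pos hp.pos _) (pow_pos (Nat.succ_pos n) _)) (n * n)
  refine ⟨fun m n => (f m n).factorial + 1, fun G _ _ F _ _ n ρ hρ m hm => ?_⟩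
  obtain ⟨A, hA, hA'⟩ := hf m n G _ (dim ρ hρ) fun H hH x _ => hm ▸ conj_bound ρ hρ H hH x
  refine ⟨A.normalCore, inferInstance, ⟨⟨fun a b => Subtype.ext ?_⟩⟩, ?_⟩
  · exact Subgroup.mem_centralizer_iff.1 (hA (A.normalCore_le b.2)) a (A.normalCore_le a.2)
  · refine Nat.lt_succ_of_le (le_trans ?_ (Nat.factorial_le hA'))
    rw [Subgroup.normalCore_eq_ker, Subgroup.index_ker, Subgroup.index, ← Nat.card_perm]
    exact Subgroup.card_le_card_group _

end Cfsg.Agent.S4732
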