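import Mathlib
import Cfsg.Agent.H20.PowFix
import Cfsg.Agent.H21.Quot
-- Template for statement S4735 (row 4735; see /opt/grader/pristine/manifest.json for weights).
-- Copy to Cfsg/Agent/S4735.lean and replace the sorry. The statement below is byte-identical to the frozen
-- statement Cfsg.CfsgFrozen.S4735 (Cfsg/Statements/S4735.lean; the theorem Cfsg.blk7_principal_block_norm_square_sum_quotient_by_p_prime_core);
-- the grader kernel-checks Cfsg.Agent.S4735.result against that frozen type. Keep the theorem IN THIS FILE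
-- (a `result` declared elsewhere and merely imported here is not credited); helpers may live anywhere
-- under Cfsg/Agent/.
import Cfsg.Statements.S4735
-- import your own Cfsg.Agent.* helpers here

set_option autoImplicit false
open Cfsg

open H20 H05 H21 MonoidAlgebra Cfsg Classical

namespace Cfsg.Agent.S4735

/-- Let p be a prime, M a maximal ideal of the algebraic integers containing p, G a finite group, H = O_p'(G) and Ḡ = G/H. For x ∈ G write λ(G, x) for the sum of |χ(x)|^2 over the irreducible characters χ in the principal p-block of G. Then λ(G, x) is a positive integer, λ(G, x) = λ(Ḡ, x̄) where x̄ is the image of x, and λ(G, x) ≤ #C_Ḡ(x̄). Moreover λ(G, 1) = [G : H] if and only if the principal block is the only p-block of Ḡ. -/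
theorem result {G : Type*} [Group G] [Finite G] (p : ℕ) [Fact p.Prime] (M : Ideal Cfsg.AlgInt) (hM : Cfsg.IsPModular p M) (x : G) : (∃ n : ℕ, 0 < n ∧ ∑ᶠ χ ∈ Cfsg.principalBlock M G, Complex.normSq ((χ : G → ℂ) x) = n) ∧ ∑ᶠ χ ∈ Cfsg.principalBlock M G, Complex.normSq ((χ : G → ℂ) x) = ∑ᶠ ψ ∈ Cfsg.principalBlock M (G ⧸ Cfsg.pPrimeCore p G), Complex.normSq ((ψ : G ⧸ Cfsg.pPrimeCore p G → ℂ) (QuotientGroup.mk x)) ∧ ∑ᶠ χ ∈ Cfsg.principalBlock M G, Complex.normSq ((χ : G → ℂ) x) ≤ (Nat.card ↥(Subgroup.centralizer ({(QuotientGroup.mk x : G ⧸ Cfsg.pPrimeCore p G)} : Set (G ⧸ Cfsg.pPrimeCore p G))) : ℝ) ∧ ((∑ᶠ χ ∈ Cfsg.principalBlock M G, Cfsg.charDegree (χ : G → ℂ) ^ 2) = (Cfsg.pPrimeCore p G).index ↔ ∀ B : Set (Cfsg.IrrCharacter (G ⧸ Cfsg.pPrimeCore p G)), Cfsg.IsPBlock M B → B = Cfsg.principalBlock M (G ⧸ Cfsg.pPrimeCore p G)) := by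
  have := hM.2.1
  simp only [H21.finsum_mem_irr]
  have hs := QuotientGroup.mk'_surjective (pPrimeCore p G)
  have hk : ¬ p ∣ Nat.card (QuotientGroup.mk' (pPrimeCore p G)).ker := by
    rw [QuotientGroup.ker_mk']; exact H02.not_dvd_card_pPrimeCore hM.1
  have e := sum_principal_of_not_dvd hs hM hk fun χ => Complex.normSq ((χ : G → ℂ) x)
  refine ⟨?_, e, ?_, ?_⟩
  · have h1 : ((∑ χ with χ ∈ principalBlock M G, Complex.normSq ((χ : G → ℂ) x) : ℝ) : ℂ) =
        ∑ χ with χ ∈ principalBlock M G, (χ : G → ℂ) x * (χ : G → ℂ) x⁻¹ := by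
      simp [IsIrrCharacter.apply_inv (Subtype.prop _), Complex.mul_conj]
    obtain ⟨m, hm⟩ := exists_int_of_fixed (x := ∑ χ with χ ∈ principalBlock M G, (χ : G → ℂ) x * (χ : G → ℂ) x⁻¹)
      (IsIntegral.sum _ fun χ _ => (χ.2.isIntegral _).mul (χ.2.isIntegral _)) fun σ => by
        rw [map_sum]
        refine Finset.sum_bijective (galIrr (σ : ℂ →+* ℂ)) (galIrr_injective _).bijective_of_finite
          (fun χ => by simp [galIrr_mem_principal hM]) fun χ _ => by simp [galIrr_apply]
    rw [← h1] at hm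
    have h2 : (∑ χ with χ ∈ principalBlock M G, Complex.normSq ((χ : G → ℂ) x) : ℝ) = m := by exact_mod_cast hm
    have h3 : (0 : ℝ) < m := h2 ▸ Finset.sum_pos' (fun _ _ => Complex.normSq_nonneg _)
      ⟨trivIrr G, by simpa using one_mem_principalBlock, by simp⟩
    have h4 : 0 < m := by exact_mod_cast h3
    exact ⟨m.toNat, by omega, by rw [h2]; exact_mod_cast (Int.toNat_of_nonneg h4.le).symm⟩
  · rw [e, ← sum_irr_norm_sq]
    simp only [← Complex.normSq_eq_norm_sq]
    exact Finset.sum_le_univ_sum_of_nonneg fun _ => Complex.normSq_nonneg _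
  · rw [sum_principal_of_not_dvd hs hM hk, Subgroup.index, ← sum_charDegree_sq]
    simp only [charDegree_infl]
    constructor
    · intro h B hB
      obtain ⟨χ, hχ⟩ := H20.Cfsg.IsPBlock.nonempty hB
      refine H20.Cfsg.IsPBlock.eq_of_mem hB isPBlock_principalBlock hχ (by_contra fun h1 => ?_)
      refine absurd h (Finset.sum_lt_sum_of_subset (Finset.subset_univ _) (Finset.mem_univ χ) (by simpa using h1)
        (pow_pos χ.2.charDegree_pos 2) fun _ _ _ => Nat.zero_le _).ne
    · intro h
      rw [Finset.filter_true_of_mem fun χ _ => h _ (H20.isPBlock_blockOf χ) ▸ H20.mem_blockOf_self χ]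

end Cfsg.Agent.S4735
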