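import Mathlib
import Cfsg.Statements.S4955
import Cfsg.Agent.H07.Misc1

set_option autoImplicit false
open Cfsg
open H05 H06 Cfsg H07

namespace Cfsg.Agent.S4955

/-- Let X be a finite group with an abelian normal Sylow p-subgroup V (a normal p-subgroup of index prime to p in which any two elements commute), and let G be a complement to V in X. Then for every v in V, writing C for the centralizer of v in G, the number k(X) of conjugacy classes of X satisfies k(X) ≤ (order of C)·(order of V) − ((order of G) − k(G)); the statement is written with the subtracted term moved to the left. In particular, if some v in V is centralized by no nonidentity element of G, then k(X) is at most the order of V. -/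
theorem result {X : Type*} [Group X] [Finite X] (p : ℕ) [Fact p.Prime] (V : Subgroup X) [V.Normal] (hVp : IsPGroup p V) (hidx : ¬ p ∣ V.index) (hab : ∀ a ∈ V, ∀ b ∈ V, a * b = b * a) (G : Subgroup X) (hGV : Subgroup.IsComplement' V G) (v : X) (hv : v ∈ V) : Nat.card (ConjClasses X) + Nat.card G ≤ Nat.card ↥(G ⊓ Subgroup.centralizer ({v} : Set X)) * Nat.card V + Nat.card (ConjClasses G) := by
  haveI : IsMulCommutative V := ⟨⟨fun a b => Subtype.ext (hab _ a.2 _ b.2)⟩⟩
  have h1 := H07.card_irr_add_le V hv (fun χ h0 => hidx ((H07.dvd_deg_of_apply_eq_zero χ.2.isCharacter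
    (by obtain ⟨k, hk⟩ := IsPGroup.iff_orderOf.1 hVp ⟨v, hv⟩; exact ⟨k, by rw [← hk, Subgroup.orderOf_mk]⟩)
    h0).trans (H06.ito_charDegree_dvd_index χ.2 V)))
  have e : X ⧸ V ≃* G := hGV.symm.QuotientMulEquiv
  have h2 := H07.card_centralizer_le hGV (v := v) (fun u hu => hab u hu v hv)
  rw [Nat.card_congr e.toEquiv, H07.card_conjClasses_congr e] at h1
  omega

end Cfsg.Agent.S4955
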