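import Mathlib
import Cfsg.Agent.H20.KGV2
-- Template for statement S4958 (row 4958; see /opt/grader/pristine/manifest.json for weights).
-- Copy to Cfsg/Agent/S4958.lean and replace the sorry. The statement below is byte-identical to the frozen
-- statement Cfsg.CfsgFrozen.S4958 (Cfsg/Statements/S4958.lean; the theorem Cfsg.kgv_abelian_stabilizer_class_number_le_card);
-- the grader kernel-checks Cfsg.Agent.S4958.result against that frozen type. Keep the theorem IN THIS FILE
-- (a `result` declared elsewhere and merely imported here is not credited); helpers may live anywhere
-- under Cfsg/Agent/.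
import Cfsg.Statements.S4958
-- import your own Cfsg.Agent.* helpers here

set_option autoImplicit false
open Cfsg

open H20.Kr

namespace Cfsg.Agent.S4958

/-- Let X be a finite group and V a normal subgroup of X in which every element has order dividing the prime p, whose index in X is prime to p and which is its own centralizer in X; so V is an elementary abelian normal Sylow p-subgroup, and any complement G to V in X is a group of order prime to p acting faithfully on the vector space V by conjugation (the coprime linear setting of the k(GV) problem). Let G be a complement to V in X and suppose that for some v in V the centralizer of v in G is abelian. Then the number of conjugacy classes of X is at most the order of V (the abelian-stabilizer criterion for the k(GV) problem). -/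
theorem result {X : Type*} [Group X] [Finite X] (p : ℕ) [Fact p.Prime] (V : Subgroup X) [V.Normal] (hVexp : ∀ v ∈ V, v ^ p = 1) (hidx : ¬ p ∣ V.index) (hself : Subgroup.centralizer (V : Set X) = V) (G : Subgroup X) (hGV : Subgroup.IsComplement' V G) (v : X) (hv : v ∈ V) (hab : ∀ a ∈ G ⊓ Subgroup.centralizer ({v} : Set X), ∀ b ∈ G ⊓ Subgroup.centralizer ({v} : Set X), a * b = b * a) : Nat.card (ConjClasses X) ≤ Nat.card V := by
  refine bridge hVexp hidx hself.ge hGV hv fun W _ _ _ ρ e h1 h2 ζ M hM hζ hC =>
    ⟨⊤, fun _ _ _ => trivial, KR.abelian hM hζ hC (fun a b => Subtype.ext (hab _ a.2 _ b.2)) _ fun _ _ _ => trivial,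
      fun c hc => Subtype.ext (Subgroup.disjoint_def.1 hGV.disjoint (hself.le fun x hx => ?_) c.2.1)⟩
  have := h2 c (e.symm ⟨x, hx⟩)
  rw [mem_fx.1 (hc trivial), e.apply_symm_apply] at this
  exact eq_mul_inv_iff_mul_eq.1 this

end Cfsg.Agent.S4958
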