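import Mathlib
import Cfsg.Agent.H20.KGV2
-- Template for statement S4959 (row 4959; see /opt/grader/pristine/manifest.json for weights).
-- Copy to Cfsg/Agent/S4959.lean and replace the sorry. The statement below is byte-identical to the frozen
-- statement Cfsg.CfsgFrozen.S4959 (Cfsg/Statements/S4959.lean; the theorem Cfsg.kgv_real_vector_class_number_le_card);
-- the grader kernel-checks Cfsg.Agent.S4959.result against that frozen type. Keep the theorem IN THIS FILE
-- (a `result` declared elsewhere and merely imported here is not credited); helpers may live anywhere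
-- under Cfsg/Agent/.
import Cfsg.Statements.S4959
-- import your own Cfsg.Agent.* helpers here

set_option autoImplicit false
open Cfsg

open H20.Kr

namespace Cfsg.Agent.S4959

/-- Let X be a finite group and V a normal subgroup of X in which every element has order dividing the prime p, whose index in X is prime to p and which is its own centralizer in X; so V is an elementary abelian normal Sylow p-subgroup, and any complement G to V in X is a group of order prime to p acting faithfully on the vector space V by conjugation (the coprime linear setting of the k(GV) problem). Let G be a complement to V in X, let v be in V and let H be the centralizer of v in G. Suppose there is a subgroup U of V normalized by H, on which H acts faithfully, and carrying an H-invariant bi-additive pairing β with values in the integers modulo p that is nondegenerate on U (equivalently: the restriction of the module V to H has a faithful self-dual submodule; such a v is called a real vector for G). Then the number of conjugacy classes of X is at most the order of V (the real-vector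 criterion for the k(GV) problem). The pairing is given as a function on X whose relevant values are those on pairs from U. -/
theorem result {X : Type*} [Group X] [Finite X] (p : ℕ) [Fact p.Prime] (V : Subgroup X) [V.Normal] (hVexp : ∀ v ∈ V, v ^ p = 1) (hidx : ¬ p ∣ V.index) (hself : Subgroup.centralizer (V : Set X) = V) (G : Subgroup X) (hGV : Subgroup.IsComplement' V G) (v : X) (hv : v ∈ V) (U : Subgroup X) (hUV : U ≤ V) (hUinv : ∀ h ∈ G, h * v * h⁻¹ = v → ∀ u ∈ U, h * u * h⁻¹ ∈ U) (hUfaith : ∀ h ∈ G, h * v * h⁻¹ = v → (∀ u ∈ U, h * u * h⁻¹ = u) → h = 1) (β : X → X → ZMod p) (hβl : ∀ u ∈ U, ∀ u' ∈ U, ∀ w ∈ U, β (u * u') w = β u w + β u' w) (hβr : ∀ u ∈ U, ∀ w ∈ U, ∀ w' ∈ U, β u (w * w') = β u w + β u w') (hβinv : ∀ h ∈ G, h * v * h⁻¹ = v → ∀ u ∈ U, ∀ w ∈ U, β (h * u * h⁻¹) (h * w * h⁻¹) = β u w) (hβnd : ∀ u ∈ U, (∀ w ∈ U, β u w = 0) → u = 1) : Nat.card (ConjClasses X) ≤ Nat.card V := by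
  refine bridge hVexp hidx hself.ge hGV hv fun W _ _ _ ρ e h1 h2 ζ M hM hζ hC => ?_
  have h0 : (e 0 : X) = 1 := by
    have := h1 0 0
    rw [add_zero, left_eq_mul] at this
    rw [this]; rfl
  have h3 : ∀ c : ↥(G ⊓ Subgroup.centralizer {v}), (c : X) * v * (c : X)⁻¹ = v := fun c =>
    mul_inv_eq_iff_eq_mul.2 (c.2.2 v rfl).symm
  let U' : Submodule (ZMod p) W := AddSubgroup.toZModSubmodule p
    { carrier := {w | (e w : X) ∈ U}
      add_mem' := fun {a b} ha hb => show _ ∈ U by rw [h1]; exact mul_mem ha hb
      zero_mem' := show _ ∈ U from h0 ▸ one_mem U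
      neg_mem' := fun {a} ha => show _ ∈ U by
        have : (e (-a) : X) * e a = 1 := by rw [← Subgroup.coe_mul, ← h1, neg_add_cancel, h0]
        rw [eq_inv_of_mul_eq_one_left this]; exact inv_mem ha }
  have h4 : H07.SD.Inv ρ U' := fun c u hu => show _ ∈ U by rw [h2]; exact hUinv _ c.2.1 (h3 c) _ hu
  refine ⟨U', h4, KT.sub h4 (KT.selfDual hM hζ hC (fun x y => β (e x) (e y)) (fun x x' y => ?_) (fun x y y' => ?_)
    (fun c x y => ?_) fun x hx => ?_), fun c hc => Subtype.ext (hUfaith _ c.2.1 (h3 c) fun u hu => ?_)⟩
  · rw [Submodule.coe_add, h1]; exact hβl _ x.2 _ x'.2 _ y.2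
  · rw [Submodule.coe_add, h1]; exact hβr _ x.2 _ y.2 _ y'.2
  · show β (e (ρ c x)) (e (ρ c y)) = _
    rw [h2, h2]; exact hβinv _ c.2.1 (h3 c) _ x.2 _ y.2
  · refine Subtype.ext (e.injective (Subtype.ext ((hβnd _ x.2 fun w hw => ?_).trans h0.symm)))
    simpa using hx ⟨e.symm ⟨w, hUV hw⟩, show _ ∈ U by simpa using hw⟩
  · have := h2 c (e.symm ⟨u, hUV hu⟩)
    rw [mem_fx.1 (hc (show _ ∈ U by simpa using hu)), e.apply_symm_apply] at this
    exact this.symm

end Cfsg.Agent.S4959
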