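import Mathlib
import Cfsg.Statements.S4967
import Cfsg.Agent.H07.SelfDual

set_option autoImplicit false
open Cfsg
open H07.SD

namespace Cfsg.Agent.S4967

/-- Let F be a finite field with r elements and of characteristic p, H a finite abelian group of order prime to p, and V a faithful irreducible representation of H over F of dimension n (faithful: distinct elements act differently; irreducible: the only H-invariant subspaces are 0 and V). Call V self-dual when it carries a nondegenerate H-invariant bilinear form. If n = 1 and V is self-dual then H has order at most 2. If n ≥ 2 then V is self-dual if and only if n is even and the order of H divides r^(n/2) + 1. -/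
theorem result {F : Type*} [Field F] [Fintype F] (p : ℕ) [Fact p.Prime] [CharP F p] {H : Type*} [CommGroup H] [Finite H] (hcop : ¬ p ∣ Nat.card H) {V : Type*} [AddCommGroup V] [Module F V] [FiniteDimensional F V] (ρ : Representation F H V) (hfaith : Function.Injective ρ) (hirr : ∀ U : Submodule F V, (∀ h : H, ∀ u ∈ U, ρ h u ∈ U) → U = ⊥ ∨ U = ⊤) : (Module.finrank F V = 1 → (∃ B : LinearMap.BilinForm F V, B.Nondegenerate ∧ ∀ h : H, ∀ x y : V, B (ρ h x) (ρ h y) = B x y) → Nat.card H ≤ 2) ∧ (2 ≤ Module.finrank F V → ((∃ B : LinearMap.BilinForm F V, B.Nondegenerate ∧ ∀ h : H, ∀ x y : V, B (ρ h x) (ρ h y) = B x y) ↔ (Even (Module.finrank F V) ∧ Nat.card H ∣ Fintype.card F ^ (Module.finrank F V / 2) + 1))) := by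
  classical
  refine ⟨fun h1 ⟨B, hB, hinv⟩ => ?_, fun h2 => ?_⟩
  · obtain ⟨v, hv, h⟩ := finrank_eq_one_iff'.1 h1
    have h3 : B v v ≠ 0 := fun h0 => hv (hB.1 v fun y => by
      obtain ⟨c, rfl⟩ := h y
      simp [h0])
    have h4 : ∀ g : H, ρ g ∈ ({1, -1} : Finset (Module.End F V)) := by
      intro g
      obtain ⟨c, hc⟩ := h (ρ g v)
      have h5 := hinv g v v
      rw [← hc] at h5
      simp only [map_smul, LinearMap.smul_apply, smul_eq_mul] at h5
      have h6 : c ^ 2 = 1 := mul_right_cancel₀ h3 (by linear_combination h5)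
      rcases sq_eq_one_iff.1 h6 with rfl | rfl
      · refine Finset.mem_insert.2 (Or.inl (LinearMap.ext fun w => ?_))
        obtain ⟨d, rfl⟩ := h w
        simp [← hc]
      · refine Finset.mem_insert.2 (Or.inr (Finset.mem_singleton.2 (LinearMap.ext fun w => ?_)))
        obtain ⟨d, rfl⟩ := h w
        simp [← hc]
    have := Nat.card_le_card_of_injective (fun g : H => (⟨ρ g, h4 g⟩ : ({1, -1} : Finset (Module.End F V))))
      fun a b hab => hfaith (congrArg Subtype.val hab)
    rw [Nat.card_eq_finsetCard] at this
    exact this.trans Finset.card_le_two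
  have : Nontrivial V := Module.nontrivial_of_finrank_pos (R := F) (by omega)
  obtain ⟨K, _, _, e, ψ, he⟩ := exists_field ρ hirr
  have : Finite V := Module.finite_of_finite F
  have : Finite K := Finite.of_equiv _ e.symm.toEquiv
  rw [← e.finrank_eq] at h2 ⊢
  constructor
  · rintro ⟨B, hB, hinv⟩
    refine field_of_form (ψ := ψ) ?_ (fun a b hab => hfaith (LinearMap.ext fun v => ?_)) h2
      (hB.congr e.symm) fun h x y => by simp [he, hinv]
    · rcases hirr ((Submodule.span F (Set.range ψ)).map e.toLinearMap) (by
        rintro g _ ⟨x, hx, rfl⟩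
        refine ⟨ψ g * x, ?_, he g x⟩
        induction hx using Submodule.span_induction with
        | mem a ha => obtain ⟨h, rfl⟩ := ha; exact Submodule.subset_span ⟨g * h, map_mul _ _ _⟩
        | zero => simp
        | add a b _ _ ha hb => rw [mul_add]; exact add_mem ha hb
        | smul c a _ ha => rw [mul_smul_comm]; exact Submodule.smul_mem _ c ha) with h | h
      · exact absurd (h.le ⟨1, Submodule.subset_span ⟨1, map_one _⟩, rfl⟩) (by simp)
      · exact (Submodule.map_eq_top_iff (e := e)).1 h
    · obtain ⟨x, rfl⟩ := e.surjective v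
      rw [← he, ← he, hab]
  · rintro ⟨-, h⟩
    obtain ⟨B, hB, hinv⟩ := form_of_field (ψ := ψ) h
    refine ⟨_, hB.congr e, fun g x y => ?_⟩
    obtain ⟨x, rfl⟩ := e.surjective x
    obtain ⟨y, rfl⟩ := e.surjective y
    simp [← he, hinv]

end Cfsg.Agent.S4967
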