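import Mathlib
import Cfsg.Agent.H20.One24
-- Template for statement S5006 (row 5006; see /opt/grader/pristine/manifest.json for weights).
-- Copy to Cfsg/Agent/S5006.lean and replace the sorry. The statement below is byte-identical to the frozen
-- statement Cfsg.CfsgFrozen.S5006 (Cfsg/Statements/S5006.lean; the theorem Cfsg.blk15_m24_single_two_block);
-- the grader kernel-checks Cfsg.Agent.S5006.result against that frozen type. Keep the theorem IN THIS FILE
-- (a `result` declared elsewhere and merely imported here is not credited); helpers may live anywhere
-- under Cfsg/Agent/.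
import Cfsg.Statements.S5006
-- import your own Cfsg.Agent.* helpers here

set_option autoImplicit false
open Cfsg

open H20 H05 Cfsg

namespace Cfsg.Agent.S5006

/-- All irreducible complex characters of the Mathieu group `M₂₄` lie in a single 2-block: any two of them lie in the same block relative to every maximal ideal of the algebraic integers containing 2. -/
theorem result (M : Ideal Cfsg.AlgInt) (hM : Cfsg.IsPModular 2 M)
    (χ ψ : Cfsg.IrrCharacter ↥Cfsg.M24) : Cfsg.SameBlock M (χ : ↥Cfsg.M24 → ℂ) (ψ : ↥Cfsg.M24 → ℂ) := by
  have := hM.2.1
  exact isPBlock_principalBlock.sameBlock (one24 hM χ) (one24 hM ψ)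

end Cfsg.Agent.S5006
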