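import Mathlib
import Cfsg.Statements.S5015
import Cfsg.Agent.H12.RankOne

set_option autoImplicit false
open Cfsg

namespace Cfsg.Agent.S5015

open H12 H12.RO

/-- Let a group Y act doubly transitively on a set Ω with at least three points, and suppose that the stabilizer of a point α contains a nilpotent subgroup A, normalized by that stabilizer, which acts regularly on the points other than α. Then for any y in Y moving α, the subgroups A and y A y⁻¹ are the unipotent subgroups of a rank one group, and the normal closure of A in Y (the subgroup generated by all conjugates of A) is generated by A and y A y⁻¹ alone. -/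
theorem result {Y Ω : Type*} [Group Y] [MulAction Y Ω]
    (h2 : MulAction.IsMultiplyPretransitive Y Ω 2) (hΩ : 3 ≤ ENat.card Ω) (α : Ω) (A : Subgroup Y)
    (hA : A ≤ MulAction.stabilizer Y α) (hAn : ∀ y ∈ MulAction.stabilizer Y α, Cfsg.conjBy A y = A)
    (hnil : Group.IsNilpotent A) (hreg : ∀ β γ : Ω, β ≠ α → γ ≠ α → ∃! a : Y, a ∈ A ∧ a • β = γ)
    (y : Y) (hy : y ∉ MulAction.stabilizer Y α) :
    Cfsg.IsRankOnePair A (Cfsg.conjBy A y) ∧ Subgroup.normalClosure (A : Set Y) = A ⊔ Cfsg.conjBy A y := by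
  -- the conjugate of `A` by `g` depends only on `g • α`
  have hdep : ∀ g g' : Y, g • α = g' • α → conjBy A g = conjBy A g' := by
    intro g g' e
    have : g'⁻¹ * g ∈ MulAction.stabilizer Y α := by
      rw [MulAction.mem_stabilizer_iff, mul_smul, e, inv_smul_smul]
    have h1 := hAn _ this
    rw [conjBy_mul, conjBy_eq_iff, inv_inv] at h1
    exact h1
  have hthird : ∀ β γ : Ω, ∃ δ : Ω, δ ≠ β ∧ δ ≠ γ := by
    intro β γ
    by_contra hc
    push Not at hc
    have : (Set.univ : Set Ω) ⊆ {β, γ} := by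
      intro δ _
      by_cases h1 : δ = β
      · exact Or.inl h1
      · exact Or.inr (hc δ h1)
    have h1 := Set.encard_le_encard this
    have h3 : ({β, γ} : Set Ω).encard ≤ 2 := by
      refine (Set.encard_insert_le _ _).trans ?_
      rw [Set.encard_singleton]; rfl
    rw [Set.encard_univ] at h1
    have := hΩ.trans (h1.trans h3)
    exact absurd this (by decide)
  have hregc : ∀ g : Y, ∀ β γ : Ω, β ≠ g • α → γ ≠ g • α → ∃ a ∈ conjBy A g, a • β = γ := by
    intro g β γ hβ hγ
    obtain ⟨a, ⟨ha, e⟩, -⟩ := hreg (g⁻¹ • β) (g⁻¹ • γ) (fun e => hβ (by rw [← e]; simp))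
      (fun e => hγ (by rw [← e]; simp))
    exact ⟨g * a * g⁻¹, conj_mem_conjBy ha g, by rw [mul_smul, mul_smul, e]; simp⟩
  have hfix : ∀ g : Y, ∀ a ∈ conjBy A g, a • (g • α) = g • α := by
    intro g a ha
    have := hA (mem_conjBy.1 ha)
    rw [MulAction.mem_stabilizer_iff, mul_smul, mul_smul, inv_smul_eq_iff] at this
    exact this
  have hfree : ∀ g : Y, ∀ a ∈ conjBy A g, ∀ β, β ≠ g • α → a • β = β → a = 1 := by
    intro g a ha β hβ e
    obtain ⟨c, -, hc⟩ := hreg (g⁻¹ • β) (g⁻¹ • β) (fun e => hβ (by rw [← e]; simp))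
      (fun e => hβ (by rw [← e]; simp))
    have h1 := hc _ ⟨mem_conjBy.1 ha, by rw [mul_smul, mul_smul]; simp [e]⟩
    have h2 := hc 1 ⟨A.one_mem, by simp⟩
    have : g⁻¹ * a * g = 1 := h1.trans h2.symm
    calc a = g * (g⁻¹ * a * g) * g⁻¹ := by group
      _ = 1 := by rw [this]; group
  have hcond : ∀ g g' : Y, g • α ≠ g' • α → RankOneCondition (conjBy A g) (conjBy A g') := by
    intro g g' hne a ha ha1
    have h1 : a⁻¹ • g' • α ≠ g' • α := fun e =>
      ha1 (inv_eq_one.1 (hfree g a⁻¹ (inv_mem ha) _ hne.symm e))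
    have h3 : a⁻¹ • g' • α ≠ g • α := by
      intro e
      rw [inv_smul_eq_iff, hfix g a ha] at e
      exact hne e.symm
    obtain ⟨b, hb, e⟩ := hregc g' _ _ h1 hne
    refine ⟨b, hb, ?_, ?_⟩
    · rintro rfl
      exact h3 (by simpa using e)
    · rw [conjBy_conjBy, conjBy_conjBy]
      apply hdep
      rw [mul_smul, mul_smul, ← e, inv_smul_smul]
  have hy' : (1 : Y) • α ≠ y • α := by
    intro e; apply hy; rw [MulAction.mem_stabilizer_iff, ← e, one_smul]
  have hpair : IsRankOnePair A (conjBy A y) := by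
    refine ⟨?_, hnil, isNilpotent_conjBy hnil y, ?_, ?_⟩
    · intro e
      obtain ⟨δ, h1, h3⟩ := hthird α (y • α)
      obtain ⟨a, ha, e2⟩ := hregc 1 (y • α) δ hy'.symm (by simpa using h1)
      rw [conjBy_one, e] at ha
      rw [hfix y a ha] at e2
      exact h3 e2.symm
    · simpa using hcond 1 y hy'
    · simpa using hcond y 1 hy'.symm
  refine ⟨hpair, le_antisymm ?_ (sup_le Subgroup.le_normalClosure ?_)⟩
  · unfold Subgroup.normalClosure
    rw [Subgroup.closure_le]
    intro x hx
    obtain ⟨a, ha, hc⟩ := Group.mem_conjugatesOfSet_iff.1 hx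
    obtain ⟨g, rfl⟩ := isConj_iff.1 hc
    have hm := conj_mem_conjBy (show a ∈ A from ha) g
    by_cases hg : g • α = α
    · rw [hdep g 1 (by simpa using hg), conjBy_one] at hm
      exact Subgroup.mem_sup_left hm
    · obtain ⟨c, hc, e⟩ := hregc 1 (y • α) (g • α) hy'.symm (by simpa using hg)
      rw [conjBy_one] at hc
      rw [hdep g (c * y) (by rw [mul_smul, e]), conjBy_mul] at hm
      exact conjBy_le_of_le le_sup_right (Subgroup.mem_sup_left hc) hm
  · intro x hx
    have := Subgroup.normalClosure_normal.conj_mem _ (Subgroup.le_normalClosure (mem_conjBy.1 hx)) y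
    simpa [mul_assoc] using this

end Cfsg.Agent.S5015
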