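import Mathlib
import Cfsg.Statements.S5018
import Cfsg.Agent.H12.RankOne

set_option autoImplicit false
open Cfsg

namespace Cfsg.Agent.S5018

open H12 H12.RO

/-- A rank one group is not nilpotent, and its second centre equals its centre. -/
theorem result {X : Type*} [Group X] {A B : Subgroup X} (h : Cfsg.IsRankOneGroup X A B) :
    Subgroup.upperCentralSeries X 2 = Subgroup.center X ∧ ¬ Group.IsNilpotent X := by
  refine ⟨?_, not_nilpotent_top h.2 h.1⟩
  apply le_antisymm
  · rcases normal_dichotomy' h.2 (N := Subgroup.upperCentralSeries X 2) (h.1 ▸ le_top)
      (fun x _ n hn => (inferInstance : (Subgroup.upperCentralSeries X 2).Normal).conj_mem n hn x) with e | e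
    · exfalso
      apply not_nilpotent_top h.2 h.1
      haveI := h.2.nilpotent_left
      have hs : Function.Surjective
          ((QuotientGroup.mk' (Subgroup.upperCentralSeries X 2)).comp A.subtype) := by
        rw [← MonoidHom.range_eq_top, MonoidHom.range_comp, Subgroup.range_subtype]
        have := congrArg (Subgroup.map (QuotientGroup.mk' (Subgroup.upperCentralSeries X 2))) (e.trans h.1)
        rwa [Subgroup.map_sup, QuotientGroup.map_mk'_self, bot_sup_eq,
          Subgroup.map_top_of_surjective _ (QuotientGroup.mk'_surjective _)] at this
      have h1 := Group.nilpotent_of_surjective _ hs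
      obtain ⟨n, hn⟩ := h1.nilpotent'
      have key : ∀ k : ℕ, (Subgroup.upperCentralSeries (X ⧸ Subgroup.upperCentralSeries X 2) k).comap
          (QuotientGroup.mk' _) ≤ Subgroup.upperCentralSeries X (2 + k) := by
        intro k
        induction k with
        | zero => intro x hx; simpa using hx
        | succ k ih =>
          intro x hx
          rw [Subgroup.mem_comap, Subgroup.mem_upperCentralSeries_succ_iff] at hx
          rw [← add_assoc, Subgroup.mem_upperCentralSeries_succ_iff]
          intro y
          apply ih
          rw [Subgroup.mem_comap]
          simpa [map_commutatorElement] using hx (QuotientGroup.mk' _ y)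
      refine ⟨2 + n, top_le_iff.1 ?_⟩
      have := key n
      rwa [hn, Subgroup.comap_top] at this
    · intro n hn
      exact Subgroup.mem_center_iff.2 fun x => (e n hn x (h.1 ▸ Subgroup.mem_top x)).symm
  · rw [← Subgroup.upperCentralSeries_one]
    exact Subgroup.upperCentralSeries_mono X (by norm_num)

end Cfsg.Agent.S5018
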