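import Mathlib
import Cfsg.Statements.S5020
import Cfsg.Agent.H12.Special

set_option autoImplicit false
open Cfsg

namespace Cfsg.Agent.S5020

/-- Let X be a special rank one group with abelian unipotent subgroups A and B, and H = N(A) ∩ N(B) its diagonal subgroup. Then either A has at most three elements and X is isomorphic to SL₂(2), SL₂(3) or PSL₂(3); or X = X' A with the commutator subgroup X' quasisimple and the commutator subgroup ⁅A, H⁆ having more than three elements. -/
theorem result {X : Type*} [Group X] {A B : Subgroup X} (h : Cfsg.IsRankOneGroup X A B)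
    (hs : Cfsg.IsSpecialRankOnePair A B) (hab : Cfsg.HasAbelianUnipotents A B) :
    (ENat.card A ≤ 3 ∧ (Nonempty (X ≃* Matrix.SpecialLinearGroup (Fin 2) (ZMod 2)) ∨
        Nonempty (X ≃* Matrix.SpecialLinearGroup (Fin 2) (ZMod 3)) ∨
        Nonempty (X ≃* Matrix.ProjectiveSpecialLinearGroup (Fin 2) (ZMod 3)))) ∨
    (commutator X ⊔ A = ⊤ ∧ Cfsg.IsQuasisimple (commutator X) ∧
      3 < ENat.card ↥(⁅A, Cfsg.rankOneDiagonal A B⁆ : Subgroup X)) := by
  by_cases hc : ENat.card A ≤ 3
  · left
    refine ⟨hc, ?_⟩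
    have hfin : Finite A := by
      rw [← ENat.card_lt_top]; exact hc.trans_lt (by decide)
    have hc3 : Nat.card A ≤ 3 := by
      rw [← Nat.cast_le (α := ℕ∞), ← ENat.card_eq_coe_natCard]; exact hc
    obtain ⟨a, ha, ha1⟩ := H12.RO.exists_ne_one h.2
    obtain ⟨b, hb, hb1, e⟩ := h.2.cond_left a ha ha1
    have hnt : 1 < Nat.card A := by
      have : Nontrivial A := ⟨⟨⟨a, ha⟩, 1, fun e => ha1 (congrArg Subtype.val e)⟩⟩
      exact Finite.one_lt_card
    obtain ⟨n, -, en, -⟩ := H12.RO.exists_swap h.2
    have hcB : Nat.card B = Nat.card A := by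
      rw [← en]; exact Subgroup.card_map_of_injective (MulAut.conj n).injective
    have main : ∀ p : ℕ, ∀ _ : Fact p.Prime, Nat.card A = p →
        Nonempty (X ≃* Matrix.SpecialLinearGroup (Fin 2) (ZMod p)) ∨
        Nonempty (X ≃* Matrix.ProjectiveSpecialLinearGroup (Fin 2) (ZMod p)) := by
      intro p _ hp
      have hz : ∀ C : Subgroup X, Nat.card C = p → ∀ c ∈ C, c ≠ 1 → Subgroup.zpowers c = C := by
        intro C hC c hc hc1
        have := zpowers_eq_top_of_prime_card hC (g := ⟨c, hc⟩) (fun e => hc1 (congrArg Subtype.val e))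
        have h2 := congrArg (Subgroup.map C.subtype) this
        rwa [MonoidHom.map_zpowers, ← MonoidHom.range_eq_map, Subgroup.range_subtype] at h2
      have hel : ∀ x ∈ A, x ^ p = 1 := fun x hx => by
        have := pow_card_eq_one' (x := (⟨x, hx⟩ : A))
        rw [hp] at this
        exact congrArg Subtype.val this
      have h1 := H12.SP.isPSL2PairOver_zpowers hs hab.1 (p := p) hel ha ha1 hb hb1 e
      rw [hz A hp a ha ha1, hz B (hcB.trans hp) b hb hb1] at h1
      have h2 := H12.iso_of_isPSL2PairOver h1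
      rw [h.1] at h2
      rcases h2 with ⟨⟨φ⟩⟩ | ⟨⟨φ⟩⟩
      · exact Or.inl ⟨Subgroup.topEquiv.symm.trans φ⟩
      · exact Or.inr ⟨Subgroup.topEquiv.symm.trans φ⟩
    have : Nat.card A = 2 ∨ Nat.card A = 3 := by omega
    rcases this with e2 | e3
    · left
      rcases main 2 ⟨Nat.prime_two⟩ e2 with h1 | ⟨⟨φ⟩⟩
      · exact h1
      · have hz : Subgroup.center (Matrix.SpecialLinearGroup (Fin 2) (ZMod 2)) = ⊥ := by
          rw [eq_bot_iff]
          intro g hg
          rcases H12.mem_center_sl2 hg with rfl | rfl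
          · exact one_mem _
          · rw [Subgroup.mem_bot]; decide
        exact ⟨φ.trans ((QuotientGroup.quotientMulEquivOfEq hz).trans QuotientGroup.quotientBot)⟩
    · exact Or.inr (main 3 ⟨Nat.prime_three⟩ e3)
  · right
    push Not at hc
    have h1 := H12.SP.le_commutator_of_card hs hab.1 hc
    rw [h.1] at h1
    have h2 : commutator X = ⊤ := top_le_iff.1 h1
    have hq := H12.RO.quasisimple_of_perfect h.2 h.1 ⟨h2⟩
    refine ⟨by rw [h2, top_sup_eq], ?_, ?_⟩
    · rw [h2]
      exact H12.RO.quasisimple_of_perfect (A := A.subgroupOf ⊤) (B := B.subgroupOf ⊤)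
        ((H12.RO.subgroupOf_iff le_top le_top).2 h.2)
        (by rw [← Subgroup.subgroupOf_sup le_top le_top, h.1, Subgroup.subgroupOf_self])
        (by have : Group.IsPerfect X := ⟨h2⟩; infer_instance)
    · refine hc.trans_le ?_
      exact Function.Embedding.encard_le
        ⟨Subgroup.inclusion (H12.SP.le_commutator_diagonal hs hab.1 hc), Subgroup.inclusion_injective _⟩

end Cfsg.Agent.S5020
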