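import Mathlib
import Cfsg.Statements.S5023
import Cfsg.Agent.H12.Special

set_option autoImplicit false
open Cfsg

namespace Cfsg.Agent.S5023

/-- Let X be a rank one group with unipotent subgroups A and B that acts faithfully on an abelian group V (written additively) with A acting quadratically: a' • (a • v − v) = a • v − v for all a, a' in A and v in V. Then A is either torsion-free or an elementary abelian p-group for some prime p. -/
theorem result {X : Type*} [Group X] {A B : Subgroup X} (h : Cfsg.IsRankOneGroup X A B)
    {V : Type*} [AddCommGroup V] [DistribMulAction X V] (hf : ∀ x : X, (∀ v : V, x • v = v) → x = 1)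
    (hq : ∀ a ∈ A, ∀ a' ∈ A, ∀ v : V, a' • (a • v - v) = a • v - v) :
    (∀ a ∈ A, a ≠ 1 → ¬ IsOfFinOrder a) ∨ ∃ p : ℕ, p.Prime ∧ Cfsg.IsElementaryAbelian p A := by
  have hact : H12.RO.IsAct (A ⊔ B) (fun (x : X) (v : V) => x • v) :=
    ⟨fun x _ y _ v => mul_smul x y v, fun v => one_smul _ v, fun x _ v w => smul_sub x v w⟩
  have key : ∀ a a' : X, (∀ v : V, a' • (a • v - v) = a • v - v) → (∀ v : V, a • (a' • v - v) = a' • v - v) →
      a * a' = a' * a := by
    intro a a' h1 h2
    have : (a' * a)⁻¹ * (a * a') = 1 := by
      apply hf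
      intro v
      rw [mul_smul, inv_smul_eq_iff, mul_smul, mul_smul]
      have e1 := h1 v
      have e2 := h2 v
      rw [smul_sub, sub_eq_iff_eq_add] at e1 e2
      rw [e1, e2]; abel
    rw [inv_mul_eq_one] at this
    exact this.symm
  have hA : IsMulCommutative A :=
    H12.isMulCommutative_iff.2 fun a ha a' ha' => key a a' (hq a ha a' ha') (hq a' ha' a ha)
  have hs : Cfsg.IsSpecialRankOnePair A B := by
    apply H12.RO.special_of_quadratic h.2 hact hq
    by_contra hc
    push Not at hc
    apply H12.RO.commutator_ne_bot h.2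
    rw [H12.commutator_eq_bot_iff]
    intro a ha b hb
    exact key a b (hc a (Subgroup.mem_sup_left ha) b (Subgroup.mem_sup_right hb))
      (hc b (Subgroup.mem_sup_right hb) a (Subgroup.mem_sup_left ha))
  rcases H12.SP.elementary_or_divisible hs hA with h1 | h1
  · exact Or.inr h1
  · exact Or.inl h1.1

end Cfsg.Agent.S5023
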