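import Mathlib
import Cfsg.Statements.S5024
import Cfsg.Agent.H12.RootSub

set_option autoImplicit false
open Cfsg

namespace Cfsg.Agent.S5024

/-- Let S be a set of abstract root subgroups of G, A and C members of S, B a rank one partner of A in S and D a rank one partner of C in S. If the rank one group ⟨A, B⟩ is contained in ⟨C, D⟩ then the two coincide, and C and D are conjugates of A inside ⟨A, B⟩. -/
theorem result {G : Type*} [Group G] {S : Set (Subgroup G)} (hS : Cfsg.IsRootSubgroupSet S)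
    {A B C D : Subgroup G} (hA : A ∈ S) (hC : C ∈ S) (hB : B ∈ Cfsg.rankOnePartners S A) (hD : D ∈ Cfsg.rankOnePartners S C)
    (hle : A ⊔ B ≤ C ⊔ D) : A ⊔ B = C ⊔ D ∧ C ∈ Cfsg.unipotentSubgroups A B ∧ D ∈ Cfsg.unipotentSubgroups A B := by
  have k : ∀ {A B : Subgroup G}, A ∈ S → Cfsg.IsRankOnePair A B → A ⊔ B ≤ C ⊔ D → A ∈ Cfsg.unipotentSubgroups C D := by
    intro A B hA hr hle
    rcases H12.RS.mem_omega_or_central hS hA hC hD.2 (le_sup_left.trans hle) with h | h
    · exact h
    · exact absurd (H12.commutator_eq_bot_iff.2 fun a ha b hb => h a ha b (hle (Subgroup.mem_sup_right hb)))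
        (H12.RO.commutator_ne_bot hr)
  have h1 := k hA hB.2 hle
  have h2 := k hB.1 (H12.RO.symm hB.2) (by rwa [sup_comm])
  have h3 := (H12.RO.pair_of_mem hD.2 h1 h2 hB.2.ne).2
  rw [H12.RO.omega_eq_of_mem h1 h3]
  exact ⟨h3, H12.RO.left_mem_omega C D, H12.RO.right_mem_omega hD.2⟩

end Cfsg.Agent.S5024
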