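import Mathlib
import Cfsg.Statements.S5026
import Cfsg.Agent.H12.RootSub

set_option autoImplicit false
open Cfsg

namespace Cfsg.Agent.S5026

/-- Let S be a degenerate set of abstract root subgroups of G (a set of abstract transvection groups) and let a, b be commuting non-identity elements of members of S with a b ≠ 1. Then the members of S centralizing a b are exactly those centralizing both a and b. -/
theorem result {G : Type*} [Group G] {S : Set (Subgroup G)} (hS : Cfsg.IsRootSubgroupSet S) (hdeg : Cfsg.IsDegenerateRootSet S)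
    {a b : G} (ha : a ∈ Cfsg.rootElements S) (hb : b ∈ Cfsg.rootElements S) (hab : a * b = b * a) (hab1 : a * b ≠ 1) :
    Cfsg.centralizingMembers S (Subgroup.zpowers (a * b)) =
      Cfsg.centralizingMembers S (Subgroup.zpowers a) ∩ Cfsg.centralizingMembers S (Subgroup.zpowers b) := by
  obtain ⟨ha1, A, hA, ha⟩ := ha
  obtain ⟨hb1, B, hB, hb⟩ := hb
  have hz : ∀ (C : Subgroup G) (x : G), C ≤ Subgroup.centralizer (Subgroup.zpowers x : Set G) ↔
      ∀ c ∈ C, c * x = x * c := by
    intro C x
    rw [Subgroup.le_centralizer_iff, Subgroup.zpowers_le, Subgroup.mem_centralizer_iff]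
    rfl
  have hAB : ⁅A, B⁆ = ⊥ := by
    rcases hS.pair A hA B hB with h | h | h
    · exact h
    · exfalso
      apply ha1
      apply H12.RO.eq_one_of_fix h ha
      refine H12.RO.eq_of_mem_mem h (H12.RO.conj_mem_omega (H12.RO.right_mem_omega h) (Subgroup.mem_sup_left ha))
        (H12.RO.right_mem_omega h) hb1 ?_ hb
      have := H12.conj_mem_conjBy hb a
      rwa [hab, mul_inv_cancel_right] at this
    · exact absurd h (hdeg A hA B hB)
  ext C
  simp only [Cfsg.centralizingMembers, Set.mem_setOf_eq, Set.mem_inter_iff, hz]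
  constructor
  · rintro ⟨hC, h⟩
    have h1 : ∀ c ∈ C, c * a = a * c := by
      rcases hS.pair A hA C hC with h1 | h1 | h1
      · exact fun c hc => (H12.commutator_eq_bot_iff.1 h1 a ha c hc).symm
      · exfalso
        have e : Cfsg.conjBy C b = Cfsg.conjBy C a⁻¹ := by
          rw [← H12.conjBy_inj (g := a), H12.conjBy_conjBy_inv, H12.conjBy_conjBy, H12.conjBy_of_commute h]
        have := (H12.RS.eq_of_conj_eq hS hC hB h1 (inv_mem ha) (inv_ne_one.2 ha1) hb e hAB).2
        exact hab1 (by rw [this, mul_inv_cancel])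
      · exact absurd h1 (hdeg A hA C hC)
    refine ⟨⟨hC, h1⟩, hC, fun c hc => ?_⟩
    have := h c hc
    rw [← mul_assoc, h1 c hc, mul_assoc, mul_assoc] at this
    exact mul_left_cancel this
  · rintro ⟨⟨hC, h1⟩, -, h2⟩
    exact ⟨hC, fun c hc => by rw [← mul_assoc, h1 c hc, mul_assoc, h2 c hc, mul_assoc]⟩

end Cfsg.Agent.S5026
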