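import Mathlib
import Cfsg.Statements.S5027
import Cfsg.Agent.H12.RootSub

set_option autoImplicit false
open Cfsg

namespace Cfsg.Agent.S5027

/-- Let S be a set of abstract root subgroups of G such that every member of S has a rank one partner in S (the graph of rank one pairs on S has no isolated vertex). Then the second centre of G equals its centre. -/
theorem result {G : Type*} [Group G] {S : Set (Subgroup G)} (hS : Cfsg.IsRootSubgroupSet S)
    (hF : ∀ A ∈ S, ¬ Cfsg.IsIsolatedIn (Cfsg.FAdj S) S A) : Subgroup.upperCentralSeries G 2 = Subgroup.center G := by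
  apply le_antisymm
  · intro g hg
    rw [Subgroup.mem_upperCentralSeries_succ_iff] at hg
    simp only [zero_add, Subgroup.upperCentralSeries_one] at hg
    have : (⨆ A ∈ S, A) ≤ Subgroup.centralizer {g} := by
      refine iSup₂_le fun A hA a ha => ?_
      rw [Subgroup.mem_centralizer_singleton_iff]
      by_cases ha1 : a = 1
      · simp [ha1]
      obtain ⟨-, B, hB, hr⟩ := H12.ni_of_not_isolated hA (hF A hA)
      have hc := Subgroup.mem_center_iff.1 (hg a)
      by_contra hne
      refine H12.RS.not_root hS hA hB hr (fun x _ => hc x) (fun x _ => hc x) (fun e => hne ?_) ha ha1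
        ⟨?_, _, hS.conj_mem A hA g, ?_⟩
      · exact (commutatorElement_eq_one_iff_mul_comm.1 e).symm
      · simpa [commutatorElement_def] using ha1
      · simpa [commutatorElement_def] using H12.conj_mem_conjBy ha g
    rw [hS.generates] at this
    rw [Subgroup.mem_center_iff]
    exact fun x => Subgroup.mem_centralizer_singleton_iff.1 (this (Subgroup.mem_top x))
  · rw [← Subgroup.upperCentralSeries_one]
    exact Subgroup.upperCentralSeries_mono G (by norm_num)

end Cfsg.Agent.S5027
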