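import Mathlib
import Cfsg.Statements.S5029
import Cfsg.Agent.H12.RootSub

set_option autoImplicit false
open Cfsg

namespace Cfsg.Agent.S5029

/-- Let S be a set of abstract root subgroups of G, A ∈ S having a rank one partner in S, and B ∈ S with C = ⁅A, B⁆ ∈ S. Then the members of S contained in AC are the conjugates of A by elements of B together with C, they partition AC, the members of S inside AC partition AC so that A is a line partner of C, and for every non-identity a ∈ A the map b ↦ a⁻¹ b⁻¹ a b is an isomorphism from B onto C. -/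
theorem result {G : Type*} [Group G] {S : Set (Subgroup G)} (hS : Cfsg.IsRootSubgroupSet S)
    {A B : Subgroup G} (hA : ¬ Cfsg.IsIsolatedIn (Cfsg.FAdj S) S A) (hAS : A ∈ S) (hB : B ∈ S) (hC : ⁅A, B⁆ ∈ S) :
    Cfsg.membersIn S (A ⊔ ⁅A, B⁆) = (fun b : G => Cfsg.conjBy A b) '' (B : Set G) ∪ {⁅A, B⁆} ∧
    Cfsg.IsSubgroupPartition (A ⊔ ⁅A, B⁆) (Cfsg.membersIn S (A ⊔ ⁅A, B⁆)) ∧
    A ∈ Cfsg.linePartners S ⁅A, B⁆ ∧
    ∀ a ∈ A, a ≠ 1 → ∃ φ : ↥B ≃* ↥⁅A, B⁆, ∀ b : ↥B, (φ b : G) = a⁻¹ * (b : G)⁻¹ * a * b := by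
  have hN := H12.ni_of_not_isolated hAS hA
  have h := H12.RS.cc_of_mem hS hAS hB hC
  refine ⟨?_, H12.RS.partition_of_cc hS hN h, H12.RS.line_of_cc hS hN h, fun a ha ha1 => ?_⟩
  · ext D
    rw [H12.RS.members_line hS hN h]
    rfl
  · have hBc := H12.RS.comm hS hB
    let f : B →* ↥⁅A, B⁆ := MonoidHom.mk' (fun b => ⟨a⁻¹ * (b : G)⁻¹ * a * b, by
      simpa using H12.comm_mem (inv_mem ha) (inv_mem b.2)⟩) (by
      intro b b'
      apply Subtype.ext
      have := H12.CC.comm_mul_right h (inv_mem ha) (inv_mem b.2) (inv_mem b'.2)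
      simp only [inv_inv] at this
      simp only [Subgroup.coe_mul]
      rw [← this, ← mul_inv_rev (b' : G), inv_inv, hBc _ b'.2 _ b.2])
    refine ⟨MulEquiv.ofBijective f ⟨?_, ?_⟩, fun b => rfl⟩
    · rw [injective_iff_map_eq_one]
      intro b hb
      have e : a⁻¹ * (b : G)⁻¹ * a * b = 1 := congrArg Subtype.val hb
      apply Subtype.ext
      apply H12.RS.comm_inj hS hN h ha ha1 b.2
      calc a * b = (b * a) * (a⁻¹ * (b : G)⁻¹ * a * b) := by group
        _ = _ := by rw [e, mul_one]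
    · rintro ⟨c, hc⟩
      obtain ⟨b, hb, e⟩ := H12.CC.exists_right h (inv_mem ha) (inv_ne_one.2 ha1) hc
      exact ⟨⟨b⁻¹, inv_mem hb⟩, Subtype.ext (by simpa [f] using e)⟩

end Cfsg.Agent.S5029
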