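import Mathlib
import Cfsg.Statements.S5030
import Cfsg.Agent.H12.RootSub2

set_option autoImplicit false
open Cfsg

namespace Cfsg.Agent.S5030

/-- Let S be a set of abstract root subgroups of G and A, B, C ∈ S with ⁅A, B⁆ ∈ S and ⁅B, C⁆ ∈ S, where A and C are different and commute. For a non-identity b ∈ B put X = ⟨A, b⁻¹ C b⟩ and Y = ⟨b⁻¹ A b, C⟩ and R = ⟨A, B, C⟩. Then X and Y are either both abelian or both nilpotent of class exactly two; X and Y commute elementwise; XY is normal in R with R = (XY) B; and R is nilpotent. -/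
theorem result {G : Type*} [Group G] {S : Set (Subgroup G)} (hS : Cfsg.IsRootSubgroupSet S)
    {A B C : Subgroup G} (hA : A ∈ S) (hB : B ∈ S) (hC : C ∈ S) (hAB : ⁅A, B⁆ ∈ S) (hBC : ⁅B, C⁆ ∈ S)
    (hAC : C ∈ Cfsg.commutingPartners S A)
    {b : G} (hb : b ∈ B) (hb1 : b ≠ 1) :
    ((IsMulCommutative ↥(A ⊔ Cfsg.conjBy C b⁻¹) ∧ IsMulCommutative ↥(Cfsg.conjBy A b⁻¹ ⊔ C)) ∨
      ((¬ IsMulCommutative ↥(A ⊔ Cfsg.conjBy C b⁻¹) ∧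
          ⁅⁅A ⊔ Cfsg.conjBy C b⁻¹, A ⊔ Cfsg.conjBy C b⁻¹⁆, A ⊔ Cfsg.conjBy C b⁻¹⁆ = ⊥) ∧
        (¬ IsMulCommutative ↥(Cfsg.conjBy A b⁻¹ ⊔ C) ∧
          ⁅⁅Cfsg.conjBy A b⁻¹ ⊔ C, Cfsg.conjBy A b⁻¹ ⊔ C⁆, Cfsg.conjBy A b⁻¹ ⊔ C⁆ = ⊥))) ∧
    ⁅A ⊔ Cfsg.conjBy C b⁻¹, Cfsg.conjBy A b⁻¹ ⊔ C⁆ = ⊥ ∧
    (∀ r ∈ A ⊔ B ⊔ C, Cfsg.conjBy ((A ⊔ Cfsg.conjBy C b⁻¹) ⊔ (Cfsg.conjBy A b⁻¹ ⊔ C)) r =
      (A ⊔ Cfsg.conjBy C b⁻¹) ⊔ (Cfsg.conjBy A b⁻¹ ⊔ C)) ∧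
    ((A ⊔ Cfsg.conjBy C b⁻¹) ⊔ (Cfsg.conjBy A b⁻¹ ⊔ C)) ⊔ B = A ⊔ B ⊔ C ∧
    Group.IsNilpotent ↥(A ⊔ B ⊔ C) := by
  have h1 := H12.RS.cc_of_mem hS hA hB hAB
  have h2 := H12.CC.symm (H12.RS.cc_of_mem hS hB hC hBC)
  obtain ⟨c1, c2, c3, c4, c5, c6⟩ := H12.RS.chain hS hA hB hC h1 h2 hAC.2.2 (inv_mem hb) (inv_ne_one.2 hb1)
  refine ⟨?_, c4, ?_, ?_, c6⟩
  · by_cases h : IsMulCommutative ↥(A ⊔ Cfsg.conjBy C b⁻¹)
    · exact Or.inl ⟨h, c3.1 h⟩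
    · exact Or.inr ⟨⟨h, c1⟩, fun h' => h (c3.2 h'), c2⟩
  · rw [c5]
    suffices h : A ⊔ B ⊔ C ≤ Subgroup.normalizer ((A ⊔ ⁅A, B⁆) ⊔ (C ⊔ ⁅C, B⁆) : Subgroup G) from
      fun r hr => H12.conjBy_eq_self_iff.2 (h hr)
    refine sup_le (sup_le ?_ fun t ht => ?_) ?_
    · exact (le_sup_left.trans le_sup_left).trans Subgroup.le_normalizer
    · apply H12.conjBy_eq_self_iff.1
      rw [H12.conjBy_sup, H12.CC.conj_sup h1 (Subgroup.mem_sup_right ht), H12.CC.conj_sup h2 (Subgroup.mem_sup_right ht)]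
    · exact (le_sup_left.trans le_sup_right).trans Subgroup.le_normalizer
  · apply le_antisymm
    · have rA : A ≤ A ⊔ B ⊔ C := le_sup_left.trans le_sup_left
      have rB : B ≤ A ⊔ B ⊔ C := le_sup_right.trans le_sup_left
      exact sup_le (sup_le (sup_le rA (H12.conjBy_le_of_le le_sup_right (rB (inv_mem hb))))
        (sup_le (H12.conjBy_le_of_le rA (rB (inv_mem hb))) le_sup_right)) rB
    · exact sup_le (sup_le ((le_sup_left.trans le_sup_left).trans le_sup_left) le_sup_right)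
        ((le_sup_right.trans le_sup_right).trans le_sup_left)

end Cfsg.Agent.S5030
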