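import Mathlib
import Cfsg.Statements.S5031
import Cfsg.Agent.H12.RootSub2

set_option autoImplicit false
open Cfsg

namespace Cfsg.Agent.S5031

/-- Let S be a set of abstract root subgroups of G and let A, B ∈ S lie in different connected components of the graph of rank one pairs on S, each component having more than one member. Then B is not a line partner of A. -/
theorem result {G : Type*} [Group G] {S : Set (Subgroup G)} (hS : Cfsg.IsRootSubgroupSet S)
    {A B : Subgroup G} (hA : A ∈ S) (hB : B ∈ S)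
    (hne : Cfsg.componentOf (Cfsg.FAdj S) S A ≠ Cfsg.componentOf (Cfsg.FAdj S) S B)
    (hA2 : ∃ A' ∈ Cfsg.componentOf (Cfsg.FAdj S) S A, A' ≠ A) (hB2 : ∃ B' ∈ Cfsg.componentOf (Cfsg.FAdj S) S B, B' ≠ B) :
    B ∉ Cfsg.linePartners S A := by
  intro hl
  obtain ⟨A', hA', hne1⟩ := hA2
  obtain ⟨B', hB', hne2⟩ := hB2
  have hnc : ¬ Relation.ReflTransGen (Cfsg.FAdj S) A B := by
    intro h
    apply hne
    ext X
    exact ⟨fun hX => ⟨hX.1, (H12.RS.conn_symm h).trans hX.2⟩, fun hX => ⟨hX.1, h.trans hX.2⟩⟩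
  obtain ⟨a, ha, ha1⟩ := H12.RS.exists_ne_one hS hA
  obtain ⟨b, hb, hb1⟩ := H12.RS.exists_ne_one hS hB
  have hab : a * b ≠ 1 := fun e =>
    ha1 (H12.RS.line_inf hA hl a ha (eq_inv_of_mul_eq_one_left e ▸ inv_mem hb))
  obtain ⟨D, ⟨hD, hDL⟩, hx⟩ := hl.2.2.1 _ (mul_mem (Subgroup.mem_sup_left ha) (Subgroup.mem_sup_right hb)) hab
  have key : ∀ {A B : Subgroup G}, H12.NI S A → B ∈ Cfsg.linePartners S A →
      ¬ Relation.ReflTransGen (Cfsg.FAdj S) A B → D ≤ A ⊔ B → ∀ a ∈ A, a ≠ 1 → a ∈ B ⊔ D →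
      Relation.ReflTransGen (Cfsg.FAdj S) A D := by
    rintro A B ⟨hA, E, hE, hr⟩ hl hnc hDL a ha ha1 haD
    have hLc := H12.RS.line_comm hS hA hl
    have hL := fun x hx hx1 => H12.RS.line_root hl (x := x) hx hx1
    rcases H12.RS.line_pair hS hA hE hr hLc hL le_sup_left hl.1.1 le_sup_right with h1 | h1
    · exact absurd (.tail (.single ⟨hA, hE, hr⟩) ⟨hE, hl.1.1, H12.RO.symm h1⟩) hnc
    rcases H12.RS.line_pair hS hA hE hr hLc hL le_sup_left hD hDL with h2 | h2
    · exact .tail (.single ⟨hA, hE, hr⟩) ⟨hE, hD, H12.RO.symm h2⟩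
    · exact absurd (H12.RS.not_mem_of_two_cc hS hE hl.1.1 hD hr h1 h2
        (H12.commutator_eq_bot_mono hLc le_sup_right hDL) ha haD) ha1
  have c1 := key (H12.RS.ni_of_conn hA'.2 hne1) hl hnc hDL a ha ha1 (by
    simpa using mul_mem (Subgroup.mem_sup_right (S := B) hx) (Subgroup.mem_sup_left (T := D) (inv_mem hb)))
  have c2 := key (H12.RS.ni_of_conn hB'.2 hne2) (H12.RS.line_symm hA hl) (fun h => hnc (H12.RS.conn_symm h))
    (by rwa [sup_comm]) b hb hb1 (by
    simpa using mul_mem (Subgroup.mem_sup_left (T := D) (inv_mem ha)) (Subgroup.mem_sup_right (S := A) hx))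
  exact hnc (c1.trans (H12.RS.conn_symm c2))

end Cfsg.Agent.S5031
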