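import Mathlib
import Cfsg.Statements.S5032
import Cfsg.Agent.H12.RootSub2

set_option autoImplicit false
open Cfsg

namespace Cfsg.Agent.S5032

/-- Let S be a set of abstract root subgroups of G with more than one member. Then the graph of rank one pairs on S is connected if and only if S is a single conjugacy class of G and some member of S has a rank one partner in S. -/
theorem result {G : Type*} [Group G] {S : Set (Subgroup G)} (hS : Cfsg.IsRootSubgroupSet S) (h2 : ∃ A ∈ S, ∃ B ∈ S, A ≠ B) :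
    Cfsg.IsConnectedFamily (Cfsg.FAdj S) S ↔
      (Cfsg.IsConjClassOfSubgroups S ∧ ∃ A ∈ S, ¬ Cfsg.IsIsolatedIn (Cfsg.FAdj S) S A) := by
  obtain ⟨A, hA, B, hB, hne⟩ := h2
  constructor
  · intro h
    refine ⟨⟨⟨A, hA⟩, fun X hX Y hY => H12.RS.conj_of_conn (h X hX Y hY)⟩, A, hA, fun hi => ?_⟩
    obtain ⟨-, E, hE, hr⟩ := H12.RS.ni_of_conn (h A hA B hB) hne.symm
    exact (hi.2 E).1 ⟨hA, hE, hr⟩
  · rintro ⟨hc, X, hX, hi⟩
    exact H12.RS.conn_of_class hS hc (H12.ni_of_not_isolated hX hi)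

end Cfsg.Agent.S5032
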