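import Mathlib
import Cfsg.Statements.S5033
import Cfsg.Agent.H12.RootSub2

set_option autoImplicit false
open Cfsg

namespace Cfsg.Agent.S5033

/-- Quasisimplicity criterion for groups generated by abstract root subgroups. Let S be a set of abstract root subgroups of G with more than one member such that: the graph of rank one pairs on S is connected; no two different members of S have the same set of commuting members of S; if S is degenerate then every member of S has more than three elements; and every rank one pair in S is special. Then for every A ∈ S one has G = G' A with A ∩ G' ≠ 1, and the commutator subgroup G' is quasisimple. Moreover G is perfect if S is non-degenerate, or if some rank one pair A, B in S generates a perfect group. -/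
theorem result {G : Type*} [Group G] {S : Set (Subgroup G)} (hS : Cfsg.IsRootSubgroupSet S) (h2 : ∃ A ∈ S, ∃ B ∈ S, A ≠ B)
    (h1 : Cfsg.IsConnectedFamily (Cfsg.FAdj S) S)
    (h2' : ∀ A ∈ S, ∀ C ∈ S, A ≠ C → Cfsg.centralizingMembers S A ≠ Cfsg.centralizingMembers S C)
    (h3 : Cfsg.IsDegenerateRootSet S → ∀ A ∈ S, 3 < ENat.card A)
    (h4 : ∀ A ∈ S, ∀ B ∈ Cfsg.rankOnePartners S A, Cfsg.IsSpecialRankOnePair A B) :
    (∀ A ∈ S, commutator G ⊔ A = ⊤ ∧ A ⊓ commutator G ≠ ⊥) ∧ Cfsg.IsQuasisimple ↥(commutator G) ∧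
    (Cfsg.IsNondegenerateRootSet S → commutator G = ⊤) ∧
    ((∃ A ∈ S, ∃ B ∈ Cfsg.rankOnePartners S A, Group.IsPerfect ↥(A ⊔ B)) → commutator G = ⊤) := by
  obtain ⟨A0, hA0, B0, hB0, hne0⟩ := h2
  have hc : Cfsg.IsConjClassOfSubgroups S := ⟨⟨A0, hA0⟩, fun X hX Y hY => H12.RS.conj_of_conn (h1 X hX Y hY)⟩
  have hN := H12.RS.ni_of_class hS hc (H12.RS.ni_of_conn (h1 A0 hA0 B0 hB0) hne0.symm)
  have top : ∀ N : Subgroup G, N.Normal → ∀ A ∈ S, A ≤ N → N = ⊤ := by
    intro N hN A hA hle
    rw [eq_top_iff, ← hS.generates]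
    refine iSup₂_le fun B hB => ?_
    obtain ⟨g, rfl⟩ := hc.2 A hA B hB
    rintro _ ⟨a, ha, rfl⟩
    exact hN.conj_mem a (hle ha) g
  have key : ∀ N : Subgroup G, N.Normal → ∀ C ∈ S, ∀ D ∈ S, Cfsg.IsRankOnePair C D → ⁅C ⊔ D, C ⊔ D⁆ ≤ N →
      (∀ K ∈ S, ⁅C, K⁆ = ⊥ → ⁅K, D⁆ ≤ N) → N = ⊤ := by
    intro N hN' C hC D hD hr hle hK
    by_cases hdeg : Cfsg.IsDegenerateRootSet S
    · exact top N hN' C hC (le_sup_left.trans
        ((H12.SP.le_commutator_of_card (h4 C hC D ⟨hD, hr⟩) (hS.commutative C hC) (h3 hdeg C hC)).trans hle))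
    · simp only [Cfsg.IsDegenerateRootSet, not_forall, not_not] at hdeg
      obtain ⟨X, hX, Y, -, h⟩ := hdeg
      obtain ⟨L, hL⟩ := H12.RS.line_nonempty hS hc hN hX h hC
      obtain ⟨K, hK', i1, -⟩ := H12.RS.line_structure hS hC hD hr hL
      exact top N hN' _ i1.1 (hK K hK'.1.1 hK'.1.2.2)
  have hperf : commutator G = ⊤ := by
    obtain ⟨-, D, hD, hr⟩ := hN A0 hA0
    exact key _ inferInstance A0 hA0 D hD hr (Subgroup.commutator_mono le_top le_top)
      (fun K _ _ => Subgroup.commutator_mono le_top le_top)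
  have key2 : ∀ (N : Subgroup G) [N.Normal], ∀ A ∈ S, ∀ C ∈ S,
      A.map (QuotientGroup.mk' N) = C.map (QuotientGroup.mk' N) → ∀ D ∈ S, ⁅A, D⁆ = ⊥ → ⁅C, D⁆ ≠ ⊥ → N = ⊤ := by
    intro N hN' A hA C hC e D hD i1 i2
    have hker : ∀ X : Subgroup G, X.map (QuotientGroup.mk' N) = ⊥ → X ≤ N := fun X hX => by
      rwa [Subgroup.map_eq_bot_iff, QuotientGroup.ker_mk'] at hX
    have i3 : ⁅C.map (QuotientGroup.mk' N), D.map (QuotientGroup.mk' N)⁆ = ⊥ := by
      rw [← e, ← Subgroup.map_commutator, i1, Subgroup.map_bot]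
    rcases hS.pair C hC D hD with h | h | h
    · exact absurd h i2
    · have e2 := (H12.RO.map_or (QuotientGroup.mk' N) h (hS.commutative C hC)).resolve_right
        fun h' => H12.RO.commutator_ne_bot h' i3
      refine key N hN' C hC D hD h (hker _ ?_) fun K hK hCK => hker _ ?_
      · rw [Subgroup.map_commutator, Subgroup.map_sup, ← e2, sup_idem, ← Subgroup.map_commutator,
          H12.RS.comm_self hS hC, Subgroup.map_bot]
      · rw [Subgroup.map_commutator, ← e2, ← Subgroup.map_commutator, H12.commutator_eq_bot_symm hCK, Subgroup.map_bot]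
    · exact top N hN' _ h.1 (hker _ (by rw [Subgroup.map_commutator, i3]))
  have norm : ∀ N : Subgroup G, N.Normal → N ≤ Subgroup.center G ∨ N = ⊤ := by
    intro N hN'
    by_cases hfix : ∀ A ∈ S, ∀ n ∈ N, Cfsg.conjBy A n = A
    · left
      intro n hn
      rw [Subgroup.mem_center_iff]
      refine H12.RS.gen_induction hS.generates (by simp) (fun A hA a ha => ?_)
        (fun x y hx hy => by rw [mul_assoc, hy, ← mul_assoc, hx, mul_assoc])
      obtain ⟨-, B, hB, hr⟩ := hN A hA
      exact (H12.RO.commute_of_normalizes hr (fun C hC => hfix C (H12.RS.omega_subset hS hA hC) n hn)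
        (Subgroup.mem_sup_left ha)).symm
    · right
      push Not at hfix
      obtain ⟨A, hA, n, hn, hne⟩ := hfix
      have hC := hS.conj_mem A hA n
      have e : A.map (QuotientGroup.mk' N) = (Cfsg.conjBy A n).map (QuotientGroup.mk' N) := by
        rw [← H12.conjBy_map, QuotientGroup.mk'_apply, (QuotientGroup.eq_one_iff n).2 hn, H12.conjBy_one]
      by_contra hNt
      apply h2' A hA _ hC hne.symm
      ext D
      constructor
      · rintro ⟨hD, h⟩
        refine ⟨hD, H12.le_centralizer_iff_commutator.2 ?_⟩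
        by_contra h'
        exact hNt (key2 N A hA _ hC e D hD (H12.le_centralizer_iff_commutator.1 h) h')
      · rintro ⟨hD, h⟩
        refine ⟨hD, H12.le_centralizer_iff_commutator.2 ?_⟩
        by_contra h'
        exact hNt (key2 N _ hC A hA e.symm D hD (H12.le_centralizer_iff_commutator.1 h) h')
  have hq : Cfsg.IsQuasisimple G := by
    refine ⟨⟨hperf⟩, ?_⟩
    have hnt : Nontrivial (G ⧸ Subgroup.center G) := by
      by_contra hc
      rw [not_nontrivial_iff_subsingleton] at hc
      obtain ⟨-, D, hD, hr⟩ := hN A0 hA0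
      have : Group.IsNilpotent G := Group.of_quotient_center_nilpotent inferInstance
      exact H12.RO.not_nilpotent hr (X := ⊤) le_top le_top inferInstance
    refine ⟨fun M hM => ?_⟩
    rcases norm (M.comap (QuotientGroup.mk' _)) inferInstance with h | h
    · left
      rw [eq_bot_iff]
      intro x hx
      obtain ⟨x, rfl⟩ := QuotientGroup.mk'_surjective _ x
      exact (QuotientGroup.eq_one_iff x).2 (h hx)
    · right
      rw [eq_top_iff]
      intro x _
      obtain ⟨x, rfl⟩ := QuotientGroup.mk'_surjective _ x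
      exact (h ▸ Subgroup.mem_top x : x ∈ M.comap _)
  refine ⟨fun A hA => ⟨by rw [hperf, top_sup_eq], by rw [hperf, inf_top_eq]; exact hS.ne_bot A hA⟩, ?_,
    fun _ => hperf, fun _ => hperf⟩
  rw [hperf]
  have := hq.1
  refine ⟨inferInstance, ?_⟩
  have := hq.2
  exact (QuotientGroup.congr (Subgroup.center ↥(⊤ : Subgroup G)) (Subgroup.center G) Subgroup.topEquiv (by
    ext x
    simp only [Subgroup.mem_map, Subgroup.mem_center_iff]
    constructor
    · rintro ⟨y, hy, rfl⟩ g
      exact congrArg Subtype.val (hy ⟨g, trivial⟩)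
    · intro hx
      exact ⟨⟨x, trivial⟩, fun g => Subtype.ext (hx g), rfl⟩)).isSimpleGroup

end Cfsg.Agent.S5033
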