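import Mathlib
import Cfsg.Statements.S5035
import Cfsg.Agent.H12.RootSub2

set_option autoImplicit false
open Cfsg

namespace Cfsg.Agent.S5035

/-- Let S be a set of abstract root subgroups of G whose graph of rank one pairs is connected, and f a homomorphism from G onto a group H. Then either the images of the members of S form a set of abstract root subgroups of H whose graph of rank one pairs is again connected, or H equals the image of a member of S. -/
theorem result {G H : Type*} [Group G] [Group H] {S : Set (Subgroup G)} (hS : Cfsg.IsRootSubgroupSet S)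
    (hc : Cfsg.IsConnectedFamily (Cfsg.FAdj S) S) (f : G →* H) (hf : Function.Surjective f) :
    (Cfsg.IsRootSubgroupSet ((fun A : Subgroup G => A.map f) '' S) ∧
      Cfsg.IsConnectedFamily (Cfsg.FAdj ((fun A : Subgroup G => A.map f) '' S)) ((fun A : Subgroup G => A.map f) '' S)) ∨
    ∃ A ∈ S, A.map f = ⊤ := by
  by_cases htop : ∃ A ∈ S, A.map f = ⊤
  · exact Or.inr htop
  left
  have hgen : (⨆ A ∈ (fun A : Subgroup G => A.map f) '' S, A) = ⊤ := by
    rw [iSup_image]
    simp only [← Subgroup.map_iSup, hS.generates]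
    exact Subgroup.map_top_of_surjective f hf
  have hconj : ∀ A ∈ (fun A : Subgroup G => A.map f) '' S, ∀ g : H,
      Cfsg.conjBy A g ∈ (fun A : Subgroup G => A.map f) '' S := by
    rintro _ ⟨A, hA, rfl⟩ g
    obtain ⟨g, rfl⟩ := hf g
    exact ⟨_, hS.conj_mem A hA g, (H12.conjBy_map f A g).symm⟩
  have hcomm : ∀ A ∈ S, IsMulCommutative (A.map f) := fun A hA => by
    rw [H12.isMulCommutative_iff_commutator, ← Subgroup.map_commutator, H12.RS.comm_self hS hA, Subgroup.map_bot]
  refine ⟨⟨?_, ?_, hgen, hconj, ?_⟩, ?_⟩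
  · rintro _ ⟨A, hA, rfl⟩
    exact hcomm A hA
  · rintro _ ⟨A, hA, rfl⟩ e
    apply htop
    refine ⟨A, hA, ?_⟩
    rw [eq_top_iff, ← hgen]
    refine iSup₂_le ?_
    rintro _ ⟨B, hB, rfl⟩
    obtain ⟨g, rfl⟩ := H12.RS.conj_of_conn (hc A hA B hB)
    simp only at e ⊢
    rw [← H12.conjBy_map, e, H12.conjBy_bot]
  · rintro _ ⟨A, hA, rfl⟩ _ ⟨B, hB, rfl⟩
    simp only
    rcases hS.pair A hA B hB with h | h | h
    · left; rw [← Subgroup.map_commutator, h, Subgroup.map_bot]
    · rcases H12.RO.map_or f h (hS.commutative A hA) with e | e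
      · left; rw [← e]; exact H12.isMulCommutative_iff_commutator.1 (hcomm A hA)
      · exact Or.inr (Or.inl e)
    · right; right
      rw [Cfsg.RootCommutatorCase, ← Subgroup.map_commutator, ← Subgroup.map_sup]
      refine ⟨⟨_, h.1, rfl⟩, ?_, ?_, ?_⟩
      · rintro _ ⟨c, hc, rfl⟩ _ ⟨x, hx, rfl⟩
        rw [← map_mul, ← map_mul, h.2.1 c hc x hx]
      · rintro _ ⟨a, ha, rfl⟩ ha1
        rw [← h.2.2.1 a ha (fun e => ha1 (by rw [e, map_one])), MonoidHom.map_closure, Subgroup.coe_map,
          Set.image_image, Set.image_image]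
        simp
      · rintro _ ⟨a, ha, rfl⟩ ha1
        rw [← h.2.2.2 a ha (fun e => ha1 (by rw [e, map_one])), MonoidHom.map_closure, Subgroup.coe_map,
          Set.image_image, Set.image_image]
        simp
  · rintro _ ⟨A, hA, rfl⟩ _ ⟨B, hB, rfl⟩
    have := hc A hA B hB
    clear hB
    induction this with
    | refl => exact .refl
    | tail _ h2 ih =>
      rcases H12.RO.map_or f h2.2.2 (hS.commutative _ h2.1) with e | e
      · simp only at ih ⊢
        rwa [← e]
      · exact ih.tail ⟨⟨_, h2.1, rfl⟩, ⟨_, h2.2.1, rfl⟩, e⟩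

end Cfsg.Agent.S5035
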