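import Mathlib
import Cfsg.Statements.S5036
import Cfsg.Agent.H12.RootSub2

set_option autoImplicit false
open Cfsg

namespace Cfsg.Agent.S5036

/-- Let S be a set of abstract root subgroups of G, A, B ∈ S with C = ⁅A, B⁆ ∈ S, and D ∈ S with ⁅D, C⁆ = A. Put X = ⟨B, D⟩ and N = AC. Then B, D form a rank one pair; the conjugates of A under X are the conjugates of C under X, namely the conjugates of A by elements of B together with C, equally the conjugates of C by elements of D together with A, and they partition N; and the centralizer of N in X is central in X. -/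
theorem result {G : Type*} [Group G] {S : Set (Subgroup G)} (hS : Cfsg.IsRootSubgroupSet S)
    {A B D : Subgroup G} (hA : A ∈ S) (hB : B ∈ S) (hC : ⁅A, B⁆ ∈ S) (hD : D ∈ S) (hDC : ⁅D, ⁅A, B⁆⁆ = A) :
    Cfsg.IsRankOnePair B D ∧
    {E | ∃ x ∈ B ⊔ D, E = Cfsg.conjBy A x} = {E | ∃ x ∈ B ⊔ D, E = Cfsg.conjBy ⁅A, B⁆ x} ∧
    {E | ∃ x ∈ B ⊔ D, E = Cfsg.conjBy A x} = (fun b : G => Cfsg.conjBy A b) '' (B : Set G) ∪ {⁅A, B⁆} ∧
    {E | ∃ x ∈ B ⊔ D, E = Cfsg.conjBy A x} = (fun d : G => Cfsg.conjBy ⁅A, B⁆ d) '' (D : Set G) ∪ {A} ∧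
    Cfsg.IsSubgroupPartition (A ⊔ ⁅A, B⁆) {E | ∃ x ∈ B ⊔ D, E = Cfsg.conjBy A x} ∧
    ∀ x ∈ (B ⊔ D) ⊓ Subgroup.centralizer ((A ⊔ ⁅A, B⁆ : Subgroup G) : Set G), ∀ y ∈ B ⊔ D, x * y = y * x := by
  have h1 := H12.RS.cc_of_mem hS hA hB hC
  have hDC' : ⁅⁅A, B⁆, D⁆ = A := by rw [Subgroup.commutator_comm, hDC]
  have h2 := H12.RS.cc_of_mem hS hC hD (hDC'.symm ▸ hA)
  have hr := H12.RS.rankOne_of_opp hS hA hB hD h1 hDC'
  have hN : B ⊔ D ≤ Subgroup.normalizer (A ⊔ ⁅A, B⁆ : Subgroup G) := by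
    refine sup_le (fun b hb => H12.conjBy_eq_self_iff.1 (H12.CC.conj_sup h1 (Subgroup.mem_sup_right hb)))
      fun d hd => H12.conjBy_eq_self_iff.1 ?_
    have := H12.CC.conj_sup h2 (Subgroup.mem_sup_right hd)
    rwa [hDC', sup_comm] at this
  have k : ∀ {A B : Subgroup G}, A ∈ S → Cfsg.RootCommutatorCase S A B → ⁅A ⊔ ⁅A, B⁆, B⁆ = ⁅A, B⁆ := by
    intro A B hA h1
    refine le_antisymm ?_ (Subgroup.commutator_mono le_sup_left le_rfl)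
    rw [Subgroup.commutator_le]
    intro n hn b hb
    obtain ⟨a, ha, c, hc, rfl⟩ := H12.mem_sup_of_commute (H12.CC.left_comm h1) hn
    have := h1.2.1 c hc b (Subgroup.mem_sup_right hb)
    have e : a * c * b * (a * c)⁻¹ * b⁻¹ = a * b * a⁻¹ * b⁻¹ := by
      rw [mul_assoc a c b, this]; group
    rw [commutatorElement_def, e]
    exact H12.comm_mem ha hb
  have kB := k hA h1
  have kD := k hC h2
  rw [hDC', sup_comm] at kD
  have cB : ∀ x ∈ B ⊔ D, Cfsg.conjBy ⁅A, B⁆ x = ⁅A ⊔ ⁅A, B⁆, Cfsg.conjBy B x⁆ := fun x hx => by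
    rw [← H12.conjBy_eq_self_iff.2 (hN hx), ← H12.conjBy_commutator, kB]
  have cD : ∀ x ∈ B ⊔ D, Cfsg.conjBy A x = ⁅A ⊔ ⁅A, B⁆, Cfsg.conjBy D x⁆ := fun x hx => by
    rw [← H12.conjBy_eq_self_iff.2 (hN hx), ← H12.conjBy_commutator, kD]
  have s1 : ∀ E, (∃ x ∈ B ⊔ D, E = Cfsg.conjBy ⁅A, B⁆ x) ↔
      ∃ U ∈ Cfsg.unipotentSubgroups B D, E = ⁅A ⊔ ⁅A, B⁆, U⁆ := fun E =>
    ⟨fun ⟨x, hx, e⟩ => ⟨_, ⟨x, hx, rfl⟩, e.trans (cB x hx)⟩,
      fun ⟨_, ⟨x, hx, rfl⟩, e⟩ => ⟨x, hx, e.trans (cB x hx).symm⟩⟩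
  have s2 : ∀ E, (∃ x ∈ B ⊔ D, E = Cfsg.conjBy A x) ↔
      ∃ U ∈ Cfsg.unipotentSubgroups B D, E = ⁅A ⊔ ⁅A, B⁆, U⁆ := fun E => by
    rw [← H12.RO.omega_symm hr]
    exact ⟨fun ⟨x, hx, e⟩ => ⟨_, ⟨x, by rwa [sup_comm], rfl⟩, e.trans (cD x hx)⟩,
      fun ⟨_, ⟨x, hx, rfl⟩, e⟩ => ⟨x, by rwa [sup_comm], e.trans (cD x (by rwa [sup_comm])).symm⟩⟩
  have s3 : {E | ∃ x ∈ B ⊔ D, E = Cfsg.conjBy A x} = (fun b : G => Cfsg.conjBy A b) '' (B : Set G) ∪ {⁅A, B⁆} := by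
    ext E
    simp only [Set.mem_setOf_eq, Set.mem_union, Set.mem_image, Set.mem_singleton_iff, SetLike.mem_coe]
    constructor
    · intro h
      obtain ⟨U, hU, rfl⟩ := (s2 E).1 h
      rcases (H12.RO.mem_omega_iff hr).1 hU with rfl | ⟨b, hb, rfl⟩
      · exact Or.inr kB
      · exact Or.inl ⟨b, hb, cD b (Subgroup.mem_sup_left hb)⟩
    · rintro (⟨b, hb, rfl⟩ | rfl)
      · exact ⟨b, Subgroup.mem_sup_left hb, rfl⟩
      · exact (s2 _).2 ⟨B, H12.RO.left_mem_omega B D, kB.symm⟩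
  refine ⟨hr, ?_, s3, ?_, ⟨?_, ?_, ?_⟩, ?_⟩
  · ext E
    exact (s2 E).trans (s1 E).symm
  · ext E
    simp only [Set.mem_setOf_eq, Set.mem_union, Set.mem_image, Set.mem_singleton_iff, SetLike.mem_coe]
    constructor
    · intro h
      obtain ⟨U, hU, rfl⟩ := (s2 E).1 h
      rw [← H12.RO.omega_symm hr] at hU
      rcases (H12.RO.mem_omega_iff (H12.RO.symm hr)).1 hU with rfl | ⟨b, hb, rfl⟩
      · exact Or.inr kD
      · exact Or.inl ⟨b, hb, cB b (Subgroup.mem_sup_right hb)⟩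
    · rintro (⟨b, hb, rfl⟩ | rfl)
      · exact (s2 _).2 ((s1 _).1 ⟨b, Subgroup.mem_sup_right hb, rfl⟩)
      · exact ⟨1, one_mem _, by simp⟩
  · rintro _ ⟨x, hx, rfl⟩
    rw [← H12.conjBy_eq_self_iff.2 (hN hx)]
    exact H12.conjBy_le_conjBy.2 le_sup_left
  · intro x hx hx1
    rw [s3]
    rcases H12.RS.cc_root hS hA h1 hx hx1 with h | ⟨b, hb, h⟩
    · exact ⟨_, Or.inr rfl, h⟩
    · exact ⟨_, Or.inl ⟨b, hb, rfl⟩, h⟩
  · intro E hE E' hE' hne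
    obtain ⟨U, hU, rfl⟩ := (s2 E).1 hE
    obtain ⟨U', hU', rfl⟩ := (s2 E').1 hE'
    obtain ⟨x, hx, rfl, rfl⟩ := H12.RO.exists_conj_pair hr hU hU' (fun e => hne (by rw [e]))
    rw [← cB x hx, ← cD x hx, ← H12.conjBy_inf, H12.conjBy_eq_bot, eq_bot_iff]
    exact fun y hy => H12.RS.cc_not_le hS h1 hy.2 hy.1
  · rcases H12.RO.normal_dichotomy' hr
      (N := (B ⊔ D) ⊓ Subgroup.centralizer ((A ⊔ ⁅A, B⁆ : Subgroup G) : Set G)) inf_le_left (fun x hx n hn =>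
        ⟨(B ⊔ D).mul_mem ((B ⊔ D).mul_mem hx hn.1) ((B ⊔ D).inv_mem hx), fun y hy => by
          have h3 : x⁻¹ * y * x ∈ A ⊔ ⁅A, B⁆ := H12.mem_conjBy.1 ((H12.conjBy_eq_self_iff.2 (hN hx)).symm ▸ hy)
          have := hn.2 _ h3
          calc y * (x * n * x⁻¹) = x * (x⁻¹ * y * x * n) * x⁻¹ := by group
            _ = _ := by rw [this]; group⟩) with h | h
    · exfalso
      apply hS.ne_bot A hA
      rw [← hDC']
      refine H12.commutator_eq_bot_mono (A := ⁅A, B⁆) (B := B ⊔ D) ?_ le_rfl le_sup_right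
      rw [← h]
      refine H12.commutator_sup_eq_bot' ?_ (H12.commutator_eq_bot_symm (H12.CC.right_comm h1))
      exact H12.commutator_eq_bot_iff.2 fun c hc n hn => hn.2 c (Subgroup.mem_sup_right hc)
    · exact h

end Cfsg.Agent.S5036
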