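import Mathlib
import Cfsg.Statements.S5037
import Cfsg.Agent.H12.RootSub2

set_option autoImplicit false
open Cfsg

namespace Cfsg.Agent.S5037

/-- Let S be a class of abstract root subgroups of G that is either degenerate or non-degenerate (so either the commutator case never occurs, or all three cases occur), and A ≠ C members of S. If every member of S commuting with A commutes with C, then A and C have the same commuting members of S; and if every rank one partner of A is a rank one partner of C, then A and C commute and have the same rank one partners. -/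
theorem result {G : Type*} [Group G] {S : Set (Subgroup G)} (hS : Cfsg.IsRootSubgroupClass S)
    (hdn : Cfsg.IsDegenerateRootSet S ∨ Cfsg.IsNondegenerateRootSet S)
    {A C : Subgroup G} (hA : A ∈ S) (hC : C ∈ S) (hAC : A ≠ C) :
    (Cfsg.centralizingMembers S A ⊆ Cfsg.centralizingMembers S C →
      Cfsg.centralizingMembers S A = Cfsg.centralizingMembers S C) ∧
    (Cfsg.rankOnePartners S A ⊆ Cfsg.rankOnePartners S C →
      ⁅A, C⁆ = ⊥ ∧ Cfsg.rankOnePartners S A = Cfsg.rankOnePartners S C) := by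
  by_cases hni : H12.NI S A
  swap
  · have hno : ∀ X ∈ S, ∀ Y ∈ S, ¬ Cfsg.IsRankOnePair X Y := fun X hX Y hY h =>
      hni (H12.RS.ni_of_class hS.1 hS.2 ⟨hX, Y, hY, h⟩ A hA)
    have hdeg : Cfsg.IsDegenerateRootSet S := hdn.resolve_right fun h => by
      obtain ⟨X, hX, Y, hY, h⟩ := h.2.1
      exact hno X hX Y hY h
    have hall : ∀ X ∈ S, ∀ Y ∈ S, ⁅X, Y⁆ = ⊥ := fun X hX Y hY =>
      ((hS.1.pair X hX Y hY).resolve_right (not_or.2 ⟨hno X hX Y hY, hdeg X hX Y hY⟩))
    refine ⟨fun h => Set.Subset.antisymm h fun D hD => ⟨hD.1, H12.le_centralizer_iff_commutator.2 (hall A hA D hD.1)⟩,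
      fun h => ⟨hall A hA C hC, Set.Subset.antisymm h fun D hD => absurd hD.2 (hno C hC D hD.1)⟩⟩
  have hN := H12.RS.ni_of_class hS.1 hS.2 hni
  constructor
  · intro h
    refine Set.Subset.antisymm h ?_
    obtain ⟨-, E, hE, hr⟩ := hN C hC
    have h' : ∀ D ∈ S, ⁅A, D⁆ = ⊥ → ⁅C, D⁆ = ⊥ := fun D hD hc =>
      H12.le_centralizer_iff_commutator.1 (h ⟨hD, H12.le_centralizer_iff_commutator.2 hc⟩).2
    have hr' : Cfsg.IsRankOnePair A E := by
      rcases hS.1.pair A hA E hE with h1 | h1 | h1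
      · exact absurd (h' E hE h1) (H12.RO.commutator_ne_bot hr)
      · exact h1
      · exfalso
        obtain ⟨f, hf, hf1⟩ := H12.RS.exists_ne_one hS.1 h1.1
        refine hf1 (H12.RS.not_commute_of_line hS.1 hE hC (H12.RO.symm hr) (H12.CC.right_comm h1)
          (fun b hb d hd => ?_) hf (fun c hc => H12.commutator_eq_bot_iff.1 (h' _ h1.1 (H12.CC.left_comm h1)) c hc f hf))
        refine H12.RS.cc_root' hS.1 hE (H12.CC.symm h1) ?_
        rw [Subgroup.commutator_comm]
        exact mul_mem (Subgroup.mem_sup_right hd) (Subgroup.mem_sup_left hb)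
    refine H12.RS.preorder_symm hS.1 (r := fun A C => Cfsg.centralizingMembers S A ⊆ Cfsg.centralizingMembers S C)
      (fun _ _ _ h1 h2 => h1.trans h2) ?_ ?_ hA hC hE hr' hr h
    · intro X Y g h D hD
      have h1 := H12.commutator_conjBy_eq_bot (H12.le_centralizer_iff_commutator.1 hD.2) g⁻¹
      rw [H12.conjBy_inv_conjBy] at h1
      have h2 := H12.commutator_conjBy_eq_bot (H12.le_centralizer_iff_commutator.1
        (h ⟨hS.1.conj_mem D hD.1 _, H12.le_centralizer_iff_commutator.2 h1⟩).2) g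
      rw [H12.conjBy_conjBy_inv] at h2
      exact ⟨hD.1, H12.le_centralizer_iff_commutator.2 h2⟩
    · intro X hX Y hY h
      exact H12.commutator_eq_bot_symm (H12.le_centralizer_iff_commutator.1
        (h ⟨hX, H12.le_centralizer_iff_commutator.2 (H12.RS.comm_self hS.1 hX)⟩).2)
  · intro h
    have hcomm : ∀ X ∈ S, ∀ Y ∈ S, Cfsg.rankOnePartners S X ⊆ Cfsg.rankOnePartners S Y → ⁅X, Y⁆ = ⊥ := by
      intro X hX Y hY h
      rcases hS.1.pair X hX Y hY with h1 | h1 | h1
      · exact h1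
      · exact absurd rfl (h ⟨hY, h1⟩).2.ne
      · obtain ⟨D, hD, h2, h3⟩ := H12.RS.exists_opp_comm hS.1 hN hY hX (H12.CC.symm h1)
        exact absurd h3 (H12.RO.commutator_ne_bot (h ⟨hD, h2⟩).2)
    refine ⟨hcomm A hA C hC h, Set.Subset.antisymm h ?_⟩
    obtain ⟨-, E, hE, hr⟩ := hni
    refine H12.RS.preorder_symm hS.1 (r := fun A C => Cfsg.rankOnePartners S A ⊆ Cfsg.rankOnePartners S C)
      (fun _ _ _ h1 h2 => h1.trans h2) ?_ hcomm hA hC hE hr (h ⟨hE, hr⟩).2 h
    intro X Y g h D hD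
    have h1 := H12.RO.conj hD.2 g⁻¹
    rw [H12.conjBy_inv_conjBy] at h1
    have h2 := H12.RO.conj (h ⟨hS.1.conj_mem D hD.1 _, h1⟩).2 g
    rw [H12.conjBy_conjBy_inv] at h2
    exact ⟨hD.1, h2⟩

end Cfsg.Agent.S5037
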