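import Mathlib
import Cfsg.Statements.S5040
import Cfsg.Agent.H12.RootSub2

set_option autoImplicit false
open Cfsg

namespace Cfsg.Agent.S5040

/-- Let S be a non-degenerate class of abstract root subgroups of G and Δ a weak TI-subset of S. Then the members of Δ commute with one another elementwise. -/
theorem result {G : Type*} [Group G] {S : Set (Subgroup G)} (hS : Cfsg.IsRootSubgroupClass S) (hnd : Cfsg.IsNondegenerateRootSet S)
    {Δ : Set (Subgroup G)} (hΔ : Cfsg.IsWeakTISubset S Δ) : Cfsg.IsAbelianFamily Δ := by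
  obtain ⟨hsub, -, hne, hTI⟩ := hΔ
  have hN := H12.RS.nd_ni hS.1 hS.2 hnd
  let N : Subgroup G :=
    { carrier := {g | ∀ X, X ∈ Δ ↔ Cfsg.conjBy X g ∈ Δ}
      one_mem' := fun X => by simp
      mul_mem' := fun {a b} ha hb X => by rw [H12.conjBy_mul, ← ha, ← hb]
      inv_mem' := fun {a} ha X => by rw [ha (Cfsg.conjBy X a⁻¹)]; simp }
  have hc : ∀ X ∈ Δ, ∀ D ∈ S, ⁅X, D⁆ = ⊥ → D ≤ N := by
    intro X hX D hD h d hd
    by_cases hd1 : d = 1
    · rw [hd1]; exact one_mem _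
    rcases hTI d ⟨hd1, D, hD, hd⟩ with e | e
    · intro Y
      constructor
      · intro hY
        rw [← e]; exact ⟨Y, hY, rfl⟩
      · intro hY
        rw [← e] at hY
        obtain ⟨Z, hZ, e2⟩ := hY
        exact H12.conjBy_inj.1 e2 ▸ hZ
    · exact absurd hX (Set.disjoint_left.1 e ⟨X, hX, H12.conjBy_of_commutator_eq_bot h hd⟩)
  have k : ∀ A ∈ Δ, ∀ B ∈ Δ, ¬ Cfsg.IsRankOnePair A B := by
    intro A hA B hB hr
    have h1 : N = ⊤ := by
      rw [eq_top_iff, ← H12.RS.generates_of_line hS.1 hS.2 hnd (hsub hA) (hsub hB) hr]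
      exact sup_le (iSup₂_le fun C hC => hc A hA C hC.1.1 hC.1.2.2)
        (hc B hB B (hsub hB) (H12.RS.comm_self hS.1 (hsub hB)))
    apply hne
    refine Set.Subset.antisymm hsub fun X hX => ?_
    obtain ⟨g, rfl⟩ := hS.2.2 A (hsub hA) X hX
    exact ((h1 ▸ Subgroup.mem_top g : g ∈ N) A).1 hA
  intro A hA B hB
  rcases hS.1.pair A (hsub hA) B (hsub hB) with h | h | h
  · exact H12.commutator_eq_bot_iff.1 h
  · exact absurd h (k A hA B hB)
  · exfalso
    obtain ⟨D, hD, h2, h3⟩ := H12.RS.exists_opp_comm hS.1 hN (hsub hA) (hsub hB) h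
    obtain ⟨d, hd, hd1⟩ := H12.RS.exists_ne_one hS.1 hD
    exact k B hB _ ((hc A hA D hD h3 hd B).1 hB) (H12.RO.pair_conj (H12.RO.symm h2) hd hd1).1

end Cfsg.Agent.S5040
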