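import Mathlib
import Cfsg.Statements.S5045
import Cfsg.Agent.H12.RootInv

set_option autoImplicit false
open Cfsg

namespace Cfsg.Agent.S5045

open H12 H12.RI

/-- Let G be a finite group generated by a set D of root involutions, and W the set of members of D whose product with every other member of D has even order or is trivial (the isolated vertices of the odd-order-product graph on D). Then W is conjugation-invariant and generates a normal 2-subgroup of G meeting D in exactly W; the commutator of two members of D lying in different connected components of that graph, each with more than one member, lies in the subgroup generated by W; and for a in such a component, every member of D commuting with a, different from a and with product with a in D, lies in that component or in W. -/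
theorem result {G : Type*} [Group G] [Finite G] {D : Set G} (hD : Cfsg.IsRootInvolutionSet D) :
    (∀ w ∈ {w | Cfsg.IsIsolatedElem (Cfsg.OddAdj D) D w}, ∀ g : G, g * w * g⁻¹ ∈ {w | Cfsg.IsIsolatedElem (Cfsg.OddAdj D) D w}) ∧
    (Subgroup.closure {w | Cfsg.IsIsolatedElem (Cfsg.OddAdj D) D w}).Normal ∧
    IsPGroup 2 ↥(Subgroup.closure {w | Cfsg.IsIsolatedElem (Cfsg.OddAdj D) D w}) ∧
    (Subgroup.closure {w | Cfsg.IsIsolatedElem (Cfsg.OddAdj D) D w} : Set G) ∩ D = {w | Cfsg.IsIsolatedElem (Cfsg.OddAdj D) D w} ∧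
    (∀ a ∈ D, ∀ b ∈ D, (∃ a' ∈ Cfsg.elemComponentOf (Cfsg.OddAdj D) D a, a' ≠ a) →
      (∃ b' ∈ Cfsg.elemComponentOf (Cfsg.OddAdj D) D b, b' ≠ b) →
      Cfsg.elemComponentOf (Cfsg.OddAdj D) D a ≠ Cfsg.elemComponentOf (Cfsg.OddAdj D) D b →
        a * b * a⁻¹ * b⁻¹ ∈ Subgroup.closure {w | Cfsg.IsIsolatedElem (Cfsg.OddAdj D) D w}) ∧
    (∀ a ∈ D, (∃ a' ∈ Cfsg.elemComponentOf (Cfsg.OddAdj D) D a, a' ≠ a) →
      Cfsg.productPartners D a ⊆ Cfsg.elemComponentOf (Cfsg.OddAdj D) D a ∪ {w | Cfsg.IsIsolatedElem (Cfsg.OddAdj D) D w}) := by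
  have hW : ∀ w, Cfsg.IsIsolatedElem (Cfsg.OddAdj D) D w ↔ w ∈ D ∧ ∀ x ∈ D, ¬ Od w x := fun w =>
    and_congr_right fun hw => ⟨fun h x hx ho => (h x).1 ⟨hw, hx, ho⟩,
      fun h x => ⟨fun e => h x e.2.1 e.2.2, fun e => h x e.1 (Od.symm e.2.2)⟩⟩
  have h1 : ∀ w ∈ {w | Cfsg.IsIsolatedElem (Cfsg.OddAdj D) D w}, ∀ g : G,
      g * w * g⁻¹ ∈ {w | Cfsg.IsIsolatedElem (Cfsg.OddAdj D) D w} := by
    intro w hw g
    rw [Set.mem_setOf_eq, hW] at hw ⊢
    exact ⟨hD.conj_mem w hw.1 g, fun x hx ho => hw.2 _ (hD.conj_mem x hx g⁻¹) (by simpa [mul_assoc] using ho.conj g⁻¹)⟩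
  have h2 := H08.normal_closure_of_conj_mem h1
  have h3 : IsPGroup 2 ↥(Subgroup.closure {w | Cfsg.IsIsolatedElem (Cfsg.OddAdj D) D w}) :=
    baer_self (fun x hx => sq hD hx.1) (fun x hx y hy => (not_od_iff hD hx.1 hy.1).1 (((hW x).1 hx).2 y hy.1))
      (fun x hx y _ => h1 x hx y)
  have h5 : ∀ a ∈ D, (∃ a' ∈ Cfsg.elemComponentOf (Cfsg.OddAdj D) D a, a' ≠ a) →
      Cfsg.productPartners D a ⊆ Cfsg.elemComponentOf (Cfsg.OddAdj D) D a ∪
        {w | Cfsg.IsIsolatedElem (Cfsg.OddAdj D) D w} := by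
    rintro a ha ⟨a', h, hne⟩ b hb
    obtain ⟨x, hx, ho⟩ : ∃ x ∈ D, Od a x := by
      rcases h.2.cases_head with e | ⟨x, e, -⟩
      · exact absurd e.symm hne
      · exact ⟨x, e.2.1, e.2.2⟩
    by_cases hb' : Cfsg.IsIsolatedElem (Cfsg.OddAdj D) D b
    · exact Or.inr hb'
    refine Or.inl ⟨hb.1.1, ?_⟩
    have r1 : Relation.ReflTransGen (Cfsg.OddAdj D) a x := .single ⟨ha, hx, ho⟩
    by_cases h6 : Od x b
    · exact r1.tail ⟨hx, hb.1.1, h6⟩
    have hab := (partner_mul hD ha hb).1.1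
    have o1 := l4 hD hx ha hb.1.1 hb.1.2.1.symm hab ho.symm h6
    simp only [hW, not_and, not_forall, not_not] at hb'
    obtain ⟨y, hy, o2⟩ := hb' hb.1.1
    by_cases h7 : Od y a
    · exact .tail (.single ⟨ha, hy, h7.symm⟩) ⟨hy, hb.1.1, o2.symm⟩
    have o3 := l4 hD hy hb.1.1 ha hb.1.2.1 hb.2 o2.symm h7
    rw [hb.1.2.1] at o3
    exact ((r1.tail ⟨hx, hab, o1⟩).tail ⟨hab, hy, o3.symm⟩).tail ⟨hy, hb.1.1, o2.symm⟩
  refine ⟨h1, h2, h3, Set.Subset.antisymm (fun d hd => (hW d).2 ⟨hd.2, fun x hx ho => ?_⟩)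
    (fun w hw => ⟨Subgroup.subset_closure hw, hw.1⟩), fun a ha b hb ha' hb' hne => ?_, h5⟩
  · have m : (d * x) ^ 2 ∈ Subgroup.closure {w | Cfsg.IsIsolatedElem (Cfsg.OddAdj D) D w} := by
      simpa [pow_two, inv hD hx, mul_assoc] using mul_mem hd.1 (h2.conj_mem d hd.1 x)
    obtain ⟨k, hk⟩ := h3 ⟨_, mem_of_sq_mem ho.2 m⟩
    exact ho.not_pow (sq hD hx) (congrArg Subtype.val hk)
  · have symm : ∀ {x y}, Relation.ReflTransGen (Cfsg.OddAdj D) x y → Relation.ReflTransGen (Cfsg.OddAdj D) y x :=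
      fun h => by
        induction h with
        | refl => exact .refl
        | tail _ e ih => exact .head ⟨e.2.1, e.1, Od.symm e.2.2⟩ ih
    have hn : ¬ Relation.ReflTransGen (Cfsg.OddAdj D) a b := fun h => hne (Set.ext fun x => and_congr_right fun _ =>
      ⟨(symm h).trans, h.trans⟩)
    have no : ¬ Od a b := fun ho => hn (.single ⟨ha, hb, ho⟩)
    rw [inv hD ha, inv hD hb]
    by_cases hc : a * b = b * a
    · rw [mul_assoc (a * b), ← pow_two, pow_four_of_comm hD ha hb hc]; exact one_mem _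
    rcases h5 a ha ha' (sq_partner' hD ha hb no hc) with e | e
    · rcases h5 b hb hb' (sq_partner hD ha hb no hc) with e' | e'
      · exact absurd (e.2.trans (symm e'.2)) hn
      · exact Subgroup.subset_closure e'
    · exact Subgroup.subset_closure e

end Cfsg.Agent.S5045
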