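import Mathlib
import Cfsg.Statements.S5046
import Cfsg.Agent.H12.RootInv

set_option autoImplicit false
open Cfsg

namespace Cfsg.Agent.S5046

open H12 H12.RI

/-- Let G be a finite group generated by a set D of root involutions whose odd-order-product graph is connected, and d ∈ D. Then the members e of D with the same commuting members as d are exactly those for which the union of the commuting members of d and the members whose product with d has order 4 equals the corresponding union for e. -/
theorem result {G : Type*} [Group G] [Finite G] {D : Set G} (hD : Cfsg.IsRootInvolutionSet D)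
    (hc : Cfsg.IsConnectedSet (Cfsg.OddAdj D) D) {d : G} (hd : d ∈ D) :
    Cfsg.sameCommutingClass D d =
      {e | e ∈ D ∧ Cfsg.commutingMembers D d ∪ Cfsg.fourPartners D d = Cfsg.commutingMembers D e ∪ Cfsg.fourPartners D e} := by
  have key : ∀ {d : G}, d ∈ D → ∀ x, x ∈ Cfsg.commutingMembers D d ∪ Cfsg.fourPartners D d ↔ x ∈ D ∧ ¬ Od d x := by
    intro d hd x
    constructor
    · rintro (⟨h1, h2⟩ | ⟨h1, h2⟩)
      · exact ⟨h1, not_od_of_comm hD h1 hd h2.symm⟩
      · exact ⟨h1, (not_od_iff hD hd h1).2 (h2 ▸ pow_orderOf_eq_one _)⟩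
    · rintro ⟨h1, h2⟩
      by_cases h : d * x = x * d
      · exact Or.inl ⟨h1, h.symm⟩
      · exact Or.inr ⟨h1, (sq_mem hD hd h1 h2 h).1⟩
  ext e
  refine and_congr_right fun he => ⟨fun h => ?_, fun h => ?_⟩
  · have h1 := sub_of_comm hD hd he fun y hy e' => (h.symm ▸ (⟨hy, e'⟩ : y ∈ Cfsg.commutingMembers D e) :
      y ∈ Cfsg.commutingMembers D d).2
    have h2 := sub_symm' hD hc hd he h1
    ext x
    rw [key hd, key he]
    exact and_congr_right fun hx => not_congr ⟨h1 x hx, h2 x hx⟩
  · have h1 : Sub D d e := fun x hx ho => by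
      by_contra hn
      exact ((key hd x).1 (h ▸ (key he x).2 ⟨hx, hn⟩)).2 ho
    ext y
    exact and_congr_right fun hy => ⟨comm_of_sub hD hc hd he h1 hy,
      comm_of_sub hD hc he hd (sub_symm' hD hc hd he h1) hy⟩

end Cfsg.Agent.S5046
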