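import Mathlib
import Cfsg.Statements.S5049
import Cfsg.Agent.H12.RootInv

set_option autoImplicit false
open Cfsg

namespace Cfsg.Agent.S5049

open H12 H12.RI

/-- Let G be a finite group generated by a set D of odd transpositions (root involutions with no product of order 4), Q = O₂(G), and for a ∈ D let Q_a be the commutator subgroup of Q with a. Then every member of D commuting with a centralizes Q_a; and for b ∈ D with ab of odd order greater than 1, the centralizer of ab in Q is the intersection of the centralizers of a and b in Q. -/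
theorem result {G : Type*} [Group G] [Finite G] {D : Set G} (hD : Cfsg.IsOddTranspositionSet D) {a : G} (ha : a ∈ D) :
    (∀ e ∈ Cfsg.commutingMembers D a, ∀ q ∈ ⁅Cfsg.pCore 2 G, Subgroup.zpowers a⁆, e * q = q * e) ∧
    (∀ b ∈ Cfsg.oddPartners D a,
      Cfsg.pCore 2 G ⊓ Subgroup.centralizer {a * b} = Cfsg.pCore 2 G ⊓ Subgroup.centralizer {a} ⊓ Subgroup.centralizer {b}) := by
  have hD1 := hD.1
  have hQ := H02.pCore_isPGroup 2 G
  have hN : (Cfsg.pCore 2 G).Normal := inferInstance
  have key : ∀ {a}, a ∈ D → ∀ e ∈ D, e * a = a * e → ∀ q ∈ Cfsg.pCore 2 G, e * (q * a * q⁻¹) = (q * a * q⁻¹) * e := by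
    intro a ha e he h q hq
    have hm := hD1.conj_mem a ha q
    by_contra hc
    refine hD.2 e he _ hm (sq_mem hD1 he hm (fun ho => ?_) hc).1
    have m : (e * (q * a * q⁻¹)) ^ 2 ∈ Cfsg.pCore 2 G := by
      have : (e * (q * a * q⁻¹)) ^ 2 = (e * q * e⁻¹) * ((e * a) * (q⁻¹ * (e * q * e⁻¹)) * (e * a)⁻¹) * q⁻¹ *
          (q * (e * a) ^ 2 * q⁻¹) := by
        rw [pow_two, pow_two]; group
      rw [this, pow_four_of_comm hD1 he ha h]
      exact mul_mem (mul_mem (mul_mem (hN.conj_mem q hq e) (hN.conj_mem _ (mul_mem (inv_mem hq) (hN.conj_mem q hq e)) _))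
        (inv_mem hq)) (by simp)
    obtain ⟨k, hk⟩ := hQ ⟨_, mem_of_sq_mem ho.2 m⟩
    exact ho.not_pow (sq hD1 hm) (congrArg Subtype.val hk)
  refine ⟨fun e he => ?_, fun b hb => le_antisymm (fun q hq => ?_) (fun q hq => ⟨hq.1.1, ?_⟩)⟩
  · have : ⁅Cfsg.pCore 2 G, Subgroup.zpowers a⁆ ≤ Subgroup.centralizer {e} := by
      rw [Subgroup.commutator_le]
      rintro q hq x hx
      rw [Subgroup.mem_centralizer_singleton_iff]
      obtain ⟨n, rfl⟩ := hx
      have := Commute.zpow_right (key ha e he.1 he.2 q hq) n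
      rw [conj_zpow] at this
      exact ((Commute.mul_right this (Commute.inv_right (Commute.zpow_right he.2 n))).symm : Commute _ _)
    exact fun q hq => (Subgroup.mem_centralizer_singleton_iff.1 (this hq)).symm
  · have h1 := Subgroup.mem_centralizer_singleton_iff.1 hq.2
    have k1 := key ha a ha rfl q hq.1
    have k2 := key hb.1 b hb.1 rfl q hq.1
    have e : a * (q * a * q⁻¹) = b * (q * b * q⁻¹) := by
      have : q * a * q⁻¹ = a * b * (q * b * q⁻¹) := by
        rw [← mul_assoc, ← mul_assoc, ← h1]; simp [mul_assoc, cancel hD1 hb.1]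
      rw [this, mul_assoc a, cancel hD1 ha]
    have z := l1 hD1 ha hb.1 ⟨hb.2.1.symm, hb.2.2⟩ (z := a * (q * a * q⁻¹)) (by rw [mul_assoc a, ← k1])
      (by rw [e, mul_assoc b, ← k2]) (by rw [mul_assoc a, ← k1, cancel hD1 ha]; exact hD1.conj_mem a ha q)
    have z' := e ▸ z
    refine ⟨⟨hq.1, Subgroup.mem_centralizer_singleton_iff.2 ?_⟩, Subgroup.mem_centralizer_singleton_iff.2 ?_⟩
    · rw [← mul_inv_eq_iff_eq_mul, eq_inv_of_mul_eq_one_right z, inv hD1 ha]
    · rw [← mul_inv_eq_iff_eq_mul, eq_inv_of_mul_eq_one_right z', inv hD1 hb.1]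
  · refine Subgroup.mem_centralizer_singleton_iff.2 ?_
    exact Commute.mul_right (Subgroup.mem_centralizer_singleton_iff.1 hq.1.2) (Subgroup.mem_centralizer_singleton_iff.1 hq.2)

end Cfsg.Agent.S5049
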