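import Mathlib
import Cfsg.Statements.S5057

set_option autoImplicit false
open Cfsg

namespace Cfsg.Agent.S5057

theorem key : ∀ g : Equiv.Perm (Fin 6), Equiv.Perm.sign g = 1 →
    (g ^ 1 = 1 ∨ g ^ 2 = 1 ∨ g ^ 3 = 1 ∨ g ^ 4 = 1 ∨ g ^ 5 = 1) ∧
      (g ^ 2 = 1 → g = 1 ∨ g.support.card = 4) := by
  decide +kernel

theorem ord_le (g : alternatingGroup (Fin 6)) : orderOf g ≤ 5 := by
  rw [← Subgroup.orderOf_coe]
  rcases (key g.1 g.2).1 with h | h | h | h | h <;>
    exact (orderOf_le_of_pow_eq_one (by decide) h).trans (by decide)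

theorem supp (g : alternatingGroup (Fin 6)) (hg : orderOf g = 2) :
    g.1.support.card = 4 ∧ g.1.cycleType = Multiset.replicate 2 2 := by
  rw [← Subgroup.orderOf_coe] at hg
  have h4 : g.1.support.card = 4 := by
    refine ((key g.1 g.2).2 (hg ▸ pow_orderOf_eq_one g.1)).resolve_left fun e => ?_
    rw [e, orderOf_one] at hg
    exact absurd hg (by decide)
  obtain ⟨n, hn⟩ := Equiv.Perm.cycleType_prime_order (σ := g.1) (hg ▸ Nat.prime_two)
  have := Equiv.Perm.sum_cycleType g.1
  rw [hn, hg, h4, Multiset.sum_replicate, smul_eq_mul] at this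
  obtain rfl : n = 1 := by omega
  exact ⟨h4, by rw [hn, hg]⟩

/-- The involutions of the alternating group of degree 6 form a class of root involutions (a single conjugacy class of involutions generating the group, any two of which commute, have product of odd order, or have product of order 4 whose square is again an involution of the class), and the product of any two of them has order at most 5. -/
theorem result :
    Cfsg.IsRootInvolutionClass {g : ↥(alternatingGroup (Fin 6)) | orderOf g = 2} ∧
    ∀ d ∈ {g : ↥(alternatingGroup (Fin 6)) | orderOf g = 2}, ∀ e ∈ {g : ↥(alternatingGroup (Fin 6)) | orderOf g = 2},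
      orderOf (d * e) ≤ 5 := by
  have hconj : ∀ d ∈ {g : ↥(alternatingGroup (Fin 6)) | orderOf g = 2}, ∀ g : alternatingGroup (Fin 6),
      g * d * g⁻¹ ∈ {g : ↥(alternatingGroup (Fin 6)) | orderOf g = 2} := fun d hd g => by
    have := orderOf_injective (MulAut.conj g).toMonoidHom (MulAut.conj g).injective d
    exact this.trans hd
  let x : alternatingGroup (Fin 6) := ⟨Equiv.swap 0 1 * Equiv.swap 2 3, by
    rw [Equiv.Perm.mem_alternatingGroup]; decide⟩
  have hx1 : x ≠ 1 := by
    intro e
    have := congrArg (fun g : alternatingGroup (Fin 6) => g.1 0) e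
    revert this
    decide
  have hx : orderOf x = 2 := orderOf_eq_prime (Subtype.ext (by decide)) hx1
  refine ⟨⟨⟨fun d hd => hd, ?_, hconj, fun a ha b hb => ?_⟩, ⟨x, hx⟩, fun a ha b hb => ?_⟩,
    fun d _ e _ => ord_le _⟩
  · have : IsSimpleGroup (alternatingGroup (Fin 6)) := alternatingGroup.isSimpleGroup (by simp)
    have hn : (Subgroup.closure {g : ↥(alternatingGroup (Fin 6)) | orderOf g = 2}).Normal := by
      refine ⟨fun n hn g => ?_⟩
      have : Subgroup.closure {g : ↥(alternatingGroup (Fin 6)) | orderOf g = 2} ≤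
          (Subgroup.closure {g : ↥(alternatingGroup (Fin 6)) | orderOf g = 2}).comap
            (MulAut.conj g).toMonoidHom := by
        rw [Subgroup.closure_le]
        exact fun d hd => Subgroup.subset_closure (hconj d hd g)
      exact this hn
    refine hn.eq_bot_or_eq_top.resolve_left fun e => hx1 ?_
    have : x ∈ Subgroup.closure {g : ↥(alternatingGroup (Fin 6)) | orderOf g = 2} :=
      Subgroup.subset_closure hx
    rwa [e, Subgroup.mem_bot] at this
  · have h1 := ord_le (a * b)
    have h2 := orderOf_pos (a * b)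
    have ha2 : a * a = 1 := by rw [← pow_two, ← show orderOf a = 2 from ha, pow_orderOf_eq_one]
    have hb2 : b * b = 1 := by rw [← pow_two, ← show orderOf b = 2 from hb, pow_orderOf_eq_one]
    generalize hk : orderOf (a * b) = m at h1 h2
    interval_cases m
    · exact Or.inr (Or.inl (by decide))
    · left
      have : a * b * (a * b) = 1 := by rw [← pow_two, ← hk, pow_orderOf_eq_one]
      rw [eq_inv_of_mul_eq_one_left this, mul_inv_rev, inv_eq_of_mul_eq_one_right ha2,
        inv_eq_of_mul_eq_one_right hb2]
    · exact Or.inr (Or.inl (by decide))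
    · refine Or.inr (Or.inr ⟨rfl, ?_⟩)
      show orderOf ((a * b) ^ 2) = 2
      rw [orderOf_pow' _ two_ne_zero, hk]; decide
    · exact Or.inr (Or.inl (by decide))
  · obtain ⟨g, hg⟩ := isConj_iff.1 (alternatingGroup.isConj_of (σ := a) (τ := b)
      (Equiv.Perm.isConj_iff_cycleType_eq.2 (by rw [(supp a ha).2, (supp b hb).2]))
      (by rw [(supp a ha).1]; simp))
    exact ⟨g, hg.symm⟩

end Cfsg.Agent.S5057
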