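import Mathlib
import Cfsg.Statements.S5058
import Cfsg.Agent.H12.ExtB

set_option autoImplicit false
open Matrix
open Cfsg

namespace Cfsg.Agent.S5058

/-- Let F be a finite field of characteristic 2 and n a natural number. Then the transvections of SL_{n+3}(F) (so in every dimension at least 3) (the conjugates of the elementary matrices 1 + c E₁₂, c ≠ 0) form a class of root involutions of SL_{n+3}(F); when F has two elements they form a class of {3,4}⁺-transpositions (every product of odd order has order 1 or 3). -/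
theorem result (F : Type*) [Field F] [Fintype F] [CharP F 2] (n : ℕ) :
    Cfsg.IsRootInvolutionClass {t : Matrix.SpecialLinearGroup (Fin (n + 3)) F | ∃ c : F, c ≠ 0 ∧
        ∃ g : Matrix.SpecialLinearGroup (Fin (n + 3)) F, ((g⁻¹ * t * g : Matrix.SpecialLinearGroup (Fin (n + 3)) F) :
          Matrix (Fin (n + 3)) (Fin (n + 3)) F) = Matrix.transvection 0 1 c} ∧
    (Fintype.card F = 2 → Cfsg.IsThreeFourPlusTranspositionSet {t : Matrix.SpecialLinearGroup (Fin (n + 3)) F | ∃ c : F, c ≠ 0 ∧
        ∃ g : Matrix.SpecialLinearGroup (Fin (n + 3)) F, ((g⁻¹ * t * g : Matrix.SpecialLinearGroup (Fin (n + 3)) F) :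
          Matrix (Fin (n + 3)) (Fin (n + 3)) F) = Matrix.transvection 0 1 c}) := by
  have h := H12.Ext.sl_sys (ι := Fin (n + 3)) (F := F)
  have h01 : (0 : Fin (n + 3)) ≠ 1 := zero_ne_one
  have m := H12.Ext.single_mem (F := F) h01 one_ne_zero
  have e : {t : Matrix.SpecialLinearGroup (Fin (n + 3)) F | ∃ c : F, c ≠ 0 ∧
      ∃ g : Matrix.SpecialLinearGroup (Fin (n + 3)) F, ((g⁻¹ * t * g : Matrix.SpecialLinearGroup (Fin (n + 3)) F) :
        Matrix (Fin (n + 3)) (Fin (n + 3)) F) = Matrix.transvection 0 1 c} =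
      H12.Ext.elts Matrix.SpecialLinearGroup.coeMonoidHom (H12.Ext.slE (Fin (n + 3)) F) := by
    ext t
    constructor
    · rintro ⟨c, hc, g, hg⟩
      refine ⟨_, h.conj _ (H12.Ext.single_mem h01 hc) g, ?_⟩
      have : t = g * (g⁻¹ * t * g) * g⁻¹ := by group
      rw [this, map_mul, map_mul]
      have hg' : Matrix.SpecialLinearGroup.coeMonoidHom (g⁻¹ * t * g) = 1 + Matrix.single 0 1 c := hg
      rw [hg', mul_add, add_mul, mul_one, ← map_mul, mul_inv_cancel, map_one]
    · intro ht
      obtain ⟨g, hg⟩ := h.cls_elts H12.Ext.sl_conn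
        (Matrix.SpecialLinearGroup.transvection h01 1) ⟨_, m, rfl⟩ t ht
      refine ⟨1, one_ne_zero, g, ?_⟩
      rw [hg, show g⁻¹ * (g * Matrix.SpecialLinearGroup.transvection h01 1 * g⁻¹) * g =
        Matrix.SpecialLinearGroup.transvection h01 1 by group]
      rfl
  rw [e]
  have hgen : Subgroup.closure (H12.Ext.elts Matrix.SpecialLinearGroup.coeMonoidHom
      (H12.Ext.slE (Fin (n + 3)) F)) = ⊤ := by
    refine H09.eq_top_of_transvection_mem _ fun i j hij c => ?_
    by_cases hc : c = 0
    · have : Matrix.SpecialLinearGroup.transvection hij c = 1 := by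
        apply Subtype.ext
        change 1 + Matrix.single i j c = 1
        simp [hc]
      rw [this]; exact one_mem _
    · exact Subgroup.subset_closure ⟨_, H12.Ext.single_mem hij hc, rfl⟩
  have hr := h.rootInv hgen
  exact ⟨⟨hr.1, ⟨Matrix.SpecialLinearGroup.transvection h01 1, _, m, rfl⟩,
    h.cls_elts H12.Ext.sl_conn⟩, fun hF => hr.2 (by rw [Nat.card_eq_fintype_card, hF])⟩

end Cfsg.Agent.S5058
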