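import Mathlib
import Cfsg.Statements.S5060
import Cfsg.Agent.H12.DicksonL

set_option autoImplicit false
open Cfsg

namespace Cfsg.Agent.S5060

/-- Let k ⊆ K be fields with the characteristic of k not 2 and k not of order 3, and let α ∈ K be a non-zero element algebraic over k. Then the subgroup of SL₂(K) generated by the upper unitriangular matrices with entry c and the lower unitriangular matrices with entry cα, c ranging over k, is exactly the group of matrices of SL₂(K) with all entries in k(α). -/
theorem result {k K : Type*} [Field k] [Field K] [Algebra k K] (hk2 : ringChar k ≠ 2) (hk3 : Nat.card k ≠ 3)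
    (α : K) (hα : IsAlgebraic k α) (hα0 : α ≠ 0) :
    (Subgroup.closure ({g : Matrix.SpecialLinearGroup (Fin 2) K | ∃ c : k, (g : Matrix (Fin 2) (Fin 2) K) = !![1, algebraMap k K c; 0, 1]} ∪
        {g : Matrix.SpecialLinearGroup (Fin 2) K | ∃ c : k, (g : Matrix (Fin 2) (Fin 2) K) = !![1, 0; algebraMap k K c * α, 1]}) :
      Set (Matrix.SpecialLinearGroup (Fin 2) K)) =
    {g : Matrix.SpecialLinearGroup (Fin 2) K | ∀ i j : Fin 2, (g : Matrix (Fin 2) (Fin 2) K) i j ∈ IntermediateField.adjoin k ({α} : Set K)} := by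
  apply Set.Subset.antisymm
  · let R := IntermediateField.adjoin k ({α} : Set K)
    let L' : Subgroup (Matrix.SpecialLinearGroup (Fin 2) K) :=
      { carrier := {x | ∀ i j, x i j ∈ R}
        one_mem' := fun i j => by
          fin_cases i <;> fin_cases j
          exacts [R.one_mem, R.zero_mem, R.zero_mem, R.one_mem]
        mul_mem' := by
          rintro a b ha' hb' i j
          rw [H09.SL2.mul_apply]
          exact add_mem (mul_mem (ha' _ _) (hb' _ _)) (mul_mem (ha' _ _) (hb' _ _))
        inv_mem' := by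
          rintro a ha' i j
          fin_cases i <;> fin_cases j
          · exact H09.SL2.inv_00 a ▸ ha' _ _
          · exact H09.SL2.inv_01 a ▸ neg_mem (ha' _ _)
          · exact H09.SL2.inv_10 a ▸ neg_mem (ha' _ _)
          · exact H09.SL2.inv_11 a ▸ ha' _ _ }
    refine (Subgroup.closure_le L').2 ?_
    rintro g (⟨c, hc⟩ | ⟨c, hc⟩) i j <;> rw [hc] <;> fin_cases i <;> fin_cases j
    exacts [R.one_mem, R.algebraMap_mem c, R.zero_mem, R.one_mem, R.one_mem, R.zero_mem,
      mul_mem (R.algebraMap_mem c) (IntermediateField.mem_adjoin_simple_self k α), R.one_mem]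
  · intro g hg
    set L := Subgroup.closure ({g : Matrix.SpecialLinearGroup (Fin 2) K | ∃ c : k, (g : Matrix (Fin 2) (Fin 2) K) = !![1, algebraMap k K c; 0, 1]} ∪
        {g : Matrix.SpecialLinearGroup (Fin 2) K | ∃ c : k, (g : Matrix (Fin 2) (Fin 2) K) = !![1, 0; algebraMap k K c * α, 1]})
    have h : ∀ s ∈ IntermediateField.adjoin k ({α} : Set K), H17.up s ∈ L ∧ H17.lo s ∈ L := fun s hs =>
      H12.dickson_lemma hk2 hk3 hα hα0 (fun c => Subgroup.subset_closure (Or.inl ⟨c, rfl⟩))
        (fun c => Subgroup.subset_closure (Or.inr ⟨c, rfl⟩))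
        (by rw [← IntermediateField.adjoin_simple_toSubalgebra_of_isAlgebraic hα]; exact hs)
    have key : ∀ g : Matrix.SpecialLinearGroup (Fin 2) K,
        (∀ i j, g i j ∈ IntermediateField.adjoin k ({α} : Set K)) → g 1 0 ≠ 0 → g ∈ L := by
      intro g hg hc
      have hd := H09.SL2.det_eq g
      have e : g = H17.up ((g 0 0 - 1) / g 1 0) * H17.lo (g 1 0) * H17.up ((g 1 1 - 1) / g 1 0) := by
        apply H09.SL2.ext' <;> simp only [H09.SL2.mul_apply, H17.up_00, H17.up_01, H17.up_10, H17.up_11, H17.lo_00,
          H17.lo_01, H17.lo_10, H17.lo_11] <;> field_simp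
        · ring
        · linear_combination -hd
        · ring
        · ring
      rw [e]
      exact L.mul_mem (L.mul_mem (h _ (div_mem (sub_mem (hg _ _) (one_mem _)) (hg _ _))).1 (h _ (hg _ _)).2)
        (h _ (div_mem (sub_mem (hg _ _) (one_mem _)) (hg _ _))).1
    by_cases hc : g 1 0 = 0
    · have h1 : (H17.lo (1 : K) * g : Matrix.SpecialLinearGroup (Fin 2) K) 1 0 ≠ 0 := by
        simp only [H09.SL2.mul_apply, H17.lo_10, H17.lo_11, hc]
        simpa using H17.upper_ne hc
      refine (L.mul_mem_cancel_left (h 1 (one_mem _)).2).1 (key _ (fun i j => ?_) h1)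
      rw [H09.SL2.mul_apply]
      fin_cases i
      · exact add_mem (mul_mem (one_mem _) (hg _ _)) (mul_mem (zero_mem _) (hg _ _))
      · exact add_mem (mul_mem (one_mem _) (hg _ _)) (mul_mem (one_mem _) (hg _ _))
    · exact key g hg hc

end Cfsg.Agent.S5060
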