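import Mathlib
import Cfsg.Statements.S5063
import Cfsg.Agent.H12.Quad5

set_option autoImplicit false
universe u
open Cfsg

namespace Cfsg.Agent.S5063

/-- Let k be a field of characteristic not 2 with k not of order 3, M a finite-dimensional k-vector space and G ≤ GL(M) such that (G, M) is a quadratic pair (M irreducible for G, and G generated by its quadratically acting elements σ whose scalar family 1 + c(σ − 1), c ∈ k, lies in G). Write 𝒬_d for the quadratic elements of G of minimal commutator rank, E(σ) for the subgroup generated by the members of 𝒬_d with the same fixed space and commutator space as σ, and Σ for the set of these subgroups. Then G is a central product of finitely many quasisimple normal subgroups G₁, …, G_s (pairwise commuting and together generating G), each generated by the quadratic elements of G it contains, and every quadratic element of G lies in one of them. -/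
theorem result {k : Type u} [Field k] (hk2 : ringChar k ≠ 2) (hk3 : Nat.card k ≠ 3)
    {M : Type u} [AddCommGroup M] [Module k M] [FiniteDimensional k M]
    {G : Subgroup (LinearMap.GeneralLinearGroup k M)} (hG : Cfsg.IsQuadraticPair G) :
    ∃ (s : ℕ) (Gi : Fin s → Subgroup (LinearMap.GeneralLinearGroup k M)),
      (∀ i, Gi i ≤ G ∧ ∀ g ∈ G, Cfsg.conjBy (Gi i) g = Gi i) ∧ (∀ i j, i ≠ j → ⁅Gi i, Gi j⁆ = ⊥) ∧ (⨆ i, Gi i) = G ∧
      (∀ i, Cfsg.IsQuasisimple ↥(Gi i) ∧ Subgroup.closure (Cfsg.quadraticElements G ∩ (Gi i : Set (LinearMap.GeneralLinearGroup k M))) = Gi i) ∧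
      Cfsg.quadraticElements G ⊆ ⋃ i, (Gi i : Set (LinearMap.GeneralLinearGroup k M)) := by
  obtain ⟨ι, hι, Gi, h1, h2, h3, h4⟩ := H12.Q.central_prod hk2 hk3 hG.1 _ le_rfl rfl le_sup_left hG.2
  obtain ⟨s, ⟨e⟩⟩ := Finite.exists_equiv_fin ι
  refine ⟨s, fun i => Gi (e.symm i), fun i => ⟨h2 ▸ le_iSup Gi _, fun g hg => H12.normal_of_le_sup (Γ := G) ?_ hg⟩,
    fun i j hij => h1 _ _ fun h => hij (e.symm.injective h), by rw [e.symm.iSup_comp, h2], fun i => h3 _, fun σ hσ => ?_⟩
  · rw [← h2]
    refine iSup_le fun j => ?_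
    by_cases h : e.symm i = j
    · exact h ▸ le_sup_left
    · exact le_sup_of_le_right (H12.le_centralizer_iff_commutator.2 (h1 _ _ h))
  · obtain ⟨i, hi⟩ := h4 σ hσ
    exact Set.mem_iUnion.2 ⟨e i, by simpa using hi⟩

end Cfsg.Agent.S5063
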