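import Mathlib
import Cfsg.Statements.S5064
import Cfsg.Agent.H12.Quad5

set_option autoImplicit false
universe u
open Cfsg

namespace Cfsg.Agent.S5064

open Polynomial H12 H12.Q
open scoped MatrixGroups

/-- Let k be a field of characteristic not 2 with k not of order 3, M a finite-dimensional k-vector space and G ≤ GL(M) such that (G, M) is a quadratic pair (M irreducible for G, and G generated by its quadratically acting elements σ whose scalar family 1 + c(σ − 1), c ∈ k, lies in G). Write 𝒬_d for the quadratic elements of G of minimal commutator rank, E(σ) for the subgroup generated by the members of 𝒬_d with the same fixed space and commutator space as σ, and Σ for the set of these subgroups. If σ, τ ∈ 𝒬_d and the subgroup H generated by their two scalar families does not act unipotently on M, then H is isomorphic to SL₂ over a simple algebraic extension k(λ) of k. -/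
theorem result {k : Type u} [Field k] (hk2 : ringChar k ≠ 2) (hk3 : Nat.card k ≠ 3)
    {M : Type u} [AddCommGroup M] [Module k M] [FiniteDimensional k M]
    {G : Subgroup (LinearMap.GeneralLinearGroup k M)} (hG : Cfsg.IsQuadraticPair G)
    {σ τ : LinearMap.GeneralLinearGroup k M} (hσ : σ ∈ Cfsg.minimalQuadraticElements G) (hτ : τ ∈ Cfsg.minimalQuadraticElements G)
    (hH : ¬ Cfsg.IsUnipotentOn (Subgroup.closure (Cfsg.scalarFamily σ ∪ Cfsg.scalarFamily τ))) :
    ∃ (K : Type u) (_ : Field K) (_ : Algebra k K) (lam : K), IsAlgebraic k lam ∧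
      IntermediateField.adjoin k ({lam} : Set K) = ⊤ ∧
      Nonempty (↥(Subgroup.closure (Cfsg.scalarFamily σ ∪ Cfsg.scalarFamily τ)) ≃* Matrix.SpecialLinearGroup (Fin 2) K) := by
  have hα := mem_min_iff.1 hσ
  have hβ := mem_min_iff.1 hτ
  unfold Cfsg.scalarFamily at hH ⊢
  generalize (σ : Module.End k M) - 1 = α at *
  generalize (τ : Module.End k M) - 1 = β at *
  have h : α * β * α ≠ 0 := by
    refine fun h => hH (Unip.mono (unip_of_case1 hk2 hk3 hα hβ h) ((Subgroup.closure_le _).2 ?_))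
    rintro x (⟨c, hc⟩ | ⟨c, hc⟩)
    · exact Subgroup.mem_sup_left ((mem_Esub hα.inL.1).2 (by simpa [hc] using (InE.refl hα.inL).smul c))
    · exact Subgroup.mem_sup_right ((mem_Esub hβ.inL.1).2 (by simpa [hc] using (InE.refl hβ.inL).smul c))
  obtain ⟨g, r, hg, hg0, ga, ⟨q, hq⟩, -, -⟩ := exists_inv_poly hk2 hk3 hα hβ.inL h
  haveI : Fact (Irreducible g) := ⟨hg⟩
  obtain ⟨l1, l2, l3, l4⟩ := root_facts hg0
  have hc := z_comm (β := β) hα.inL.1
  have hc' := z_comm' (α := α) hβ.inL.1
  have gb : aeval (α * β + β * α) g * β = 0 := by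
    rw [commute_aeval hc']
    ext v
    refine inj_of_opp hk2 hk3 hβ hα.inL (opp_symm hk2 hk3 hα hβ h) _ ?_
    have : (β * α + α * β) * (β * aeval (α * β + β * α) g) = 0 := by
      rw [← mul_assoc, z_mul_left hβ.inL.1, mul_assoc, ← commute_aeval hc', ← mul_assoc, mul_assoc β,
        ← commute_aeval hc, ga]; simp
    exact LinearMap.congr_fun this v
  obtain ⟨r1, r2, r3⟩ := cz_rel hα.inL.1 hβ.inL.1
  obtain ⟨-, -, -, -, -, -, i7, i8⟩ := ident r1 r2 r3 0 0 0
  set a := cz α (z_comm (β := β) hα.inL.1)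
  set b := cz β (z_comm' (α := α) hβ.inL.1)
  have ga' : g • a = 0 := Cz.ext ga
  have gb' : g • b = 0 := Cz.ext gb
  have cg : ∀ {x : Cz (α * β + β * α)}, g • x = 0 → ∀ {p p' : k[X]},
      aeval (AdjoinRoot.root g) p = aeval (AdjoinRoot.root g) p' → p • x = p' • x := by
    intro x hx p p' e
    obtain ⟨s, hs⟩ := (l4 (p - p')).1 (by rw [map_sub, e, sub_self])
    rw [← sub_eq_zero, ← sub_smul, hs, mul_comm, mul_smul, hx, smul_zero]
  have hr : aeval (AdjoinRoot.root g) r * AdjoinRoot.root g = 1 := by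
    have := (l4 _).2 ⟨q, hq⟩
    simpa [sub_eq_zero, -AdjoinRoot.aeval_eq] using this
  have n0 : (r • b) * (r • b) = 0 := by rw [smul_mul_smul_comm, r2, smul_zero]
  have n1 : a * (r • b) * a = a := by
    rw [mul_smul_comm, smul_mul_assoc, i7, smul_smul, cg ga' (p' := 1) (by simpa [-AdjoinRoot.aeval_eq] using hr), one_smul]
  have n2 : (r • b) * a * (r • b) = r • b := by
    rw [smul_mul_assoc, smul_mul_smul_comm, i8, smul_smul]
    exact cg gb' (by rw [map_mul, map_mul, aeval_X, mul_assoc, hr, mul_one])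
  have hs : Function.Surjective (aeval (AdjoinRoot.root g) : k[X] → AdjoinRoot g) := fun x => by
    simpa using AdjoinRoot.mk_surjective x
  choose s hs using hs
  let Ψ := Fhom k[X] r1 n0 n1 n2
  have hΨ : ∀ m n : Matrix (Fin 2) (Fin 2) k[X], m.map (aeval (AdjoinRoot.root g)) = n.map (aeval (AdjoinRoot.root g)) →
      Ψ m = Ψ n := fun m n e => (Fhom_eq_iff _ _ _ _ m n).2 fun i j => cg ga' (congrFun (congrFun e i) j)
  have hms : ∀ x : Matrix (Fin 2) (Fin 2) (AdjoinRoot g), (x.map s).map (aeval (AdjoinRoot.root g)) = x :=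
    fun x => Matrix.ext fun i j => hs _
  let Φ₀ : SL(2, AdjoinRoot g) →* Module.End k M :=
    { toFun := fun x => (Ψ (x.1.map s)).val
      map_one' := by
        rw [hΨ _ 1 (by rw [hms, Matrix.map_one _ (map_zero _) (map_one _)]; rfl), map_one]; rfl
      map_mul' := fun x y => by
        rw [← val_mul, ← map_mul, hΨ _ (x.1.map s * y.1.map s) (by
          rw [hms, Matrix.map_mul, hms, hms]; rfl)] }
  let Φ := Φ₀.toHomUnits
  have hinj : Function.Injective Φ := by
    intro x y e
    have := (Fhom_eq_iff _ _ _ _ _ _).1 (Cz.ext (congrArg Units.val e) : Ψ (x.1.map s) = Ψ (y.1.map s))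
    refine Subtype.ext (Matrix.ext fun i j => ?_)
    rw [← hs (x.1 i j), ← hs (y.1 i j), ← sub_eq_zero, ← map_sub, l4]
    by_contra hnd
    apply hα.ne
    ext v
    refine eq_zero_of_coprime (hg.coprime_iff_not_dvd.2 hnd) (LinearMap.congr_fun ga v) ?_
    have e2 := congrArg Cz.val (this i j)
    rw [val_smul, val_smul, ← sub_eq_zero, ← sub_mul, ← map_sub] at e2
    exact LinearMap.congr_fun e2 v
  have hup : ∀ c : k, (Φ (H17.up (algebraMap k _ c))).1 = 1 + c • α := fun c => by
    change (Ψ _).val = _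
    rw [hΨ _ !![1, C c; 0, 1] (by rw [hms]; ext i j; fin_cases i <;> fin_cases j <;> simp [H17.up, H09.sl2]),
      show Ψ !![1, C c; 0, 1] = 1 + C c • a by simp [Ψ, Fhom_apply]; abel]
    simp [a, Algebra.smul_def c]
  have hlo : ∀ c : k, (Φ (H17.lo (algebraMap k _ c * AdjoinRoot.root g))).1 = 1 + c • β := fun c => by
    change (Ψ _).val = _
    rw [hΨ _ !![1, 0; C c * X, 1] (by rw [hms]; ext i j; fin_cases i <;> fin_cases j <;> simp [H17.lo, H09.sl2]),
      show Ψ !![1, 0; C c * X, 1] = 1 + (C c * X * r) • b by simp [Ψ, Fhom_apply, smul_smul]; abel,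
      cg gb' (p' := C c) (by rw [map_mul, map_mul, aeval_X, mul_assoc, mul_comm _ (aeval _ r), hr, mul_one])]
    simp [b, Algebra.smul_def c]
  refine ⟨AdjoinRoot g, inferInstance, inferInstance, AdjoinRoot.root g, l1, ?_,
    ⟨(MulEquiv.subgroupCongr ?_).trans (MonoidHom.ofInjective hinj).symm⟩⟩
  · rw [eq_top_iff]
    exact fun x _ => IntermediateField.algebra_adjoin_le_adjoin k _ (l3 ▸ Algebra.mem_top)
  · refine le_antisymm ((Subgroup.closure_le _).2 ?_) ?_
    · rintro x (⟨c, hc⟩ | ⟨c, hc⟩)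
      · exact ⟨_, Units.ext ((hup c).trans hc.symm)⟩
      · exact ⟨_, Units.ext ((hlo c).trans hc.symm)⟩
    · rintro _ ⟨x, rfl⟩
      have := dickson_lemma_top hk2 hk3 l1 l2 l3 (L := Subgroup.comap Φ (Subgroup.closure
        ({τ | ∃ c : k, τ.1 = 1 + c • α} ∪ {τ | ∃ c : k, τ.1 = 1 + c • β})))
        (fun c => Subgroup.subset_closure (Or.inl ⟨c, hup c⟩)) (fun c => Subgroup.subset_closure (Or.inr ⟨c, hlo c⟩))
      exact (this ▸ Subgroup.mem_top x : x ∈ Subgroup.comap Φ _)

end Cfsg.Agent.S5064
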