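import Mathlib
import Cfsg.Statements.S5065
import Cfsg.Agent.H12.Quad5

set_option autoImplicit false
universe u
open Cfsg

namespace Cfsg.Agent.S5065

/-- Let k be a field of characteristic not 2 with k not of order 3, M a finite-dimensional k-vector space and G ≤ GL(M) such that (G, M) is a quadratic pair (M irreducible for G, and G generated by its quadratically acting elements σ whose scalar family 1 + c(σ − 1), c ∈ k, lies in G). Write 𝒬_d for the quadratic elements of G of minimal commutator rank, E(σ) for the subgroup generated by the members of 𝒬_d with the same fixed space and commutator space as σ, and Σ for the set of these subgroups. For σ, τ ∈ 𝒬_d put A = E(σ), B = E(τ) and X = ⟨A, B⟩. Then either X acts unipotently on M, or A and B are the unipotent subgroups of a special rank one group X; in the latter case X contains exactly one central involution acting as −1 on the commutator space [M, X] and trivially on the fixed space C_M(X), and M is the direct sum of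 C_M(X) and [M, X]. -/
theorem result {k : Type u} [Field k] (hk2 : ringChar k ≠ 2) (hk3 : Nat.card k ≠ 3)
    {M : Type u} [AddCommGroup M] [Module k M] [FiniteDimensional k M]
    {G : Subgroup (LinearMap.GeneralLinearGroup k M)} (hG : Cfsg.IsQuadraticPair G)
    {σ τ : LinearMap.GeneralLinearGroup k M} (hσ : σ ∈ Cfsg.minimalQuadraticElements G) (hτ : τ ∈ Cfsg.minimalQuadraticElements G) :
    Cfsg.IsUnipotentOn (Cfsg.sameActionSubgroup G σ ⊔ Cfsg.sameActionSubgroup G τ) ∨
    (Cfsg.IsSpecialRankOnePair (Cfsg.sameActionSubgroup G σ) (Cfsg.sameActionSubgroup G τ) ∧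
      (∃! i : LinearMap.GeneralLinearGroup k M, i ∈ Cfsg.sameActionSubgroup G σ ⊔ Cfsg.sameActionSubgroup G τ ∧ i ≠ 1 ∧ i * i = 1 ∧
        (∀ x ∈ Cfsg.sameActionSubgroup G σ ⊔ Cfsg.sameActionSubgroup G τ, i * x = x * i) ∧
        (∀ m ∈ Cfsg.commutatorSubmodule (Cfsg.sameActionSubgroup G σ ⊔ Cfsg.sameActionSubgroup G τ), (i : M →ₗ[k] M) m = -m) ∧
        (∀ m ∈ Cfsg.fixedSubmodule (Cfsg.sameActionSubgroup G σ ⊔ Cfsg.sameActionSubgroup G τ), (i : M →ₗ[k] M) m = m)) ∧
      IsCompl (Cfsg.fixedSubmodule (Cfsg.sameActionSubgroup G σ ⊔ Cfsg.sameActionSubgroup G τ))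
        (Cfsg.commutatorSubmodule (Cfsg.sameActionSubgroup G σ ⊔ Cfsg.sameActionSubgroup G τ))) := by
  rw [H12.Q.sameAction_eq hσ, H12.Q.sameAction_eq hτ]
  have hα := H12.Q.mem_min_iff.1 hσ
  have hβ := H12.Q.mem_min_iff.1 hτ
  generalize (σ : Module.End k M) - 1 = α at *
  generalize (τ : Module.End k M) - 1 = β at *
  by_cases h : α * β * α = 0
  · exact Or.inl (H12.Q.unip_of_case1 hk2 hk3 hα hβ h)
  refine Or.inr ⟨H12.Q.special_of_opp hk2 hk3 hα hβ h, ?_⟩
  obtain ⟨β', i1, i2, i3, i4⟩ := (H12.Q.exists_norm hk2 hk3 hα hβ.inL h).1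
  have i5 := (i1.symm hβ i2.ne).2
  set X := H12.Q.Esub G α ⊔ H12.Q.Esub G β
  set e := α * β' + β' * α with he
  have ea : e * α = α := by rw [he, H12.Q.z_mul_left hα.inL.1, i3]
  have eb : e * β' = β' := by rw [he, H12.Q.z_mul_right i2.inL.1, i4]
  have ae : α * e = α := by rw [he, ← H12.Q.z_comm hα.inL.1, ea]
  have be : β' * e = β' := by rw [he, ← H12.Q.z_comm' i2.inL.1, eb]
  have ee : e * e = e := by
    conv_lhs => congr; rfl; rw [he]
    rw [mul_add, ← mul_assoc, ← mul_assoc, ea, eb]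
  let J : Submodule k (Module.End k M) := LinearMap.ker (LinearMap.mulLeft k (1 - e)) ⊓ LinearMap.ker (LinearMap.mulRight k (1 - e))
  have hJ : ∀ g ∈ X, (1 - e) * (g.1 - 1) = 0 ∧ (g.1 - 1) * (1 - e) = 0 := by
    have : X ≤ H12.Unip.algGrp J (fun a ha b hb => ⟨by
        have := ha.1; simp only [SetLike.mem_coe, LinearMap.mem_ker, LinearMap.mulLeft_apply] at this ⊢
        rw [← mul_assoc, this, zero_mul], by
        have := hb.2; simp only [SetLike.mem_coe, LinearMap.mem_ker, LinearMap.mulRight_apply] at this ⊢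
        rw [mul_assoc, this, mul_zero]⟩) := by
      refine sup_le (fun g hg => ?_) (fun g hg => ?_)
      · rw [H12.Q.mem_Esub hα.inL.1] at hg
        exact ⟨hg.left (by rw [sub_mul, ea]; simp), hg.right (by rw [mul_sub, ae]; simp)⟩
      · rw [H12.Q.mem_Esub hβ.inL.1] at hg
        exact ⟨(i5.trans hg).left (by rw [sub_mul, eb]; simp), (i5.trans hg).right (by rw [mul_sub, be]; simp)⟩
    exact fun g hg => this hg
  have ma : H12.Q.un α hα.inL.1 ∈ X := Subgroup.mem_sup_left (H12.Q.un_mem_Esub hα.inL.1 (H12.Q.InE.refl hα.inL))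
  have mb : H12.Q.un β' i1.inL.1 ∈ X := Subgroup.mem_sup_right (H12.Q.un_mem_Esub hβ.inL.1 i1)
  have hF : Cfsg.fixedSubmodule X = LinearMap.ker e := by
    refine le_antisymm (fun v hv => ?_) (le_iInf₂ fun g hg v hv => ?_)
    · have h1 : α v = 0 := by simpa using (iInf₂_le (f := fun g (_ : g ∈ X) => LinearMap.ker (g.1 - 1)) _ ma) hv
      have h2 : β' v = 0 := by simpa using (iInf₂_le (f := fun g (_ : g ∈ X) => LinearMap.ker (g.1 - 1)) _ mb) hv
      simp [he, h1, h2]
    · simpa [LinearMap.mem_ker.1 hv] using LinearMap.congr_fun (hJ g hg).2 v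
  have hC : Cfsg.commutatorSubmodule X = LinearMap.range e := by
    refine le_antisymm (iSup₂_le fun g hg => ?_) ?_
    · rintro _ ⟨v, rfl⟩
      exact ⟨_, (sub_eq_zero.1 (LinearMap.congr_fun (hJ g hg).1 v)).symm⟩
    · rintro _ ⟨v, rfl⟩
      exact add_mem ((le_iSup₂ (f := fun g (_ : g ∈ X) => LinearMap.range (g.1 - 1)) _ ma) ⟨β' v, by simp⟩)
        ((le_iSup₂ (f := fun g (_ : g ∈ X) => LinearMap.range (g.1 - 1)) _ mb) ⟨α v, by simp⟩)
  rw [hF, hC]
  refine ⟨?_, (LinearMap.IsIdempotentElem.isCompl ee).symm⟩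
  let φ := H12.Q.slHom hα.inL.1 i1.inL.1 i3 i4
  have hφ : ∀ g, φ g ∈ X := by
    have : X.comap φ = ⊤ := H12.sl2_induction
      (fun t => Subgroup.mem_sup_left ((H12.Q.mem_Esub hα.inL.1).2 (by
        rw [H12.Q.slHom_up]; exact (H12.Q.InE.refl hα.inL).smul t)))
      (fun t => Subgroup.mem_sup_right ((H12.Q.mem_Esub hβ.inL.1).2 (by rw [H12.Q.slHom_lo]; exact i1.smul t)))
    exact fun g => (this ▸ Subgroup.mem_top g : g ∈ X.comap φ)
  have hi : (φ (-1)).1 = 1 - (2 : k) • e := by
    rw [H12.Q.slHom_val, H12.Q.Fhom_apply, he]; simp; module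
  refine ⟨φ (-1), ⟨hφ _, fun h => ?_, by rw [← map_mul]; simp, fun x hx => Units.ext ?_, ?_, fun m hm => ?_⟩, ?_⟩
  · have := congrArg (fun g : Matrix.SpecialLinearGroup (Fin 2) k => g.1 0 0)
      (H12.Q.slHom_inj _ _ _ _ hα.ne (h.trans (map_one φ).symm))
    simp at this
    exact Ring.two_ne_zero hk2 (by linear_combination -this)
  · obtain ⟨h1, h2⟩ := hJ x hx
    have : e * x.1 = x.1 * e := by
      rw [← sub_eq_zero, ← sub_self (0 : Module.End k M)]
      conv_rhs => rw [← h2]; congr; rfl; rw [h2, ← h1]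
      noncomm_ring
    rw [Units.val_mul, Units.val_mul, hi, sub_mul, mul_sub, smul_mul_assoc, mul_smul_comm, this]; simp
  · rintro _ ⟨v, rfl⟩
    have : e (e v) = e v := LinearMap.congr_fun ee v
    rw [hi, LinearMap.sub_apply, LinearMap.smul_apply, this, Module.End.one_apply]; module
  · rw [hi, LinearMap.sub_apply, LinearMap.smul_apply, LinearMap.mem_ker.1 hm]; simp
  · rintro j ⟨-, -, -, -, h1, h2⟩
    ext v
    have : e (e v) = e v := LinearMap.congr_fun ee v
    have a := h1 _ ⟨v, rfl⟩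
    have b := h2 (v - e v) (by rw [LinearMap.mem_ker, map_sub, this, sub_self])
    rw [map_sub, a] at b
    rw [hi, LinearMap.sub_apply, LinearMap.smul_apply, Module.End.one_apply]
    linear_combination (norm := module) b

end Cfsg.Agent.S5065
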