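import Mathlib
import Cfsg.Statements.S5066
import Cfsg.Agent.H12.Quad5

set_option autoImplicit false
universe u
open Cfsg

namespace Cfsg.Agent.S5066

/-- Let k be a field of characteristic not 2 with k not of order 3, M a finite-dimensional k-vector space and G ≤ GL(M) such that (G, M) is a quadratic pair (M irreducible for G, and G generated by its quadratically acting elements σ whose scalar family 1 + c(σ − 1), c ∈ k, lies in G). Write 𝒬_d for the quadratic elements of G of minimal commutator rank, E(σ) for the subgroup generated by the members of 𝒬_d with the same fixed space and commutator space as σ, and Σ for the set of these subgroups. Let E, F ∈ Σ generate a subgroup that is nilpotent of class exactly two. Then D = ⁅E, F⁆ belongs to Σ, equals the subgroup generated by the commutators of e with F, and also of E with f, for every non-identity e ∈ E, f ∈ F, and ⟨E, F⟩ lies in U(D), the set of elements g of G normalizing D with (g − 1)M inside the fixed space of D, (g − 1) mapping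 that fixed space into the commutator space of D, and g acting trivially on the commutator space of D. -/
theorem result {k : Type u} [Field k] (hk2 : ringChar k ≠ 2) (hk3 : Nat.card k ≠ 3)
    {M : Type u} [AddCommGroup M] [Module k M] [FiniteDimensional k M]
    {G : Subgroup (LinearMap.GeneralLinearGroup k M)} (hG : Cfsg.IsQuadraticPair G)
    {E F : Subgroup (LinearMap.GeneralLinearGroup k M)} (hE : E ∈ Cfsg.quadraticRootSubgroups G) (hF : F ∈ Cfsg.quadraticRootSubgroups G)
    (h2 : ⁅E ⊔ F, E ⊔ F⁆ ≠ ⊥ ∧ ⁅⁅E ⊔ F, E ⊔ F⁆, E ⊔ F⁆ = ⊥) :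
    ⁅E, F⁆ ∈ Cfsg.quadraticRootSubgroups G ∧
    (∀ e ∈ E, e ≠ 1 → Subgroup.closure ((fun f : LinearMap.GeneralLinearGroup k M => e * f * e⁻¹ * f⁻¹) '' (F : Set (LinearMap.GeneralLinearGroup k M))) = ⁅E, F⁆) ∧
    (∀ f ∈ F, f ≠ 1 → Subgroup.closure ((fun e : LinearMap.GeneralLinearGroup k M => e * f * e⁻¹ * f⁻¹) '' (E : Set (LinearMap.GeneralLinearGroup k M))) = ⁅E, F⁆) ∧
    ((E ⊔ F : Subgroup (LinearMap.GeneralLinearGroup k M)) : Set (LinearMap.GeneralLinearGroup k M)) ⊆ Cfsg.quadraticUnipotentCore G ⁅E, F⁆ := by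
  have hU := H12.Q.noU_of_irr hG.1
  obtain ⟨α, hα, rfl⟩ := H12.Q.mem_Sigma.1 hE
  obtain ⟨β, hβ, rfl⟩ := H12.Q.mem_Sigma.1 hF
  have h : α * β * α = 0 := by
    by_contra h
    exact H12.RO.commutator_ne_bot (H12.Q.special_of_opp hk2 hk3 hα hβ h).1
      (H12.commutator_eq_bot_mono h2.2 (H12.Q.le_comm_of_opp hk2 hk3 hα hβ h) le_sup_right)
  have h0 : α * β - β * α ≠ 0 := fun e => by
    have c := H12.Q.commute_of_zero hk2 hk3 hα hβ e
    have a := H12.commutator_eq_bot_iff.2 (H12.Q.Esub_comm (G := G) hα.inL.1)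
    have b := H12.commutator_eq_bot_iff.2 (H12.Q.Esub_comm (G := G) hβ.inL.1)
    exact h2.1 (H12.commutator_sup_eq_bot (H12.commutator_sup_eq_bot' a c)
      (H12.commutator_sup_eq_bot' (H12.commutator_eq_bot_symm c) b))
  have hc := H12.Q.cc_of_case1 hk2 hk3 hU hα hβ h h0
  refine ⟨hc.1, hc.2.2.1, hc.2.2.2, fun g hg => ?_⟩
  rw [H12.Q.commutator_eq hk2 hk3 hU hα hβ h h0]
  exact H12.Q.mem_core (H12.Q.case1_facts hα hβ h (H12.Q.case1_symm hk2 hk3 hα.inL hβ h) h0).1.inL
    (sup_le H12.Q.Esub_le H12.Q.Esub_le hg) (H12.Q.sup_flag hk2 hk3 hα hβ h h0 g hg)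

end Cfsg.Agent.S5066
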