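import Mathlib
import Cfsg.Statements.S5067
import Cfsg.Agent.H12.RootSub

set_option autoImplicit false
open Cfsg

namespace Cfsg.Agent.S5067

/-- Let P be a non-abelian nilpotent p-group (every element of p-power order; P possibly infinite) generated by two abelian subgroups E and F. Then the normal closure of E in P, and likewise that of F, has nilpotency class strictly smaller than that of P. -/
theorem result {P : Type*} [Group P] {p : ℕ} [Fact p.Prime] (hP : IsPGroup p P) [Group.IsNilpotent P]
    (hna : ¬ IsMulCommutative P) {E F : Subgroup P} (hE : IsMulCommutative ↥E) (hF : IsMulCommutative ↥F) (hgen : E ⊔ F = ⊤) :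
    Group.nilpotencyClass ↥(Subgroup.normalClosure (E : Set P)) < Group.nilpotencyClass P ∧
    Group.nilpotencyClass ↥(Subgroup.normalClosure (F : Set P)) < Group.nilpotencyClass P := by
  have key : ∀ E : Subgroup P, IsMulCommutative E →
      Group.nilpotencyClass ↥(Subgroup.normalClosure (E : Set P)) < Group.nilpotencyClass P := by
    intro E hE
    have h1 : ¬ Group.nilpotencyClass P ≤ 1 := fun h => hna (Group.IsNilpotent.nilpotencyClass_le_one_iff.1 h)
    obtain ⟨c, hc⟩ : ∃ c, Group.nilpotencyClass P = c + 2 := ⟨Group.nilpotencyClass P - 2, by omega⟩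
    have hm : ∀ x ∈ Subgroup.normalClosure (E : Set P), ∃ e ∈ E, ∃ y ∈ commutator P, x = y * e := by
      intro x hx
      have : Subgroup.normalClosure (E : Set P) ≤ commutator P ⊔ E := by
        have : (commutator P ⊔ E).Normal := Subgroup.Normal.of_commutator_le P le_sup_left
        exact Subgroup.normalClosure_le_normal fun x hx => Subgroup.mem_sup_right hx
      obtain ⟨y, hy, e, he, rfl⟩ := Subgroup.mem_sup_of_normal_left.1 (this hx)
      exact ⟨e, he, y, hy, rfl⟩
    have h2 : ∀ n, (Subgroup.normalClosure (E : Set P)).lowerCentralSeries (n + 1) ≤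
        (⊤ : Subgroup P).lowerCentralSeries (n + 2) := by
      intro n
      induction n with
      | zero =>
        rw [Subgroup.lowerCentralSeries_succ, Subgroup.lowerCentralSeries_zero, Subgroup.commutator_le]
        intro x hx x' hx'
        obtain ⟨e, he, y, hy, rfl⟩ := hm x hx
        obtain ⟨e', he', y', hy', rfl⟩ := hm x' hx'
        rw [← QuotientGroup.eq_one_iff]
        have c : ∀ y ∈ commutator P, ∀ g : P, Commute (y : P ⧸ (⊤ : Subgroup P).lowerCentralSeries 2) g := by
          intro y hy g
          rw [← commutatorElement_eq_one_iff_commute]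
          exact (QuotientGroup.eq_one_iff (y * g * y⁻¹ * g⁻¹)).2 (H12.comm_mem hy (Subgroup.mem_top g))
        have c2 : Commute (e : P ⧸ (⊤ : Subgroup P).lowerCentralSeries 2) e' :=
          congrArg QuotientGroup.mk (H12.isMulCommutative_iff.1 hE e he e' he')
        exact commutatorElement_eq_one_iff_commute.2 <| ((c y hy y').mul_right (c y hy e')).mul_left ((c y' hy' e).symm.mul_right c2)
      | succ n ih => exact Subgroup.commutator_mono ih le_top
    have h3 := h2 c
    rw [← hc, Subgroup.lowerCentralSeries_nilpotencyClass, le_bot_iff, ← Subgroup.top_subtype_lowerCentralSeries,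
      Subgroup.map_eq_bot_iff_of_injective _ (Subgroup.subtype_injective _),
      Subgroup.lowerCentralSeries_eq_bot_iff_nilpotencyClass_le] at h3
    omega
  exact ⟨key E hE, key F hF⟩

end Cfsg.Agent.S5067
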