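import Mathlib
import Cfsg.Statements.S5073
import Cfsg.Agent.H12.Quad5

set_option autoImplicit false
universe u
open Cfsg

namespace Cfsg.Agent.S5073

/-- Let k be a field of characteristic not 2 with k not of order 3, M a finite-dimensional k-vector space and G ≤ GL(M) such that (G, M) is a quadratic pair (M irreducible for G, and G generated by its quadratically acting elements σ whose scalar family 1 + c(σ − 1), c ∈ k, lies in G). Write 𝒬_d for the quadratic elements of G of minimal commutator rank, E(σ) for the subgroup generated by the members of 𝒬_d with the same fixed space and commutator space as σ, and Σ for the set of these subgroups. Let E, F ∈ Σ. If some non-identity element of E commutes with some non-identity element of F, or some non-identity element of E normalizes F, then E and F commute elementwise. -/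
theorem result {k : Type u} [Field k] (hk2 : ringChar k ≠ 2) (hk3 : Nat.card k ≠ 3)
    {M : Type u} [AddCommGroup M] [Module k M] [FiniteDimensional k M]
    {G : Subgroup (LinearMap.GeneralLinearGroup k M)} (hG : Cfsg.IsQuadraticPair G)
    {E F : Subgroup (LinearMap.GeneralLinearGroup k M)} (hE : E ∈ Cfsg.quadraticRootSubgroups G) (hF : F ∈ Cfsg.quadraticRootSubgroups G)
    (h : (∃ e ∈ E, e ≠ 1 ∧ ∃ f ∈ F, f ≠ 1 ∧ e * f = f * e) ∨ E ⊓ Subgroup.normalizer (F : Set (LinearMap.GeneralLinearGroup k M)) ≠ ⊥) :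
    ⁅E, F⁆ = ⊥ := by
  have hU := H12.Q.noU_of_irr hG.1
  rcases h with ⟨e, he, he1, f, hf, hf1, h⟩ | h
  · obtain ⟨α, hα, rfl⟩ := H12.Q.mem_Sigma.1 hE
    obtain ⟨β, hβ, rfl⟩ := H12.Q.mem_Sigma.1 hF
    exact H12.Q.commute_of_comm hk2 hk3 hα hβ he hf he1 hf1 h
  · obtain ⟨e, ⟨he, hn⟩, he1⟩ := H12.exists_ne_one_of_ne_bot h
    have hn' := H12.conjBy_eq_self_iff.2 hn
    rcases H12.Q.sigma_pair hk2 hk3 hU hE hF with h | ⟨-, h | ⟨h, -⟩⟩
    · exact h
    · exact absurd (H12.RO.eq_one_of_fix h he hn') he1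
    · obtain ⟨f, hf, hf1⟩ := H12.exists_ne_one_of_ne_bot (H12.Q.sigma_ne_bot hF)
      have m1 : e * f * e⁻¹ * f⁻¹ ∈ F := mul_mem (hn' ▸ H12.conj_mem_conjBy hf e) (inv_mem hf)
      have m2 := H12.comm_mem he hf
      have hc := H12.CC.left_comm h
      obtain ⟨α, hα, rfl⟩ := H12.Q.mem_Sigma.1 hE
      obtain ⟨β, hβ, rfl⟩ := H12.Q.mem_Sigma.1 hF
      by_cases h1 : e * f * e⁻¹ * f⁻¹ = 1
      · exact H12.Q.commute_of_comm hk2 hk3 hα hβ he hf he1 hf1 (by rwa [mul_inv_eq_one, mul_inv_eq_iff_eq_mul] at h1)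
      · exact H12.Q.commute_of_comm hk2 hk3 hα hβ he m1 he1 h1 (H12.commutator_eq_bot_iff.1 hc _ he _ m2)

end Cfsg.Agent.S5073
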