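import Cfsg.Statements.S5081
import Cfsg.Agent.H28.Alp
-- import your own Cfsg.Agent.* helpers here

set_option autoImplicit false
open Cfsg

namespace Cfsg.Agent.S5081
open H28 Cfsg.FusionSystem
set_option linter.unusedVariables false
set_option linter.style.haveILetI false


/-- Let F be a saturated fusion system over a finite p-group S, P a proper subgroup of S that is fully normalized, and H the subgroup of Aut_F(P) generated by the automorphisms that extend to maps of the system defined on strictly larger subgroups of S. Then either P is not essential and H is all of Aut_F(P), or P is essential and the image of H in Out_F(P) = Aut_F(P)/Inn(P) is strongly p-embedded there. -/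
theorem result {Ω : Type*} [Group Ω] {S : Subgroup Ω} [Finite S] (p : ℕ) [Fact p.Prime] (hS : IsPGroup p S) (F : Cfsg.FusionSystem S) (hF : F.IsSaturated p) (P : Subgroup Ω) (hPS : P < S) (hPn : F.IsFullyNormalized P) (H : Subgroup (MulAut P)) (hH : H = Subgroup.closure {α : MulAut P | ∃ (Q : Subgroup Ω) (hPQ : P < Q) (φ : Q →* Ω), φ ∈ F.Hom Q ∧ ∀ x : P, φ (Subgroup.inclusion hPQ.le x) = α x}) : (¬ F.IsEssential p P ∧ H = F.autGroup P) ∨ (F.IsEssential p P ∧ ∃ _ : ((Cfsg.Inn P).subgroupOf (F.autGroup P)).Normal, Cfsg.IsStronglyPEmbedded p ((H.subgroupOf (F.autGroup P)).map (QuotientGroup.mk' ((Cfsg.Inn P).subgroupOf (F.autGroup P))))) := by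
  have h1 : H = extAut F P := by
    rw [hH, extAut]
    congr 1
    ext α
    refine ⟨fun ⟨Q, hPQ, φ, hφ, e⟩ => ?_, fun ⟨Q, g, hPQ, hg, e⟩ => ⟨Q, hPQ, _, hg.toHom_mem, fun x => ?_⟩⟩
    · obtain ⟨g, hg, e'⟩ := exists_M hφ
      exact ⟨Q, g, hPQ, hg, fun x hx => by rw [← e' x (hPQ.le hx), ex_apply _ hx, ← e]; rfl⟩
    · rw [← ex_coe, ← e x x.2]; rfl
  by_cases h : F.IsEssential p P
  · haveI := Inn_normal P
    haveI := finite_mulAut hPn.1
    obtain ⟨h2, -, h3, h4⟩ := (isEssential_iff hS hF).1 h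
    rw [h1, extAut_eq_gam hS hF h2 hPn]
    exact Or.inr ⟨h, inferInstance, spe_of (sat_syl hS hF hPn) h3 le_rfl fun h' => h4 (le_antisymm gam_le h')⟩
  · exact Or.inl ⟨h, h1 ▸ extAut_eq_of_not_essential hS hF hPn hPS h⟩

end Cfsg.Agent.S5081
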