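import Cfsg.Statements.S5087
import Cfsg.Agent.H28.Norm
-- import your own Cfsg.Agent.* helpers here

set_option autoImplicit false
open Cfsg

namespace Cfsg.Agent.S5087
open H28 Cfsg.FusionSystem
set_option linter.unusedVariables false
set_option linter.style.haveILetI false


/-- In a saturated fusion system over a finite p-group S, a subgroup Q is normal in the system if and only if every subgroup P that equals S or is essential contains Q and every element of Aut_F(P) maps Q onto itself. -/
theorem result {Ω : Type*} [Group Ω] {S : Subgroup Ω} [Finite S] (p : ℕ) [Fact p.Prime] (hS : IsPGroup p S) (F : Cfsg.FusionSystem S) (hF : F.IsSaturated p) (Q : Subgroup Ω) : F.IsNormal Q ↔ ∀ P : Subgroup Ω, (P = S ∨ F.IsEssential p P) → (Q ≤ P ∧ ∀ α ∈ F.autGroup P, (Q.subgroupOf P).map α.toMonoidHom = Q.subgroupOf P) := by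
  rw [normal_iff_alperin hS hF]
  refine forall₂_congr fun P hP => and_congr_right fun hQ => ⟨fun h α hα => ?_, fun h a ha x hx => ?_⟩
  · have hPS := (cr_of_alperin hS hF hP).1.1
    haveI := finite_of_le hPS
    refine Subgroup.eq_of_le_of_card_ge ?_ (H26.card_map_inj α.injective _).ge
    rintro _ ⟨x, hx, rfl⟩
    have := h _ (iso_ex hPS hα) x hx
    rwa [ex_coe] at this
  · have : res P a ⟨x, hQ hx⟩ ∈ Q.subgroupOf P := (h _ ha.res_mem).le ⟨⟨x, hQ hx⟩, hx, rfl⟩
    rwa [Subgroup.mem_subgroupOf, ha.hiso.res_coe] at this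

end Cfsg.Agent.S5087
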