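import Cfsg.Statements.S5088
import Cfsg.Agent.H28.Norm
-- import your own Cfsg.Agent.* helpers here

set_option autoImplicit false
open Cfsg

namespace Cfsg.Agent.S5088
open H28 Cfsg.FusionSystem
set_option linter.unusedVariables false
set_option linter.style.haveILetI false


/-- In a saturated fusion system over a finite p-group, a subgroup Q is normal in the system if and only if there is a chain of subgroups 1 = Q₀ ≤ Q₁ ≤ ⋯ ≤ Qₙ = Q such that each Qᵢ with i ≥ 1 is strongly closed in the system and [Q, Qᵢ] ≤ Qᵢ₋₁. -/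
theorem result {Ω : Type*} [Group Ω] {S : Subgroup Ω} [Finite S] (p : ℕ) [Fact p.Prime] (hS : IsPGroup p S) (F : Cfsg.FusionSystem S) (hF : F.IsSaturated p) (Q : Subgroup Ω) : F.IsNormal Q ↔ ∃ (n : ℕ) (Qs : Fin (n + 1) → Subgroup Ω), Qs 0 = ⊥ ∧ Qs (Fin.last n) = Q ∧ Monotone Qs ∧ ∀ i : Fin n, F.StronglyClosed (Qs i.succ) ∧ ⁅Q, Qs i.succ⁆ ≤ Qs (Fin.castSucc i) := by
  refine ⟨fun h => ?_, fun ⟨n, Qs, h0, hn, _, h⟩ => ?_⟩
  · obtain ⟨n, hn⟩ := lcs_eq_bot hS h.1 h.1
    refine ⟨n, fun i => lcs Q Q (n - i), hn, by simp [lcs_zero], fun i j hij =>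
      lcs_antitone Subgroup.le_normalizer (Nat.sub_le_sub_left hij n), fun i => ⟨normal_sc (normal_lcs h h _), ?_⟩⟩
    have := i.2
    simp only [Fin.val_succ, Fin.val_castSucc]
    rw [show n - i = n - (i + 1) + 1 by omega, lcs_succ, Subgroup.commutator_comm]
  · refine normal_of_chain hS hF (fun i => if hi : i ≤ n then Qs ⟨i, Nat.lt_succ_of_le hi⟩ else ⊥) n
      (by simpa using h0) (by simp only [le_refl, dif_pos]; exact hn) (fun i hi => ?_) fun i hi => ?_
    · rw [dif_pos hi]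
      rcases i with _ | i
      · exact (show Qs ⟨0, _⟩ = ⊥ from h0) ▸ sc_bot F
      · exact (h ⟨i, hi⟩).1
    · rw [dif_pos hi.le, dif_pos (Nat.succ_le_of_lt hi), Subgroup.commutator_comm]
      exact (h ⟨i, hi⟩).2

end Cfsg.Agent.S5088
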