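import Cfsg.Statements.S5089
import Cfsg.Agent.H28.Norm
-- import your own Cfsg.Agent.* helpers here

set_option autoImplicit false
open Cfsg

namespace Cfsg.Agent.S5089
open H28 Cfsg.FusionSystem
set_option linter.unusedVariables false
set_option linter.style.haveILetI false


/-- A saturated fusion system over a finite p-group has a nontrivial subgroup that is normal in the system (O_p(F) ≠ 1) if and only if some nontrivial abelian subgroup is strongly closed in the system. -/
theorem result {Ω : Type*} [Group Ω] {S : Subgroup Ω} [Finite S] (p : ℕ) [Fact p.Prime] (hS : IsPGroup p S) (F : Cfsg.FusionSystem S) (hF : F.IsSaturated p) : F.core ≠ ⊥ ↔ ∃ Q : Subgroup Ω, Q ≠ ⊥ ∧ IsMulCommutative Q ∧ F.StronglyClosed Q := by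
  refine ⟨fun h => ⟨centralizerIn F.core F.core, ?_, ?_,
    normal_sc (normal_centralizerIn (normal_core F) (normal_core F))⟩, fun ⟨Q, h1, h2, h3⟩ h => h1 ?_⟩
  · haveI := finite_of_le (core_le F)
    exact H26.inf_centralizer_ne_bot (hS.to_le (core_le F)) (hS.to_le (core_le F)) h Subgroup.le_normalizer
  · exact ⟨⟨fun x y => Subtype.ext (y.2.2 x x.2.1)⟩⟩
  · rw [eq_bot_iff, ← h]
    exact le_core (normal_of_abelian_sc hS hF h3 fun x hx y hy =>
      congrArg Subtype.val (h2.1.1 ⟨x, hx⟩ ⟨y, hy⟩))

end Cfsg.Agent.S5089
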