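import Mathlib
import Cfsg.Statements.S5094
import Cfsg.Agent.H08.IsoElt

set_option autoImplicit false
open Cfsg

namespace Cfsg.Agent.S5094

/-- Glauberman's Z*-Theorem in fusion language: for a finite group G with Sylow 2-subgroup S, the centre of the fusion system of G on S is the set of elements of S whose image in G/O(G) is central, O(G) being the largest normal subgroup of odd order. -/
theorem result {G : Type*} [Group G] [Finite G] (S : Sylow 2 G) : (Cfsg.groupFusionSystem (S : Subgroup G)).center = (S : Subgroup G) ⊓ (Subgroup.center (G ⧸ Cfsg.oddCore G)).comap (QuotientGroup.mk' (Cfsg.oddCore G)) := by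
  refine le_antisymm (sSup_le ?_) (le_sSup ⟨inf_le_left, ?_⟩)
  · rintro Q ⟨hQS, hQ⟩ x hx
    have hp := H08.isPGroup_zpowers_of_mem S.2 (hQS hx)
    refine ⟨hQS hx, H08.inZStar_iff.1 (H08.zstar_elt (H08.IsoP.of_sylow S hp fun g hg => ?_) hp)⟩
    obtain ⟨ψ, -, h1, h2⟩ := hQ (Subgroup.zpowers x)
      ((MulAut.conj g).toMonoidHom.comp (Subgroup.zpowers x).subtype) ⟨Subgroup.zpowers_le.2 (hQS hx), by
        rintro ⟨_, k, rfl⟩
        simpa [← conj_zpow] using Subgroup.zpow_mem _ hg k, g, fun _ => rfl⟩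
    exact (h1 ⟨x, Subgroup.mem_zpowers x⟩).symm.trans (h2 ⟨x, hx⟩)
  · rintro P φ ⟨hP, hφ, g, hg⟩
    set Q := (S : Subgroup G) ⊓ (Subgroup.center (G ⧸ Cfsg.oddCore G)).comap (QuotientGroup.mk' (Cfsg.oddCore G))
    have hcop : (Nat.card (oddCore G)).Coprime 2 := H02.pPrimeCore_coprime 2 G
    have hone : ∀ y ∈ (S : Subgroup G), y ∈ oddCore G → y = 1 := fun y hy hy' =>
      H03.eq_one_of_mem_isPGroup_of_coprime S.2 hy (H03.orderOf_coprime_of_mem hcop hy')
    have hQ : ∀ x ∈ Q, ∀ a : G, a * x * a⁻¹ * x⁻¹ ∈ oddCore G := fun x hx => H08.inZStar_iff.2 hx.2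
    have hQc : ∀ x ∈ Q, ∀ a : G, a * x * a⁻¹ ∈ (S : Subgroup G) → a * x * a⁻¹ = x := fun x hx a ha =>
      mul_inv_eq_one.1 (hone _ (mul_mem ha (inv_mem hx.1)) (hQ x hx a))
    -- `S` and `g⁻¹ S g` ... conjugate inside `C(gPg⁻¹)`
    have hC : ∀ x ∈ Q, ∀ y ∈ (S : Subgroup G), y * x = x * y := fun x hx y hy =>
      mul_inv_eq_iff_eq_mul.1 (hQc x hx y (mul_mem (mul_mem hy hx.1) (inv_mem hy)))
    obtain ⟨c, hc, R, h1, -, h2⟩ := H03.exists_sylow_conj_mem (p := 2) (A := Q)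
      (B := Q.map (MulAut.conj g).toMonoidHom) (C := Subgroup.centralizer (φ.range : Set G))
      (S.2.to_le inf_le_left) (by rintro x hx _ ⟨y, rfl⟩; exact hC x hx _ (hφ y))
      ((S.2.to_le inf_le_left).map _) (by
        rintro _ ⟨x, hx, rfl⟩ _ ⟨y, rfl⟩
        rw [hg]
        simp only [MulEquiv.coe_toMonoidHom, MulAut.conj_apply, conj_mul, hC x hx _ (hP y.2)])
    have h3 : ∀ x ∈ Q, c * g * x * (c * g)⁻¹ = x := fun x hx => by
      refine mul_inv_eq_one.1 (H03.eq_one_of_mem_isPGroup_of_coprime R.2 (mul_mem ?_ (inv_mem (h1 hx)))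
        (H03.orderOf_coprime_of_mem hcop (hQ x hx _)))
      simpa [mul_assoc] using! h2 _ ⟨x, hx, rfl⟩
    have h4 : ∀ y : P, c * g * y * (c * g)⁻¹ = φ y := fun y => by
      rw [← H03.conj_eq_of_mem_centralizer hc ⟨y, rfl⟩, hg]; group
    refine ⟨(MulAut.conj (c * g)).toMonoidHom.comp (P ⊔ Q).subtype, ⟨sup_le hP inf_le_left, ?_, c * g, fun _ => rfl⟩,
      h4, fun x => h3 x x.2⟩
    have : P ⊔ Q ≤ (S : Subgroup G).comap (MulAut.conj (c * g)).toMonoidHom :=
      sup_le (fun y hy => by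
        have := hφ ⟨y, hy⟩
        rwa [← h4] at this) (fun x hx => by
        have := hx.1
        rwa [← h3 x hx] at this)
    exact fun x => this x.2

end Cfsg.Agent.S5094
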