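import Cfsg.Statements.S5095
import Cfsg.Agent.H28.Sat
-- import your own Cfsg.Agent.* helpers here

set_option autoImplicit false
open Cfsg

namespace Cfsg.Agent.S5095
open H28 Cfsg.FusionSystem
set_option linter.unusedVariables false
set_option linter.style.haveILetI false


/-- In a saturated fusion system over a finite p-group S: if Q ≤ P ≤ S with Q centric, and two maps of the system with source P agree on Q, then they differ by an inner automorphism of P induced by an element of the centre of Q. -/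
theorem result {Ω : Type*} [Group Ω] {S : Subgroup Ω} [Finite S] (p : ℕ) [Fact p.Prime] (hS : IsPGroup p S) (F : Cfsg.FusionSystem S) (hF : F.IsSaturated p) (P Q : Subgroup Ω) (hQP : Q ≤ P) (hQ : F.IsCentric Q) (φ φ' : P →* Ω) (hφ : φ ∈ F.Hom P) (hφ' : φ' ∈ F.Hom P) (h : ∀ x : P, (x : Ω) ∈ Q → φ x = φ' x) : ∃ z : P, (z : Ω) ∈ Q ∧ (z : Ω) ∈ Subgroup.centralizer (Q : Set Ω) ∧ ∀ y : P, φ' y = φ (z * y * z⁻¹) := by
  obtain ⟨f, hf, e⟩ := exists_M hφ
  obtain ⟨g, hg, e'⟩ := exists_M hφ'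
  obtain ⟨z, hz, hzc, h1⟩ := sat_centric_unique hS hF hQP hQ hf hg fun x hx => by
    rw [← e x (hQP hx), ← e' x (hQP hx)]; exact h ⟨x, hQP hx⟩ hx
  refine ⟨⟨z, hQP hz⟩, hz, hzc, fun y => ?_⟩
  rw [e' y y.2, h1 y y.2, ← e _ (P.mul_mem (P.mul_mem (hQP hz) y.2) (P.inv_mem (hQP hz)))]
  rfl

end Cfsg.Agent.S5095
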