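import Cfsg.Statements.S5103
import Cfsg.Agent.H28.FIso
-- import your own Cfsg.Agent.* helpers here

set_option autoImplicit false
open Cfsg

namespace Cfsg.Agent.S5103
open H28 Cfsg.FusionSystem
set_option linter.unusedVariables false
set_option linter.style.haveILetI false


/-- A fusion system over a finite p-group that has a model (a finite group realizing it on a Sylow p-subgroup with self-centralizing largest normal p-subgroup) is constrained. -/
theorem result {Ω : Type*} [Group Ω] {S : Subgroup Ω} [Finite S] (p : ℕ) [Fact p.Prime] (hS : IsPGroup p S) (F : Cfsg.FusionSystem S) {G : Type*} [Group G] (ι : S →* G) (hG : F.IsModel p G ι) : F.IsConstrained p := by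
  obtain ⟨_, h1, ⟨T, hT⟩, h2⟩ := hG
  have h := realized_iff.1 h1
  have h3 : H26.IsSyl p ι.range ⊤ := hT ▸ H26.isSyl_top T
  have h4 : Cfsg.pCore p G ≤ ι.range := hT ▸ H26.pCore_le_sylow T
  have h5 := normal_group h4
  exact h.symm.constrained h3.pg ⟨sat_group h3, _, h5,
    (normal_centric_iff (wc_of_sc (normal_sc h5))).2 (inf_le_right.trans h2)⟩

end Cfsg.Agent.S5103
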