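import Cfsg.Statements.S5107
import Cfsg.Agent.H28.Norm
-- import your own Cfsg.Agent.* helpers here

set_option autoImplicit false
open Cfsg

namespace Cfsg.Agent.S5107
open H28 Cfsg.FusionSystem
set_option linter.unusedVariables false
set_option linter.style.haveILetI false


/-- If a Sylow p-subgroup S of a finite group G has nilpotency class at most two and its centre is strongly closed in S with respect to G, then every map of the fusion system of G on S is conjugation by an element of N_G(S), and S is the largest subgroup normal in that fusion system. -/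
theorem result {G : Type*} [Group G] [Finite G] (p : ℕ) [Fact p.Prime] (S : Sylow p G) (hcl : ⁅(S : Subgroup G), (S : Subgroup G)⁆ ≤ (S : Subgroup G) ⊓ Subgroup.centralizer ((S : Subgroup G) : Set G)) (hZ : Cfsg.IsStronglyClosed ((S : Subgroup G) ⊓ Subgroup.centralizer ((S : Subgroup G) : Set G)) (S : Subgroup G)) : (∀ (P : Subgroup G) (φ : P →* G), φ ∈ (Cfsg.groupFusionSystem (S : Subgroup G)).Hom P → ∃ g ∈ Subgroup.normalizer ((S : Subgroup G) : Set G), ∀ x : P, φ x = g * (x : G) * g⁻¹) ∧ (Cfsg.groupFusionSystem (S : Subgroup G)).core = S := by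
  have hn : (groupFusionSystem (S : Subgroup G)).IsNormal S :=
    normal_of_sc_two_step S.isPGroup' (sat_sylow S) (sc_top _) (sc_group_iff.2 hZ) hcl
      (Subgroup.commutator_eq_bot_iff_le_centralizer.2 inf_le_right)
  refine ⟨fun P φ hφ => ?_, le_antisymm (core_le _) (le_core hn)⟩
  obtain ⟨f, hf, e⟩ := exists_M hφ
  obtain ⟨g, hg, e'⟩ := normal_top_iff.1 hn P f hf
  obtain ⟨-, -, x, hx, e2⟩ := iso_group.1 hg.iso_top
  exact ⟨x, hx.normalizer_of_cj, fun y => by rw [e y y.2, ← e' y y.2, e2 y (hf.le y.2)]⟩

end Cfsg.Agent.S5107
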