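import Cfsg.Statements.S5112
import Cfsg.Agent.H28.Q4
import Cfsg.Agent.H04.MaxClass
-- import your own Cfsg.Agent.* helpers here

set_option autoImplicit false
open Cfsg

namespace Cfsg.Agent.S5112
open H28 Cfsg.FusionSystem
set_option linter.unusedVariables false
set_option linter.style.haveILetI false


/-- If S is a dihedral or generalized quaternion 2-group of order at least 16, then in every saturated fusion system over S (at the prime 2) the automorphism group Aut_F(S) consists of the inner automorphisms of S. -/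
theorem result {Ω : Type*} [Group Ω] {S : Subgroup Ω} [Finite S] (n : ℕ) (hn : 4 ≤ n) (hshape : Nonempty (S ≃* DihedralGroup (2 ^ (n - 1))) ∨ Nonempty (S ≃* QuaternionGroup (2 ^ (n - 2)))) (F : Cfsg.FusionSystem S) (hF : F.IsSaturated 2) : F.autGroup S = Cfsg.Inn S := by
  obtain ⟨m, rfl⟩ : ∃ m, n = m + 4 := ⟨n - 4, by omega⟩
  obtain ⟨a, b, h⟩ : ∃ a b : S, H04.DSQ (m + 1) a b := by
    rcases hshape with ⟨⟨e⟩⟩ | ⟨⟨e⟩⟩
    · exact ⟨_, _, (H04.dsq_dihedral (m + 1)).map e.symm⟩
    · exact ⟨_, _, (H04.dsq_quaternion (m + 1)).map e.symm⟩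
  refine (sat_syl_top h.isPGroup hF).max _ ((h.isPGroup_mulAut_or.resolve_right fun ⟨e⟩ => ?_).to_subgroup _)
    (Inn_le_autGroup F le_rfl) le_rfl
  have := Nat.card_congr e.toEquiv
  rw [h.card, Nat.card_eq_fintype_card, QuaternionGroup.card, show 4 * 2 = 2 ^ 3 by norm_num] at this
  have := Nat.pow_right_injective le_rfl this
  omega

end Cfsg.Agent.S5112
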