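import Cfsg.Statements.S5114
import Cfsg.Agent.H28.Q3
-- import your own Cfsg.Agent.* helpers here

set_option autoImplicit false
open Cfsg

namespace Cfsg.Agent.S5114
open H28 Cfsg.FusionSystem
set_option linter.unusedVariables false
set_option linter.style.haveILetI false


/-- Let F be a saturated fusion system over a finite p-group S and E a fusion system over S contained in F. If Aut_E(P) contains the subgroup of Aut_F(P) generated by its elements of p-power order for every subgroup P that is centric in F, then the same holds for every subgroup of S (E has index prime to p in F), every map of F with source a subgroup P of S is an element of Aut_F(S) composed with a map of E, and a subgroup is centric in E exactly when it is centric in F. -/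
theorem result {Ω : Type*} [Group Ω] {S : Subgroup Ω} [Finite S] (p : ℕ) [Fact p.Prime] (hS : IsPGroup p S) (F : Cfsg.FusionSystem S) (hF : F.IsSaturated p) (E : Cfsg.FusionSystem S) (hEF : E.IsSubsystemOf F) (h : ∀ P : Subgroup Ω, F.IsCentric P → (Subgroup.closure {α : ↥(F.autGroup P) | ∃ k : ℕ, orderOf α = p ^ k}).map (F.autGroup P).subtype ≤ E.autGroup P) : E.HasPrimeToPIndexIn F p ∧ (∀ (P : Subgroup Ω) (φ : P →* Ω), φ ∈ F.Hom P → ∃ α ∈ F.autGroup S, ∃ φ₀ ∈ E.Hom P, ∀ (x : P) (hx : φ₀ x ∈ S), φ x = ((α ⟨φ₀ x, hx⟩ : S) : Ω)) ∧ ∀ P : Subgroup Ω, E.IsCentric P ↔ F.IsCentric P := by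
  obtain ⟨D, h1, h2⟩ := exists_inv_of_centric hS hF hEF fun P hP => map_closure_pElt (p := p) (F.autGroup P) ▸ h P hP
  refine ⟨hasPrimeToPIndexIn_iff.2 ⟨hEF, fun P hP => (pElementClosure_le_of_inv hS hF h2 hP).trans
    (autGroup_mono h1 P)⟩, fun P φ hφ => ?_, fun P => ⟨fun hP => isCentric_iff.2 ⟨hP.1, fun Q f hf => ?_⟩,
      fun hP => isCentric_iff.2 ⟨hP.1, fun Q f hf => centric_le hP (hf.of_sub hEF)⟩⟩⟩
  · obtain ⟨α, a1, φ₀, a2, a3⟩ := h2.2.2.2 P (F.le_of_mem hφ).1 φ hφ
    exact ⟨α, a1, φ₀, h1 P a2, a3⟩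
  · obtain ⟨a, f₀, a1, a2, a3⟩ := inv_frattini h2 hP.1 hf.map
    obtain ⟨Q₀, b1⟩ := (a2.of_sub h1).exists_iso
    have b2 : HIso Q₀ Q a := (b1.hiso.symm.trans hf.hiso).congr fun x hx => by
      rw [ma, a3 _ (b1.inv_mem hx), ai]
    intro c hc
    have := centric_le hP b1 (a1.symm.map.mem_centralizerIn b2.symm hf.le' hc.1 hc.2)
    exact (b2.mem' c).1 this

end Cfsg.Agent.S5114
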