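import Cfsg.Statements.S5115
import Cfsg.Agent.H28.Solv
-- import your own Cfsg.Agent.* helpers here

set_option autoImplicit false
open Cfsg

namespace Cfsg.Agent.S5115
open H28 Cfsg.FusionSystem
set_option linter.unusedVariables false
set_option linter.style.haveILetI false

theorem aux {G : Type*} [Group G] [Finite G] {p : ℕ} [Fact p.Prime] (S : Sylow p G)
    (hF : (Cfsg.groupFusionSystem (S : Subgroup G)).IsConstrained p) (H : Subgroup G) (hH : H.IsSubnormal) :
    H26.IsSyl p ((S : Subgroup G) ⊓ H) H ∧
      (Cfsg.fusionSystemOfSubgroup H ((S : Subgroup G) ⊓ H) inf_le_right).IsConstrained p := by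
  induction hH with
  | top =>
    refine ⟨by simpa using H26.isSyl_top S, ?_⟩
    rw [group_eq_ofSubgroup] at hF
    convert hF <;> simp
  | step H K hle _ hn ih =>
    have hn' := (Subgroup.normal_subgroupOf_iff_le_normalizer hle).1 hn
    have h1 := normalIn_ofSubgroup ih.1 hle hn'
    have e : (S : Subgroup G) ⊓ K ⊓ H = (S : Subgroup G) ⊓ H := by rw [inf_assoc, inf_eq_right.2 hle]
    refine ⟨e ▸ ih.1.inf_of_le hle hn', ?_⟩
    have := constrained_of_sc ih.1.pg ih.2 h1.1.2.2.2.1 h1.1.1 h1.1.2.2.1
    have key : ∀ (T : Subgroup G) (h : T ≤ H), T = (S : Subgroup G) ⊓ K ⊓ H →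
        (fusionSystemOfSubgroup H T h).IsConstrained p := by rintro T h rfl; exact this
    exact key _ _ e.symm

theorem aux2 {G : Type*} [Group G] [Finite G] {p : ℕ} [Fact p.Prime] (S : Sylow p G)
    (hF : (Cfsg.groupFusionSystem (S : Subgroup G)).IsConstrained p) (H : Subgroup G) (hH : H.IsSubnormal) :
    H26.IsSyl p ((S : Subgroup G).subgroupOf H) ⊤ ∧
      (Cfsg.groupFusionSystem ((S : Subgroup G).subgroupOf H)).IsConstrained p := by
  obtain ⟨h1, h2⟩ := aux S hF H hH
  rw [← Subgroup.inf_subgroupOf_right]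
  exact ⟨by simpa using h1.subgroupOf le_rfl, (isFIso_subtype inf_le_right).symm.constrained h1.pg h2⟩


/-- If the 2-fusion system of a finite group G on a Sylow 2-subgroup S is constrained, then for every subnormal subgroup H of G the 2-fusion system of H on S ∩ H is constrained. -/
theorem result {G : Type*} [Group G] [Finite G] (S : Sylow 2 G) (hF : (Cfsg.groupFusionSystem (S : Subgroup G)).IsConstrained 2) (H : Subgroup G) (hH : H.IsSubnormal) : (Cfsg.groupFusionSystem ((S : Subgroup G).subgroupOf H)).IsConstrained 2 := by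
  exact (aux2 S hF H hH).2

end Cfsg.Agent.S5115
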