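import Cfsg.Statements.S5119
import Cfsg.Agent.H28.Inv
-- import your own Cfsg.Agent.* helpers here

set_option autoImplicit false
open Cfsg

namespace Cfsg.Agent.S5119
open H28 Cfsg.FusionSystem
set_option linter.unusedVariables false
set_option linter.style.haveILetI false


/-- Let F be a saturated fusion system over a finite p-group S and E a subsystem of F over a subgroup T that is strongly closed in F. Then E is invariant in F (invariance under Aut_F(T) plus the Frattini condition) if and only if the strong invariance condition holds: for P ≤ Q ≤ T, every map φ of E from P into Q and every map ψ of F with source Q, the transported map ψ φ ψ⁻¹ on ψ(P) is a map of E. -/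
theorem result {Ω : Type*} [Group Ω] {S : Subgroup Ω} [Finite S] (p : ℕ) [Fact p.Prime] (hS : IsPGroup p S) (F : Cfsg.FusionSystem S) (hF : F.IsSaturated p) {T : Subgroup Ω} (E : Cfsg.FusionSystem T) (hE : E.IsSubsystemOf F) (hT : F.StronglyClosed T) : E.IsInvariantIn F ↔ ∀ (P Q : Subgroup Ω) (hPQ : P ≤ Q) (_ : Q ≤ T) (φ : P →* Ω) (_ : φ ∈ E.Hom P) (hφQ : ∀ x : P, φ x ∈ Q) (ψ : Q →* Ω) (_ : ψ ∈ F.Hom Q), ∃ χ ∈ E.Hom ((P.subgroupOf Q).map ψ), ∀ (x : P) (hx : ψ (Subgroup.inclusion hPQ x) ∈ (P.subgroupOf Q).map ψ), χ ⟨ψ (Subgroup.inclusion hPQ x), hx⟩ = ψ ⟨φ x, hφQ x⟩ := by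
  haveI := finite_of_le hT.1
  refine ⟨fun h P Q hPQ hQ φ hφ hφQ ψ hψ => ?_, fun h => inv_of_strong hS hF hT hE
    fun R R' Q f g hf hRQ hfQ hQ hg hi => ?_⟩
  · obtain ⟨f, hf, e⟩ := exists_M hφ
    obtain ⟨g, hg, e'⟩ := exists_M hψ
    have hi : HIso P ((P.subgroupOf Q).map ψ) g := by
      rw [map_subgroupOf_eq_img e' hPQ]; exact (hg.hom.mono hPQ).hiso_img
    have h1 := inv_strong h hf hPQ (fun x hx => e x hx ▸ hφQ ⟨x, hx⟩) hQ hg hi
    refine ⟨_, h1.toHom_mem, fun x hx => ?_⟩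
    change (g * f * g⁻¹) (ψ ⟨x, hPQ x.2⟩) = _
    rw [e', e', e x x.2]; simp only [ma, ia]
  · obtain ⟨χ, hχ, e⟩ := h R Q hRQ hQ _ hf.toHom_mem (fun x => hfQ x x.2) _ hg.toHom_mem
    have e1 : (R.subgroupOf Q).map hg.hom.toHom = R' :=
      (map_subgroupOf_eq_img (f := g) (fun _ _ => rfl) hRQ).trans hi.img_eq
    subst e1
    refine ⟨χ, hχ, fun y hy => ?_⟩
    obtain ⟨x, hx, rfl⟩ := hi.surj hy
    exact (e ⟨x, hx⟩ hy).trans (by simp only [ma, ia]; rfl)

end Cfsg.Agent.S5119
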