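import Cfsg.Statements.S5130
import Cfsg.Agent.H28.Fit
-- import your own Cfsg.Agent.* helpers here

set_option autoImplicit false
open Cfsg

namespace Cfsg.Agent.S5130
open H28 Cfsg.FusionSystem
set_option linter.unusedVariables false
set_option linter.style.haveILetI false


/-- Let F be a saturated fusion system over a finite p-group S that is the direct product of two subgroups S₁ and S₂, each strongly closed in F. Let R be the full subsystem of F over S₁ (all maps of F between subgroups of S₁) and R′ the subsystem over S₁ of those maps that extend to the subgroup generated with S₂ fixing S₂ elementwise. Then R and R′ are saturated, R′ is normal in F and in R, and R is weakly normal in F. -/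
theorem result {Ω : Type*} [Group Ω] {S : Subgroup Ω} [Finite S] (p : ℕ) [Fact p.Prime] (hS : IsPGroup p S) (F : Cfsg.FusionSystem S) (hF : F.IsSaturated p) (S₁ S₂ : Subgroup Ω) (hprod : Cfsg.IsInternalDirectProduct S₁ S₂ S) (h₁ : F.StronglyClosed S₁) (h₂ : F.StronglyClosed S₂) (R R' : Cfsg.FusionSystem S₁) (hR : ∀ P : Subgroup Ω, P ≤ S₁ → R.Hom P = F.Hom P) (hR' : ∀ P : Subgroup Ω, P ≤ S₁ → R'.Hom P = F.centralizerHom S₂ P) : R.IsSaturated p ∧ R'.IsSaturated p ∧ R'.IsNormalIn F p ∧ R'.IsNormalIn R p ∧ R.IsWeaklyNormalIn F p := by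
  obtain ⟨-, -, hc, h0, h1⟩ := hprod
  haveI := finite_of_le h₁.1
  have e1 : ∀ P f, P ≤ S₁ → (M R P f ↔ M F P f) := fun P f hP => M_congr_of_hom_eq (hR P hP)
  have s1 := sat_of_factor hS hF h₁ h₂ hc h0 h1.ge e1
  obtain ⟨R₀, a, b⟩ := exists_full h₁
  obtain rfl : R = R₀ := eq_of_M fun P f => ⟨fun h => (b P f).2 ⟨(e1 P f h.le).1 h, h.le⟩,
    fun h => (e1 P f h.le).2 ((b P f).1 h).1⟩
  obtain ⟨C, hC⟩ := exists_isNK_bot F h₂.1
  haveI := hC.finite
  have hV := hS.to_le hC.le_top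
  have s2 := hC.sat_of_normal hS hF (fullyNormalized_of_normal h₂.1 (sc_le_normalizer h₂)) Subgroup.le_normalizer_of_normal
  have l1 : S₁ ≤ centralizerIn S S₂ := fun x hx => mem_centralizerIn.2 ⟨h₁.1 hx, fun y hy => (hc x hx y hy).symm⟩
  have e2 : ∀ P f, P ≤ S₁ → (M R' P f ↔ M C P f) := fun P f hP => (M_centralizerSystem (hR' P hP)).trans
    ⟨fun ⟨c, g, c1, c2, c3⟩ => (hC.of_M_bot c1 le_sup_left le_sup_right c c3).congr c2, fun h => ⟨h.le, hC.ext_bot h⟩⟩
  have l2 : centralizerIn S S₂ ≤ S₁ ⊔ S₂ ⊓ centralizerIn S S₂ := fun x hx => by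
    obtain ⟨u, hu, v, hv, rfl⟩ := (mem_sup_of_comm hc).1 (h1.ge hx.1)
    exact mul_mem (Subgroup.mem_sup_left hu) (Subgroup.mem_sup_right ⟨hv, (Subgroup.mul_mem_cancel_left _ (l1 hu)).1 hx⟩)
  have c1 := sc_sub' h₁ hC.sub l1
  have s3 := sat_of_factor hV s2 c1 (sc_sub h₂ hC.sub) (fun x hx y hy => hc x hx y hy.1)
    (eq_bot_iff.2 (h0 ▸ inf_le_inf_left _ inf_le_left)) l2 e2
  have hZ : C.IsCentral (S₂ ⊓ centralizerIn S S₂) := (central_iff_isolated hV s2).2
    ⟨inf_le_right, fun _ _ hf _ c d => hC.cen.apply hf c d.1⟩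
  have n := normalIn_of_pidx_centralizer hS hF h₂ hC h₁ s3 (pidx_iff.2 ⟨sub_iff_M.2 fun P f h => (e2 P f h.le).1 h,
    (hyperfocal_le_focal C).trans (focal_le_of_sup_central c1 hZ l2), fun P hP f hf _ => (e2 P f hP).2 hf.map⟩)
  exact ⟨s1, s3, n, normalIn_top ⟨s3, s1, inv_of_inv_sub hS n.1.2.2 s1 a.1
    (sub_iff_M.2 fun P f h => (e1 P f h.le).2 (h.of_sub n.1.2.2.1))⟩, s1, hF, a⟩

end Cfsg.Agent.S5130
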