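import Cfsg.Statements.S5139
import Cfsg.Agent.H28.OP
-- import your own Cfsg.Agent.* helpers here

set_option autoImplicit false
open Cfsg

namespace Cfsg.Agent.S5139
open H28 Cfsg.FusionSystem
set_option linter.unusedVariables false
set_option linter.style.haveILetI false


/-- Let G be a finite group with Sylow p-subgroup S and O^p(G) the subgroup generated by the elements of order prime to p. Then the p-residual subsystem of the fusion system of G on S — the saturated subsystem of p-power index over the hyperfocal subgroup — is the fusion system of O^p(G) on S ∩ O^p(G): its maps are exactly the conjugation maps by elements of O^p(G) between subgroups of S ∩ O^p(G). -/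
theorem result {G : Type*} [Group G] [Finite G] (p : ℕ) [Fact p.Prime] (S : Sylow p G) (E : Cfsg.FusionSystem ((Cfsg.groupFusionSystem (S : Subgroup G)).hyperfocalSubgroup p)) (hE : (Cfsg.groupFusionSystem (S : Subgroup G)).IsPResidual p E) : ∃ h : (S : Subgroup G) ⊓ Cfsg.pResidual p G ≤ Cfsg.pResidual p G, ∀ P : Subgroup G, E.Hom P = (Cfsg.fusionSystemOfSubgroup (Cfsg.pResidual p G) ((S : Subgroup G) ⊓ Cfsg.pResidual p G) h).Hom P := by
  have h := H26.isSyl_top S
  have h1 := pidx_ofSubgroup h (K := Cfsg.pResidual p G) H26.pResidualOf_top.le le_top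
  have h2 := hyperfocal_ofSubgroup h
  rw [← group_eq_ofSubgroup, H26.pResidualOf_top] at h2
  rw [← group_eq_ofSubgroup] at h1
  haveI := H26.pResidual_normal (p := p) (G := G)
  exact ⟨inf_le_right, (same_of_pidx S.isPGroup' hE.2 h1 hE.1 (sat_ofSubgroup (h.inf_of_le le_top
    (by rw [Subgroup.normalizer_eq_top]))) h2).hom_eq⟩

end Cfsg.Agent.S5139
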