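import Cfsg.Statements.S5143
import Cfsg.Agent.H28.ES2
-- import your own Cfsg.Agent.* helpers here

set_option autoImplicit false
open Cfsg

namespace Cfsg.Agent.S5143
open H28 Cfsg.FusionSystem
set_option linter.unusedVariables false
set_option linter.style.haveILetI false


/-- Let F be a saturated fusion system over a finite p-group S, E a normal subsystem over T, and R a subgroup with T ≤ R ≤ S. Then there is exactly one saturated subsystem D of F over R (exactly one family of map sets) whose p-residual subsystem is that of E: the hyperfocal subgroups of D and E coincide and the p-residual subsystems of D and of E have the same maps. -/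
theorem result {Ω : Type*} [Group Ω] {S : Subgroup Ω} [Finite S] (p : ℕ) [Fact p.Prime] (hS : IsPGroup p S) (F : Cfsg.FusionSystem S) (hF : F.IsSaturated p) {T : Subgroup Ω} (E : Cfsg.FusionSystem T) (hE : E.IsNormalIn F p) (R : Subgroup Ω) (hTR : T ≤ R) (hRS : R ≤ S) : ∃ D : Cfsg.FusionSystem R, (D.IsSaturated p ∧ D.IsSubsystemOf F ∧ D.hyperfocalSubgroup p = E.hyperfocalSubgroup p ∧ ∀ (D₁ : Cfsg.FusionSystem (D.hyperfocalSubgroup p)) (E₁ : Cfsg.FusionSystem (E.hyperfocalSubgroup p)), D.IsPResidual p D₁ → E.IsPResidual p E₁ → ∀ P : Subgroup Ω, D₁.Hom P = E₁.Hom P) ∧ ∀ D' : Cfsg.FusionSystem R, D'.IsSaturated p → D'.IsSubsystemOf F → D'.hyperfocalSubgroup p = E.hyperfocalSubgroup p → (∀ (D₁ : Cfsg.FusionSystem (D'.hyperfocalSubgroup p)) (E₁ : Cfsg.FusionSystem (E.hyperfocalSubgroup p)), D'.IsPResidual p D₁ → E.IsPResidual p E₁ → ∀ P : Subgroup Ω, D₁.Hom P = E₁.Hom P) → ∀ P : Subgroup Ω, D'.Hom P = D.Hom P := by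
  haveI := inv_finite hE.1.2.2
  haveI := finite_of_le hRS
  have hR := hS.to_le hRS
  have hT := hR.to_le hTR
  obtain ⟨D, hD⟩ := exists_ES hS hF hE hTR hRS
  have h1 := hyperfocal_pidx hR hD.sat hD.idx
  refine ⟨D, ⟨hD.sat, hD.sub, h1.symm, fun D₁ E₁ a1 a2 =>
    (same_of_pidx hR a1.2 (pidx_trans hD.idx a2.2 h1.ge) a1.1 a2.1 h1.symm).hom_eq⟩, fun D' a1 a2 a3 a4 P => ?_⟩
  obtain ⟨E₁, b1⟩ := exists_pres hT hE.1.1
  obtain ⟨D₁, b2⟩ := exists_pres hR a1
  have b3 := pres_normal hS hF hE b1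
  have b4 : E₁.HasPPowerIndexIn D' p := (same_of_hom_eq (a4 D₁ E₁ b2 b1)).ind (C := fun A => A.HasPPowerIndexIn D' p) b2.2
  rw [IsES.unique hS hF b3 ⟨a1, a2, b4⟩ ⟨hD.sat, hD.sub, pidx_trans hD.idx b1.2 h1.ge⟩]

end Cfsg.Agent.S5143
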