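import Cfsg.Statements.S5147
import Cfsg.Agent.H28.Solv
import Cfsg.Agent.S5115
-- import your own Cfsg.Agent.* helpers here

set_option autoImplicit false
open Cfsg

namespace Cfsg.Agent.S5147
open H28 Cfsg.FusionSystem
set_option linter.unusedVariables false
set_option linter.style.haveILetI false


/-- Let G be a finite group with Sylow 2-subgroup S whose 2-fusion system on S is constrained, and L a component of G (a subnormal quasisimple subgroup). Then the 2-fusion system of L/Z(L) on the image of S ∩ L is constrained. -/
theorem result {G : Type*} [Group G] [Finite G] (S : Sylow 2 G) (hF : (Cfsg.groupFusionSystem (S : Subgroup G)).IsConstrained 2) (L : Subgroup G) (hL : Cfsg.IsComponent L) : (Cfsg.groupFusionSystem (((S : Subgroup G).subgroupOf L).map (QuotientGroup.mk' (Subgroup.center L)))).IsConstrained 2 := by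
  obtain ⟨h1, h2⟩ := S5115.aux2 S hF L hL.1
  have h := isQuo_group h1 (QuotientGroup.mk' (Subgroup.center L)) (QuotientGroup.mk'_surjective _)
  refine h.constrained h1.pg h2 ((central_iff_isolated h1.pg h2.1).2 ⟨h.hom.pre_le, fun P f hf x hx hx' => ?_⟩)
  obtain ⟨-, -, g, e⟩ := M_group.1 hf
  rw [e x hx, Subgroup.mem_center_iff.1 ((QuotientGroup.eq_one_iff x).1 hx'.2) g, mul_inv_cancel_right]

end Cfsg.Agent.S5147
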