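import Cfsg.Statements.S5159
import Cfsg.Agent.H28.Solv
-- import your own Cfsg.Agent.* helpers here

set_option autoImplicit false
open Cfsg

namespace Cfsg.Agent.S5159
open H28 Cfsg.FusionSystem
set_option linter.unusedVariables false
set_option linter.style.haveILetI false


/-- Let F be a saturated fusion system over a finite p-group S, E a normal subsystem over T, and D the factor system of F modulo T (read through any homomorphism on S with kernel T). Then F is solvable if and only if E and D are solvable (solvable, for a system over a subgroup S: for every subgroup R other than S that is strongly closed in F, the factor system of F modulo R has a nontrivial subgroup normal in it). -/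
theorem result {Ω : Type*} [Group Ω] {S : Subgroup Ω} [Finite S] (p : ℕ) [Fact p.Prime] (hS : IsPGroup p S) (F : Cfsg.FusionSystem S) (hF : F.IsSaturated p) {T : Subgroup Ω} (E : Cfsg.FusionSystem T) (hE : E.IsNormalIn F p) {Ω' : Type*} [Group Ω'] {S' : Subgroup Ω'} (θ : S →* Ω') (D : Cfsg.FusionSystem S') (hD : F.IsFactorSystem T θ D) : F.IsSolvableSystem ↔ (E.IsSolvableSystem ∧ D.IsSolvableSystem) := by
  have hi := hE.1.2.2
  have hT := hi.2.1
  haveI := inv_finite hi
  have hq := isQuo_of_factor hS hF hT hD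
  haveI := hq.finite
  rw [solvable_iff hS hF, solvable_iff (hS.to_le hT.1) hE.1.1, solvable_iff (hq.isPGroup hS) (hq.sat hS hF)]
  refine ⟨fun h => ⟨?_, ?_⟩, fun ⟨h1, h2⟩ => SolvChain.trans (B := T) ?_ ?_⟩
  · have := h.map (F' := E) (u := fun A => A ⊓ T) (fun _ _ h _ => inf_le_inf_right _ h)
      (fun B hB => stronglyClosed_iff.2 ⟨inf_le_right, fun P f hf x hx hx' =>
        ⟨sc_mem hB (hf.of_sub hi.1) hx hx'.1, hf.mem hx⟩⟩) fun A B _ h _ =>
      le_inf ((Subgroup.commutator_mono inf_le_left inf_le_left).trans h)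
        ((Subgroup.commutator_mono inf_le_right inf_le_right).trans
          (H26.commutator_le_of_le_normalizer Subgroup.le_normalizer))
    simpa [inf_eq_right.2 hT.1] using this
  · have := h.map (F' := D) (u := img (tot θ)) (fun _ _ h _ => img_mono h) (fun _ => hq.sc_img) fun A B hB h _ => by
      rw [← hq.hom.img_commutator hB hB]; exact img_mono h
    rwa [img_bot hq.hom, hq.surj] at this
  · let u : Subgroup Ω → Subgroup Ω := fun A => ⨅ a : {a // Iso F T T a}, a.2.hom.pre A
    have hu : ∀ {A x}, x ∈ u A ↔ x ∈ T ∧ ∀ a, Iso F T T a → a x ∈ A := fun {A x} =>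
      Subgroup.mem_iInf.trans ⟨fun h => ⟨(h ⟨1, Iso.refl F hT.1⟩).1, fun a ha => (h ⟨a, ha⟩).2⟩,
        fun h a => ⟨h.1, h.2 a.1 a.2⟩⟩
    have := h1.map (F' := F) (u := u) (fun _ _ h _ x hx => hu.2 ⟨(hu.1 hx).1, fun a ha => h ((hu.1 hx).2 a ha)⟩)
      (fun B hB => inv_sc hi (stronglyClosed_iff.2 ⟨fun x hx => (hu.1 hx).1, fun P f hf x hx hx' =>
        hu.2 ⟨hf.mem hx, fun a ha => ?_⟩⟩) fun a ha x hx => hu.2 ⟨ha.map_mem (hu.1 hx).1,
          fun b hb => (hu.1 hx).2 _ (ha.trans hb)⟩)
      fun A B _ h _ => Subgroup.commutator_le.2 fun x hx y hy => hu.2 ⟨mul_mem (mul_mem (mul_mem (hu.1 hx).1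
        (hu.1 hy).1) (inv_mem (hu.1 hx).1)) (inv_mem (hu.1 hy).1), fun a ha => by
          rw [ha.hom.map_comm (hu.1 hx).1 (hu.1 hy).1]
          exact h (Subgroup.commutator_mem_commutator ((hu.1 hx).2 a ha) ((hu.1 hy).2 a ha))⟩
    · have e1 : u ⊥ = ⊥ := eq_bot_iff.2 fun x hx => (hu.1 hx).2 1 (Iso.refl F hT.1)
      have e2 : u T = T := le_antisymm (fun x hx => (hu.1 hx).1) fun x hx => hu.2 ⟨hx, fun a ha => ha.map_mem hx⟩
      rwa [e1, e2] at this
    · obtain ⟨P', -, hP'⟩ := ha.restrict hf.le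
      simpa only [ma, ia] using sc_mem hB (inv_conj hi hf ha hP'.hiso) (hP'.map_mem hx) ((hu.1 hx').2 a ha)
  · have := h2.map (F' := F) (u := hq.hom.pre) (fun _ _ h _ => hq.hom.pre_mono h) (fun _ => hq.sc_pre)
      fun A B _ h _ => Subgroup.commutator_le.2 fun x hx y hy => ⟨mul_mem (mul_mem (mul_mem hx.1 hy.1)
        (inv_mem hx.1)) (inv_mem hy.1), by
          rw [hq.hom.map_comm hx.1 hy.1]; exact h (Subgroup.commutator_mem_commutator hx.2 hy.2)⟩
    rwa [← factor_ker hD, hq.pre_top] at this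

end Cfsg.Agent.S5159
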