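import Cfsg.Statements.S5160
import Cfsg.Agent.H28.Inv
-- import your own Cfsg.Agent.* helpers here

set_option autoImplicit false
open Cfsg

namespace Cfsg.Agent.S5160
open H28 Cfsg.FusionSystem
set_option linter.unusedVariables false
set_option linter.style.haveILetI false


/-- Let G be a finite group with nontrivial Sylow p-subgroup S and F its fusion system on S. Suppose (a) no nontrivial proper subgroup of S is strongly closed in F, and (b) the automorphisms of S induced by G are generated by those induced, for R running over the fully normalized radical centric subgroups of F, by the subgroup of N_G(R) generated by its elements of p-power order. Then F is simple. -/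
theorem result {G : Type*} [Group G] [Finite G] (p : ℕ) [Fact p.Prime] (S : Sylow p G) (hS1 : (S : Subgroup G) ≠ ⊥) (ha : ∀ T : Subgroup G, (Cfsg.groupFusionSystem (S : Subgroup G)).StronglyClosed T → T = ⊥ ∨ T = (S : Subgroup G)) (hb : Cfsg.autInducedBy ⊤ (S : Subgroup G) = ⨆ (R : Subgroup G) (_ : (Cfsg.groupFusionSystem (S : Subgroup G)).IsFullyNormalized R ∧ (Cfsg.groupFusionSystem (S : Subgroup G)).IsRadical p R ∧ (Cfsg.groupFusionSystem (S : Subgroup G)).IsCentric R), Cfsg.autInducedBy (Subgroup.closure {g : G | g ∈ Subgroup.normalizer (R : Set G) ∧ ∃ k : ℕ, orderOf g = p ^ k}) (S : Subgroup G)) : (Cfsg.groupFusionSystem (S : Subgroup G)).IsSimple p := by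
  have hF := sat_sylow S
  refine ⟨hF, hS1, fun T E hE => (ha T hE.1.2.2.2.1).imp_right fun e => ?_⟩
  subst e
  refine ⟨rfl, fun P => congrArg (·.Hom P) (inv_eq_of_top hE.1.2.2 fun a ha => ?_)⟩
  have h1 := ha.res_mem
  rw [autGroup_group le_rfl, hb] at h1
  refine (ha.hiso.iso_of_res_mem le_rfl ((iSup₂_le fun R hR α hα => ?_ : _ ≤ E.autGroup S) h1)).map
  obtain ⟨g, hg, rfl⟩ := mem_autInducedBy'.1 hα
  have hRS := hR.1.1
  have h2 : ∀ g ∈ Subgroup.closure {g : G | g ∈ Subgroup.normalizer (R : Set G) ∧ ∃ k : ℕ, orderOf g = p ^ k},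
      Iso E R R (cj g) := by
    intro g hg
    induction hg using Subgroup.closure_induction with
    | mem g hg =>
      have h3 := hiso_cj_of_normalizer hg.1
      refine h3.iso_of_res_mem hRS (pElementClosure_le_of_inv S.isPGroup' hF hE.1.2.2 hRS
        (H26.mem_pElementClosure (iso_cj_group hRS hRS h3).res_mem ?_))
      obtain ⟨k, hk⟩ := hg.2
      exact ⟨k, by rw [← res_cj_pow hg.1, ← hk, pow_orderOf_eq_one, map_one, res_one]⟩
    | one => simpa using Iso.refl E hRS
    | mul a b _ _ h1 h2 => simpa using h2.trans h1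
    | inv a _ h1 => simpa using h1.symm
  have h3 := hiso_cj_of_normalizer hg.2
  exact ((M_of_centric S.isPGroup' hF hE.1.1 hE.1.2.2.1 hR.2.2 hRS (iso_cj_group le_rfl le_rfl h3).map
    (h2 g hg.1).map).iso_of h3).res_mem

end Cfsg.Agent.S5160
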