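import Mathlib
import Cfsg.Statements.S5164

set_option autoImplicit false
open Cfsg

namespace Cfsg.Agent.S5164

open Equiv

/-- A Heisenberg group acting on the affine plane. -/
def Heis (R : Type*) [CommRing R] : Subgroup (Perm (R × R)) where
  carrier := {g | ∃ s t u : R, ∀ x y, g (x, y) = (x + s, y + t * x + u)}
  one_mem' := ⟨0, 0, 0, by simp⟩
  mul_mem' := by
    rintro g h ⟨s, t, u, hg⟩ ⟨s', t', u', hh⟩
    refine ⟨s' + s, t + t', u' + t * s' + u, fun x y => ?_⟩
    rw [Perm.mul_apply, hh, hg, Prod.mk.injEq]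
    constructor <;> ring
  inv_mem' := by
    rintro g ⟨s, t, u, hg⟩
    refine ⟨-s, -t, t * s - u, fun x y => ?_⟩
    rw [Perm.inv_eq_iff_eq, hg, Prod.mk.injEq]
    constructor <;> ring

theorem heis_pgroup (p : ℕ) : IsPGroup p (Heis (ZMod p)) := by
  rintro ⟨g, s, t, u, hg⟩
  refine ⟨2, Subtype.ext ?_⟩
  have h1 : ∀ k : ℕ, ∃ v, ∀ x y, (g ^ k) (x, y) = (x + k * s, y + k * t * x + v) := by
    intro k
    induction k with
    | zero => exact ⟨0, by simp⟩
    | succ k ih =>
      obtain ⟨v, hv⟩ := ih
      refine ⟨v + t * k * s + u, fun x y => ?_⟩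
      rw [pow_succ', Perm.mul_apply, hv, hg, Prod.mk.injEq]
      push_cast
      constructor <;> ring
  obtain ⟨v, hv⟩ := h1 p
  simp only [CharP.cast_eq_zero, zero_mul, add_zero] at hv
  have h2 : ∀ k : ℕ, ∀ x y, ((g ^ p) ^ k) (x, y) = (x, y + k * v) := by
    intro k
    induction k with
    | zero => simp
    | succ k ih =>
      intro x y
      rw [pow_succ', Perm.mul_apply, ih, hv]
      push_cast
      congr 1; ring
  change g ^ p ^ 2 = 1
  rw [sq, pow_mul]
  ext ⟨x, y⟩ <;> simp [h2]

theorem heis_noncomm (R : Type*) [CommRing R] [Nontrivial R] : ∃ a ∈ Heis R, ∃ b ∈ Heis R, a * b ≠ b * a := by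
  refine ⟨Equiv.addRight (1, 0), ⟨1, 0, 0, by simp⟩, prodShear (Equiv.refl R) Equiv.addRight, ⟨0, 1, 0, by simp⟩, fun h => ?_⟩
  have := congrArg (fun g : Perm (R × R) => (g (0, 0)).2) h
  simp at this

/-- A dihedral group of even permutations of six points. -/
def D8 : Subgroup (Perm (Fin 6)) where
  carrier := {g | g ∈ ([1, swap 0 2 * swap 1 3, swap 0 1 * swap 2 3, swap 0 3 * swap 1 2, swap 0 2 * swap 4 5,
    swap 1 3 * swap 4 5, swap 0 1 * swap 2 3 * swap 0 2 * swap 4 5, swap 0 1 * swap 2 3 * swap 1 3 * swap 4 5] : List (Perm (Fin 6)))}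
  one_mem' := by simp
  mul_mem' := by
    intro a b ha hb
    revert b
    revert a
    simp only [Set.mem_setOf_eq]
    intro a ha b hb
    revert b
    revert a
    decide +kernel
  inv_mem' := by
    intro a
    simp only [Set.mem_setOf_eq]
    revert a
    decide +kernel

theorem d8_aux : ∀ g ∈ D8, g ^ 2 ^ 2 = 1 ∧ Perm.sign g = 1 := by
  change ∀ g ∈ ([_, _, _, _, _, _, _, _] : List (Perm (Fin 6))), _
  decide +kernel

/-- For n ≥ 6 and a prime p, a nontrivial Sylow p-subgroup of the alternating group of degree n is abelian if and only if n < p². -/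
theorem result (n p : ℕ) (hn : 6 ≤ n) [Fact p.Prime] (S : Sylow p (alternatingGroup (Fin n))) (hS : (S : Subgroup (alternatingGroup (Fin n))) ≠ ⊥) : IsMulCommutative S ↔ n < p ^ 2 := by
  have hp : p.Prime := Fact.out
  constructor
  · intro hc
    by_contra hlt
    have key : ∀ {α : Type} [Fintype α] [DecidableEq α] (_ : Fintype.card α ≤ n) (Q : Subgroup (Perm α)), IsPGroup p Q →
        (∀ g ∈ Q, Perm.sign g = 1) → ∀ a ∈ Q, ∀ b ∈ Q, a * b = b * a := by
      intro α _ _ hα Q hQ hs a ha b hb
      obtain ⟨ι⟩ : Nonempty (α ↪ Fin n) := Function.Embedding.nonempty_of_card_le (by simpa using hα)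
      let φ := Perm.viaEmbeddingHom ι
      have hA : ∀ g ∈ Q, φ g ∈ alternatingGroup (Fin n) := fun g hg => by
        rw [Perm.mem_alternatingGroup, ← hs g hg]
        exact @Perm.sign_extendDomain _ _ _ _ _ _ g _ (fun _ => Classical.propDecidable _) (Equiv.ofInjective ι.1 ι.2)
      have h1 : IsPGroup p ((Q.map φ).subgroupOf (alternatingGroup (Fin n))) := (hQ.map φ).comap_subtype
      obtain ⟨T, hT⟩ := h1.exists_le_sylow
      have h2 : IsMulCommutative T := by
        haveI := hc
        exact ⟨⟨fun x y => (S.equiv T).symm.injective (by rw [map_mul, map_mul, mul_comm'])⟩⟩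
      apply Perm.viaEmbeddingHom_injective ι
      have h3 := h2.1.1 ⟨⟨φ a, hA a ha⟩, hT ⟨a, ha, rfl⟩⟩ ⟨⟨φ b, hA b hb⟩, hT ⟨b, hb, rfl⟩⟩
      rw [map_mul, map_mul]
      exact congrArg (fun x : T => ((x : alternatingGroup (Fin n)) : Perm (Fin n))) h3
    by_cases h2 : p = 2
    · subst h2
      have := key (α := Fin 6) (by simpa using hn) D8 (fun g => ⟨2, Subtype.ext (d8_aux g g.2).1⟩) (fun g hg => (d8_aux g hg).2)
        (swap 0 1 * swap 2 3) (by simp [D8]) (swap 0 2 * swap 4 5) (by simp [D8])
      revert this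
      decide
    · obtain ⟨a, ha, b, hb, hab⟩ := heis_noncomm (ZMod p)
      refine hab (key (α := ZMod p × ZMod p) (by simpa [sq] using hlt) _ (heis_pgroup p) (fun g hg => ?_) a ha b hb)
      obtain ⟨k, hk⟩ := heis_pgroup p ⟨g, hg⟩
      have h3 : Perm.sign g ^ p ^ k = 1 := by rw [← map_pow, show g ^ p ^ k = 1 from congrArg Subtype.val hk, map_one]
      rcases Int.units_eq_one_or (Perm.sign g) with h | h
      · exact h
      · rw [h, ((hp.odd_of_ne_two h2).pow).neg_one_pow] at h3
        exact absurd h3 (by decide)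
  · intro hlt
    have h1 : ∀ x : Fin n, commutator S ≤ MulAction.stabilizer S x := by
      intro x
      obtain ⟨k, hk⟩ := S.isPGroup'.index (MulAction.stabilizer S x)
      have h2 : (MulAction.stabilizer S x).index ≤ n := by
        rw [MulAction.index_stabilizer]
        simpa using Set.ncard_le_card (MulAction.orbit S x)
      have h3 : k < 2 := (Nat.pow_lt_pow_iff_right hp.one_lt).1 (by omega)
      rcases (show k = 0 ∨ k = 1 by omega) with rfl | rfl
      · rw [Subgroup.index_eq_one.1 hk]; exact le_top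
      · rw [pow_one] at hk
        haveI : (MulAction.stabilizer S x).Normal := by
          apply Subgroup.normal_of_index_eq_minFac_card
          obtain ⟨j, hj⟩ := S.isPGroup'.exists_card_eq
          have : j ≠ 0 := by
            rintro rfl
            exact hS (Subgroup.card_eq_one.1 hj)
          rw [hk]; exact (hj ▸ hp.pow_minFac this).symm
        haveI := isCyclic_of_prime_card (α := S ⧸ MulAction.stabilizer S x) (p := p) hk
        exact Subgroup.Normal.quotient_commutative_iff_commutator_le.1 IsCyclic.isMulCommutative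
    refine ⟨⟨fun a b => ?_⟩⟩
    rw [← commutatorElement_eq_one_iff_mul_comm]
    refine Subtype.ext (Subtype.ext (Equiv.ext fun x => ?_))
    exact h1 x (Subgroup.commutator_mem_commutator (Subgroup.mem_top a) (Subgroup.mem_top b))

end Cfsg.Agent.S5164
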