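import Mathlib
import Cfsg.Statements.S5165
import Cfsg.Agent.H04.AltS

set_option autoImplicit false
open Cfsg

namespace Cfsg.Agent.S5165

/-- For n ≥ 6, a prime p with p² ≤ n, and n congruent to 0 or 1 modulo p, the p-fusion system of the alternating group of degree n on a Sylow p-subgroup is simple. -/
theorem result (n p : ℕ) (hn : 6 ≤ n) [Fact p.Prime] (hnp : p ^ 2 ≤ n) (hb : n % p ≤ 1) (S : Sylow p (alternatingGroup (Fin n))) : (Cfsg.groupFusionSystem (S : Subgroup (alternatingGroup (Fin n)))).IsSimple p := by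
  have hp := (Fact.out : p.Prime)
  haveI : Subsingleton (Fin (n % p)) := Fin.subsingleton_iff_le_one.2 hb
  by_cases h2 : p = 2
  · subst h2
    have e : (Fin (n / 2) × ZMod 2) ⊕ Fin (n % 2) ≃ Fin n := Fintype.equivOfCardEq (by simp [Nat.div_add_mod'])
    obtain ⟨T⟩ : Nonempty (Sylow 2 (alternatingGroup ((Fin (n / 2) × ZMod 2) ⊕ Fin (n % 2)))) := inferInstance
    exact H28.isSimple_transport e.altCongrHom (H26.isSyl_top T) (H04.AW.simple_two (by simp; omega) T) S
  · have h3 : p ≤ n / p := (Nat.le_div_iff_mul_le hp.pos).2 (by rwa [← pow_two])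
    have e : ((ZMod p ⊕ Fin (n / p - p)) × ZMod p) ⊕ Fin (n % p) ≃ Fin n :=
      Fintype.equivOfCardEq (by simp [Nat.add_sub_cancel' h3, Nat.div_add_mod'])
    obtain ⟨T⟩ : Nonempty (Sylow p (alternatingGroup (((ZMod p ⊕ Fin (n / p - p)) × ZMod p) ⊕ Fin (n % p)))) :=
      inferInstance
    exact H28.isSimple_transport e.altCongrHom (H26.isSyl_top T) (H04.AW.simple_odd h2 T) S

end Cfsg.Agent.S5165
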