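import Cfsg.Statements.S5311
import Cfsg.Agent.H28.Comp2
-- import your own Cfsg.Agent.* helpers here

set_option autoImplicit false
open Cfsg

namespace Cfsg.Agent.S5311
open H28 Cfsg.FusionSystem
set_option linter.unusedVariables false
set_option linter.style.haveILetI false


/-- The layer of a saturated fusion system F over a finite p-group S is characteristic in F: for every automorphism α of S that is an automorphism of F (α and its inverse are morphisms from F to F) and every layer E of F over T, α carries T onto T and, for every map φ of E with source P, the map induced by α on α(P) (that is, α ∘ φ ∘ α⁻¹) is a map of E. -/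
theorem result {Ω : Type*} [Group Ω] {S : Subgroup Ω} [Finite S] (p : ℕ) [Fact p.Prime] (hS : IsPGroup p S) (F : Cfsg.FusionSystem S) (hF : F.IsSaturated p)
    (α : ↥S ≃* ↥S) (hα : F.IsMorphism F (S.subtype.comp α.toMonoidHom))
    (hα' : F.IsMorphism F (S.subtype.comp α.symm.toMonoidHom))
    {T : Subgroup Ω} (E : Cfsg.FusionSystem T) (hE : E.IsLayerOf F p) :
    Cfsg.FusionSystem.imageAlong (S.subtype.comp α.toMonoidHom) T = T ∧
      ∀ (P : Subgroup Ω) (φ : ↥P →* Ω), φ ∈ E.Hom P →
        ∀ φ' : ↥(Cfsg.FusionSystem.imageAlong (S.subtype.comp α.toMonoidHom) P) →* Ω,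
          Cfsg.FusionSystem.InducedAlong (S.subtype.comp α.toMonoidHom) φ φ' →
            φ' ∈ E.Hom (Cfsg.FusionSystem.imageAlong (S.subtype.comp α.toMonoidHom) P) := by
  haveI := inv_finite hE.1.1.2.2
  have hT := inv_le hE.1.1.2.2
  have h := (isFIso_of_mor (isMorphism_iff.1 hα) (isMorphism_iff.1 hα') (fun x hx => by simp [tot_apply _ hx])
    fun x hx => by simp [tot_apply _ hx]).layer_self hS hE
  refine ⟨(imageAlong_eq _ hT).trans h.surj, fun P φ hφ φ' h1 => ?_⟩
  obtain ⟨f, a1, a2⟩ := exists_M hφ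
  obtain ⟨f', a3, a4⟩ := h.mor P f a1
  obtain ⟨k, a5⟩ := exists_fun φ'
  have a6 := (inducedAlong_iff a2 a5).1 h1
  rw [← imageAlong_eq _ a6.1] at a3
  refine a3.mem_Hom fun y hy => ?_
  obtain ⟨x, hx, rfl⟩ := ((homOn_tot _).mono a6.1).mem_img.1 ((imageAlong_eq _ a6.1).le hy)
  rw [a5, a6.2.2.2 x hx, a4 x hx]

end Cfsg.Agent.S5311
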