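import Mathlib
import Cfsg.Statements.S5345
import Cfsg.Agent.H29.Basic

set_option autoImplicit false
open Cfsg

namespace Cfsg.Agent.S5345

/-- Let D be a conjugation-invariant generating set of 3-transpositions of a finite group G and T a Sylow 2-subgroup of G. Then the members of D lying in T generate an abelian subgroup, and their number is the width of D (the largest number of pairwise commuting members of D). -/
theorem result {G : Type*} [Group G] [Finite G] {D : Set G} (hD : Cfsg.IsThreeTranspositionGroup D) (T : Sylow 2 G) : IsMulCommutative (Subgroup.closure {d : G | d ∈ D ∧ d ∈ T}) ∧ {d : G | d ∈ D ∧ d ∈ T}.ncard = Cfsg.commutingWidth D := by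
  haveI : Fact (Nat.Prime 2) := ⟨Nat.prime_two⟩
  have hcomm : ∀ (P : Subgroup G), IsPGroup 2 P → ∀ a ∈ D, a ∈ P → ∀ b ∈ D, b ∈ P → Commute a b := by
    intro P hP a ha haP b hb hbP
    by_contra h
    obtain ⟨k, hk⟩ := (IsPGroup.iff_orderOf.1 hP) ⟨a * b, P.mul_mem haP hbP⟩
    rw [Subgroup.orderOf_mk, H29.tts_orderOf_mul hD.1 ha hb h] at hk
    have : (3 : ℕ) ∣ 2 ^ k := hk ▸ dvd_rfl
    have := Nat.Prime.dvd_of_dvd_pow Nat.prime_three this
    omega
  have hbound : ∀ E : Set G, E ⊆ D → (∀ a ∈ E, ∀ b ∈ E, Commute a b) →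
      E.ncard ≤ {d : G | d ∈ D ∧ d ∈ T}.ncard := by
    intro E hE hc
    have hp : IsPGroup 2 (Subgroup.closure E) := by
      intro ⟨x, hx⟩
      refine ⟨1, Subtype.ext ?_⟩
      have : x * x = 1 ∧ ∀ b ∈ E, Commute x b := by
        induction hx using Subgroup.closure_induction_left with
        | one => simp
        | mul_left a ha y _ ih =>
          refine ⟨?_, fun b hb => (hc a ha b hb).mul_left (ih.2 b hb)⟩
          rw [← mul_assoc, mul_assoc a y a, (ih.2 a ha).eq, ← mul_assoc, H29.tts_sq hD.1 (hE ha), one_mul, ih.1]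
        | inv_mul_cancel a ha y _ ih =>
          rw [H29.tts_inv hD.1 (hE ha)]
          refine ⟨?_, fun b hb => (hc a ha b hb).mul_left (ih.2 b hb)⟩
          rw [← mul_assoc, mul_assoc a y a, (ih.2 a ha).eq, ← mul_assoc, H29.tts_sq hD.1 (hE ha), one_mul, ih.1]
      simpa [sq] using this.1
    obtain ⟨Q, hQ⟩ := hp.exists_le_sylow
    obtain ⟨g, hg⟩ := MulAction.exists_smul_eq G Q T
    refine Set.ncard_le_ncard_of_injOn (fun x => g * x * g⁻¹) (fun x hx => ⟨hD.2.1 g x (hE hx), ?_⟩)
      (fun x _ y _ h => by simpa using h) (Set.toFinite _)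
    rw [← hg]
    exact Subgroup.smul_mem_pointwise_smul x (MulAut.conj g) _ (hQ (Subgroup.subset_closure hx))
  refine ⟨Subgroup.isMulCommutative_closure (fun a ha b hb => (hcomm T T.isPGroup' a ha.1 ha.2 b hb.1 hb.2).eq), ?_⟩
  symm
  apply IsGreatest.csSup_eq
  refine ⟨⟨_, fun _ h => h.1, Set.toFinite _, fun a ha b hb => hcomm T T.isPGroup' a ha.1 ha.2 b hb.1 hb.2, rfl⟩, ?_⟩
  rintro n ⟨E, hE, -, hc, rfl⟩
  exact hbound E hE hc

end Cfsg.Agent.S5345
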