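import Mathlib
import Cfsg.Statements.S5346
import Cfsg.Agent.H29.Blocks

set_option autoImplicit false
open Cfsg

namespace Cfsg.Agent.S5346

/-- Let D be a conjugation-invariant generating set of 3-transpositions of a finite group G and d a member of D. Then D has width 1 (no two different members of D commute) if and only if G is the product of the subgroup generated by d with the largest normal 3-subgroup of G. -/
theorem result {G : Type*} [Group G] [Finite G] {D : Set G} (hD : Cfsg.IsThreeTranspositionGroup D) {d : G} (hd : d ∈ D) : Cfsg.commutingWidth D = 1 ↔ Subgroup.zpowers d ⊔ Cfsg.pCore 3 G = ⊤ := by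
  have hT := H29.TI.of_group hD
  have hbdd : BddAbove {n : ℕ | ∃ E : Set G, E ⊆ D ∧ E.Finite ∧ (∀ a ∈ E, ∀ b ∈ E, Commute a b) ∧ E.ncard = n} :=
    ⟨Nat.card G, by rintro _ ⟨E, -, -, -, rfl⟩; exact Set.ncard_le_card E⟩
  have key : Cfsg.commutingWidth D = 1 ↔ ∀ a ∈ D, ∀ b ∈ D, Commute a b → a = b := by
    constructor
    · intro h a ha b hb hab
      by_contra hne
      have : 2 ≤ Cfsg.commutingWidth D := le_csSup hbdd ⟨{a, b}, by
        rintro _ (rfl | rfl) <;> assumption, Set.toFinite _, by
        rintro _ (rfl | rfl) _ (rfl | rfl)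
        exacts [Commute.refl _, hab, hab.symm, Commute.refl _], Set.ncard_pair hne⟩
      omega
    · intro h
      refine le_antisymm (csSup_le' ?_) (le_csSup hbdd ⟨{d}, by simpa using hd, Set.toFinite _, by
        rintro _ rfl _ rfl; exact Commute.refl _, Set.ncard_singleton d⟩)
      rintro _ ⟨E, hE, hf, hc, rfl⟩
      exact (Set.ncard_le_one hf).2 fun a ha b hb => h a (hE ha) b (hE hb) (hc a ha b hb)
  rw [key]
  constructor
  · intro h
    rw [eq_top_iff, ← hD.2.2, Subgroup.closure_le]
    intro e he
    have := H29.mul_mem_pCore_of_width_one hD.1 hD.2.1 (fun a ha b hb => by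
      by_cases hab : Commute a b
      · rw [h a ha b hb hab]
      · exact H29.tts_braid hD.1 ha hb hab) hd he
    rw [← H29.tts_cancel hD.1 hd e]
    exact Subgroup.mul_mem_sup (Subgroup.mem_zpowers d) this
  · intro h a ha b hb hab
    have key : ∀ e ∈ D, d * e ∈ Cfsg.pCore 3 G := by
      intro e he
      have : e ∈ ((Subgroup.zpowers d ⊔ Cfsg.pCore 3 G : Subgroup G) : Set G) := by rw [h]; trivial
      rw [Subgroup.mul_normal] at this
      obtain ⟨x, hx, y, hy, hxy⟩ := this
      have hx' : x = 1 ∨ x = d := by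
        obtain ⟨k, rfl⟩ := hx
        rcases Int.even_or_odd' k with ⟨m, rfl | rfl⟩
        · left; simp only [zpow_mul, zpow_ofNat, sq, H29.tts_sq hD.1 hd, one_zpow]
        · right; simp only [zpow_add, zpow_mul, zpow_ofNat, sq, H29.tts_sq hD.1 hd, one_zpow, pow_one, one_mul]
      rcases hx' with rfl | rfl
      · have := H29.eq_of_orderOf_of_mem_pGroup Nat.prime_three Nat.prime_two (H02.pCore_isPGroup 3 G)
          hy (by rw [← hD.1.1 e he, ← hxy]; simp)
        omega
      · rw [← hxy]; simp only [H29.tts_cancel hD.1 hd]; exact hy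
    by_contra hne
    have h1 := (H29.wrel_iff_mem_pCore hT hd ha).2 (key a ha)
    have h2 := (H29.wrel_iff_mem_pCore hT hd hb).2 (key b hb)
    exact H29.wrel_not_commute hb ((H29.wrel_invEquiv hT).trans ((H29.wrel_invEquiv hT).symm h1) h2) hne hab

end Cfsg.Agent.S5346
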