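import Mathlib
import Cfsg.Statements.S5347
import Cfsg.Agent.H29.Basic

set_option autoImplicit false
open Cfsg

namespace Cfsg.Agent.S5347

/-- Let D be a conjugation-invariant generating set of 3-transpositions of a finite group G, p a prime bigger than 3, and P a p-subgroup of G. If a member d of D normalizes P then d centralizes P. -/
theorem result {G : Type*} [Group G] [Finite G] {D : Set G} (hD : Cfsg.IsThreeTranspositionGroup D) {p : ℕ} (hp : p.Prime) (hp3 : 3 < p) (P : Subgroup G) (hP : IsPGroup p P) {d : G} (hd : d ∈ D) (hnorm : d ∈ Subgroup.normalizer (P : Set G)) : ∀ x ∈ P, Commute d x := by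
  intro x hx
  have he := hD.2.1 x d hd
  have hm : d * (x * d * x⁻¹) ∈ P := by
    have h1 : d * x * d⁻¹ ∈ P := (Subgroup.mem_normalizer_iff.1 hnorm x).1 hx
    rw [H29.tts_inv hD.1 hd] at h1
    simpa only [mul_assoc] using P.mul_mem h1 (P.inv_mem hx)
  obtain ⟨k, hk⟩ := hP ⟨_, hm⟩
  have hk' : (d * (x * d * x⁻¹)) ^ p ^ k = 1 := congrArg Subtype.val hk
  have h1 : d * (x * d * x⁻¹) = 1 := by
    have key : ∀ q : ℕ, q.Prime → q ≤ 3 → (d * (x * d * x⁻¹)) ^ q = 1 → d * (x * d * x⁻¹) = 1 := by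
      intro q hq hq3 h
      have hc : Nat.Coprime q (p ^ k) := Nat.Coprime.pow_right _
        ((Nat.coprime_primes hq hp).2 (by omega))
      have := pow_gcd_eq_one.2 ⟨h, hk'⟩
      rwa [hc, pow_one] at this
    rcases hD.1.2 d hd _ he with h | h
    exacts [key 2 Nat.prime_two (by omega) h, key 3 Nat.prime_three le_rfl h]
  have h2 : x * d * x⁻¹ = d := by
    rw [eq_inv_of_mul_eq_one_right h1, H29.tts_inv hD.1 hd]
  rw [mul_inv_eq_iff_eq_mul] at h2
  exact h2.symm

end Cfsg.Agent.S5347
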