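import Mathlib
import Cfsg.Statements.S5349
import Cfsg.Agent.H29.Blocks

set_option autoImplicit false
open Cfsg

namespace Cfsg.Agent.S5349

/-- Let D be a conjugacy class of 3-transpositions generating the finite group G, with at least two members, and d a member of D. Then the set of members of D commuting with exactly the same members of D as d coincides with the set of members of D lying in the coset of d modulo the largest normal 2-subgroup of G, and also with the orbit of d under conjugation by that normal 2-subgroup. -/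
theorem result {G : Type*} [Group G] [Finite G] {D : Set G} (hD : Cfsg.IsThreeTranspositionClass D) (hD2 : ∃ a ∈ D, ∃ b ∈ D, a ≠ b) {d : G} (hd : d ∈ D) : {v : G | v ∈ D ∧ ∀ e ∈ D, Commute v e ↔ Commute d e} = {v : G | v ∈ D ∧ d⁻¹ * v ∈ Cfsg.pCore 2 G} ∧ {v : G | v ∈ D ∧ ∀ e ∈ D, Commute v e ↔ Commute d e} = {v : G | ∃ g ∈ Cfsg.pCore 2 G, v = g * d * g⁻¹} := by
  have hT := H29.TI.of_class hD
  have e1 : ∀ v ∈ D, (∀ e ∈ D, Commute v e ↔ Commute d e) ↔ d * v ∈ Cfsg.pCore 2 G := fun v hv => by
    rw [← H29.vrel_iff_mem_pCore hT hd hv]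
    exact ⟨fun h e he => (h e he).symm, fun h e he => (h e he).symm⟩
  refine ⟨Set.ext fun v => and_congr_right fun hv => ?_, Set.ext fun v => ⟨fun hv => ?_, ?_⟩⟩
  · rw [H29.tts_inv hD.1 hd]; exact e1 v hv
  · obtain ⟨e, he, hde⟩ := H29.class_exists_not_commute hD hD2 hd
    exact H29.vrel_exists_conj hT hd hv.1 he hde fun e he => (hv.2 e he).symm
  · rintro ⟨g, hg, rfl⟩
    exact ⟨hT.conj g d hd, (e1 _ (hT.conj g d hd)).2 (H29.mul_conj_mem (H29.tts_sq hD.1 hd) hg)⟩

end Cfsg.Agent.S5349
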