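import Mathlib
import Cfsg.Statements.S5350
import Cfsg.Agent.H29.Blocks

set_option autoImplicit false
open Cfsg

namespace Cfsg.Agent.S5350

/-- Let D be a conjugacy class of 3-transpositions generating the finite group G, with at least two members, and d a member of D. Then the set of members w of D whose commuting partners in D (other than w) are exactly those of d (other than d) coincides with the set of members of D lying in the coset of d modulo the largest normal 3-subgroup of G, and also with the orbit of d under conjugation by that normal 3-subgroup. -/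
theorem result {G : Type*} [Group G] [Finite G] {D : Set G} (hD : Cfsg.IsThreeTranspositionClass D) (hD2 : ∃ a ∈ D, ∃ b ∈ D, a ≠ b) {d : G} (hd : d ∈ D) : {w : G | w ∈ D ∧ {y : G | y ∈ D ∧ y ≠ d ∧ Commute d y} = {y : G | y ∈ D ∧ y ≠ w ∧ Commute w y}} = {w : G | w ∈ D ∧ d⁻¹ * w ∈ Cfsg.pCore 3 G} ∧ {w : G | w ∈ D ∧ {y : G | y ∈ D ∧ y ≠ d ∧ Commute d y} = {y : G | y ∈ D ∧ y ≠ w ∧ Commute w y}} = {w : G | ∃ g ∈ Cfsg.pCore 3 G, w = g * d * g⁻¹} := by
  have hT := H29.TI.of_class hD
  have e0 : ∀ w, {y : G | y ∈ D ∧ y ≠ d ∧ Commute d y} = {y : G | y ∈ D ∧ y ≠ w ∧ Commute w y} ↔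
      H29.wrel D d w := fun w => by
    rw [Set.ext_iff]
    exact forall_congr' fun e => and_congr_right_iff
  have e1 : ∀ v ∈ D, ({y : G | y ∈ D ∧ y ≠ d ∧ Commute d y} = {y : G | y ∈ D ∧ y ≠ v ∧ Commute v y}) ↔
      d * v ∈ Cfsg.pCore 3 G := fun v hv => by
    rw [← H29.wrel_iff_mem_pCore hT hd hv, e0]
  refine ⟨Set.ext fun v => and_congr_right fun hv => ?_, Set.ext fun v => ⟨fun hv => ?_, ?_⟩⟩
  · rw [H29.tts_inv hD.1 hd]; exact e1 v hv
  · exact H29.wrel_exists_conj hT hd hv.1 ((e0 v).1 hv.2)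
  · rintro ⟨g, hg, rfl⟩
    exact ⟨hT.conj g d hd, (e1 _ (hT.conj g d hd)).2 (H29.mul_conj_mem (H29.tts_sq hD.1 hd) hg)⟩

end Cfsg.Agent.S5350
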