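import Mathlib
import Cfsg.Statements.S5351
import Cfsg.Agent.H29.Structure

set_option autoImplicit false
open Cfsg

namespace Cfsg.Agent.S5351

/-- Let D be a conjugacy class of 3-transpositions generating the finite group G, with at least two members. Then for every prime p > 3 the largest normal p-subgroup of G is central, and exactly one of the following holds: the largest normal 2-subgroup of G is not central; the largest normal 3-subgroup of G is not central; the layer of G (the product of its components) is non-trivial. -/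
theorem result {G : Type*} [Group G] [Finite G] {D : Set G} (hD : Cfsg.IsThreeTranspositionClass D) (hD2 : ∃ a ∈ D, ∃ b ∈ D, a ≠ b) : (∀ p : ℕ, p.Prime → 3 < p → Cfsg.pCore p G ≤ Subgroup.center G) ∧ ((¬ Cfsg.pCore 2 G ≤ Subgroup.center G ∧ Cfsg.pCore 3 G ≤ Subgroup.center G ∧ Cfsg.layer G = ⊥) ∨ (Cfsg.pCore 2 G ≤ Subgroup.center G ∧ ¬ Cfsg.pCore 3 G ≤ Subgroup.center G ∧ Cfsg.layer G = ⊥) ∨ (Cfsg.pCore 2 G ≤ Subgroup.center G ∧ Cfsg.pCore 3 G ≤ Subgroup.center G ∧ Cfsg.layer G ≠ ⊥)) := by
  have hG := H29.group_of_class hD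
  refine ⟨fun p hp hp3 => H29.pCore_le_center hG hp hp3, ?_⟩
  have hA := fun d (hd : d ∈ D) => H29.class_exists_not_commute hD hD2 hd
  by_cases hE : Cfsg.layer G = ⊥
  · by_cases h2 : Cfsg.pCore 2 G ≤ Subgroup.center G
    · refine Or.inr (Or.inl ⟨h2, fun h3 => ?_, hE⟩)
      obtain ⟨L, hL⟩ := H29.exists_comp hD hD2 h2 h3
      exact H22.layer_eq_bot_iff.1 hE L hL
    · refine Or.inl ⟨h2, ?_, hE⟩
      rw [H29.pCore_two_le_center_iff hG hA] at h2
      rw [H29.pCore_three_le_center_iff hG]
      push Not at h2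
      obtain ⟨a, ha, b, hb, hab, hne⟩ := h2
      intro c hc e he hce
      obtain ⟨g, rfl⟩ := H29.class_conj hD ha hc
      exact (H29.vrel_or_wrel (hG.2.1 g b hb) he
        ((H29.vrel_invEquiv (H29.TI.of_group hG)).conj g hab) hce).resolve_left
        fun h => hne ((H29.conj_inj g).1 h)
  · rw [H22.layer_eq_bot_iff] at hE
    push Not at hE
    obtain ⟨L, hL⟩ := hE
    exact Or.inr (Or.inr ⟨H29.comp_pCore_two_le_center hD hL, H29.comp_pCore_three_le_center hD hL,
      fun h => H22.layer_eq_bot_iff.1 h L hL⟩)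

end Cfsg.Agent.S5351
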