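import Mathlib
import Cfsg.Statements.S5355
import Cfsg.Agent.H29.Pol

set_option autoImplicit false
open Cfsg

namespace Cfsg.Agent.S5355

open H29 Subgroup

/-- Let D be a conjugacy class of 3-transpositions generating the finite group G, with at least two members, and d a member of D. Suppose that every member of D commuting with d commutes with exactly the same members of D as d does, and that exactly one member of D other than d commutes with d. Then G is isomorphic to the symmetric group of degree 4. -/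
theorem result {G : Type*} [Group G] [Finite G] {D : Set G} (hD : Cfsg.IsThreeTranspositionClass D) (hD2 : ∃ a ∈ D, ∃ b ∈ D, a ≠ b) {d : G} (hd : d ∈ D) (hV : {y : G | y ∈ D ∧ Commute d y} = {v : G | v ∈ D ∧ ∀ e ∈ D, Commute v e ↔ Commute d e}) (hm : {y : G | y ∈ D ∧ Commute d y}.ncard = 2) : Nonempty (G ≃* Equiv.Perm (Fin 4)) := by
  have I := TI.of_class hD
  have T := I.tt
  have V : ∀ m ∈ D, ∀ y ∈ D, Commute m y → vrel D m y := fun m hm y hy c => by
    obtain ⟨g, rfl⟩ := class_conj hD hd hm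
    have h1 : g⁻¹ * y * g ∈ {y : G | y ∈ D ∧ Commute d y} := ⟨I.conj' g hy, (commute_conj_iff' g).1 c⟩
    rw [hV] at h1
    have := (vrel_invEquiv I).conj g (a := d) (b := g⁻¹ * y * g) fun e he => (h1.2 e he).symm
    simpa [mul_assoc] using this
  have U : ∀ m ∈ D, ∀ y ∈ vc D m, ∀ z ∈ vc D m, y ≠ m → z ≠ m → y = z := fun m hm' y hy z hz a b => by
    obtain ⟨g, rfl⟩ := class_conj hD hd hm'
    have e := ncard_conj_eq I g (fun x => Commute d x) (fun x => Commute (g * d * g⁻¹) x) fun x => (commute_conj_iff g).symm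
    rw [hm] at e
    by_contra n
    have : ({g * d * g⁻¹, y, z} : Set G).ncard ≤ 2 := e ▸ Set.ncard_le_ncard (by
      simp [Set.insert_subset_iff, hm', hy.1, hz.1, vrel_commute hy.1 hy.2, vrel_commute hz.1 hz.2])
    rw [Set.ncard_eq_three.2 ⟨_, _, _, a.symm, b.symm, n, rfl⟩] at this
    omega
  obtain ⟨d', hd', n'⟩ := Set.exists_ne_of_one_lt_ncard (hm ▸ one_lt_two : 1 < {y : G | y ∈ D ∧ Commute d y}.ncard) d
  have v' : d' ∈ vc D d := ⟨hd'.1, V d hd d' hd'.1 hd'.2⟩
  obtain ⟨e, he, q⟩ := class_exists_not_commute hD hD2 hd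
  obtain ⟨φ, hi, h0, h1, h2⟩ := exists_perm4_hom T.tts hd he hd'.1 n'.symm hd'.2 q fun c => q ((v'.2 e he).2 c.symm)
  have a : d ∈ φ.range := ⟨_, h0⟩
  have b : e ∈ φ.range := ⟨_, h1⟩
  have c : d' ∈ φ.range := ⟨_, h2⟩
  have k : ∀ {m y}, m ∈ D → m ∈ φ.range → y ∈ φ.range → y ∈ vc D m → y ≠ m → ∀ x ∈ D, Commute m x → x ∈ φ.range :=
    fun hm a b v n x hx c => (em (x = _)).elim (fun q => q ▸ a) fun q => U _ hm _ v x ⟨hx, V _ hm x hx c⟩ n q ▸ b
  have e' := T.th_vc hd he q v'
  have r : th d e d' ∈ φ.range := mul_mem (mul_mem a (mul_mem (mul_mem c b) c)) a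
  have s : D ⊆ φ.range := fun x hx => by
    by_cases c1 : Commute d x
    · exact k hd a c v' n' x hx c1
    by_cases c2 : Commute e x
    · exact k he b r e' (T.th_ne hd he q v' n') x hx c2
    by_cases c3 : Commute (d * e * d) x
    · exact k (T.conj d hd e he) (mul_mem (mul_mem a b) a) (mul_mem (mul_mem a r) a)
        ⟨T.conj d hd _ e'.1, T.vrel_conj hd e'.2⟩ (fun z => T.th_ne hd he q v' n' ((T.conj_inj d).1 z)) x hx c3
    have e2 := T.th_vc he hx c2 e'
    have n2 := T.th_ne he hx c2 e' (T.th_ne hd he q v' n')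
    exact (T.hol_ne ⟨hd, he, hx, q, c1, c2, c3⟩ hd'.1 v'.2 n' (U d hd _ (T.th_vc hx hd (fun z => c1 z.symm) e2) _ v'
      (T.th_ne hx hd (fun z => c1 z.symm) e2 n2) n')).elim
  exact ⟨(MulEquiv.ofBijective φ ⟨hi, MonoidHom.range_eq_top.1 (top_le_iff.1
    ((group_of_class hD).2.2 ▸ (closure_le _).2 s))⟩).symm⟩

end Cfsg.Agent.S5355
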