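import Mathlib
import Cfsg.Statements.S5356
import Cfsg.Agent.H29.Rad3

set_option autoImplicit false
open Cfsg

namespace Cfsg.Agent.S5356

open H29 Subgroup

/-- Let D be a conjugacy class of 3-transpositions generating the finite group G, with at least two members, and d a member of D such that every member of D commuting with d commutes with exactly the same members of D as d. Then there is a Sylow 3-subgroup P of G normalized by d such that G is generated by d, P and the largest normal 2-subgroup of G. -/
theorem result {G : Type*} [Group G] [Finite G] {D : Set G} (hD : Cfsg.IsThreeTranspositionClass D) (hD2 : ∃ a ∈ D, ∃ b ∈ D, a ≠ b) {d : G} (hd : d ∈ D) (hV : {y : G | y ∈ D ∧ Commute d y} = {v : G | v ∈ D ∧ ∀ e ∈ D, Commute v e ↔ Commute d e}) : ∃ P : Sylow 3 G, d ∈ Subgroup.normalizer (P : Set G) ∧ Subgroup.zpowers d ⊔ (P : Subgroup G) ⊔ Cfsg.pCore 2 G = ⊤ := by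
  obtain ⟨P, h1, h2⟩ := exists_inv_sylow hD hD2 (fun a ha b hb c => by
    obtain ⟨g, rfl⟩ := class_conj hD hd ha
    have m := (TI.of_class hD).conj' g hb
    have := (vrel_invEquiv (TI.of_class hD)).conj g (vrel_symm (hV.le ⟨m, (commute_conj_iff' g).1 c⟩).2)
    simpa [mul_assoc] using this) hd
  refine ⟨P, h1, eq_top_iff.2 fun g _ => ?_⟩
  obtain ⟨s, hs, q | q⟩ := h2 g
  · simpa using mul_mem (mem_sup_left (mem_sup_right hs)) (mem_sup_right q)
  · simpa [tts_cancel hD.1 hd] using mul_mem (mem_sup_left (mem_sup_left (mem_zpowers d)))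
      (mul_mem (mem_sup_left (mem_sup_right hs)) (mem_sup_right q))

end Cfsg.Agent.S5356
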