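import Mathlib
import Cfsg.Statements.S5358
import Cfsg.Agent.H29.O3a

set_option autoImplicit false
open scoped MatrixGroups
open Cfsg

namespace Cfsg.Agent.S5358

/-- Let Q be a non-degenerate quadratic form on the n-dimensional coordinate space over the field with three elements and u, v vectors of the same non-zero norm Q(u) = Q(v) spanning different lines (v ≠ u and v ≠ −u). Then the reflection matrices of u and v commute if and only if u and v are orthogonal for the polar form of Q. -/
theorem result (n : ℕ) (Q : QuadraticForm (ZMod 3) (Fin n → ZMod 3)) (hQ : (QuadraticMap.polarBilin Q).Nondegenerate) (u v : Fin n → ZMod 3) (hu : Q u ≠ 0) (huv : Q u = Q v) (h1 : v ≠ u) (h2 : v ≠ -u) : Commute (Cfsg.reflectionMatrix (⇑Q) u) (Cfsg.reflectionMatrix (⇑Q) v) ↔ QuadraticMap.polar (⇑Q) u v = 0 := by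
  have := H29.nondeg_smul hQ hu
  have q := H10.Form.isQuad_ofQuad (-Q u • Q)
  obtain ⟨e, he⟩ := H29.exists_bridge (Q' := -Q u • Q) hu fun _ => rfl
  have L := H29.lab_rD q
  have m : ∀ w, Q w = Q u → w ∈ H29.pts (H10.Form.ofQuad (-Q u • Q)) (-1) := fun w h =>
    H29.mem_pts3.2 (by simp [h, H29.z3_sq _ hu])
  have r : ∀ w, Q w = Q u → ∀ x, ((H10.Form.ofQuad (-Q u • Q)).quasi w 1).1 x = (Cfsg.reflectionMatrix Q w).mulVec x :=
    fun w h x => by
      rw [H10.Form.quasi_apply _ (L.root.cond (m w h).2), H10.reflectionMatrix_mulVec, h,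
        inv_eq_of_mul_eq_one_right (H29.z3_sq _ hu), one_mul]
      exact congrArg (fun t => x + t • w) (QuadraticMap.polar_smul Q (-Q u) w x)
  have a : Commute (Cfsg.reflectionMatrix Q u) (Cfsg.reflectionMatrix Q v) ↔
      Commute ((H10.Form.ofQuad (-Q u • Q)).quasi u 1) ((H10.Form.ofQuad (-Q u • Q)).quasi v 1) := by
    simp only [commute_iff_eq, H10.matrix_eq_iff_mulVec, ← Matrix.mulVec_mulVec, ← r u rfl, ← r v huv.symm]
    exact ⟨fun h => H10.Form.Isom.ext h, fun h x => congrArg (fun g : (H10.Form.ofQuad (-Q u • Q)).Isom => g.1 x) h⟩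
  rw [a, L.commute_iff (m u rfl) (m v huv.symm), or_iff_left]
  · exact (Eq.congr_left (QuadraticMap.polar_smul Q (-Q u) u v)).trans (by simp [hu])
  rintro ⟨c, rfl⟩
  rcases H29.z3_cases c (fun z => hu (by simpa [z] using huv)) with rfl | rfl
  exacts [h1 (one_smul _ _), h2 (neg_one_smul _ _)]

end Cfsg.Agent.S5358
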