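import Mathlib
import Cfsg.Statements.S5362
import Cfsg.Agent.H29.Tr2

set_option autoImplicit false
open scoped MatrixGroups
open Cfsg

namespace Cfsg.Agent.S5362

open H29 Subgroup

/-- Let D be a conjugacy class of 3-transpositions generating the finite group G, with trivial centre and trivial largest normal 2- and 3-subgroups, and suppose the commuting graph of D is not connected. Let F be the generalized Fitting subgroup of G. Then G/F is isomorphic to the symmetric group of degree 3, and F is isomorphic either to the commutator subgroup of the isometry group of the hyperbolic quadratic form in dimension 8 over the field with two elements, or to the commutator subgroup of the isometry group of the hyperbolic quadratic form in dimension 8 over the field with three elements modulo its centre. -/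
theorem result {G : Type*} [Group G] [Finite G] {D : Set G} (hD : Cfsg.IsThreeTranspositionClass D) (hZ : Subgroup.center G = ⊥) (h2 : Cfsg.pCore 2 G = ⊥) (h3 : Cfsg.pCore 3 G = ⊥) (hdisc : ¬ (Cfsg.commutingGraph D).Connected) (F : Subgroup G) [F.Normal] (hF : F = Cfsg.generalizedFittingSubgroup G) : Nonempty (G ⧸ F ≃* Equiv.Perm (Fin 3)) ∧ (Nonempty (F ≃* Cfsg.Omega (ZMod 2) (Cfsg.quadFormPlus 4 (ZMod 2))) ∨ Nonempty (F ≃* Cfsg.POmega (ZMod 3) (Cfsg.quadFormPlus 4 (ZMod 3)))) := by
  have I := TI.of_class hD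
  have T := I.tt
  have gD := group_of_class hD
  have top : ∀ g : G, g ∈ closure D := fun g => hD.2.2 ▸ mem_top g
  obtain ⟨d, hd, -⟩ := hD.2.1
  rw [conn_iff ⟨d, hd⟩, Conn] at hdisc
  push Not at hdisc
  obtain ⟨a, ha, y, hy, n⟩ := hdisc
  replace n : y ∉ comp D a := fun q => n q.2
  have D2 : ∃ a ∈ D, ∃ b ∈ D, a ≠ b := ⟨a, ha, y, hy, fun q => n (q ▸ mem_comp_self ha)⟩
  have hv : VT D := (pCore_two_le_center_iff gD fun d hd => class_exists_not_commute hD D2 hd).1 (h2 ▸ bot_le)
  have hw : WT D := (pCore_three_le_center_iff gD).1 (h3 ▸ bot_le)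
  obtain ⟨L, hL⟩ := exists_comp hD D2 (h2 ▸ bot_le) (h3 ▸ bot_le)
  obtain rfl : F = L := by rw [hF, fstar_eq_comp_sup_center hD hL, hZ, sup_bot_eq]
  have cz : ∀ {g : G}, (∀ x ∈ F, Commute x g) → g = 1 := fun h =>
    mem_bot.1 (hZ ▸ centralizer_comp_le_center hD hL fun x hx => h x hx)
  have sF := simple_of_qs hL.2 (eq_bot_iff.2 fun g hg => Subtype.ext (cz fun x hx =>
    congrArg Subtype.val (mem_center_iff.1 hg ⟨x, hx⟩)))
  have le : ∀ {N : Subgroup G} {g : G}, (∀ x ∈ F, ∀ n ∈ N, x * n * x⁻¹ ∈ N) → g ∈ F → g ∈ N → g ≠ 1 → F ≤ N :=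
    fun {N g} h a b c => subgroupOf_eq_top.1 ((sF.eq_bot_or_eq_top_of_normal _ ⟨fun n hn x => h x x.2 n hn⟩).resolve_left fun q =>
      c (congrArg Subtype.val (mem_bot.1 (q ▸ b : (⟨g, a⟩ : F) ∈ (⊥ : Subgroup F)) : (⟨g, a⟩ : F) = 1)))
  have ad : ∀ {c z x}, z ∈ D → z ∉ comp D c → x ∈ comp D c → ¬ Commute z x := fun hz n hx q =>
    n (mem_comp_of_commute hx hz q.symm)
  have cj : ∀ (g : G) {c x}, c ∈ D → x ∈ comp D c → g * x * g⁻¹ ∈ comp D (g * c * g⁻¹) := fun g _ _ hc hx =>
    (T.isoBy_conj (top g)).mem_comp hc hx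
  have IE : InvEquiv D fun x y => x ∈ D ∧ y ∈ comp D x := ⟨fun x hx => ⟨hx, mem_comp_self hx⟩,
    fun h => ⟨h.2.1, mem_comp_symm h.1 h.2⟩, fun h h' => ⟨h.1, mem_comp_trans h.2 h'.2⟩, fun g _ _ h => ⟨I.conj g _ h.1, cj g h.1 h.2⟩⟩
  have wid : ∀ {c}, c ∈ D → ∃ e, e ∈ dperp D c := cls_exists_dperp T (cls_of_class hD) (by_contra fun q => by
    push Not at q
    exact n (hw a ha y hy (fun e he => ⟨fun z => (q a ha e he z.1.symm z.2).elim, fun z => (q y hy e he z.1.symm z.2).elim⟩) ▸
      mem_comp_self ha))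
  have cm : ∀ {x y}, x ∈ D → y ∈ D → Commute x y → x * y ∈ F := comp_mul_mem_of_commute hD hL
  have fx : ∀ g ∈ F, ∀ {c x}, c ∈ D → x ∈ comp D c → g * x * g⁻¹ ∈ comp D c := fun g hg c x hc hx => by
    obtain ⟨e, he⟩ := wid ha
    have := le (fun x _ n hn => (IE.ker_normal I).conj_mem n hn x) (cm ha he.1 he.2.2)
      (IE.mul_mem_ker I ha he.1 ⟨ha, mem_comp_of_commute (mem_comp_self ha) he.1 he.2.2⟩) (tts_mul_ne_one T.tts he.1 he.2.1.symm) hg x hx.1
    exact mem_comp_trans hx (mem_comp_symm this.1 this.2)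
  have pr : ∀ {c x y}, c ∈ D → x ∈ comp D c → y ∈ comp D c → x * y ∈ F := fun {c x y} hc hx hy => by
    have k : ∀ {x}, x ∈ comp D c → c * x ∈ F := comp_induction (P := fun x => c * x ∈ F) (cm hc hc (.refl c))
      (fun x hx p y hy q => by simpa only [mul_assoc, tts_cancel T.tts hx.1] using mul_mem p (cm hx.1 hy q)) hc
    simpa only [mul_inv_rev, tts_inv T.tts hc, tts_inv T.tts hx.1, mul_assoc, tts_cancel T.tts hc] using mul_mem (inv_mem (k hx)) (k hy)
  have lc : ∀ {c}, c ∈ D → F ≤ closure (comp D c) := fun {c} hc => by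
    obtain ⟨e, he⟩ := wid hc
    refine le (fun x hx n hn => ?_) (cm hc he.1 he.2.2) (mul_mem (subset_closure (mem_comp_self hc))
      (subset_closure (mem_comp_of_commute (mem_comp_self hc) he.1 he.2.2))) (tts_mul_ne_one T.tts he.1 he.2.1.symm)
    induction hn using closure_induction with
    | mem y hy => exact subset_closure (fx x hx hc hy)
    | one => simp
    | mul _ _ _ _ p q => simpa [mul_assoc] using mul_mem p q
    | inv _ _ p => simpa [mul_assoc] using inv_mem p
  have c0 := mem_comp_self ha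
  have R : R3 (comp D a) := by
    have k : ∀ {x}, x ∈ comp D a → ∃ g ∈ F, g * a * g⁻¹ = x := comp_induction (P := fun x => ∃ g ∈ F, g * a * g⁻¹ = x)
      ⟨1, one_mem _, by simp⟩ (fun x hx ⟨g, p, e⟩ z hz q => by
        have hz' := mem_comp_of_commute hx hz q
        have b1 := tts_braid T.tts hx.1 hy fun q => ad hy n hx q.symm
        have b2 := tts_braid T.tts hz hy fun q => ad hy n hz' q.symm
        have m := T.conj x hx.1 _ (T.conj z hz y hy)
        refine ⟨y * (x * (z * y * z) * x) * g, mul_mem (cm hy m ?_) p, ?_⟩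
        · simpa only [Commute, SemiconjBy, mul_assoc] using (w_s4_opp (tts_sq T.tts hx.1) (tts_sq T.tts hz) (tts_sq T.tts hy) b1 b2 q).symm
        rw [show ∀ h, h * g * a * (h * g)⁻¹ = h * (g * a * g⁻¹) * h⁻¹ from fun h => by group, e]
        simpa only [mul_assoc, mul_inv_rev, tts_inv T.tts hx.1, tts_inv T.tts hy, tts_inv T.tts hz] using
          w_s4_back (tts_sq T.tts hx.1) (tts_sq T.tts hz) (tts_sq T.tts hy) b1 b2 q) ha
    obtain ⟨e, he⟩ := wid ha
    refine R3.of (T.comp ha) (fun x hx z hz => ?_) (fun x hx z hz H => hv x hx.1 z hz.1 fun e he => ?_)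
      (fun x hx z hz H => hw x hx.1 z hz.1 fun e he => ?_) (conn_comp ha) ⟨e, mem_comp_of_commute c0 he.1 he.2.2, a, c0, he.2.1⟩
    · obtain ⟨g, p, rfl⟩ := k hx
      obtain ⟨g', p', rfl⟩ := k hz
      exact ⟨g' * g⁻¹, lc ha (mul_mem p' (inv_mem p)), by group⟩
    · by_cases q : e ∈ comp D a
      exacts [H e q, iff_of_false (fun r => ad he q hx r.symm) fun r => ad he q hz r.symm]
    by_cases q : e ∈ comp D a
    exacts [H e q, iff_of_false (fun r => ad he q hx r.2.symm) fun r => ad he q hz r.2.symm]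
  have n' : ∀ x ∈ comp D y, x ∉ comp D a := fun x hx q => n (mem_comp_trans q (mem_comp_symm hy hx))
  have W : Two D (comp D a) (comp D y) := by
    refine ⟨T, comp_subset _ _, comp_subset _ _, fun x hx z hz => ad hz.1 (n' z hz) hx, fun z hz w hw q => mem_comp_of_commute hz hw q,
      fun z hz w hw => lc ha (pr hy hz hw), R, ?_⟩
    obtain ⟨g, rfl⟩ := class_conj hD ha hy
    exact ⟨_, (T.isoBy_conj (top g)).restrict (comp_subset _ _) (comp_subset _ _) (T.comp ha) fun x hx =>
      ⟨fun q => by simpa [mul_assoc] using cj g⁻¹ hy q, cj g ha⟩⟩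
  have ay : ¬ Commute a y := fun q => ad hy n c0 q.symm
  have hay := T.conj a ha y hy
  have three : ∀ z ∈ D, z ∈ comp D a ∨ z ∈ comp D y ∨ z ∈ comp D (a * y * a) := fun z hz => by_contra fun q => by
    push Not at q
    have P : Pl D a y z := ⟨ha, hy, hz, ay, fun r => ad hz q.1 c0 r.symm, fun r => ad hz q.2.1 (mem_comp_self hy) r.symm,
      fun r => ad hz q.2.2 (mem_comp_self hay) r.symm⟩
    refine (W.loc c0).no_zeta (P.zeta_cube T) fun e he => ?_
    have b1 := ad hy n he.1
    have b2 := ad hz q.1 he.1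
    have b3 := ad (T.conj y hy z hz) (fun r => q.2.2 (by
      have := T.conj_mem_comp ha r hy
      rwa [T.conj_conj hy, ← tts_braid T.tts ha hy ay] at this)) he.1
    have b4 := ad (T.conj y hy _ (T.conj a ha z hz)) (fun r => q.2.1 (by
      have := T.conj_mem_comp (T.conj y hy a ha) (T.conj_conj hy _ ▸ T.conj_mem_comp ha r hy) ha
      rwa [T.conj_conj ha, ← tts_braid T.tts ha hy ay, T.conj_conj ha] at this)) he.1
    have c : Commute a (zeta a y z * e * (zeta a y z)⁻¹) := ((P.zeta_d T).mul_right he.2.2).mul_right (P.zeta_d T).inv_right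
    exact ⟨⟨mem_comp_of_commute c0 (I.conj _ e he.1.1) c, fun r => he.2.1 ((conj_inj _).1 (r.trans (conj_eq_of_commute
      (P.zeta_d T).symm).symm)), c⟩, fun r => he.2.1 (P.zeta_fpf T he.1.1 he.2.2 b1 b2 b3 b4 (mul_inv_eq_iff_eq_mul.1 r).symm),
      P.zeta_eight T he.1.1 he.2.2 b1 b2 b3 b4⟩
  have eq : ∀ {c x}, c ∈ D → x ∈ comp D c → (x : G ⧸ F) = c := fun hc hx =>
    QuotientGroup.eq.2 (by rw [tts_inv T.tts hx.1]; exact pr hc hx (mem_comp_self hc))
  constructor
  · obtain ⟨φ, -, e1, e2⟩ := exists_perm3_hom T.tts ha hy ay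
    refine ⟨(MulEquiv.ofBijective ((QuotientGroup.mk' F).comp φ) ⟨perm3_inj _ fun q => ?_, fun g => ?_⟩).symm⟩
    · replace q : a * y ∈ F := by simpa [e1, e2, QuotientGroup.eq, tts_inv T.tts ha] using q
      have := fx _ q ha c0
      rw [mul_inv_rev, tts_inv T.tts ha, tts_inv T.tts hy, show a * y * a * (y * a) = a * (y * a * y) * a by group,
        ← tts_braid T.tts ha hy ay, T.conj_conj ha] at this
      exact n this
    obtain ⟨g, rfl⟩ := QuotientGroup.mk_surjective g
    refine (closure_le (((QuotientGroup.mk' F).comp φ).range.comap (QuotientGroup.mk' F))).2 (fun z hz => ?_) (top g)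
    rcases three z hz with q | q | q
    · exact ⟨_, (congrArg _ e1).trans (eq ha q).symm⟩
    · exact ⟨_, (congrArg _ e2).trans (eq hy q).symm⟩
    · exact ⟨Equiv.swap 0 1 * Equiv.swap 1 2 * Equiv.swap 0 1, by simp [e1, e2, eq hay q]⟩
  have z1 : center (closure (comp D a)) = ⊥ := eq_bot_iff.2 fun g hg => Subtype.ext (cz fun x hx =>
    congrArg Subtype.val (mem_center_iff.1 hg ⟨x, lc ha hx⟩))
  have e : Nonempty (F ≃* commutator (closure (comp D a))) := by
    have : (commutator (closure (comp D a))).map (closure (comp D a)).subtype = F := by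
      rw [map_subtype_commutator]
      refine le_antisymm (commutator_le.2 fun g hg g' hg' => ?_) ?_
      · have k : closure (comp D a) ≤ (zpowers (a : G ⧸ F)).comap (QuotientGroup.mk' F) := (closure_le _).2 fun x hx =>
          ⟨1, by simp [eq ha hx]⟩
        obtain ⟨i, p⟩ := k hg
        obtain ⟨j, p'⟩ := k hg'
        rw [← QuotientGroup.eq_one_iff, ← QuotientGroup.mk'_apply, map_commutatorElement, commutatorElement_eq_one_iff_commute, ← p, ← p']
        exact Commute.zpow_zpow_self _ _ _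
      refine le_trans ?_ (commutator_mono (lc ha) (lc ha))
      rw [← map_subtype_commutator, hL.2.1.commutator_eq_top, ← MonoidHom.range_eq_map, range_subtype]
    exact ⟨((equivMapOfInjective _ _ (subtype_injective _)).trans (MulEquiv.subgroupCongr this)).symm⟩
  obtain ⟨e⟩ := e
  rcases W.cases with s | s
  · have i := (R.tt.isoBy_sub (H := closure (comp D a)) subset_closure).symm
    obtain ⟨p, s⟩ := s
    obtain ⟨e', -⟩ := IsOp.model (m := 1) ⟨_, i.lab s⟩ (i.r3 R) closure_closure_coe_preimage z1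
    exact .inl ⟨e.trans (H10.commutatorEquiv e')⟩
  obtain ⟨e'⟩ := s.eight
  exact .inr ⟨(e.trans (H10.commutatorEquiv ((QuotientGroup.quotientMulEquivOfEq z1).trans QuotientGroup.quotientBot).symm)).trans e'⟩

end Cfsg.Agent.S5362
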