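import Mathlib
import Cfsg.Statements.S5363
import Cfsg.Agent.H08.Dihedral

set_option autoImplicit false
open Cfsg

namespace Cfsg.Agent.S5363

/-- Let D be a conjugation-invariant set of involutions of a finite group G. Then every product of two members of D has odd order or order 2 if and only if, for every a in D and every b in D different from a and commuting with a, the members of D commuting with a b are exactly those commuting with both a and b. -/
theorem result {G : Type*} [Group G] [Finite G] {D : Set G} (hinv : ∀ d ∈ D, orderOf d = 2) (hconj : ∀ g : G, ∀ d ∈ D, g * d * g⁻¹ ∈ D) : (∀ a ∈ D, ∀ b ∈ D, Odd (orderOf (a * b)) ∨ orderOf (a * b) = 2) ↔ ∀ a ∈ D, ∀ b ∈ D, b ≠ a → Commute a b → {y : G | y ∈ D ∧ Commute (a * b) y} = {y : G | y ∈ D ∧ Commute a y} ∩ {y : G | y ∈ D ∧ Commute b y} := by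
  have sq := fun a (ha : a ∈ D) => H08.mul_self_of_orderOf (hinv a ha)
  have cm : ∀ a ∈ D, ∀ b ∈ D, Commute a b ↔ (a * b) ^ 2 = 1 := fun a ha b hb => by
    rw [Commute, SemiconjBy, ← mul_inv_eq_one, mul_inv_rev, H08.inv_eq_of_orderOf (hinv a ha),
      H08.inv_eq_of_orderOf (hinv b hb), pow_two]
  constructor
  · intro h
    have key : ∀ a ∈ D, ∀ b ∈ D, b ≠ a → Commute a b → ∀ y ∈ D, Commute (a * b) y → Commute a y := by
      intro a ha b hb hne hab y hy hc
      rcases h y hy a ha with h1 | h1
      · have o2 : orderOf (a * b) = 2 := orderOf_eq_prime ((cm a ha b hb).1 hab) fun e =>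
          hne (by rw [eq_inv_of_mul_eq_one_right e, H08.inv_eq_of_orderOf (hinv a ha)])
        have := (hc.symm.mul_left ((Commute.refl a).mul_right hab)).orderOf_mul_eq_mul_orderOf_of_coprime
          (by rw [o2]; exact h1.coprime_two_right)
        rw [mul_assoc, ← mul_assoc a, sq a ha, one_mul, o2] at this
        rcases h y hy b hb with h2 | h2
        · rw [this] at h2; exact absurd h2 (by simp)
        · have : orderOf (y * a) = 1 := by omega
          exact ((cm y hy a ha).2 (by rw [orderOf_eq_one_iff.1 this, one_pow])).symm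
      · exact ((cm y hy a ha).2 (h1 ▸ pow_orderOf_eq_one _)).symm
    intro a ha b hb hne hab
    ext y
    exact ⟨fun hy => ⟨⟨hy.1, key a ha b hb hne hab y hy.1 hy.2⟩,
      hy.1, key b hb a ha hne.symm hab.symm y hy.1 (hab.eq ▸ hy.2)⟩, fun hy => ⟨hy.1.1, hy.1.2.mul_left hy.2.2⟩⟩
  · intro h a ha b hb
    rcases Nat.even_or_odd (orderOf (a * b)) with hev | hodd
    swap
    · exact Or.inl hodd
    right
    have sa := sq a ha
    have sb := sq b hb
    have c1 := H08.commute_half_pow_left sa sb hev
    have c2 := H08.commute_half_pow_right sa sb hev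
    have oz := H08.half_pow_invol hev
    have hza : (a * b) ^ (orderOf (a * b) / 2) * a ∈ D := by
      rcases H08.conj_mul_half_pow sa sb hev with ⟨-, k, h, -⟩ | ⟨-, ⟨k, h⟩, -⟩
      · exact h ▸ hconj _ a ha
      · exact h ▸ hconj _ b hb
    set z := (a * b) ^ (orderOf (a * b) / 2)
    have := h a ha _ hza (fun h => H08.ne_one_of_orderOf oz (by simpa using h))
      (c1.symm.mul_right (Commute.refl a))
    rw [← mul_assoc, ← c1.eq, mul_assoc, sa, mul_one] at this
    have h2 := orderOf_dvd_of_pow_eq_one ((cm a ha b hb).1 (this.le ⟨hb, c2⟩).1.2)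
    exact Nat.dvd_antisymm h2 (even_iff_two_dvd.1 hev)

end Cfsg.Agent.S5363
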