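import Mathlib
import Cfsg.Statements.S5364
import Cfsg.Agent.H08.Dihedral

set_option autoImplicit false
open Cfsg

namespace Cfsg.Agent.S5364

/-- Let D be a conjugation-invariant set of involutions of a finite group G and t an involution in the centre of G such that d t does not lie in D for any d in D. If the images of the members of D in G modulo the subgroup generated by t satisfy the 3-transposition order conditions (each has order 2 and any two have product of order at most 3), then so do the members of D. -/
theorem result {G : Type*} [Group G] [Finite G] {D : Set G} (hinv : ∀ d ∈ D, orderOf d = 2) (hconj : ∀ g : G, ∀ d ∈ D, g * d * g⁻¹ ∈ D) (t : G) (ht : orderOf t = 2) (htZ : t ∈ Subgroup.center G) (hDt : ∀ d ∈ D, d * t ∉ D) [(Subgroup.zpowers t).Normal] (himg : Cfsg.IsThreeTranspositionSet ((QuotientGroup.mk : G → G ⧸ Subgroup.zpowers t) '' D)) : Cfsg.IsThreeTranspositionSet D := by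
  refine ⟨hinv, fun a ha b hb => ?_⟩
  have ia := H08.inv_eq_of_orderOf (hinv a ha)
  have ib := H08.inv_eq_of_orderOf (hinv b hb)
  have key : ∀ x : G, (x : G ⧸ Subgroup.zpowers t) = 1 → x = 1 ∨ x = t := by
    intro x hx
    obtain ⟨k, rfl⟩ := (QuotientGroup.eq_one_iff _).1 hx
    have st := H08.mul_self_of_orderOf ht
    rcases Int.even_or_odd' k with ⟨m, rfl | rfl⟩
    · left; simp only [zpow_mul, zpow_ofNat, sq, st, one_zpow]
    · right; simp only [zpow_add, zpow_mul, zpow_ofNat, sq, st, one_zpow, pow_one, one_mul]
  have hz := Subgroup.mem_center_iff.1 htZ b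
  have sb := H08.mul_self_of_orderOf (hinv b hb)
  rcases himg.2 _ ⟨a, ha, rfl⟩ _ ⟨b, hb, rfl⟩ with h | h
  · refine Or.inl ((key ((a * b) ^ 2) h).resolve_right fun e => hDt b hb ?_)
    have := hconj a b hb
    rw [ia] at this
    rwa [hz, ← e, sq, mul_assoc, mul_assoc a b b, sb, mul_one]
  · refine Or.inr ((key ((a * b) ^ 3) h).resolve_right fun e => hDt b hb ?_)
    have := hconj (a * b) a ha
    rw [mul_inv_rev, ia, ib, ← mul_assoc] at this
    rwa [hz, ← e, pow_succ, sq, mul_assoc, mul_assoc a b b, sb, mul_one, ← mul_assoc]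

end Cfsg.Agent.S5364
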