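import Mathlib
import Cfsg.Statements.S5365
import Cfsg.Agent.H29.Cls

set_option autoImplicit false
open Cfsg

namespace Cfsg.Agent.S5365

open H29 Subgroup

variable {G : Type*} [Group G]

theorem s3_conj : ∀ σ τ : Equiv.Perm (Fin 3), σ ≠ 1 → σ * σ = 1 → τ ≠ 1 → τ * τ = 1 → ∃ ρ, ρ * σ * ρ⁻¹ = τ := by decide

theorem three_of_s3 {X : Set G} (T : TT X) (e : closure X ≃* Equiv.Perm (Fin 3)) : Cls X ∧ X.ncard = 3 := by
  have s : ∀ x (hx : x ∈ X), e ⟨x, subset_closure hx⟩ ≠ 1 ∧ e ⟨x, subset_closure hx⟩ * e ⟨x, subset_closure hx⟩ = 1 :=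
    fun x hx => ⟨fun q => tts_ne_one T.tts hx (congrArg Subtype.val (e.map_eq_one_iff.1 q)), by
      rw [← map_mul, e.map_eq_one_iff]; exact Subtype.ext (tts_sq T.tts hx)⟩
  have c : ∀ x (hx : x ∈ X) τ, τ ≠ 1 → τ * τ = 1 → ∃ g ∈ closure X, g * x * g⁻¹ = e.symm τ := fun x hx τ a b => by
    obtain ⟨ρ, rfl⟩ := s3_conj _ τ (s x hx).1 (s x hx).2 a b
    exact ⟨e.symm ρ, (e.symm ρ).2, by simp⟩
  refine ⟨fun a ha b hb => by simpa using c a ha _ (s b hb).1 (s b hb).2, ?_⟩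
  obtain ⟨x, hx⟩ : X.Nonempty := Set.nonempty_iff_ne_empty.2 fun q => by
    have : (e.symm (Equiv.swap 0 1) : G) ∈ closure (∅ : Set G) := q ▸ (e.symm _).2
    rw [Subgroup.closure_empty, mem_bot, OneMemClass.coe_eq_one, e.symm.map_eq_one_iff] at this
    revert this; decide
  have : X = (fun σ => (e.symm σ : G)) '' ↑(Finset.univ.filter fun σ : Equiv.Perm (Fin 3) => σ ≠ 1 ∧ σ * σ = 1) := by
    ext y
    refine ⟨fun hy => ⟨_, Finset.mem_coe.2 (Finset.mem_filter.2 ⟨Finset.mem_univ _, s y hy⟩), by simp⟩, ?_⟩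
    rintro ⟨σ, h, rfl⟩
    replace h := (Finset.mem_filter.1 (Finset.mem_coe.1 h)).2
    obtain ⟨g, a, b⟩ := c x hx σ h.1 h.2
    exact (b ▸ T.conj_mem a hx : (e.symm σ : G) ∈ X)
  refine (congrArg Set.ncard this).trans ?_
  rw [Set.ncard_image_of_injective _ fun _ _ q => e.symm.injective (Subtype.ext q), Set.ncard_coe_finset]
  decide

theorem isS_equiv {n : ℕ} {D : Set G} (h : IsS n D) (hn : 3 ≤ n) : Nonempty (closure D ≃* Equiv.Perm (Fin n)) := by
  classical
  obtain ⟨t, h⟩ := h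
  obtain ⟨φ, hφ⟩ := exists_hom_perm_of_transp (fun i j => if i = j then 1 else t i j) (by simp)
    (fun i j => by split_ifs with q; exacts [mul_one _, tts_sq h.tt.tts (h.mem q)])
    (fun i j => by simp [eq_comm, h.symm i j]) fun i j k l => by
      by_cases a : i = j
      · simp [a]
      by_cases b : k = l
      · simp [a, b, tts_sq h.tt.tts (h.mem a)]
      simp [a, b, h.toTrp0.conj_swap a b]
  have e : ∀ {i j}, i ≠ j → φ (Equiv.swap i j) = t i j := fun q => by simp [hφ, q]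
  have hi : Function.Injective φ := (injective_iff_map_eq_one φ).2 fun σ hσ => by
    rw [← mem_bot, ← center_perm hn]
    refine mem_center_of_commute (closure_swap n) ?_
    rintro _ ⟨i, j, q, rfl⟩
    have := e (σ.injective.ne q)
    rw [Equiv.swap_apply_apply, map_mul, map_mul, map_inv, hσ, one_mul, inv_one, mul_one, e q, h.toTrp0.eq_iff q
      (σ.injective.ne q)] at this
    have : σ * Equiv.swap i j * σ⁻¹ = Equiv.swap i j := by
      rw [← Equiv.swap_apply_apply]; rcases this with ⟨a, b⟩ | ⟨a, b⟩ <;> rw [a, b]; exact Equiv.swap_comm _ _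
    exact (mul_inv_eq_iff_eq_mul.1 this).symm
  have hr : φ.range = closure D := by
    rw [MonoidHom.range_eq_map, ← closure_swap n, MonoidHom.map_closure]
    congr 1
    ext x
    exact ⟨by rintro ⟨_, ⟨i, j, q, rfl⟩, rfl⟩; exact e q ▸ h.mem q, fun hx =>
      let ⟨i, j, q, r⟩ := h.surj x hx; ⟨_, ⟨i, j, q, rfl⟩, (e q).trans r⟩⟩
  exact ⟨((MonoidHom.ofInjective hi).trans (MulEquiv.subgroupCongr hr)).symm⟩

theorem r3_three [Finite G] {M : Set G} (T : TT M) (h : ∀ x ∈ M, Cls (dperp M x) ∧ (dperp M x).ncard = 3) {m m' u v : G}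
    (hm : m ∈ M) (hm' : m' ∈ dperp M m) (hu : u ∈ dperp M m) (hv : v ∈ dperp M m') (n : ¬ Commute u v) : R3 (comp M m) := by
  have L := fun x hx => line_of_three (T.dperp x) (h x hx).1 (h x hx).2
  have c0 := mem_comp_self hm
  have TC := T.comp hm
  have nb : ∀ x ∈ comp M m, dperp M x ⊆ comp M m := fun x hx y hy => mem_comp_of_commute hx hy.1 hy.2.2
  have tr : ∀ {x y z : G}, (∃ g ∈ closure (comp M m), g * x * g⁻¹ = y) → (∃ g ∈ closure (comp M m), g * y * g⁻¹ = z) →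
      ∃ g ∈ closure (comp M m), g * x * g⁻¹ = z := fun ⟨g, a, b⟩ ⟨g', a', b'⟩ => ⟨g' * g, mul_mem a' a, by rw [← b', ← b]; group⟩
  have lc : ∀ x ∈ comp M m, ∀ y ∈ dperp M x, ∀ z ∈ dperp M x, ∃ g ∈ closure (comp M m), g * y * g⁻¹ = z :=
    fun x hx y hy z hz => let ⟨g, a, b⟩ := (h x hx.1).1 y hy z hz; ⟨g, closure_mono (nb x hx) a, b⟩
  have c1 := nb m c0 hm'
  have m1 := mem_dperp_comm hm hm'
  have e : ∃ g ∈ closure (comp M m), g * m * g⁻¹ = m' := tr (tr (lc _ c1 _ m1 _ hv) ⟨u * v * u, subset_closure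
    (TC.conj _ (nb m c0 hu) _ (nb _ c1 hv)), by
      rw [tts_inv T.tts (T.conj _ hu.1 _ hv.1)]
      nth_rw 1 [tts_braid T.tts hu.1 hv.1 n]
      simp [mul_assoc, tts_cancel T.tts hv.1, tts_cancel T.tts hu.1, tts_sq T.tts hv.1]⟩) (lc _ c0 _ hu _ hm')
  have cl : ∀ x ∈ comp M m, ∃ g ∈ closure (comp M m), g * m * g⁻¹ = x := fun x hx =>
    (comp_induction (P := fun x => (∃ g ∈ closure (comp M m), g * m * g⁻¹ = x) ∧ ∀ y ∈ dperp M x,
      ∃ g ∈ closure (comp M m), g * m * g⁻¹ = y) ⟨⟨1, one_mem _, by simp⟩, fun y hy => tr e (lc _ c0 _ hm' _ hy)⟩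
      (fun x hx p y hy c => (em (y = x)).elim (fun q => q ▸ p) fun q => ⟨p.2 y ⟨hy, q, c⟩, fun z hz =>
        tr p.1 (lc y (mem_comp_of_commute hx hy c) _ (mem_dperp_comm hx.1 ⟨hy, q, c⟩) _ hz)⟩) hm hx).1
  have vm : v ≠ m := fun q => n (q ▸ hu.2.2.symm)
  refine R3.of TC (fun a ha b hb => ?_) (fun a ha b hb H => by_contra fun q => ?_) (fun a ha b hb H => ?_)
    (conn_comp hm) ⟨_, c1, _, c0, hm'.2.1⟩
  · obtain ⟨g, p, rfl⟩ := cl a ha
    exact tr ⟨g⁻¹, inv_mem p, by group⟩ (cl b hb)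
  · have p : b ∈ dperp M a := ⟨hb.1, Ne.symm q, vrel_commute hb H⟩
    obtain ⟨c, hc, r⟩ := cls_exists_adj (T.dperp a) (h a ha.1).1 ((Set.one_lt_ncard (Set.toFinite _)).1
      (by rw [(h a ha.1).2]; decide)) p
    exact r ((H c (nb a ha hc)).1 hc.2.2)
  obtain ⟨g, p, rfl⟩ := cl a ha
  have i := TC.isoBy_conj p
  obtain ⟨c, hc, rfl⟩ := i.surj hb
  replace H := (i.wrel_iff c0 hc).1 H
  have a1 := (H _ c1).1 hm'.2
  have a2 := ((H _ (nb m c0 hu)).1 hu.2).2
  rcases (L m' hm'.1).2 m m1 v hv vm.symm c ⟨hc.1, a1.1.symm, a1.2.symm⟩ with rfl | rfl | rfl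
  exacts [rfl, (n a2.symm).elim, (n (T.commute_of_conj hm hu.2.2.symm a2.symm)).elim]

theorem line_hom [Finite G] {X : Set G} (T : TT X) (hc : Cls X) (h3 : X.ncard = 3) :
    ∃ φ : Equiv.Perm (Fin 3) →* G, Function.Injective φ ∧ φ.range = closure X := by
  obtain ⟨a, ha, b, hb, n⟩ := (Set.one_lt_ncard (Set.toFinite X)).1 (by omega)
  obtain ⟨w, L⟩ := line_of_three T hc h3
  obtain ⟨φ, hi, h0, h1⟩ := exists_perm3_hom T.tts ha hb fun q => n (w a ha b hb q)
  refine ⟨φ, hi, le_antisymm ?_ ((closure_le _).2 fun c hc => ?_)⟩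
  · have : ∀ σ : Equiv.Perm (Fin 3), σ ∈ ({1, Equiv.swap 0 1, Equiv.swap 1 2, Equiv.swap 0 1 * Equiv.swap 1 2, Equiv.swap 1 2 *
      Equiv.swap 0 1, Equiv.swap 0 1 * Equiv.swap 1 2 * Equiv.swap 0 1} : Finset _) := by decide
    rintro _ ⟨σ, rfl⟩
    have a' : a ∈ Subgroup.closure X := Subgroup.subset_closure ha
    have b' : b ∈ Subgroup.closure X := Subgroup.subset_closure hb
    replace this := this σ
    simp only [Finset.mem_insert, Finset.mem_singleton] at this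
    rcases this with rfl | rfl | rfl | rfl | rfl | rfl <;> simp only [map_mul, map_one, h0, h1, mul_mem, one_mem, a', b']
  have a' : a ∈ φ.range := ⟨_, h0⟩
  have b' : b ∈ φ.range := ⟨_, h1⟩
  rcases L a ha b hb n c hc with rfl | rfl | rfl
  exacts [a', b', mul_mem (mul_mem a' b') a']

/-- Let D be a non-empty conjugation-invariant set of involutions of a finite group G satisfying the 3-transposition order conditions, and suppose that for every d in D the members of D other than d commuting with d generate a subgroup isomorphic to the symmetric group of degree 3, and the largest normal 3-subgroup of the centralizer of d has order 3. Then the subgroup generated by D is isomorphic to the symmetric group of degree 5 or to the direct product of two symmetric groups of degree 3. -/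
theorem result {G : Type*} [Group G] [Finite G] {D : Set G} (hD : Cfsg.IsThreeTranspositionSet D) (hconj : ∀ g : G, ∀ d ∈ D, g * d * g⁻¹ ∈ D) (hne : D.Nonempty) (hloc : ∀ d ∈ D, Nonempty (↥(Subgroup.closure {y : G | y ∈ D ∧ y ≠ d ∧ Commute d y}) ≃* Equiv.Perm (Fin 3)) ∧ Nat.card (Cfsg.pCore 3 ↥(Subgroup.centralizer ({d} : Set G))) = 3) : Nonempty (↥(Subgroup.closure D) ≃* Equiv.Perm (Fin 5)) ∨ Nonempty (↥(Subgroup.closure D) ≃* Equiv.Perm (Fin 3) × Equiv.Perm (Fin 3)) := by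
  have I : TI D := ⟨hD, hconj⟩
  have T := I.tt
  have h : ∀ x ∈ D, Cls (dperp D x) ∧ (dperp D x).ncard = 3 := fun x hx =>
    let ⟨e⟩ := (hloc x hx).1; three_of_s3 (T.dperp x) e
  have L := fun x hx => line_of_three (T.dperp x) (h x hx).1 (h x hx).2
  have ex : ∀ x ∈ D, ∀ y, ∃ z ∈ dperp D x, z ≠ y := fun x hx y =>
    Set.exists_ne_of_one_lt_ncard (by rw [(h x hx).2]; decide) y
  have sub : ∀ x ∈ D, ∀ y ∈ D, ∀ p ∈ dperp D x, ∀ q ∈ dperp D x, p ≠ q → p ∈ dperp D y → q ∈ dperp D y →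
      dperp D x ⊆ dperp D y := fun x hx y hy p hp q hq n hp' hq' c hc => by
    rcases (L x hx).2 p hp q hq n c hc with rfl | rfl | rfl
    exacts [hp', hq', (T.dperp y).conj p hp' q hq']
  obtain ⟨d, hd⟩ := hne
  have cn : comp D d = D := (comp_subset D d).antisymm fun y hy => by_contra fun n => by
    obtain ⟨y', hy', -⟩ := ex y hy y
    have n' : y' ∉ comp D d := fun q => n (mem_comp_of_commute q hy hy'.2.2.symm)
    have ad : ∀ {z}, z ∈ D → z ∉ comp D d → ∀ {a}, a ∈ comp D d → ¬ Commute z a := fun hz n _ ha q =>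
      n (mem_comp_of_commute ha hz q.symm)
    have mv : ∀ a ∈ comp D d, y * (y' * a * y') * y ∈ dperp D a := fun a ha => by
      refine ⟨T.conj _ hy _ (T.conj _ hy'.1 _ ha.1), fun q => ?_, ?_⟩
      · refine ad hy n ha ((tts_commute_mul_iff hD hy hy'.1 ha.1 hy'.2.1.symm).1 ?_).1.symm
        rw [Commute, SemiconjBy, ← q, mul_assoc, mul_assoc, tts_cancel hD hy, tts_cancel' hD hy'.1, q, mul_assoc]
      · have := w_s4_opp (tts_sq hD hy) (tts_sq hD hy'.1) (tts_sq hD ha.1) (tts_braid hD hy ha.1 (ad hy n ha))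
          (tts_braid hD hy'.1 ha.1 (ad hy'.1 n' ha)) hy'.2.2.eq
        simpa only [Commute, SemiconjBy, mul_assoc] using this.symm
    have wr : ∀ a ∈ comp D d, ∀ b ∈ dperp D a, wrel D b (y * (y' * a * y') * y) := fun a ha b hb => by
      by_cases q : b = y * (y' * a * y') * y
      · exact q ▸ (wrel_invEquiv I).refl b hb.1
      have hb' := mem_comp_of_commute ha hb.1 hb.2.2
      have p1 : y * (y' * b * y') * y ∈ dperp D (y * (y' * a * y') * y) := ⟨(mv b hb').1,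
        fun z => hb.2.1 ((T.conj_inj y').1 ((T.conj_inj y).1 z)),
        (T.commute_conj_iff hy).2 ((T.commute_conj_iff hy'.1).2 hb.2.2)⟩
      have p2 : a ≠ y * (y' * b * y') * y := fun z => q (by
        have : y' * a * y' = y * (y' * (y' * b * y') * y') * y := by
          rw [z]; simp only [mul_assoc, hy'.2.2.eq, hy'.2.2.left_comm]
        rw [this, T.conj_conj hy, T.conj_conj hy'.1])
      have s1 := sub b hb.1 _ (mv a ha).1 a (mem_dperp_comm ha.1 hb) _ (mv b hb') p2 (mem_dperp_comm ha.1 (mv a ha)) p1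
      have s2 := sub _ (mv a ha).1 b hb.1 a (mem_dperp_comm ha.1 (mv a ha)) _ p1 p2 (mem_dperp_comm ha.1 hb) (mv b hb')
      exact fun e he => ⟨fun z => (s1 ⟨he, z⟩).2, fun z => (s2 ⟨he, z⟩).2⟩
    have w3 : ∀ a ∈ comp D d, ∀ b ∈ dperp D a, ∀ c ∈ dperp D a, b * c ∈ pCore 3 G := fun a ha b hb c hc =>
      (wrel_iff_mem_pCore I hb.1 hc.1).1 ((wrel_invEquiv I).trans (wr a ha b hb) ((wrel_invEquiv I).symm (wr a ha c hc)))
    have c0 := mem_comp_self hd
    obtain ⟨b, hb, -⟩ := ex d hd d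
    obtain ⟨b', hb', nb⟩ := ex d hd b
    have cb := mem_comp_of_commute c0 hb.1 hb.2.2
    obtain ⟨a, ha, na⟩ := ex b hb.1 d
    have ca := mem_comp_of_commute cb ha.1 ha.2.2
    have db := mem_dperp_comm hd hb
    have P : Pl D d a y := ⟨hd, ha.1, hy, fun q => na ((L b hb.1).1 d db a ha q).symm, fun q => ad hy n c0 q.symm,
      fun q => ad hy n ca q.symm, fun q => ad hy n ((T.comp hd).conj d c0 a ca) q.symm⟩
    have z3 : zeta d a y ∈ pCore 3 G := by
      have := mul_mem (w3 b cb d db a ha) ((pCore_normal 3 G).conj_mem _ (w3 b cb d db a ha) y)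
      simpa only [zeta, tts_inv hD hy, mul_assoc] using this
    have z1 : zeta d a y ≠ 1 := fun q => P.zeta_one T hb.1 hb.2.2 ha.2.2.symm (ad hy n cb) (by simp [q])
    have zy : Commute y (zeta d a y) := by
      have := w_zeta_x (tts_sq hD hd) (tts_sq hD ha.1) (tts_sq hD hy) (tts_braid hD hd ha.1 P.da) (tts_braid hD hd hy P.dx)
        (tts_braid hD ha.1 hy P.ax) (P.b4 T)
      simpa only [Commute, SemiconjBy, zeta, mul_assoc] using this
    have mc : ∀ {g}, Commute d g → g ∈ centralizer ({d} : Set G) := fun q => mem_centralizer_iff.2 (by simpa using q.eq)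
    let z : pCore 3 (centralizer ({d} : Set G)) := ⟨⟨_, mc (P.zeta_d T)⟩, H02.pCore_subgroupOf_le _ z3⟩
    let r : pCore 3 (centralizer ({d} : Set G)) := ⟨⟨_, mc (hb.2.2.mul_right hb'.2.2)⟩, H02.pCore_subgroupOf_le _ (w3 d c0 b hb b' hb')⟩
    have : Fact (Nat.Prime 3) := ⟨Nat.prime_three⟩
    obtain ⟨k, hk⟩ := mem_zpowers_iff.1 (zpowers_eq_top_of_prime_card (hloc d hd).2 (g := z) (fun q => z1 (congrArg (fun x : pCore 3 (centralizer ({d} : Set G)) => x.1.1) q)) ▸
      mem_top r)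
    have hk' : zeta d a y ^ k = b * b' := congrArg (fun x : pCore 3 (centralizer ({d} : Set G)) => x.1.1) hk
    exact ad hy n cb ((tts_commute_mul_iff hD hb.1 hb'.1 hy nb.symm).1 (hk' ▸ zy.zpow_right k)).1
  obtain ⟨b, hb, -⟩ := ex d hd d
  by_cases H : ∃ u ∈ dperp D d, ∃ v ∈ dperp D b, ¬ Commute u v
  · obtain ⟨u, hu, v, hv, n⟩ := H
    have R := cn ▸ r3_three T h hd hb hu hv n
    obtain ⟨b', hb', nb⟩ := ex d hd b
    exact .inl (isS_equiv (R.isS5 hd fun w => nb (w b' hb' b hb fun e he =>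
      ⟨fun z => (z.1 ((L d hd).1 _ hb' _ he z.2).symm).elim, fun z => (z.1 ((L d hd).1 _ hb _ he z.2).symm).elim⟩)) (by decide))
  simp only [not_exists, not_and, not_not] at H
  have db := mem_dperp_comm hd hb
  have k : ∀ {x y}, x ∈ D → y ∈ dperp D x → (∀ u ∈ dperp D x, ∀ v ∈ dperp D y, Commute u v) → ∀ v ∈ dperp D y,
      dperp D v = dperp D x := fun {x y} hx hy H v hv => (Set.eq_of_subset_of_ncard_le (s := dperp D x) (t := dperp D v) (fun u hu => ⟨hu.1, fun q =>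
        hu.2.1 (q ▸ (L y hy.1).1 v hv x (mem_dperp_comm hx hy) (q ▸ hu.2.2.symm)), (H u hu v hv).symm⟩)
        (by rw [(h v hv.1).2, (h x hx).2])).symm
  have U : D = dperp D d ∪ dperp D b := by
    refine Set.Subset.antisymm (fun x hx => comp_induction (P := fun x => x ∈ dperp D d ∪ dperp D b) (.inr db)
      (fun x hx p y hy c => (em (y = x)).elim (fun q => q ▸ p) fun q => p.elim (fun p => .inr ?_) fun p => .inl ?_) hd (cn.symm ▸ hx))
      (Set.union_subset (fun _ h => h.1) fun _ h => h.1)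
    · exact k hb.1 db (fun u hu v hv => (H v hv u hu).symm) x p ▸ ⟨hy, q, c⟩
    · exact k hd hb H x p ▸ ⟨hy, q, c⟩
  obtain ⟨φ, i1, r1⟩ := line_hom (T.dperp d) (h d hd).1 (h d hd).2
  obtain ⟨ψ, i2, r2⟩ := line_hom (T.dperp b) (h b hb.1).1 (h b hb.1).2
  have cm : ∀ σ τ, Commute (φ σ) (ψ τ) := fun σ τ => by
    have a1 : φ σ ∈ closure (dperp D d) := r1 ▸ ⟨σ, rfl⟩
    have a2 : ψ τ ∈ closure (dperp D b) := r2 ▸ ⟨τ, rfl⟩
    have : ∀ u ∈ dperp D d, u ∈ perp D (ψ τ) := fun u hu => ⟨hu.1, commute_of_mem_closure_perp (D := D)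
      (Subgroup.closure_mono (fun v hv => (⟨hv.1, H u hu v hv⟩ : v ∈ perp D u)) a2)⟩
    exact commute_of_mem_closure_perp (Subgroup.closure_mono this a1)
  have hi : Function.Injective (φ.noncommCoprod ψ cm) := (injective_iff_map_eq_one _).2 fun ⟨σ, τ⟩ q => by
    rw [MonoidHom.noncommCoprod_apply] at q
    have : σ ∈ center _ := mem_center_iff.2 fun ρ => i1 (by
      rw [map_mul, map_mul, eq_inv_of_mul_eq_one_left q]; exact (cm ρ τ).inv_right.eq)
    rw [center_perm le_rfl, mem_bot] at this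
    subst this
    rw [map_one, one_mul, map_eq_one_iff _ i2] at q
    exact Prod.ext rfl q
  refine .inr ⟨((MonoidHom.ofInjective hi).trans (MulEquiv.subgroupCongr ?_)).symm⟩
  rw [MonoidHom.noncommCoprod_range, r1, r2, ← Subgroup.closure_union, ← U]

end Cfsg.Agent.S5365
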