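import Mathlib
import Cfsg.Statements.S5366
import Cfsg.Agent.H29.Plane

set_option autoImplicit false
open Cfsg

namespace Cfsg.Agent.S5366

open Cfsg Cfsg.LineSystem H29

section
variable {X : Type*} {L : Set (Set X)} (hL : IsFischerSpace L)
include hL

theorem lineMap_eq {x y z : X} (h1 : z ≠ x) (h2 : z ≠ y) (h3 : x ≠ y) (h : ({x, y, z} : Set X) ∈ L) :
    lineMap L x y = z := by
  have ex : ∃ z : X, z ≠ x ∧ z ≠ y ∧ x ≠ y ∧ ({x, y, z} : Set X) ∈ L := ⟨z, h1, h2, h3, h⟩
  have hs := ex.choose_spec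
  have e := hL.1 _ hs.2.2.2 _ h x y h3 (by simp) (by simp) (by simp) (by simp)
  have : ex.choose ∈ ({x, y, z} : Set X) := e ▸ (by simp)
  simp only [Set.mem_insert_iff, Set.mem_singleton_iff, hs.1, hs.2.1, false_or] at this
  simp only [lineMap, dif_pos ex, this]

omit hL in
theorem lineMap_of_not {x y : X} (h : ¬ Collinear L x y) : lineMap L x y = y := by
  have : ¬ ∃ z : X, z ≠ x ∧ z ≠ y ∧ x ≠ y ∧ ({x, y, z} : Set X) ∈ L :=
    fun ⟨z, _, _, h3, h4⟩ => h ⟨h3, _, h4, by simp, by simp⟩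
  simp only [lineMap, dif_neg this]

theorem exists_third {l : Set X} (hl : l ∈ L) {x y : X} (hx : x ∈ l) (hy : y ∈ l) (hne : x ≠ y) :
    ∃ z, z ≠ x ∧ z ≠ y ∧ l = {x, y, z} := by
  obtain ⟨a, b, c, h1, h2, h3, rfl⟩ := Set.ncard_eq_three.1 (hL.2.1 l hl)
  rcases hx with rfl | rfl | rfl <;> rcases hy with rfl | rfl | rfl
  · exact absurd rfl hne
  · exact ⟨c, h2.symm, h3.symm, rfl⟩
  · exact ⟨b, h1.symm, h3, by rw [Set.pair_comm]⟩
  · exact ⟨c, h3.symm, h2.symm, by rw [Set.insert_comm]⟩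
  · exact absurd rfl hne
  · exact ⟨a, h1, h2, by ext; simp; tauto⟩
  · exact ⟨b, h3, h1.symm, by ext; simp; tauto⟩
  · exact ⟨a, h2, h1, by ext; simp; tauto⟩
  · exact absurd rfl hne

theorem lineMap_invol (x y : X) : lineMap L x (lineMap L x y) = y := by
  by_cases h : Collinear L x y
  · obtain ⟨hne, l, hl, hx, hy⟩ := h
    obtain ⟨z, h1, h2, rfl⟩ := exists_third hL hl hx hy hne
    rw [lineMap_eq hL h1 h2 hne hl, lineMap_eq hL hne.symm h2.symm h1.symm (by rwa [Set.pair_comm])]
  · rw [lineMap_of_not h, lineMap_of_not h]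

omit hL in
theorem qmodel_ne {P : Type*} {M : Set (Set P)} {op : P → P → P} (hM : QModel M op) {m : Set P} (hm : m ∈ M)
    {a b : P} (ha : a ∈ m) (hb : b ∈ m) (hne : a ≠ b) : op a b ≠ b := by
  obtain ⟨u, v, h, rfl⟩ := (hM.mem m).1 hm
  have s := hM.symm u v h
  have h' : op v u ≠ u := fun e => h (by
    have := hM.invol u v
    rw [s, e, hM.self] at this
    rw [this, hM.self])
  have h1 : op u (op v u) ≠ op v u := by rw [← s, hM.invol]; exact h.symm
  have h2 : op v (op v u) ≠ op v u := by rw [hM.invol]; exact h'.symm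
  rcases ha with rfl | rfl | rfl <;> rcases hb with rfl | rfl | rfl
  · exact absurd rfl hne
  · exact h
  · exact h1
  · exact h'
  · exact absurd rfl hne
  · exact h2
  · rw [← hM.symm _ _ h1, ← s, hM.invol]; rintro rfl; exact h (hM.self _)
  · rw [← hM.symm _ _ h2, hM.invol]; rintro rfl; exact h (hM.self _)
  · exact absurd rfl hne

theorem lineMap_model {P : Type*} {M : Set (Set P)} {op : P → P → P} (hM : QModel M op) {S : Set X}
    (hS : IsSubspace L S) (e : S ≃ P) (he : IsIso (restrict L S) M e) (a b : S) :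
    lineMap L a b = e.symm (op (e a) (e b)) := by
  by_cases h : op (e a) (e b) = e b
  · rw [h, e.symm_apply_apply, lineMap_of_not]
    rintro ⟨hne, l, hl, ha, hb⟩
    have := (he _).1 ⟨l, hl, hS l hl _ a.2 _ b.2 hne ha hb, rfl⟩
    exact qmodel_ne hM this ⟨a, ha, rfl⟩ ⟨b, hb, rfl⟩ (fun h' => hne (by rw [e.injective h'])) h
  · have hab : a ≠ b := by rintro rfl; exact h (hM.self _)
    obtain ⟨l, hl, hlS, e1⟩ := (he {a, b, e.symm (op (e a) (e b))}).2
      ((hM.mem _).2 ⟨e a, e b, h, by simp [Set.image_insert_eq, hM.symm _ _ h]⟩)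
    refine lineMap_eq hL (fun h' => hab ?_) (fun h' => h ?_) (fun h' => hab (Subtype.ext h')) ?_
    · have := (Equiv.symm_apply_eq e).1 (Subtype.ext h')
      have h2 := hM.invol (e a) (e b)
      rw [this, hM.self] at h2
      exact e.injective h2
    · exact (Equiv.symm_apply_eq e).1 (Subtype.ext h')
    · convert hl using 1
      ext x
      constructor
      · rintro (rfl | rfl | rfl)
        · exact (Set.ext_iff.1 e1 _).1 (by simp)
        · exact (Set.ext_iff.1 e1 _).1 (by simp)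
        · exact (Set.ext_iff.1 e1 _).1 (by simp)
      · intro hx
        rcases (Set.ext_iff.1 e1 ⟨x, hlS hx⟩).2 hx with h | h | h
        · exact Or.inl (congrArg Subtype.val h)
        · exact Or.inr (Or.inl (congrArg Subtype.val h))
        · exact Or.inr (Or.inr (congrArg Subtype.val h))

theorem lineMap_line_model {P : Type*} {M : Set (Set P)} {op : P → P → P} (hM : QModel M op) {S : Set X}
    (hS : IsSubspace L S) (e : S ≃ P) (he : IsIso (restrict L S) M e) {x : X} (hx : x ∈ S) {l : Set X}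
    (hl : l ∈ L) (hlS : l ⊆ S) : lineMap L x '' l ∈ L := by
  obtain ⟨u, v, h, e1⟩ := (hM.mem _).1 ((he _).1 ⟨l, hl, hlS, rfl⟩)
  obtain ⟨m, hm, hmS, e2⟩ := (he (e.symm '' (op (e ⟨x, hx⟩) '' {u, v, op v u}))).2 (by
    rw [Equiv.image_symm_image]
    refine (hM.mem _).2 ⟨op (e ⟨x, hx⟩) u, op (e ⟨x, hx⟩) v, fun h' => h ?_, ?_⟩
    · rw [← hM.dist] at h'
      have := congrArg (op (e ⟨x, hx⟩)) h'
      rwa [hM.invol, hM.invol] at this
    · simp [Set.image_insert_eq, ← hM.dist])
  convert hm using 1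
  rw [← e1] at e2
  ext y
  constructor
  · rintro ⟨z, hz, rfl⟩
    rw [lineMap_model hL hM hS e he ⟨x, hx⟩ ⟨z, hlS hz⟩]
    exact (Set.ext_iff.1 e2 _).1 ⟨_, ⟨_, ⟨⟨z, hlS hz⟩, hz, rfl⟩, rfl⟩, rfl⟩
  · intro hy
    obtain ⟨_, ⟨_, ⟨z, hz, rfl⟩, rfl⟩, e3⟩ := (Set.ext_iff.1 e2 ⟨y, hmS hy⟩).2 hy
    exact ⟨z, hz, by rw [lineMap_model hL hM hS e he ⟨x, hx⟩ z, e3]⟩

theorem lineMap_line (x : X) {l : Set X} (hl : l ∈ L) : lineMap L x '' l ∈ L := by
  by_cases h : ∃ y ∈ l, Collinear L x y
  · obtain ⟨y, hy, hne, m, hm, hxm, hym⟩ := h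
    by_cases hlm : l = m
    · subst hlm
      obtain ⟨z, h1, h2, rfl⟩ := exists_third hL hl hxm hy hne
      rw [Set.image_insert_eq, Set.image_pair, lineMap_of_not (fun h => h.1 rfl), lineMap_eq hL h1 h2 hne hl,
        lineMap_eq hL hne.symm h2.symm h1.symm (by rwa [Set.pair_comm])]
      rwa [Set.pair_comm]
    have hS : IsSubspace L (span L (l ∪ m)) := fun k hk a ha b hb hab h1 h2 z hz T hT =>
      hT.2 k hk a (ha T hT) b (hb T hT) hab h1 h2 hz
    have h1 : l ∪ m ⊆ span L (l ∪ m) := fun z hz T hT => hT.1 hz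
    rcases hL.2.2 l hl m hm hlm ⟨y, hy, hym⟩ with ⟨e, he⟩ | ⟨e, he⟩
    · exact lineMap_line_model hL qmodel_dual hS e he (h1 (Or.inr hxm)) hl fun z hz => h1 (Or.inl hz)
    · exact lineMap_line_model hL qmodel_aff hS e he (h1 (Or.inr hxm)) hl fun z hz => h1 (Or.inl hz)
  · push Not at h
    rwa [Set.image_congr fun y hy => lineMap_of_not (h y hy), Set.image_id']

/-- the involution of a point -/
noncomputable def tp (x : X) : Equiv.Perm X := Function.Involutive.toPerm _ (lineMap_invol hL x)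

theorem tp_apply (x y : X) : tp hL x y = lineMap L x y := rfl

theorem tp_sq (x : X) : tp hL x * tp hL x = 1 := Equiv.ext fun y => lineMap_invol hL x y

theorem tp_conj (x y : X) : tp hL x * tp hL y * tp hL x = tp hL (tp hL x y) := by
  ext z
  obtain ⟨z, rfl⟩ := (tp hL x).surjective z
  have i := lineMap_invol hL x
  simp only [Equiv.Perm.mul_apply, tp_apply, i]
  have inj : Function.Injective (lineMap L x) := Function.Involutive.injective i
  by_cases h : Collinear L y z
  · obtain ⟨hne, l, hl, hy, hz⟩ := h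
    obtain ⟨w, h1, h2, rfl⟩ := exists_third hL hl hy hz hne
    rw [lineMap_eq hL h1 h2 hne hl, lineMap_eq hL (inj.ne h1) (inj.ne h2) (inj.ne hne)]
    simpa [Set.image_insert_eq] using lineMap_line hL x hl
  · rw [lineMap_of_not h, lineMap_of_not (x := lineMap L x y)]
    rintro ⟨hne, l, hl, hy, hz⟩
    exact h ⟨fun e => hne (by rw [e]), _, lineMap_line hL x hl, ⟨_, hy, i y⟩, ⟨_, hz, i z⟩⟩

theorem tp_ne_one (hnd : IsNondegenerate L) (x : X) : tp hL x ≠ 1 := by
  obtain ⟨l, hl, hx⟩ := hnd x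
  obtain ⟨y, hy, hne⟩ : ∃ y ∈ l, x ≠ y := by
    obtain ⟨a, b, c, h1, -, -, rfl⟩ := Set.ncard_eq_three.1 (hL.2.1 l hl)
    by_cases h : x = a
    · exact ⟨b, by simp, h ▸ h1⟩
    · exact ⟨a, by simp, h⟩
  obtain ⟨z, h1, h2, rfl⟩ := exists_third hL hl hx hy hne
  intro e
  have := congrArg (fun σ : Equiv.Perm X => σ y) e
  simp only [tp_apply, lineMap_eq hL h1 h2 hne hl, Equiv.Perm.one_apply] at this
  exact h2 this

end

/-- Let L be a nondegenerate Fischer space on the point type X (every point on a line). Then for every point x the map t(x) — sending a point collinear with x to the third point of their common line and fixing every other point — is a permutation of X of order 2 and an automorphism of the line system; and the set of all t(x) satisfies the 3-transposition order conditions in the permutation group of X (any two have product of order at most 3). -/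
theorem result {X : Type*} (L : Set (Set X)) (hL : Cfsg.IsFischerSpace L) (hnd : Cfsg.LineSystem.IsNondegenerate L) : (∀ x : X, ∃ σ : Equiv.Perm X, ⇑σ = Cfsg.LineSystem.lineMap L x ∧ orderOf σ = 2 ∧ Cfsg.LineSystem.IsIso L L σ) ∧ Cfsg.IsThreeTranspositionSet {σ : Equiv.Perm X | ∃ x : X, ⇑σ = Cfsg.LineSystem.lineMap L x} := by
  refine ⟨fun x => ⟨tp hL x, rfl, orderOf_eq_prime (by rw [sq, tp_sq]) (tp_ne_one hL hnd x), fun l =>
    ⟨fun hl => lineMap_line hL x hl, fun hl => ?_⟩⟩, tts_of ?_ ?_ ?_⟩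
  · have := lineMap_line hL x hl
    rwa [Set.image_image, Set.image_congr fun y _ => (by exact lineMap_invol hL x y), Set.image_id'] at this
  · rintro σ ⟨x, h⟩
    rw [show σ = tp hL x from Equiv.ext (congrFun h), tp_sq]
  · rintro σ ⟨x, h⟩
    rw [show σ = tp hL x from Equiv.ext (congrFun h)]
    exact tp_ne_one hL hnd x
  · rintro σ ⟨x, h⟩ τ ⟨y, h'⟩
    rw [show σ = tp hL x from Equiv.ext (congrFun h), show τ = tp hL y from Equiv.ext (congrFun h')]
    by_cases hc : Collinear L x y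
    · right
      obtain ⟨hne, l, hl, hx, hy⟩ := hc
      obtain ⟨z, h1, h2, rfl⟩ := exists_third hL hl hx hy hne
      rw [tp_conj, tp_conj, tp_apply, tp_apply, lineMap_eq hL h1 h2 hne hl,
        lineMap_eq hL h2 h1 hne.symm (by rwa [Set.insert_comm])]
    · left
      have := tp_conj hL x y
      rw [tp_apply, lineMap_of_not hc] at this
      rw [Commute, SemiconjBy, ← this, ← mul_assoc, ← mul_assoc, tp_sq, one_mul, this]

end Cfsg.Agent.S5366
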