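import Mathlib
import Cfsg.Statements.S5373
import Cfsg.Agent.H29.Ord

set_option autoImplicit false
open Cfsg

namespace Cfsg.Agent.S5373

/-- Let G be a finite group with trivial centre generated by a conjugation-invariant set D of 3-transpositions on which it acts primitively, of type M(22), and suppose some finite primitive 3-transposition group of type M(24) exists. Then D has exactly 3510 members, G has order 2^17 · 3^9 · 5^2 · 7 · 11 · 13, the width of D (largest number of pairwise commuting members) is 22, and for every d in D the centralizer of d is generated by the members of D other than d commuting with d. -/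
theorem result {G : Type*} [Group G] [Finite G] {D : Set G} (hD : Cfsg.IsThreeTranspositionGroup D) (hprim : Cfsg.IsPrimitiveUnderConj D) (ht : Cfsg.IsOfTypeM22 G D) (hex : ∃ (X : Type) (_ : Group X) (_ : Finite X) (E : Set X), Cfsg.IsThreeTranspositionClass E ∧ Cfsg.IsPrimitiveUnderConj E ∧ Cfsg.IsOfTypeM24 X E) : D.ncard = 3510 ∧ Nat.card G = 2 ^ 17 * 3 ^ 9 * 5 ^ 2 * 7 * 11 * 13 ∧ Cfsg.commutingWidth D = 22 ∧ ∀ d ∈ D, Subgroup.closure {y : G | y ∈ D ∧ y ≠ d ∧ Commute d y} = Subgroup.centralizer ({d} : Set G) := by
  obtain ⟨X, _, _, E, hE, hp, hx⟩ := hex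
  have h := H29.t22_of_type hD hprim ht
  have h4 := H29.t24_of_type (H29.group_of_class hE) hp hx
  obtain ⟨e, he, -⟩ := h4.1.two
  have hc := h.ci (h4.2 e he)
  exact ⟨h.card, by rw [← H29.ord_eq_card hD.2.2 ht.1, h.ord hc]; norm_num, h.isW.width,
    fun d hd => h.1.centralizer_eq hD.2.2 ht.1 hd (h.fib_bb hd).1 hc h.gen⟩

end Cfsg.Agent.S5373
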