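import Mathlib
import Cfsg.Statements.S5374
import Cfsg.Agent.H29.Ord

set_option autoImplicit false
open Cfsg

namespace Cfsg.Agent.S5374

/-- Let G be a finite group with trivial centre generated by a conjugation-invariant set D of 3-transpositions on which it acts primitively, of type M(23), and suppose some finite primitive 3-transposition group of type M(24) exists. Then G is simple, D has exactly 31671 members, G has order 2^18 · 3^13 · 5^2 · 7 · 11 · 13 · 17 · 23, the width of D is 23, and for every d in D the subgroup H generated by the members of D other than d commuting with d is the centralizer of d and is quasisimple with centre generated by d. -/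
theorem result {G : Type*} [Group G] [Finite G] {D : Set G} (hD : Cfsg.IsThreeTranspositionGroup D) (hprim : Cfsg.IsPrimitiveUnderConj D) (ht : Cfsg.IsOfTypeM23 G D) (hex : ∃ (X : Type) (_ : Group X) (_ : Finite X) (E : Set X), Cfsg.IsThreeTranspositionClass E ∧ Cfsg.IsPrimitiveUnderConj E ∧ Cfsg.IsOfTypeM24 X E) : IsSimpleGroup G ∧ D.ncard = 31671 ∧ Nat.card G = 2 ^ 18 * 3 ^ 13 * 5 ^ 2 * 7 * 11 * 13 * 17 * 23 ∧ Cfsg.commutingWidth D = 23 ∧ ∀ d ∈ D, Subgroup.closure {y : G | y ∈ D ∧ y ≠ d ∧ Commute d y} = Subgroup.centralizer ({d} : Set G) ∧ Cfsg.IsQuasisimple ↥(Subgroup.closure {y : G | y ∈ D ∧ y ≠ d ∧ Commute d y}) ∧ Subgroup.center ↥(Subgroup.closure {y : G | y ∈ D ∧ y ≠ d ∧ Commute d y}) = (Subgroup.zpowers d).subgroupOf (Subgroup.closure {y : G | y ∈ D ∧ y ≠ d ∧ Commute d y}) := by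
  have h := H29.t23_of_type hD hprim ht
  obtain ⟨d, hd, -⟩ := h.1.two
  obtain ⟨n, hn, w⟩ := h.odd hD.2.2 ht.1 hd
  have := H29.simple_of_qs (H22.qs_top_iff.1 (hD.2.2 ▸ h.1.qs_of_odd (w.mono fun _ q => q.1) hn)) ht.1
  exact ⟨this, h.card, by rw [← H29.ord_eq_card hD.2.2 ht.1, h.ord]; norm_num, h.isW.width,
    fun d hd => ⟨h.1.centralizer_eq hD.2.2 ht.1 hd (h.fib_bb hd).1 h.ci h.gen,
      let ⟨_, hn, w⟩ := h.odd hD.2.2 ht.1 hd; (h.2 d hd).1.qs_of_odd w hn,
      h.1.center_loc hD.2.2 ht.1 hd (h.fib_bb hd).1⟩⟩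

end Cfsg.Agent.S5374
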