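import Mathlib
import Cfsg.Statements.S5375
import Cfsg.Agent.H13.M24S

set_option autoImplicit false
open Cfsg

namespace Cfsg.Agent.S5375

/-- Let G be a finite group with trivial centre generated by a conjugation-invariant set D of 3-transpositions on which it acts primitively, of type M(24). Then the layer of G (its largest semisimple normal subgroup) has index 2, D has exactly 306936 members, G has order 2^22 · 3^16 · 5^2 · 7^3 · 11 · 13 · 17 · 23 · 29, the width of D is 24, and for every d in D the subgroup generated by the members of D other than d commuting with d is the centralizer of d. -/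
theorem result {G : Type*} [Group G] [Finite G] {D : Set G} (hD : Cfsg.IsThreeTranspositionGroup D) (hprim : Cfsg.IsPrimitiveUnderConj D) (ht : Cfsg.IsOfTypeM24 G D) : (Cfsg.layer G).index = 2 ∧ D.ncard = 306936 ∧ Nat.card G = 2 ^ 22 * 3 ^ 16 * 5 ^ 2 * 7 ^ 3 * 11 * 13 * 17 * 23 * 29 ∧ Cfsg.commutingWidth D = 24 ∧ ∀ d ∈ D, Subgroup.closure {y : G | y ∈ D ∧ y ≠ d ∧ Commute d y} = Subgroup.centralizer ({d} : Set G) := by
  have h := H29.t24_of_type hD hprim ht
  have P := H29.Prim.of_group hD hprim h.1.wid
  obtain ⟨L, hL, hi⟩ := P.exists_comp_index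
  obtain ⟨gen, M⟩ := H13.F24.of_type hD hprim ht
  refine ⟨?_, h.card, by rw [M.card]; norm_num, h.isW.width,
    fun d hd => h.1.centralizer_eq hD.2.2 ht.1 hd (h.fib_bb hd).1 h.ci h.gen⟩
  rw [H29.layer_eq_comp P.cls hL]
  have := L.index_ne_zero_of_finite
  have : L.index ≠ 1 := fun e => H13.F24.not_mem_commutator M _ (M.mem []) (by
    rw [Subgroup.index_eq_one.1 e] at hL
    exact (H22.qs_top_iff.1 hL.2).1.commutator_eq_top ▸ Subgroup.mem_top _)
  omega

end Cfsg.Agent.S5375
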