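import Mathlib
import Cfsg.Statements.S5376
import Cfsg.Agent.H29.Ord

set_option autoImplicit false
open Cfsg

namespace Cfsg.Agent.S5376

/-- Let G be a finite group with trivial centre generated by a conjugation-invariant set D of 3-transpositions on which it acts primitively, of type M(22), and suppose some finite primitive 3-transposition group of type M(23) exists. Then G is simple, and for every d in D the subgroup generated by the members of D other than d commuting with d contains d and is quasisimple with centre generated by d. -/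
theorem result {G : Type*} [Group G] [Finite G] {D : Set G} (hD : Cfsg.IsThreeTranspositionGroup D) (hprim : Cfsg.IsPrimitiveUnderConj D) (ht : Cfsg.IsOfTypeM22 G D) (hex : ∃ (X : Type) (_ : Group X) (_ : Finite X) (E : Set X), Cfsg.IsThreeTranspositionClass E ∧ Cfsg.IsPrimitiveUnderConj E ∧ Cfsg.IsOfTypeM23 X E) : IsSimpleGroup G ∧ ∀ d ∈ D, d ∈ Subgroup.closure {y : G | y ∈ D ∧ y ≠ d ∧ Commute d y} ∧ Cfsg.IsQuasisimple ↥(Subgroup.closure {y : G | y ∈ D ∧ y ≠ d ∧ Commute d y}) ∧ Subgroup.center ↥(Subgroup.closure {y : G | y ∈ D ∧ y ≠ d ∧ Commute d y}) = (Subgroup.zpowers d).subgroupOf (Subgroup.closure {y : G | y ∈ D ∧ y ≠ d ∧ Commute d y}) := by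
  have h := H29.t22_of_type hD hprim ht
  obtain ⟨d, hd, -⟩ := h.1.two
  exact ⟨H29.simple_of_qs (H22.qs_top_iff.1 (hD.2.2 ▸ h.1.qs_of_odd
    ((h.odd hD.2.2 ht.1 hd).mono fun _ q => q.1) (by decide))) ht.1,
    fun d hd => ⟨h.gen.mem hD.2.2 ht.1 hd, ((h.2 d hd).r3 (n := 2)).qs_of_odd (h.odd hD.2.2 ht.1 hd) (by decide),
      h.1.center_loc hD.2.2 ht.1 hd (h.fib_bb hd).1⟩⟩

end Cfsg.Agent.S5376
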