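import Cfsg.Statements.S5387
import Mathlib
import Cfsg.Agent.S2088
import Cfsg.Agent.H29.Mult
-- import your own Cfsg.Agent.* helpers here

set_option autoImplicit false
open Cfsg

namespace Cfsg.Agent.S5387

open scoped Pointwise commutatorElement

open H16 Subgroup in
theorem aux {G L : Type*} [Group G] [Group L] [Finite L] (hp : commutator L = ⊤) (hc : Nat.card (center L) = 4)
    (he : ∀ x ∈ center L, x * x = 1) (e : L ⧸ center L ≃* G)
    (m : HM (canPres G) ≃* Multiplicative (ZMod 3 × ZMod 4 × ZMod 4)) :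
    ∃ θ : commutator (HE (canPres G)) →* L, Function.Surjective θ ∧ ∀ x, x ∈ θ.ker ↔
      ∃ h : x.1 ∈ HM (canPres G), m ⟨x, h⟩ ∈ (powMonoidHom 2 : _ →* _).range := by
  obtain ⟨s, k⟩ := H29.stem_center hp e
  obtain ⟨η, hη⟩ := hlift' (canPres G) s.1 s.2.1
  have h1 := map_HM (canPres_surjective G) s.2.1 hη
  rw [k, hp, inf_top_eq] at h1
  have h2 := map_commutator_eq s.2.1 (η := η) fun x =>
    (hπ_surjective _ (canPres_surjective G) _).imp fun y hy => (DFunLike.congr_fun hη y).trans hy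
  let f := η.comp ((HM (canPres G)).subtype.comp m.symm.toMonoidHom)
  have f1 : f.range = center L := by
    rw [← h1, MonoidHom.range_comp, MonoidHom.range_comp, MonoidHom.range_eq_top.2 m.symm.surjective,
      ← MonoidHom.range_eq_map, range_subtype]
  have f2 : (powMonoidHom 2 : _ →* _).range = f.ker := by
    refine eq_of_le_of_card_ge ?_ ?_
    · rintro _ ⟨b, rfl⟩
      rw [MonoidHom.mem_ker, powMonoidHom_apply, map_pow, pow_two]
      exact he _ (f1 ▸ ⟨b, rfl⟩)
    · have := f.ker.card_mul_index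
      rw [index_ker, f1, hc, show Nat.card (Multiplicative (ZMod 3 × ZMod 4 × ZMod 4)) = 48 by simp] at this
      have h3 : Nat.card (powMonoidHom 2 : Multiplicative (ZMod 3 × ZMod 4 × ZMod 4) →* _).range = 12 := by
        rw [Nat.card_eq_fintype_card]; decide +kernel
      omega
  refine ⟨η.comp (Subgroup.subtype _), fun y => ?_, fun x => ⟨fun hx => ⟨⟨?_, x.2⟩, ?_⟩, fun ⟨h, hx⟩ => ?_⟩⟩
  · obtain ⟨x, hx, rfl⟩ : y ∈ (commutator _).map η := by rw [h2, hp]; trivial
    exact ⟨⟨x, hx⟩, rfl⟩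
  · rw [← hη]
    have hx' : η x.1 = 1 := hx
    exact MonoidHom.mem_ker.2 (by rw [MonoidHom.comp_apply, hx', map_one])
  · rw [f2]
    simpa [f] using hx
  · rw [f2] at hx
    simpa [f] using hx

/-- Up to isomorphism there is at most one quasisimple group whose centre is elementary abelian of order 4 and whose central quotient is isomorphic to the projective special linear group of dimension 3 over the field with four elements: any two such groups are isomorphic. -/
theorem result {L₁ L₂ : Type*} [Group L₁] [Finite L₁] [Group L₂] [Finite L₂] (F : Type) [Field F] [Fintype F] (hF : Fintype.card F = 4) (h₁ : Cfsg.IsQuasisimple L₁) (h₂ : Cfsg.IsQuasisimple L₂) (hc₁ : Nat.card (Subgroup.center L₁) = 4) (hc₂ : Nat.card (Subgroup.center L₂) = 4) (he₁ : ∀ x ∈ Subgroup.center L₁, x * x = 1) (he₂ : ∀ x ∈ Subgroup.center L₂, x * x = 1) (e₁ : L₁ ⧸ Subgroup.center L₁ ≃* Matrix.ProjectiveSpecialLinearGroup (Fin 3) F) (e₂ : L₂ ⧸ Subgroup.center L₂ ≃* Matrix.ProjectiveSpecialLinearGroup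 (Fin 3) F) : Nonempty (L₁ ≃* L₂) := by
  have h := Cfsg.Agent.S2088.result hF
  have := H16.hsm_finite h
  obtain ⟨m⟩ := (H16.hasSchurMultiplier_iff (H16.canPres_surjective _)).1 h
  obtain ⟨θ₁, s₁, k₁⟩ := aux h₁.1.commutator_eq_top hc₁ he₁ e₁ m
  obtain ⟨θ₂, s₂, k₂⟩ := aux h₂.1.commutator_eq_top hc₂ he₂ e₂ m
  exact ⟨(QuotientGroup.quotientKerEquivOfSurjective θ₁ s₁).symm.trans ((QuotientGroup.quotientMulEquivOfEq
    (Subgroup.ext fun x => (k₁ x).trans (k₂ x).symm)).trans (QuotientGroup.quotientKerEquivOfSurjective θ₂ s₂))⟩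

end Cfsg.Agent.S5387
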