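import Mathlib
import Cfsg.Statements.S5389
import Cfsg.Agent.H14.SzT

set_option autoImplicit false
open Cfsg

namespace Cfsg.Agent.S5389

open H14 H14.SzT Subgroup

/-- A simple section of the automorphism group of the Leech lattice satisfying the Suzuki-sporadic-type hypothesis (the group so obtained is the sporadic Suzuki group; that identification is not part of this statement): there is a subgroup A of order 3 of that automorphism group such that the centralizer of A modulo the subgroup generated by A and the centre of the automorphism group is a non-abelian simple group satisfying the large extraspecial hypothesis of minus type in dimension 6 — an involution whose centralizer has extraspecial generalized Fitting subgroup of order 2^7 with quotient the commutator subgroup of the isometry group of the elliptic quadratic form in dimension 6 over the field with two elements, the involution not weakly closed in that extraspecial group. -/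
theorem result : ∃ A : Subgroup ↥Cfsg.Co0, Nat.card A = 3 ∧ ∃ (hn : ((A ⊔ Subgroup.center ↥Cfsg.Co0).subgroupOf (Subgroup.centralizer (A : Set ↥Cfsg.Co0))).Normal), ∃ (S : Type) (_ : Group S) (_ : Finite S), Nonempty (S ≃* ↥(Subgroup.centralizer (A : Set ↥Cfsg.Co0)) ⧸ (A ⊔ Subgroup.center ↥Cfsg.Co0).subgroupOf (Subgroup.centralizer (A : Set ↥Cfsg.Co0))) ∧ IsSimpleGroup S ∧ ¬ IsMulCommutative S ∧ ∃ z : S, orderOf z = 2 ∧ ∃ (Q : Subgroup (Subgroup.centralizer ({z} : Set S))) (_ : Q.Normal), Cfsg.generalizedFittingSubgroup (Subgroup.centralizer ({z} : Set S)) = Q ∧ Cfsg.IsExtraspecial 2 Q ∧ Nat.card Q = 2 ^ 7 ∧ Nonempty ((Subgroup.centralizer ({z} : Set S)) ⧸ Q ≃* Cfsg.Omega (ZMod 2) (Cfsg.quadFormMinus 2 (ZMod 2) 1 1)) ∧ ∃ g : S, (∃ hq : g * z * g⁻¹ ∈ Subgroup.centralizer ({z} : Set S), (⟨g * z * g⁻¹, hq⟩ : Subgroup.centralizer ({z} : Set S)) ∈ Q) ∧ g * z * g⁻¹ ≠ z := by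
  obtain ⟨o, σ, s, k⟩ := sec
  refine ⟨zpowers a3, (Nat.card_zpowers _).trans o, ?_⟩
  rw [zpowers_eq_closure, centralizer_closure, ← zpowers_eq_closure]
  have n : ((zpowers a3 ⊔ center ↥Co0).subgroupOf (centralizer {a3})).Normal := k ▸ inferInstance
  refine ⟨n, Spor.Suz, inferInstance, Nat.finite_of_card_ne_zero (by rw [H13.Suz.card_eq]; norm_num),
    ⟨((QuotientGroup.quotientMulEquivOfEq k.symm).trans (QuotientGroup.quotientKerEquivOfSurjective σ s)).symm⟩, H13.Suz.simple,
    fun h => ?_, _, xt⟩
  obtain ⟨-, -, -, -, -, -, -, g, -, d⟩ := xt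
  exact d (by rw [h.is_comm.comm g, mul_inv_cancel_right])

end Cfsg.Agent.S5389
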