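import Mathlib
import Cfsg.Statements.S5392
import Cfsg.Agent.H14.Co0b

set_option autoImplicit false
open Cfsg

namespace Cfsg.Agent.S5392

/-- The Leech lattice modulo twice itself is a faithful irreducible module for the first Conway group: an automorphism of the rank-24 lattice built from the length-24 code that moves every lattice vector only by twice a lattice vector lies in the centre of the automorphism group (the centre consists of ±1, which act trivially there, so the kernel is exactly the centre), and an additive subgroup lying between twice the lattice and the lattice that is invariant under all lattice automorphisms is one of the two. -/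
theorem result : (∀ g : ↥Cfsg.Co0, (∀ v : ↥Cfsg.leechLattice, ∃ w : ↥Cfsg.leechLattice, ((g • v : ↥Cfsg.leechLattice) : Cfsg.GolayPt → ℤ) - (v : Cfsg.GolayPt → ℤ) = 2 • (w : Cfsg.GolayPt → ℤ)) → g ∈ Subgroup.center ↥Cfsg.Co0) ∧ ∀ M : AddSubgroup (Cfsg.GolayPt → ℤ), (∀ v ∈ Cfsg.leechLattice, (2 : ℤ) • v ∈ M) → M ≤ Cfsg.leechLattice → (∀ g : ↥Cfsg.Co0, ∀ v : ↥Cfsg.leechLattice, (v : Cfsg.GolayPt → ℤ) ∈ M → ((g • v : ↥Cfsg.leechLattice) : Cfsg.GolayPt → ℤ) ∈ M) → (∀ x ∈ M, ∃ w ∈ Cfsg.leechLattice, x = (2 : ℤ) • w) ∨ M = Cfsg.leechLattice := by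
  refine ⟨fun g hg => H14.mem_center_Co0.2 (H14.eq_one_or_neg_of_pm fun v hv => ?_), fun M h2 hM hinv => ?_⟩
  · obtain ⟨w, e⟩ := hg v
    rcases H14.leech_short_cong (g • v).2 v.2 w.2 (by rw [H14.co_norm]; omega) (by omega) e with a | a | a
    · exact Or.inl (Subtype.ext a)
    · exact Or.inr (Subtype.ext a)
    · omega
  rw [or_iff_not_imp_left]
  intro h
  push Not at h
  obtain ⟨x, hx, h⟩ := h
  obtain ⟨y, hy, hn, z, hz, e⟩ := H14.exists_short (hM hx)
  have hyM : y ∈ M := by
    have := M.sub_mem hx (h2 z hz)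
    rwa [two_zsmul, ← two_nsmul, ← e, sub_sub_cancel] at this
  have h0 : y ≠ 0 := by
    rintro rfl
    exact h z hz (by rw [two_zsmul, ← two_nsmul, ← e, sub_zero])
  have key : ∀ u : Cfsg.leechLattice, Cfsg.sqNorm (u : H14.V) = 32 → (u : H14.V) ∈ M → M = Cfsg.leechLattice := by
    intro u hu hm
    refine le_antisymm hM ?_
    rw [← H14.closure_min, AddSubgroup.closure_le]
    intro v hv
    obtain ⟨g, e⟩ := H14.min_trans (y := ⟨v, hv.1⟩) hu hv.2
    have := hinv g u hm
    rwa [e] at this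
  have h1 := H14.leech_min hy h0
  have h3 := H14.leech_norm hy
  obtain a | a | a : Cfsg.sqNorm y = 32 ∨ Cfsg.sqNorm y = 48 ∨ Cfsg.sqNorm y = 64 := by omega
  · exact key ⟨y, hy⟩ a hyM
  · obtain ⟨g, e⟩ := H14.t3_trans (x := ⟨y, hy⟩) a H14.norm_V
    obtain ⟨k, f⟩ := H14.t3_trans (x := ⟨y, hy⟩) (y := Spor.leechV + Spor.leechU') a (by decide +kernel)
    refine key _ H14.norm_U' ?_
    have := M.sub_mem (f ▸ hinv k _ hyM) (e ▸ hinv g _ hyM)
    rwa [AddSubgroup.coe_add, add_sub_cancel_left] at this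
  · obtain ⟨g, e⟩ := H14.t4_trans (x := ⟨y, hy⟩) (y := H14.v44 none (some 0) 1 + H14.v44 (some 1) (some 2) 1) a
      (by decide +kernel)
    obtain ⟨k, f⟩ := H14.t4_trans (x := ⟨y, hy⟩) (y := H14.v44 (some 3) (some 0) 1 + H14.v44 (some 1) (some 2) 1) a
      (by decide +kernel)
    refine key (H14.v44 none (some 3) (-1)) (by decide +kernel) ?_
    convert M.sub_mem (e ▸ hinv g _ hyM) (f ▸ hinv k _ hyM) using 1
    decide +kernel

end Cfsg.Agent.S5392
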