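import Mathlib
import Cfsg.Statements.S5548
import Cfsg.Agent.H14.GMod

set_option autoImplicit false
open Cfsg

namespace Cfsg.Agent.S5548

/-- For the automorphism group of the length-24 binary Golay code of the definitions (the Mathieu group of degree 24) acting on binary words of length 24 by permuting coordinates, the only invariant subspaces of the space of all words are: zero, the span of the all-ones word, the code itself, the even-weight words, and the whole space. (So the permutation module has a unique composition series.) -/
theorem result (W : Submodule (ZMod 2) (Cfsg.GolayPt → ZMod 2)) (hW : ∀ σ ∈ Cfsg.M24, ∀ w ∈ W, (fun p => w (σ.symm p)) ∈ W) : W = ⊥ ∨ W = Submodule.span (ZMod 2) {fun _ => (1 : ZMod 2)} ∨ W = Cfsg.golayCode ∨ (W : Set (Cfsg.GolayPt → ZMod 2)) = {w | ∑ p, w p = 0} ∨ W = ⊤ := by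
  have key : ∀ {X : Set (Finset GolayPt)} {V : Set (GolayPt → ZMod 2)}, {s | H14.ind s ∈ W} = X → (∀ s, H14.ind s ∈ V ↔ s ∈ X) →
      (W : Set (GolayPt → ZMod 2)) = V := fun h h' => H14.sub_ext fun s => (Set.ext_iff.1 h s).trans (h' s).symm
  refine (H14.inv_of_sub hW).cases.imp (fun h => SetLike.coe_injective (key h fun s => ?_)) (Or.imp (fun h => SetLike.coe_injective
    (key h H14.ind_mem_span_one)) (Or.imp (fun h => SetLike.coe_injective (key h fun s => H14.mem_Code_iff_ind.symm))
    (Or.imp (fun h => key h fun s => ?_) fun h => SetLike.coe_injective (key h fun s => iff_of_true trivial trivial))))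
  · exact ⟨fun h => H14.ind_inj (h.trans H14.ind_empty.symm), fun h => (congrArg _ h).trans H14.ind_empty⟩
  · have := H14.dot_ind s Finset.univ
    simp only [H14.ind_univ, mul_one, Finset.inter_univ] at this
    rw [Set.mem_ofPred_eq, this, ZMod.natCast_eq_zero_iff]; rfl

end Cfsg.Agent.S5548
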