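import Mathlib
import Cfsg.Statements.S5393
import Cfsg.Agent.S5548

set_option autoImplicit false
open Cfsg

namespace Cfsg.Agent.S5393

/-- The length-24 code built from the squares modulo 23 contains the all-ones word, and the code modulo the all-ones word is an irreducible module over the field with two elements for the code's automorphism group: a subspace of the code that contains the all-ones word and is invariant under every coordinate permutation preserving the code is either the span of the all-ones word or the whole code. -/
theorem result : (fun _ : Cfsg.GolayPt => (1 : ZMod 2)) ∈ Cfsg.golayCode ∧ ∀ W : Submodule (ZMod 2) (Cfsg.GolayPt → ZMod 2), (fun _ => (1 : ZMod 2)) ∈ W → W ≤ Cfsg.golayCode → (∀ σ ∈ Cfsg.M24, ∀ w ∈ W, (fun p => w (σ.symm p)) ∈ W) → W = Submodule.span (ZMod 2) {fun _ => (1 : ZMod 2)} ∨ W = Cfsg.golayCode := by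
  refine ⟨H14.ind_univ ▸ H14.mem_Code_iff_ind.1 H14.Code_univ, fun W h1 h2 h3 => ?_⟩
  have key : ∀ s : Finset GolayPt, s.card = 2 → H14.ind s ∉ W := fun s hs h => by
    have := H14.Code_card (H14.mem_Code_iff_ind.2 (h2 h)); omega
  have a := key {none, some 0} (by decide)
  rcases Cfsg.Agent.S5548.result W h3 with h | h | h | h | h
  · rw [h] at h1; exact absurd (congrFun h1 none) one_ne_zero
  · exact Or.inl h
  · exact Or.inr h
  · refine absurd (show _ ∈ (W : Set (GolayPt → ZMod 2)) from h ▸ ?_) a
    have := H14.dot_ind {none, some 0} (Finset.univ : Finset GolayPt)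
    simp only [H14.ind_univ, mul_one, Finset.inter_univ] at this
    exact this
  · exact absurd (h ▸ trivial) a

end Cfsg.Agent.S5393
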