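import Mathlib
import Cfsg.Statements.S5395
import Cfsg.Agent.H03.LX1

set_option autoImplicit false
open Cfsg

namespace Cfsg.Agent.S5395

/-- For a finite extraspecial 2-group E, an automorphism of E that induces the identity on E modulo its centre is inner (so these automorphisms form exactly the inner automorphism group, an elementary abelian 2-group of order |E|/2). -/
theorem result {E : Type*} [Group E] [Finite E] (hE : Cfsg.IsExtraspecial 2 E) (φ : E ≃* E) (hφ : ∀ x : E, φ x * x⁻¹ ∈ Subgroup.center E) : ∃ g : E, ∀ x : E, φ x = g * x * g⁻¹ := by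
  open BG H03 H04 Subgroup in
  obtain ⟨z, h, hc, -⟩ := exists_aes_of_isExtraspecial hE
  have hzc : ∀ r : E, z * r = r * z := fun r => ((h.commute (mem_zpowers z) (mem_top r)).eq).symm
  let A : Subgroup E := φ.toMonoidHom.eqLocus (MonoidHom.id E)
  have hA : ∀ r : E, r ∈ A ↔ φ r = r := fun r => Iff.rfl
  have k1 : ∀ r : E, r ∉ A → φ r = z * r := fun r e' => mul_inv_eq_iff_eq_mul.1
    ((h.eq_or (hc ▸ hφ r)).resolve_left fun e => e' ((hA r).2 (mul_inv_eq_one.1 e)))
  have hz : z ∈ A := by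
    by_contra e
    have := k1 z e
    rw [h.mul_self, map_eq_one_iff _ φ.injective] at this
    exact h.ne_one this
  by_cases h0 : A = ⊤
  · exact ⟨1, fun x => by simpa using (hA x).1 (h0 ▸ mem_top x)⟩
  have h2 : ¬ ⊤ ⊓ C_(A) ≤ C_((⊤ : Subgroup E)) := fun e => h0 (eq_top_iff.2 ((le_inf le_rfl (cent_symm e)).trans
    ((aes_dc h le_top).trans (sup_le le_rfl (by rw [inf_cent_top, hc]; exact zpowers_le.2 hz)))))
  obtain ⟨y, hy, hy'⟩ := SetLike.not_le_iff_exists.1 h2
  obtain ⟨q, e⟩ : ∃ q, ¬ Commute y q := by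
    by_contra! e
    exact hy' (mem_cent.2 fun q _ => (e q).eq.symm)
  have k2 : q ∉ A := fun e' => e (mem_cent.1 hy.2 q e').symm
  refine ⟨y, fun r => ?_⟩
  by_cases hr : r ∈ A
  · rw [(hA r).1 hr, ← mem_cent.1 hy.2 r hr, mul_inv_cancel_right]
  · have h3 : q⁻¹ * r ∈ A := by
      rw [hA, map_mul, map_inv, k1 q k2, k1 r hr]; group
    have h4 := mem_cent.1 hy.2 _ h3
    rw [k1 r hr]
    calc _ = q * z * (q⁻¹ * r) := by rw [← hzc q]; group
      _ = y * q * y⁻¹ * (y * (q⁻¹ * r)) * y⁻¹ := by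
        rw [← h4, aes_conj h (mem_top y) (mem_top q) e]; group
      _ = _ := by group

end Cfsg.Agent.S5395
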