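import Mathlib
import Cfsg.Statements.S5396
import Cfsg.Agent.H03.XG2

set_option autoImplicit false
open Cfsg

namespace Cfsg.Agent.S5396

/-- For every n ≥ 1 there exist finite extraspecial 2-groups of order 2^(2n+1) whose 2-rank (the largest rank of an elementary abelian subgroup) is n, and ones whose 2-rank is n + 1 (so for each such order there are two non-isomorphic extraspecial 2-groups, told apart by their 2-rank). -/
theorem result (n : ℕ) (hn : 1 ≤ n) : ∀ r ∈ ({n, n + 1} : Set ℕ), ∃ (E : Type) (_ : Group E) (_ : Finite E), Cfsg.IsExtraspecial 2 E ∧ Nat.card E = 2 ^ (2 * n + 1) ∧ sSup {k : ℕ | ∃ A : Subgroup E, Cfsg.IsElementaryAbelian 2 A ∧ Nat.card A = 2 ^ k} = r := by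
  open BG H03 H04 Subgroup in
  have k : ∀ (E : Type) [Group E] [Finite E] (r : ℕ), (∀ k, PRankLE 2 k E ↔ r ≤ k) → 1 ≤ r →
      sSup {k : ℕ | ∃ A : Subgroup E, IsElementaryAbelian 2 A ∧ Nat.card A = 2 ^ k} = r := fun E _ _ r h hr => by
    have h1 := pRankLE_iff'.1 ((h r).2 le_rfl)
    have h2 := mt (h (r - 1)).1 (by omega)
    rw [pRankLE_iff'] at h2
    push Not at h2
    obtain ⟨A, a1, a2⟩ := h2
    obtain ⟨j, hj⟩ := pg_card Nat.prime_two (H04.IsElementaryAbelian.isPGroup a1)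
    have h3 := h1 A a1
    rw [hj, Nat.pow_lt_pow_iff_right one_lt_two] at a2
    rw [hj, Nat.pow_le_pow_iff_right one_lt_two] at h3
    refine IsGreatest.csSup_eq ⟨⟨A, a1, by rw [hj, show j = r by omega]⟩, ?_⟩
    rintro i ⟨B, b1, b2⟩
    exact (Nat.pow_le_pow_iff_right one_lt_two).1 (b2 ▸ h1 B b1)
  obtain ⟨m, rfl⟩ : ∃ m, n = m + 1 := ⟨n - 1, by omega⟩
  rintro r (rfl | rfl)
  · have h := XG.extraspecial (Bm_nd (m := m))
    exact ⟨XG (Bm m), _, inferInstance, h, card_Bm, k _ _ (fun j => (pRankLE_iff_of_isExtraspecial h card_Bm j).2 sq_Bm) hn⟩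
  · have h := XG.extraspecial (Bp_nd (m := m + 1))
    exact ⟨XG (Bp (m + 1)), _, inferInstance, h, card_Bp, k _ _ (fun j => (pRankLE_iff_of_isExtraspecial h card_Bp j).1 sq_Bp) (by omega)⟩

end Cfsg.Agent.S5396
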