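import Mathlib
import Cfsg.Statements.S5401
import Cfsg.Agent.H13.O24

set_option autoImplicit false
open Cfsg

namespace Cfsg.Agent.S5401

/-- Existence of the Fischer 3-transposition groups: there exist finite groups generated by a conjugacy class of 3-transpositions on which they act primitively that are of type M(22), of type M(23), and of type M(24) respectively. -/
theorem result : (∃ (X : Type) (_ : Group X) (_ : Finite X) (E : Set X), Cfsg.IsThreeTranspositionClass E ∧ Cfsg.IsPrimitiveUnderConj E ∧ Cfsg.IsOfTypeM22 X E) ∧ (∃ (X : Type) (_ : Group X) (_ : Finite X) (E : Set X), Cfsg.IsThreeTranspositionClass E ∧ Cfsg.IsPrimitiveUnderConj E ∧ Cfsg.IsOfTypeM23 X E) ∧ (∃ (X : Type) (_ : Group X) (_ : Finite X) (E : Set X), Cfsg.IsThreeTranspositionClass E ∧ Cfsg.IsPrimitiveUnderConj E ∧ Cfsg.IsOfTypeM24 X E) := by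
  open H13 in
  exact ⟨⟨_, _, inferInstance, _, Fi22.tr3cls, Fi22.cls.prim Fi22.coatom, T22.type Fi22.t22 Fi22.center_eq⟩,
    ⟨_, _, inferInstance, _, Fi23.tr3cls, Fi23.cls.prim Fi23.coatom, T23.type Fi23.t23 Fi23.center_eq⟩,
    _, _, inferInstance, _, F24.tr3cls, F24.cls.prim F24.coatom, T24.type F24.t24 F24.closure_cls F24.center_eq⟩

end Cfsg.Agent.S5401
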