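import Mathlib
import Cfsg.Statements.S5402
import Cfsg.Agent.H29.Rec
import Cfsg.Agent.H13.O23

set_option autoImplicit false
open Cfsg

namespace Cfsg.Agent.S5402

/-- Let G be a finite group with an involution d whose centralizer C is quasisimple, such that C modulo the subgroup generated by d is of type M(22) with respect to some conjugacy class of 3-transpositions generating it, and also has an involution whose own centralizer is quasisimple with quotient by it isomorphic to the projective special unitary group of dimension 6 over the field with four elements and which is not weakly closed in its centralizer; and suppose some conjugate of d other than d commutes with d. Then the conjugacy class of d is a class of 3-transpositions generating G, and G with this class is of type M(23). -/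
theorem result {G : Type*} [Group G] [Finite G] (d : G) (hd : orderOf d = 2) (hq : Cfsg.IsQuasisimple (Subgroup.centralizer ({d} : Set G))) [((Subgroup.zpowers d).subgroupOf (Subgroup.centralizer ({d} : Set G))).Normal] (htype : ∃ E : Set ((Subgroup.centralizer ({d} : Set G)) ⧸ (Subgroup.zpowers d).subgroupOf (Subgroup.centralizer ({d} : Set G))), Cfsg.IsThreeTranspositionClass E ∧ Cfsg.IsOfTypeM22 _ E) (hinvol : ∃ d' : (Subgroup.centralizer ({d} : Set G)) ⧸ (Subgroup.zpowers d).subgroupOf (Subgroup.centralizer ({d} : Set G)), orderOf d' = 2 ∧ Cfsg.IsQuasisimple (Subgroup.centralizer ({d'} : Set _)) ∧ (∃ (K : Type) (_ : Field K) (_ : Fintype K), Fintype.card K = 4 ∧ ∃ _ : ((Subgroup.zpowers d').subgroupOf (Subgroup.centralizer ({d'} : Set _))).Normal, Nonempty ((Subgroup.centralizer ({d'} : Set _)) ⧸ (Subgroup.zpowers d').subgroupOf (Subgroup.centralizer ({d'} : Set _)) ≃* Cfsg.PSU 6 K 2)) ∧ ∃ g, g * d' * g⁻¹ ∈ Subgroup.centralizer ({d'} : Set _) ∧ g * d' * g⁻¹ ≠ d') (hnwc : ∃ g : G, g * d * g⁻¹ ∈ Subgroup.centralizer ({d}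 : Set G) ∧ g * d * g⁻¹ ≠ d) : Cfsg.IsThreeTranspositionClass (conjugatesOf d) ∧ Cfsg.IsOfTypeM23 G (conjugatesOf d) := by
  obtain ⟨d', h0, q, ⟨K, _, _, hK, _, ⟨e'⟩⟩, w⟩ := hinvol
  obtain ⟨T, hT, h1, h2⟩ := H29.exists_psu K hK (n := 6) (by norm_num)
  obtain ⟨a', b', c'⟩ := H29.rec22 (by rw [← sq, ← h0, pow_orderOf_eq_one]) (fun q => by simp [q] at h0)
    ((H29.ext2_centralizer h0).comp e') (by simp [Subgroup.mem_subgroupOf])
    q.1.commutator_eq_top w hT h1 h2
  obtain ⟨e, -⟩ := H13.T22.model a' b' c'
  obtain ⟨a, b, c⟩ := H29.rec23 (by rw [← sq, ← hd, pow_orderOf_eq_one]) (fun q => by simp [q] at hd)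
    ((H29.ext2_centralizer hd).comp e) (by simp [Subgroup.mem_subgroupOf])
    hq.1.commutator_eq_top hnwc
  exact ⟨⟨a.1.tts, ⟨d, mem_conjugatesOf_self, rfl⟩, b⟩, H13.T23.type a c⟩

end Cfsg.Agent.S5402
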