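import Mathlib
import Cfsg.Statements.S5405
import Cfsg.Agent.H04.OH1
import Cfsg.Agent.H10.Quad2

set_option autoImplicit false
open scoped MatrixGroups
open Cfsg

namespace Cfsg.Agent.S5405

theorem hB {V : Type} [AddCommGroup V] [Module (ZMod 2) V] (Q : QuadraticForm (ZMod 2) V) (x y : V) :
    (H10.Form.ofQuad Q).B x y = Q (x + y) - Q x - Q y := rfl

theorem hQ {V : Type} [AddCommGroup V] [Module (ZMod 2) V] (Q : QuadraticForm (ZMod 2) V) (x : V) :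
    (H10.Form.ofQuad Q).Q x = Q x := rfl

set_option synthInstance.maxSize 4000 in
/-- Vanishing of first cohomology on the natural module for three small orthogonal groups over the field with two elements: for the commutator subgroup of the isometry group of the elliptic quadratic form in dimension 4, of the elliptic form in dimension 6, and of the hyperbolic form in dimension 8, every crossed homomorphism into the natural module (a map f with f(gh) = f(g) + g·f(h)) is principal (of the form g ↦ g·v − v). -/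
theorem result : (∀ f : ↥(Cfsg.Omega (ZMod 2) (Cfsg.quadFormMinus 1 (ZMod 2) 1 1)) → ((Fin 1 ⊕ Fin 1) ⊕ Fin 2 → ZMod 2), (∀ g h : ↥(Cfsg.Omega (ZMod 2) (Cfsg.quadFormMinus 1 (ZMod 2) 1 1)), f (g * h) = f g + Matrix.mulVec (((g : ↥(Cfsg.isometryGroup (ZMod 2) (Cfsg.quadFormMinus 1 (ZMod 2) 1 1))) : GL ((Fin 1 ⊕ Fin 1) ⊕ Fin 2) (ZMod 2)) : Matrix ((Fin 1 ⊕ Fin 1) ⊕ Fin 2) ((Fin 1 ⊕ Fin 1) ⊕ Fin 2) (ZMod 2)) (f h)) → ∃ v : (Fin 1 ⊕ Fin 1) ⊕ Fin 2 → ZMod 2, ∀ g : ↥(Cfsg.Omega (ZMod 2) (Cfsg.quadFormMinus 1 (ZMod 2) 1 1)), f g = Matrix.mulVec (((g : ↥(Cfsg.isometryGroup (ZMod 2) (Cfsg.quadFormMinus 1 (ZMod 2) 1 1))) : GL ((Fin 1 ⊕ Fin 1) ⊕ Fin 2) (ZMod 2)) : Matrix ((Fin 1 ⊕ Fin 1) ⊕ Fin 2) ((Fin 1 ⊕ Fin 1) ⊕ Fin 2) (ZMod 2)) v - v) ∧ (∀ f : ↥(Cfsg.Omega (ZMod 2) (Cfsg.quadFormMinus 2 (ZMod 2) 1 1)) → ((Fin 2 ⊕ Fin 2) ⊕ Fin 2 → ZMod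 2), (∀ g h : ↥(Cfsg.Omega (ZMod 2) (Cfsg.quadFormMinus 2 (ZMod 2) 1 1)), f (g * h) = f g + Matrix.mulVec (((g : ↥(Cfsg.isometryGroup (ZMod 2) (Cfsg.quadFormMinus 2 (ZMod 2) 1 1))) : GL ((Fin 2 ⊕ Fin 2) ⊕ Fin 2) (ZMod 2)) : Matrix ((Fin 2 ⊕ Fin 2) ⊕ Fin 2) ((Fin 2 ⊕ Fin 2) ⊕ Fin 2) (ZMod 2)) (f h)) → ∃ v : (Fin 2 ⊕ Fin 2) ⊕ Fin 2 → ZMod 2, ∀ g : ↥(Cfsg.Omega (ZMod 2) (Cfsg.quadFormMinus 2 (ZMod 2) 1 1)), f g = Matrix.mulVec (((g : ↥(Cfsg.isometryGroup (ZMod 2) (Cfsg.quadFormMinus 2 (ZMod 2) 1 1))) : GL ((Fin 2 ⊕ Fin 2) ⊕ Fin 2) (ZMod 2)) : Matrix ((Fin 2 ⊕ Fin 2) ⊕ Fin 2) ((Fin 2 ⊕ Fin 2) ⊕ Fin 2) (ZMod 2)) v - v) ∧ (∀ f : ↥(Cfsg.Omega (ZMod 2) (Cfsg.quadFormPlus 4 (ZMod 2))) → (Fin 4 ⊕ Fin 4 → ZMod 2), (∀ g h : ↥(Cfsg.Omega (ZMod 2) (Cfsg.quadFormPlus 4 (ZMod 2))), f (g * h) = f g + Matrix.mulVec (((g : ↥(Cfsg.isometryGroup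 (ZMod 2) (Cfsg.quadFormPlus 4 (ZMod 2)))) : GL (Fin 4 ⊕ Fin 4) (ZMod 2)) : Matrix (Fin 4 ⊕ Fin 4) (Fin 4 ⊕ Fin 4) (ZMod 2)) (f h)) → ∃ v : Fin 4 ⊕ Fin 4 → ZMod 2, ∀ g : ↥(Cfsg.Omega (ZMod 2) (Cfsg.quadFormPlus 4 (ZMod 2))), f g = Matrix.mulVec (((g : ↥(Cfsg.isometryGroup (ZMod 2) (Cfsg.quadFormPlus 4 (ZMod 2)))) : GL (Fin 4 ⊕ Fin 4) (ZMod 2)) : Matrix (Fin 4 ⊕ Fin 4) (Fin 4 ⊕ Fin 4) (ZMod 2)) v - v) := by
  open H10 H04.OH in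
  refine ⟨?_, ?_, ?_⟩
  · have := qMinus_nondeg (m := 1) (F := ZMod 2) (a := 1) (b := 1) (by decide)
    refine br (qMinus 1 (ZMod 2) 1 1) fun F hF => four (Form.isQuad_ofQuad _) (Form.good_of_not_hasTS
      (qMinus_not_hasTS (by decide) (by decide))) (by simp) (a := Sum.elim (Sum.elim ![0] ![0]) ![1, 0])
      (b := Sum.elim (Sum.elim ![0] ![0]) ![0, 1]) (c := Sum.elim (Sum.elim ![1] ![0]) ![1, 0])
      (e := Sum.elim (Sum.elim ![1] ![1]) ![0, 0]) ?_ ?_ ?_ ?_ ?_ ?_ ?_ hF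
    all_goals
      simp only [Mi, H04.OH.Or, D, hB, hQ, coe_qMinus]
      decide +kernel
  · have := qMinus_nondeg (m := 2) (F := ZMod 2) (a := 1) (b := 1) (by decide)
    refine br (qMinus 2 (ZMod 2) 1 1) fun F hF => main (Form.isQuad_ofQuad _) ((Form.isQuad_ofQuad _).good_of_finrank (by simp)) (by simp)
      (l := [(Sum.elim (Sum.elim ![1, 0] ![1, 0]) ![0, 0], Sum.elim (Sum.elim ![1, 1] ![0, 1]) ![0, 0]),
        (Sum.elim (Sum.elim ![1, 1] ![1, 0]) ![0, 0], Sum.elim (Sum.elim ![1, 0] ![1, 1]) ![0, 0]),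
        (Sum.elim (Sum.elim ![0, 0] ![0, 0]) ![1, 0], Sum.elim (Sum.elim ![0, 0] ![0, 0]) ![0, 1])])
      ?_ List.mem_cons_self ?_ ?_ hF
    all_goals
      simp only [Gd, List.forall_mem_cons, List.pairwise_cons, List.not_mem_nil, false_imp_iff, implies_true, List.Pairwise.nil, Mi, H04.OH.Or, hB, hQ, coe_qMinus]
      decide +kernel
  · refine br (qPlus 4 (ZMod 2)) fun F hF => main (Form.isQuad_ofQuad _) ((Form.isQuad_ofQuad _).good_of_finrank (by simp)) (by simp)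
      (l := [(Sum.elim ![1, 0, 0, 0] ![1, 0, 0, 0], Sum.elim ![1, 1, 0, 0] ![0, 1, 0, 0]),
        (Sum.elim ![1, 1, 0, 0] ![1, 0, 0, 0], Sum.elim ![1, 0, 0, 0] ![1, 1, 0, 0]),
        (Sum.elim ![0, 0, 1, 0] ![0, 0, 1, 0], Sum.elim ![0, 0, 1, 1] ![0, 0, 0, 1]),
        (Sum.elim ![0, 0, 1, 1] ![0, 0, 1, 0], Sum.elim ![0, 0, 1, 0] ![0, 0, 1, 1])])
      ?_ List.mem_cons_self ?_ ?_ hF
    all_goals
      simp only [Gd, List.forall_mem_cons, List.pairwise_cons, List.not_mem_nil, false_imp_iff, implies_true, List.Pairwise.nil, Mi, H04.OH.Or, hB, hQ, coe_qPlus]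
      decide +kernel

end Cfsg.Agent.S5405
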