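import Mathlib
import Cfsg.Statements.S5420
import Cfsg.Agent.H03.LX1

set_option autoImplicit false
open Cfsg

namespace Cfsg.Agent.S5420

/-- Let Q be an extraspecial 2-subgroup of the finite group G whose centralizer in G is its centre Z and which is normal in the centralizer of Z. If Z lies in the largest normal 2-subgroup of G, then Q is a large extraspecial 2-subgroup of G: it normalizes no non-trivial subgroup of G of odd order. -/
theorem result {G : Type*} [Group G] [Finite G] (Q : Subgroup G) (hL1 : Cfsg.IsExtraspecial 2 ↥Q) (hL2 : Subgroup.centralizer (Q : Set G) = ((Subgroup.center ↥Q).map Q.subtype)) (hL3 : Subgroup.centralizer (((Subgroup.center ↥Q).map Q.subtype) : Set G) ≤ Subgroup.normalizer (Q : Set G)) (hZ : ((Subgroup.center ↥Q).map Q.subtype) ≤ Cfsg.pCore 2 G) : Cfsg.IsLargeExtraspecial Q := by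
  open BG H03 H04 Subgroup in
  obtain ⟨z, h, e, hne⟩ := es_of hL1 hL2 hL3
  refine ⟨hL1, hL2, hL3, fun K hK hQ => ?_⟩
  have hzO : z ∈ Cfsg.pCore 2 G := hZ (e ▸ mem_zpowers z)
  have hd : K ⊓ Cfsg.pCore 2 G = ⊥ :=
    BG.inf_eq_bot_of_coprime (pg_coprime Nat.prime_two (H02.pCore_isPGroup 2 G) hK.not_two_dvd_nat).symm
  have h1 : K ≤ C_[z] := by
    rw [← cent_zpowers]
    refine comm_eq_bot.1 (eq_bot_mono hd (le_inf ?_ ?_))
    · exact comm_le_left ((zpowers_le.2 h.aes.mem).trans hQ)
    · exact (comm_mono le_top (zpowers_le.2 hzO)).trans (comm_le_right (by rw [normalizer_eq_top]))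
  have := h.odd_inf hK hQ
  rwa [inf_eq_left.2 h1] at this

end Cfsg.Agent.S5420
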