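import Mathlib
import Cfsg.Statements.S5421
import Cfsg.Agent.H03.LX1

set_option autoImplicit false
open Cfsg

namespace Cfsg.Agent.S5421

/-- Let Q be an extraspecial 2-subgroup of the finite group G whose centralizer in G is its centre Z and which is normal in the centralizer of Z. If some involution b of Q outside Z has Z inside the largest normal 2-subgroup of the centralizer of b, then Q is a large extraspecial 2-subgroup of G. -/
theorem result {G : Type*} [Group G] [Finite G] (Q : Subgroup G) (hL1 : Cfsg.IsExtraspecial 2 ↥Q) (hL2 : Subgroup.centralizer (Q : Set G) = ((Subgroup.center ↥Q).map Q.subtype)) (hL3 : Subgroup.centralizer (((Subgroup.center ↥Q).map Q.subtype) : Set G) ≤ Subgroup.normalizer (Q : Set G)) (b : G) (hbQ : b ∈ Q) (hbZ : b ∉ ((Subgroup.center ↥Q).map Q.subtype)) (hb : orderOf b = 2) (hZ : ((Subgroup.center ↥Q).map Q.subtype) ≤ (Cfsg.pCore 2 ↥(Subgroup.centralizer ({b} : Set G))).map (Subgroup.centralizer ({b} : Set G)).subtype) : Cfsg.IsLargeExtraspecial Q := by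
  open BG H03 in
  obtain ⟨z, h, e, hne⟩ := es_of hL1 hL2 hL3
  rw [e] at hbZ hZ
  exact h.isLarge hne fun A hA hQ => h.large hbQ (by rw [← pow_two, ← hb, pow_orderOf_eq_one]) hbZ
    (H02.pCoreOf_isPGroup _) (Subgroup.zpowers_le.1 hZ) (H02.le_normalizer_pCoreOf _) hA hQ

end Cfsg.Agent.S5421
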