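import Mathlib
import Cfsg.Statements.S5423
import Cfsg.Agent.H09.TvCent
import Cfsg.Agent.H04.ElemAb

set_option autoImplicit false
open Cfsg

namespace Cfsg.Agent.S5423

open Matrix H09 in

/-- Let G be a finite group that is the split extension of an elementary abelian normal subgroup U of order 2^(n+1), n ≥ 1, by its full automorphism group: U has a complement M in G whose conjugation action on U is faithful and realizes every automorphism of U. Let Z be a subgroup of U of order 2 and Q the largest normal 2-subgroup of the centralizer C of Z. Then Q is extraspecial of order 2^(2n+1) with an elementary abelian subgroup of order 2^(n+1) (plus type), Q is a large extraspecial 2-subgroup of G, and C is the split extension of Q by the general linear group of degree n over the field with two elements. -/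
theorem result {G : Type*} [Group G] [Finite G] (n : ℕ) (hn : 1 ≤ n) (U M : Subgroup G) [U.Normal] (hU : Cfsg.IsElementaryAbelian 2 U) (hUcard : Nat.card ↥U = 2 ^ (n + 1)) (hUM : U ⊓ M = ⊥) (hUM' : U ⊔ M = ⊤) (hfaith : ∀ m ∈ M, (∀ u ∈ U, m * u * m⁻¹ = u) → m = 1) (hfull : ∀ φ : ↥U ≃* ↥U, ∃ m ∈ M, ∀ u : ↥U, ((φ u : ↥U) : G) = m * u * m⁻¹) (Z : Subgroup G) (hZU : Z ≤ U) (hZ : Nat.card ↥Z = 2) (Q : Subgroup G) (hQ : Q = (Cfsg.pCore 2 ↥(Subgroup.centralizer (Z : Set G))).map (Subgroup.centralizer (Z : Set G)).subtype) : Cfsg.IsExtraspecial 2 ↥Q ∧ Nat.card ↥Q = 2 ^ (2 * n + 1) ∧ (∃ E : Subgroup G, E ≤ Q ∧ Cfsg.IsElementaryAbelian 2 E ∧ Nat.card ↥E = 2 ^ (n + 1)) ∧ Cfsg.IsLargeExtraspecial Q ∧ ∃ K : Subgroup G, K ≤ Subgroup.centralizer (Z : Set G) ∧ Q ⊓ K = ⊥ ∧ Q ⊔ K = Subgroup.centralizer (Z : Set G) ∧ Nonempty (↥K ≃* Matrix.GeneralLinearGroup (Fin n) (ZMod 2)) := by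
  have two : ∀ c : ZMod 2, c ≠ 0 → c = 1 := by decide
  obtain ⟨E⟩ := H04.exists_mulEquiv_pi (p := 2) (G := U) hU.1
    (fun x => Subtype.ext (hU.2 x x.2)) hUcard
  obtain ⟨⟨z, hzZ⟩, hz1, hz⟩ := (Nat.card_eq_two_iff' (1 : Z)).1 hZ
  replace hz1 : z ≠ 1 := fun h => hz1 (Subtype.ext h)
  have hx0 : (E ⟨z, hZU hzZ⟩).toAdd ≠ 0 := fun h => hz1 (congrArg Subtype.val
    (E.injective (a₁ := ⟨z, hZU hzZ⟩) (a₂ := 1) (by rw [map_one]; exact h)))
  obtain ⟨c, d, φ, hφ, -, hL⟩ := exists_glTv_map (W := ⊥) (u := Pi.single 0 1)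
    (v := (E ⟨z, hZU hzZ⟩).toAdd) (by simpa using Aff.e₀_ne) (by simpa using hx0)
  rw [two c (fun h => hx0 (by rw [hL, h, zero_smul])), one_smul] at hL
  let L : (Fin (n + 1) → ZMod 2) ≃ₗ[ZMod 2] (Fin (n + 1) → ZMod 2) :=
    LinearMap.GeneralLinearGroup.generalLinearEquiv _ _ (GeneralLinearGroup.toLin (glTv d φ hφ))
  let E' : Multiplicative (Fin (n + 1) → ZMod 2) ≃* U :=
    (AddEquiv.toMultiplicative L.toAddEquiv).trans E.symm
  have hE' : E' (Multiplicative.ofAdd (Pi.single 0 1)) = ⟨z, hZU hzZ⟩ := by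
    rw [MulEquiv.trans_apply, MulEquiv.symm_apply_eq]
    exact congrArg Multiplicative.ofAdd hL.symm
  clear_value E'
  let e : (Fin (n + 1) → ZMod 2) → G := fun x => E' (Multiplicative.ofAdd x)
  have he : ∀ u ∈ U, ∃ x, u = e x := fun u hu => ⟨(E'.symm ⟨u, hu⟩).toAdd, by simp [e]⟩
  have einj : Function.Injective e := fun x y h =>
    Multiplicative.ofAdd.injective (E'.injective (Subtype.ext h))
  have h1 : ∀ A : Matrix.SpecialLinearGroup (Fin (n + 1)) (ZMod 2), ∃ m ∈ M,
      ∀ x, e x * m = m * e (x ᵥ* A.1) := fun A => by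
    let ψ : (Fin (n + 1) → ZMod 2) ≃+ (Fin (n + 1) → ZMod 2) :=
      { toFun := fun x => x ᵥ* (A⁻¹).1
        invFun := fun x => x ᵥ* A.1
        left_inv := fun x => by simp only [vecMul_vecMul, sl_inv_mul, vecMul_one]
        right_inv := fun x => by simp only [vecMul_vecMul, sl_mul_inv, vecMul_one]
        map_add' := fun x y => add_vecMul _ _ _ }
    obtain ⟨m, hm, h⟩ := hfull (E'.symm.trans ((AddEquiv.toMultiplicative ψ).trans E'))
    refine ⟨m, hm, fun x => ?_⟩
    have := h (E' (Multiplicative.ofAdd (x ᵥ* A.1)))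
    rw [MulEquiv.trans_apply, MulEquiv.symm_apply_apply, eq_mul_inv_iff_mul_eq] at this
    refine Eq.trans ?_ this
    change _ = e (x ᵥ* A.1 ᵥ* (A⁻¹).1) * m
    rw [vecMul_vecMul, sl_mul_inv, vecMul_one]
  have h2 : ∀ (A : Matrix (Fin (n + 1)) (Fin (n + 1)) (ZMod 2)), ∀ m ∈ M, ∀ m' ∈ M,
      (∀ x, e x * m = m * e (x ᵥ* A)) → (∀ x, e x * m' = m' * e (x ᵥ* A)) → m = m' := by
    intro A m hm m' hm' h h'
    rw [← mul_inv_eq_one]
    refine hfaith _ (mul_mem hm (inv_mem hm')) fun u hu => ?_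
    obtain ⟨x, rfl⟩ := he u hu
    calc m * m'⁻¹ * e x * (m * m'⁻¹)⁻¹ = m * m'⁻¹ * (e x * m') * m⁻¹ := by group
      _ = m * e (x ᵥ* A) * m⁻¹ := by rw [h']; group
      _ = e x := by rw [← h]; group
  choose θ hθM hθ using h1
  have h3 : ∀ g : G, ∃ A : Matrix (Fin (n + 1)) (Fin (n + 1)) (ZMod 2),
      ∀ x, e x * g = g * e (x ᵥ* A) := fun g => by
    let f : (Fin (n + 1) → ZMod 2) →+ (Fin (n + 1) → ZMod 2) :=
      MonoidHom.toAdditive (E'.symm.toMonoidHom.comp
        ((MulAut.conjNormal (H := U) g⁻¹).toMonoidHom.comp E'.toMonoidHom))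
    refine ⟨toLinearMapRight'.symm (f.toZModLinearMap 2), fun x => ?_⟩
    have : x ᵥ* toLinearMapRight'.symm (f.toZModLinearMap 2) = f x := by
      rw [← toLinearMapRight'_apply, LinearEquiv.apply_symm_apply]; rfl
    rw [this]
    change _ = g * (E' (E'.symm (MulAut.conjNormal (H := U) g⁻¹ (E' (Multiplicative.ofAdd x)))) : G)
    rw [MulEquiv.apply_symm_apply, MulAut.conjNormal_apply]
    simp [e, mul_assoc]
  let a : Aff n G :=
    { e := e
      θ := MonoidHom.mk' θ fun A B => h2 (A * B).1 _ (hθM _) _ (mul_mem (hθM _) (hθM _)) (hθ _)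
        fun x => by rw [← mul_assoc, hθ, mul_assoc, hθ, vecMul_vecMul, mul_assoc]; rfl
      e_add := fun x y => by simp [e]
      e_inj := einj
      rel := hθ
      cent := fun _ _ g _ => by
        have hg : g ∈ ((M ⊔ U : Subgroup G) : Set G) := by rw [sup_comm, hUM']; trivial
        rw [Subgroup.mul_normal] at hg
        obtain ⟨m, hm, u, hu, rfl⟩ := hg
        obtain ⟨y, rfl⟩ := he u hu
        obtain ⟨A, hA⟩ := h3 m
        obtain ⟨B, hB⟩ := h3 m⁻¹
        have hAB : A * B = 1 := toLinearMapRight'.injective (LinearMap.ext fun x => einj (by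
          rw [toLinearMapRight'_apply, toLinearMapRight'_apply, vecMul_one, ← vecMul_vecMul]
          have := hB (x ᵥ* A)
          rw [← mul_right_inj m, ← mul_assoc, ← hA] at this
          simpa using this.symm))
        have hd : A.det = 1 := two _ fun h => by
          have := congrArg det hAB
          simp [h] at this
        exact ⟨⟨A, hd⟩, y, congrArg (· * e y) (h2 A _ hm _ (hθM ⟨A, hd⟩) hA (hθ ⟨A, hd⟩))⟩ }
  have hC : Subgroup.centralizer (Z : Set G) = Subgroup.centralizer {a.e (Pi.single 0 1)} := by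
    have : a.e (Pi.single 0 1) = z := congrArg Subtype.val hE'
    rw [this]
    refine le_antisymm (Subgroup.centralizer_le (by simpa using hzZ)) fun g hg w hw => ?_
    by_cases h : w = 1
    · simp [h]
    · obtain rfl : w = z := congrArg Subtype.val (hz ⟨w, hw⟩ fun h' => h (congrArg Subtype.val h'))
      exact hg w rfl
  obtain ⟨g1, g2, g3, g4, K, g5, g6, g7, ⟨g8⟩⟩ := a.main hn hC hQ
  exact ⟨g1, g2, g3, g4, K, g5, g6, g7, ⟨g8.trans (MulEquiv.ofBijective _ toGL_bijective_two)⟩⟩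

end Cfsg.Agent.S5423
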