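import Mathlib
import Cfsg.Statements.S5426
import Cfsg.Agent.H03.LX4

set_option autoImplicit false
open Cfsg

namespace Cfsg.Agent.S5426

/-- Let Q be a large extraspecial 2-subgroup of the finite group G (extraspecial; centralizer equal to its centre; normal in the centralizer of its centre; normalizing no non-trivial subgroup of odd order) with centre generated by z, and let M be the normal closure of z in G. Then one of the following holds: Q is normal in G; or M is abelian and the generalized Fitting subgroup of G is its largest normal 2-subgroup; or M is the generalized Fitting subgroup of G and is a non-abelian simple group; or M is the generalized Fitting subgroup of G and is the direct product of a non-abelian simple subgroup L and its conjugate u L u⁻¹ by some u in Q (the two meet trivially and commute elementwise), with z = z₁ (u z₁ u⁻¹) for some z₁ in L whose centralizer in L is a Sylow 2-subgroup of L with Frattini subgroup inside the subgroup generated by z₁, and Q is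 not the largest normal 2-subgroup of the centralizer of z. -/
theorem result {G : Type*} [Group G] [Finite G] (Q : Subgroup G) (hQ : Cfsg.IsLargeExtraspecial Q) (z : G) (hz : ((Subgroup.center ↥Q).map Q.subtype) = Subgroup.zpowers z) (M : Subgroup G) (hM : M = Subgroup.normalClosure ({z} : Set G)) : Q.Normal ∨ (IsMulCommutative ↥M ∧ Cfsg.generalizedFittingSubgroup G = Cfsg.pCore 2 G) ∨ (M = Cfsg.generalizedFittingSubgroup G ∧ IsSimpleGroup ↥M ∧ ¬ IsMulCommutative ↥M) ∨ (M = Cfsg.generalizedFittingSubgroup G ∧ ∃ (L : Subgroup G) (u : G), u ∈ Q ∧ IsSimpleGroup ↥L ∧ ¬ IsMulCommutative ↥L ∧ L ⊓ (L).map (MulAut.conj u).toMonoidHom = ⊥ ∧ (∀ x ∈ L, ∀ y ∈ (L).map (MulAut.conj u).toMonoidHom, x * y = y * x) ∧ L ⊔ (L).map (MulAut.conj u).toMonoidHom = M ∧ ∃ z₁ ∈ L, z = z₁ * (u * z₁ * u⁻¹) ∧ (∃ R : Sylow 2 ↥L, (R : Subgroup ↥L) = (Subgroup.centralizer ({z₁} : Set G)).subgroupOf L ∧ (frattini ↥(R : Subgroup ↥L)).map ((L.subtype).comp (R : Subgroup ↥L).subtype) ≤ Subgroup.zpowers z₁) ∧ Q ≠ (Cfsg.pCore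 2 ↥(Subgroup.centralizer ({z} : Set G))).map (Subgroup.centralizer ({z} : Set G)).subtype) := by
  open BG H03 H04 Subgroup in
  obtain ⟨h, hne⟩ := es_of_large hQ hz
  have h4 : L4 Q := hQ.2.2.2
  subst hM
  by_cases hE : layer G = ⊥
  · exact Or.inr (Or.inl ⟨abelian_of_le (abelian_center _) (h.no_comp h4 hE).2, (h.no_comp h4 hE).1⟩)
  obtain ⟨L, hL⟩ : ∃ L : Subgroup G, IsComponent L := by simpa [H22.layer_eq_bot_iff] using hE
  have h1 := h.ncl_eq h4 hL
  have h2 := simple_of_comp hL (h.comp_center h4 hL)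
  have h3 := H22.qs_not_comm hL.2
  have h5 := h1.trans (h.fstar_eq h4 hL).symm
  by_cases e : ∀ q ∈ Q, cj q L = L
  · have h6 : normalClosure {z} = L := h1.trans (le_antisymm (H22.layer_le_iff.2 fun M hM => by
      obtain ⟨q, hq, rfl⟩ := h.comp_trans h4 hL hM
      exact (e q hq).le) (H22.le_layer hL))
    exact Or.inr (Or.inr (Or.inl ⟨h5, by rw [h6]; exact h2, by rw [h6]; exact h3⟩))
  push Not at e
  obtain ⟨u, hu, e⟩ := e
  obtain ⟨w, hw, k1, k2, k3, k4, k5⟩ := h.two_comp h4 hL hu e
  have c1 : cj u L ≤ C_(L) := comm_eq_bot.1 (H22.comp_comm_of_ne (cj_eq_map u L ▸ H22.comp_conj hL u) hL e)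
  obtain ⟨T, hT⟩ := k3.exists_sylow Nat.prime_two
  refine Or.inr (Or.inr (Or.inr ⟨h5, L, u, hu, h2, h3, ?_, fun x hx y hy => mem_cent.1 (c1 (cj_eq_map u L ▸ hy)) x hx, ?_,
    w, hw, k2, ⟨T, ?_, ?_⟩, k5⟩))
  · exact eq_bot_mono (h.comp_center h4 hL) (inf_le_inf_left _ (cj_eq_map u L ▸ c1))
  · rw [← cj_eq_map, k1, h1]
  · rw [← comap_map_eq_self_of_injective L.subtype_injective (T : Subgroup L), hT, ← inf_subgroupOf_left]; rfl
  · rw [map_le_iff_le_comap, frattini_two T.2, closure_le]
    rintro _ ⟨x, rfl⟩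
    exact show ((x ^ 2 : T) : G) ∈ zpowers w by simpa [pow_two] using k4 _ (hT ▸ mem_map_of_mem _ x.2)

end Cfsg.Agent.S5426
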