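import Mathlib
import Cfsg.Statements.S5427
import Cfsg.Agent.H03.LX4

set_option autoImplicit false
open Cfsg

namespace Cfsg.Agent.S5427

/-- Let z be an involution of the finite group G whose centralizer C has generalized Fitting subgroup Q, an extraspecial 2-group of width at least 2 (order 2^(2w+1), w ≥ 2). Let K be a subgroup of G such that the subgroup U generated by the K-conjugates of z is abelian and C is generated by the C-conjugates of U. Suppose that either some K-conjugate of z other than z lies in Q, or some element u of U ∩ Q outside the subgroup generated by z has z in the largest normal 2-subgroup of its centralizer. Then G is simple and Q is a large extraspecial 2-subgroup of G. -/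
theorem result {G : Type*} [Group G] [Finite G] (z : G) (hz : orderOf z = 2) (Q : Subgroup G) (hQC : Q ≤ Subgroup.centralizer ({z} : Set G)) (hF : (Cfsg.generalizedFittingSubgroup ↥(Subgroup.centralizer ({z} : Set G))).map (Subgroup.centralizer ({z} : Set G)).subtype = Q) (hQ : Cfsg.IsExtraspecial 2 ↥Q) (w : ℕ) (hw : 2 ≤ w) (hcard : Nat.card ↥Q = 2 ^ (2 * w + 1)) (K U : Subgroup G) (hU : U = Subgroup.closure {x : G | ∃ k ∈ K, x = k * z * k⁻¹}) (hUab : IsMulCommutative ↥U) (hgen : Subgroup.closure {x : G | ∃ c ∈ Subgroup.centralizer ({z} : Set G), ∃ u ∈ U, x = c * u * c⁻¹} = Subgroup.centralizer ({z} : Set G)) (h3 : (∃ k ∈ K, k * z * k⁻¹ ∈ Q ∧ k * z * k⁻¹ ≠ z) ∨ ∃ u ∈ U ⊓ Q, u ∉ Subgroup.zpowers z ∧ (∃ hz' : z ∈ Subgroup.centralizer ({u} : Set G), (⟨z, hz'⟩ : ↥(Subgroup.centralizer ({u} : Set G))) ∈ Cfsg.pCore 2 ↥(Subgroup.centralizer ({u} : Set G)))) : IsSimpleGroup G ∧ Cfsg.IsLargeExtraspecial Q := by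
  open BG H03 H04 Subgroup in
  obtain ⟨h, -, hne⟩ := es_of_fstar hQ hz hF
  have h4 : L4 Q := fun A hA hn => by
    rcases h3 with ⟨k, -, h1, h2⟩ | ⟨u, hu, h1, h2, h5⟩
    · refine h.large' h1 h2 ?_ hA hn
      rw [hcard]
      exact Nat.pow_lt_pow_right one_lt_two (show 3 < 2 * w + 1 by omega)
    · refine h.large hu.2 ?_ h1 (H02.pCoreOf_isPGroup C_[u]) ⟨_, h5, rfl⟩ (H02.le_normalizer_pCoreOf _) hA hn
      have h6 : u ∈ closure {x : G | ∃ k ∈ K, x = k * z * k⁻¹} := hU.le hu.1
      clear hu h1 h2 h5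
      induction h6 using closure_induction with
      | mem x hx => obtain ⟨k, -, rfl⟩ := hx; exact h.lx.conj_sq k
      | one => simp
      | mul a b ha hb h1 h2 =>
        rw [(show Commute b a from mul_comm_of_abelian hUab (hU.ge hb) (hU.ge ha)).mul_mul_mul_comm, h1, h2, mul_one]
      | inv a ha h1 => rw [← mul_inv_rev, h1, inv_one]
  refine ⟨h.simple_of h4 (QQ_eq_of_fstar h.aes.isPGroup hF) hne ?_, h.isLarge hne h4⟩
  have k0 : ∀ c u : G, u ∈ normalClosure {z} → c * u * c⁻¹ ∈ normalClosure {z} := fun c u hu =>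
    normalClosure_normal.conj_mem u hu c
  have h1 : U ≤ normalClosure {z} := by
    rw [hU, closure_le]
    rintro _ ⟨k, -, rfl⟩
    exact k0 k z (subset_normalClosure (Set.mem_singleton z))
  refine hgen.ge.trans ((closure_le _).2 ?_)
  rintro _ ⟨c, -, u, hu, rfl⟩
  exact k0 c u (h1 hu)

end Cfsg.Agent.S5427
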