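import Mathlib
import Cfsg.Statements.S5428
import Cfsg.Agent.H03.LX5

set_option autoImplicit false
open Cfsg

namespace Cfsg.Agent.S5428

/-- Let z be an involution of the finite group G whose centralizer C has generalized Fitting subgroup Q extraspecial (as a 2-group), let A be a subgroup of C of odd order, and let R be the centralizer of A in Q; suppose R has order at least 32, the largest normal subgroup of odd order of the centralizer of the subgroup generated by A and R lies in A, the order of that centralizer is not divisible by 4, and g is an element of G with g z g⁻¹ in R but outside the centre Z of Q. Let M be the subgroup generated by A and the centralizer of A (A is normal in it). Then: the centralizer in M of the subgroup generated by R and A, joined with A, equals the subgroup generated by A and Z; the image of R in M/A is a large extraspecial 2-subgroup of M/A; and g z g⁻¹ is conjugate to z inside the subgroup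 generated by R and the centralizer of A in g Q g⁻¹. -/
theorem result {G : Type*} [Group G] [Finite G] (z : G) (hz : orderOf z = 2) (Q : Subgroup G) (hQC : Q ≤ Subgroup.centralizer ({z} : Set G)) (hF : (Cfsg.generalizedFittingSubgroup ↥(Subgroup.centralizer ({z} : Set G))).map (Subgroup.centralizer ({z} : Set G)).subtype = Q) (hQ : Cfsg.IsExtraspecial 2 ↥Q) (A : Subgroup G) (hA : A ≤ Subgroup.centralizer ({z} : Set G)) (hAodd : Odd (Nat.card ↥A)) (R : Subgroup G) (hR : R = Q ⊓ Subgroup.centralizer (A : Set G)) (hR32 : 32 ≤ Nat.card ↥R) (hO : (Cfsg.oddCore ↥(Subgroup.centralizer ((A ⊔ R : Subgroup G) : Set G))).map (Subgroup.centralizer ((A ⊔ R : Subgroup G) : Set G)).subtype ≤ A) (h4 : ¬ 4 ∣ Nat.card ↥(Subgroup.centralizer ((A ⊔ R : Subgroup G) : Set G))) (g : G) (hgR : g * z * g⁻¹ ∈ R) (hgZ : g * z * g⁻¹ ∉ ((Subgroup.center ↥Q).map Q.subtype)) (M : Subgroup G) (hM : M = Subgroup.centralizer (A : Set G) ⊔ A) [hn : (A.subgroupOf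 M).Normal] : (M ⊓ Subgroup.centralizer ((R ⊔ A : Subgroup G) : Set G)) ⊔ A = A ⊔ ((Subgroup.center ↥Q).map Q.subtype) ∧ Cfsg.IsLargeExtraspecial ((R.subgroupOf M).map (QuotientGroup.mk' (A.subgroupOf M))) ∧ ∃ x ∈ R ⊔ ((Q).map (MulAut.conj g).toMonoidHom ⊓ Subgroup.centralizer (A : Set G)), x * (g * z * g⁻¹) * x⁻¹ = z := by
  open BG H03 H04 Subgroup in
  obtain ⟨h, e0, -⟩ := es_of_fstar hQ hz hF
  rw [e0] at hgZ ⊢
  rw [← cj_eq_map]
  have h' := h.cj g
  have hRQ : R ≤ Q := hR ▸ inf_le_left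
  have hRA : R ≤ C_(A) := hR ▸ inf_le_right
  have hz' := h.lx.sym' (hRQ hgR) (by have := card_le hRQ; omega)
  have hzA := le_cent1_iff.1 hA
  have hzR : z ∈ R := hR ▸ mem_inf.2 ⟨h.aes.mem, hzA⟩
  have a := h.aes.mono hRQ hzR
  have hzD : zpowers z ≤ C_(A ⊔ R) := le_cent_sup (zpowers_le.2 hzA) (zpowers_le.2 a.cent)
  have hD : C_(A ⊔ R) ≤ C_(zpowers z) := cent_anti ((zpowers_le.2 hzR).trans le_sup_right)
  have h1 : C_(A ⊔ R) ≤ A ⊔ zpowers z := by
    have h2 : IsSylowIn 2 (zpowers z) C_(A ⊔ R) := isSylowIn_mk Nat.prime_two hzD (pg_of_card_eq h.card_z) fun e => h4 (by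
      rw [← BG.card_mul_relIndex hzD, h.card_z]; exact Nat.mul_dvd_mul_left 2 e)
    obtain ⟨K, hK⟩ := h2.exists_compl (hD.trans (cent_le_norm _))
    rw [← hK.isComplIn.sup, sup_comm]
    refine sup_le_sup_right (le_trans (H02.le_pPrimeCoreOf hK.le_right ?_ ?_) hO) _
    · rw [← hK.isComplIn.sup]
      exact sup_le_norm_right (le_norm_of_cent (cent_symm (hK.le_right.trans hD)))
    · rw [← hK.relIndex_left]
      exact ((Nat.Prime.coprime_iff_not_dvd Nat.prime_two).2 (h2.not_dvd' Nat.prime_two)).symm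
  have d : ∀ B : Subgroup G, IsPGroup 2 B → B ⊓ A = ⊥ := fun B hB => pg_inf_eq_bot Nat.prime_two hB hAodd.not_two_dvd_nat
  obtain ⟨x, x1, x2⟩ : ∃ x ∈ R, x * (g * z * g⁻¹) * x⁻¹ = g * z * g⁻¹ * z := by
    by_contra! e
    exact hgZ (h.cent_odd hAodd hA (hR ▸ mem_inf.2 ⟨hgR, mem_cent.2 fun x hx => by
      by_contra e'
      exact e x hx (aes_conj a hx hgR e')⟩))
  obtain ⟨y, y1, y2⟩ : ∃ y ∈ cj g Q ⊓ C_(A), y * z * y⁻¹ = z * (g * z * g⁻¹) := by
    by_contra! e
    have h2 : z ∈ cj g Q ⊓ C_(A) := ⟨hz', hzA⟩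
    have h3 := h'.cent_odd hAodd (le_cent1_iff.2 (hRA hgR)) (mem_inf.2 ⟨h2, mem_cent.2 fun x hx => by
      by_contra e'
      exact e x hx (aes_conj (h'.aes.mono inf_le_left ⟨h'.aes.mem, hRA hgR⟩) hx h2 e')⟩)
    exact (h'.aes.eq_or h3).elim h.aes.ne_one fun e => hgZ (by rw [← e]; exact mem_zpowers _)
  obtain ⟨k1, k2⟩ := conj_back x1 y1 x2 y2 (mem_cent1.1 (aes_le h.aes (hRQ hgR)))
  have hC : C_(A) ≤ M := hM ▸ le_sup_left
  have hMA : M ≤ N_(A) := hM ▸ sup_le (cent_le_norm _) (le_norm _)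
  have dec : ∀ c ∈ M, ∃ b ∈ C_(A), ∃ a ∈ A, b * a = c := fun c hc => (mem_sup_norm (norm_cent (le_norm _))).1 (hM ▸ hc)
  have k3 : ∀ c ∈ M, c * z * c⁻¹ * z⁻¹ ∈ A → c ∈ C_[z] := fun c hc e => by
    have hw : Commute (c * z * c⁻¹) z := mem_cent1.1 (by simpa using mul_mem (hA e) (mem_cent1_self z))
    have h2 : (c * z * c⁻¹ * z⁻¹) ^ 2 = 1 := by
      rw [hw.inv_right.mul_pow, pow_two, pow_two, h.lx.conj_sq, ← mul_inv_rev, h.aes.mul_self, inv_one, mul_one]
    have h3 := orderOf_eq_one_iff.1 (Nat.eq_one_of_dvd_coprimes (Nat.coprime_two_left.2 hAodd) (orderOf_dvd_of_pow_eq_one h2)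
      (orderOf_dvd_card e))
    exact mem_cent1.2 (mul_inv_eq_iff_eq_mul.1 (mul_inv_eq_one.1 h3))
  have k4 : (y⁻¹ * x)⁻¹ * z * (y⁻¹ * x)⁻¹⁻¹ = g * z * g⁻¹ := by nth_rw 1 [← k2]; group
  have k5 : ∀ c ∈ M, c * z * c⁻¹ * z⁻¹ ∈ A → c ∈ N_(R) := fun c hc e =>
    hR ▸ norm_inf (A := C_[z] ⊓ M) (inf_le_left.trans h.norm) (norm_cent (inf_le_right.trans hMA)) ⟨k3 c hc e, hc⟩
  refine ⟨le_antisymm (sup_le (inf_le_right.trans (sup_comm R A ▸ h1)) le_sup_left) (sup_le le_sup_right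
    ((le_inf ((zpowers_le.2 hzA).trans hC) (sup_comm R A ▸ hzD)).trans le_sup_left)),
    large_quot a (hRA.trans hC) (hM ▸ le_sup_right) (fun e => h.aes.ne_one (eq_one_of_mem_of_disj (d _ h.aes.isPGroup) h.aes.mem e))
    k5 (fun c hc e => ?_) (inv_mem (hC (sup_le hRA inf_le_right k1))) (k4 ▸ hgR) (fun e => hgZ ?_) ?_, _, k1, k2⟩
  · obtain ⟨b, hb, a', ha, rfl⟩ := dec c hc
    refine mul_mem (h1 (mem_inf.1 ?_ |> fun h => cent_sup A R ▸ mem_inf.2 h)) (mem_sup_left ha)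
    refine ⟨hb, (mul_mem_cancel_right (cent_symm hRA ha)).1 (mem_cent.2 fun x hx => ?_)⟩
    have := eq_one_of_mem_of_disj (d _ a.isPGroup) (mul_mem (conj_mem_of_norm (k5 _ hc (e z hzR)) hx) (inv_mem hx)) (e x hx)
    exact (mul_inv_eq_iff_eq_mul.1 (mul_inv_eq_one.1 this)).symm
  · rw [← k4, mem_cent1.1 (k3 _ (inv_mem (hC (sup_le hRA inf_le_right k1))) e), mul_inv_cancel_right]
    exact mem_zpowers z
  · rw [inf_comm, d _ a.isPGroup, card_bot]
    omega

end Cfsg.Agent.S5428
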