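import Mathlib
import Cfsg.Statements.S5429
import Cfsg.Agent.H03.LX5

set_option autoImplicit false
open Cfsg

namespace Cfsg.Agent.S5429

/-- Let z be an involution of the finite group G with centralizer C whose generalized Fitting subgroup Q is extraspecial of width at least 3 (order 2^(2w+1), w ≥ 3); let g be an element of G with g z g⁻¹ in Q but outside the centre Z of Q, and t an involution lying in both Q and g Q g⁻¹ that is not conjugate to z; write P for the centralizer of t in Q and suppose that the elements of C acting trivially by conjugation on P modulo the subgroup generated by t and z are exactly the elements of Q. Then the image of P in the centralizer of t modulo the subgroup generated by t is a large extraspecial 2-subgroup there, and g z g⁻¹ is conjugate to z inside the subgroup generated by P and the centralizer of t in g Q g⁻¹. -/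
theorem result {G : Type*} [Group G] [Finite G] (z : G) (hz : orderOf z = 2) (Q : Subgroup G) (hQC : Q ≤ Subgroup.centralizer ({z} : Set G)) (hF : (Cfsg.generalizedFittingSubgroup ↥(Subgroup.centralizer ({z} : Set G))).map (Subgroup.centralizer ({z} : Set G)).subtype = Q) (hQ : Cfsg.IsExtraspecial 2 ↥Q) (w : ℕ) (hw : 3 ≤ w) (hcard : Nat.card ↥Q = 2 ^ (2 * w + 1)) (g : G) (hgQ : g * z * g⁻¹ ∈ Q) (hgZ : g * z * g⁻¹ ∉ ((Subgroup.center ↥Q).map Q.subtype)) (t : G) (ht : orderOf t = 2) (htQ : t ∈ Q ⊓ (Q).map (MulAut.conj g).toMonoidHom) (htz : ¬ IsConj z t) (P : Subgroup G) (hP : P = Q ⊓ Subgroup.centralizer ({t} : Set G)) (hCP : ∀ c ∈ Subgroup.centralizer ({z} : Set G), (∀ x ∈ P, ∃ y ∈ Subgroup.closure ({t, z} : Set G), c * x * c⁻¹ = x * y) ↔ c ∈ Q) [hn : ((Subgroup.zpowers t).subgroupOf (Subgroup.centralizer ({t} : Set G))).Normal] : Cfsg.IsLargeExtraspecial ((P.subgroupOf (Subgroup.centralizer ({t} : Set G))).map (QuotientGroup.mk'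 ((Subgroup.zpowers t).subgroupOf (Subgroup.centralizer ({t} : Set G))))) ∧ ∃ x ∈ P ⊔ ((Q).map (MulAut.conj g).toMonoidHom ⊓ Subgroup.centralizer ({t} : Set G)), x * (g * z * g⁻¹) * x⁻¹ = z := by
  open BG H03 H04 Subgroup in
  obtain ⟨h, e0, -⟩ := es_of_fstar hQ hz hF
  rw [e0] at hgZ
  rw [← cj_eq_map] at htQ ⊢
  have h' := h.cj g
  have hz' := h.lx.sym' hgQ (by rw [hcard]; exact Nat.pow_lt_pow_right one_lt_two (show 3 < 2 * w + 1 by omega))
  have t2 := H08.mul_self_of_orderOf ht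
  have t1 := H08.ne_one_of_orderOf ht
  have eo : ∀ {a}, a ∈ zpowers t → a = 1 ∨ a = t := fun ha => by
    classical
    rw [mem_zpowers_iff_mem_range_orderOf, ht] at ha
    simpa [Finset.range_add_one, or_comm, eq_comm] using ha
  have k : ∀ {Q : Subgroup G} {u}, ES Q u → t ∈ Q → IsConj z u → ∀ {v}, IsConj z v → v ∈ zpowers t ⊔ zpowers u → v = u := by
    intro Q u h ht hu v hv e
    obtain ⟨q, -, q1⟩ := h.lx.exists_conj ht t2 fun e => (h.aes.eq_or e).elim t1 fun e => htz (e ▸ hu)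
    obtain ⟨a, ha, b, hb, rfl⟩ := (mem_sup_norm (h.aes.zpowers_le.trans (inf_le_right.trans ((cent_anti (zpowers_le.2 ht)).trans
      (cent_le_norm _))))).1 e
    rcases eo ha with rfl | rfl <;> rcases h.aes.eq_or hb with rfl | rfl
    · exact absurd (isConj_one_left.1 (by simpa using hv)) (H08.ne_one_of_orderOf hz)
    · exact one_mul _
    · exact absurd (by simpa using hv) htz
    · exact absurd (hv.trans (isConj_iff.2 ⟨q, q1⟩).symm) htz
  have c1 : IsConj z (g * z * g⁻¹) := isConj_iff.2 ⟨g, rfl⟩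
  have ne : g * z * g⁻¹ ≠ z := fun e => hgZ (by rw [e]; exact mem_zpowers _)
  obtain ⟨x, x1, x2, x3⟩ := h.exists_conj (sup_le (zpowers_le.2 htQ.1) (zpowers_le.2 h.aes.mem)) (mem_sup_right (mem_zpowers z)) hgQ
    fun e => ne (k h htQ.1 (IsConj.refl z) c1 e)
  obtain ⟨y, y1, y2, y3⟩ := h'.exists_conj (sup_le (zpowers_le.2 htQ.2) (zpowers_le.2 h'.aes.mem)) (mem_sup_right (mem_zpowers _)) hz'
    fun e => ne (k h' htQ.2 c1 (IsConj.refl z) e).symm
  have m : t ∈ zpowers t ⊔ zpowers z := mem_sup_left (mem_zpowers t)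
  obtain ⟨k1, k2⟩ := conj_back (A := P) (B := cj g Q ⊓ C_[t]) (hP ▸ mem_inf.2 ⟨x1, cent_le_cent1 m x2⟩)
    (mem_inf.2 ⟨y1, cent_le_cent1 (mem_sup_left (mem_zpowers t)) y2⟩) x3 y3 (mem_cent1.1 (aes_le h.aes hgQ))
  refine ⟨?_, _, k1, k2⟩
  have hPt : P ≤ C_[t] := hP ▸ inf_le_right
  have hzP : z ∈ P := hP ▸ mem_inf.2 ⟨h.aes.mem, mem_cent1_comm.1 (aes_le h.aes htQ.1)⟩
  have k3 : ∀ c : G, c * z * c⁻¹ * z⁻¹ ∈ zpowers t → c ∈ C_[z] := fun c e => mem_cent1.2 (mul_inv_eq_iff_eq_mul.1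
    (k h htQ.1 (IsConj.refl z) (isConj_iff.2 ⟨c, rfl⟩) (by simpa using mul_mem_sup e (mem_zpowers z))))
  have k4 : (y⁻¹ * x)⁻¹ * z * (y⁻¹ * x)⁻¹⁻¹ = g * z * g⁻¹ := by nth_rw 1 [← k2]; group
  have tz : z ∉ zpowers t := fun e => (eo e).elim h.aes.ne_one fun e => htz (e ▸ IsConj.refl z)
  refine large_quot (h.aes.mono (hP ▸ inf_le_left) hzP) hPt (zpowers_le_cent1 t) tz (fun c hc e => ?_) (fun c hc e => ?_)
    (inv_mem (sup_le hPt inf_le_right k1)) (k4 ▸ hP ▸ mem_inf.2 ⟨hgQ, mem_cent1_comm.1 (aes_le h'.aes htQ.2)⟩)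
    (fun e => ne (k4 ▸ mul_inv_eq_iff_eq_mul.2 (mem_cent1.1 (k3 _ e)))) ?_
  · exact hP ▸ norm_inf (A := C_[z] ⊓ C_[t]) (inf_le_left.trans h.norm) (norm_of_le inf_le_right) ⟨k3 c e, hc⟩
  · have h1 : c ∈ Q := (hCP c (k3 c (e z hzP))).1 fun x hx => ⟨x⁻¹ * (c * x * c⁻¹ * x⁻¹) * x, by
      rw [mul_assoc, mem_cent1.1 (cent1_le_of_mem_zpowers (e x hx) (hPt hx)) |>.symm, inv_mul_cancel_left]
      exact zpowers_le.2 (subset_closure (Set.mem_insert _ _)) (e x hx), by group⟩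
    refine h.cent_cent1 htQ.1 t2 (mem_cent.2 fun x hx => ?_)
    have h2 := h.aes.comm c h1 x hx.1
    rcases h.aes.eq_or h2 with e' | e'
    · exact (commutatorElement_eq_one_iff_mul_comm.1 e').symm
    · exact absurd (e' ▸ e x (hP ▸ hx)) tz
  · have h1 := aes_card h.aes (A := zpowers t ⊔ zpowers z) (sup_le (zpowers_le.2 htQ.1) (zpowers_le.2 h.aes.mem))
      (h.zc.le.trans le_sup_right)
    have h2 : Nat.card ↥(zpowers t ⊔ zpowers z) ≤ 2 * 2 := Nat.le_of_dvd (by norm_num) (by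
      simpa [ht, hz] using card_sup_dvd (K := zpowers t) (H := zpowers z) (zpowers_le.2 (cent_le_norm _ (cent_zpowers t ▸ hPt hzP))))
    have h3 : Nat.card ↥(Q ⊓ C_(zpowers t ⊔ zpowers z)) ≤ Nat.card P :=
      card_le (hP ▸ inf_le_inf_left _ (cent_le_cent1 m))
    have h4 : Nat.card ↥(zpowers t ⊓ P) ≤ 2 := (card_le inf_le_left).trans_eq (by rw [Nat.card_zpowers, ht])
    have h5 : 2 ^ 7 ≤ Nat.card Q := hcard ▸ Nat.pow_le_pow_right two_pos (by omega)
    rw [h.zc, h.card_z] at h1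
    have := Nat.mul_le_mul h2 h3
    omega

end Cfsg.Agent.S5429
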