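import Mathlib
import Cfsg.Statements.S5431
import Cfsg.Agent.H03.LX2

set_option autoImplicit false
open Cfsg

namespace Cfsg.Agent.S5431

/-- Let Q be a large extraspecial 2-subgroup of the finite group G (extraspecial; centralizer equal to its centre; normal in the centralizer of its centre; normalizing no non-trivial subgroup of odd order) with centre generated by z, an involution, of width w ≥ 2 (order 2^(2w+1)); let g be an element outside the centralizer H of z with g z g⁻¹ in Q; write V for the subgroup generated by z and g z g⁻¹, X for the subgroup generated by Q and g Q g⁻¹, R for the subgroup generated by the centralizer of z in g Q g⁻¹ and the centralizer of g z g⁻¹ in Q, and E for the intersection of Q and g Q g⁻¹. Then V is the centre of R, E lies in the second centre of R, R is nilpotent of class at most 3, E and R/E are elementary abelian, R/E is the direct product of the images of the centralizer of g z g⁻¹ in Q and of the centralizer of z in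 g Q g⁻¹ (R is their product and they meet in E), and the commutator subgroup of X and E lies in V. -/
theorem result {G : Type*} [Group G] [Finite G] (Q : Subgroup G) (hQ : Cfsg.IsLargeExtraspecial Q) (z : G) (hz : ((Subgroup.center ↥Q).map Q.subtype) = Subgroup.zpowers z) (hz2 : orderOf z = 2) (w : ℕ) (hw : 2 ≤ w) (hcard : Nat.card ↥Q = 2 ^ (2 * w + 1)) (g : G) (hgH : g ∉ Subgroup.centralizer ({z} : Set G)) (hgQ : g * z * g⁻¹ ∈ Q) (V X R E : Subgroup G) (hV : V = Subgroup.closure ({z, g * z * g⁻¹} : Set G)) (hX : X = Q ⊔ (Q).map (MulAut.conj g).toMonoidHom) (hR : R = ((Q).map (MulAut.conj g).toMonoidHom ⊓ Subgroup.centralizer ({z} : Set G)) ⊔ (Q ⊓ Subgroup.centralizer ({g * z * g⁻¹} : Set G))) (hE : E = Q ⊓ (Q).map (MulAut.conj g).toMonoidHom) : (Subgroup.center ↥R).map R.subtype = V ∧ E ≤ (Subgroup.upperCentralSeries ↥R 2).map R.subtype ∧ Subgroup.upperCentralSeries ↥R 3 = ⊤ ∧ Cfsg.IsElementaryAbelian 2 E ∧ (∀ x ∈ R, ∀ y ∈ R, x * y * x⁻¹ * y⁻¹ ∈ E ∧ x ^ 2 ∈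 E) ∧ ((Q).map (MulAut.conj g).toMonoidHom ⊓ Subgroup.centralizer ({z} : Set G)) ⊓ (Q ⊓ Subgroup.centralizer ({g * z * g⁻¹} : Set G)) = E ∧ ⁅X, E⁆ ≤ V := by
  open BG H03 H04 Subgroup in
  obtain ⟨h, -⟩ := es_of_large hQ hz
  have h3 := h.pp hgQ (fun e => hgH (mem_cent1c.2 e)) (hcard ▸ Nat.pow_lt_pow_right one_lt_two (show 3 < 2 * w + 1 by omega))
  rw [← cj_eq_map] at *
  generalize g * z * g⁻¹ = s at *
  generalize cj g Q = Q' at *
  have h' := h3.h'
  have hVR : V ≤ R := hR ▸ hV ▸ (le_inf h3.V_le (h3.V_le'.trans (aes_le h'.aes))).trans le_sup_right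
  have hVE : V ≤ E := hE ▸ hV ▸ le_inf h3.V_le h3.V_le'
  have zV : zpowers z ≤ V := hV ▸ zpowers_le.2 (subset_closure (by simp))
  have sV : zpowers s ≤ V := hV ▸ zpowers_le.2 (subset_closure (by simp))
  have h1 : R ⊓ C_(R) = V := by
    refine le_antisymm (inf_le_right.trans ((cent_anti (hR ▸ le_sup_right)).trans ((h.cent_cent1 hgQ h'.aes.mul_self).trans
      (sup_le sV zV)))) (le_inf hVR (cent_symm (hR ▸ hV ▸ h3.R_le)))
  have hXV : X ≤ N_(V) := hX ▸ hV ▸ h3.X_norm_V
  have h2 : ⁅X, E⁆ ≤ V := by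
    rw [hX] at hXV ⊢
    exact comm_sup_le (le_sup_left.trans hXV) (le_sup_right.trans hXV)
      ((comm_mono le_rfl (hE ▸ inf_le_left)).trans (h.aes.der_le.trans zV))
      ((comm_mono le_rfl (hE ▸ inf_le_right)).trans (h'.aes.der_le.trans sV))
  have hRX : R ≤ X := hR ▸ hX ▸ PP.R_le_X
  have h4 : (Q' ⊓ C_[z]) ⊓ (Q ⊓ C_[s]) = E := hE ▸ le_antisymm (le_inf (inf_le_right.trans inf_le_left)
    (inf_le_left.trans inf_le_left)) (le_inf (le_inf inf_le_right (inf_le_left.trans (aes_le h.aes)))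
      (le_inf inf_le_left (inf_le_right.trans (aes_le h'.aes))))
  have hER : E ≤ R := hR ▸ h4.ge.trans (inf_le_left.trans le_sup_left)
  have hXE : X ≤ N_(E) := le_norm_of_comm_le (comm_comm X E ▸ h2.trans hVE)
  have n1 : Q' ⊓ C_[z] ≤ N_(E) := (le_sup_left.trans hR.ge).trans (hRX.trans hXE)
  have n2 : Q ⊓ C_[s] ≤ N_(E) := (le_sup_right.trans hR.ge).trans (hRX.trans hXE)
  have h5 : ⁅R, R⁆ ≤ E := hR ▸ der_sup_le n1 n2 ((der_mono inf_le_left).trans (h'.aes.der_le.trans (sV.trans hVE)))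
    (hE ▸ le_inf ((comm_mono le_rfl inf_le_left).trans (comm_le_right (inf_le_right.trans h.norm)))
      ((comm_mono inf_le_left le_rfl).trans (comm_le_left (inf_le_right.trans h'.norm))))
    ((der_mono inf_le_left).trans (h.aes.der_le.trans (zV.trans hVE)))
  have h6 : ∀ x : R, (x : G) ∈ E → x ∈ Subgroup.upperCentralSeries R 2 := fun x hx => Subgroup.mem_upperCentralSeries_succ_iff.2 fun y => by
    rw [Subgroup.upperCentralSeries_one, ← mem_map_iff_mem (subtype_injective R), map_subtype_center, h1]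
    exact h2 (comm_comm E X ▸ commutator_mem_commutator hx (hRX y.2))
  refine ⟨by rw [map_subtype_center, h1], fun x hx => ⟨⟨x, hER hx⟩, h6 _ hx, rfl⟩, ?_, ⟨?_, fun x hx => ?_⟩,
    fun x hx y hy => ⟨h5 (commutator_mem_commutator hx hy), ?_⟩, h4, h2⟩
  · exact eq_top_iff.2 fun x _ => Subgroup.mem_upperCentralSeries_succ_iff.2 fun y => h6 _ (h5 (commutator_mem_commutator x.2 y.2))
  · exact abelian_iff_der.2 (eq_bot_mono h3.disj (le_inf ((der_mono (hE ▸ inf_le_left)).trans h.aes.der_le)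
      ((der_mono (hE ▸ inf_le_right)).trans h'.aes.der_le)))
  · rw [hE] at hx
    exact eq_one_of_mem_of_disj h3.disj (h.aes.pow x hx.1) (h'.aes.pow x hx.2)
  · rw [hR] at hx
    obtain ⟨a, ha, b, hb, rfl⟩ := (mem_sup_norm (norm_inf (inf_le_right.trans h'.norm)
      (norm_cent1 (inf_le_left.trans (aes_le h.aes))))).1 hx
    have m1 : a ∈ R := hR ▸ mem_sup_left ha
    have m2 : b ∈ R := hR ▸ mem_sup_right hb
    rw [show (a * b) ^ 2 = a ^ 2 * (a⁻¹ * b * a⁻¹⁻¹ * b⁻¹) * b ^ 2 by simp [pow_two, mul_assoc]]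
    exact mul_mem (mul_mem (hVE (sV (h'.aes.pow a ha.1))) (h5 (commutator_mem_commutator (inv_mem m1) m2)))
      (hVE (zV (h.aes.pow b hb.1)))

end Cfsg.Agent.S5431
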