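import Mathlib
import Cfsg.Statements.S5432
import Cfsg.Agent.H03.XG2

set_option autoImplicit false
open Cfsg

namespace Cfsg.Agent.S5432

/-- Let E be an extraspecial 2-group of order 2^(2n+1), n ≥ 1. If E contains an elementary abelian subgroup of order 2^(n+1) (plus type), then its outer automorphism group is isomorphic to the full isometry group of the hyperbolic quadratic form in dimension 2n over the field with two elements; otherwise (minus type) it is isomorphic to the full isometry group of the elliptic quadratic form in dimension 2n over that field. -/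
theorem result {E : Type*} [Group E] [Finite E] (hE : Cfsg.IsExtraspecial 2 E) (n : ℕ) (hn : 1 ≤ n) (hcard : Nat.card E = 2 ^ (2 * n + 1)) : ((∃ A : Subgroup E, Cfsg.IsElementaryAbelian 2 A ∧ Nat.card ↥A = 2 ^ (n + 1)) → Nonempty (Cfsg.Out E ≃* Cfsg.isometryGroup (ZMod 2) (Cfsg.quadFormPlus n (ZMod 2)))) ∧ ((¬ ∃ A : Subgroup E, Cfsg.IsElementaryAbelian 2 A ∧ Nat.card ↥A = 2 ^ (n + 1)) → Nonempty (Cfsg.Out E ≃* Cfsg.isometryGroup (ZMod 2) (Cfsg.quadFormMinus (n - 1) (ZMod 2) 1 1))) := by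
  open BG H03 H04 Subgroup in
  obtain ⟨m, rfl⟩ : ∃ m, n = m + 1 := ⟨n - 1, by omega⟩
  obtain ⟨z, h, h1, -⟩ := exists_aes_of_isExtraspecial hE
  have h2 := (inf_cent_top.trans h1).le
  have h3 : Nat.card (⊤ : Subgroup E) = _ := card_top.trans hcard
  refine ⟨fun ⟨A, a1, a2⟩ => ?_, fun hA => ?_⟩
  · obtain ⟨e⟩ := nonempty_equiv_of_sqCount hE (XG.extraspecial (Bp_nd (m := m + 1))) (hcard.trans card_Bp.symm)
      (by rw [sq_Bp, ← sqCount_top]; exact sqCount_of_elem h h2 h3 le_top a1 a2)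
    obtain ⟨e1⟩ := outCongr e
    obtain ⟨e2⟩ := XG.out_equiv (Bp_nd (m := m + 1))
    exact ⟨e1.trans (e2.trans (MulEquiv.subgroupCongr (congrArg _ (funext fun v => Bp_eq v v))))⟩
  · have h4 := (h.sqCount_of_center h2 h3).resolve_left fun e => by
      obtain ⟨A, -, a1, -, a2⟩ := h.exists_elemAb h2 _ h3
      exact hA ⟨A, a1, le_antisymm (card_le_of_isExtraspecial hE hcard a1.1) (a2 e)⟩
    obtain ⟨e⟩ := nonempty_equiv_of_sqCount hE (XG.extraspecial (Bm_nd (m := m))) (hcard.trans card_Bm.symm)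
      (by have := sq_Bm (m := m); rw [sqCount_top] at h4; omega)
    obtain ⟨e1⟩ := outCongr e
    obtain ⟨e2⟩ := XG.out_equiv (Bm_nd (m := m))
    exact ⟨e1.trans (e2.trans (MulEquiv.subgroupCongr (congrArg _ (funext fun v => (Bm_eq v v).trans (by
      simp [quadFormMinus, pow_two])))))⟩

end Cfsg.Agent.S5432
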