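import Mathlib
import Cfsg.Statements.S5433
import Cfsg.Agent.H03.LX1
import Cfsg.Agent.H01.KS122a

set_option autoImplicit false
open Cfsg

namespace Cfsg.Agent.S5433

/-- Let Q be a large extraspecial 2-subgroup of the finite group G (extraspecial; centralizer equal to its centre; normal in the centralizer of its centre; normalizing no non-trivial subgroup of odd order), and L a normal subgroup of G containing Q. Then G is the product of L and the normalizer of Q. -/
theorem result {G : Type*} [Group G] [Finite G] (Q : Subgroup G) (hQ : Cfsg.IsLargeExtraspecial Q) (L : Subgroup G) [L.Normal] (hQL : Q ≤ L) : L ⊔ Subgroup.normalizer (Q : Set G) = ⊤ := by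
  open BG H03 H04 Subgroup in
  obtain ⟨z, h, e, hne⟩ := es_of hQ.1 hQ.2.1 hQ.2.2.1
  haveI : Fact (Nat.Prime 2) := ⟨Nat.prime_two⟩
  have hp : IsPGroup 2 (Q.subgroupOf L) := h.aes.isPGroup.of_equiv (subgroupOfEquivOfLe hQL).symm
  obtain ⟨T, hT⟩ := hp.exists_le_sylow
  have hF := Sylow.normalizer_sup_eq_top T
  set T' : Subgroup G := (T : Subgroup L).map L.subtype with hT'
  have hQT : Q ≤ T' := by
    rw [← map_subgroupOf_eq_of_le hQL]; exact map_mono hT
  have hTp : IsPGroup 2 T' := T.2.map _
  have hZ : T' ⊓ C_(T') ≤ zpowers z := inf_le_right.trans ((cent_anti hQT).trans h.cent)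
  have hZ1 : T' ⊓ C_(T') ≠ ⊥ := by
    intro e0
    refine nil_meet_center (pg_nil Nat.prime_two hTp) le_rfl le_normalizer (fun e1 => ?_) (by simpa using e0)
    exact hne (hQT.trans (e1 ▸ bot_le))
  have hZe : zpowers z ≤ T' ⊓ C_(T') := le_of_prime_of_inf_ne (h.card_z ▸ Nat.prime_two) fun e1 =>
    hZ1 (eq_bot_mono e1 (le_inf hZ le_rfl))
  have hN : N_(T') ≤ N_(Q) := by
    refine le_trans ?_ h.norm
    have h1 : N_(T') ≤ N_(zpowers z) := by
      rw [le_antisymm hZe hZ]; exact norm_inf le_rfl (norm_cent le_rfl)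
    exact (H01.le_cent_of_card_two h.card_z h1).trans (by rw [cent_zpowers])
  rw [eq_top_iff, ← hF, sup_comm]
  exact sup_le_sup le_rfl hN

end Cfsg.Agent.S5433
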