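import Mathlib
import Cfsg.Statements.S5434
import Cfsg.Agent.H03.LX1
import Cfsg.Agent.H01.KS122a

set_option autoImplicit false
open Cfsg

namespace Cfsg.Agent.S5434

/-- Let Q be a large extraspecial 2-subgroup of the finite group G (extraspecial; centralizer equal to its centre; normal in the centralizer of its centre; normalizing no non-trivial subgroup of odd order), and A a non-trivial subgroup of odd order of the normalizer of Q. Then Q is the central product of the centralizer of A in Q and the commutator subgroup [Q, A] (they generate Q and commute elementwise), [Q, A] is extraspecial, and the centralizer of A in Q is either the centre of Q or extraspecial. -/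
theorem result {G : Type*} [Group G] [Finite G] (Q : Subgroup G) (hQ : Cfsg.IsLargeExtraspecial Q) (A : Subgroup G) (hA : A ≤ Subgroup.normalizer (Q : Set G)) (hAodd : Odd (Nat.card ↥A)) (hA1 : A ≠ ⊥) : (Q ⊓ Subgroup.centralizer (A : Set G)) ⊔ ⁅Q, A⁆ = Q ∧ (∀ x ∈ Q ⊓ Subgroup.centralizer (A : Set G), ∀ y ∈ ⁅Q, A⁆, x * y = y * x) ∧ Cfsg.IsExtraspecial 2 ↥⁅Q, A⁆ ∧ (Q ⊓ Subgroup.centralizer (A : Set G) = ((Subgroup.center ↥Q).map Q.subtype) ∨ Cfsg.IsExtraspecial 2 ↥(Q ⊓ Subgroup.centralizer (A : Set G))) := by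
  open BG H03 H04 in
  obtain ⟨z, h, e, hne⟩ := es_of hQ.1 hQ.2.1 hQ.2.2.1
  have hc : (Nat.card A).Coprime (Nat.card Q) := (pg_coprime Nat.prime_two h.aes.isPGroup hAodd.not_two_dvd_nat).symm
  have hs := pg_sol Nat.prime_two h.aes.isPGroup
  have hX : Xsp Q (Subgroup.zpowers z) := ⟨Subgroup.zpowers_le.2 h.aes.mem, Subgroup.zpowers_le.2 h.aes.cent, h.aes.der_le,
    h.zc.le, fun e => hne e.le⟩
  have hZ : Subgroup.zpowers z ≤ C_(A) := cent_symm (H01.le_cent_of_card_two h.card_z (h.zc ▸ norm_inf hA (norm_cent hA)))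
  have h0 : ¬ A ≤ C_(Q) := fun e => hA1 (eq_bot_mono (BG.inf_eq_bot_of_coprime hc) (le_inf le_rfl (e.trans h.lx.cent)))
  have h1 : ⁅Q, A⁆ ≤ Q := comm_le_left hA
  have h2 : Subgroup.zpowers z ≤ ⁅Q, A⁆ := le_of_prime_of_inf_ne (h.card_z ▸ Nat.prime_two) fun e =>
    nil_meet_center (pg_nil Nat.prime_two h.aes.isPGroup) h1 (left_le_norm_comm _ _) (fun e => h0 (cent_symm (comm_eq_bot.1 e)))
      (eq_bot_mono e (le_inf (inf_le_right.trans h.cent) inf_le_left))
  have key : ∀ S ≤ Q, Xsp S (Subgroup.zpowers z) → IsExtraspecial 2 S := fun S hS hX =>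
    isExtraspecial_of_aes (h.aes.mono hS (Subgroup.zpowers_le.1 hX.le)) hX.zc fun e =>
      hX.ne (le_antisymm ((le_inf le_rfl (abelian_iff.1 e)).trans hX.zc) hX.le)
  refine ⟨(sup_comm _ _).trans (coprime_comm_sup_cent hA hc (Or.inr hs)),
    le_cent_iff.1 ((hX.cent_comm hZ).trans (cent_anti le_sup_left)), key _ h1 (sup_eq_left.2 h2 ▸ (hX.comm hA hZ hc hs h0).1), ?_⟩
  by_cases h3 : Q ⊓ C_(A) ≤ Subgroup.zpowers z
  · exact Or.inl (e ▸ le_antisymm h3 (le_inf hX.le hZ))
  · exact Or.inr (key _ inf_le_left (hX.centr hA hZ hc hs h3))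

end Cfsg.Agent.S5434
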