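import Mathlib
import Cfsg.Statements.S5435
import Cfsg.Agent.H03.LX4
import Cfsg.Agent.H05.CT1
import Cfsg.Agent.H08.IsoElt

set_option autoImplicit false
open Cfsg

namespace Cfsg.Agent.S5435

/-- Let L be a finite non-abelian simple group with an involution z whose centralizer R is a Sylow 2-subgroup of L whose Frattini subgroup is the subgroup generated by z. Then R is dihedral of order 8. -/
theorem result {L : Type*} [Group L] [Finite L] [IsSimpleGroup L] (hL : ¬ IsMulCommutative L) (z : L) (hz : orderOf z = 2) (R : Sylow 2 L) (hR : (R : Subgroup L) = Subgroup.centralizer ({z} : Set L)) (hΦ : (frattini ↥(R : Subgroup L)).map (R : Subgroup L).subtype = Subgroup.zpowers z) : Nonempty (↥(R : Subgroup L) ≃* DihedralGroup 4) := by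
  open BG H03 H04 Subgroup in
  have k1 : ∀ x ∈ (R : Subgroup L), x ^ 2 ∈ zpowers z := fun x hx => hΦ ▸ pow_mem_map_frattini R.2 hx
  have hzR : z ∈ (R : Subgroup L) := hR ▸ mem_cent1_self z
  have a : AES 2 (R : Subgroup L) z := ⟨hz, hzR, le_cent1_iff.1 hR.le,
    fun x hx y hy => hΦ ▸ commutatorElement_mem_map_frattini R.2 hx hy, k1⟩
  have hN : N_((R : Subgroup L)) ≤ R := (H01.le_cent_of_card_two (U := zpowers z) (by rw [Nat.card_zpowers, hz])
    (hΦ ▸ norm_le_norm_phi _)).trans (by rw [cent_zpowers, ← hR])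
  have h : LX (R : Subgroup L) z := ⟨a, (cent_le_norm _).trans hN, fun e he e2 => ?_, hR ▸ le_norm _⟩
  swap
  · by_contra e1
    have heR := hN (cent_le_norm _ he)
    obtain ⟨M, -, h1, h2⟩ := exists_index_eq_notMem (p := 2) ((zpowers z).subgroupOf R)
      (commutator_le.2 fun x _ y _ => a.comm _ x.2 _ y.2) (fun x => k1 x x.2) (x := ⟨e, heR⟩) e1
    classical
    let φ : (R : Subgroup L) →* ℤˣ := MonoidHom.mk' (fun x => if x ∈ M then 1 else -1) fun x y => by
      by_cases hx : x ∈ M <;> by_cases hy : y ∈ M <;> simp [mul_mem_iff_of_index_two h2, hx, hy]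
    obtain ⟨g, h3, h4, h5⟩ := H05.thompson_transfer_ext R.not_dvd_index φ (a := -1) (by decide) (by decide)
      (fun b _ => Int.units_eq_one_or b) (y := e) (by rwa [pow_two]) (fun ψ => by
        rcases ψ.normal_ker.eq_bot_or_eq_top with e | e
        · exact absurd ⟨⟨fun x y => (MonoidHom.ker_eq_bot_iff _).1 e (by rw [map_mul, map_mul, mul_comm])⟩⟩ hL
        · exact MonoidHom.mem_ker.1 (e ▸ mem_top _)) R.2 (le_cent1_iff.2 he)
    have h6 : g ∈ (R : Subgroup L) := hN (mem_norm_of_le_cj fun x hx => mem_cj.2 (h3 x hx))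
    have h7 : g⁻¹ * e * g = e := by rw [mul_assoc, ← mem_cent.1 he g h6, inv_mul_cancel_left]
    simp [φ, h7, h1] at h5
  obtain ⟨g, h1, h2⟩ : ∃ g : L, Commute z (g * z * g⁻¹) ∧ g * z * g⁻¹ ≠ z := by
    by_contra! e
    have h1 := H08.zstar_elt (x := z) e (pg_of_card_eq (by rw [Nat.card_zpowers, hz]))
    have h2 : pPrimeCore 2 L = ⊥ := (inferInstance : (pPrimeCore 2 L).Normal).eq_bot_or_eq_top.resolve_right fun e =>
      H02.not_dvd_card_pPrimeCore Nat.prime_two (hz ▸ orderOf_dvd_card (e ▸ mem_top z))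
    have h3 : center L = ⊤ := (inferInstance : (center L).Normal).eq_bot_or_eq_top.resolve_left (ne_bot_of_mem
      (mem_center_iff.2 fun g => by simpa [h2, mul_inv_eq_one, mul_inv_eq_iff_eq_mul] using h1 g) a.ne_one)
    exact hL ⟨⟨fun x y => mem_center_iff.1 (h3 ▸ mem_top y) x⟩⟩
  have hs : g * z * g⁻¹ ∈ (R : Subgroup L) := hR ▸ mem_cent1.2 h1.symm.eq
  have s2 := h.conj_sq g
  have s3 := h.notMem h2
  have h8 := h.card_le_eight hs (fun p hp hc => by
    have h3 := (h.cj g).aes.pow p (by rwa [hR, cj_cent1])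
    rw [← pow_two]
    exact (a.eq_or (k1 p hp)).resolve_right fun e =>
      ((h.cj g).aes.eq_or (e ▸ h3)).elim a.ne_one h2.symm) s2
  generalize g * z * g⁻¹ = s at *
  obtain ⟨r, hr, r1, r2⟩ : ∃ r ∈ (R : Subgroup L), r * s * r⁻¹ = s * z ∧ r * r = z := by
    obtain ⟨q, hq, q1⟩ := h.exists_conj hs s2 s3
    rcases a.eq_or (pow_two q ▸ k1 q hq) with e | e
    · refine ⟨q * s, mul_mem hq hs, by rw [← q1]; group, ?_⟩
      rw [show q * s * (q * s) = q * s * q⁻¹ * (q * q) * s by group, q1, e, mul_one, mul_assoc, h1.eq, ← mul_assoc, s2, one_mul]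
    · exact ⟨q, hq, q1, e⟩
  have r4 : orderOf r = 4 := orderOf_eq_prime_pow (p := 2) (n := 1) (by simpa [pow_two, r2] using a.ne_one)
    (by rw [show 2 ^ (1 + 1) = 2 * 2 from rfl, pow_mul, pow_two, pow_two, r2, a.mul_self])
  obtain ⟨e⟩ := H08.nonempty_closure_equiv_dihedral (by norm_num) r4 s2 (by
    rw [eq_inv_iff_mul_eq_one, inv_eq_of_mul_eq_one_right s2,
      show s * r * s * r = s * (r * s * r⁻¹) * (r * r) by group, r1, r2, ← mul_assoc, s2, one_mul, a.mul_self]) fun e => by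
    rw [mem_cent1.1 (cent1_le_of_mem_zpowers e (mem_cent1_self r)), mul_inv_cancel_right] at r1
    exact a.ne_one (by simpa using r1)
  exact ⟨(MulEquiv.subgroupCongr (BG.eq_of_le_of_card_le ((closure_le _).2 (Set.pair_subset hr hs)) (by
    rw [Nat.card_congr e.toEquiv, DihedralGroup.nat_card]; exact h8)).symm).trans e⟩

end Cfsg.Agent.S5435
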