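import Mathlib
import Cfsg.Statements.S5438
import Cfsg.Agent.H08.Basic

set_option autoImplicit false
open Cfsg

namespace Cfsg.Agent.S5438

/-- Let z be a 2-central involution of the finite group G (an involution central in some Sylow 2-subgroup) and H a subgroup containing z such that the coset H is the only coset of H fixed by z (in the action of G on the cosets of H). Then H has odd index in G, and for every 2-element x of H the conjugates of x lying in H form a single H-class. -/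
theorem result {G : Type*} [Group G] [Finite G] (z : G) (hz : Cfsg.IsTwoCentralInvolution z) (H : Subgroup G) (hzH : z ∈ H) (hfix : ∀ g : G, g⁻¹ * z * g ∈ H → g ∈ H) : Odd H.index ∧ ∀ x ∈ H, (∃ k : ℕ, orderOf x = 2 ^ k) → ∀ g : G, g * x * g⁻¹ ∈ H → ∃ h ∈ H, h * x * h⁻¹ = g * x * g⁻¹ := by
  obtain ⟨hz2, S, hzS, hS⟩ := hz
  have hSH : (S : Subgroup G) ≤ H := fun s hs => hfix s (by rwa [mul_assoc, ← hS s hs, inv_mul_cancel_left])
  have hodd : Odd H.index := by
    rw [← Nat.not_even_iff_odd, even_iff_two_dvd]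
    exact fun h => S.not_dvd_index (h.trans (Subgroup.index_dvd_of_le hSH))
  have key : ∀ T : Subgroup G, IsPGroup 2 T → z ∈ T → T ≤ H := by
    intro T hT hzT
    obtain ⟨c, hc⟩ := hT.nonempty_fixed_point_of_prime_not_dvd_card (G ⧸ H)
      (fun h => Nat.not_even_iff_odd.2 hodd (even_iff_two_dvd.2 h))
    obtain ⟨g, rfl⟩ := QuotientGroup.mk_surjective c
    have h1 : ∀ t ∈ T, g⁻¹ * t * g ∈ H := fun t ht => by
      have := QuotientGroup.eq.1 (hc ⟨t, ht⟩).symm
      rwa [mul_assoc]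
    have hg := hfix g (h1 z hzT)
    intro t ht
    simpa [mul_assoc] using mul_mem (mul_mem hg (h1 t ht)) (inv_mem hg)
  refine ⟨hodd, fun x hx ⟨k, hk⟩ g hg => ?_⟩
  have p1 : IsPGroup 2 (Subgroup.zpowers x) := H08.isPGroup_zpowers_of_pow (hk ▸ pow_orderOf_eq_one x)
  have p2 : IsPGroup 2 (Subgroup.zpowers (g * x * g⁻¹)) := H08.isPGroup_zpowers_of_pow (k := k)
    (by rw [conj_pow, ← hk, pow_orderOf_eq_one]; group)
  obtain ⟨h1, hh1, e1⟩ := H08.exists_conj_le_sylow_of_le' S hSH p1 (by simpa using hx)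
  obtain ⟨h2, hh2, e2⟩ := H08.exists_conj_le_sylow_of_le' S hSH p2 (by simpa using hg)
  have c1 := hS _ (e1 _ (Subgroup.mem_zpowers _))
  have c2 := hS _ (e2 _ (Subgroup.mem_zpowers _))
  let C := Subgroup.centralizer ({h1 * x * h1⁻¹} : Set G)
  let u := h2 * g * h1⁻¹
  have m1 : z ∈ C := Subgroup.mem_centralizer_singleton_iff.2 c1.symm
  have m2 : u⁻¹ * z * u ∈ C := Subgroup.mem_centralizer_singleton_iff.2 (by
    calc _ = u⁻¹ * (z * (h2 * (g * x * g⁻¹) * h2⁻¹)) * u := by simp only [u]; group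
      _ = _ := by rw [← c2]; simp only [u]; group)
  have q1 : IsPGroup 2 (Subgroup.zpowers z) := H08.isPGroup_zpowers_of_pow (k := 1)
    (by rw [pow_one, ← hz2, pow_orderOf_eq_one])
  have q2 : IsPGroup 2 (Subgroup.zpowers (u⁻¹ * z * u)) := H08.isPGroup_zpowers_of_pow (k := 1)
    (by rw [pow_one, sq]
        calc _ = u⁻¹ * z ^ 2 * u := by rw [sq]; group
          _ = 1 := by rw [← hz2, pow_orderOf_eq_one]; group)
  obtain ⟨T, hT⟩ := (q1.comap_subtype (K := C)).exists_le_sylow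
  obtain ⟨c, hc, e⟩ := H08.exists_conj_le_sylow_of_le T q2 (by simpa using m2)
  have hTH := key _ (T.isPGroup'.map C.subtype) ⟨⟨z, m1⟩, hT (Subgroup.mem_zpowers z), rfl⟩
  have h3 : u * c⁻¹ ∈ H := hfix _ (by simpa [mul_assoc] using hTH (e _ (Subgroup.mem_zpowers _)))
  refine ⟨h2⁻¹ * (u * c⁻¹) * h1, mul_mem (mul_mem (inv_mem hh2) h3) hh1, ?_⟩
  have := Subgroup.mem_centralizer_singleton_iff.1 (inv_mem hc)
  calc _ = h2⁻¹ * u * (c⁻¹ * (h1 * x * h1⁻¹)) * c * u⁻¹ * h2 := by group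
    _ = _ := by rw [this]; simp only [u]; group

end Cfsg.Agent.S5438
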