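import Mathlib
import Cfsg.Statements.S5439
import Cfsg.Agent.H08.Basic
import Cfsg.Agent.H08.Dihedral

set_option autoImplicit false
open Cfsg

namespace Cfsg.Agent.S5439

/-- Let I and J be two different conjugacy classes of involutions of the finite group G and H a subgroup such that every member of I ∪ J fixes exactly one coset in the action on the cosets of H, and such that for every a in I ∩ H and every b in (I ∪ J) ∩ H different from a and commuting with it, the centralizer of a b lies in H. Then H = G. -/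
theorem result {G : Type*} [Group G] [Finite G] (I J : Set G) (a₀ b₀ : G) (ha₀ : orderOf a₀ = 2) (hb₀ : orderOf b₀ = 2) (hI : I = {x | IsConj a₀ x}) (hJ : J = {x | IsConj b₀ x}) (hIJ : I ≠ J) (H : Subgroup G) (hfix : ∀ x ∈ I ∪ J, ∃! c : G ⧸ H, x • c = c) (hcent : ∀ a ∈ I, a ∈ H → ∀ b ∈ I ∪ J, b ∈ H → a ≠ b → a * b = b * a → Subgroup.centralizer ({a * b} : Set G) ≤ H) : H = ⊤ := by
  have hfx : ∀ x g : G, x • (g : G ⧸ H) = g ↔ g⁻¹ * x * g ∈ H := fun x g => by
    rw [MulAction.Quotient.smul_mk, eq_comm, QuotientGroup.eq, smul_eq_mul, mul_assoc]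
  have hcI : ∀ x ∈ I, ∀ g : G, g * x * g⁻¹ ∈ I := fun x hx g => by
    rw [hI] at hx ⊢; exact IsConj.trans hx (isConj_iff.2 ⟨g, rfl⟩)
  have hcJ : ∀ x ∈ J, ∀ g : G, g * x * g⁻¹ ∈ J := fun x hx g => by
    rw [hJ] at hx ⊢; exact IsConj.trans hx (isConj_iff.2 ⟨g, rfl⟩)
  have ex : ∀ K : Set G, K ⊆ I ∪ J → (∀ x ∈ K, ∀ g : G, g * x * g⁻¹ ∈ K) → K.Nonempty → ∃ x ∈ K, x ∈ H := by
    rintro K h1 h2 ⟨x, hx⟩
    obtain ⟨c, hc, -⟩ := hfix x (h1 hx)
    obtain ⟨g, rfl⟩ := QuotientGroup.mk_surjective c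
    exact ⟨_, h2 x hx g⁻¹, by simpa using (hfx x g).1 hc⟩
  have uniq : ∀ x ∈ I ∪ J, ∀ g k : G, g⁻¹ * x * g ∈ H → k⁻¹ * x * k ∈ H → g⁻¹ * k ∈ H :=
    fun x hx g k h1 h2 => QuotientGroup.eq.1 ((hfix x hx).unique ((hfx x g).2 h1) ((hfx x k).2 h2))
  obtain ⟨a, ha, haH⟩ := ex I Set.subset_union_left hcI ⟨a₀, hI ▸ IsConj.refl a₀⟩
  obtain ⟨b', hb', hbH⟩ := ex J Set.subset_union_right hcJ ⟨b₀, hJ ▸ IsConj.refl b₀⟩
  rw [eq_top_iff]
  intro g _
  have hb := hcJ b' hb' g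
  set b := g * b' * g⁻¹ with hbdef
  have oa : orderOf a = 2 := by
    rw [hI] at ha; obtain ⟨k, rfl⟩ := isConj_iff.1 ha; rw [H08.orderOf_conj', ha₀]
  have ob : orderOf b = 2 := by
    rw [hJ] at hb; obtain ⟨k, e⟩ := isConj_iff.1 hb; rw [← e, H08.orderOf_conj', hb₀]
  have sa := H08.mul_self_of_orderOf oa
  have sb := H08.mul_self_of_orderOf ob
  have hev := H08.even_orderOf_mul_of_not_isConj sa sb fun h => hIJ (by
    rw [hI, hJ] at *
    ext x
    exact ⟨fun hx => (IsConj.trans hb h.symm).trans (IsConj.trans (IsConj.symm ha) hx),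
      fun hx => (IsConj.trans ha h).trans (IsConj.trans (IsConj.symm hb) hx)⟩)
  have c1 := H08.commute_half_pow_left sa sb hev
  have c2 := H08.commute_half_pow_right sa sb hev
  have oz := H08.half_pow_invol hev
  have hza : (a * b) ^ (orderOf (a * b) / 2) * a ∈ I ∪ J := by
    rcases H08.conj_mul_half_pow sa sb hev with ⟨-, k, h, -⟩ | ⟨-, ⟨k, h⟩, -⟩
    · exact Or.inl (h ▸ hcI a ha _)
    · exact Or.inr (h ▸ hcJ b hb _)
  set z := (a * b) ^ (orderOf (a * b) / 2)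
  have hzH : z ∈ H := by
    simpa using uniq a (Or.inl ha) 1 z (by simpa using haH) (by rwa [mul_assoc, ← c1.eq, inv_mul_cancel_left])
  have := hcent a ha haH _ hza (mul_mem hzH haH)
    (fun h => H08.ne_one_of_orderOf oz (by simpa using h)) (by rw [← mul_assoc, c1.eq])
  rw [← mul_assoc, ← c1.eq, mul_assoc, sa, mul_one] at this
  have hbH' : b ∈ H := this (Subgroup.mem_centralizer_singleton_iff.2 c2.eq.symm)
  simpa using uniq b (Or.inr hb) 1 g (by simpa using hbH') (by simpa [hbdef, mul_assoc] using hbH)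

end Cfsg.Agent.S5439
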