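import Mathlib
import Cfsg.Statements.S5441
import Cfsg.Agent.H01.XF4

set_option autoImplicit false
open Cfsg

namespace Cfsg.Agent.S5441

/-- Let G be a finite group of large Fischer type at the involution z: the generalized Fitting subgroup Q of H = C_G(z) is extraspecial of order 2^13, H has normal subgroups Q ≤ H₁ ≤ H₂ with H₁/Q of order 3, H₂/H₁ the projective special unitary group of dimension 4 over the field with nine elements and H₂ of index 2 in H, and some conjugate of z other than z lies in Q. Then the conjugates of z lying in Q and different from z form a single orbit under conjugation by H. -/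
theorem result {G : Type*} [Group G] [Finite G] (z : G) (Q : Subgroup (Subgroup.centralizer ({z} : Set G))) [Q.Normal] (hF : Cfsg.IsOfLargeFischerTypeAt z Q) (s t : G) (hsQ : ∃ hsc : s ∈ Subgroup.centralizer ({z} : Set G), (⟨s, hsc⟩ : Subgroup.centralizer ({z} : Set G)) ∈ Q) (htQ : ∃ htc : t ∈ Subgroup.centralizer ({z} : Set G), (⟨t, htc⟩ : Subgroup.centralizer ({z} : Set G)) ∈ Q) (hs : IsConj z s) (ht : IsConj z t) (hs1 : s ≠ z) (ht1 : t ≠ z) : ∃ h ∈ Subgroup.centralizer ({z} : Set G), h * s * h⁻¹ = t := by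
    obtain ⟨V, _, _, _, π, ν, T, d, M, β, q, b⟩ := H01.XF.br hF
    obtain ⟨g, rfl⟩ := isConj_iff.1 hs
    obtain ⟨k, rfl⟩ := isConj_iff.1 ht
    obtain ⟨_, i⟩ := hsQ
    obtain ⟨_, j⟩ := htQ
    have h' := b.pt k ⟨_, j, rfl⟩ ht1
    obtain ⟨x, e⟩ := (b.pt g ⟨_, i, rfl⟩ hs1).tr1 h'
    obtain ⟨x, m, rfl⟩ := b.sur x
    obtain ⟨y, o, e, -⟩ := b.adj m ⟨_, i, rfl⟩ ⟨_, j, rfl⟩ (b.md.lx.cj k).zz h'.a0 e
    exact ⟨y, o, e⟩

end Cfsg.Agent.S5441
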