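import Mathlib
import Cfsg.Statements.S5442
import Cfsg.Agent.H01.XF4

set_option autoImplicit false
open Cfsg

namespace Cfsg.Agent.S5442

/-- Let G be a finite group of large Fischer type at the involution z: the generalized Fitting subgroup Q of H = C_G(z) is extraspecial of order 2^13, H has normal subgroups Q ≤ H₁ ≤ H₂ with H₁/Q of order 3, H₂/H₁ the projective special unitary group of dimension 4 over the field with nine elements and H₂ of index 2 in H, and some conjugate of z other than z lies in Q. Let s = g z g⁻¹ be a conjugate of z lying in Q and different from z. Then the intersection of Q and g Q g⁻¹ (as subgroups of G) is elementary abelian of order 2^7; and in H/Q, writing X for the image of the centralizer of s in H and E for the image of the intersection of g Q g⁻¹ with H, E is a normal subgroup of X, elementary abelian of order 32, with X/E isomorphic to the alternating group of degree 6. -/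
theorem result {G : Type*} [Group G] [Finite G] (z : G) (Q : Subgroup (Subgroup.centralizer ({z} : Set G))) [Q.Normal] (hF : Cfsg.IsOfLargeFischerTypeAt z Q) (s : G) (hsQ : ∃ hsc : s ∈ Subgroup.centralizer ({z} : Set G), (⟨s, hsc⟩ : Subgroup.centralizer ({z} : Set G)) ∈ Q) (hs : IsConj z s) (hs1 : s ≠ z) (g : G) (hg : g * z * g⁻¹ = s) (X E : Subgroup ((Subgroup.centralizer ({z} : Set G)) ⧸ Q)) (hX : X = ((Subgroup.centralizer ({z} : Set G) ⊓ Subgroup.centralizer ({s} : Set G)).subgroupOf (Subgroup.centralizer ({z} : Set G))).map (QuotientGroup.mk' Q)) (hE : E = ((((Q.map (Subgroup.centralizer ({z} : Set G)).subtype)).map (MulAut.conj g).toMonoidHom ⊓ Subgroup.centralizer ({z} : Set G)).subgroupOf (Subgroup.centralizer ({z} : Set G))).map (QuotientGroup.mk' Q)) : Cfsg.IsElementaryAbelian 2 ((Q.map (Subgroup.centralizer ({z} : Set G)).subtype) ⊓ ((Q.map (Subgroup.centralizer ({z} : Set G)).subtype)).map (MulAut.conj g).toMonoidHom) ∧ Nat.card ↥((Q.map (Subgroup.centralizer ({z}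 : Set G)).subtype) ⊓ ((Q.map (Subgroup.centralizer ({z} : Set G)).subtype)).map (MulAut.conj g).toMonoidHom) = 2 ^ 7 ∧ E ≤ X ∧ (∀ x ∈ X, ∀ y ∈ E, x * y * x⁻¹ ∈ E) ∧ Cfsg.IsElementaryAbelian 2 E ∧ Nat.card E = 32 ∧ ∃ _ : (E.subgroupOf X).Normal, Nonempty (↥X ⧸ E.subgroupOf X ≃* alternatingGroup (Fin 6)) := by
    obtain ⟨V, _, _, _, π, ν, T, d, M, β, q, b⟩ := H01.XF.br hF
    subst hg
    obtain ⟨_, i⟩ := hsQ
    have sQ : g * z * g⁻¹ ∈ Q.map (Subgroup.subtype _) := ⟨_, i, rfl⟩
    have l := b.md.lx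
    have l' := l.cj g
    have p := H03.ES.pp ⟨l.aes, l.cent, l.norm⟩ sQ hs1 (by rw [b.card]; omega)
    have h := b.pt g sQ hs1
    generalize Q.map (Subgroup.subtype _) = Q' at *
    change E = ((BG.cj g Q' ⊓ _).subgroupOf _).map _ at hE
    rw [← hE] at h
    obtain ⟨-, l1, φ, e1, e2⟩ := h.orb
    obtain rfl : h.S (ν (g * z * g⁻¹)) = X := by
      rw [hX]
      refine le_antisymm (fun x e => ?_) ?_
      · obtain ⟨x, m, rfl⟩ := b.sur x
        obtain ⟨y, o, e, e'⟩ := b.adj m sQ sQ l'.zz h.a0 e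
        exact ⟨⟨y, o⟩, ⟨o, H03.mem_cent1c.2 e⟩, (b.pf _).trans e'⟩
      · rintro _ ⟨x, m, rfl⟩
        show T _ _ = _
        rw [b.pf, b.act _ x.2 _ sQ]; exact congrArg ν (H03.mem_cent1c.1 m.2)
    have ea : ∀ {H : Type u_1} [Group H] (A : Subgroup H), (∀ x ∈ A, x * x = 1) → IsElementaryAbelian 2 A := fun A k =>
      ⟨⟨⟨fun x y => Subtype.ext (by
        refine (mul_eq_one_iff_eq_inv.1 (k _ (x * y).2)).trans ?_
        rw [Subgroup.coe_mul, mul_inv_rev, ← mul_eq_one_iff_eq_inv.1 (k _ x.2), ← mul_eq_one_iff_eq_inv.1 (k _ y.2)]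
        rfl)⟩⟩, fun x m => (pow_two x).trans (k x m)⟩
    have : (E.subgroupOf (h.S (ν (g * z * g⁻¹)))).Normal := e1 ▸ φ.normal_ker
    exact ⟨ea _ fun x m => (pow_two x).symm.trans ((l.sq m.1).elim id fun e => (l'.sq m.2).elim id fun e' =>
      absurd (e'.symm.trans e) hs1), (b.md.card_push p.hz).trans (by rw [h.main.2.1]; rfl), l1, fun x m => (h.st x m).1,
      ea _ h.X2, h.main.2.2.1, this, ⟨(QuotientGroup.quotientMulEquivOfEq e1.symm).trans
        ((QuotientGroup.quotientKerEquivRange φ).trans (MulEquiv.subgroupCongr e2))⟩⟩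

end Cfsg.Agent.S5442
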