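import Mathlib
import Cfsg.Statements.S5443
import Cfsg.Agent.H01.XF4
import Cfsg.Agent.H01.XF7

set_option autoImplicit false
open Cfsg

namespace Cfsg.Agent.S5443

/-- Let G be a finite group of large Fischer type at the involution z: the generalized Fitting subgroup Q of H = C_G(z) is extraspecial of order 2^13, H has normal subgroups Q ≤ H₁ ≤ H₂ with H₁/Q of order 3, H₂/H₁ the projective special unitary group of dimension 4 over the field with nine elements and H₂ of index 2 in H, and some conjugate of z other than z lies in Q. Let t be an involution of Q not conjugate to z in G, and S the set of elements of H conjugating t to t or to t z (the stabilizer of the image of t in Q modulo its centre). Then the image of S in H/Q is isomorphic to the full isometry group of the elliptic quadratic form in dimension 6 over the field with two elements. -/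
theorem result {G : Type*} [Group G] [Finite G] (z : G) (Q : Subgroup (Subgroup.centralizer ({z} : Set G))) [Q.Normal] (hF : Cfsg.IsOfLargeFischerTypeAt z Q) (t : Subgroup.centralizer ({z} : Set G)) (htQ : t ∈ Q) (ht2 : orderOf t = 2) (ht : ¬ IsConj z (t : G)) (S : Subgroup (Subgroup.centralizer ({z} : Set G))) (hS : ∀ h : Subgroup.centralizer ({z} : Set G), h ∈ S ↔ (h * t * h⁻¹ = t ∨ ((h * t * h⁻¹ : Subgroup.centralizer ({z} : Set G)) : G) = t * z)) : Nonempty (↥(S.map (QuotientGroup.mk' Q)) ≃* Cfsg.isometryGroup (ZMod 2) (Cfsg.quadFormMinus 2 (ZMod 2) 1 1)) := by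
    obtain ⟨V, _, _, _, π, ν, T, d, M, β, q, b⟩ := H01.XF.br hF
    obtain ⟨g, ⟨m, i⟩, n⟩ := hF.1.2.2.2.2
    have h := b.pt g ⟨_, i, rfl⟩ n
    have l := b.md.lx
    have tQ : t.1 ∈ Q.map (Subgroup.subtype _) := ⟨t, htQ, rfl⟩
    have t2 : t.1 * t.1 = 1 := by rw [← pow_two, ← ht2, ← Subgroup.orderOf_coe, pow_orderOf_eq_one]
    have t0 : ν t ≠ 0 := fun e => ((b.md.ker _ tQ).1 e).elim (fun e => by
      rw [← Subgroup.orderOf_coe, e] at ht2; simp at ht2) fun e => ht (by rw [e])
    have e : h.S (ν t) = S.map (QuotientGroup.mk' Q) := by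
      have k : ∀ y : Subgroup.centralizer ({z} : Set G), T (π y) (ν t) = ν t ↔ y ∈ S := fun y => by
        rw [b.act _ y.2 _ tQ, hS]
        refine ⟨fun e => (b.md.eq (l.cE y.2 tQ) tQ e).imp Subtype.ext fun e => e.trans (BG.mem_cent1.1 t.2).symm, ?_⟩
        rintro (e | e)
        · exact congrArg (fun x : Subgroup.centralizer ({z} : Set G) => ν x) e
        · exact (congrArg ν (e.trans (BG.mem_cent1.1 t.2))).trans (b.md.zm tQ)
      refine le_antisymm (fun x e => ?_) ?_
      · obtain ⟨x, m, rfl⟩ := b.sur x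
        exact ⟨⟨x, m⟩, (k ⟨x, m⟩).1 e, b.pf _⟩
      · rintro _ ⟨x, m, rfl⟩
        rw [b.pf]; exact (k x).2 m
    rw [← e]
    refine h.o6 t0 ((b.sq _ tQ).2 t2) fun ⟨y, e⟩ => ht ?_
    obtain ⟨y, o, rfl⟩ := b.sur y
    obtain ⟨y, -, e, -⟩ := b.adj o ⟨_, i, rfl⟩ tQ t2 t0 e
    exact (isConj_iff.2 ⟨g, rfl⟩).trans (isConj_iff.2 ⟨y, e⟩)

end Cfsg.Agent.S5443
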