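import Mathlib
import Cfsg.Statements.S5451
import Cfsg.Agent.H18.Fa
import Cfsg.Agent.H20.XfI
import Cfsg.Agent.H01.XG2

set_option autoImplicit false
open scoped Pointwise
open Cfsg

namespace Cfsg.Agent.S5451

/-- Let G be a finite group of large Fischer type at the involution z: the generalized Fitting subgroup Q of H = C_G(z) is extraspecial of order 2^13, H has normal subgroups Q ≤ H₁ ≤ H₂ with H₁/Q of order 3, H₂/H₁ the projective special unitary group of dimension 4 over the field with nine elements and H₂ of index 2 in H, and some conjugate of z other than z lies in Q. Let X be a subgroup of H of order 3 whose product with Q is normal in H (X maps onto the normal subgroup of order 3 of H/Q). Then the centralizer of X in H is quasisimple with cyclic centre of order 6 and central quotient isomorphic to the projective special unitary group of dimension 4 over the field with nine elements. -/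
theorem result {G : Type*} [Group G] [Finite G] (z : G) (Q : Subgroup (Subgroup.centralizer ({z} : Set G))) [Q.Normal] (hF : Cfsg.IsOfLargeFischerTypeAt z Q) (X : Subgroup (Subgroup.centralizer ({z} : Set G))) (hX : Nat.card X = 3) (hXQ : (X ⊔ Q).Normal) : Cfsg.IsQuasisimple ↥(Subgroup.centralizer ((X : Subgroup (Subgroup.centralizer ({z} : Set G))) : Set (Subgroup.centralizer ({z} : Set G)))) ∧ IsCyclic ↥(Subgroup.center ↥(Subgroup.centralizer ((X : Subgroup (Subgroup.centralizer ({z} : Set G))) : Set (Subgroup.centralizer ({z} : Set G))))) ∧ Nat.card ↥(Subgroup.center ↥(Subgroup.centralizer ((X : Subgroup (Subgroup.centralizer ({z} : Set G))) : Set (Subgroup.centralizer ({z} : Set G))))) = 6 ∧ ∃ (K : Type) (_ : Field K) (_ : Fintype K), Fintype.card K = 9 ∧ Nonempty (↥(Subgroup.centralizer ((X : Subgroup (Subgroup.centralizer ({z} : Set G))) : Set (Subgroup.centralizer ({z} : Set G)))) ⧸ Subgroup.center ↥(Subgroup.centralizer ((X : Subgroup (Subgroup.centralizer ({z} : Set G))) : Set (Subgroup.centralizer ({z} : Set G)))) ≃* Cfsg.PSU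 4 K 3) := by
  obtain ⟨V, _, _, _, π, ν, T, d, M, β, q, b⟩ := H01.XF.br hF
  obtain ⟨⟨-, -, -, -, g, ⟨m, i⟩, n⟩, N0, M0, nN, -, l1, l2, cN, ⟨K, _, _, cK, ⟨e⟩⟩, iM⟩ := hF
  have p := H03.ES.pp ⟨b.md.lx.aes, b.md.lx.cent, b.md.lx.norm⟩ ⟨_, i, rfl⟩ n (by rw [b.card]; omega)
  have c' := (BG.card_cj g _).trans b.card
  have h := b.hy p c'
  have cK' : Fintype.card K = 3 ^ 2 := cK
  have := Agent.S0283.result cK' 4 (by norm_num) (by norm_num)
  have nab : Subgroup.center (PSU 4 K 3) ≠ ⊤ := fun e => by
    have c : Nat.card (PSU 4 K 3) = 3265920 := by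
      have := Agent.S0280.result cK' 4 (by norm_num)
      generalize Nat.card (PSU 4 K 3) = n at this ⊢
      simp [Finset.prod_range_succ, Nat.even_iff] at this; omega
    let _ : CommGroup (PSU 4 K 3) := { (inferInstance : Group (PSU 4 K 3)) with
      mul_comm := fun x y => (Subgroup.mem_center_iff.1 (e.ge (Subgroup.mem_top y)) x) }
    have := IsSimpleGroup.prime_card (α := PSU 4 K 3)
    rw [c] at this
    norm_num at this
  obtain ⟨a1, a2, a3, a4⟩ := H18.Fa.main b h (H20.XfI.dcomm h) (fun δ i e o su => b.zc p c' i e o su) nab nN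
    (by rwa [QuotientGroup.ker_mk']) l2 (by rwa [QuotientGroup.ker_mk']) (e.toMonoidHom.comp (QuotientGroup.mk' _))
    (e.surjective.comp (QuotientGroup.mk'_surjective _)) (by ext x; simp) iM X hX (by rwa [QuotientGroup.ker_mk'])
  exact ⟨a1, a2, a3, K, _, _, cK, a4⟩

end Cfsg.Agent.S5451
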