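import Mathlib
import Cfsg.Statements.S5452
import Cfsg.Agent.H29.Out

set_option autoImplicit false
open Cfsg

namespace Cfsg.Agent.S5452

/-- Let G be a finite group with an involution d whose centralizer C is quasisimple with C modulo the subgroup generated by d isomorphic to the projective special unitary group of dimension 6 over the field with four elements, and suppose some conjugate of d other than d commutes with d. Then every involution of C modulo the subgroup generated by d is the image of an involution of C, and d is not a square in G. -/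
theorem result {G : Type*} [Group G] [Finite G] (d : G) (hd : orderOf d = 2) (hq : Cfsg.IsQuasisimple ↥(Subgroup.centralizer ({d} : Set G))) [hzn : ((Subgroup.zpowers d).subgroupOf (Subgroup.centralizer ({d} : Set G))).Normal] (K : Type) [Field K] [Fintype K] (hK : Fintype.card K = 4) (e : ↥(Subgroup.centralizer ({d} : Set G)) ⧸ (Subgroup.zpowers d).subgroupOf (Subgroup.centralizer ({d} : Set G)) ≃* Cfsg.PSU 6 K 2) (hnwc : ∃ g : G, g * d * g⁻¹ ∈ Subgroup.centralizer ({d} : Set G) ∧ g * d * g⁻¹ ≠ d) : (∀ x : ↥(Subgroup.centralizer ({d} : Set G)) ⧸ (Subgroup.zpowers d).subgroupOf (Subgroup.centralizer ({d} : Set G)), orderOf x = 2 → ∃ y : ↥(Subgroup.centralizer ({d} : Set G)), orderOf y = 2 ∧ (QuotientGroup.mk y : ↥(Subgroup.centralizer ({d} : Set G)) ⧸ (Subgroup.zpowers d).subgroupOf (Subgroup.centralizer ({d} : Set G))) = x) ∧ ¬ ∃ g : G, g ^ 2 = d := by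
  obtain ⟨T, hT, h1, h2⟩ := H29.exists_psu K hK (n := 6) (by norm_num)
  have X := H29.ext2_centralizer hd
  obtain ⟨a, b⟩ := X.not_sq ((QuotientGroup.eq_one_iff _).2 (Subgroup.mem_zpowers d))
    (fun q => by simp [show d = 1 from congrArg Subtype.val q] at hd) fun x hx =>
    (X.comp e).sq_of_inv (hT.r3 (n := 2)) h1 h2 hT.inv (hT.rel6 h1 h2) (by simpa using congrArg e hx)
  exact ⟨a, fun ⟨g, q⟩ => b ⟨g, Subgroup.mem_centralizer_singleton_iff.2 (q ▸ Commute.self_pow g 2)⟩
    (Subtype.ext ((sq g).symm.trans q))⟩

end Cfsg.Agent.S5452
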