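import Mathlib
import Cfsg.Statements.S5454
import Cfsg.Agent.H13.J22
import Cfsg.Agent.H29.Rec

set_option autoImplicit false
open Cfsg

namespace Cfsg.Agent.S5454

/-- Let G be a finite group with an involution d whose centralizer C is quasisimple with C modulo the subgroup generated by d isomorphic to the projective special unitary group of dimension 6 over the field with four elements, and suppose some conjugate of d other than d commutes with d. Let S be a Sylow 2-subgroup of C and A the Thompson subgroup of S (generated by the elementary abelian subgroups of S of largest order), regarded as a subgroup of G. Then A is elementary abelian of order 2^10, exactly 22 conjugates of d lie in A, and the normalizer of A permutes them transitively. -/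
theorem result {G : Type*} [Group G] [Finite G] (d : G) (hd : orderOf d = 2) (hq : Cfsg.IsQuasisimple ↥(Subgroup.centralizer ({d} : Set G))) [hzn : ((Subgroup.zpowers d).subgroupOf (Subgroup.centralizer ({d} : Set G))).Normal] (K : Type) [Field K] [Fintype K] (hK : Fintype.card K = 4) (e : ↥(Subgroup.centralizer ({d} : Set G)) ⧸ (Subgroup.zpowers d).subgroupOf (Subgroup.centralizer ({d} : Set G)) ≃* Cfsg.PSU 6 K 2) (hnwc : ∃ g : G, g * d * g⁻¹ ∈ Subgroup.centralizer ({d} : Set G) ∧ g * d * g⁻¹ ≠ d) (S : Sylow 2 ↥(Subgroup.centralizer ({d} : Set G))) (A : Subgroup G) (hA : A = (Cfsg.thompsonSubgroupOf 2 (S : Subgroup ↥(Subgroup.centralizer ({d} : Set G)))).map (Subgroup.centralizer ({d} : Set G)).subtype) : Cfsg.IsElementaryAbelian 2 A ∧ Nat.card A = 2 ^ 10 ∧ Set.ncard {x : G | x ∈ A ∧ IsConj d x} = 22 ∧ ∀ x ∈ A, ∀ y ∈ A, IsConj d x → IsConj d y → ∃ n ∈ Subgroup.normalizer (A : Set G), n * x * n⁻¹ = y := by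
  obtain ⟨T, hT, h1, h2⟩ := H29.exists_psu K hK (n := 6) (by norm_num)
  obtain ⟨a, b, c⟩ := H29.rec22 (by rw [← sq, ← hd, pow_orderOf_eq_one]) (fun q => by simp [q] at hd)
    ((H29.ext2_centralizer hd).comp e) (by simp [Subgroup.mem_subgroupOf])
    hq.1.commutator_eq_top hnwc hT h1 h2
  obtain ⟨f, hf⟩ := H13.T22.model a b c
  have M := H13.M22.mo.map f.symm
  rw [H13.M22.dw_eq, ← hf, Set.image_image, show (fun x => f.symm (f x)) = id from funext f.symm_apply_apply, Set.image_id] at M
  obtain ⟨_, B⟩ := H13.Bse.cen (H13.J22.bse M) a.1.tt mem_conjugatesOf_self S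
  rw [← hA] at B
  exact ⟨B.ja.2.1, B.cd, (congrArg _ (Set.inter_comm _ _)).trans B.nc, fun x p y q r s => B.tr x ⟨r, p⟩ y ⟨s, q⟩⟩

end Cfsg.Agent.S5454
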