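import Mathlib
import Cfsg.Statements.S5459
import Cfsg.Agent.H08.Dihedral
import Cfsg.Agent.H22.Components

set_option autoImplicit false
open Cfsg

namespace Cfsg.Agent.S5459

/-- Let G be a finite group with a quasisimple normal subgroup L and an involution d such that G is generated by L and d, the centre of L has odd order, and d inverts every element of the centre of L. If the commuting graph on the conjugacy class of the image of d in G modulo the centre of L is connected, then the commuting graph on the conjugacy class of d is connected. -/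
theorem result {G : Type*} [Group G] [Finite G] (L : Subgroup G) [L.Normal] (hL : Cfsg.IsQuasisimple ↥L) (d : G) (hd : orderOf d = 2) (hgen : L ⊔ Subgroup.zpowers d = ⊤) (hodd : Odd (Nat.card ↥(Subgroup.center ↥L))) (hinv : ∀ c ∈ (Subgroup.center ↥L).map L.subtype, d * c * d⁻¹ = c⁻¹) [hn : ((Subgroup.center ↥L).map L.subtype).Normal] (hconn : (Cfsg.commutingGraph (conjugatesOf (QuotientGroup.mk d : G ⧸ (Subgroup.center ↥L).map L.subtype))).Connected) : (Cfsg.commutingGraph (conjugatesOf d)).Connected := by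
  set Z := (Subgroup.center ↥L).map L.subtype with hZ
  have hZc : ∀ z ∈ Z, ∀ x ∈ L, x * z = z * x := by
    rintro _ ⟨z, hz, rfl⟩ x hx
    exact congrArg Subtype.val (Subgroup.mem_center_iff.1 hz ⟨x, hx⟩)
  have hZL : Z ≤ L := Subgroup.map_subtype_le _
  have sd := H08.mul_self_of_orderOf hd
  have hsqrt : ∀ z ∈ Z, ∃ w ∈ Z, w * w = z := by
    intro z hz
    have h1 : Odd (Nat.card Z) := by rwa [hZ, Subgroup.card_subtype]
    obtain ⟨m, hm⟩ := h1
    refine ⟨z ^ (m + 1), pow_mem hz _, ?_⟩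
    have : z ^ Nat.card Z = 1 := congrArg Subtype.val (pow_card_eq_one' (x := (⟨z, hz⟩ : Z)))
    rw [← pow_add, show m + 1 + (m + 1) = Nat.card Z + 1 by omega, pow_succ, this, one_mul]
  have hinv' : ∀ a ∈ conjugatesOf d, ∀ c ∈ Z, a * c * a⁻¹ = c⁻¹ := by
    intro a ha c hc
    obtain ⟨g, rfl⟩ := isConj_iff.1 ha
    have := hinv _ (hn.conj_mem c hc g⁻¹)
    calc _ = g * (d * (g⁻¹ * c * g⁻¹⁻¹) * d⁻¹) * g⁻¹ := by group
      _ = _ := by rw [this]; group
  have sq : ∀ a ∈ conjugatesOf d, a * a = 1 := fun a ha => by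
    obtain ⟨g, rfl⟩ := isConj_iff.1 ha
    calc _ = g * (d * d) * g⁻¹ := by group
      _ = _ := by rw [sd]; group
  have cj : ∀ a ∈ conjugatesOf d, ∀ g : G, g * a * g⁻¹ ∈ conjugatesOf d := fun a ha g =>
    IsConj.trans ha (isConj_iff.2 ⟨g, rfl⟩)
  have shift : ∀ b ∈ conjugatesOf d, ∀ w ∈ Z, ∃ u ∈ Z, u * b * u⁻¹ = b * w := by
    intro b hb w hw
    obtain ⟨u, hu, rfl⟩ := hsqrt w hw
    refine ⟨u⁻¹, inv_mem hu, ?_⟩
    rw [← hinv' b hb u hu, hinv' b hb u hu, inv_inv, ← hinv' b hb u hu]; group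
  let r : G → G → Prop := Relation.ReflTransGen fun x y =>
    x ∈ conjugatesOf d ∧ y ∈ conjugatesOf d ∧ Commute x y
  have rc : ∀ (g : G) {a b}, r a b → r (g * a * g⁻¹) (g * b * g⁻¹) := fun g a b h => by
    induction h with
    | refl => exact Relation.ReflTransGen.refl
    | tail _ h ih => exact ih.tail ⟨cj _ h.1 g, cj _ h.2.1 g, h.2.2.conj g⟩
  have rs : ∀ {a b}, r a b → r b a := fun h => by
    induction h with
    | refl => exact Relation.ReflTransGen.refl
    | tail _ h ih => exact Relation.ReflTransGen.head ⟨h.2.1, h.1, h.2.2.symm⟩ ih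
  have lift : ∀ {x y : conjugatesOf (d : G ⧸ Z)} (_ : (Cfsg.commutingGraph _).Walk x y),
      ∀ b ∈ conjugatesOf d, (b : G ⧸ Z) = y → ∃ a ∈ conjugatesOf d, (a : G ⧸ Z) = x ∧ r a b := by
    intro x y w
    induction w with
    | nil => exact fun b hb e => ⟨b, hb, e, Relation.ReflTransGen.refl⟩
    | @cons x y z hxy _ ih =>
      intro b hb e
      obtain ⟨a, ha, e1, h1⟩ := ih b hb e
      obtain ⟨g, hg⟩ := isConj_iff.1 x.2
      obtain ⟨g, rfl⟩ := QuotientGroup.mk_surjective g
      have hc := cj d (IsConj.refl d) g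
      set c := g * d * g⁻¹
      have e2 : (c : G ⧸ Z) = x := hg
      have h2 : Commute (x : G ⧸ Z) y := by
        rcases (SimpleGraph.fromRel_adj _ _ _).1 hxy with ⟨-, h | h⟩
        exacts [h, h.symm]
      rw [← e1, ← e2] at h2
      have h3 : (a * c)⁻¹ * (c * a) ∈ Z := QuotientGroup.eq.1 h2.symm.eq
      obtain ⟨w, hw, e3⟩ := hsqrt _ h3
      obtain ⟨u, hu, e4⟩ := shift c hc w hw
      refine ⟨c * w, e4 ▸ cj c hc u, ?_, Relation.ReflTransGen.head ⟨e4 ▸ cj c hc u, ha, ?_⟩ h1⟩
      · rw [QuotientGroup.mk_mul_of_mem c hw, e2]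
      · have e5 := hinv' a ha w⁻¹ (inv_mem hw)
        rw [inv_inv] at e5
        calc c * w * a = (a * c) * ((a * c)⁻¹ * (c * a)) * w⁻¹ := by
              conv_lhs => rw [← e5]
              group
          _ = a * (c * w) := by rw [← e3]; group
  let N : Subgroup G :=
    { carrier := {g | r d (g * d * g⁻¹)}
      one_mem' := by simpa using Relation.ReflTransGen.refl
      mul_mem' := fun {g k} hg hk => by
        change r d _
        simpa only [mul_inv_rev, mul_assoc] using Relation.ReflTransGen.trans hg (rc g hk)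
      inv_mem' := fun {g} hg => by simpa [mul_assoc] using rs (rc g⁻¹ hg) }
  have hNZ : ∀ g : G, ∃ z ∈ Z, z * g ∈ N := by
    intro g
    obtain ⟨w⟩ := hconn.preconnected ⟨_, isConj_iff.2 ⟨(g : G ⧸ Z), rfl⟩⟩ ⟨_, IsConj.refl _⟩
    obtain ⟨a, ha, e, h⟩ := lift w d (IsConj.refl d) rfl
    have h1 : (g * d * g⁻¹)⁻¹ * a ∈ Z := QuotientGroup.eq.1 e.symm
    obtain ⟨u, hu, e1⟩ := shift _ (cj d (IsConj.refl d) g) _ h1
    refine ⟨u, hu, ?_⟩
    change r d _
    rw [mul_inv_cancel_left] at e1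
    have := rs h
    rw [← e1] at this
    simpa only [mul_inv_rev, mul_assoc] using this
  have hLN : L ≤ N := by
    rw [← (H22.isQuasisimple_subgroup_iff.1 hL).1, Subgroup.commutator_le]
    intro x hx y hy
    obtain ⟨z, hz, h1⟩ := hNZ x
    obtain ⟨z', hz', h2⟩ := hNZ y
    have := mul_mem (mul_mem (mul_mem h1 h2) (inv_mem h1)) (inv_mem h2)
    convert this using 1
    have a1 := hZc z hz _ (mul_mem (mul_mem hx (mul_mem (hZL hz') hy)) (inv_mem hx))
    have a2 := hZc z' hz' _ hx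
    have a3 := hZc z' hz' _ (mul_mem (mul_mem (mul_mem hx hy) (inv_mem hx)) (inv_mem hy))
    rw [commutatorElement_def]
    calc x * y * x⁻¹ * y⁻¹ = x * y * x⁻¹ * y⁻¹ * z' * z'⁻¹ := by group
      _ = z' * x * y * x⁻¹ * (z' * y)⁻¹ := by rw [a3]; group
      _ = x * (z' * y) * x⁻¹ * z * z⁻¹ * (z' * y)⁻¹ := by rw [← a2]; group
      _ = _ := by rw [a1]; group
  have hN : N = ⊤ := by
    rw [eq_top_iff, ← hgen, sup_le_iff, Subgroup.zpowers_le]
    exact ⟨hLN, by change r d _; simpa using Relation.ReflTransGen.refl⟩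
  have : Nonempty (conjugatesOf d) := ⟨⟨d, IsConj.refl d⟩⟩
  have key : ∀ z, r d z → ∀ hz : z ∈ conjugatesOf d,
      (Cfsg.commutingGraph _).Reachable ⟨d, IsConj.refl d⟩ ⟨z, hz⟩ := by
    intro z h
    induction h with
    | refl => exact fun _ => SimpleGraph.Reachable.refl _
    | @tail u v _ h ih =>
      intro hv
      refine (ih h.1).trans ?_
      by_cases huv : u = v
      · subst huv; exact SimpleGraph.Reachable.refl _
      · exact SimpleGraph.Adj.reachable ((SimpleGraph.fromRel_adj _ _ _).2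
          ⟨fun e => huv (congrArg Subtype.val e), Or.inl h.2.2⟩)
  have key2 : ∀ x : conjugatesOf d, (Cfsg.commutingGraph _).Reachable ⟨d, IsConj.refl d⟩ x := by
    rintro ⟨x, hx⟩
    obtain ⟨g, rfl⟩ := isConj_iff.1 hx
    exact key _ (hN ▸ Subgroup.mem_top g : g ∈ N) _
  exact ⟨fun x y => (key2 x).symm.trans (key2 y)⟩

end Cfsg.Agent.S5459
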