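import Mathlib
import Cfsg.Statements.S5462
import Cfsg.Agent.H29.Invol2
import Cfsg.Agent.H13.T22

set_option autoImplicit false
open Cfsg

namespace Cfsg.Agent.S5462

/-- Let G be a finite group with trivial centre generated by a conjugation-invariant set D of 3-transpositions on which it acts primitively, such that for some d in D the subgroup generated by the members of D other than d commuting with d has central largest normal 2- and 3-subgroups, and suppose G with D is of type M(22). Then every automorphism of G of order 2 fixes some member of D. -/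
theorem result {G : Type*} [Group G] [Finite G] {D : Set G} (hD : Cfsg.IsThreeTranspositionGroup D) (hprim : Cfsg.IsPrimitiveUnderConj D) (d₀ : G) (hd₀ : d₀ ∈ D) (h3 : Cfsg.pCore 3 ↥(Subgroup.closure {y : G | y ∈ D ∧ y ≠ d₀ ∧ Commute d₀ y}) ≤ Subgroup.center ↥(Subgroup.closure {y : G | y ∈ D ∧ y ≠ d₀ ∧ Commute d₀ y})) (h2 : Cfsg.pCore 2 ↥(Subgroup.closure {y : G | y ∈ D ∧ y ≠ d₀ ∧ Commute d₀ y}) ≤ Subgroup.center ↥(Subgroup.closure {y : G | y ∈ D ∧ y ≠ d₀ ∧ Commute d₀ y})) (h22 : Cfsg.IsOfTypeM22 G D) (φ : MulAut G) (hφ : orderOf φ = 2) : ∃ d ∈ D, φ d = d := by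
  have h := H29.t22_of_type hD hprim h22
  have i := H29.isoBy_hom h.1.tt φ.toMonoidHom (fun a ha => by simpa using H29.tts_ne_one hD.1 ha) φ.injective.injOn
  have e : φ '' D = D := h.rl.class_unique hD.2.2 h22.1 (h.inv (h.ci H13.Fi23.t23))
    (H29.class_of_group (i.tt'.group (by
      rw [← MonoidHom.map_closure, hD.2.2, Subgroup.map_top_of_surjective _ φ.surjective])) (i.mem hd₀)
      fun b hb => let ⟨g, _, q⟩ := i.cls h.1.cls _ (i.mem hd₀) b hb; ⟨g, q⟩)
  exact h.fix (f := φ) (by simpa [e] using i) fun x _ => by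
    rw [← MulAut.mul_apply, ← sq, ← hφ, pow_orderOf_eq_one, MulAut.one_apply]

end Cfsg.Agent.S5462
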