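import Mathlib
import Cfsg.Statements.S5463
import Cfsg.Agent.H29.Invol2

set_option autoImplicit false
open Cfsg

namespace Cfsg.Agent.S5463

/-- Let G be a finite group with trivial centre generated by a conjugation-invariant set D of 3-transpositions on which it acts primitively, such that for some d in D the subgroup generated by the members of D other than d commuting with d has central largest normal 2- and 3-subgroups, and suppose G with D is of type M(22). A product j of two distinct commuting members of D determines the pair: any two 2-element sets of commuting members of D with product j coincide. A product j of three distinct pairwise commuting members of D arises from exactly two such 3-element sets. -/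
theorem result {G : Type*} [Group G] [Finite G] {D : Set G} (hD : Cfsg.IsThreeTranspositionGroup D) (hprim : Cfsg.IsPrimitiveUnderConj D) (d₀ : G) (hd₀ : d₀ ∈ D) (h3 : Cfsg.pCore 3 ↥(Subgroup.closure {y : G | y ∈ D ∧ y ≠ d₀ ∧ Commute d₀ y}) ≤ Subgroup.center ↥(Subgroup.closure {y : G | y ∈ D ∧ y ≠ d₀ ∧ Commute d₀ y})) (h2 : Cfsg.pCore 2 ↥(Subgroup.closure {y : G | y ∈ D ∧ y ≠ d₀ ∧ Commute d₀ y}) ≤ Subgroup.center ↥(Subgroup.closure {y : G | y ∈ D ∧ y ≠ d₀ ∧ Commute d₀ y})) (h22 : Cfsg.IsOfTypeM22 G D) : (∀ (j : G) (l l' : List G), (l.Nodup ∧ l.length = 2 ∧ (∀ a ∈ l, a ∈ D) ∧ (∀ a ∈ l, ∀ b ∈ l, Commute a b) ∧ l.prod = j) → (l'.Nodup ∧ l'.length = 2 ∧ (∀ a ∈ l', a ∈ D) ∧ (∀ a ∈ l', ∀ b ∈ l', Commute a b) ∧ l'.prod = j) → (∀ x : G, x ∈ l ↔ x ∈ l')) ∧ ∀ (j : G) (l₀ : List G), (l₀.Nodup ∧ l₀.length = 3 ∧ (∀ a ∈ l₀, a ∈ D) ∧ (∀ a ∈ l₀, ∀ b ∈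 l₀, Commute a b) ∧ l₀.prod = j) → ∃ l₁ l₂ : List G, (l₁.Nodup ∧ l₁.length = 3 ∧ (∀ a ∈ l₁, a ∈ D) ∧ (∀ a ∈ l₁, ∀ b ∈ l₁, Commute a b) ∧ l₁.prod = j) ∧ (l₂.Nodup ∧ l₂.length = 3 ∧ (∀ a ∈ l₂, a ∈ D) ∧ (∀ a ∈ l₂, ∀ b ∈ l₂, Commute a b) ∧ l₂.prod = j) ∧ ¬ (∀ x : G, x ∈ l₁ ↔ x ∈ l₂) ∧ ∀ l : List G, (l.Nodup ∧ l.length = 3 ∧ (∀ a ∈ l, a ∈ D) ∧ (∀ a ∈ l, ∀ b ∈ l, Commute a b) ∧ l.prod = j) → ((∀ x : G, x ∈ l ↔ x ∈ l₁) ∨ (∀ x : G, x ∈ l ↔ x ∈ l₂)) := by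
  have h := H29.t22_of_type hD hprim h22
  refine ⟨?_, fun j l₀ hl => ?_⟩
  · rintro _ l l' ⟨a1, a2, a3, a4, rfl⟩ ⟨b1, b2, b3, b4, e⟩ x
    exact ⟨H29.RL.sub (b2 ▸ h.rl) hD.1 (by rintro rfl; simp at b2) b1 b3 b4 a1 (by omega) a3 a4 e x,
      H29.RL.sub (a2 ▸ h.rl) hD.1 (by rintro rfl; simp at a2) a1 a3 a4 b1 (by omega) b3 b4 e.symm x⟩
  obtain ⟨d, hd, x, hx, y, hy, rfl⟩ := H29.cp_three.1 ⟨l₀, hl⟩
  obtain ⟨a, ha, b, hb, c, hc, e, q⟩ := h.two_fact hD.2.2 h22.1 hd hx hy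
  obtain ⟨n1, m1, c1⟩ := H29.list3 hd hx hy
  obtain ⟨n2, m2, c2⟩ := H29.list3 ha hb hc
  exact ⟨[d, x, y], [a, b, c], ⟨n1, rfl, m1, c1, by simp [mul_assoc]⟩,
    ⟨n2, rfl, fun u hu => (m2 u hu).1, c2, by simp [mul_assoc, e]⟩, fun r => (m2 d ((r d).1 (by simp))).2.1 rfl,
    fun l ⟨a1, a2, a3, a4, a5⟩ => q l a1 a2 a3 a4 a5⟩

end Cfsg.Agent.S5463
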