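import Mathlib
import Cfsg.Statements.S5464
import Cfsg.Agent.H29.Invol2

set_option autoImplicit false
open Cfsg

namespace Cfsg.Agent.S5464

/-- Let G be a finite group with trivial centre generated by a conjugation-invariant set D of 3-transpositions on which it acts primitively, such that for some d in D the subgroup generated by the members of D other than d commuting with d has central largest normal 2- and 3-subgroups, and suppose G with D is of type M(23) or of type M(24). Then for m ≤ 3, a product of m distinct pairwise commuting members of D determines the set of factors: any two m-element sets of pairwise commuting members of D with the same product coincide. -/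
theorem result {G : Type*} [Group G] [Finite G] {D : Set G} (hD : Cfsg.IsThreeTranspositionGroup D) (hprim : Cfsg.IsPrimitiveUnderConj D) (d₀ : G) (hd₀ : d₀ ∈ D) (h3 : Cfsg.pCore 3 ↥(Subgroup.closure {y : G | y ∈ D ∧ y ≠ d₀ ∧ Commute d₀ y}) ≤ Subgroup.center ↥(Subgroup.closure {y : G | y ∈ D ∧ y ≠ d₀ ∧ Commute d₀ y})) (h2 : Cfsg.pCore 2 ↥(Subgroup.closure {y : G | y ∈ D ∧ y ≠ d₀ ∧ Commute d₀ y}) ≤ Subgroup.center ↥(Subgroup.closure {y : G | y ∈ D ∧ y ≠ d₀ ∧ Commute d₀ y})) (h : Cfsg.IsOfTypeM23 G D ∨ Cfsg.IsOfTypeM24 G D) (m : ℕ) (hm : m ≤ 3) (j : G) (l l' : List G) (hl : (l.Nodup ∧ l.length = m ∧ (∀ a ∈ l, a ∈ D) ∧ (∀ a ∈ l, ∀ b ∈ l, Commute a b) ∧ l.prod = j)) (hl' : (l'.Nodup ∧ l'.length = m ∧ (∀ a ∈ l', a ∈ D) ∧ (∀ a ∈ l', ∀ b ∈ l', Commute a b) ∧ l'.prod = j)) : (∀ x : G, x ∈ l ↔ x ∈ l') := by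
  have R : H29.RL 3 D := h.elim (fun q => (H29.t23_of_type hD hprim q).rl)
    fun q => (H29.t24_of_type hD hprim q).rl.mono (by omega)
  obtain ⟨a1, rfl, a3, a4, rfl⟩ := hl
  obtain ⟨b1, b2, b3, b4, e⟩ := hl'
  by_cases q : l = []
  · subst q; simp [List.length_eq_zero_iff.1 b2]
  exact fun x => ⟨(R.mono (b2 ▸ hm)).sub hD.1 (by rintro rfl; exact q (List.length_eq_zero_iff.1 b2.symm)) b1 b3 b4 a1 hm
    a3 a4 e x, (R.mono hm).sub hD.1 q a1 a3 a4 b1 (b2 ▸ hm) b3 b4 e.symm x⟩

end Cfsg.Agent.S5464
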