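import Mathlib
import Cfsg.Statements.S5465
import Cfsg.Agent.H13.Cl

set_option autoImplicit false
open Cfsg

namespace Cfsg.Agent.S5465

/-- Let G be a finite group with trivial centre generated by a conjugation-invariant set D of 3-transpositions on which it acts primitively, such that for some d in D the subgroup generated by the members of D other than d commuting with d has central largest normal 2- and 3-subgroups, and suppose G with D is of type M(24), and let L be the commutator subgroup of G. Let d₁, d₂ be distinct commuting members of D and j = d₁ d₂. Then K, the joint centralizer of d₁ and d₂ in L, is quasisimple, is the generalized Fitting subgroup of the centralizer of j in L, has index 2 in it and contains j, and the centralizer of j in L modulo the subgroup generated by j is isomorphic to the full automorphism group of the Fischer group Fi₂₂ (as presented). -/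
theorem result {G : Type*} [Group G] [Finite G] {D : Set G} (hD : Cfsg.IsThreeTranspositionGroup D) (hprim : Cfsg.IsPrimitiveUnderConj D) (d₀ : G) (hd₀ : d₀ ∈ D) (h3 : Cfsg.pCore 3 ↥(Subgroup.closure {y : G | y ∈ D ∧ y ≠ d₀ ∧ Commute d₀ y}) ≤ Subgroup.center ↥(Subgroup.closure {y : G | y ∈ D ∧ y ≠ d₀ ∧ Commute d₀ y})) (h2 : Cfsg.pCore 2 ↥(Subgroup.closure {y : G | y ∈ D ∧ y ≠ d₀ ∧ Commute d₀ y}) ≤ Subgroup.center ↥(Subgroup.closure {y : G | y ∈ D ∧ y ≠ d₀ ∧ Commute d₀ y})) (h24 : Cfsg.IsOfTypeM24 G D) (L : Subgroup G) (hL : L = commutator G) (d₁ d₂ : G) (h₁ : d₁ ∈ D) (h₂ : d₂ ∈ D) (hne : d₁ ≠ d₂) (hc : Commute d₁ d₂) (K CL : Subgroup G) (hK : K = L ⊓ Subgroup.centralizer ({d₁, d₂} : Set G)) (hCL : CL = L ⊓ Subgroup.centralizer ({d₁ * d₂} : Set G)) [hn : ((Subgroup.zpowers (d₁ * d₂)).subgroupOf CL).Normal] : Cfsg.IsQuasisimple ↥K ∧ K = (Cfsg.generalizedFittingSubgroup ↥CL).map CL.subtype ∧ K ≤ CL ∧ (K.subgroupOf CL).index = 2 ∧ d₁ * d₂ ∈ K ∧ Nonempty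 (↥CL ⧸ (Subgroup.zpowers (d₁ * d₂)).subgroupOf CL ≃* MulAut Cfsg.Spor.Fi22) := by
  open Subgroup H13 H29 in
  have h := t24_of_type hD hprim h24
  obtain ⟨gen, M⟩ := H13.F24.of_type hD hprim h24
  have nm : ∀ d ∈ D, d ∉ L := hL ▸ H13.F24.not_mem_commutator M
  have i2 : L.index = 2 := hL ▸ H13.F24.index_commutator M hD
  have m : d₂ ∈ H29.dperp D d₁ := ⟨h₂, hne.symm, hc⟩
  obtain ⟨t, t1, tz⟩ := H13.T24.loc h hD.2.2 h24.1 nm i2 h₁
  have s1 := H29.tts_sq hD.1 h₁
  have mK : ∀ g, g ∈ K ↔ g ∈ L ∧ ∀ i, Commute g (![d₁, d₂] i) := fun g => by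
    simp [hK, Subgroup.mem_centralizer_iff, commute_iff_eq, @eq_comm _ (g * _)]
  have zK : d₁ * d₂ ∈ K := (mK _).2 ⟨by simp [Subgroup.mul_mem_iff_of_index_two i2, nm, h₁, h₂], by simp [hc, hc.symm]⟩
  let x : (L ⊓ Subgroup.centralizer {d₁} : Subgroup G) := ⟨d₁ * d₂, ((mK _).1 zK).1, Subgroup.mem_centralizer_singleton_iff.2 (((mK _).1 zK).2 0)⟩
  have hx : (x : G) * d₁ ∈ H29.dperp D d₁ := by rwa [show (x : G) * d₁ = d₂ by simp only [x, mul_assoc, ← hc.eq]; rw [← mul_assoc, s1, one_mul]]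
  obtain ⟨c2, ⟨e⟩, -⟩ := H13.T23.cover t t1 tz hx
  have := H13.Fi22.simple
  obtain ⟨a, q, ⟨e'⟩⟩ := H13.qs_map (Subgroup.subtype_injective _) ⟨⟨t.perfect t1 tz hx⟩, e.isSimpleGroup⟩ ⟨e⟩
  have k : (Subgroup.centralizer {x}).map (Subgroup.subtype _) = K := Subgroup.ext fun g => by
    rw [mK, Fin.forall_fin_two]
    refine ⟨?_, fun r => ⟨⟨g, r.1, Subgroup.mem_centralizer_singleton_iff.2 r.2.1⟩, Subgroup.mem_centralizer_singleton_iff.2
      (Subtype.ext (r.2.1.mul_right r.2.2)), rfl⟩⟩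
    rintro ⟨g, r, rfl⟩
    have b : Commute (g : G) d₁ := Subgroup.mem_centralizer_singleton_iff.1 g.2.2
    have c : Commute (g : G) (d₁ * d₂) := congrArg Subtype.val (Subgroup.mem_centralizer_singleton_iff.1 r)
    exact ⟨g.2.1, b, by simpa [← mul_assoc, s1] using b.mul_right c⟩
  have cz : Nat.card (Subgroup.center K) = 2 := by
    rw [← Subgroup.card_map_of_injective K.subtype_injective, ← k, a, Subgroup.card_map_of_injective (Subgroup.subtype_injective _),
      Subgroup.card_map_of_injective (Subgroup.subtype_injective _), c2]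
  rw [k] at q e'
  obtain ⟨u, hu, -⟩ := ((h.2 _ h₁).2 _ m).1.two
  obtain ⟨le, nr, ce, φ, sj, ker⟩ := H13.perm_cl (d := ![d₁, d₂]) (C := CL) (u := u) hD nm i2 (List.nodup_ofFn.1 (by simpa using hne))
    (by simp [h₁, h₂]) (by simp [hc, hc.symm]) (by decide) (h.rl.mono (by decide)) (fun σ => by
      obtain ⟨g, -, e0, e1⟩ := h.1.pair_comm h₁ m h₂ (H29.mem_dperp_comm h₁ m)
      have : σ = 1 ∨ σ = Equiv.swap 0 1 := by revert σ; decide
      rcases this with rfl | rfl
      exacts [⟨1, by simp⟩, ⟨g, by simp [e0, e1]⟩]) (by simpa using hCL) mK (h.rl.mono (by decide))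
    (Fin.forall_fin_two.2 ⟨hu.1, hu.1.1, hu.2⟩)
  have ix : (K.subgroupOf CL).index = 2 := by rw [ker, Subgroup.index_ker, MonoidHom.range_eq_top.2 sj]; simp [Fintype.card_perm]
  refine ⟨q, (H13.fstar_qs le nr q ce).symm, le, ix, zK, H13.qs_aut le nr q ce ?_ e' (le_of_eq ?_)⟩
  · refine (Subgroup.eq_of_le_of_card_ge (Subgroup.zpowers_le.2 (Subgroup.mem_map_of_mem K.subtype (x := ⟨_, zK⟩) (Subgroup.mem_center_iff.2
      fun g => Subtype.ext ((((mK g).1 g.2).2 0).mul_right (((mK g).1 g.2).2 1))))) ?_).symm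
    rw [Subgroup.card_map_of_injective K.subtype_injective, cz, Nat.card_zpowers]
    exact (Nat.two_le_iff _).2 ⟨(orderOf_pos _).ne', fun r => hne (by
      rw [eq_inv_of_mul_eq_one_left (orderOf_eq_one_iff.1 r), H29.tts_inv hD.1 h₂])⟩
  · rw [← (K.subgroupOf CL).card_mul_index, ix, Nat.card_congr (Subgroup.subgroupOfEquivOfLe le).toEquiv,
      Subgroup.card_eq_card_quotient_mul_card_subgroup (Subgroup.center K), Nat.card_congr e'.toEquiv, H13.card_aut H13.Fi22.center_eq,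
      H13.Fi22.t22.card_out H13.Fi22.closure_cls H13.Fi22.center_eq]
    ring

end Cfsg.Agent.S5465
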