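import Mathlib
import Cfsg.Statements.S5466
import Cfsg.Agent.H13.Cl
import Cfsg.Agent.S0815

set_option autoImplicit false
open Cfsg

namespace Cfsg.Agent.S5466

/-- Let G be a finite group with trivial centre generated by a conjugation-invariant set D of 3-transpositions on which it acts primitively, such that for some d in D the subgroup generated by the members of D other than d commuting with d has central largest normal 2- and 3-subgroups, and suppose G with D is of type M(24), and let L be the commutator subgroup of G. Let d₁, d₂, d₃ be distinct pairwise commuting members of D, j their product, E the subgroup generated by d₁ d₂ and d₁ d₃ (a four-group lying in L), CL the centralizer of j in L and K its generalized Fitting subgroup. Then K is quasisimple with centre E, K is the centralizer of E in L, K modulo E is isomorphic to the projective special unitary group of dimension 6 over the field with four elements, CL/K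 is isomorphic to the symmetric group of degree 3, and CL modulo E is isomorphic to the full automorphism group of that unitary group. -/
theorem result {G : Type*} [Group G] [Finite G] {D : Set G} (hD : Cfsg.IsThreeTranspositionGroup D) (hprim : Cfsg.IsPrimitiveUnderConj D) (d₀ : G) (hd₀ : d₀ ∈ D) (h3 : Cfsg.pCore 3 ↥(Subgroup.closure {y : G | y ∈ D ∧ y ≠ d₀ ∧ Commute d₀ y}) ≤ Subgroup.center ↥(Subgroup.closure {y : G | y ∈ D ∧ y ≠ d₀ ∧ Commute d₀ y})) (h2 : Cfsg.pCore 2 ↥(Subgroup.closure {y : G | y ∈ D ∧ y ≠ d₀ ∧ Commute d₀ y}) ≤ Subgroup.center ↥(Subgroup.closure {y : G | y ∈ D ∧ y ≠ d₀ ∧ Commute d₀ y})) (h24 : Cfsg.IsOfTypeM24 G D) (L : Subgroup G) (hL : L = commutator G) (d₁ d₂ d₃ : G) (h₁ : d₁ ∈ D) (h₂ : d₂ ∈ D) (h₃ : d₃ ∈ D) (h12 : d₁ ≠ d₂) (h13 : d₁ ≠ d₃) (h23 : d₂ ≠ d₃) (c12 : Commute d₁ d₂) (c13 : Commute d₁ d₃) (c23 : Commute d₂ d₃) (E CL K : Subgroup G) (hE : E = Subgroup.closure ({d₁ * d₂, d₁ * d₃} : Set G))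 (hCL : CL = L ⊓ Subgroup.centralizer ({d₁ * d₂ * d₃} : Set G)) (hK : K = (Cfsg.generalizedFittingSubgroup ↥CL).map CL.subtype) : Cfsg.IsQuasisimple ↥K ∧ (Subgroup.center ↥K).map K.subtype = E ∧ K = L ⊓ Subgroup.centralizer (E : Set G) ∧ (∃ (_ : (E.subgroupOf K).Normal) (F : Type) (_ : Field F) (_ : Fintype F), Fintype.card F = 4 ∧ Nonempty (↥K ⧸ E.subgroupOf K ≃* Cfsg.PSU 6 F 2)) ∧ ∃ _ : (K.subgroupOf CL).Normal, Nonempty (↥CL ⧸ K.subgroupOf CL ≃* Equiv.Perm (Fin 3)) ∧ E ≤ CL ∧ ∃ (_ : (E.subgroupOf CL).Normal) (F : Type) (_ : Field F) (_ : Fintype F), Fintype.card F = 4 ∧ Nonempty (↥CL ⧸ E.subgroupOf CL ≃* MulAut (Cfsg.PSU 6 F 2)) := by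
  have h := H29.t24_of_type hD hprim h24
  obtain ⟨gen, M⟩ := H13.F24.of_type hD hprim h24
  have nm : ∀ d ∈ D, d ∉ L := hL ▸ H13.F24.not_mem_commutator M
  have i2 : L.index = 2 := hL ▸ H13.F24.index_commutator M hD
  have m2 : d₂ ∈ H29.dperp D d₁ := ⟨h₂, h12.symm, c12⟩
  have m3 : d₃ ∈ H29.dperp (H29.dperp D d₁) d₂ := ⟨⟨h₃, h13.symm, c13⟩, h23.symm, c23⟩
  obtain ⟨t, t1, tz⟩ := H13.T24.loc h hD.2.2 h24.1 nm i2 h₁
  have s1 := H29.tts_sq hD.1 h₁
  let d : Fin 3 → G := ![d₁, d₂, d₃]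
  obtain ⟨n1, m1, c1⟩ := H29.list3 h₁ m2 m3
  have inj : Function.Injective d := List.nodup_ofFn.1 (by simpa [d] using n1)
  have dm : ∀ i, d i ∈ [d₁, d₂, d₃] := fun i => by fin_cases i <;> simp [d]
  have cm : ∀ i j, Commute (d i) (d j) := fun i j => c1 _ (dm i) _ (dm j)
  have sw : ∀ g e, e ∈ H29.dperp D d₁ → Commute g (d₁ * e) → g * d₁ * g⁻¹ = d₁ ∨ g * d₁ * g⁻¹ = e := fun g e m c => by
    simpa using H29.RL.sub (l := [d₁, e]) (l' := [g * d₁ * g⁻¹, g * e * g⁻¹]) (h.rl.mono (by simp)) hD.1 (by simp) (by simp [m.2.1.symm])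
      (by simp [h₁, m.1]) (by simp [m.2.2, m.2.2.symm]) (by simp [m.2.1.symm]) (by simp) (by simpa using ⟨hD.2.1 g _ h₁, hD.2.1 g _ m.1⟩)
      (by simp [m.2.2, m.2.2.symm]) (by simpa [mul_assoc] using (H29.conj_eq_of_commute c).symm) (g * d₁ * g⁻¹) (by simp)
  have cn : ∀ {g e : G}, Commute g d₁ → Commute g (d₁ * e) → Commute g e := fun a b => by simpa [← mul_assoc, s1] using a.mul_right b
  obtain ⟨K', hK'⟩ : ∃ K', K' = L ⊓ Subgroup.centralizer (E : Set G) := ⟨_, rfl⟩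
  have mK : ∀ g, g ∈ K' ↔ g ∈ L ∧ ∀ i, Commute g (d i) := fun g => by
    rw [hK', hE, Subgroup.centralizer_closure, Subgroup.mem_inf]
    refine and_congr_right' ⟨fun r => ?_, fun r => ?_⟩
    · have a : Commute g (d₁ * d₂) := (r _ (by simp)).symm
      have b : Commute g (d₁ * d₃) := (r _ (by simp)).symm
      have c : Commute g d₁ := mul_inv_eq_iff_eq_mul.1 ((sw g _ m2 a).elim id fun p => (sw g _ m3.1 b).resolve_right fun q => h23 (p.symm.trans q))
      exact Fin.forall_fin_succ.2 ⟨c, Fin.forall_fin_two.2 ⟨cn c a, cn c b⟩⟩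
    · rintro _ (rfl | rfl)
      exacts [((r 0).mul_right (r 1)).symm, ((r 0).mul_right (r 2)).symm]
  have xm : ∀ e ∈ H29.dperp D d₁, d₁ * e ∈ L ⊓ Subgroup.centralizer {d₁} := fun e m =>
    ⟨by simp [Subgroup.mul_mem_iff_of_index_two i2, nm, h₁, m.1], Subgroup.mem_centralizer_singleton_iff.2 (Commute.mul_left rfl m.2.2.symm)⟩
  have hx : ∀ e, ∀ m : e ∈ H29.dperp D d₁, d₁ * e * d₁ ∈ H29.dperp D d₁ := fun e m => by
    rwa [mul_assoc, ← m.2.2.eq, ← mul_assoc, s1, one_mul]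
  obtain ⟨z, q, e⟩ := H13.T23.two t t1 tz (d₁ := ⟨_, xm _ m2⟩) (d₂ := ⟨_, xm _ m3.1⟩) (hx _ m2) ⟨hx _ m3.1, fun r => h23
    (mul_left_cancel (congrArg Subtype.val r)).symm, Subtype.ext (Commute.mul_left (Commute.mul_right rfl c13) (c12.symm.mul_right c23))⟩ rfl
  obtain ⟨a, q, ⟨e'⟩⟩ := H13.qs_map (Subgroup.subtype_injective _) q e
  rw [z, MonoidHom.map_closure, Set.image_pair] at a
  have k : (Subgroup.centralizer {⟨_, xm _ m2⟩, ⟨_, xm _ m3.1⟩}).map (L ⊓ Subgroup.centralizer {d₁}).subtype = K' := Subgroup.ext fun g => by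
    rw [mK]
    refine ⟨?_, fun r => ⟨⟨g, r.1, Subgroup.mem_centralizer_singleton_iff.2 (r.2 0)⟩, ?_, rfl⟩⟩
    · rintro ⟨g, r, rfl⟩
      have b : Commute (g : G) d₁ := Subgroup.mem_centralizer_singleton_iff.1 g.2.2
      exact ⟨g.2.1, Fin.forall_fin_succ.2 ⟨b, Fin.forall_fin_two.2 ⟨cn b (congrArg Subtype.val (r _ (Or.inl rfl))).symm,
        cn b (congrArg Subtype.val (r _ (Or.inr rfl))).symm⟩⟩⟩
    · rintro _ (rfl | rfl)
      exacts [Subtype.ext ((r.2 0).mul_right (r.2 1)).symm, Subtype.ext ((r.2 0).mul_right (r.2 2)).symm]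
  rw [k] at a q e'
  replace a : (Subgroup.center K').map K'.subtype = E := a.trans hE.symm
  obtain ⟨u, hu, -⟩ := ((((h.2 _ h₁).2 _ m2).2 _ m3).r3 (n := 2)).two
  obtain ⟨le, nr, ce, φ, sj, ker⟩ := H13.perm_cl (d := d) (C := CL) (u := u) hD nm i2 inj (fun i => m1 _ (dm i)) cm le_rfl (h.rl.mono (by decide))
    (fun σ => by
      have ne : ∀ i j, i ≠ j → d (σ i) ≠ d (σ j) := fun i j q => inj.ne (σ.injective.ne q)
      obtain ⟨g, -, e0, e1, e2⟩ := h.1.triple (fun d hd => (h.2 d hd).1) h₁ m2 m3 (m1 _ (dm (σ 0)))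
        (b' := d (σ 1)) ⟨m1 _ (dm _), ne _ _ (by decide), cm _ _⟩ (c' := d (σ 2)) ⟨⟨m1 _ (dm _), ne _ _ (by decide), cm _ _⟩, ne _ _ (by decide), cm _ _⟩
      exact ⟨g, fun i => by fin_cases i; exacts [e0, e1, e2]⟩) (by simpa [d, mul_assoc] using hCL) mK (h.rl.mono (by decide))
    (Fin.forall_fin_succ.2 ⟨hu.1.1, Fin.forall_fin_two.2 ⟨⟨hu.1.1.1, hu.1.2⟩, hu.1.1.1, hu.2⟩⟩)
  obtain rfl : K = K' := hK.trans (H13.fstar_qs le nr q ce)
  have b : E.subgroupOf K = Subgroup.center K := a ▸ Subgroup.comap_map_eq_self_of_injective K.subtype_injective _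
  have nE : (E.subgroupOf CL).Normal := Subgroup.normal_subgroupOf_of_le_normalizer
    (a ▸ nr.trans (H02.normalizer_le_normalizer_map_subtype _))
  have : (K.subgroupOf CL).Normal := ker ▸ inferInstance
  have : (E.subgroupOf K).Normal := b ▸ inferInstance
  refine ⟨q, a, hK', ⟨this, H29.F4, inferInstance, inferInstance, rfl, ⟨(QuotientGroup.quotientMulEquivOfEq b).trans e'⟩⟩, ‹_›,
    ⟨(QuotientGroup.quotientMulEquivOfEq ker).trans (QuotientGroup.quotientKerEquivOfSurjective φ sj)⟩,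
    a ▸ (Subgroup.map_subtype_le _).trans le, nE, H29.F4, inferInstance, inferInstance, rfl, H13.qs_aut le nr q ce a e' (le_of_eq ?_)⟩
  rw [← (K.subgroupOf CL).card_mul_index, ker, Subgroup.index_ker, MonoidHom.range_eq_top.2 sj, ← ker,
    Nat.card_congr (Subgroup.subgroupOfEquivOfLe le).toEquiv, Subgroup.card_eq_card_quotient_mul_card_subgroup (Subgroup.center K),
    Nat.card_congr e'.toEquiv, Cfsg.Agent.S0815.result (q := 2) 2 1 le_rfl rfl rfl 6 (by decide) (by decide)]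
  simp [Fintype.card_perm, Nat.factorial]
  ring

end Cfsg.Agent.S5466
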