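import Mathlib
import Cfsg.Statements.S5467
import Cfsg.Agent.H13.Z4

set_option autoImplicit false
open Cfsg

namespace Cfsg.Agent.S5467

/-- Let G be a finite group with trivial centre generated by a conjugation-invariant set D of 3-transpositions on which it acts primitively, such that for some d in D the subgroup generated by the members of D other than d commuting with d has central largest normal 2- and 3-subgroups, and suppose G with D is of type M(24), and let L be the commutator subgroup of G. Let z be the product of four distinct pairwise commuting members of D (an involution of L) and C its centralizer in L. Then the generalized Fitting subgroup Q of C is extraspecial of order 2^13, and C has normal subgroups Q ≤ N ≤ M with N/Q of order 3, M/N isomorphic to the projective special unitary group of dimension 4 over the field with nine elements, and M of index 2 in C. -/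
theorem result {G : Type*} [Group G] [Finite G] {D : Set G} (hD : Cfsg.IsThreeTranspositionGroup D) (hprim : Cfsg.IsPrimitiveUnderConj D) (d₀ : G) (hd₀ : d₀ ∈ D) (h3 : Cfsg.pCore 3 ↥(Subgroup.closure {y : G | y ∈ D ∧ y ≠ d₀ ∧ Commute d₀ y}) ≤ Subgroup.center ↥(Subgroup.closure {y : G | y ∈ D ∧ y ≠ d₀ ∧ Commute d₀ y})) (h2 : Cfsg.pCore 2 ↥(Subgroup.closure {y : G | y ∈ D ∧ y ≠ d₀ ∧ Commute d₀ y}) ≤ Subgroup.center ↥(Subgroup.closure {y : G | y ∈ D ∧ y ≠ d₀ ∧ Commute d₀ y})) (h24 : Cfsg.IsOfTypeM24 G D) (L : Subgroup G) (hL : L = commutator G) (z : G) (l : List G) (hl : (l.Nodup ∧ l.length = 4 ∧ (∀ a ∈ l, a ∈ D) ∧ (∀ a ∈ l, ∀ b ∈ l, Commute a b) ∧ l.prod = z)) (C : Subgroup G) (hC : C = L ⊓ Subgroup.centralizer ({z} : Set G)) : ∃ (Q : Subgroup ↥C) (_ : Q.Normal), Cfsg.generalizedFittingSubgroup ↥C = Q ∧ Cfsg.IsExtraspecial 2 ↥Q ∧ Nat.card Q = 2 ^ 13 ∧ ∃ (N M : Subgroup ↥C) (_ : N.Normal) (_ : M.Normal), Q ≤ N ∧ N ≤ M ∧ Nat.card N = 3 * Nat.card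 Q ∧ (∃ (K : Type) (_ : Field K) (_ : Fintype K), Fintype.card K = 9 ∧ Nonempty (↥M ⧸ N.subgroupOf M ≃* Cfsg.PSU 4 K 3)) ∧ M.index = 2 := by
  obtain ⟨gen, M⟩ := H13.F24.of_type hD hprim h24
  have h := H29.t24_of_type hD hprim h24
  obtain ⟨n, e, m, c, rfl⟩ := hl
  obtain ⟨a, b, x, y, rfl⟩ := List.length_eq_four.1 e
  simp only [List.forall_mem_cons] at m c
  simp only [List.nodup_cons, List.mem_cons, List.not_mem_nil, or_false, not_or] at n
  obtain ⟨gen, M, rfl, rfl, rfl, rfl⟩ := H13.Z4.quad M h m.1 (b := b) (c := x) (d := y) ⟨m.2.1, Ne.symm n.1.1, c.1.2.1⟩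
    ⟨⟨m.2.2.1, Ne.symm n.1.2.1, c.1.2.2.1⟩, Ne.symm n.2.1.1, c.2.1.2.2.1⟩
    ⟨⟨⟨m.2.2.2.1, Ne.symm n.1.2.2, c.1.2.2.2.1⟩, Ne.symm n.2.1.2, c.2.1.2.2.2.1⟩, Ne.symm n.2.2.1, c.2.2.1.2.2.2.1⟩
  exact H13.Z4.main M hD h (hL ▸ hC)

end Cfsg.Agent.S5467
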