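import Mathlib
import Cfsg.Statements.S5468
import Cfsg.Agent.H29.Invol2

set_option autoImplicit false
open Cfsg

namespace Cfsg.Agent.S5468

/-- Let G be a finite group with trivial centre generated by a conjugation-invariant set D of 3-transpositions on which it acts primitively, such that for some d in D the subgroup generated by the members of D other than d commuting with d has central largest normal 2- and 3-subgroups, and suppose G with D is of type M(23). Let d₁, d₂ be distinct commuting members of D, j = d₁ d₂, K the joint centralizer of d₁ and d₂ and C the centralizer of j. Then K has index 2 in C, the centre of K is the subgroup generated by d₁ and d₂, K is quasisimple with K modulo its centre isomorphic to the projective special unitary group of dimension 6 over the field with four elements, and C modulo the subgroup generated by d₁ and d₂ has trivial centre (so it is that unitary group extended by an outer involution). -/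
theorem result {G : Type*} [Group G] [Finite G] {D : Set G} (hD : Cfsg.IsThreeTranspositionGroup D) (hprim : Cfsg.IsPrimitiveUnderConj D) (d₀ : G) (hd₀ : d₀ ∈ D) (h3 : Cfsg.pCore 3 ↥(Subgroup.closure {y : G | y ∈ D ∧ y ≠ d₀ ∧ Commute d₀ y}) ≤ Subgroup.center ↥(Subgroup.closure {y : G | y ∈ D ∧ y ≠ d₀ ∧ Commute d₀ y})) (h2 : Cfsg.pCore 2 ↥(Subgroup.closure {y : G | y ∈ D ∧ y ≠ d₀ ∧ Commute d₀ y}) ≤ Subgroup.center ↥(Subgroup.closure {y : G | y ∈ D ∧ y ≠ d₀ ∧ Commute d₀ y})) (h23 : Cfsg.IsOfTypeM23 G D) (d₁ d₂ : G) (h₁ : d₁ ∈ D) (h₂ : d₂ ∈ D) (hne : d₁ ≠ d₂) (hc : Commute d₁ d₂) (K C V : Subgroup G) (hK : K = Subgroup.centralizer ({d₁, d₂} : Set G)) (hC : C = Subgroup.centralizer ({d₁ * d₂} : Set G)) (hV : V = Subgroup.closure ({d₁, d₂} : Set G)) [hn : (V.subgroupOf C).Normal] : K ≤ C ∧ (K.subgroupOf C).index = 2 ∧ (Subgroup.center ↥K).map K.subtype = V ∧ Cfsg.IsQuasisimple ↥K ∧ (∃ (F : Type) (_ : Field F) (_ : Fintype F), Fintype.card F = 4 ∧ Nonempty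 (↥K ⧸ Subgroup.center ↥K ≃* Cfsg.PSU 6 F 2)) ∧ Subgroup.center (↥C ⧸ V.subgroupOf C) = ⊥ := by
  have h := H29.t23_of_type hD hprim h23
  have m : d₂ ∈ H29.dperp D d₁ := ⟨h₂, hne.symm, hc⟩
  obtain ⟨g1, g2, odd⟩ := h.gen_two hD.2.2 h23.1 h₁ m
  have U := (h.2 _ h₁).2 _ m
  set S := H29.dperp (H29.dperp D d₁) d₂
  have mK : ∀ g, g ∈ K ↔ Commute g d₁ ∧ Commute g d₂ := fun g => by
    simp [hK, Subgroup.mem_centralizer_iff, commute_iff_eq, @eq_comm _ (g * _)]
  have v1 : d₁ ∈ V := hV ▸ Subgroup.subset_closure (by simp)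
  have v2 : d₂ ∈ V := hV ▸ Subgroup.subset_closure (by simp)
  have four : ∀ z ∈ K, H29.Cen S z → z ∈ V := fun z hz q => by
    rcases h.mem_four hD.2.2 h23.1 h₁ m ((mK z).1 hz).1 ((mK z).1 hz).2 q with r | r | r | r <;> rw [r]
    exacts [one_mem _, v1, v2, mul_mem v1 v2]
  have VS : V ≤ Subgroup.closure S := hV ▸ (Subgroup.closure_le _).2 (by rintro _ (rfl | rfl) <;> assumption)
  have cV : ∀ v ∈ V, H29.Cen S v := fun v hv u hu => Subgroup.mem_centralizer_singleton_iff.1
    ((hV ▸ (Subgroup.closure_le (Subgroup.centralizer {u})).2 (by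
      rintro _ (rfl | rfl)
      exacts [Subgroup.mem_centralizer_singleton_iff.2 hu.1.2.2, Subgroup.mem_centralizer_singleton_iff.2 hu.2.2])) hv)
  have SK : Subgroup.closure S ≤ K := fun g hg => (mK g).2 ⟨H29.commute_of_mem_closure_dperp
    (Subgroup.closure_mono (fun _ q => q.1) hg), H29.commute_of_mem_closure_dperp hg⟩
  have e : K = Subgroup.closure S := le_antisymm (fun g hg => by
    obtain ⟨c1, c2⟩ := (mK g).1 hg
    obtain ⟨k, hk, q⟩ := h.inn_loc h₁ m (h.1.tt.isoBy_conj (g := g) (hD.2.2 ▸ Subgroup.mem_top g))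
      (H29.conj_eq_of_commute c1) (H29.conj_eq_of_commute c2)
    simpa using mul_mem hk (VS (four (k⁻¹ * g) (mul_mem (inv_mem (SK hk)) hg) fun v hv => mul_inv_eq_iff_eq_mul.1 (by
      rw [mul_inv_rev, inv_inv, mul_assoc k⁻¹, mul_assoc k⁻¹, ← mul_assoc (g * v), show g * v * g⁻¹ = _ from q v hv]; group)))) SK
  let d : Fin 2 → G := ![d₁, d₂]
  have inj : Function.Injective d := List.nodup_ofFn.1 (by simpa [d] using hne)
  have mC : ∀ g, g ∈ C ↔ g * (d₁ * d₂) * g⁻¹ = d₁ * d₂ := fun g => by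
    rw [hC, Subgroup.mem_centralizer_singleton_iff, mul_inv_eq_iff_eq_mul]
  obtain ⟨φ, hφ⟩ := H29.exists_perm_hom inj (C := C) fun g hg i => by
    have := H29.RL.sub (l := [d₁, d₂]) (l' := [g * d₁ * g⁻¹, g * d₂ * g⁻¹]) (h.rl.mono (by simp)) hD.1 (by simp)
      (by simpa) (by simp [h₁, h₂]) (by simp [hc, hc.symm]) (by simpa) (by simp)
      (by simpa using ⟨hD.2.1 g _ h₁, hD.2.1 g _ h₂⟩) (by simp [hc, hc.symm])
      (by simpa [mul_assoc] using ((mC g).1 hg).symm) (g * d i * g⁻¹) (by fin_cases i <;> simp [d])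
    simp only [List.mem_cons, List.not_mem_nil, or_false] at this
    exact this.elim (⟨0, ·⟩) (⟨1, ·⟩)
  have le : K ≤ C := fun g hg => (mC g).2 (H29.conj_eq_of_commute (((mK g).1 hg).1.mul_right ((mK g).1 hg).2))
  have ker : K.subgroupOf C = φ.ker := Subgroup.ext fun g => by
    simp only [Subgroup.mem_subgroupOf, mK, MonoidHom.mem_ker, Equiv.ext_iff, Equiv.Perm.one_apply, ← inj.eq_iff, ← hφ,
      Fin.forall_fin_two, mul_inv_eq_iff_eq_mul]
    rfl
  have sj : Function.Surjective φ := fun σ => by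
    obtain ⟨g, -, e0, e1⟩ := h.1.pair_comm h₁ m h₂ (H29.mem_dperp_comm h₁ m)
    have : σ = 1 ∨ σ = Equiv.swap 0 1 := by revert σ; decide
    rcases this with rfl | rfl
    · exact ⟨1, map_one φ⟩
    refine ⟨⟨g, (mC g).2 ?_⟩, Equiv.ext fun i => inj ?_⟩
    · rw [show g * (d₁ * d₂) * g⁻¹ = g * d₁ * g⁻¹ * (g * d₂ * g⁻¹) by group, e0, e1, hc.eq]
    · rw [← hφ]; fin_cases i; exacts [e0, e1]
  refine ⟨le, by rw [ker, Subgroup.index_ker, MonoidHom.range_eq_top.2 sj]; simp [Fintype.card_perm], le_antisymm ?_ fun v hv =>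
    ⟨⟨v, SK (VS hv)⟩, ?_, rfl⟩, e ▸ (U.r3 (n := 2)).qs_of_odd odd (by decide),
    ⟨H29.F4, inferInstance, inferInstance, rfl, e ▸ U.quot_equiv (by norm_num) _ rfl⟩, eq_bot_iff.2 fun c hc' => ?_⟩
  · rintro _ ⟨z, hz, rfl⟩
    exact four z z.2 fun u hu => congrArg Subtype.val (Subgroup.mem_center_iff.1 hz
      ⟨u, SK (Subgroup.subset_closure hu)⟩).symm
  · subst e; exact H29.mem_center_closure.2 (cV v hv)
  obtain ⟨c, rfl⟩ := QuotientGroup.mk_surjective c
  have k : H29.Cen S c := fun u hu => by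
    have := Subgroup.mem_center_iff.1 hc' (QuotientGroup.mk ⟨u, le (SK (Subgroup.subset_closure hu))⟩)
    rw [← QuotientGroup.mk_mul, ← QuotientGroup.mk_mul, QuotientGroup.eq, Subgroup.mem_subgroupOf] at this
    obtain ⟨a, ha⟩ := U.exists_adj hu
    by_contra q
    refine ha.2 ((H29.tts_commute_mul_iff hD.1 (hD.2.1 (c : G)⁻¹ u hu.1.1) hu.1.1 ha.1.1.1 (fun r => q ?_)).1 ?_).2.symm
    · exact Commute.inv_left_iff.1 (mul_inv_eq_iff_eq_mul.1 r)
    · simpa [H29.tts_inv hD.1 hu.1.1, mul_assoc] using (cV _ this a ha.1).symm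
  have k' : ∀ g ∈ Subgroup.closure S, Commute (c : G) g := fun g hg => (Subgroup.mem_centralizer_singleton_iff.1
    ((Subgroup.closure_le (Subgroup.centralizer {(c : G)})).2
      (fun u hu => Subgroup.mem_centralizer_singleton_iff.2 (k u hu).symm) hg) :).symm
  exact (QuotientGroup.eq_one_iff c).2 (four c ((mK c).2 ⟨k' _ g1, k' _ g2⟩) k)

end Cfsg.Agent.S5468
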