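import Mathlib
import Cfsg.Statements.S5469
import Cfsg.Agent.H13.C22

set_option autoImplicit false
open Cfsg

namespace Cfsg.Agent.S5469

/-- Let G be a finite group with trivial centre generated by a conjugation-invariant set D of 3-transpositions on which it acts primitively, such that for some d in D the subgroup generated by the members of D other than d commuting with d has central largest normal 2- and 3-subgroups, and suppose G with D is of type M(22). Let d₁, d₂ be distinct commuting members of D, j = d₁ d₂, K the joint centralizer of d₁ and d₂, C the centralizer of j and V the subgroup generated by d₁ and d₂. Then K has index 2 in C, V is the centre of K, and C has a normal subgroup E containing V with E/V elementary abelian of order 2^8 and C/E isomorphic to the full automorphism group of the projective special unitary group of dimension 4 over the field with four elements. -/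
theorem result {G : Type*} [Group G] [Finite G] {D : Set G} (hD : Cfsg.IsThreeTranspositionGroup D) (hprim : Cfsg.IsPrimitiveUnderConj D) (d₀ : G) (hd₀ : d₀ ∈ D) (h3 : Cfsg.pCore 3 ↥(Subgroup.closure {y : G | y ∈ D ∧ y ≠ d₀ ∧ Commute d₀ y}) ≤ Subgroup.center ↥(Subgroup.closure {y : G | y ∈ D ∧ y ≠ d₀ ∧ Commute d₀ y})) (h2 : Cfsg.pCore 2 ↥(Subgroup.closure {y : G | y ∈ D ∧ y ≠ d₀ ∧ Commute d₀ y}) ≤ Subgroup.center ↥(Subgroup.closure {y : G | y ∈ D ∧ y ≠ d₀ ∧ Commute d₀ y})) (h22 : Cfsg.IsOfTypeM22 G D) (d₁ d₂ : G) (h₁ : d₁ ∈ D) (h₂ : d₂ ∈ D) (hne : d₁ ≠ d₂) (hc : Commute d₁ d₂) (K C V : Subgroup G) (hK : K = Subgroup.centralizer ({d₁, d₂} : Set G)) (hC : C = Subgroup.centralizer ({d₁ * d₂} : Set G)) (hV : V = Subgroup.closure ({d₁, d₂} : Set G)) : K ≤ C ∧ (K.subgroupOf C).index = 2 ∧ (Subgroup.center ↥K).map K.subtype = V ∧ ∃ E : Subgroup G, V ≤ E ∧ E ≤ C ∧ (∀ c ∈ C, ∀ x ∈ E, c * x * c⁻¹ ∈ E) ∧ Nat.card E =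 2 ^ 10 ∧ (∀ x ∈ E, ∀ y ∈ E, x * y * x⁻¹ * y⁻¹ ∈ V ∧ x ^ 2 ∈ V) ∧ ∃ (_ : (E.subgroupOf C).Normal) (F : Type) (_ : Field F) (_ : Fintype F), Fintype.card F = 4 ∧ Nonempty (↥C ⧸ E.subgroupOf C ≃* MulAut (Cfsg.PSU 4 F 2)) := by
  have h := H29.t22_of_type hD hprim h22
  have m : d₂ ∈ H29.dperp D d₁ := ⟨h₂, hne.symm, hc⟩
  obtain ⟨gen, M⟩ := H13.M22.of_type hD hprim h22
  obtain ⟨gen, M, rfl, rfl⟩ := H13.C22.red hD h M h₁ m
  obtain ⟨E, E₀, a1, a2, a3, -, a5, a6, a7, -, A, -, a9, N, ⟨e⟩, ce⟩ := H13.C22.main hD h M m hC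
  obtain ⟨le, ix, -⟩ := H13.C22.two hD h.rl h₁ m
  obtain ⟨f⟩ := H13.O6.aut
  rw [← hK] at a1
  rw [← hK, ← hC] at le ix
  have v1 : gen 0 ∈ V := hV ▸ Subgroup.subset_closure (by simp)
  have v2 : gen 2 ∈ V := hV ▸ Subgroup.subset_closure (by simp)
  have z : Subgroup.zpowers (gen 0 * gen 2) ≤ V := Subgroup.zpowers_le.2 (mul_mem v1 v2)
  have mK : ∀ g, g ∈ K ↔ Commute (gen 0) g ∧ Commute (gen 2) g := fun g => by simp [hK, Subgroup.mem_centralizer_iff, commute_iff_eq]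
  refine ⟨le, ix, le_antisymm ?_ (hV ▸ (Subgroup.closure_le _).2 ?_), E, hV ▸ (Subgroup.closure_le _).2 ?_, a2,
    fun c p x q => N.conj_mem ⟨x, a2 q⟩ q ⟨c, p⟩, a7, fun x p y q => ⟨z (A.comm x p y q), z (A.pow x p)⟩, N, H29.F4, inferInstance,
    inferInstance, rfl, ⟨e.trans f⟩⟩
  · rintro _ ⟨x, hx, rfl⟩
    have c : ∀ y ∈ E, y * x = x * y := fun y q => congrArg Subtype.val (Subgroup.mem_center_iff.1 hx ⟨y, a1 q⟩)
    rcases a6 x (ce (x := ⟨x, le x.2⟩) fun y q => Subtype.ext (c y q)) with r | r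
    · exact z (a9 ⟨r, fun y q => c y (a5 q)⟩)
    · exact (mul_mem_cancel_left v1).1 (z (a9 ⟨r, fun y q => by
        rw [← mul_assoc, ← ((mK y).1 (a1 (a5 q))).1.eq, mul_assoc, mul_assoc]; exact congrArg _ (c y (a5 q))⟩))
  · rintro _ (rfl | rfl)
    exacts [⟨⟨_, (mK _).2 ⟨rfl, hc.symm⟩⟩, Subgroup.mem_center_iff.2 fun g => Subtype.ext ((mK g).1 g.2).1.symm, rfl⟩,
      ⟨⟨_, (mK _).2 ⟨hc, rfl⟩⟩, Subgroup.mem_center_iff.2 fun g => Subtype.ext ((mK g).1 g.2).2.symm, rfl⟩]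
  · rintro _ (rfl | rfl)
    exacts [a3, (mul_mem_cancel_left a3).1 A.mem]

end Cfsg.Agent.S5469
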