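import Mathlib
import Cfsg.Statements.S5470
import Cfsg.Agent.H29.Invol2
import Cfsg.Agent.H13.T22

set_option autoImplicit false
open Cfsg

namespace Cfsg.Agent.S5470

/-- Let G be a finite group with trivial centre generated by a conjugation-invariant set D of 3-transpositions on which it acts primitively, such that for some d in D the subgroup generated by the members of D other than d commuting with d has central largest normal 2- and 3-subgroups, and suppose G with D is of type M(22). Then the centralizer of a product of three distinct pairwise commuting members of D has order 2^16 · 3^3. -/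
theorem result {G : Type*} [Group G] [Finite G] {D : Set G} (hD : Cfsg.IsThreeTranspositionGroup D) (hprim : Cfsg.IsPrimitiveUnderConj D) (d₀ : G) (hd₀ : d₀ ∈ D) (h3 : Cfsg.pCore 3 ↥(Subgroup.closure {y : G | y ∈ D ∧ y ≠ d₀ ∧ Commute d₀ y}) ≤ Subgroup.center ↥(Subgroup.closure {y : G | y ∈ D ∧ y ≠ d₀ ∧ Commute d₀ y})) (h2 : Cfsg.pCore 2 ↥(Subgroup.closure {y : G | y ∈ D ∧ y ≠ d₀ ∧ Commute d₀ y}) ≤ Subgroup.center ↥(Subgroup.closure {y : G | y ∈ D ∧ y ≠ d₀ ∧ Commute d₀ y})) (h22 : Cfsg.IsOfTypeM22 G D) (d₁ d₂ d₃ : G) (h₁ : d₁ ∈ D) (h₂ : d₂ ∈ D) (h₃ : d₃ ∈ D) (h12 : d₁ ≠ d₂) (h13 : d₁ ≠ d₃) (h23 : d₂ ≠ d₃) (c12 : Commute d₁ d₂) (c13 : Commute d₁ d₃) (c23 : Commute d₂ d₃) : Nat.card ↥(Subgroup.centralizer ({d₁ * d₂ * d₃} : Set G)) = 2 ^ 16 * 3 ^ 3 := by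
  have h := H29.t22_of_type hD hprim h22
  have c : H29.CP D 3 (d₁ * d₂ * d₃) :=
    H29.cp_three.2 ⟨d₁, h₁, d₂, ⟨h₂, h12.symm, c12⟩, d₃, ⟨⟨h₃, h13.symm, c13⟩, h23.symm, c23⟩, rfl⟩
  have e : {x | H29.CP D 3 x} = MulAction.orbit (ConjAct G) (d₁ * d₂ * d₃) := Set.ext fun x =>
    ⟨fun hx => let ⟨g, _, q⟩ := (h.rl.tr 3 le_rfl).1 _ _ c hx; ⟨ConjAct.toConjAct g, q⟩,
      by rintro ⟨g, rfl⟩; exact c.conj _ fun a ha => hD.2.1 _ a ha⟩
  have k := h.ncard_cp3 hD.2.2 h22.1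
  have o := h.ord (h.ci H13.Fi23.t23)
  have := Nat.card_congr (MulAction.orbitProdStabilizerEquivGroup (ConjAct G) (d₁ * d₂ * d₃))
  rw [Nat.card_prod, Nat.card_coe_set_eq, ← e, k, ← Subgroup.nat_card_centralizer_nat_card_stabilizer,
    show Nat.card (ConjAct G) = Nat.card G from rfl, ← H29.ord_eq_card hD.2.2 h22.1, o] at this
  omega

end Cfsg.Agent.S5470
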