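import Mathlib
import Cfsg.Statements.S5471
import Cfsg.Agent.H29.Invol2

set_option autoImplicit false
open Cfsg

namespace Cfsg.Agent.S5471

/-- Let G be a finite group with trivial centre generated by a conjugation-invariant set D of 3-transpositions on which it acts primitively, such that for some d in D the subgroup generated by the members of D other than d commuting with d has central largest normal 2- and 3-subgroups, and suppose G with D is of type M(23). Let d₁, d₂, d₃ be distinct pairwise commuting members of D and j their product. Then the joint centralizer of d₁, d₂, d₃ is normal in the centralizer of j with quotient isomorphic to the symmetric group of degree 3. -/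
theorem result {G : Type*} [Group G] [Finite G] {D : Set G} (hD : Cfsg.IsThreeTranspositionGroup D) (hprim : Cfsg.IsPrimitiveUnderConj D) (d₀ : G) (hd₀ : d₀ ∈ D) (h3 : Cfsg.pCore 3 ↥(Subgroup.closure {y : G | y ∈ D ∧ y ≠ d₀ ∧ Commute d₀ y}) ≤ Subgroup.center ↥(Subgroup.closure {y : G | y ∈ D ∧ y ≠ d₀ ∧ Commute d₀ y})) (h2 : Cfsg.pCore 2 ↥(Subgroup.closure {y : G | y ∈ D ∧ y ≠ d₀ ∧ Commute d₀ y}) ≤ Subgroup.center ↥(Subgroup.closure {y : G | y ∈ D ∧ y ≠ d₀ ∧ Commute d₀ y})) (h23 : Cfsg.IsOfTypeM23 G D) (d₁ d₂ d₃ : G) (h₁ : d₁ ∈ D) (h₂ : d₂ ∈ D) (h₃ : d₃ ∈ D) (h12 : d₁ ≠ d₂) (h13 : d₁ ≠ d₃) (h23 : d₂ ≠ d₃) (c12 : Commute d₁ d₂) (c13 : Commute d₁ d₃) (c23 : Commute d₂ d₃) (K C : Subgroup G) (hK : K = Subgroup.centralizer ({d₁, d₂, d₃} : Set G)) (hC : C = Subgroup.centralizer ({d₁ * d₂ * d₃} : Set G)) : K ≤ C ∧ ∃ _ : (K.subgroupOf C).Normal, Nonempty (↥C ⧸ K.subgroupOf C ≃* Equiv.Perm (Fin 3)) := by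
  have h := H29.t23_of_type hD hprim ‹_›
  let d : Fin 3 → G := ![d₁, d₂, d₃]
  have m2 : d₂ ∈ H29.dperp D d₁ := ⟨h₂, h12.symm, c12⟩
  have m3 : d₃ ∈ H29.dperp (H29.dperp D d₁) d₂ := ⟨⟨h₃, h13.symm, c13⟩, h23.symm, c23⟩
  obtain ⟨n1, m1, c1⟩ := H29.list3 h₁ m2 m3
  have inj : Function.Injective d := List.nodup_ofFn.1 (by simpa [d] using n1)
  have dm : ∀ i, d i ∈ [d₁, d₂, d₃] := fun i => by fin_cases i <;> simp [d]
  obtain ⟨φ, hφ⟩ := H29.exists_perm_hom inj (C := C) fun g hg i => by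
    have e : g * (d₁ * d₂ * d₃) * g⁻¹ = d₁ * d₂ * d₃ :=
      H29.conj_eq_of_commute (Subgroup.mem_centralizer_singleton_iff.1 (hC ▸ hg))
    have := H29.RL.sub (l := [d₁, d₂, d₃]) h.rl hD.1 (by simp) n1 m1 c1 (n1.map (MulAut.conj g).injective) le_rfl
      (by simpa using ⟨hD.2.1 g _ h₁, hD.2.1 g _ h₂, hD.2.1 g _ h₃⟩) (by
        simp only [List.mem_map]
        rintro _ ⟨y, hy, rfl⟩ _ ⟨z, hz, rfl⟩
        exact (c1 y hy z hz).map _) (by rw [← map_list_prod]; simpa [mul_assoc] using e.symm) _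
      (List.mem_map_of_mem (dm i))
    simp only [List.mem_cons, List.not_mem_nil, or_false] at this
    exact this.elim (⟨0, ·⟩) fun r => r.elim (⟨1, ·⟩) (⟨2, ·⟩)
  have mK : ∀ g, g ∈ K ↔ ∀ i, g * d i * g⁻¹ = d i := fun g => by
    simp [hK, Subgroup.mem_centralizer_iff, Fin.forall_fin_succ, d, mul_inv_eq_iff_eq_mul, @eq_comm _ (g * _)]
  have le : K ≤ C := fun g hg => hC ▸ Subgroup.mem_centralizer_singleton_iff.2 (by
    have : ∀ i, Commute g (d i) := fun i => mul_inv_eq_iff_eq_mul.1 ((mK g).1 hg i)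
    exact ((this 0).mul_right (this 1)).mul_right (this 2))
  have ker : K.subgroupOf C = φ.ker := Subgroup.ext fun g => by
    simp only [Subgroup.mem_subgroupOf, mK, hφ, inj.eq_iff, MonoidHom.mem_ker, Equiv.ext_iff, Equiv.Perm.one_apply]
  have sj : Function.Surjective φ := fun σ => by
    have ne : ∀ i j, i ≠ j → d (σ i) ≠ d (σ j) := fun i j q => inj.ne (σ.injective.ne q)
    have cm : ∀ i j, Commute (d i) (d j) := fun i j => c1 _ (dm i) _ (dm j)
    obtain ⟨g, -, e0, e1, e2⟩ := h.1.triple (fun d hd => (h.2 d hd).1) h₁ m2 m3 (m1 _ (dm (σ 0)))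
      (b' := d (σ 1)) ⟨m1 _ (dm _), ne _ _ (by decide), cm _ _⟩ (c' := d (σ 2))
      ⟨⟨m1 _ (dm _), ne _ _ (by decide), cm _ _⟩, ne _ _ (by decide), cm _ _⟩
    have p : d (σ 0) * d (σ 1) * d (σ 2) = d₁ * d₂ * d₃ := by
      have := ((σ.ofFn_comp_perm d).prod_eq' (List.pairwise_of_forall_mem_list (by
        simp only [List.mem_ofFn]; rintro _ ⟨i, rfl⟩ _ ⟨j, rfl⟩; exact cm _ _)))
      simpa [List.ofFn_succ, mul_assoc, d] using this
    refine ⟨⟨g, hC ▸ Subgroup.mem_centralizer_singleton_iff.2 (mul_inv_eq_iff_eq_mul.1 ?_)⟩, Equiv.ext fun i => inj ?_⟩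
    · conv_rhs => rw [← p, ← e0, ← e1, ← e2]
      group
    · rw [← hφ]; fin_cases i; exacts [e0, e1, e2]
  have : (K.subgroupOf C).Normal := ker ▸ inferInstance
  exact ⟨le, this, ⟨(QuotientGroup.quotientMulEquivOfEq ker).trans
    (QuotientGroup.quotientKerEquivOfSurjective φ sj)⟩⟩

end Cfsg.Agent.S5471
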