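import Mathlib
import Cfsg.Statements.S5515
import Cfsg.Agent.H16.O8S3
import Cfsg.Agent.H13.Refl
import Cfsg.Agent.S2608

set_option autoImplicit false
open Cfsg

namespace Cfsg.Agent.S5515

/-- Let G and G′ be finite groups whose generalized Fitting subgroups are isomorphic to PΩ⁺(8, 3) (the commutator subgroup of the isometry group of the hyperbolic quadratic form in dimension 8 over the field with three elements, modulo its centre) with quotients isomorphic to the symmetric group of degree 3. Then G and G′ are isomorphic. -/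
theorem result {G G' : Type*} [Group G] [Finite G] [Group G'] [Finite G'] (hF : Nonempty (↥(Cfsg.generalizedFittingSubgroup G) ≃* Cfsg.POmega (ZMod 3) (Cfsg.quadFormPlus 4 (ZMod 3)))) (hF' : Nonempty (↥(Cfsg.generalizedFittingSubgroup G') ≃* Cfsg.POmega (ZMod 3) (Cfsg.quadFormPlus 4 (ZMod 3)))) [hn : (Cfsg.generalizedFittingSubgroup G).Normal] [hn' : (Cfsg.generalizedFittingSubgroup G').Normal] (hq : Nonempty (G ⧸ Cfsg.generalizedFittingSubgroup G ≃* Equiv.Perm (Fin 3))) (hq' : Nonempty (G' ⧸ Cfsg.generalizedFittingSubgroup G' ≃* Equiv.Perm (Fin 3))) : Nonempty (G ≃* G') := by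
  have := H13.simple_O8
  have hZ : Subgroup.center (POmega (ZMod 3) (quadFormPlus 4 (ZMod 3))) = ⊥ :=
    (Subgroup.Normal.eq_bot_or_eq_top inferInstance).resolve_right fun h => by
      let _ : CommGroup (POmega (ZMod 3) (quadFormPlus 4 (ZMod 3))) :=
        { mul_comm := fun a b => (Subgroup.mem_center_iff.1 (h ▸ Subgroup.mem_top b) a) }
      have h1 := IsSimpleGroup.prime_card (α := POmega (ZMod 3) (quadFormPlus 4 (ZMod 3)))
      rw [H13.card_O8] at h1
      exact absurd h1 (by norm_num)
  have := Fact.mk Nat.prime_three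
  have h1 := Cfsg.Agent.S2608.result (F := ZMod 3) (p := 3) (f := 1) (m := 4) le_rfl (by simp) (by decide) le_rfl
  rw [if_pos rfl] at h1
  obtain ⟨o⟩ := h1
  let ψ := ((MonoidHom.fst _ _).comp o.toMonoidHom).comp (QuotientGroup.mk' _)
  have h2 : ψ.ker = Inn _ := by
    ext x
    refine Iff.trans ?_ (QuotientGroup.eq_one_iff x)
    rw [← o.map_eq_one_iff, Prod.ext_iff]
    exact ⟨fun h => ⟨h, Subsingleton.elim _ _⟩, fun h => h.1⟩
  have h3 : Function.Surjective ψ := (Prod.fst_surjective.comp o.surjective).comp (QuotientGroup.mk'_surjective _)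
  obtain ⟨i, ⟨a⟩⟩ := H16.O8S3.emb hZ ψ h2 hF.some (by
    rw [Subgroup.index, Nat.card_congr hq.some.toEquiv, Nat.card_perm]; simp [Nat.factorial])
  obtain ⟨j, ⟨b⟩⟩ := H16.O8S3.emb hZ ψ h2 hF'.some (by
    rw [Subgroup.index, Nat.card_congr hq'.some.toEquiv, Nat.card_perm]; simp [Nat.factorial])
  exact ⟨(a.trans (H16.O8S3.stab_equiv ψ h3 i j).some).trans b.symm⟩

end Cfsg.Agent.S5515
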