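import Mathlib
import Cfsg.Statements.S5518
import Cfsg.Agent.H13.G2
import Cfsg.Agent.H13.P24d
import Cfsg.Agent.H13.Bs
import Cfsg.Agent.H13.Refl2

set_option autoImplicit false
open Cfsg

namespace Cfsg.Agent.S5518

open H13 H29 Subgroup

variable {G : Type*} [Group G] {D : Set G}

theorem s3_bot (hD : IsThreeTranspositionSet D) {a d : G} (ha : a ∈ D) (hd : d ∈ D) (h : ¬Commute a d) {x : G}
    (p : x ∈ closure {a, d}) (e1 : Commute a x) (e2 : Commute d x) : x = 1 := by
  obtain ⟨φ, h1, h2, h3⟩ := exists_perm3_hom hD ha hd h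
  obtain ⟨σ, rfl⟩ : x ∈ φ.range := (closure_le _).2 (by rintro _ (rfl | rfl); exacts [⟨_, h2⟩, ⟨_, h3⟩]) p
  rw [← h2, commute_iff_eq, ← map_mul, ← map_mul, h1.eq_iff] at e1
  rw [← h3, commute_iff_eq, ← map_mul, ← map_mul, h1.eq_iff] at e2
  rw [(by clear * - e1 e2; revert σ; decide : σ = 1), map_one]

theorem norm_cen {S : Subgroup G} {n k : G} (hn : n ∈ normalizer (S : Set G)) (hk : k ∈ centralizer (S : Set G)) :
    n * k * n⁻¹ ∈ centralizer (S : Set G) := fun t ht => by
  have := hk _ ((mem_normalizer_iff.1 (inv_mem hn) t).1 ht)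
  calc t * (n * k * n⁻¹) = n * (n⁻¹ * t * n⁻¹⁻¹ * k) * n⁻¹ := by group
    _ = _ := by rw [this]; group

/-- the conclusion for one subgroup -/
def Q (T B : Subgroup G) : Prop := normalizer (B : Set G) ≤ normalizer (centralizer (T : Set G) : Set G) ∧
  Nat.card ↥(centralizer (T : Set G) ⊓ normalizer (B : Set G)) = 78 ∧ centralizer (T : Set G) ⊓ centralizer (B : Set G) = B ∧
    (((centralizer (T : Set G) ⊓ normalizer (B : Set G)) ⊔ T).subgroupOf (normalizer (B : Set G))).index = 2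

theorem core [Finite G] (hD : IsThreeTranspositionSet D) {a b c d x y v : G} (m : ∀ z ∈ [a, b, c, d], z ∈ D) (n1 : ¬Commute a d) (n2 : ¬Commute b c)
    (c1 : Commute a b) (c2 : Commute a c) (c3 : Commute d b) (c4 : Commute d c) (F : Frb x y 13 6)
    (hx : x ∈ centralizer {a, b, c, d}) (hy : y ∈ centralizer {a, b, c, d})
    (hC : centralizer (zpowers x : Set G) = zpowers x ⊔ closure {a, b, c, d}) (v1 : v * a = b * v) (v2 : v * x = x ^ 2 * v) :
    Q (closure {a, b, c, d}) (zpowers x) := by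
  rw [← centralizer_closure] at hx hy
  simp only [List.forall_mem_cons] at m
  have e : closure {a, b, c, d} = closure {a, d} ⊔ closure {b, c} := by
    rw [← Subgroup.closure_union]; congr 1; ext; simp; tauto
  have cm : ∀ p ∈ closure ({a, d} : Set G), ∀ q ∈ closure ({b, c} : Set G), p * q = q * p := fun p hp q hq =>
    (centralizer_closure _).ge ((closure_le (centralizer {a, d})).2 (by
      rintro _ (rfl | rfl) _ (rfl | rfl); exacts [c1, c3, c2, c4]) hq) p hp
  have ma : ∀ z ∈ ({a, d} : Set G), z ∈ closure {a, b, c, d} := fun z hz => e.ge (mem_sup_left (subset_closure hz))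
  have mb : ∀ z ∈ ({b, c} : Set G), z ∈ closure {a, b, c, d} := fun z hz => e.ge (mem_sup_right (subset_closure hz))
  generalize hT : closure {a, b, c, d} = T at *
  have z : ∀ t ∈ T, t ∈ centralizer (T : Set G) → t = 1 := fun t ht hk => by
    obtain ⟨p, hp, q, hq, rfl⟩ := mem_sup_norm (le_norm_of_comm cm) (e.le ht)
    have k : ∀ z ∈ ({a, d} : Set G), Commute z p := fun z hz => mul_right_cancel (b := q) (by
      rw [mul_assoc, hk z (ma z hz), mul_assoc, mul_assoc, cm z (subset_closure hz) q hq])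
    obtain rfl := s3_bot hD m.1 m.2.2.2.1 n1 hp (k _ (by simp)) (k _ (by simp))
    rw [one_mul] at hk ⊢
    exact s3_bot hD m.2.1 m.2.2.1 n2 hq (hk _ (mb _ (by simp))) (hk _ (mb _ (by simp)))
  have x1 : ∀ s ∈ T, x * s = s * x := fun s hs => (hx s hs).symm
  have y1 : ∀ s ∈ T, y * s = s * y := fun s hs => (hy s hs).symm
  have lo : ∀ U ≤ centralizer (T : Set G), centralizer (T : Set G) ⊓ (U ⊔ T) ≤ U := fun U hU g ⟨p, q⟩ => by
    obtain ⟨u, hu, t, ht, rfl⟩ := mem_sup_norm (le_norm_of_comm fun u hu t ht => (hU hu t ht).symm) q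
    rwa [z t ht ((mul_mem_cancel_left (hU hu)).1 p), mul_one]
  have fk : zpowers x ⊔ zpowers y ≤ centralizer (T : Set G) := sup_le (zpowers_le.2 hx) (zpowers_le.2 hy)
  have l1 : zpowers x ⊔ zpowers y ⊔ T ≤ (centralizer (T : Set G) ⊓ normalizer (zpowers x : Set G)) ⊔ T := sup_le_sup_right (le_inf fk F.le_norm) _
  have l2 : (centralizer (T : Set G) ⊓ normalizer (zpowers x : Set G)) ⊔ T ≤ normalizer (zpowers x : Set G) :=
    sup_le inf_le_right (le_sup_right.trans (F.fs_le x1))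
  have r := rel_dvd (k := 6) (by norm_num) F.cx (hC.le.trans (sup_le_sup_right le_sup_left _)) (F.fs_le x1)
    (by rw [hC, F.card_fs (by norm_num) (by norm_num) x1 y1, F.card_xs (by norm_num) (by norm_num) x1 y1])
  rw [← relIndex_mul_relIndex _ _ _ l1 l2] at r
  have nv : ((centralizer (T : Set G) ⊓ normalizer (zpowers x : Set G)) ⊔ T).relIndex (normalizer (zpowers x : Set G)) ≠ 1 := fun q => by
    have l3 : (centralizer (T : Set G) ⊓ normalizer (zpowers x : Set G)) ⊔ T ≤ normalizer (closure ({a, d} : Set G) : Set G) :=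
      sup_le (inf_le_left.trans ((centralizer_le (e ▸ le_sup_left : closure {a, d} ≤ T)).trans (centralizer_le_normalizer _)))
        (e.le.trans (sup_le le_normalizer (le_norm_of_comm cm)))
    have := (mem_normalizer_iff.1 (l3 (relIndex_eq_one.1 q (mem_norm_zpowers v2))) a).1 (subset_closure (by simp))
    rw [v1, mul_inv_cancel_right] at this
    exact n2 (cm b this c (subset_closure (by simp)))
  have r2 := (Nat.dvd_prime Nat.prime_two).1 ((dvd_mul_left _ _).trans (Nat.dvd_of_mul_dvd_mul_left (by norm_num : 0 < 6) r))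
  replace r2 := r2.resolve_left nv
  rw [r2] at r
  have r3 := relIndex_eq_one.1 (Nat.dvd_one.1 (Nat.dvd_of_mul_dvd_mul_right (by norm_num : 0 < 2) (Nat.dvd_of_mul_dvd_mul_left (by norm_num : 0 < 6) r)))
  refine ⟨fun n hn => mem_normalizer_fintype fun k hk => norm_cen ?_ hk, ?_,
    le_antisymm (hC ▸ lo _ (zpowers_le.2 hx)) (le_inf (zpowers_le.2 hx) (zpowers_le_cen x)), r2⟩
  · rw [← hT]
    refine mem_norm_closure fun s hs => hT ▸ mem_of_inv (p := 13) (by decide) (fun u hu => ?_) (fun u hu => Frb.comm x1 y1 u (mem_sup_left hu))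
      (F.xs_bot (by norm_num) (by norm_num) y1) (hC ▸ norm_cen hn (Frb.le_cen x1 (hT ▸ subset_closure hs))) ?_
    · simpa [F.cx] using congrArg Subtype.val (pow_card_eq_one' (x := (⟨u, hu⟩ : zpowers x)))
    · have : s * s = 1 := tts_sq hD (by rcases hs with rfl | rfl | rfl | rfl; exacts [m.1, m.2.1, m.2.2.1, m.2.2.2.1])
      rw [conj_mul, this, mul_one, mul_inv_cancel]
  · rw [le_antisymm (le_trans (le_inf inf_le_left (le_sup_left.trans r3)) (lo _ fk)) (le_inf fk F.le_norm), F.card]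

open H13.P24 in
theorem base [Finite G] (hD : IsThreeTranspositionSet D) {gen A : ℕ → G} (M : F24.Is D gen) (hA : A = genW gen c13a) :
    (A 3 * gen 11 * (A 3)⁻¹ = A 8 ∧ A 3 * gen 10 * (A 3)⁻¹ = A 9 ∧ A 3 * gen 1 * (A 3)⁻¹ = A 10 ∧ A 3 * gen 12 * (A 3)⁻¹ = A 11) ∧
    ((∀ z ∈ [A 8, A 10, A 11, A 9], z ∈ D) ∧ ¬Commute (A 8) (A 9) ∧ ¬Commute (A 10) (A 11) ∧ Commute (A 8) (A 10) ∧ Commute (A 8) (A 11) ∧
      Commute (A 9) (A 10) ∧ Commute (A 9) (A 11)) ∧ Nat.card (zpowers (A 0)) = 13 ∧ A 0 ∈ centralizer {A 8, A 10, A 11, A 9} ∧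
      Q (closure {A 8, A 10, A 11, A 9}) (zpowers (A 0)) := by
  have E := M.eqs c13e
  have F := E.left.frb (by norm_num) (M.ne1 c13n) (by decide) (by decide)
  have e := E.right
  have hC := c13eq M
  have hS : evalW gen '' {u | u ∈ c13u.map (cjW [11])} = {genW gen c13a 8, genW gen c13a 10, genW gen c13a 11, genW gen c13a 9} := by
    ext; simp [c13u, c13a, genW, eq_comm]; tauto
  have hM := hS ▸ M.sub_D c13u
  rw [show c13X = [c13x] from rfl, show c13m = c13x :: c13u.map (cjW [11]) from rfl, clW_cons, clW, hS, cenW_one,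
    show evalW gen c13x = genW gen c13a 0 from rfl] at hC
  have g : genW gen c13a 4 = gen 11 ∧ genW gen c13a 5 = gen 10 ∧ genW gen c13a 6 = gen 1 ∧ genW gen c13a 7 = gen 12 :=
    ⟨mul_one _, mul_one _, mul_one _, mul_one _⟩
  rw [← hA] at *
  simp only [Eqs, List.forall_mem_cons, evalW_cons, evalW_nil, mul_one, g.1, g.2.1, g.2.2.1, g.2.2.2] at e
  obtain ⟨e1, e2, e3, e4, e5, e6, e7, e8, e9, e10, e11, e12, e13, e14, -⟩ := e
  rw [← mul_inv_eq_iff_eq_mul] at e1 e2 e3 e4
  have k : ∀ p ∈ [(11, 1), (11, 12), (10, 1), (10, 12)], Commute (gen p.1) (gen p.2) := fun p hp => by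
    simpa [commute_iff_eq] using M.eq (rs := [(11, 1), (11, 12), (10, 1), (10, 12)].map fun p => ([p.1, p.2], [p.2, p.1])) (by decide +kernel)
      (List.mem_map_of_mem hp)
  have k' : ∀ p ∈ [(11, 10, 0), (1, 12, 697)], ¬Commute (gen p.1) (gen p.2.1) := fun p hp => by
    simpa [commute_iff_eq, genW] using M.neG (ws := [[p.1], [p.2.1]]) (u := [0, 1]) (v := [1, 0]) (i := p.2.2) (by revert p; decide +kernel)
  have cj : ∀ {p q : G}, Commute (A 3 * p * (A 3)⁻¹) (A 3 * q * (A 3)⁻¹) ↔ Commute p q := by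
    intro p q; rw [commute_iff_eq, commute_iff_eq, conj_mul, conj_mul, mul_left_inj, mul_right_inj]
  simp only [List.forall_mem_cons, ← cj (p := gen _), e1, e2, e3, e4] at k k'
  have m : ∀ z ∈ [A 8, A 10, A 11, A 9], z ∈ D := fun z hz => hM (by simpa using hz)
  have hx : A 0 ∈ centralizer {A 8, A 10, A 11, A 9} := by rintro _ (rfl | rfl | rfl | rfl); exacts [e5.symm, e7.symm, e8.symm, e6.symm]
  exact ⟨⟨e1, e2, e3, e4⟩, ⟨m, k'.1, k'.2.1, k.1, k.2.1, k.2.2.1, k.2.2.2.1⟩, F.cx, hx, core hD m k'.1 k'.2.1 k.1 k.2.1 k.2.2.1 k.2.2.2.1 F hx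
    (by rintro _ (rfl | rfl | rfl | rfl); exacts [e9.symm, e11.symm, e12.symm, e10.symm]) hC e13 (by rw [e14, sq, mul_assoc])⟩

/-- Let G be a finite group with trivial centre generated by a conjugation-invariant set D of 3-transpositions on which it acts primitively, such that for some d in D the subgroup generated by the members of D other than d commuting with d has central largest normal 2- and 3-subgroups, and suppose G with D is of type M(24). Then any two subgroups of order 13 are conjugate; and there are members a, b, c, d of D generating the direct product T of two symmetric groups of degree 3 (a, d non-commuting; b, c non-commuting; b and c commuting with a and d) whose centralizer K is isomorphic to the Chevalley group G₂(3), such that for every subgroup B of K of order 13: the normalizer of B lies in the normalizer of K, the normalizer F of B in K is a Frobenius group of order 78 with kernel B (order 78, centralizer of B in it equal to B), and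 the subgroup generated by F and T has index 2 in the normalizer of B. -/
theorem result {G : Type*} [Group G] [Finite G] {D : Set G} (hD : Cfsg.IsThreeTranspositionGroup D) (hprim : Cfsg.IsPrimitiveUnderConj D) (d₀ : G) (hd₀ : d₀ ∈ D) (h3 : Cfsg.pCore 3 ↥(Subgroup.closure {y : G | y ∈ D ∧ y ≠ d₀ ∧ Commute d₀ y}) ≤ Subgroup.center ↥(Subgroup.closure {y : G | y ∈ D ∧ y ≠ d₀ ∧ Commute d₀ y})) (h2 : Cfsg.pCore 2 ↥(Subgroup.closure {y : G | y ∈ D ∧ y ≠ d₀ ∧ Commute d₀ y}) ≤ Subgroup.center ↥(Subgroup.closure {y : G | y ∈ D ∧ y ≠ d₀ ∧ Commute d₀ y})) (h24 : Cfsg.IsOfTypeM24 G D) : (∀ X Y : Subgroup G, Nat.card X = 13 → Nat.card Y = 13 → ∃ g : G, X.map (MulAut.conj g).toMonoidHom = Y) ∧ ∃ (a b c d : G) (T K : Subgroup G), (∀ x ∈ [a, b, c, d], x ∈ D) ∧ ¬ Commute a d ∧ ¬ Commute b c ∧ Commute a b ∧ Commute a c ∧ Commute d b ∧ Commute d c ∧ T = Subgroup.closure ({a, b, c, d} : Set G) ∧ K = Subgroup.centralizer (T : Set G) ∧ Nonempty (↥K ≃* ↥(Cfsg.Lie.chevG2.group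 (ZMod 3))) ∧ ∀ B : Subgroup G, B ≤ K → Nat.card B = 13 → Subgroup.normalizer ((B : Subgroup G) : Set G) ≤ Subgroup.normalizer ((K : Subgroup G) : Set G) ∧ Nat.card ↥(K ⊓ Subgroup.normalizer ((B : Subgroup G) : Set G)) = 78 ∧ K ⊓ Subgroup.centralizer ((B : Subgroup G) : Set G) = B ∧ (((K ⊓ Subgroup.normalizer ((B : Subgroup G) : Set G)) ⊔ T).subgroupOf (Subgroup.normalizer ((B : Subgroup G) : Set G))).index = 2 := by
  obtain ⟨gen, M⟩ := H13.F24.of_type hD hprim h24
  refine ⟨H13.conj_of_sq (p := 13) (by norm_num) (by rw [M.card]; decide), ?_⟩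
  obtain ⟨A, hA⟩ : ∃ A, A = genW gen P24.c13a := ⟨_, rfl⟩
  obtain ⟨⟨e1, e2, e3, e4⟩, ⟨q1, q2, q3, q4, q5, q6, q7⟩, cx, hx, -⟩ := base hD.1 M hA
  have i := G2.iso (M.conj (A 3)) (t24_of_type hD hprim h24) hD.2.2
  rw [e1, e2, e3, e4, show ({A 8, A 9, A 10, A 11} : Set G) = {A 8, A 10, A 11, A 9} by ext; simp; tauto, ← centralizer_closure] at i
  rw [← centralizer_closure] at hx
  refine ⟨_, _, _, _, _, _, q1, q2, q3, q4, q5, q6, q7, rfl, rfl, i, fun B hB cB => ?_⟩
  obtain ⟨f⟩ := i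
  obtain ⟨k, hk⟩ := H13.conj_of_sq (p := 13) (by norm_num) (by rw [Nat.card_congr f.toEquiv, S1059.result (F := ZMod 3) rfl]; decide)
    (zpowers ⟨_, hx⟩) (B.subgroupOf _) (by rw [Nat.card_zpowers, ← orderOf_coe, ← Nat.card_zpowers, cx])
    ((Nat.card_congr (subgroupOfEquivOfLe hB).toEquiv).trans cB)
  have r := (base hD.1 (M.conj k.1) rfl).2.2.2.2
  have c : ∀ z ∈ ({A 8, A 10, A 11, A 9} : Set G), k.1 * z * k.1⁻¹ = z := fun z hz =>
    mul_inv_eq_iff_eq_mul.2 (k.2 z (subset_closure hz)).symm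
  simp only [genW_conj, ← hA, MulEquiv.coe_toMonoidHom, MulAut.conj_apply] at r
  rw [c _ (by simp), c _ (by simp), c _ (by simp), c _ (by simp)] at r
  have := congrArg (Subgroup.map (Subgroup.subtype _)) hk
  rw [map_subgroupOf_eq_of_le hB, MonoidHom.map_zpowers, MonoidHom.map_zpowers] at this
  exact this ▸ r

end Cfsg.Agent.S5518
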