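import Mathlib
import Cfsg.Statements.S5519
import Cfsg.Agent.H13.C22

set_option autoImplicit false
open Cfsg

namespace Cfsg.Agent.S5519

/-- Let G be a finite group with trivial centre generated by a conjugation-invariant set D of 3-transpositions on which it acts primitively, such that for some d in D the subgroup generated by the members of D other than d commuting with d has central largest normal 2- and 3-subgroups, and suppose G with D is of type M(22). Let d₁, d₂ be distinct commuting members of D and C the centralizer of their product. Then the generalized Fitting subgroup of C is the direct product of a group of order 2 and an extraspecial 2-group of order 2^9, and C modulo it is isomorphic to the full isometry group of the elliptic quadratic form in dimension 6 over the field with two elements. -/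
theorem result {G : Type*} [Group G] [Finite G] {D : Set G} (hD : Cfsg.IsThreeTranspositionGroup D) (hprim : Cfsg.IsPrimitiveUnderConj D) (d₀ : G) (hd₀ : d₀ ∈ D) (h3 : Cfsg.pCore 3 ↥(Subgroup.closure {y : G | y ∈ D ∧ y ≠ d₀ ∧ Commute d₀ y}) ≤ Subgroup.center ↥(Subgroup.closure {y : G | y ∈ D ∧ y ≠ d₀ ∧ Commute d₀ y})) (h2 : Cfsg.pCore 2 ↥(Subgroup.closure {y : G | y ∈ D ∧ y ≠ d₀ ∧ Commute d₀ y}) ≤ Subgroup.center ↥(Subgroup.closure {y : G | y ∈ D ∧ y ≠ d₀ ∧ Commute d₀ y})) (h22 : Cfsg.IsOfTypeM22 G D) (d₁ d₂ : G) (h₁ : d₁ ∈ D) (h₂ : d₂ ∈ D) (hne : d₁ ≠ d₂) (hc : Commute d₁ d₂) (C : Subgroup G) (hC : C = Subgroup.centralizer ({d₁ * d₂} : Set G)) [hn : (Cfsg.generalizedFittingSubgroup ↥C).Normal] : (∃ (E : Type) (_ : Group E) (_ : Finite E), Cfsg.IsExtraspecial 2 E ∧ Nat.card E = 2 ^ 9 ∧ Nonempty (↥(Cfsg.generalizedFittingSubgroup ↥C) ≃* Multiplicative (ZMod 2) × E)) ∧ Nonempty (↥C ⧸ Cfsg.generalizedFittingSubgroup ↥C ≃* Cfsg.isometryGroup (ZMod 2) (Cfsg.quadFormMinus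 2 (ZMod 2) 1 1)) := by
  have h := H29.t22_of_type hD hprim h22
  have m : d₂ ∈ H29.dperp D d₁ := ⟨h₂, hne.symm, hc⟩
  obtain ⟨gen, M⟩ := H13.M22.of_type hD hprim h22
  obtain ⟨gen, M, rfl, rfl⟩ := H13.C22.red hD h M h₁ m
  obtain ⟨E, E₀, a1, a2, a3, a4, a5, a6, a7, a8, -, x, -, N, ⟨e⟩, ce⟩ := H13.C22.main hD h M m hC
  have F := H13.fstar_of (E := E.subgroupOf C) ((IsPGroup.of_card a7).comap_subtype) e H13.O6.core ce
  have c : Nat.card (Subgroup.zpowers (gen 0)) = 2 := (Nat.card_zpowers _).trans (hD.1.1 _ h₁)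
  have : Fact (Nat.Prime 2) := ⟨by decide⟩
  let φ := ((Subgroup.zpowers (gen 0)).subtype.noncommCoprod E₀.subtype fun u v => by
    obtain ⟨_, k, rfl⟩ := u
    exact Commute.zpow_left (a1 (a5 v.2) _ (by simp)) k).codRestrict E fun u => mul_mem (Subgroup.zpowers_le.2 a3 u.1.2) (a5 u.2.2)
  have s : Function.Surjective φ := fun y => (a6 y y.2).elim (fun r => ⟨(1, ⟨y, r⟩), Subtype.ext (one_mul _)⟩) fun r =>
    ⟨(⟨_, Subgroup.mem_zpowers _⟩, ⟨_, r⟩), Subtype.ext (H29.tts_cancel hD.1 h₁ _)⟩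
  refine ⟨⟨Shrink.{0} E₀, inferInstance, .of_equiv _ (equivShrink _), H13.es_equiv' x Shrink.mulEquiv.symm,
    (Nat.card_congr (equivShrink _)).symm.trans a8, ⟨(MulEquiv.subgroupCongr F).trans ((Subgroup.subgroupOfEquivOfLe a2).trans
      ((MulEquiv.ofBijective φ (s.bijective_of_nat_card_le (by rw [Nat.card_prod, c, a7, a8]; decide))).symm.trans
        ((mulEquivOfPrimeCardEq c (by simp)).prodCongr Shrink.mulEquiv.symm)))⟩⟩, ⟨(QuotientGroup.quotientMulEquivOfEq F).trans e⟩⟩

end Cfsg.Agent.S5519
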