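import Cfsg.Statements.S5520
import Mathlib
import Cfsg.Agent.H27.U6C
import Cfsg.Agent.S0279
import Cfsg.Agent.S0283
-- import your own Cfsg.Agent.* helpers here

set_option autoImplicit false
open Cfsg

namespace Cfsg.Agent.S5520

open scoped Pointwise commutatorElement

open H14.PK H27 H27.MG

/-- In the special unitary group of dimension 6 over the field with four elements (determinant-one matrices preserving the standard Hermitian form), the subgroups K whose centre has order 3 with K modulo its centre isomorphic to the projective special unitary group of dimension 4 over the field with nine elements fall into exactly three conjugacy classes. -/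
theorem result (F : Type) [Field F] [Fintype F] (hF : Fintype.card F = 4) (F9 : Type) [Field F9] [Fintype F9] (hF9 : Fintype.card F9 = 9) : ∃ K₁ K₂ K₃ : Subgroup ↥(Cfsg.SU 6 F 2), (∀ K ∈ [K₁, K₂, K₃], Nat.card ↥(Subgroup.center ↥K) = 3 ∧ Nonempty (↥K ⧸ Subgroup.center ↥K ≃* Cfsg.PSU 4 F9 3)) ∧ (¬ ∃ g : ↥(Cfsg.SU 6 F 2), K₁.map (MulAut.conj g).toMonoidHom = K₂) ∧ (¬ ∃ g : ↥(Cfsg.SU 6 F 2), K₁.map (MulAut.conj g).toMonoidHom = K₃) ∧ (¬ ∃ g : ↥(Cfsg.SU 6 F 2), K₂.map (MulAut.conj g).toMonoidHom = K₃) ∧ ∀ K : Subgroup ↥(Cfsg.SU 6 F 2), Nat.card ↥(Subgroup.center ↥K) = 3 → Nonempty (↥K ⧸ Subgroup.center ↥K ≃* Cfsg.PSU 4 F9 3) → ∃ g : ↥(Cfsg.SU 6 F 2), K.map (MulAut.conj g).toMonoidHom = K₁ ∨ K.map (MulAut.conj g).toMonoidHom = K₂ ∨ K.map (MulAut.conj g).toMonoidHom = K₃ := by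
  obtain ⟨S, M⟩ := U62.model F hF
  obtain ⟨S', M'⟩ := U43.model F9 hF9
  have := S'.finite
  have hZ : Nat.card (Subgroup.center (SU 6 F 2)) = 3 := Cfsg.Agent.S0279.result (q := 2) hF 6 (by norm_num)
  have := Cfsg.Agent.S0283.result (q := 3) hF9 4 (by norm_num) (by norm_num)
  have hc : Subgroup.center (PSU 4 F9 3) = ⊥ := (Subgroup.Normal.eq_bot_or_eq_top inferInstance).resolve_right fun h => by
    have := @IsSimpleGroup.prime_card (PSU 4 F9 3) (Group.commGroupOfCenterEqTop h) this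
    rw [M'.card] at this
    norm_num at this
  obtain ⟨K₁, K₂, K₃, a, n1, n2, n3, b⟩ := U62.three M M'
  let π := QuotientGroup.mk' (Subgroup.center (SU 6 F 2))
  have s : Function.Surjective π := QuotientGroup.mk'_surjective _
  have m : ∀ g (K : Subgroup (SU 6 F 2)), (K.map (MulAut.conj g).toMonoidHom).map π = (K.map π).map (MulAut.conj (π g)).toMonoidHom :=
    fun g K => by rw [Subgroup.map_map, Subgroup.map_map]; congr 1
  have n : ∀ {K L : Subgroup (PSU 6 F 2)}, (¬ ∃ g, K.map (MulAut.conj g).toMonoidHom = L) →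
      ¬ ∃ g, (K.comap π).map (MulAut.conj g).toMonoidHom = L.comap π := fun h ⟨g, e⟩ => h ⟨π g, by
    simpa only [m, Subgroup.map_comap_eq_self_of_surjective s] using congrArg (Subgroup.map π) e⟩
  refine ⟨K₁.comap π, K₂.comap π, K₃.comap π, fun K hK => ?_, n n1, n n2, n n3, fun K h1 ⟨e⟩ => ?_⟩
  · obtain ⟨L, hL, rfl⟩ := List.mem_map.1 (show K ∈ [K₁, K₂, K₃].map (Subgroup.comap π) from hK)
    obtain ⟨e⟩ := a L hL
    exact (cen_up e hc).imp_left (·.trans hZ)
  · obtain ⟨l, e⟩ := cen_down Nat.prime_three hZ h1 e (by rw [M.card, M'.card]; norm_num)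
    obtain ⟨g, c⟩ := b _ e
    obtain ⟨g, rfl⟩ := s g
    have d : ((K.map (MulAut.conj g).toMonoidHom).map π).comap π = _ := Subgroup.comap_map_eq_self fun z hz =>
      have hz := (QuotientGroup.ker_mk' _).le hz
      ⟨z, l hz, mul_inv_eq_iff_eq_mul.2 (Subgroup.mem_center_iff.1 hz g)⟩
    rw [← m, List.mem_cons, List.mem_pair] at c
    exact ⟨g, c.imp (fun c => d.symm.trans (congrArg _ c)) fun c => c.imp (fun c => d.symm.trans (congrArg _ c))
      fun c => d.symm.trans (congrArg _ c)⟩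

end Cfsg.Agent.S5520
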