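import Mathlib
import Cfsg.Statements.S5541

set_option autoImplicit false
open Cfsg

namespace Cfsg.Agent.S5541

/-- Let ρ be a representation of a group H on a finite-dimensional real vector space U whose only ρ-invariant subspaces are the zero subspace and U, and suppose U carries a non-zero ρ-invariant symmetric bilinear form. Then the following are equivalent: (1) there is a non-zero ρ-equivariant commutative bilinear product on U of which every ρ-equivariant bilinear product is a scalar multiple; (2) there is a non-zero ρ-invariant trilinear form on U that is symmetric under all permutations of its arguments and of which every ρ-invariant trilinear form is a scalar multiple. -/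
theorem result {H : Type*} [Group H] {U : Type*} [AddCommGroup U] [Module ℝ U] [FiniteDimensional ℝ U] (ρ : Representation ℝ H U) (hirr : ∀ W : Submodule ℝ U, (∀ g : H, W.map (ρ g) ≤ W) → W = ⊥ ∨ W = ⊤) (B : LinearMap.BilinForm ℝ U) (hB0 : B ≠ 0) (hBs : ∀ u v, B u v = B v u) (hBi : ∀ (g : H) (u v : U), B (ρ g u) (ρ g v) = B u v) : (∃ m : U →ₗ[ℝ] U →ₗ[ℝ] U, m ≠ 0 ∧ (∀ u v, m u v = m v u) ∧ (∀ (g : H) (u v : U), m (ρ g u) (ρ g v) = ρ g (m u v)) ∧ ∀ m' : U →ₗ[ℝ] U →ₗ[ℝ] U, (∀ (g : H) (u v : U), m' (ρ g u) (ρ g v) = ρ g (m' u v)) → ∃ c : ℝ, m' = c • m) ↔ (∃ t : U →ₗ[ℝ] U →ₗ[ℝ] U →ₗ[ℝ] ℝ, t ≠ 0 ∧ (∀ u v w, t u v w = t v u w ∧ t u v w = t u w v) ∧ (∀ (g : H) (u v w : U), t (ρ g u) (ρ g v) (ρ g w) = t u v w) ∧ ∀ t' : U →ₗ[ℝ] U →ₗ[ℝ] U →ₗ[ℝ] ℝ, (∀ (g : H) (u v w : U), t' (ρ g u) (ρ g v) (ρ g w) = t' u v w) → ∃ c : ℝ, t' = c • t) := by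
  have hsurj : ∀ (g : H) (u : U), ρ g (ρ g⁻¹ u) = u := fun g u => by
    rw [← Module.End.mul_apply, ← map_mul, mul_inv_cancel, map_one, Module.End.one_apply]
  have hsep : ∀ u, (∀ v, B u v = 0) → u = 0 := by
    rcases hirr (LinearMap.ker B) (fun g => by
      rintro _ ⟨u, hu, rfl⟩
      rw [LinearMap.mem_ker]
      ext v
      have : B u = 0 := hu
      rw [← hsurj g v, hBi, this]; rfl) with h | h
    · intro u hu
      have : u ∈ LinearMap.ker B := by rw [LinearMap.mem_ker]; ext v; exact hu v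
      rwa [h] at this
    · exact absurd (LinearMap.ker_eq_top.1 h) hB0
  have hnd : B.Nondegenerate := ⟨hsep, fun u hu => hsep u fun v => by rw [hBs, hu]⟩
  have hext : ∀ u v, (∀ w, B u w = B v w) → u = v := fun u v h =>
    sub_eq_zero.1 (hsep _ fun w => by rw [map_sub, LinearMap.sub_apply, h, sub_self])
  have dual : ∀ t : U →ₗ[ℝ] U →ₗ[ℝ] U →ₗ[ℝ] ℝ, ∃ m : U →ₗ[ℝ] U →ₗ[ℝ] U,
      ∀ u v w, B (m u v) w = t u v w := fun t =>
    ⟨t.compr₂ (B.toDual hnd).symm.toLinearMap, fun u v w => by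
      simp [LinearMap.compr₂_apply, LinearMap.BilinForm.apply_toDual_symm_apply]⟩
  have equi : ∀ (t : U →ₗ[ℝ] U →ₗ[ℝ] U →ₗ[ℝ] ℝ) (m : U →ₗ[ℝ] U →ₗ[ℝ] U),
      (∀ u v w, B (m u v) w = t u v w) →
      ((∀ (g : H) (u v : U), m (ρ g u) (ρ g v) = ρ g (m u v)) ↔
        ∀ (g : H) (u v w : U), t (ρ g u) (ρ g v) (ρ g w) = t u v w) := by
    intro t m h
    constructor
    · intro h1 g u v w; rw [← h, h1, hBi, h]
    · intro h1 g u v
      refine hext _ _ fun w => ?_
      rw [← hsurj g w, h, h1, hBi, h]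
  constructor
  · rintro ⟨m, hm0, hmc, hmi, hmu⟩
    have ht : ∀ u v w, B (m u v) w = (m.compr₂ B) u v w := fun u v w => rfl
    generalize m.compr₂ B = t at ht
    have hti := (equi t m ht).1 hmi
    have htu : ∀ t' : U →ₗ[ℝ] U →ₗ[ℝ] U →ₗ[ℝ] ℝ,
        (∀ (g : H) (u v w : U), t' (ρ g u) (ρ g v) (ρ g w) = t' u v w) → ∃ c : ℝ, t' = c • t := by
      intro t' h'
      obtain ⟨m', hm'⟩ := dual t'
      obtain ⟨c, hc⟩ := hmu m' ((equi t' m' hm').2 h')
      refine ⟨c, ?_⟩
      ext u v w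
      simp [← hm', hc, ht]
    have ht0 : t ≠ 0 := by
      rintro rfl
      apply hm0
      ext u v
      exact hsep _ fun w => by rw [ht]; rfl
    have s1 : ∀ u v w, t u v w = t v u w := fun u v w => by rw [← ht, ← ht, hmc]
    obtain ⟨c, hc⟩ := htu ((LinearMap.lflip (R₀ := ℝ)).toLinearMap ∘ₗ t) (fun g u v w => hti g u w v)
    have s2 : ∀ u v w, t u w v = c * t u v w := fun u v w =>
      congrArg (fun f : U →ₗ[ℝ] U →ₗ[ℝ] U →ₗ[ℝ] ℝ => f u v w) hc
    have c1 : c = 1 := by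
      by_contra hc1
      apply ht0
      ext u v w
      have e : t u v w = c ^ 3 * t u v w := by
        calc t u v w = t v u w := s1 _ _ _
          _ = c * t w v u := by rw [s2 v w u, s1 v w u]
          _ = c * (c * t u w v) := by rw [s2 w u v, s1 w u v]
          _ = _ := by rw [s2 u v w]; ring
      have : (c - 1) * ((c ^ 2 + c + 1) * t u v w) = 0 := by linear_combination -e
      rcases mul_eq_zero.1 this with h | h
      · exact absurd (by linarith) hc1
      rcases mul_eq_zero.1 h with h | h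
      · nlinarith [sq_nonneg (2 * c + 1)]
      · exact h
    exact ⟨t, ht0, fun u v w => ⟨s1 u v w, by rw [s2 u w v, c1, one_mul]⟩, hti, htu⟩
  · rintro ⟨t, ht0, hts, hti, htu⟩
    obtain ⟨m, hm⟩ := dual t
    refine ⟨m, ?_, fun u v => hext _ _ fun w => by rw [hm, hm, (hts u v w).1],
      (equi t m hm).2 hti, fun m' hm' => ?_⟩
    · rintro rfl
      apply ht0
      ext u v w
      rw [← hm]; simp
    · obtain ⟨c, hc⟩ := htu (m'.compr₂ B) ((equi _ m' (fun u v w => rfl)).1 hm')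
      refine ⟨c, ?_⟩
      ext u v
      refine hext _ _ fun w => ?_
      have := congrArg (fun f : U →ₗ[ℝ] U →ₗ[ℝ] U →ₗ[ℝ] ℝ => f u v w) hc
      simpa [hm] using this

end Cfsg.Agent.S5541
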