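import Mathlib
import Cfsg.Statements.S5543
import Cfsg.Agent.H03.Maj3

set_option autoImplicit false
open Cfsg

namespace Cfsg.Agent.S5543

/-- Let V be a finite-dimensional real vector space with a commutative bilinear product and a positive-definite symmetric bilinear form that associates with the product and satisfies the Norton inequality (the Majorana setting of the definitions). Let X be a group of linear automorphisms of V in which every element squares to the identity, and suppose every non-identity element x of X is a Majorana involution with an axial vector a(x) of squared length 1, such that for any two distinct non-identity x, y the product a(x) ∘ a(y) equals (1/8)(a(x) + a(y) − a(xy)) (the dihedral subalgebra of type 2A whose third axis belongs to the involution xy). Then X has order at most 4. -/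
theorem result {V : Type*} [AddCommGroup V] [Module ℝ V] [FiniteDimensional ℝ V] (mul : V →ₗ[ℝ] V →ₗ[ℝ] V) (B : LinearMap.BilinForm ℝ V) (hV : Cfsg.Axial.IsMajoranaAmbient mul B) (X : Subgroup (V ≃ₗ[ℝ] V)) (hX : ∀ x ∈ X, x * x = 1) (ax : (V ≃ₗ[ℝ] V) → V) (hax : ∀ x ∈ X, x ≠ 1 → Cfsg.Axial.IsMajoranaPair mul B x (ax x)) (h1 : ∀ x ∈ X, x ≠ 1 → B (ax x) (ax x) = 1) (h2A : ∀ x ∈ X, ∀ y ∈ X, x ≠ 1 → y ≠ 1 → x ≠ y → mul (ax x) (ax y) = (1 / 8 : ℝ) • (ax x + ax y - ax (x * y))) : Nat.card ↥X ≤ 4 := by
  open H03.Maj in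
  classical
  by_contra hlt
  push Not at hlt
  have hfin : Finite X := Nat.finite_of_card_ne_zero (by omega)
  have pick : ∀ s : Finset X, s.card ≤ 4 → ∃ x : X, x ∉ s := by
    intro s hs
    by_contra hno
    push Not at hno
    have := Fintype.ofFinite X
    have : s = Finset.univ := Finset.eq_univ_iff_forall.2 hno
    rw [this, Finset.card_univ, ← Nat.card_eq_fintype_card] at hs
    omega
  obtain ⟨x, hx⟩ := pick {1} (by simp)
  obtain ⟨y, hy⟩ := pick {1, x} (Finset.card_le_two.trans (by norm_num))
  obtain ⟨z, hz⟩ := pick {1, x, y, x * y} Finset.card_le_four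
  simp only [Finset.mem_insert, Finset.mem_singleton, not_or] at hx hy hz
  have sq : ∀ g : X, g * g = 1 := fun g => Subtype.ext (hX g g.2)
  have inv : ∀ g : X, g⁻¹ = g := fun g => inv_eq_of_mul_eq_one_right (sq g)
  have cm : ∀ g h : X, g * h = h * g := fun g h => by
    rw [← inv (g * h), mul_inv_rev, inv, inv]
  letI : CommGroup X := { (inferInstance : Group X) with mul_comm := cm }
  have ne1 : ∀ g h : X, g ≠ h → g * h ≠ 1 := fun g h hne e =>
    hne (by rw [eq_inv_of_mul_eq_one_left e, inv])
  have P : ∀ g h k : X, g ≠ 1 → h ≠ 1 → k ≠ 1 → g * h = k →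
      mul (ax g) (ax h) = (1 / 8 : ℝ) • (ax g + ax h - ax k) := by
    intro g h k hg hh hk e
    rw [← e]
    refine h2A g g.2 h h.2 (by simpa using hg) (by simpa using hh) ?_
    intro e2
    apply hk
    rw [← e, Subtype.ext e2, sq]
  have Aof : ∀ g : X, g ≠ 1 → Ax mul B g (ax g) := fun g hg =>
    ax_of hV (hax g g.2 (by simpa using hg)) (h1 g g.2 (by simpa using hg))
  have hxy : x * y ≠ 1 := ne1 _ _ (Ne.symm hy.2)
  have hxz : x * z ≠ 1 := ne1 _ _ (Ne.symm hz.2.1)
  have hyz : y * z ≠ 1 := ne1 _ _ (Ne.symm hz.2.2.1)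
  have hxyz : x * y * z ≠ 1 := ne1 _ _ (Ne.symm hz.2.2.2)
  have can : ∀ g h : X, g * (g * h) = h := fun g h => by rw [← mul_assoc, sq, one_mul]
  have p1 := P x y (x * y) hx hy.1 hxy rfl
  have p2 := P x (x * y) y hx hxy hy.1 (can _ _)
  have p3 := P x z (x * z) hx hz.1 hxz rfl
  have p4 := P x (x * z) z hx hxz hz.1 (can _ _)
  have p5 := P y z (y * z) hy.1 hz.1 hyz rfl
  have p6 := P y (x * z) (x * y * z) hy.1 hxz hxyz (by rw [mul_left_comm, mul_assoc])
  have p7 := P (x * y) z (x * y * z) hxy hz.1 hxyz rfl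
  have p8 := P (x * y) (x * z) (y * z) hxy hxz hyz
    (by rw [mul_mul_mul_comm, sq, one_mul])
  have p9 := P x (y * z) (x * y * z) hx hyz hxyz (by rw [mul_assoc])
  have p10 := P x (x * y * z) (y * z) hx hxyz hyz (by rw [mul_assoc, can])
  have Ax := Aof x hx
  have F := Ax.f44 (ax y - ax (x * y : X)) (ax z - ax (x * z : X))
    (by rw [map_sub, p1, p2]; module) (by rw [map_sub, p3, p4]; module)
  generalize B (ax y - ax (x * y : X)) (ax z - ax (x * z : X)) / 4 = c at F
  simp only [map_sub, LinearMap.sub_apply, p5, p6, p7, p8, map_smul, map_add, p1, p2, p3, p4, p9,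
    p10] at F
  have F1 : ax (x * y * z : X) - ax (y * z : X) = (16 * c) • ax x := by
    linear_combination (norm := module) (16 : ℝ) • F
  have F2 := congrArg (mul (ax x)) F1
  simp only [map_sub, map_smul, p9, p10, Ax.idem] at F2
  have F3 : ax (x * y * z : X) = ax (y * z : X) := by
    linear_combination (norm := module) (4/3 : ℝ) • F1 - (4/3 : ℝ) • F2
  have := (Aof _ hxyz).uniq (F3 ▸ Aof _ hyz)
  have e : x * y * z = y * z := Subtype.ext this
  rw [mul_assoc, mul_eq_right] at e
  exact hx e

end Cfsg.Agent.S5543
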