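import Mathlib
import Cfsg.Statements.S5545
import Cfsg.Agent.H03.Maj3

set_option autoImplicit false
open Cfsg

namespace Cfsg.Agent.S5545

/-- Let V be a finite-dimensional real vector space with a commutative bilinear product and a positive-definite symmetric bilinear form that associates with the product and satisfies the Norton inequality (the Majorana setting of the definitions). Let μ₀, μ₁ be commuting Majorana involutions with distinct axial vectors a₀ ≠ a₁ of squared length 1, each involution having no other axial vector. Then either a₀ and a₁ are orthogonal with a₀ ∘ a₁ = 0 (type 2B), or their inner product is 1/8 and, with a₂ = a₀ + a₁ − 8 a₀ ∘ a₁, the vector a₂ is an idempotent and a₀ ∘ a₂ = (1/8)(a₀ + a₂ − a₁), a₁ ∘ a₂ = (1/8)(a₁ + a₂ − a₀) (type 2A: the three idempotents span a subalgebra with aᵢ ∘ aⱼ = (1/8)(aᵢ + aⱼ − aₖ)). -/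
theorem result {V : Type*} [AddCommGroup V] [Module ℝ V] [FiniteDimensional ℝ V] (mul : V →ₗ[ℝ] V →ₗ[ℝ] V) (B : LinearMap.BilinForm ℝ V) (hV : Cfsg.Axial.IsMajoranaAmbient mul B) (μ₀ μ₁ : V ≃ₗ[ℝ] V) (a₀ a₁ : V) (h₀ : Cfsg.Axial.IsMajoranaPair mul B μ₀ a₀) (h₁ : Cfsg.Axial.IsMajoranaPair mul B μ₁ a₁) (hu₀ : ∀ a : V, Cfsg.Axial.IsMajoranaPair mul B μ₀ a → a = a₀) (hu₁ : ∀ a : V, Cfsg.Axial.IsMajoranaPair mul B μ₁ a → a = a₁) (hn₀ : B a₀ a₀ = 1) (hn₁ : B a₁ a₁ = 1) (hc : μ₀ * μ₁ = μ₁ * μ₀) (hne : a₀ ≠ a₁) : (B a₀ a₁ = 0 ∧ mul a₀ a₁ = 0) ∨ (B a₀ a₁ = 1 / 8 ∧ mul (a₀ + a₁ - (8 : ℝ) • mul a₀ a₁) (a₀ + a₁ - (8 : ℝ) • mul a₀ a₁) = a₀ + a₁ - (8 : ℝ) • mul a₀ a₁ ∧ mul a₀ (a₀ + a₁ - (8 : ℝ) • mul a₀ a₁) = (1 / 8 : ℝ) • (a₀ + (a₀ + a₁ - (8 : ℝ) • mul a₀ a₁) - a₁) ∧ mul a₁ (a₀ + a₁ - (8 : ℝ) • mul a₀ a₁) = (1 / 8 : ℝ) • (a₁ + (a₀ + a₁ - (8 : ℝ) • mul a₀ a₁) - a₀)) := by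
  open H03.Maj in
  have A0 := ax_of hV h₀ hn₀
  have A1 := ax_of hV h₁ hn₁
  obtain ⟨a, e0, e1, em1, e2, h⟩ := H03.Maj.exists_sq hV.1 hV.2.1 hV.2.2.2.1 A0 A1
  have f1 : μ₀ a₁ = a₁ := by
    have := H03.Maj.pair_conj h₁ (σ := μ₀) ⟨A0.tmul, A0.tB⟩
    rw [hc, mul_inv_cancel_right] at this
    exact hu₁ _ this
  have f0 : μ₁ a₀ = a₀ := by
    have := H03.Maj.pair_conj h₀ (σ := μ₁) ⟨A1.tmul, A1.tB⟩
    rw [← hc, mul_inv_cancel_right] at this
    exact hu₀ _ this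
  rw [f1] at em1; rw [f0] at e2
  have em2 : a (-2) = a₀ := by
    rw [← h.refl 0 2 (-2) (by norm_num), e2, ← e0, (h.ax 0).fix]
  have e3 : a 3 = a₁ := by
    rw [← h.refl 1 (-1) 3 (by norm_num), em1, ← e1, (h.ax 1).fix]
  obtain ⟨l, hl⟩ : ∃ l, B a₀ a₁ = l := ⟨_, rfl⟩
  have hl' : B (a 0) (a 1) = l := by rw [e0, e1, hl]
  have hm : B (a 0) (a 2) = 1 := by rw [e0, e2, hn₀]
  have r := h.rel hl' hm
  obtain ⟨c1, c2⟩ := h.core0 hl' hm rfl rfl rfl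
  rw [e0, e1, em1, e2, em2] at c1 c2
  rw [e0, e1, em1, e2, em2, e3] at r
  have hcm : mul a₁ a₀ = mul a₀ a₁ := hV.1 _ _
  simp only [H03.Maj.sg, A0.idem, A1.idem, map_sub, map_add, map_smul, LinearMap.add_apply,
    LinearMap.sub_apply, LinearMap.smul_apply, hcm] at r c1 c2
  have r' : (4096 * (l * (8 * l - 1))) • (a₀ - a₁) = 0 := by
    linear_combination (norm := module) r
  have hl2 : l * (8 * l - 1) = 0 := by
    rcases smul_eq_zero.1 r' with h | h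
    · linarith
    · exact absurd (sub_eq_zero.1 h) hne
  rw [hl]
  rcases mul_eq_zero.1 hl2 with h0 | h0
  · left
    subst h0
    refine ⟨rfl, ?_⟩
    linear_combination (norm := module) (3/4 : ℝ) • c1
  · right
    have h8 : l = 1/8 := by linarith
    subst h8
    have q0 := A0.quad a₁
    have q1 := A1.quad a₀
    rw [f1, hV.2.1, hl] at q0
    rw [f0, hl] at q1
    have k0 : mul (mul a₀ a₁) a₀ = mul a₀ (mul a₀ a₁) := hV.1 _ _
    have k1 : mul (mul a₀ a₁) a₁ = mul a₁ (mul a₀ a₁) := hV.1 _ _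
    simp only [map_add, hcm, k0, k1] at q0 q1 c2
    simp only [A0.idem, A1.idem, map_sub, map_add, map_smul, LinearMap.add_apply,
      LinearMap.sub_apply, LinearMap.smul_apply, hcm, k0, k1]
    refine ⟨trivial, ?_, ?_, ?_⟩
    · linear_combination (norm := module) (64 : ℝ) • c2 - (6 : ℝ) • q0 - (6 : ℝ) • q1
    · linear_combination (norm := module) (-4 : ℝ) • q0
    · linear_combination (norm := module) (-4 : ℝ) • q1

end Cfsg.Agent.S5545
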