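import Mathlib
import Cfsg.Statements.S5546
import Cfsg.Agent.H14.Co0

set_option autoImplicit false
open Cfsg

namespace Cfsg.Agent.S5546

open H14 Finset

instance fact13 : Fact (Nat.Prime 13) := ⟨by norm_num⟩

theorem sub_rep {G F M : Type*} [Group G] [Field F] [AddCommGroup M] [Module F M] [FiniteDimensional F M]
    (r : G → Module.End F M) (h1 : r 1 = 1) (h2 : ∀ g h, r (g * h) = r g * r h) (W : Submodule F M)
    (m : ∀ g, ∀ x ∈ W, r g x ∈ W) {n : ℕ} (d : Module.finrank F W = n) (h : ∀ g, (∀ x ∈ W, r g x = x) → g = 1) :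
    ∃ f : G →* GL (Fin n) F, Function.Injective f := by
  let b := Module.finBasisOfFinrankEq F W d
  let φ : G →* Module.End F W :=
    { toFun := fun g => (r g).restrict (m g)
      map_one' := LinearMap.ext fun x => Subtype.ext (LinearMap.congr_fun h1 x.1)
      map_mul' := fun g h => LinearMap.ext fun x => Subtype.ext (LinearMap.congr_fun (h2 g h) x.1) }
  refine ⟨((LinearMap.toMatrixAlgEquiv b).toMonoidHom.comp φ).toHomUnits, (injective_iff_map_eq_one _).2 fun g c => h g fun x hx => ?_⟩
  have h1 : φ g = 1 := (LinearMap.toMatrixAlgEquiv b).injective ((congrArg Units.val c).trans (map_one _).symm)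
  exact congrArg Subtype.val (LinearMap.congr_fun h1 ⟨x, hx⟩)

/-- reduction modulo 13 -/
def red (v : leechLattice) : GolayPt → ZMod 13 := fun p => ((v : V) p : ZMod 13)

/-- the action modulo 13 -/
noncomputable def ρ (g : Co0) : Module.End (ZMod 13) (GolayPt → ZMod 13) :=
  ∑ j, (LinearMap.proj j).smulRight ((5 : ZMod 13) • red (g • e8 j))

theorem ρ_red (g : Co0) (v : leechLattice) : ρ g (red v) = red (g • v) := by
  ext p
  have h := congrArg (fun x : leechLattice => (((g • x : leechLattice) : V) p : ZMod 13)) (eight_smul_eq v)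
  simp only [co_zsmul, smul_sum, AddSubgroup.coe_zsmul, AddSubgroup.val_finsetSum, Finset.sum_apply, Pi.smul_apply, smul_eq_mul] at h
  push_cast at h
  simp only [ρ, LinearMap.sum_apply, LinearMap.smulRight_apply, LinearMap.proj_apply, Finset.sum_apply, Pi.smul_apply,
    smul_eq_mul, red, mul_left_comm _ (5 : ZMod 13)]
  rw [← mul_sum, ← h, ← mul_assoc, show (5 : ZMod 13) * 8 = 1 from rfl, one_mul]

theorem ext_red {M : Type*} [AddCommGroup M] [Module (ZMod 13) M] {f g : (GolayPt → ZMod 13) →ₗ[ZMod 13] M}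
    (h : ∀ j, f (red (e8 j)) = g (red (e8 j))) : f = g := by
  refine LinearMap.pi_ext' fun j => LinearMap.ext_ring ?_
  have : LinearMap.single (ZMod 13) (fun _ : GolayPt => ZMod 13) j 1 = (5 : ZMod 13) • red (e8 j) := by
    ext p; by_cases c : p = j <;> simp [red, coe_e8, c, Pi.single_apply]; rfl
  simp only [LinearMap.comp_apply, this, map_smul, h]

theorem ρ_one : ρ 1 = 1 := ext_red fun j => by rw [ρ_red, one_smul, Module.End.one_apply]

theorem ρ_mul (g h : Co0) : ρ (g * h) = ρ g * ρ h := ext_red fun j => by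
  rw [Module.End.mul_apply, ρ_red, ρ_red, ρ_red, mul_smul]

/-- a linear form -/
def ℓ : (GolayPt → ZMod 13) →ₗ[ZMod 13] ZMod 13 :=
  LinearMap.proj (R := ZMod 13) (φ := fun _ : GolayPt => ZMod 13) none + LinearMap.proj (R := ZMod 13) (φ := fun _ : GolayPt => ZMod 13) (some 0)

theorem ℓ_red (v : leechLattice) : ℓ (red v) = 10 * (dotInt (Spor.leechU : V) v : ℤ) := by
  have : dotInt (Spor.leechU : V) v = 4 * (v : V) none + 4 * (v : V) (some 0) := by
    rw [show (Spor.leechU : V) = Pi.single none 4 + Pi.single (some 0) 4 by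
      ext p; revert p; decide, add_dotInt, dotInt_comm, dotInt_single, dotInt_comm, dotInt_single]; ring
  rw [this]; push_cast
  rw [mul_add, ← mul_assoc, ← mul_assoc, show (10 : ZMod 13) * 4 = 1 from rfl, one_mul, one_mul]; rfl

theorem eq_one {g : Co0} (h : ρ g = 1) : g = 1 := co_ext fun j => by
  have a := ρ_red g (e8 j)
  rw [h] at a
  choose y hy using fun p => (ZMod.intCast_eq_intCast_iff_dvd_sub _ _ 13).1 (congrFun a p)
  have b : ((g • e8 j - e8 j : leechLattice) : V) = (13 : ℤ) • y := funext hy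
  have c : y ∈ leechLattice := by
    have : y = (5 : ℤ) • (13 : ℤ) • y - ∑ i, Pi.single i (8 * (8 * y i)) := by
      ext p
      rw [Pi.sub_apply, Finset.sum_apply, Finset.sum_pi_single, if_pos (mem_univ p)]
      simp only [Pi.smul_apply, smul_eq_mul]; ring
    rw [this, ← b]
    exact sub_mem (zsmul_mem (Subtype.prop _) _) (sum_mem fun i _ => single8_mem _ _)
  by_contra d
  have e := leech_min c fun e => d (by
    rw [e, smul_zero] at b; exact (sub_eq_zero.1 (Subtype.ext b)).trans (one_smul _ _).symm)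
  have f := congrArg sqNorm b
  have f' := sqNorm_nonneg (((g • e8 j : leechLattice) : V) + (e8 j : V))
  rw [sqNorm_smul, AddSubgroup.coe_sub, sqNorm_sub, co_norm, norm_e8] at f
  rw [sqNorm_add, co_norm, norm_e8] at f'
  omega

/-- The second Conway group (the stabilizer in the Leech lattice automorphism group of the short vector fixed in the definitions) is isomorphic to a subgroup of the general linear group of degree 23 over the field with 13 elements: there is an injective homomorphism into it. -/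
theorem result : ∃ f : ↥Cfsg.Spor.Co2 →* GL (Fin 23) (ZMod 13), Function.Injective f := by
  have inv : ∀ g : Spor.Co2, ℓ ∘ₗ ρ ⟨g, g.2.1⟩ = ℓ := fun g => ext_red fun j => by
    rw [LinearMap.comp_apply, ρ_red, ℓ_red, ℓ_red, ← co_dot ⟨g, g.2.1⟩ Spor.leechU (e8 j)]
    exact congrArg (fun x : leechLattice => (10 : ZMod 13) * (dotInt (x : V) _ : ℤ)) g.2.2.symm
  have m : ∀ g : Spor.Co2, ∀ x ∈ LinearMap.ker ℓ, ρ ⟨g, g.2.1⟩ x ∈ LinearMap.ker ℓ := fun g x hx =>
    (LinearMap.congr_fun (inv g) x).trans hx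
  have u : ℓ (red Spor.leechU) = 8 := by decide +kernel
  have d : Module.finrank (ZMod 13) (LinearMap.ker ℓ) = 23 := by
    have := ℓ.finrank_range_add_finrank_ker
    rw [LinearMap.range_eq_top.2 fun a => ⟨(5 * a) • red Spor.leechU, by
      rw [map_smul, u, smul_eq_mul, mul_right_comm, show (5 : ZMod 13) * 8 = 1 from rfl, one_mul]⟩, finrank_top,
      Module.finrank_self, Module.finrank_fintype_fun_eq_card, card_pt] at this
    omega
  refine sub_rep (fun g : Spor.Co2 => ρ ⟨g, g.2.1⟩) ρ_one (fun g h => ρ_mul ⟨g, g.2.1⟩ ⟨h, h.2.1⟩) _ m d fun g h => ?_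
  refine Subtype.ext (congrArg (fun x : Co0 => x.1) (eq_one (g := ⟨g, g.2.1⟩) (LinearMap.ext fun x => ?_)))
  have a := h (x - (5 * ℓ x) • red Spor.leechU) (by
    rw [LinearMap.mem_ker, map_sub, map_smul, u, smul_eq_mul, mul_right_comm, show (5 : ZMod 13) * 8 = 1 from rfl, one_mul, sub_self])
  rw [map_sub, map_smul, ρ_red, show (⟨g, g.2.1⟩ : Co0) • Spor.leechU = Spor.leechU from (Subgroup.mem_inf.1 g.2).2] at a
  exact sub_left_injective a

end Cfsg.Agent.S5546
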