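import Mathlib
import Cfsg.Statements.S5549
import Cfsg.Agent.H14.Sextet
import Cfsg.Agent.H14.GMod

set_option autoImplicit false
open Cfsg

namespace Cfsg.Agent.S5549

open Finset H14
open scoped symmDiff Pointwise

theorem xor2 {α : Type*} [DecidableEq α] {s : Finset α} {a b : α} (n : a ≠ b) (h : (s ∩ {a, b}).card = 1) : a ∈ s ↔ b ∉ s := by
  by_cases ha : a ∈ s <;> by_cases hb : b ∈ s <;> simp_all [inter_comm s]

theorem star {α ι : Type*} [DecidableEq α] [Fintype ι] (hι : 4 ≤ Fintype.card ι) (u : ι → Finset α) (h2 : ∀ i, (u i).card = 2)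
    (h1 : ∀ i j, i ≠ j → (u i ∩ u j).card = 1) : ∃ a, ∀ i, a ∈ u i := by
  classical
  by_contra! h
  obtain ⟨i⟩ : Nonempty ι := Fintype.card_pos_iff.1 (by omega)
  obtain ⟨a, b, ab, e⟩ := card_eq_two.1 (h2 i)
  obtain ⟨j, hj⟩ := h a
  obtain ⟨k, hk⟩ := h b
  have ji : j ≠ i := by rintro rfl; simp [e] at hj
  have ki : k ≠ i := by rintro rfl; simp [e] at hk
  have bj : b ∈ u j := by have := xor2 ab (e ▸ h1 j i ji); tauto
  have ak : a ∈ u k := by have := xor2 ab (e ▸ h1 k i ki); tauto
  have jk : j ≠ k := by rintro rfl; exact hj ak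
  obtain ⟨c, hc⟩ := card_pos.1 ((h1 j k jk).symm ▸ one_pos)
  rw [mem_inter] at hc
  have bc : b ≠ c := by rintro rfl; exact hk hc.2
  have ac : a ≠ c := by rintro rfl; exact hj hc.1
  have ej : u j = {b, c} := (eq_of_subset_of_card_le (by simp [insert_subset_iff, bj, hc.1]) (by simp [h2, bc])).symm
  have ek : u k = {a, c} := (eq_of_subset_of_card_le (by simp [insert_subset_iff, ak, hc.2]) (by simp [h2, ac])).symm
  obtain ⟨l, -, hl⟩ := exists_mem_notMem_of_card_lt_card (s := {i, j, k}) (t := univ) (card_le_three.trans_lt hι)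
  simp only [mem_insert, mem_singleton, not_or] at hl
  have := xor2 ab (e ▸ h1 l i hl.1)
  have := xor2 bc (ej ▸ h1 l j hl.2.1)
  have := xor2 ac (ek ▸ h1 l k hl.2.2)
  tauto

/-- the functional of a set -/
def fn (u : Finset GolayPt) : golayCode →ₗ[ZMod 2] ZMod 2 := (∑ p ∈ u, LinearMap.proj p).comp golayCode.subtype

theorem fn_apply (u : Finset GolayPt) (c : golayCode) : fn u c = ∑ p ∈ u, c.1 p := by simp [fn]

theorem fn_card (u : Finset GolayPt) (c : golayCode) : fn u c = (u ∩ support₂ c.1).card := by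
  rw [fn_apply, ← dot_ind, ind_support]; simp [ind]

theorem fn_symmDiff (u v : Finset GolayPt) : fn (u ∆ v) = fn u + fn v := by
  ext c; simp only [LinearMap.add_apply, fn_card, ← dot_ind, ind_symmDiff, Pi.add_apply, add_mul, sum_add_distrib]

theorem fn_eq_zero {u : Finset GolayPt} : fn u = 0 ↔ u ∈ Code := by
  refine ⟨fun h => mem_Code_of_even_inter fun t ht => ?_, fun h => LinearMap.ext fun c => ?_⟩
  · simpa [fn_card, ZMod.natCast_eq_zero_iff] using LinearMap.congr_fun h ⟨_, mem_Code_iff_ind.1 ht⟩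
  · rw [fn_card]; exact (ZMod.natCast_eq_zero_iff _ _).2 (Code_even_inter h (support_mem_Code.2 c.2))

theorem add_self' (f : golayCode →ₗ[ZMod 2] ZMod 2) : f + f = 0 := by ext; exact CharTwo.add_self_eq_zero _

theorem exists_fn (f : golayCode →ₗ[ZMod 2] ZMod 2) : ∃ u : Finset GolayPt, u.card ≤ 4 ∧ f = fn u := by
  obtain ⟨g, rfl⟩ := f.exists_extend
  obtain ⟨u, a, b⟩ := exists_leader none (support₂ fun p => g (Pi.single p 1))
  refine ⟨u, by omega, ?_⟩
  rw [← fn_eq_zero, fn_symmDiff, ← add_self' (fn u), add_left_inj] at b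
  rw [← b]
  ext c
  rw [fn_card, ← dot_ind, ind_support, ind_support, LinearMap.comp_apply, LinearMap.pi_apply_eq_sum_univ]
  refine sum_congr rfl fun p _ => ?_
  rw [smul_eq_mul, mul_comm]; congr 2; ext; simp [Pi.single_apply, eq_comm]

/-- the number of dodecads outside the kernel -/
noncomputable def nd (f : golayCode →ₗ[ZMod 2] ZMod 2) : ℕ := {c : golayCode | (support₂ c.1).card = 12 ∧ f c ≠ 0}.ncard

theorem nd_fn (u : Finset GolayPt) : nd (fn u) = {s | s ∈ Code ∧ s.card = 12 ∧ ¬ 2 ∣ (s ∩ u).card}.ncard := by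
  refine Set.ncard_congr (fun c _ => support₂ c.1) (fun c h => ⟨support_mem_Code.2 c.2, h.1, ?_⟩)
    (fun c d _ _ e => Subtype.ext (by rw [← ind_support c.1, e, ind_support])) fun s h => ⟨⟨_, mem_Code_iff_ind.1 h.1⟩, ?_, by simp⟩
  · simpa [fn_card, ZMod.natCast_eq_zero_iff, inter_comm] using h.2
  · simpa [fn_card, ZMod.natCast_eq_zero_iff, inter_comm] using h.2

theorem nd_card {u : Finset GolayPt} {n : ℕ} (h : u.card ≤ 5) (e : u.card = (toSet n).card) :
    nd (fn u) = cnt2 64 64 fun a => band (Nat.beq (pc (cw a)) 12) (bit (pc (Nat.land (cw a) n)) 0) := by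
  obtain ⟨g, hg, rfl⟩ := M24_smul_eq (e ▸ h) e.symm
  rw [nd_fn, ncard_Code_smul hg _ (fun s => s.card = 12 ∧ ¬ 2 ∣ (s ∩ toSet n).card) fun s => by
    rw [← smul_finset_inter, card_smul_finset, card_smul_finset]]
  refine ncard_Code _ (fun m => band (Nat.beq (pc m) 12) (bit (pc (Nat.land m n)) 0)) fun a ha => ?_
  rw [card_toSet (cw_lt ha), card_inter_toSet _ (cw_lt ha)]
  rw [band_iff, Nat.beq_eq, bit_eq, Nat.testBit_zero, decide_eq_true_iff, Nat.two_dvd_ne_zero]; rfl

theorem nd_two {u : Finset GolayPt} (h : u.card = 2) : nd (fn u) = 1344 :=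
  (nd_card (n := 3) (by omega) (h.trans (by decide +kernel))).trans (by decide +kernel)

theorem duad {f : golayCode →ₗ[ZMod 2] ZMod 2} (h : nd f = 1344) (h1 : f ⟨_, mem_Code_iff_ind.1 Code_univ⟩ = 0) :
    ∃ u : Finset GolayPt, u.card = 2 ∧ f = fn u := by
  obtain ⟨u, a, rfl⟩ := exists_fn f
  simp only [fn_card, support_ind, inter_univ, ZMod.natCast_eq_zero_iff] at h1
  refine ⟨u, ?_, rfl⟩
  by_contra n
  rcases (by omega : u.card = 0 ∨ u.card = 4) with e | e
  · rw [nd_card (n := 0) (by omega) (e.trans (by decide +kernel))] at h; revert h; decide +kernel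
  · rw [nd_card (n := 15) (by omega) (e.trans (by decide +kernel))] at h; revert h; decide +kernel

/-- Let X be a group of linear automorphisms of the length-24 binary Golay code of the definitions that fix the all-ones word, containing the coordinate-permutation action of every element of the code's automorphism group (the Mathieu group of degree 24), and such that every element of X sends each codeword into its orbit under that Mathieu group up to adding the all-ones word (X has the same orbits as the Mathieu group on the code modulo the all-ones word). Then every element of X agrees, modulo the all-ones word, with the action of a single element of the Mathieu group: X induces exactly the Mathieu group on the code modulo the all-ones word. -/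
theorem result (X : Subgroup (↥Cfsg.golayCode ≃ₗ[ZMod 2] ↥Cfsg.golayCode)) (h1 : ∀ x ∈ X, ∀ e : ↥Cfsg.golayCode, (e : (Cfsg.GolayPt → ZMod 2)) = (fun _ => (1 : ZMod 2)) → x e = e) (hM : ∀ σ ∈ Cfsg.M24, ∃ x ∈ X, ∀ c : ↥Cfsg.golayCode, ((x c : ↥Cfsg.golayCode) : (Cfsg.GolayPt → ZMod 2)) = fun p => (c : (Cfsg.GolayPt → ZMod 2)) (σ.symm p)) (horb : ∀ x ∈ X, ∀ c : ↥Cfsg.golayCode, ∃ σ ∈ Cfsg.M24, ((x c : ↥Cfsg.golayCode) : (Cfsg.GolayPt → ZMod 2)) = (fun p => (c : (Cfsg.GolayPt → ZMod 2)) (σ.symm p)) ∨ ((x c : ↥Cfsg.golayCode) : (Cfsg.GolayPt → ZMod 2)) = (fun p => (c : (Cfsg.GolayPt → ZMod 2)) (σ.symm p)) + fun _ => (1 : ZMod 2)) (x : ↥Cfsg.golayCode ≃ₗ[ZMod 2] ↥Cfsg.golayCode) (hx : x ∈ X) : ∃ σ ∈ Cfsg.M24, ∀ c : ↥Cfsg.golayCode, ((x c : ↥Cfsg.golayCode) : (Cfsg.GolayPt → ZMod 2)) = (fun p => (c : (Cfsg.GolayPt → ZMod 2)) (σ.symm p)) ∨ ((x c : ↥Cfsg.golayCode) : (Cfsg.GolayPt → ZMod 2)) = (fun p => (c : (Cfsg.GolayPt → ZMod 2)) (σ.symm p)) + fun _ => (1 : ZMod 2) := by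
  have hd : ∀ c : golayCode, (support₂ (x c).1).card = 12 ↔ (support₂ c.1).card = 12 := fun c => by
    obtain ⟨σ, -, e⟩ := horb x hx c
    have i := ind_smul σ (support₂ c.1)
    rw [ind_support] at i
    rw [i, ← ind_univ, ← ind_symmDiff] at e
    rcases e with e | e <;> rw [e, support_ind]
    · rw [card_smul_finset]
    · rw [← top_eq_univ, symmDiff_top, hnot_eq_compl, card_compl, card_smul_finset, card_pt]
      have := card_le_univ (support₂ c.1); rw [card_pt] at this; omega
  have key : ∀ v : Finset GolayPt, v.card = 2 → ∃ u : Finset GolayPt, u.card = 2 ∧ (fn v).comp x.toLinearMap = fn u := fun v hv => by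
    refine duad (Eq.trans ?_ (nd_two hv)) ?_
    · exact Set.ncard_congr (fun c _ => x c) (fun c h => ⟨(hd c).2 h.1, h.2⟩) (fun _ _ _ _ e => x.injective e)
        fun c h => by obtain ⟨c, rfl⟩ := x.surjective c; exact ⟨c, ⟨(hd c).1 h.1, h.2⟩, rfl⟩
    · simp [h1 x hx ⟨_, mem_Code_iff_ind.1 Code_univ⟩ ind_univ, fn_card, hv]; rfl
  choose u hu e using fun q : ZMod 23 => key {none, some q} (by simp)
  have hi : ∀ q r, q ≠ r → (u q ∩ u r).card = 1 := fun q r n => by
    obtain ⟨v, hv, i⟩ := key {some q, some r} (by simp [n])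
    have : ({some q, some r} : Finset GolayPt) = {none, some q} ∆ {none, some r} := by
      ext p; simp only [mem_symmDiff, mem_insert, mem_singleton]; aesop
    rw [this, fn_symmDiff, LinearMap.add_comp, e, e, ← fn_symmDiff] at i
    have j := card_symmDiff_add (u q) (u r)
    have k := card_symmDiff_add (u q ∆ u r) v
    rw [hu, hu] at j
    rw [Code_eq_of_symmDiff_lt (s := u q ∆ u r) (t := v) (by rw [← fn_eq_zero, fn_symmDiff, i, add_self']) (by omega)] at j
    omega
  obtain ⟨a, ha⟩ := star (by simp) u hu hi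
  have : ∀ q, ∃ b, a ≠ b ∧ u q = {a, b} := fun q => by
    obtain ⟨b, c, n, i⟩ := card_eq_two.1 (hu q)
    have := ha q
    simp only [i, mem_insert, mem_singleton] at this ⊢
    rcases this with rfl | rfl
    exacts [⟨c, n, rfl⟩, ⟨b, n.symm, pair_comm _ _⟩]
  choose b ab hb using this
  let π : Equiv.Perm GolayPt := Equiv.ofBijective (fun p => Option.elim p a b) (Finite.injective_iff_bijective.1 (by
    rintro (_ | q) (_ | r) i
    · rfl
    · exact absurd i (ab r)
    · exact absurd i.symm (ab q)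
    · by_contra n
      have := hi q r (mt (congrArg some) n)
      rw [hb, hb, show b q = b r from i, inter_self, card_pair (ab r)] at this
      omega))
  have m : ∀ c : golayCode, (x c).1 = (fun p => c.1 (π p)) ∨ (x c).1 = (fun p => c.1 (π p)) + fun _ => 1 := fun c => by
    have : ∀ p, (x c).1 p = c.1 (π p) + ((x c).1 none + c.1 a) := by
      rintro (_ | q)
      · change _ = c.1 a + _; grind
      · have := LinearMap.congr_fun (e q) c
        simp [hb, fn_apply, ab q] at this
        change _ = c.1 (b q) + _; grind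
    rcases zmod2_cases ((x c).1 none + c.1 a) with i | i <;> simp only [i] at this
    exacts [Or.inl (funext (by simpa using this)), Or.inr (funext this)]
  refine ⟨π.symm, mem_M24_iff.2 fun s hs => ?_, m⟩
  rw [mem_Code_iff_ind, ← ind_smul]
  rcases m ⟨_, mem_Code_iff_ind.1 hs⟩ with i | i
  · exact i ▸ (x _).2
  · exact (golayCode.add_mem_iff_left (ind_univ ▸ mem_Code_iff_ind.1 Code_univ)).1 (i ▸ (x _).2)

end Cfsg.Agent.S5549
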