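import Mathlib
import Cfsg.Statements.S5550
import Cfsg.Agent.H14.GMod

set_option autoImplicit false
open Cfsg

namespace Cfsg.Agent.S5550

/-- Let u be a word of the length-24 binary Golay code of the definitions (possibly zero or all-ones) and w any binary word of length 24 outside the code. Then some automorphism of the code (a coordinate permutation preserving it) fixes u but moves w to a word not congruent to w modulo the code: the stabilizer of a codeword fixes no non-zero element of the quotient of the space of all words by the code. -/
theorem result (u : (Cfsg.GolayPt → ZMod 2)) (hu : u ∈ Cfsg.golayCode) (w : (Cfsg.GolayPt → ZMod 2)) (hw : w ∉ Cfsg.golayCode) : ∃ σ ∈ Cfsg.M24, (fun p => u (σ.symm p)) = u ∧ (fun p => w (σ.symm p)) - w ∉ Cfsg.golayCode := by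
  obtain ⟨g, hg, a, b⟩ := H14.stab_moves (H14.support_mem_Code.2 hu) (mt H14.support_mem_Code.1 hw)
  refine ⟨g, hg, ?_, fun c => b ?_⟩
  · have := H14.ind_smul g (support₂ u)
    rwa [a, H14.ind_support] at this
  · rw [H14.mem_Code_iff_ind, H14.ind_symmDiff, ← H14.ind_smul, H14.ind_support]
    convert c using 1
    ext p; exact (CharTwo.sub_eq_add _ _).symm

end Cfsg.Agent.S5550
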