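import Mathlib
import Cfsg.Statements.S5553
import Cfsg.Agent.H14.P24
import Cfsg.Agent.H14.Leech

set_option autoImplicit false
open Cfsg

namespace Cfsg.Agent.S5553

open H14 Finset

theorem aux (J : V →+ V) (h1 : ∀ x, J (J x) = -x) (h2 : ∀ x, sqNorm (J x) = sqNorm x) (h3 : ∀ x ∈ leechLattice, J x ∈ leechLattice) :
    ∃ A : AddSubgroup V, A ≤ leechLattice ∧ (∀ v ∈ leechLattice, (2 : ℤ) • v ∈ A) ∧
      (A.addSubgroupOf leechLattice).index = 2 ^ 12 ∧ ∀ v ∈ A, (32 : ℤ) ∣ sqNorm v := by
  let f : V →+ V := AddMonoidHom.id V + J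
  have hf : ∀ x, f x = x + J x := fun _ => rfl
  have a : ∀ x, f (x - J x) = (2 : ℤ) • x := fun x => by rw [hf, map_sub, h1]; abel
  have n : ∀ x, sqNorm (f x) = 2 * sqNorm x := fun x => by
    have := h2 (f x)
    rw [hf, map_add, h1, ← sub_eq_add_neg, sqNorm_sub, sqNorm_add, dotInt_comm, h2] at this
    rw [hf, sqNorm_add, h2]; omega
  have inj : Function.Injective f := (injective_iff_map_eq_zero f).2 fun x h => sqNorm_eq_zero.1 (by
    have := n x; rw [h, sqNorm_eq_zero.2 rfl] at this; omega)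
  have le : leechLattice.map f ≤ leechLattice := by rintro _ ⟨x, hx, rfl⟩; exact add_mem hx (h3 x hx)
  have r : f.range.map f = dbl.range := by
    refine le_antisymm ?_ ?_
    · rintro _ ⟨_, ⟨x, rfl⟩, rfl⟩
      exact ⟨J x, by rw [hf, hf, map_add, h1]; change (2 : ℤ) • J x = _; abel⟩
    · rintro _ ⟨x, rfl⟩
      exact ⟨f (-J x), ⟨_, rfl⟩, by rw [hf (-J x), map_neg, h1, neg_neg, neg_add_eq_sub, a]; rfl⟩
  have i : f.range.index = 2 ^ 12 := by
    have := f.range.index_map_of_injective inj
    rw [r, index_dbl] at this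
    exact Nat.mul_self_inj.1 (this.symm.trans (by norm_num))
  refine ⟨_, le, fun v hv => ⟨_, sub_mem hv (h3 v hv), a v⟩, ?_, ?_⟩
  · have := AddSubgroup.relIndex_mul_index le
    rw [AddSubgroup.index_map_of_injective _ inj, i, index_leech, mul_comm] at this
    exact Nat.eq_of_mul_eq_mul_left (by norm_num) this
  · rintro _ ⟨x, hx, rfl⟩
    have := leech_norm hx
    rw [n]; omega

/-- The Leech lattice of the definitions has an additive subgroup A containing twice the lattice, of index 2^12 in the lattice, all of whose vectors have squared length divisible by 32: the invariant quadratic form 'squared length over 16 modulo 2' on the lattice modulo twice the lattice (a 24-dimensional space over the field with two elements) vanishes on a 12-dimensional subspace, so it is of plus type. -/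
theorem result : ∃ A : AddSubgroup (Cfsg.GolayPt → ℤ), A ≤ Cfsg.leechLattice ∧ (∀ v ∈ Cfsg.leechLattice, (2 : ℤ) • v ∈ A) ∧ (A.addSubgroupOf Cfsg.leechLattice).index = 2 ^ 12 ∧ ∀ v ∈ A, (32 : ℤ) ∣ Cfsg.sqNorm v := by
  obtain ⟨g, hg, h⟩ := in_M24 (T := 0x12d0d3858532a91b38159be0325e49) (by decide +kernel)
  have a : ∀ i < 24, g (pt i) = pt (ap 0x12d0d3858532a91b38159be0325e49 i) := fun i hi => h ▸ (SP_tab g).apply_pt hi
  have b : ∀ p, g (g p) = p ∧ (g p ∈ toSet 0x1f997 ↔ p ∉ toSet 0x1f997) := forall_pt.2 fun i hi => by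
    have c : ∀ i < 24, ap 0x12d0d3858532a91b38159be0325e49 i < 24 ∧ ap 0x12d0d3858532a91b38159be0325e49
      (ap 0x12d0d3858532a91b38159be0325e49 i) = i ∧ (bit 0x1f997 (ap 0x12d0d3858532a91b38159be0325e49 i) = true ↔
        ¬ bit 0x1f997 i = true) := by decide +kernel
    rw [a i hi, a _ (c i hi).1, (c i hi).2.1, pt_mem_toSet hi, pt_mem_toSet (c i hi).1]
    exact ⟨rfl, (c i hi).2.2⟩
  have c : ∀ p, g.symm p = g p := fun p => g.symm_apply_eq.2 (b p).1.symm
  refine aux (AddMonoidHom.mk' (signedPerm g (toSet 0x1f997)) fun x y => funext fun i => ?_) (fun x => funext fun i => ?_)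
    (sqNorm_signedPerm _ _) fun x hx => signedPerm_mem hg (toSet_mem_Code (by decide +kernel)) hx
  · simp only [signedPerm, Pi.add_apply]; split_ifs <;> ring
  · simp only [AddMonoidHom.mk'_apply, signedPerm, c, b, Pi.neg_apply]; split_ifs <;> ring

end Cfsg.Agent.S5553
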