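import Cfsg.Statements.S5565
import Cfsg.Agent.L.Jt2
import Cfsg.Agent.H26.TL
import Cfsg.Agent.H15.TZ1
import Cfsg.Agent.H21.TR1
import Cfsg.Agent.H08.TR2
import Cfsg.Agent.H09.TO5
import Cfsg.Agent.H10.TM
import Cfsg.Agent.H14.TM3

set_option autoImplicit false
open Cfsg

namespace Cfsg.Agent.S5565

/-- Let G be a finite non-abelian simple group of Janko-four type (an involution z whose centralizer H has an extraspecial largest normal 2-subgroup E of order 2^13 containing its centralizer in H, a normal subgroup N ≥ E of H with N/E of order 3 and H/N the automorphism group of M₂₂, and a subgroup P ≤ N of order 3 with C_E(P) = ⟨z⟩, N_H(P) ≠ C_H(P) and P ≤ C_H(P)′). Then a Sylow 3-subgroup R of G contained in H is extraspecial of order 27 and exponent 3, its normalizer in G lies in H, and that normalizer has order 864. -/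
theorem result {G : Type*} [Group G] [Finite G] [IsSimpleGroup G] (hG : ¬ IsMulCommutative G) (z : G) (hJ : Cfsg.IsOfJankoFourTypeAt z) (R : Sylow 3 G) (hR : (R : Subgroup G) ≤ Subgroup.centralizer ({z} : Set G)) :
    Cfsg.IsExtraspecial 3 ↥(R : Subgroup G) ∧ Nat.card ↥(R : Subgroup G) = 27 ∧ Monoid.exponent ↥(R : Subgroup G) = 3 ∧
    Subgroup.normalizer ((R : Subgroup G) : Set G) ≤ Subgroup.centralizer ({z} : Set G) ∧ Nat.card ↥(Subgroup.normalizer ((R : Subgroup G) : Set G)) = 864 := by
  obtain ⟨P, hJ⟩ := hJ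
  obtain ⟨δ, θ, t, -⟩ := L.Jt.fin2 H26.TL.l H15.TZ1.z1 @H21.TR1.r1 H08.TR2.r2 hG z P hJ
  exact H09.TO5.o5 t H10.TM.m2 H14.TM3.m3 R hR

end Cfsg.Agent.S5565
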