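import Mathlib
import Cfsg.Statements.S5604
import Cfsg.Agent.H14.MCls2

set_option autoImplicit false
open scoped Pointwise
open Cfsg

namespace Cfsg.Agent.S5604

/-- For a subgroup S of order 7 of the group of the length-24 code (a Sylow 7-subgroup): the normaliser of S has order 126, the centraliser of S has order 42 and is non-abelian, and the whole normaliser leaves some trio invariant. (These are the orders of a Frobenius group of order 21 times a symmetric group of degree 3; the isomorphism type itself is not asserted here.) -/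
theorem result (S : Subgroup ↥Cfsg.M24) (hS : Nat.card S = 7) : Nat.card ↥(Subgroup.normalizer (S : Set ↥Cfsg.M24)) = 126 ∧ Nat.card ↥(Subgroup.centralizer (S : Set ↥Cfsg.M24)) = 42 ∧ (∃ x ∈ Subgroup.centralizer (S : Set ↥Cfsg.M24), ∃ y ∈ Subgroup.centralizer (S : Set ↥Cfsg.M24), x * y ≠ y * x) ∧ ∃ T ∈ Cfsg.trios, ∀ n ∈ Subgroup.normalizer (S : Set ↥Cfsg.M24), ((n : ↥Cfsg.M24) : Equiv.Perm Cfsg.GolayPt) • T = T := by
  have := Fact.mk (by norm_num : Nat.Prime 7)
  obtain ⟨g, e⟩ := H14.PK.sylow_eq_cj (k := 1) (m := 34974720) this.out (K := Subgroup.zpowers (H14.S24.el H14.t7))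
    (by rw [Nat.card_zpowers, H14.ord7]; rfl) (H14.card_M24.trans (by norm_num)) (by norm_num)
    (Sylow.ofCard S (by rw [hS, H14.card_M24]; decide +kernel))
  rw [Sylow.coe_ofCard] at e
  have e1 : Subgroup.centralizer (Subgroup.zpowers (H14.S24.el H14.t7) : Set Cfsg.M24) =
      Subgroup.centralizer {H14.S24.el H14.t7} := by rw [Subgroup.zpowers_eq_closure, Subgroup.centralizer_closure]
  rw [e, ← H14.PK.cj_normalizer, ← H14.PK.cj_centralizer', H13.card_cj, H13.card_cj, e1]
  refine ⟨H14.n7_full.card.trans (by decide +kernel), H14.c7_full.card.trans (by decide +kernel), ?_,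
    g • H14.toSS [0x17451, 0x5c820a, 0xa209a4], H14.smul_trio g.2 (by open H13 in decide +kernel), fun n hn => ?_⟩
  · have a := H14.PK.TS.In.of_siftC H14.c7_full.mem (H14.in24 (T := 0xa21f78ae70ab9ac928b60992410ce0) (by decide +kernel))
      (by decide +kernel)
    have b := H14.PK.TS.In.of_siftC H14.c7_full.mem (H14.in24 (T := 0xac0ed512f670c342bd881263332c12) (by decide +kernel))
      (by decide +kernel)
    refine ⟨_, H13.conj_mem_cj.2 a.el_mem, _, H13.conj_mem_cj.2 b.el_mem, fun c => ?_⟩
    rw [conj_mul, conj_mul, mul_left_inj, mul_right_inj, ← a.el_tm b, ← b.el_tm a, (a.mul b).eq_iff (b.mul a)] at c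
    exact absurd c (by decide +kernel)
  · have : (g⁻¹ * n * g) • _ = _ := H14.le_stabSS H14.n7_full (L := [0x17451, 0x5c820a, 0xa209a4]) (by decide +kernel) hn
    rwa [mul_smul, mul_smul, inv_smul_eq_iff] at this

end Cfsg.Agent.S5604
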