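import Mathlib
import Cfsg.Statements.S5607
import Cfsg.Agent.H14.MCls2

set_option autoImplicit false
open scoped Pointwise
open Cfsg

namespace Cfsg.Agent.S5607

/-- For a fixed-point-free involution t of the group of the length-24 code: its centraliser in that group has order 7680, is transitive on the 24 points, and is contained, together with t, in the stabiliser of some sextet. -/
theorem result (t : Equiv.Perm Cfsg.GolayPt) (ht : t ∈ Cfsg.M24) (h₂ : orderOf t = 2) (h₀ : ∀ p, t p ≠ p) : Nat.card {c : Equiv.Perm Cfsg.GolayPt // c ∈ Cfsg.M24 ∧ c * t = t * c} = 7680 ∧ (∀ p q : Cfsg.GolayPt, ∃ c ∈ Cfsg.M24, c * t = t * c ∧ c p = q) ∧ ∃ S ∈ Cfsg.sextets, t • S = S ∧ ∀ c ∈ Cfsg.M24, c * t = t * c → c • S = S := by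
  obtain ⟨k, hk, rfl⟩ := H14.cls2B ht h₂ (H14.fixS_eq_empty.2 h₀)
  have hs : Subgroup.centralizer {H14.S24.el H14.t2B} ≤ MulAction.stabilizer Cfsg.M24
      (H14.toSS [0xf, 0x1490, 0x98100, 0x342000, 0x400a40, 0x824020]) := H14.le_stabSS H14.c2B_full (by decide +kernel)
  have h3 : ∀ c ∈ Cfsg.M24, c * (k * H14.SP.el H14.t2B * k⁻¹) = k * H14.SP.el H14.t2B * k⁻¹ * c →
      c • k • H14.toSS [0xf, 0x1490, 0x98100, 0x342000, 0x400a40, 0x824020] =
        k • H14.toSS [0xf, 0x1490, 0x98100, 0x342000, 0x400a40, 0x824020] := fun c hc e => by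
    have : (k⁻¹ * c * k) • H14.toSS _ = H14.toSS _ := hs ((H14.mem_cent_conj H14.in2B hk hc).1 e)
    rwa [mul_smul, mul_smul, inv_smul_eq_iff] at this
  refine ⟨?_, fun p q => ?_, _, H14.smul_sextet hk (by open H13 in decide +kernel), h3 _ ht rfl, h3⟩
  · refine (Nat.card_congr ?_).trans (H14.c2B_full.card.trans (by decide +kernel))
    exact
      { toFun c := ⟨_, (H14.mem_cent_conj H14.in2B hk c.2.1).1 c.2.2⟩
        invFun c := ⟨k * c.1 * k⁻¹, mul_mem (mul_mem hk c.1.2) (inv_mem hk), (H14.mem_cent_conj H14.in2B hk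
          (mul_mem (mul_mem hk c.1.2) (inv_mem hk))).2 (by convert c.2; group)⟩
        left_inv c := Subtype.ext (by dsimp only; group)
        right_inv c := Subtype.ext (Subtype.ext (by dsimp only; group)) }
  · obtain ⟨c, hc, e⟩ := H14.trans_on H14.c2B_full.2.1 (b := 0) (m := 0xffffff) (by norm_num) (by decide +kernel)
      (k⁻¹ p) (by rw [H14.toSet_ones]; exact Finset.mem_univ _) (k⁻¹ q) (by rw [H14.toSet_ones]; exact Finset.mem_univ _)
    have hm := mul_mem (mul_mem hk c.2) (inv_mem hk)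
    exact ⟨_, hm, (H14.mem_cent_conj H14.in2B hk hm).2 (by convert hc; group), by rw [Equiv.Perm.mul_apply, Equiv.Perm.mul_apply, e]; simp⟩

end Cfsg.Agent.S5607
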