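import Mathlib
import Cfsg.Statements.S5608
import Cfsg.Agent.H14.MCls2

set_option autoImplicit false
open scoped Pointwise
open Cfsg

namespace Cfsg.Agent.S5608

open H14 PK PK.TS in
theorem aux {A N : ℕ} {ch : Ch} (ha : SP.In Cfsg.M24 A) (h : S24.Full (Subgroup.centralizer {S24.el A}) ch)
    (e : eallT 5 24 (fun T => bor (bn (ordOk 5 24 T 2)) (Nat.beq (cfix T) N)) ch = true) {k s : Equiv.Perm Cfsg.GolayPt}
    (hk : k ∈ Cfsg.M24) (hs : s ∈ Cfsg.M24) (h₂ : orderOf s = 2) (hc : Commute (k * SP.el A * k⁻¹) s) : (fixS s).card = N := by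
  have := h.allT (Q := fun x => orderOf x = 2 → (fixS x).card = N) (fun x c d => by
    rcases (bor_iff _ _).1 c with c | c
    · exact (bn_iff.1 c ((ordOk_iff (S := S24) Nat.prime_two).2 d)).elim
    · exact (card_fixS _).trans (Nat.eq_of_beq_eq_true c)) e _ ((mem_cent_conj ha hk hs).1 hc.symm) (by
    rw [← Subgroup.orderOf_coe, ← h₂]
    simpa using (MulAut.conj k⁻¹).orderOf_eq s)
  have e1 := fixS_conj k⁻¹ s
  rw [inv_inv] at e1
  rwa [e1, Finset.card_smul_finset] at this

/-- If an element of order 3 and an involution of the group of the length-24 code commute, then either the element of order 3 has exactly 6 fixed points and the involution exactly 8, or both are fixed-point-free. -/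
theorem result (x s : Equiv.Perm Cfsg.GolayPt) (hx : x ∈ Cfsg.M24) (hs : s ∈ Cfsg.M24) (h₃ : orderOf x = 3) (h₂ : orderOf s = 2) (hc : Commute x s) : ((Finset.univ.filter fun p => x p = p).card = 6 ∧ (Finset.univ.filter fun p => s p = p).card = 8) ∨ ((Finset.univ.filter fun p => x p = p).card = 0 ∧ (Finset.univ.filter fun p => s p = p).card = 0) := by
  obtain ⟨k, hk, rfl | rfl⟩ := H14.cls3 hx h₃
  · refine .inl ⟨?_, aux H14.in3A H14.c3A_full (by decide +kernel) hk hs h₂ hc⟩
    change (H14.fixS _).card = 6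
    rw [H14.fixS_conj, H14.fix3A, Finset.card_smul_finset]; decide +kernel
  · refine .inr ⟨?_, aux H14.in3B H14.c3B_full (by decide +kernel) hk hs h₂ hc⟩
    change (H14.fixS _).card = 0
    rw [H14.fixS_conj, H14.fix3B, Finset.card_smul_finset]; rfl

end Cfsg.Agent.S5608
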