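import Mathlib
import Cfsg.Statements.S5609
import Cfsg.Agent.H14.M24St

set_option autoImplicit false
open scoped Pointwise
open Cfsg

namespace Cfsg.Agent.S5609

open H14 PK PK.TS

theorem key0 : ∀ x ∈ octads, ∀ k, 0 < k → (toSet 0x149f ∩ x).card = k → ∃ a ∈ octads, Disjoint (toSet 0x149f) a ∧ (a ∩ x).card = 4 - k + 2 * (4 - k) / 2 :=
  forall_oct (p := fun m => H13.force (pc (Nat.land 0x149f m)) fun k => bor (Nat.beq k 0) (H13.anyL
    (fun a => Nat.beq (pc (Nat.land a m)) (4 - k + 2 * (4 - k) / 2)) [0xf6840, 0x132b20, 0x1c4360, 0x21e260, 0x2e8a20, 0x32c940, 0x3da100, 0x46e300, 0x498b40, 0x55c820, 0x5aa060, 0x670160, 0x686920, 0x742a40, 0x7b4200, 0x84a960, 0x8bc120, 0x978240, 0x98ea00, 0xa54b00, 0xaa2340, 0xb66020, 0xb90860, 0xc24a60, 0xcd2220, 0xd16140, 0xde0900, 0xe3a800, 0xecc040, 0xf08320])) (fun m hm c k hk e => by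
      rw [card_inter_toSet _ (by norm_num)] at e
      simp only [H13.force_eq, bor_iff, Nat.beq_eq, H13.anyL_iff, show pc (Nat.land 0x149f m) = k from e, hk.ne', false_or] at c
      obtain ⟨a, ha, c⟩ := c
      have : a < 2 ^ 24 ∧ toSet a ∈ octads ∧ Disjoint (toSet 0x149f) (toSet a) := by
        clear c; revert a; open H13 in decide +kernel
      exact ⟨_, this.2.1, this.2.2, (card_inter_toSet _ this.1).trans c⟩) (by decide +kernel)

theorem key {o x : Finset GolayPt} (ho : o ∈ octads) (hx : x ∈ octads) {k : ℕ} (hk : 0 < k) (e : (o ∩ x).card = k) :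
    ∃ a ∈ octads, Disjoint o a ∧ (a ∩ x).card = 4 - k + 2 * (4 - k) / 2 := by
  obtain ⟨g, hg, rfl⟩ := exists_smul_oct0 ho
  obtain ⟨a, h1, h2, h3⟩ := key0 (g⁻¹ • x) (smul_octad (inv_mem hg) hx) k hk (by
    rw [← e, ← Finset.card_smul_finset g, Finset.smul_finset_inter, smul_inv_smul])
  exact ⟨g • a, smul_octad hg h1, (H13.smul_disj ⟨g, hg⟩ _ _).2 h2, by
    rw [← h3, ← Finset.card_smul_finset g (a ∩ _), Finset.smul_finset_inter, smul_inv_smul]⟩

theorem adj (a b : octads) : (blockGraph octads).Adj a b ↔ Disjoint a.1 b.1 := by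
  rw [blockGraph, SimpleGraph.fromRel_adj]
  exact ⟨fun h => h.2.elim id fun h => h.symm, fun h => ⟨fun e => octad_ne_of_disjoint a.2 h (congrArg _ e), .inl h⟩⟩

theorem walk4 (a b : octads) (h : (a.1 ∩ b.1).card = 4) : ∃ w : (blockGraph octads).Walk a b, w.length = 2 := by
  obtain ⟨c, h1, h2, h3⟩ := key a.2 b.2 (by norm_num) h
  exact ⟨.cons ((adj a ⟨c, h1⟩).2 h2) (.cons ((adj _ b).2 (Finset.disjoint_iff_inter_eq_empty.2
    (Finset.card_eq_zero.1 h3))) .nil), rfl⟩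

theorem walk2 (a b : octads) (h : (a.1 ∩ b.1).card = 2) : ∃ w : (blockGraph octads).Walk a b, w.length = 3 := by
  obtain ⟨c, h1, h2, h3⟩ := key a.2 b.2 (by norm_num) h
  obtain ⟨w, e⟩ := walk4 ⟨c, h1⟩ b h3
  exact ⟨.cons ((adj a ⟨c, h1⟩).2 h2) w, congrArg (· + 1) e⟩

theorem conn : (blockGraph octads).Connected := by
  have : Nonempty octads := ⟨⟨_, oct0_mem⟩⟩
  refine ⟨fun a b => ?_⟩
  by_cases e : a = b
  · rw [e]
  rcases octad_inter a.2 b.2 (fun c => e (Subtype.ext c)) with h | h | h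
  · exact ((adj a b).2 (Finset.disjoint_iff_inter_eq_empty.2 (Finset.card_eq_zero.1 h))).reachable
  · exact (walk2 a b h).elim fun w _ => ⟨w⟩
  · exact (walk4 a b h).elim fun w _ => ⟨w⟩

theorem no2 {a b c : Finset GolayPt} (ha : a ∈ octads) (hb : b ∈ octads) (hc : c ∈ octads) (h1 : Disjoint a c)
    (h2 : Disjoint c b) : (a ∩ b).card ≠ 2 := fun h => by
  have h3 : symmDiff a b ⊆ cᶜ := Finset.symmDiff_subset_union.trans (Finset.subset_compl_iff_disjoint_right.2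
    (Finset.disjoint_union_left.2 ⟨h1, h2.symm⟩))
  have h4 := card_symmDiff_add a b
  have h5 := card_symmDiff_add (symmDiff a b) cᶜ
  have h6 := Code_card (Code_symmDiff (Code_symmDiff ha.1 hb.1) (Code_compl hc.1))
  rw [Finset.inter_eq_left.2 h3, Finset.card_compl, card_pt, hc.2] at h5
  rw [ha.2, hb.2] at h4
  omega

/-- In the graph on the 759 octads of the length-24 code in which two octads are adjacent when they are disjoint, the graph is connected (of diameter 3) and two distinct octads are at distance 1, 2 or 3 exactly when they meet in 0, 4 or 2 points respectively. -/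
theorem result (o o' : Finset Cfsg.GolayPt) (ho : o ∈ Cfsg.octads) (ho' : o' ∈ Cfsg.octads) (hne : o ≠ o') : (Cfsg.blockGraph Cfsg.octads).Connected ∧ ((Cfsg.blockGraph Cfsg.octads).dist ⟨o, ho⟩ ⟨o', ho'⟩ = 1 ↔ (o ∩ o').card = 0) ∧ ((Cfsg.blockGraph Cfsg.octads).dist ⟨o, ho⟩ ⟨o', ho'⟩ = 2 ↔ (o ∩ o').card = 4) ∧ ((Cfsg.blockGraph Cfsg.octads).dist ⟨o, ho⟩ ⟨o', ho'⟩ = 3 ↔ (o ∩ o').card = 2) := by
  have h0 : (blockGraph octads).dist ⟨o, ho⟩ ⟨o', ho'⟩ ≠ 0 := (conn.pos_dist_of_ne fun e => hne (congrArg Subtype.val e)).ne'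
  have h1 : (blockGraph octads).dist ⟨o, ho⟩ ⟨o', ho'⟩ = 1 ↔ (o ∩ o').card = 0 := by
    rw [SimpleGraph.dist_eq_one_iff_adj, adj, Finset.disjoint_iff_inter_eq_empty, Finset.card_eq_zero]
  have h2 : (o ∩ o').card = 4 → (blockGraph octads).dist ⟨o, ho⟩ ⟨o', ho'⟩ ≤ 2 := fun h =>
    (walk4 ⟨o, ho⟩ ⟨o', ho'⟩ h).elim fun w e => e ▸ SimpleGraph.dist_le w
  have h3 : (o ∩ o').card = 2 → (blockGraph octads).dist ⟨o, ho⟩ ⟨o', ho'⟩ ≤ 3 := fun h =>
    (walk2 ⟨o, ho⟩ ⟨o', ho'⟩ h).elim fun w e => e ▸ SimpleGraph.dist_le w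
  have h4 : (blockGraph octads).dist ⟨o, ho⟩ ⟨o', ho'⟩ = 2 → (o ∩ o').card ≠ 2 := fun h => by
    obtain ⟨w, e⟩ := conn.exists_walk_length_eq_dist ⟨o, ho⟩ ⟨o', ho'⟩
    rw [h] at e
    match w, e with
    | .cons (v := c) a (.cons b .nil), _ => exact no2 ho ho' c.2 ((adj _ _).1 a) ((adj _ _).1 b)
  have h5 := octad_inter ho ho' hne
  refine ⟨conn, h1, ?_, ?_⟩ <;> omega

end Cfsg.Agent.S5609
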