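import Mathlib
import Cfsg.Statements.S5613
import Cfsg.Agent.H13.M24Pts

set_option autoImplicit false
open scoped Pointwise
open Cfsg

namespace Cfsg.Agent.S5613

open H13 MulAction

set_option synthInstance.maxSize 4000

theorem aux (j k m : ℕ) (hj : j < 4) (h : ∀ i < 4, (bOct ∩ POct.pt (nthN [0, 129, 1, 5] i)).card = k → i = j)
    (hm : 322560 = [1, 30, 280, 448].getD j 0 * m) {o o' : Finset GolayPt} (ho : o ∈ octads) (ho' : o' ∈ octads)
    (e : (o ∩ o').card = k) : Nat.card ↥(stabilizer M24 o ⊓ stabilizer M24 o') = m := by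
  obtain ⟨g, e⟩ := rkOct.rel_trans fixOct smul_oct_iff (exists_Oct ho) (fun c x => (c ∩ x).card = k)
    (fun g c x h => (card_smul_inter g c x).trans h) j rfl h ho' e
  obtain ⟨rfl, rfl⟩ := Prod.ext_iff.1 e
  rw [Prod.smul_fst, Prod.smul_snd, ← cj_stabilizer, ← cj_stabilizer, ← cj_inf, card_cj]
  exact (rkOct.congr stOct_eq.symm rfl).card_inf hj (by interval_cases j <;> decide) (card_stOct.trans hm)

/-- In the group of the length-24 code, the joint stabiliser of two octads has order 10752, 1152 or 720 according as the octads meet in 0, 4 or 2 points. -/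
theorem result (o o' : Finset Cfsg.GolayPt) (ho : o ∈ Cfsg.octads) (ho' : o' ∈ Cfsg.octads) : ((o ∩ o').card = 0 → Nat.card ↥(MulAction.stabilizer Cfsg.M24 o ⊓ MulAction.stabilizer Cfsg.M24 o') = 10752) ∧ ((o ∩ o').card = 4 → Nat.card ↥(MulAction.stabilizer Cfsg.M24 o ⊓ MulAction.stabilizer Cfsg.M24 o') = 1152) ∧ ((o ∩ o').card = 2 → Nat.card ↥(MulAction.stabilizer Cfsg.M24 o ⊓ MulAction.stabilizer Cfsg.M24 o') = 720) := by
  exact ⟨aux 1 0 _ (by decide) (by decide +kernel) rfl ho ho', aux 2 4 _ (by decide) (by decide +kernel) rfl ho ho',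
    aux 3 2 _ (by decide) (by decide +kernel) rfl ho ho'⟩

end Cfsg.Agent.S5613
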