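import Mathlib
import Cfsg.Statements.S5620
import Cfsg.Agent.H14.Quart

set_option autoImplicit false
open scoped Pointwise
open Cfsg

namespace Cfsg.Agent.S5620

theorem cj_eq {g : Equiv.Perm GolayPt} (hg : g ∈ M24) : MulAut.conj g • Spor.M11 =
    M24 ⊓ MulAction.stabilizer _ (g • Spor.squareDodecad) ⊓ MulAction.stabilizer _ (g (some 0)) := by
  rw [← H13.cj_stabilizer, show g (some 0) = g • (some 0 : GolayPt) from rfl, ← H13.cj_stabilizer]
  ext x
  rw [Subgroup.mem_pointwise_smul_iff_inv_smul_mem, ← map_inv, MulAut.smul_def, MulAut.conj_apply, inv_inv]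
  exact and_congr_left fun _ => and_congr_left fun _ =>
    (M24.mul_mem_cancel_right hg).trans (M24.mul_mem_cancel_left (inv_mem hg))

/-- Inside the stabiliser of the dodecad of squares (a Mathieu group of degree 12), the stabiliser of the residue 0 (a point of the dodecad) and the stabiliser of the extra point (a point outside the dodecad) are isomorphic but not conjugate; conjugation by a suitable element of the code's group that maps the dodecad of squares onto its complement carries the first onto the second. -/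
theorem result : Nonempty (↥(Cfsg.Spor.M12 ⊓ MulAction.stabilizer (Equiv.Perm Cfsg.GolayPt) (none : Cfsg.GolayPt)) ≃* ↥Cfsg.Spor.M11) ∧ (¬ ∃ k ∈ Cfsg.Spor.M12, MulAut.conj k • Cfsg.Spor.M11 = Cfsg.Spor.M12 ⊓ MulAction.stabilizer (Equiv.Perm Cfsg.GolayPt) (none : Cfsg.GolayPt)) ∧ ∃ g ∈ Cfsg.M24, g • Cfsg.Spor.squareDodecad = Finset.univ \ Cfsg.Spor.squareDodecad ∧ MulAut.conj g • Cfsg.Spor.M11 = Cfsg.Spor.M12 ⊓ MulAction.stabilizer (Equiv.Perm Cfsg.GolayPt) (none : Cfsg.GolayPt) := by
  have h0 : (none : GolayPt) ∉ Spor.squareDodecad := by rw [H14.sqD_eq]; decide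
  obtain ⟨g, hg, a, b⟩ := H14.dodecad_pt_trans H14.sqD_mem (H14.compl_dodecad H14.sqD_mem) H14.zero_mem_sqD
    (Finset.mem_compl.2 h0)
  have h1 : MulAut.conj g • Spor.M11 = Spor.M12 ⊓ MulAction.stabilizer (Equiv.Perm GolayPt) (none : GolayPt) := by
    rw [cj_eq hg, a, b]
    ext x
    exact and_congr_left fun _ => and_congr_right fun _ => by
      change x • Spor.squareDodecadᶜ = _ ↔ x • Spor.squareDodecad = _
      rw [H14.smul_compl', compl_inj_iff]
  refine ⟨⟨(MulEquiv.subgroupCongr h1).symm.trans (Subgroup.equivSMul _ _).symm⟩, fun ⟨k, hk, e⟩ => ?_,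
    g, hg, a.trans (Finset.compl_eq_univ_sdiff _), h1⟩
  rw [cj_eq hk.1, show k • Spor.squareDodecad = _ from hk.2] at e
  obtain ⟨x, hx, c, d, f⟩ := H14.dodecad_pt_out3 H14.sqD_mem ((H14.mem_iff_of_smul_eq hk.2 _).2 H14.zero_mem_sqD)
    ![none, some 5, some 7] ![some 5, none, some 7] (by decide) (by decide) (by rw [H14.sqD_eq]; decide)
    (by rw [H14.sqD_eq]; decide)
  exact absurd ((f 0).symm.trans (e.le ⟨⟨hx, c⟩, d⟩).2) (by decide)

end Cfsg.Agent.S5620
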