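import Mathlib
import Cfsg.Statements.S5623
import Cfsg.Agent.H14.AbsG2

set_option autoImplicit false
open Cfsg

namespace Cfsg.Agent.S5623

open H14 Finset
open scoped symmDiff

theorem sub_eq (s t : Finset (Fin 24)) : ind s - ind t = ind (s ∆ t) := by
  rw [ind_symmDiff]; ext i; exact CharTwo.sub_eq_add _ _

/-- Let C be a self-dual binary code of length 24 with minimum weight at least 8 (a 12-dimensional subspace of the 24-dimensional space over the field with two elements, any two of whose words have dot product zero, with no non-zero word of weight below 8 — an abstract extended binary Golay code). Then every coset w + C of C in the ambient space contains either exactly one word of weight at most 4, which then has weight at most 3, or exactly six words of weight at most 4, all of weight exactly 4 and with pairwise disjoint supports (a sextet). -/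
theorem result (C : Submodule (ZMod 2) (Fin 24 → ZMod 2)) (hdim : Module.finrank (ZMod 2) C = 12) (horth : ∀ v ∈ C, ∀ w ∈ C, ∑ i, v i * w i = 0) (hmin : ∀ w ∈ C, w ≠ 0 → 8 ≤ hammingNorm w) (w : Fin 24 → ZMod 2) : (∃ u : Fin 24 → ZMod 2, {u : Fin 24 → ZMod 2 | u - w ∈ C ∧ hammingNorm u ≤ 4} = {u} ∧ hammingNorm u ≤ 3) ∨ ({u : Fin 24 → ZMod 2 | u - w ∈ C ∧ hammingNorm u ≤ 4}.ncard = 6 ∧ ∀ u ∈ {u : Fin 24 → ZMod 2 | u - w ∈ C ∧ hammingNorm u ≤ 4}, hammingNorm u = 4 ∧ ∀ u' ∈ {u : Fin 24 → ZMod 2 | u - w ∈ C ∧ hammingNorm u ≤ 4}, u ≠ u' → Disjoint (Finset.univ.filter fun i => u i ≠ 0) (Finset.univ.filter fun i => u' i ≠ 0)) := by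
  obtain ⟨e, h⟩ := golay_unique (Fintype.card_fin 24) C hdim (fun v hv => horth v hv v hv) hmin
  have a : ∀ s : Finset GolayPt, (s.map e.symm.toEmbedding).map e.toEmbedding = s := fun s => by
    rw [map_map, ← Equiv.trans_toEmbedding, Equiv.symm_trans_self, Equiv.refl_toEmbedding, map_refl]
  have a' : ∀ s : Finset (Fin 24), (s.map e.toEmbedding).map e.symm.toEmbedding = s := fun s => by
    rw [map_map, ← Equiv.trans_toEmbedding, Equiv.self_trans_symm, Equiv.refl_toEmbedding, map_refl]
  let f : Finset GolayPt → Fin 24 → ZMod 2 := fun s => ind (s.map e.symm.toEmbedding)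
  have hf : f.Injective := fun s t c => map_injective _ (ind_inj c)
  have hs : ∀ u, ∃ s, u = f s := fun u => ⟨(support₂ u).map e.toEmbedding, by simp only [f, a', ind_support]⟩
  have hn : ∀ s, hammingNorm (f s) = s.card := fun s => by rw [hammingNorm_ind, card_map]
  have hc : ∀ s t, f s - f t ∈ C ↔ s ∆ t ∈ Code := fun s t => by rw [sub_eq, ← h, ← H14.map_symmDiff', a]
  obtain ⟨w, rfl⟩ := hs w
  obtain ⟨u, h1, h2⟩ := exists_leader none w
  have key : ∀ s, s ∆ w ∈ Code ↔ u ∆ s ∈ Code := fun s =>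
    ⟨fun c => symmDiff_trans_mem h2 (symmDiff_comm s w ▸ c), fun c => symmDiff_trans_mem c (symmDiff_comm w u ▸ h2)⟩
  rcases h1 with h1 | ⟨h1, -⟩
  · refine Or.inl ⟨f u, Set.ext fun v => ?_, (hn u).trans_le h1⟩
    obtain ⟨v, rfl⟩ := hs v
    rw [Set.mem_setOf_eq, hc, hn, key, Set.mem_singleton_iff, hf.eq_iff]
    refine ⟨fun c => (Code_eq_of_symmDiff_lt c.1 ?_).symm, ?_⟩
    · have := card_symmDiff_add u v; omega
    · rintro rfl; exact ⟨symmDiff_self v ▸ Code_empty, by omega⟩
  · have b : {u : Fin 24 → ZMod 2 | u - f w ∈ C ∧ hammingNorm u ≤ 4} = f '' sextetOf u := by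
      ext v
      obtain ⟨v, rfl⟩ := hs v
      rw [Set.mem_setOf_eq, hc, hn, key, hf.mem_set_image, mem_coe, mem_sextetOf]
      refine ⟨fun c => ⟨?_, c.1⟩, fun c => ⟨c.2, c.1.le⟩⟩
      by_contra d
      have := card_symmDiff_add u v
      exact d (Code_eq_of_symmDiff_lt c.1 (by omega) ▸ h1)
    rw [b]
    refine Or.inr ⟨by rw [Set.ncard_image_of_injective _ hf, Set.ncard_coe_finset, card_sextetOf h1], ?_⟩
    rintro _ ⟨s, c, rfl⟩
    refine ⟨(hn s).trans (mem_sextetOf.1 c).1, ?_⟩
    rintro _ ⟨t, d, rfl⟩ hne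
    have := sextet_disjoint (sextetOf_mem h1) c d fun x => hne (congrArg f x)
    change Disjoint (support₂ (ind _)) (support₂ (ind _))
    rw [support_ind, support_ind]
    exact (disjoint_map e.symm.toEmbedding).2 this

end Cfsg.Agent.S5623
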