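import Mathlib
import Cfsg.Statements.S5624
import Cfsg.Agent.H14.AbsG2

set_option autoImplicit false
open Cfsg

namespace Cfsg.Agent.S5624

/-- Let C be a self-dual binary code of length 24 with minimum weight at least 8 (a 12-dimensional subspace of the 24-dimensional space over the field with two elements, any two of whose words have dot product zero, with no non-zero word of weight below 8 — an abstract extended binary Golay code). Then C is spanned, as a vector space over the field with two elements, by its words of weight 8. -/
theorem result (C : Submodule (ZMod 2) (Fin 24 → ZMod 2)) (hdim : Module.finrank (ZMod 2) C = 12) (horth : ∀ v ∈ C, ∀ w ∈ C, ∑ i, v i * w i = 0) (hmin : ∀ w ∈ C, w ≠ 0 → 8 ≤ hammingNorm w) : Submodule.span (ZMod 2) {w : Fin 24 → ZMod 2 | w ∈ C ∧ hammingNorm w = 8} = C := by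
  obtain ⟨e, h⟩ := H14.golay_unique (Fintype.card_fin 24) C hdim (fun v hv => horth v hv v hv) hmin
  refine le_antisymm (Submodule.span_le.2 fun w hw => hw.1) fun w hw => ?_
  have a : ∀ s : Finset GolayPt, (s.map e.symm.toEmbedding).map e.toEmbedding = s := fun s => by
    rw [Finset.map_map, ← Equiv.trans_toEmbedding, Equiv.symm_trans_self, Equiv.refl_toEmbedding, Finset.map_refl]
  have := H14.Code_oct_induction (P := fun s => H14.ind (s.map e.symm.toEmbedding) ∈ Submodule.span (ZMod 2)
    {w : Fin 24 → ZMod 2 | w ∈ C ∧ hammingNorm w = 8}) ?_ (fun o ho => ?_) (fun s t a b => ?_) _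
    ((h (support₂ w)).2 (by rwa [H14.ind_support]))
  · rwa [Finset.map_map, ← Equiv.trans_toEmbedding, Equiv.self_trans_symm, Equiv.refl_toEmbedding, Finset.map_refl,
      H14.ind_support] at this
  · rw [Finset.map_empty, H14.ind_empty]; exact zero_mem _
  · exact Submodule.subset_span ⟨(h _).1 ((a o).symm ▸ ho.1), by rw [H14.hammingNorm_ind, Finset.card_map, ho.2]⟩
  · rw [H14.map_symmDiff', H14.ind_symmDiff]; exact add_mem a b

end Cfsg.Agent.S5624
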