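import Mathlib
import Cfsg.Statements.S5625
import Cfsg.Agent.H14.Steiner

set_option autoImplicit false
open Cfsg

namespace Cfsg.Agent.S5625

/-- In any Steiner system S(5, 8, 24) and for any set Y of three points, the blocks meeting Y in exactly 3, 2, 1 and 0 points number 21, 168, 360 and 210 respectively (so there are 759 blocks in all). -/
theorem result (α : Type*) [Fintype α] [DecidableEq α] (hα : Fintype.card α = 24) (B : Set (Finset α)) (hB : Cfsg.IsSteinerSystem 5 8 B) (Y : Finset α) (hY : Y.card = 3) : {b : Finset α | b ∈ B ∧ (b ∩ Y).card = 3}.ncard = 21 ∧ {b : Finset α | b ∈ B ∧ (b ∩ Y).card = 2}.ncard = 168 ∧ {b : Finset α | b ∈ B ∧ (b ∩ Y).card = 1}.ncard = 360 ∧ {b : Finset α | b ∈ B ∧ (b ∩ Y).card = 0}.ncard = 210 := by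
  have h : ∀ m, ({c | c ∈ B ∧ (Y ∩ c).card = m}.ncard : ℤ) =
      Y.card.choose m * H14.tri H14.lam24 (3 - m) m := by
    intro m
    apply H14.ncard_card_inter_eq
    intro s hs hm
    have := Finset.card_le_card hs
    rw [H14.nb_small_tri hB hα H14.lam24_ok (by rw [Finset.card_sdiff_of_subset hs]; omega)
      Finset.disjoint_sdiff, Finset.card_sdiff_of_subset hs, hY, hm]
  simp only [Finset.inter_comm _ Y]
  have h3 := h 3
  have h2 := h 2
  have h1 := h 1
  have h0 := h 0
  rw [hY] at h0 h1 h2 h3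
  rw [show ((Nat.choose 3 3 : ℕ) : ℤ) * H14.tri H14.lam24 (3 - 3) 3 = 21 by decide +kernel] at h3
  rw [show ((Nat.choose 3 2 : ℕ) : ℤ) * H14.tri H14.lam24 (3 - 2) 2 = 168 by decide +kernel] at h2
  rw [show ((Nat.choose 3 1 : ℕ) : ℤ) * H14.tri H14.lam24 (3 - 1) 1 = 360 by decide +kernel] at h1
  rw [show ((Nat.choose 3 0 : ℕ) : ℤ) * H14.tri H14.lam24 (3 - 0) 0 = 210 by decide +kernel] at h0
  exact ⟨by exact_mod_cast h3, by exact_mod_cast h2, by exact_mod_cast h1, by exact_mod_cast h0⟩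

end Cfsg.Agent.S5625
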