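import Mathlib
import Cfsg.Statements.S5633
import Cfsg.Agent.H09.GLStab

set_option autoImplicit false
open Cfsg

namespace Cfsg.Agent.S5633

/-- For a finite field F and complementary non-zero subspaces W ⊕ U = F^n with dim W < dim U, the elements of SL_n(F) stabilising both W and U form a subgroup that is not maximal in SL_n(F): some subgroup lies strictly between it and SL_n(F). -/
theorem result {F : Type*} [Field F] [Fintype F] (n : ℕ) (W U : Submodule F (Fin n → F)) (hW0 : W ≠ ⊥) (hWU : W ⊓ U = ⊥) (hWU' : W ⊔ U = ⊤) (hdim : Module.finrank F W < Module.finrank F U) : ∃ K : Subgroup (Matrix.GeneralLinearGroup (Fin n) F), Cfsg.Geo.subspaceStabilizer W ⊓ Cfsg.Geo.subspaceStabilizer U ⊓ Cfsg.Geo.specialLinear (Fin n) F < K ∧ K < Cfsg.Geo.specialLinear (Fin n) F := by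
  have hW1 : W ≠ ⊤ := by
    rintro rfl
    have := U.finrank_le
    simp at this hdim
    omega
  refine ⟨_, ?_, (H09.isMaximalIn_stab_sl hW0 hW1).1⟩
  refine lt_of_le_of_ne (inf_le_inf_right _ inf_le_left) fun h => ?_
  rcases H09.eq_of_stab_sl_le (W := W) (U := U) (h ▸ inf_le_left.trans inf_le_right) with h | h | h
  · subst h; simp at hdim
  · subst h; simp at hdim
  · exact hW0 (by simpa [h] using hWU)

end Cfsg.Agent.S5633
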