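import Mathlib
import Cfsg.Agent.H10.SlMax
import Cfsg.Statements.S5635

set_option autoImplicit false
open Cfsg

namespace Cfsg.Agent.S5635

open Matrix Cfsg Cfsg.Geo H10 H10.As Module

theorem aux {F : Type*} [Field F] {n t m : ℕ} {D : Fin t → Submodule F (Fin n → F)} (hD : IsMDecomposition m D)
    {K : Subgroup (GL (Fin n) F)} (hK : K ≤ decompositionStabilizer D) {i : Fin t} {u : Fin n → F} (hu : u ∈ D i)
    {X : Submodule F (Fin n → F)} (h0 : u ≠ 0) (hX : ∀ x ∈ X, ∃ g ∈ K, g.1 *ᵥ u = u + x) (h2 : 2 ≤ finrank F X) :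
    finrank F X ≤ m := by
  obtain ⟨e, P, h⟩ := exists_bd' hD
  have H : ∀ x ∈ X, u + x ≠ 0 ∧ ∃ j, u + x ∈ D j := fun x hx => by
    obtain ⟨g, a, b⟩ := hX x hx
    exact ⟨b ▸ C2.mv_ne g h0, (dstab_maps (hK a) i).imp fun j c => b ▸ c u hu⟩
  have H2 : ∀ x ∈ X, ∀ y ∈ X, x ≠ 0 → y ≠ 0 → ∀ j, u + x ∈ D j → u + y ∈ D j := fun x hx y hy x0 y0 j a => by
    obtain ⟨b, k, c⟩ := H y hy
    obtain ⟨-, l, d⟩ := H _ (add_mem hx hy)
    have f := (H x hx).1
    by_contra r
    have jk : j ≠ k := by rintro rfl; exact r c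
    rw [C2.mem_bq h] at a c d hu
    have z : ∀ {v k}, (∀ l, l ≠ k → C2.bq e P v l = 0) → C2.bq e P v k = 0 → v = 0 := fun {v k} a b =>
      (C2.bq e P).map_eq_zero_iff.1 (funext fun l => (eq_or_ne l k).elim (fun e => e ▸ b) (a l))
    simp only [map_add, Pi.add_apply] at *
    by_cases p : i = j
    · subst p
      have l1 : l = k := by_contra fun q => b (z (by simpa) (by
        simp only [map_add, Pi.add_apply]; linear_combination d k (Ne.symm q) + hu k jk.symm - a k jk.symm))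
      subst l1
      exact x0 (z (k := i) (fun l q => by linear_combination a l q - hu l q) (by linear_combination d i jk - c i jk))
    have l1 : l = j := by_contra fun q => f (z (by simpa) (by
      simp only [map_add, Pi.add_apply]; linear_combination d j (Ne.symm q) + hu j (Ne.symm p) - c j jk))
    subst l1
    have l2 : i = k := by_contra fun q => b (z (by simpa) (by
      simp only [map_add, Pi.add_apply]; linear_combination d k jk.symm + hu k (Ne.symm q) - a k jk.symm))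
    subst l2
    exact y0 (z (k := i) (fun l q => by linear_combination c l q - hu l q) (by linear_combination d i jk.symm - a i jk.symm))
  obtain ⟨y, hy, y0⟩ := (Submodule.ne_bot_iff X).1 (by rintro rfl; simp at h2)
  obtain ⟨-, j, a⟩ := H y hy
  refine hD.finrank_eq j ▸ Submodule.finrank_mono fun x hx => ?_
  obtain ⟨w, hw⟩ := Mx.exists_not_mem_pt h2 ⟨x, hx⟩
  have := sub_mem (H2 y hy _ (add_mem hx w.2) y0 (fun e => hw (Submodule.mem_span_singleton.2 ⟨-1, Subtype.ext (by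
    simpa using neg_eq_of_add_eq_zero_right e)⟩)) j a) (H2 y hy _ w.2 y0 (fun e => hw (by
      rw [show w = 0 from Subtype.ext e]; exact zero_mem _)) j a)
  simpa using this

theorem aux2 {F : Type*} [Field F] {n t m : ℕ} {D : Fin t → Submodule F (Fin n → F)} (hD : IsMDecomposition m D) (hm : m ≤ 2)
    (hn : 13 ≤ n) {φ : Form F (Fin n → F)} [φ.Nondeg] (h : φ.Std) {S : Subgroup (GL (Fin n) F)} (h1 : ∀ g, φ.toGL g ∈ S) :
    ¬ S ⊓ specialLinear _ F ≤ decompositionStabilizer D := fun hK => by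
  obtain ⟨u, hu, h0⟩ := mdec_exists hD ⟨0, by have := hD.two_le; omega⟩
  obtain ⟨e1, f1, a1, b1⟩ := h.exists_hyp_orth [u] (by simp; omega)
  obtain ⟨e2, f2, a2, b2⟩ := h.exists_hyp_orth [u, e1, f1] (by simp; omega)
  obtain ⟨e3, f3, a3, b3⟩ := h.exists_hyp_orth [u, e1, f1, e2, f2] (by simp; omega)
  simp only [List.mem_cons, List.not_mem_nil, or_false, forall_eq_or_imp, forall_eq] at b1 b2 b3
  let T := Fintype.linearCombination F ![e1, e2, e3]
  have hT : ∀ c, T c = c 0 • e1 + c 1 • e2 + c 2 • e3 := fun c => by simp [T, Fintype.linearCombination_apply, Fin.sum_univ_three]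
  have z : ∀ c, φ.B f1 (T c) = c 0 * φ.ε ∧ φ.B f2 (T c) = c 1 * φ.ε ∧ φ.B f3 (T c) = c 2 * φ.ε := fun c => by
    simp [hT, a1.Bfe, a2.Bfe, a3.Bfe, b2, b3, φ.B_symm_zero b2.2.1.2, φ.B_symm_zero b3.2.1.2, φ.B_symm_zero b3.2.2.2.1.2]
  have hi : ∀ c (k : F), T c = k • u → c = 0 := fun c k e => by
    have := z c
    simp [e, φ.B_symm_zero b1.2, φ.B_symm_zero b2.1.2, φ.B_symm_zero b3.1.2, φ.ε_ne_zero] at this
    ext i; fin_cases i <;> simp [this]
  have h3 : finrank F (LinearMap.range T) = 3 := by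
    rw [LinearMap.finrank_range_of_inj ((injective_iff_map_eq_zero T).2 fun c e => hi c 0 (by simpa))]; simp
  have := aux hD hK hu (X := LinearMap.range T) h0 (by
    rintro _ ⟨c, rfl⟩
    obtain ⟨k, a, b⟩ := h.exists_E_map (by simp; omega) (v := u + T c) h0 (fun e => h0 (by
      simpa [hi c (-1) (by simpa using eq_neg_of_add_eq_zero_right e)] using e)) (by
      rw [φ.Q_add_of_orth (by simp [hT, b1, b2, b3]), hT, φ.Q_add_of_orth (by simp [φ.B_smul_left, b3]),
        φ.Q_add_of_orth (by simp [φ.B_smul_left, b2])]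
      simp [φ.Q_smul_of_sing, a1.1, a2.1, a3.1])
    exact ⟨_, ⟨h1 k, toGL_mem_specialLinear a⟩, (toGL_mulVec ..).trans b⟩) (by omega)
  omega

/-- For a finite field F with q elements and n ≥ 13, let D be a decomposition of F^n into t ≥ 2 independent subspaces of equal dimension m spanning F^n, where m = 1 and q ≤ 4, or m = 2 and q = 2. Then the elements of SL_n(F) permuting the members of D form a subgroup that is not maximal: some subgroup lies strictly between it and SL_n(F). -/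
theorem result {F : Type*} [Field F] [Fintype F] (n : ℕ) (hn : 13 ≤ n) {t : ℕ} (m : ℕ) (D : Fin t → Submodule F (Fin n → F)) (hD : Cfsg.Geo.IsMDecomposition m D) (h : (m = 1 ∧ Fintype.card F ≤ 4) ∨ (m = 2 ∧ Fintype.card F = 2)) : ∃ K : Subgroup (Matrix.GeneralLinearGroup (Fin n) F), Cfsg.Geo.decompositionStabilizer D ⊓ Cfsg.Geo.specialLinear (Fin n) F < K ∧ K < Cfsg.Geo.specialLinear (Fin n) F := by
  have hm : m ≤ 2 := by omega
  have : Nonempty (Fin n) := ⟨⟨0, by omega⟩⟩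
  suffices ∃ S, decompositionStabilizer D ⊓ specialLinear (Fin n) F ≤ S ∧ ¬ specialLinear (Fin n) F ≤ S ∧
      ¬ S ⊓ specialLinear (Fin n) F ≤ decompositionStabilizer D from this.elim fun S h => ⟨S ⊓ _,
    lt_of_le_not_ge (le_inf h.1 inf_le_right) fun H => h.2.2 (H.trans inf_le_left), inf_lt_right.2 h.2.1⟩
  have : C8 (decompositionStabilizer D ⊓ specialLinear (Fin n) F) ∨ Red (decompositionStabilizer D ⊓ specialLinear (Fin n) F) := by
    rcases h with ⟨rfl, h⟩ | ⟨rfl, h⟩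
    exacts [frame_small hD h inf_le_left, plane_small hD (.inl h) inf_le_left inf_le_right]
  have h3 : 3 ≤ Fintype.card (Fin n) := by simp; omega
  rcases this with (⟨f, a, b⟩ | ⟨σ, f, a, b⟩ | ⟨Q, a, c, b⟩) | ⟨W, a, b, c⟩
  · obtain ⟨φ, _, h1, h2⟩ := exists_ofAlt a
    exact ⟨_, b, fun h => C8.not_sl h3 (.inl ⟨f, a, h⟩), aux2 hD hm hn (Form.std_of_isAltF h1) fun g =>
      (mem_similarityGroup_iff h2 _).2 ⟨1, fun x y => by simp [toGL_mulVec]⟩⟩
  · obtain ⟨q, φ, _, h1, -, h2⟩ := exists_ofHerm a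
    exact ⟨_, b, fun h => C8.not_sl h3 (.inr (.inl ⟨σ, f, a, h⟩)), aux2 hD hm hn (h1.std (by simp; omega)) fun g =>
      (mem_similarityGroup_iff h2 _).2 ⟨1, fun x y => by simp [toGL_mulVec]⟩⟩
  · refine ⟨_, b, fun h => C8.not_sl h3 (.inr (.inr ⟨Q, a, c, h⟩)), ?_⟩
    obtain ⟨Q, rfl, _⟩ := exists_ofQuad a
    exact aux2 hD hm hn ((Form.isQuad_ofQuad Q).std (by simp; omega))
      fun g => ⟨1, fun v => by simpa [toGL_mulVec] using Form.Isom.Q_map g v⟩
  refine ⟨_, c, H09.not_sl_le_stab a b, fun H => ?_⟩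
  obtain ⟨i, u, hu, h1⟩ : ∃ i, ∃ u ∈ D i, u ∉ W := by
    by_contra! h; exact b (eq_top_iff.2 (hD.iSup_eq_top ▸ iSup_le h))
  obtain ⟨f, f0, f1⟩ := exists_dual_sep h1
  have h4 := f.finrank_range_add_finrank_ker
  have h5 := (LinearMap.range f).finrank_le
  simp only [finrank_self, finrank_fintype_fun_eq_card, Fintype.card_fin] at h4 h5
  have := aux hD H hu (X := LinearMap.ker f) (by rintro rfl; simp at f1) (fun x hx => by
    obtain ⟨g, c, d⟩ := exists_sl_tv x f hx
    exact ⟨g, ⟨H09.mem_stabilizing_iff_forall_mem.2 fun w hw => by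
      change g.1 *ᵥ w ∈ W; simpa [d, f0 w hw], c⟩, by simp [d, f1]⟩) (by omega)
  omega

end Cfsg.Agent.S5635
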