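import Mathlib
import Cfsg.Agent.H10.MxT
import Cfsg.Statements.S5638

set_option autoImplicit false
open Cfsg

namespace Cfsg.Agent.S5638

open Matrix Module H10 H10.As H10.Mx Cfsg.Geo

def F4 {R : Type*} [Ring R] (a : R) : Prop := a = 0 ∨ a = 1 ∨ a * a = a + 1

theorem F4.map {R S : Type*} [Ring R] [Ring S] {ψ : R →+* S} (h : Function.Injective ψ) {a : R} : F4 (ψ a) ↔ F4 a := by
  rw [F4, ← map_one ψ, ← map_zero ψ, ← map_mul, ← map_add, h.eq_iff, h.eq_iff, h.eq_iff, F4]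

instance : DecidablePred (F4 (R := Matrix (Fin 2) (Fin 2) (ZMod 2))) := fun _ => by unfold F4; infer_instance

theorem aux : (∀ a b : Matrix (Fin 2) (Fin 2) (ZMod 2), F4 a → F4 b → F4 (a * b) ∧ F4 (a + b) ∧ a * b = b * a ∧
    (a ≠ 0 → a * (a * a) = 1)) ∧ Fintype.card {a : Matrix (Fin 2) (Fin 2) (ZMod 2) // F4 a} = 2 ^ 2 := by decide +kernel

/-- Over the field with 2 elements, for n = 2 n₂ ≥ 13, the stabiliser in SL_n of a tensor decomposition with factors of dimensions 2 and n₂ (the conjugate by any P of the Kronecker-product subgroup transported along any bijection Fin n ≃ Fin 2 × Fin n₂, intersected with SL_n) is not a maximal subgroup: some subgroup lies strictly between it and SL_n. -/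
theorem result {F : Type*} [Field F] [Fintype F] (n : ℕ) (hn : 13 ≤ n) (hq : Fintype.card F = 2) (n₂ : ℕ) (e : Fin n ≃ Fin 2 × Fin n₂) (P : Matrix.GeneralLinearGroup (Fin n) F) : ∃ K : Subgroup (Matrix.GeneralLinearGroup (Fin n) F), Cfsg.Geo.tensorProductSubgroup 2 n₂ e P ⊓ Cfsg.Geo.specialLinear (Fin n) F < K ∧ K < Cfsg.Geo.specialLinear (Fin n) F := by
  have hn2 : n = 2 * n₂ := by simpa using Fintype.card_congr e
  have : Nonempty (Fin n) := ⟨⟨0, by omega⟩⟩
  let Φ := (pm e P).symm.toAlgHom.comp (kl (κ := Fin 2) (Fin n₂))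
  let φ := (ZMod.ringEquivOfPrime F (by decide) hq).mapMatrix (m := Fin 2)
  let Ψ : Matrix (Fin 2) (Fin 2) (ZMod 2) →+* _ := Φ.toRingHom.comp φ.toRingHom
  have hΨ : Function.Injective Ψ := (hom_injective Φ).comp φ.injective
  have hq' : ∀ c : F, c = 0 ∨ c = 1 := fun c => by
    obtain ⟨c, rfl⟩ := (ZMod.ringEquivOfPrime F (by decide) hq).surjective c
    rcases (by decide : ∀ c : ZMod 2, c = 0 ∨ c = 1) c with rfl | rfl <;> simp
  let L : Subalgebra F (Matrix (Fin n) (Fin n) F) :=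
    { carrier := Ψ '' {a | F4 a}
      mul_mem' := by rintro _ _ ⟨a, ha, rfl⟩ ⟨b, hb, rfl⟩; exact ⟨_, (aux.1 a b ha hb).1, map_mul _ _ _⟩
      add_mem' := by rintro _ _ ⟨a, ha, rfl⟩ ⟨b, hb, rfl⟩; exact ⟨_, (aux.1 a b ha hb).2.1, map_add _ _ _⟩
      algebraMap_mem' := fun c => by
        rcases hq' c with rfl | rfl
        exacts [⟨0, .inl rfl, by simp⟩, ⟨1, .inr (.inl rfl), by simp⟩] }
  have hL : IsFieldSubalgebra 2 L := by
    refine ⟨?_, ?_, Nat.pow_right_injective (le_refl 2) ?_⟩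
    · rintro _ ⟨a, ha, rfl⟩ _ ⟨b, hb, rfl⟩; rw [← map_mul, ← map_mul, (aux.1 a b ha hb).2.2.1]
    · rintro _ ⟨a, ha, rfl⟩ h0
      exact ⟨_, ⟨_, (aux.1 a a ha ha).1, rfl⟩, by
        rw [← map_mul, (aux.1 a a ha ha).2.2.2 (by rintro rfl; simp at h0), map_one]⟩
    · have := Module.natCard_eq_pow_finrank (K := F) (V := L)
      rw [Nat.card_eq_fintype_card (α := F), hq] at this
      simp only [← this, ← aux.2, ← Nat.card_eq_fintype_card]
      exact Nat.card_congr (Equiv.Set.image _ _ hΨ).symm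
  refine ⟨_, lt_of_le_of_ne (inf_le_inf_right _ (Nrm.le ?_)) fun H => ?_,
    (isMaximalIn_fld_sl Nat.prime_two hL (by simp; omega)).1⟩
  · rintro g hg _ ⟨a, ha, rfl⟩
    obtain ⟨u, v, h⟩ := tl_iff.2 le_rfl g hg
    refine ⟨φ.symm (cj u (φ a)), (F4.map (ψ := φ.symm.toRingHom.comp ((cj u).toRingHom.comp φ.toRingHom))
      (φ.symm.injective.comp ((cj u).injective.comp φ.injective))).2 ha, ?_⟩
    exact (congrArg Φ (φ.apply_symm_apply _)).trans (cj_kl h _).symm
  refine fld_bridge hL fun E _ _ _ _ _ hE h1 h2 => ?_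
  have h3 : 2 * finrank E (Fin n → F) = n := by rw [← hE, finrank_mul_finrank, finrank_fin_fun]
  refine alg_bot_ne (F := F) (ι := Fin 2) (by simp) (eq_top_iff.2 fun a _ => (sc_of_comm fun b => hom_injective Φ ?_).mem _)
  suffices ∀ a, ∃ k : E, ∀ v, Φ a *ᵥ v = k • v from matrix_eq_iff_mulVec.2 fun v => by
    obtain ⟨k, hk⟩ := this a
    obtain ⟨l, hl⟩ := this b
    simp only [map_mul, ← mulVec_mulVec, hk, hl, smul_comm k l]
  refine fun a => scalar_of_pres (exists_not_mem_pt (by omega)) (θ := toLin' (Φ a)) fun w => ?_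
  obtain ⟨ψ, a1, a2⟩ := exists_dual_ne (F := E) (by omega) w
  obtain ⟨z, hz⟩ := exists_one a1
  obtain ⟨g, b1, b2, b3⟩ := exists_dil h1 h2 w ψ (by simp [a2])
  obtain ⟨u, v, h⟩ := tl_iff.2 le_rfl g (H.ge ⟨b1, H09.mem_specialLinear.2 (by simp [b2, a2])⟩).1
  by_cases hu : u ∈ scalars (Fin 2) F
  · have := congrArg (· *ᵥ z) (cj_eq_iff.1 ((cj_kl h a).trans (by rw [cj_scalar hu])))
    simp only [← mulVec_mulVec, b3, hz, one_smul, mulVec_add, add_right_inj] at this
    exact mem_pt.2 ⟨_, this⟩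
  by_cases w0 : w = 0
  · simp [w0]
  have := kU_rank (v := v) hu
  rw [← h, pl_val, ← map_one (pm e P), ← map_sub, finrank_rg_pm] at this
  have := this.trans (Submodule.finrank_mono (show _ ≤ Mx.pt F E w by
    rintro _ ⟨y, rfl⟩; simpa [sub_mulVec, b3] using smul_mem_pt _ _))
  rw [finrank_pt w0] at this
  simp at this; omega

end Cfsg.Agent.S5638
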