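import Mathlib
import Cfsg.Agent.H10.Sim
import Cfsg.Statements.S5642

set_option autoImplicit false
open Cfsg

namespace Cfsg.Agent.S5642

/-- For a finite field F and n ≥ 13, let f be a non-degenerate symplectic form on F^n (so n is even). Then the elements of SL_n(F) that are similarities of f (f(gu, gv) = c f(u, v) for a non-zero scalar c depending on g) form a maximal subgroup of SL_n(F). -/
theorem result {F : Type*} [Field F] [Fintype F] (n : ℕ) (hn : 13 ≤ n) (f : (Fin n → F) → (Fin n → F) → F) (hf : Cfsg.Geo.IsSymplecticForm f) : Cfsg.Geo.IsMaximalIn (Cfsg.Geo.specialLinear (Fin n) F) (Cfsg.Geo.similarityGroup f ⊓ Cfsg.Geo.specialLinear (Fin n) F) := by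
  obtain ⟨φ, _, h1, h2⟩ := H10.exists_ofAlt hf
  have : Nonempty (Fin n) := ⟨⟨0, by omega⟩⟩
  refine H10.isMaximalIn_sim (H10.Form.std_of_isAltF h1) (by simp; omega) (fun g => ?_)
    (H10.mem_similarityGroup_iff h2)
  exact (H10.mem_similarityGroup_iff h2 _).2 ⟨1, fun x y => by simp [H10.toGL_mulVec]⟩

end Cfsg.Agent.S5642
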