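import Mathlib
import Cfsg.Agent.H10.Sim
import Cfsg.Statements.S5644

set_option autoImplicit false
open Cfsg

namespace Cfsg.Agent.S5644

/-- For a finite field F of odd order and n ≥ 13, let Q be a non-degenerate quadratic form on F^n (its polar form is non-degenerate). Then the elements of SL_n(F) that are similarities of Q (Q(gv) = c Q(v) for a non-zero scalar c depending on g) form a maximal subgroup of SL_n(F). -/
theorem result {F : Type*} [Field F] [Fintype F] (n : ℕ) (hn : 13 ≤ n) (hodd : Odd (Fintype.card F)) (Q : (Fin n → F) → F) (hQ : Cfsg.Geo.IsNondegenerateQuadraticForm Q) : Cfsg.Geo.IsMaximalIn (Cfsg.Geo.specialLinear (Fin n) F) (Cfsg.Geo.quadSimilarityGroup Q ⊓ Cfsg.Geo.specialLinear (Fin n) F) := by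
  obtain ⟨Q, rfl, _⟩ := H10.exists_ofQuad hQ
  have h0 := H10.Form.isQuad_ofQuad Q
  have h2 := H10.two_ne_zero_of_odd_card hodd
  have : Nonempty (Fin n) := ⟨⟨0, by omega⟩⟩
  refine H10.isMaximalIn_sim (h0.std (by simp; omega)) (by simp; omega)
    (fun g => ⟨1, fun v => by simpa [H10.toGL_mulVec] using H10.Form.Isom.Q_map g v⟩) fun g => ?_
  rw [← H10.mem_similarityGroup_iff (f := QuadraticMap.polar Q)
    fun x y => QuadraticMap.polar_comm _ _ _]
  refine exists_congr fun c => ⟨fun h u v => ?_, fun h v => mul_left_cancel₀ h2 ?_⟩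
  · simp only [QuadraticMap.polar, ← Matrix.mulVec_add, h]
    ring
  · have := h v v
    simp only [QuadraticMap.polar_self, nsmul_eq_mul, Nat.cast_ofNat] at this
    linear_combination this

end Cfsg.Agent.S5644
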