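import Mathlib
import Cfsg.Statements.S5646
import Cfsg.Agent.H09.SpStab

set_option autoImplicit false
open Cfsg

namespace Cfsg.Agent.S5646

/-- For a finite field F and m ≥ 7, in the symplectic group Sp_2m(F) of the standard alternating form on F^(2m), the stabiliser of any non-zero subspace W on which the form is non-degenerate and with dim W < m is a maximal subgroup. -/
theorem result {F : Type*} [Field F] [Fintype F] (m : ℕ) (hm : 7 ≤ m) (W : Submodule F (Fin m ⊕ Fin m → F)) (hW0 : W ≠ ⊥) (hW : Cfsg.Geo.IsNondegenerateOn (Cfsg.sympForm m F) W) (hdim : Module.finrank F W < m) : Cfsg.Geo.IsMaximalIn (Cfsg.spGL m F) (Cfsg.Geo.subspaceStabilizer W ⊓ Cfsg.spGL m F) := by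
  refine H09.isMaximalIn_spGL (H09.isCoatom_stab_sp_nondeg hW0 ?_ (by simpa using hdim))
  rw [Submodule.disjoint_def]
  intro x hx hx'
  by_contra h0
  obtain ⟨y, hy, hxy⟩ := (hW x hx h0).1
  exact hxy ((H09.sympForm_eq m y x).trans (hx' y hy))

end Cfsg.Agent.S5646
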