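import Mathlib
import Cfsg.Agent.H10.Dec
import Cfsg.Statements.S5647

set_option autoImplicit false
open Cfsg

namespace Cfsg.Agent.S5647

/-- For a finite field F with q elements and m ≥ 7, let D be a decomposition of F^(2m) into t ≥ 2 pairwise orthogonal subspaces of equal dimension k on each of which the standard alternating form is non-degenerate, spanning F^(2m). Unless k = 2 and q = 2, the elements of Sp_2m(F) permuting the members of D form a maximal subgroup of Sp_2m(F). -/
theorem result {F : Type*} [Field F] [Fintype F] (m : ℕ) (hm : 7 ≤ m) {t : ℕ} (k : ℕ) (D : Fin t → Submodule F (Fin m ⊕ Fin m → F)) (hD : Cfsg.Geo.IsNondegenerateMDecomposition (Cfsg.sympForm m F) k D) (hex : ¬ (k = 2 ∧ Fintype.card F = 2)) : Cfsg.Geo.IsMaximalIn (Cfsg.spGL m F) (Cfsg.Geo.decompositionStabilizer D ⊓ Cfsg.spGL m F) := by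
  have h0 := H09.isAltF_spForm (l := Fin m) (F := F)
  have h1 : (H09.spForm (Fin m) F).ODec D := H10.oDec_of (fun x y => Or.inl (H09.sympForm_eq _ _ _).symm)
    (fun x y => by simp only [H09.sympForm_eq]; exact (H09.spForm (Fin m) F).B_eq_zero_comm) hD
  have ht := hD.decomp.two_le
  have hk := hD.decomp.pos
  have : Nonempty (Fin t) := ⟨⟨0, by omega⟩⟩
  have h2 : ∀ i, ∃ u ∈ D i, u ≠ 0 := fun i => Submodule.exists_mem_ne_zero_of_ne_bot fun h => by
    have := hD.decomp.finrank_eq i
    rw [h, finrank_bot] at this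
    omega
  rw [H10.spGL_eq_E]
  refine H10.isMaximalIn_map _ ?_ fun M hM g hg _ hg' => ?_
  · obtain ⟨u, hu, hu0⟩ := h2 ⟨0, by omega⟩
    obtain ⟨v, hv, hv0⟩ := h2 ⟨1, by omega⟩
    rw [H10.comap_decompositionStabilizer]
    exact H10.not_E_le_dstab (H10.Form.std_of_isAltF h0) (by simp; omega) h1 (by simp) hu hv hu0 hv0
      hu rfl hu0
  rw [H10.comap_decompositionStabilizer, H10.Form.E_eq_top_of_isAltF h0, top_inf_eq] at hM
  refine le_top.trans (h1.eq_top_alt h0 hD.decomp.finrank_eq hk ?_ hM hg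
    fun h => hg' (H10.toGL_mem_decompositionStabilizer.2 h)).ge
  by_contra h3
  push Not at h3
  have := (h1.nondeg ⟨0, by omega⟩).nondeg
  obtain ⟨l, hl⟩ := H09.even_finrank_of_alt (h0.restrict (D ⟨0, _⟩)).bilin_nondeg
    (h0.restrict _).bilin_alt
  rw [hD.decomp.finrank_eq] at hl
  classical
  refine hex ⟨by omega, ?_⟩
  rw [← Finset.card_univ, Finset.card_eq_two]
  refine ⟨0, 1, zero_ne_one, Finset.ext fun c => ?_⟩
  have := h3.2 c
  simp only [Finset.mem_univ, Finset.mem_insert, Finset.mem_singleton, true_iff]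
  tauto

end Cfsg.Agent.S5647
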