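import Cfsg.Statements.S5648
import Cfsg.Agent.H24.NM1
-- import your own Cfsg.Agent.* helpers here

set_option autoImplicit false
open Cfsg

namespace Cfsg.Agent.S5648

/-- Over the field with 2 elements and for m ≥ 7, let D be a decomposition of F^(2m) into t pairwise orthogonal non-degenerate 2-dimensional subspaces for the standard alternating form (t = m ≥ 2). Then the elements of Sp_2m(2) permuting the members of D form a subgroup that is not maximal: some subgroup lies strictly between it and Sp_2m(2). -/
theorem result {F : Type*} [Field F] [Fintype F] (m : ℕ) (hm : 7 ≤ m) (hq : Fintype.card F = 2) {t : ℕ} (D : Fin t → Submodule F (Fin m ⊕ Fin m → F)) (hD : Cfsg.Geo.IsNondegenerateMDecomposition (Cfsg.sympForm m F) 2 D) : ∃ K : Subgroup (Matrix.GeneralLinearGroup (Fin m ⊕ Fin m) F), Cfsg.Geo.decompositionStabilizer D ⊓ Cfsg.spGL m F < K ∧ K < Cfsg.spGL m F := by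
  have h1 : (H09.spForm (Fin m) F).ODec D := H10.oDec_of (fun x y => Or.inl (H09.sympForm_eq _ _ _).symm)
    (fun x y => by simp only [H09.sympForm_eq]; exact (H09.spForm (Fin m) F).B_eq_zero_comm) hD
  have h2 := H24.NM.card_eq hD.1
  obtain ⟨a, b, d, h3, h4, h5⟩ := H24.NM.exists_ne_two (t := t) (by simp at h2; omega)
  rw [H10.spGL_eq_E]
  refine H24.NM.Btw.map ?_
  rw [H10.comap_decompositionStabilizer]
  exact H24.NM.btw_alt H09.isAltF_spForm (by simpa) h1 h3 h4 h5 (by simp; omega) hD.1.finrank_eq

end Cfsg.Agent.S5648
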