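import Mathlib
import Cfsg.Agent.H10.MaxB
import Cfsg.Statements.S5649

set_option autoImplicit false
open Cfsg

namespace Cfsg.Agent.S5649

/-- For a finite field F of odd order and m ≥ 7, let D be a decomposition of F^(2m) into two complementary subspaces of dimension m on each of which the standard alternating form vanishes identically. Then the elements of Sp_2m(F) preserving or interchanging the two subspaces form a maximal subgroup of Sp_2m(F). -/
theorem result {F : Type*} [Field F] [Fintype F] (m : ℕ) (hm : 7 ≤ m) (hodd : Odd (Fintype.card F)) (D : Fin 2 → Submodule F (Fin m ⊕ Fin m → F)) (hD : Cfsg.Geo.IsMDecomposition m D) (hts : ∀ i, Cfsg.Geo.IsTotallySingularFor (Cfsg.sympForm m F) (D i)) : Cfsg.Geo.IsMaximalIn (Cfsg.spGL m F) (Cfsg.Geo.decompositionStabilizer D ⊓ Cfsg.spGL m F) := by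
  have h0 := H09.isAltF_spForm (l := Fin m) (F := F)
  have h1 : (H09.spForm (Fin m) F).TSPair (D 0) (D 1) := ⟨h0.ts fun x hx y hy =>
    (H09.sympForm_eq _ _ _).symm.trans (hts 0 x hx y hy), h0.ts fun x hx y hy =>
    (H09.sympForm_eq _ _ _).symm.trans (hts 1 x hx y hy), H10.isCompl_of_fin_two hD.indep hD.iSup_eq_top⟩
  have h2 := H10.two_ne_zero_of_odd_card hodd
  rw [H10.spGL_eq_E]
  refine H10.isMaximalIn_pair h1 (by rw [hD.finrank_eq]; omega) (fun t _ => ⟨t / 2, ?_⟩) ?_
  · change t = t / 2 - (-1) * (t / 2)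
    field_simp; ring
  · simpa [H10.Form.E_eq_top_of_isAltF h0] using h1.exists_swap

end Cfsg.Agent.S5649
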