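import Mathlib
import Cfsg.Agent.H10.Subf3
import Cfsg.Agent.H10.Dec
import Cfsg.Statements.S5650

set_option autoImplicit false
open Cfsg

namespace Cfsg.Agent.S5650

/-- For a finite field F, a subfield F₀ with |F| = |F₀| ^ r for a prime r, and m ≥ 7, let P be an invertible matrix and ζ a non-zero scalar such that ζ times the standard alternating form takes values in F₀ on the F₀-span of the columns of P. Then the elements of Sp_2m(F) lying in the subfield group of P (the conjugate by P of the product of GL_2m(F₀) with the scalars) form a maximal subgroup of Sp_2m(F). -/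
theorem result {F : Type*} [Field F] [Fintype F] (m : ℕ) (hm : 7 ≤ m) (F₀ : Subfield F) (r : ℕ) (hr : r.Prime) (hcard : Fintype.card F = Nat.card F₀ ^ r) (P : Matrix.GeneralLinearGroup (Fin m ⊕ Fin m) F) (ζ : F) (hζ : ζ ≠ 0) (hP : Cfsg.Geo.IsFormRationalStructure (Cfsg.sympForm m F) F₀ ζ P) : Cfsg.Geo.IsMaximalIn (Cfsg.spGL m F) (Cfsg.Geo.subfieldSubgroup F₀ P ⊓ Cfsg.spGL m F) := by
  have h0 := H09.isAltF_spForm (l := Fin m) (F := F)
  have hz : (H09.spForm (Fin m) F).σ ζ = 1 * ζ := by simp [h0.σ_eq]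
  rw [H10.spGL_eq_E, H10.scale_E_map_toGL _ hζ (Or.inl rfl) hz]
  refine H10.isMaximalIn_subfield (H10.ratS_of (fun _ h => h) (fun u v hu hv => ?_)
    (fun u _ => by simp) (fun a _ => by simp [h0.T_eq]) fun x _ _ => ⟨0, F₀.zero_mem, by simp⟩)
    (H10.rSing_of_Q fun x _ => by simp) (by simp; omega) (H10.finrank_eq_of_card hcard ▸ hr)
    (fun t _ => ?_) (Or.inl ⟨1, F₀.one_mem, one_ne_zero, by simp [h0.T_eq]⟩)
  · simpa [H09.sympForm_eq] using hP u v hu hv
  by_cases h2 : (2 : F) = 0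
  · obtain ⟨a, rfl⟩ := H10.chi_eq_one_iff.1 (H10.chi_eq_one_of_two_eq_zero h2 t)
    exact Or.inr ⟨a, 1, F₀.one_mem, by simp [h0.T_eq], by simp [h0.σ_eq]⟩
  · refine Or.inl ⟨t / 2, ?_⟩
    simp only [H10.Form.scale_ε, H10.Form.scale_σ, h0.σ_eq, H10.Form.ε_eq_of_isAltF h0]
    field_simp
    ring

end Cfsg.Agent.S5650
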