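import Mathlib
import Cfsg.Agent.H10.Dec
import Cfsg.Statements.S5652

set_option autoImplicit false
open Cfsg

namespace Cfsg.Agent.S5652

/-- For a finite field F of characteristic two and m ≥ 7, let Q be a non-degenerate quadratic form on F^(2m) whose polar form is the standard alternating form. Then the elements of Sp_2m(F) that are similarities of Q (they are exactly the isometries of Q) form a maximal subgroup of Sp_2m(F). -/
theorem result {F : Type*} [Field F] [Fintype F] (m : ℕ) (hm : 7 ≤ m) (heven : ¬ Odd (Fintype.card F)) (Q : (Fin m ⊕ Fin m → F) → F) (hQ : Cfsg.Geo.IsNondegenerateQuadraticForm Q) (hpol : ∀ u v, QuadraticMap.polar Q u v = Cfsg.sympForm m F u v) : Cfsg.Geo.IsMaximalIn (Cfsg.spGL m F) (Cfsg.Geo.quadSimilarityGroup Q ⊓ Cfsg.spGL m F) := by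
  obtain ⟨Q, rfl, _⟩ := H10.exists_ofQuad hQ
  have h0 := H10.Form.isQuad_ofQuad Q
  have h2 : (2 : F) = 0 := by
    by_contra h
    exact heven (Nat.card_eq_fintype_card (α := F) ▸ H10.odd_card_iff.2 h)
  have hB : ∀ x y, (H10.Form.ofQuad Q).B x y = (H09.spForm (Fin m) F).B x y := fun x y => by
    rw [H10.Form.ofQuad_B, hpol, H09.sympForm_eq, H09.spForm_B]
  obtain ⟨e, f, hyp⟩ := h0.exists_hyp_of_three_le (by simp; omega)
  have h3 : ∀ k : (H09.spForm (Fin m) F).Isom, (H09.spForm (Fin m) F).toGL k ∈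
      Cfsg.Geo.quadSimilarityGroup Q ↔ ∀ x, Q (k.1 x) = Q x := fun k => by
    refine ⟨fun ⟨c, hc⟩ x => ?_, fun h => ⟨1, fun x => by simp [H10.toGL_mulVec, h]⟩⟩
    simp only [H10.toGL_mulVec] at hc
    have h4 := H10.Form.Isom.B_map k e f
    rw [← hB, ← hB, hyp.Bef] at h4
    have h5 := hyp.Bef
    simp only [H10.Form.ofQuad_B, QuadraticMap.polar, ← map_add, hc] at h4 h5
    have h6 : (c : F) = 1 := by linear_combination h4 - c * h5
    rw [hc, h6, one_mul]
  have hE := H10.Form.E_eq_top_of_isAltF (H09.isAltF_spForm (l := Fin m) (F := F))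
  rw [H10.spGL_eq_E]
  refine H10.isMaximalIn_map _ (fun h => ?_) fun M hM g hg _ hg' => ?_
  · obtain ⟨k, hk⟩ := (H09.spForm (Fin m) F).witt_vec (u := e) (v := e + f) hyp.e_ne_zero
      (fun h => by
        have := congrArg ((H10.Form.ofQuad Q).B e) h
        rw [map_add, hyp.Bee, hyp.Bef] at this
        simp at this) rfl
    have h4 := (h3 k).1 (h (hE ▸ Subgroup.mem_top k)) e
    have h5 := h0.Q_add e f
    rw [hyp.Qf, hyp.Bef, ← hk, H10.Form.ofQuad_Q, H10.Form.ofQuad_Q] at h5
    exact one_ne_zero (α := F) (by linear_combination h4 - h5)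
  · exact le_top.trans (H10.Form.eq_top_of_orth H09.isAltF_spForm h2 h0 hB (by simp; omega)
      (fun k hk => hM ⟨hE ▸ Subgroup.mem_top k,
        (h3 k).2 hk⟩) hg fun h => hg' ((h3 g).2 h)).ge

end Cfsg.Agent.S5652
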