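import Mathlib
import Cfsg.Agent.H10.MaxB
import Cfsg.Statements.S5654

set_option autoImplicit false
open Cfsg

namespace Cfsg.Agent.S5654

/-- Let F be the field with q² elements and n ≥ 13. In SU_n(q) (determinant-one isometries of the standard unitary form on F^n) the stabiliser of a non-zero subspace W on which the form is non-degenerate and with 2 dim W < n is a maximal subgroup. -/
theorem result {F : Type*} [Field F] [Fintype F] (n q : ℕ) (hF : Fintype.card F = q ^ 2) (hn : 13 ≤ n) (W : Submodule F (Fin n → F)) (hW0 : W ≠ ⊥) (hW : Cfsg.Geo.IsNondegenerateOn (Cfsg.hermForm n F q) W) (hdim : 2 * Module.finrank F W < n) : Cfsg.Geo.IsMaximalIn (Cfsg.GU n F q ⊓ Cfsg.Geo.specialLinear (Fin n) F) (Cfsg.Geo.subspaceStabilizer W ⊓ (Cfsg.GU n F q ⊓ Cfsg.Geo.specialLinear (Fin n) F)) := by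
  have hF' : Nat.card F = q ^ 2 := by rw [Nat.card_eq_fintype_card, hF]
  have h0 := H10.stdU_isUnitary hF' n
  have h1 := H10.nondegOn_herm hF' hW
  have h2 := (H10.stdU hF' n).finrank_perp W
  simp only [Module.finrank_fintype_fun_eq_card, Fintype.card_fin] at h2
  rw [H10.SU_eq_E hF' (by omega)]
  exact H10.isMaximalIn_nondeg (h0.std (by simp; omega)) h1.perp (Or.inr rfl) (by omega)
    (fun h => hW0 (by rw [← (H10.stdU hF' n).perp_perp W, h, H10.Form.perp_top]))
    (fun A hA x hx hxA hx0 => h0.le_of_wittClosed hA h1.perp.perp hx hxA hx0)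
    (H10.not_map_le_perp (by simp; omega))

end Cfsg.Agent.S5654
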