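import Cfsg.Statements.S5656
import Cfsg.Agent.H24.NM1
-- import your own Cfsg.Agent.* helpers here

set_option autoImplicit false
open Cfsg

namespace Cfsg.Agent.S5656

/-- Let F be the field with 4 elements (q = 2) and n ≥ 13. Let D be a decomposition of F^n into t pairwise orthogonal 2-dimensional subspaces, each non-degenerate for the standard unitary form Σ u_i v_i². Then the elements of SU_n(2) permuting the members of D form a subgroup that is not maximal: some subgroup lies strictly between it and SU_n(2). -/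
theorem result {F : Type*} [Field F] [Fintype F] (n : ℕ) (hF : Fintype.card F = 4) (hn : 13 ≤ n) {t : ℕ} (D : Fin t → Submodule F (Fin n → F)) (hD : Cfsg.Geo.IsNondegenerateMDecomposition (Cfsg.hermForm n F 2) 2 D) : ∃ K : Subgroup (Matrix.GeneralLinearGroup (Fin n) F), Cfsg.Geo.decompositionStabilizer D ⊓ (Cfsg.GU n F 2 ⊓ Cfsg.Geo.specialLinear (Fin n) F) < K ∧ K < (Cfsg.GU n F 2 ⊓ Cfsg.Geo.specialLinear (Fin n) F) := by
  have hF' : Nat.card F = 2 ^ 2 := by rw [Nat.card_eq_fintype_card, hF]; rfl
  have := hD.1.two_le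
  rw [H10.SU_eq_E hF' (by omega)]
  refine H24.NM.Btw.map ?_
  rw [H10.comap_decompositionStabilizer]
  exact H24.NM.btw_unit (H10.stdU_isUnitary hF' n) (H10.oDec_of (fun _ _ => .inr rfl)
    (fun x y => (H10.stdU hF' n).B_eq_zero_comm) hD) (a := ⟨0, by omega⟩) (b := ⟨1, by omega⟩)
    (by simp) (by simp; omega) hD.1.finrank_eq

end Cfsg.Agent.S5656
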