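import Mathlib
import Cfsg.Agent.H10.MaxB
import Cfsg.Statements.S5657

set_option autoImplicit false
open Cfsg

namespace Cfsg.Agent.S5657

/-- Let F be the field with q² elements and n = 2k ≥ 13. Let D be a decomposition of F^n into two complementary subspaces of dimension k on each of which the standard unitary form vanishes identically. Then the elements of SU_n(q) preserving or interchanging the two subspaces form a maximal subgroup of SU_n(q). -/
theorem result {F : Type*} [Field F] [Fintype F] (n q : ℕ) (hF : Fintype.card F = q ^ 2) (hn : 13 ≤ n) (k : ℕ) (hk : 2 * k = n) (D : Fin 2 → Submodule F (Fin n → F)) (hD : Cfsg.Geo.IsMDecomposition k D) (hts : ∀ i, Cfsg.Geo.IsTotallySingularFor (Cfsg.hermForm n F q) (D i)) : Cfsg.Geo.IsMaximalIn (Cfsg.GU n F q ⊓ Cfsg.Geo.specialLinear (Fin n) F) (Cfsg.Geo.decompositionStabilizer D ⊓ (Cfsg.GU n F q ⊓ Cfsg.Geo.specialLinear (Fin n) F)) := by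
  have hF' : Nat.card F = q ^ 2 := by rw [Nat.card_eq_fintype_card, hF]
  have h0 := H10.stdU_isUnitary hF' n
  have h1 : (H10.stdU hF' n).TSPair (D 0) (D 1) := ⟨h0.herm.ts fun x hx y hy => hts 0 y hy x hx,
    h0.herm.ts fun x hx y hy => hts 1 y hy x hx, H10.isCompl_of_fin_two hD.indep hD.iSup_eq_top⟩
  rw [H10.SU_eq_E hF' (by omega)]
  refine H10.isMaximalIn_pair h1 (by rw [hD.finrank_eq]; omega) (fun t ht => ?_)
    (h1.exists_swap_E_unitary h0 (by simp; omega))
  obtain ⟨θ, hθ⟩ := h0.exists_T_eq (c := 1) (map_one _)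
  rw [h0.herm.T_eq] at ht hθ
  exact ⟨θ * t, by rw [h0.herm.ε_eq, map_mul, eq_neg_of_add_eq_zero_right ht]; linear_combination -t * hθ⟩

end Cfsg.Agent.S5657
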