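import Mathlib
import Cfsg.Agent.H10.Subf3
import Cfsg.Statements.S5658

set_option autoImplicit false
open Cfsg

namespace Cfsg.Agent.S5658

/-- Let F be the field with q² elements, n ≥ 13, and F₀ a subfield with |F| = |F₀| ^ r for an odd prime r. Let P be an invertible matrix such that the standard unitary form takes values in F₀ on the F₀-span of the columns of P. Then the elements of SU_n(q) lying in the subfield group of P (the conjugate by P of the product of GL_n(F₀) with the scalars) form a maximal subgroup of SU_n(q). -/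
theorem result {F : Type*} [Field F] [Fintype F] (n q : ℕ) (hF : Fintype.card F = q ^ 2) (hn : 13 ≤ n) (F₀ : Subfield F) (r : ℕ) (hr : r.Prime) (hro : Odd r) (hcard : Fintype.card F = Nat.card F₀ ^ r) (P : Matrix.GeneralLinearGroup (Fin n) F) (hP : Cfsg.Geo.IsFormRationalStructure (Cfsg.hermForm n F q) F₀ 1 P) : Cfsg.Geo.IsMaximalIn (Cfsg.GU n F q ⊓ Cfsg.Geo.specialLinear (Fin n) F) (Cfsg.Geo.subfieldSubgroup F₀ P ⊓ (Cfsg.GU n F q ⊓ Cfsg.Geo.specialLinear (Fin n) F)) := by
  have hF' : Nat.card F = q ^ 2 := by rw [Nat.card_eq_fintype_card, hF]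
  have h0 := H10.stdU_isUnitary hF' n
  have hK := H10.finrank_eq_of_card hcard
  have h1 : ∀ a ∈ F₀, (H10.stdU hF' n).σ a ∈ F₀ := fun a ha => h0.σ_eq a ▸ F₀.pow_mem ha q
  let σ₀ : F₀ →+* F₀ := ((H10.stdU hF' n).σ.comp F₀.subtype).codRestrict F₀ fun a => h1 a a.2
  have h2 : σ₀ ≠ RingHom.id F₀ := fun h => by
    have := Subalgebra.isSimpleOrder_of_finrank_prime F₀ F (hK ▸ hr)
    let A : Subalgebra F₀ F :=
      { (H10.stdU hF' n).σ.eqLocus (RingHom.id F) with
        algebraMap_mem' := fun a => congrArg Subtype.val (RingHom.congr_fun h a) }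
    rcases eq_bot_or_eq_top A with h3 | h3
    · have h4 : Nat.card F₀ = q := by
        rw [← H10.card_fixed hF']
        refine Nat.card_congr (Equiv.subtypeEquivRight fun x => ⟨fun hx => ?_, fun hx => ?_⟩)
        · exact (h0.σ_eq x).symm.trans (A.algebraMap_mem ⟨x, hx⟩)
        · obtain ⟨a, rfl⟩ := Algebra.mem_bot.1 (h3.le ((h0.σ_eq x).trans hx))
          exact a.2
      rw [h4, hF] at hcard
      rw [← Nat.pow_right_injective (H10.two_le_q hF') hcard] at hro
      exact absurd hro (by decide)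
    · obtain ⟨a, ha⟩ := h0.exists_σ_ne
      exact ha (h3.ge Algebra.mem_top)
  have h3 : ∀ a, σ₀ (σ₀ a) = a := fun a => Subtype.ext ((H10.stdU hF' n).σ_σ a)
  obtain ⟨θ, hθ⟩ := H10.Form.exists_theta h2 h3
  replace hθ : (θ : F) + (H10.stdU hF' n).σ θ = 1 := congrArg Subtype.val hθ
  have h4 : (H10.stdU hF' n).RatS F₀ (H10.ratL F₀ P) :=
    H10.ratS_of h1 (fun u v hu hv => by simpa [H10.stdU_B] using hP v u hv hu)
      (fun u hu => by simpa [H10.stdU_Q] using hP u u hu hu)
      (fun a ha => h0.herm.T_eq a ▸ F₀.add_mem ha (h1 a ha)) fun x _ hx => ⟨_, F₀.mul_mem θ.2 hx, by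
        rw [h0.herm.T_eq, map_mul, h0.herm.σ_Q]; linear_combination (H10.stdU hF' n).Q x * hθ⟩
  obtain ⟨q₀, h5, h6⟩ := H10.exists_q_of_involutive h2 h3
  have h7 : h4.form.IsUnitary q₀ :=
    ⟨⟨Subtype.ext h0.herm.ε_eq, fun a => Subtype.ext (h0.herm.T_eq a)⟩, h5, h6⟩
  rw [H10.SU_eq_E hF' (by omega)]
  refine H10.isMaximalIn_subfield h4 (fun W hW => ?_) (by simp; omega) (hK ▸ hr)
    (fun t ht => Or.inl ?_) (Or.inl ?_)
  · have := H10.Form.RatS.finiteDim (L := H10.ratL F₀ P)
    obtain ⟨v, h8, h9, h10⟩ := h7.exists_singular (W := W) (by omega)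
    exact ⟨v, h8, h9, congrArg Subtype.val h10⟩
  · rw [h0.herm.T_eq] at ht
    exact ⟨θ * t, by
      rw [h0.herm.ε_eq, map_mul, eq_neg_of_add_eq_zero_right ht]; linear_combination -t * hθ⟩
  · obtain ⟨t, h8, h9⟩ := h7.exists_skew
    exact ⟨t, t.2, by simpa using h8, congrArg Subtype.val h9⟩

end Cfsg.Agent.S5658
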