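import Mathlib
import Cfsg.Agent.H10.Subf3
import Cfsg.Statements.S5659

set_option autoImplicit false
open Cfsg

namespace Cfsg.Agent.S5659

/-- Let F be the field with q² elements, q odd, n ≥ 13, and F₀ the subfield with q elements. Let P be an invertible matrix such that the standard unitary form takes values in F₀ on the F₀-span of the columns of P (so it restricts to a non-degenerate symmetric bilinear form there). Then the elements of SU_n(q) lying in the subfield group of P form a maximal subgroup of SU_n(q). -/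
theorem result {F : Type*} [Field F] [Fintype F] (n q : ℕ) (hF : Fintype.card F = q ^ 2) (hn : 13 ≤ n) (hodd : Odd q) (F₀ : Subfield F) (hcard : Fintype.card F = Nat.card F₀ ^ 2) (P : Matrix.GeneralLinearGroup (Fin n) F) (hP : Cfsg.Geo.IsFormRationalStructure (Cfsg.hermForm n F q) F₀ 1 P) : Cfsg.Geo.IsMaximalIn (Cfsg.GU n F q ⊓ Cfsg.Geo.specialLinear (Fin n) F) (Cfsg.Geo.subfieldSubgroup F₀ P ⊓ (Cfsg.GU n F q ⊓ Cfsg.Geo.specialLinear (Fin n) F)) := by
  have hF' : Nat.card F = q ^ 2 := by rw [Nat.card_eq_fintype_card, hF]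
  have h0 := H10.stdU_isUnitary hF' n
  have hK := H10.finrank_eq_of_card hcard
  have h1 : ∀ a ∈ F₀, (H10.stdU hF' n).σ a = a := fun a ha => by
    have := Fintype.ofFinite F₀
    rw [h0.σ_eq, Nat.pow_left_injective two_ne_zero (hF.symm.trans hcard), Nat.card_eq_fintype_card]
    exact congrArg Subtype.val (FiniteField.pow_card (⟨a, ha⟩ : F₀))
  have h2 : (2 : F) ≠ 0 := H10.two_ne_zero_of_odd_card (hF ▸ hodd.pow)
  have h4 : (H10.stdU hF' n).RatS F₀ (H10.ratL F₀ P) :=
    H10.ratS_of (fun a ha => (h1 a ha).symm ▸ ha)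
      (fun u v hu hv => by simpa [H10.stdU_B] using hP v u hv hu)
      (fun u hu => by simpa [H10.stdU_Q] using hP u u hu hu)
      (fun a ha => by rw [h0.herm.T_eq, h1 a ha]; exact F₀.add_mem ha ha) fun x _ hx => by
        have := F₀.div_mem hx (F₀.add_mem F₀.one_mem F₀.one_mem)
        refine ⟨_, this, ?_⟩
        rw [h0.herm.T_eq, h1 _ this, one_add_one_eq_two]; field_simp; ring
  rw [H10.SU_eq_E hF' (by omega)]
  refine H10.isMaximalIn_subfield h4 (fun W hW => ?_) (by simp; omega) (hK ▸ Nat.prime_two)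
    (fun t ht => Or.inl ?_) (Or.inr (Or.inr hK))
  · obtain ⟨v, h8, h9, h10⟩ := (H10.Form.isQuad_ofQuad (LinearMap.BilinMap.toQuadraticMap
      (LinearMap.mk₂ F₀ (fun x y => h4.form.B x y) (by simp) (fun c x y => Subtype.ext (by
        simp [h1 c c.2])) (by simp) (by simp)))).exists_singular hW
    exact ⟨v, h8, h9, (h0.herm.Q_eq _).trans (congrArg Subtype.val h10)⟩
  · obtain ⟨θ, hθ⟩ := h0.exists_T_eq (c := 1) (map_one _)
    rw [h0.herm.T_eq] at ht hθ
    exact ⟨θ * t, by
      rw [h0.herm.ε_eq, map_mul, eq_neg_of_add_eq_zero_right ht]; linear_combination -t * hθ⟩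

end Cfsg.Agent.S5659
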