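import Mathlib
import Cfsg.Agent.H10.Subf3
import Cfsg.Statements.S5660

set_option autoImplicit false
open Cfsg

namespace Cfsg.Agent.S5660

/-- Let F be the field with q² elements, n ≥ 13 even, and F₀ the subfield with q elements. Let ζ be a non-zero element with ζ + ζ^q = 0 and P an invertible matrix such that ζ times the standard unitary form takes values in F₀ on the F₀-span of the columns of P and the form vanishes on every pair (u, u) of that span (so ζ times the form restricts to a non-degenerate alternating form there). Then the elements of SU_n(q) lying in the subfield group of P form a maximal subgroup of SU_n(q). -/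
theorem result {F : Type*} [Field F] [Fintype F] (n q : ℕ) (hF : Fintype.card F = q ^ 2) (hn : 13 ≤ n) (heven : Even n) (F₀ : Subfield F) (hcard : Fintype.card F = Nat.card F₀ ^ 2) (ζ : F) (hζ0 : ζ ≠ 0) (hζ : ζ + ζ ^ q = 0) (P : Matrix.GeneralLinearGroup (Fin n) F) (hP : Cfsg.Geo.IsFormRationalStructure (Cfsg.hermForm n F q) F₀ ζ P) (halt : ∀ u : Fin n → F, (∀ i, u i ∈ F₀) → Cfsg.hermForm n F q (Matrix.mulVec (P : Matrix (Fin n) (Fin n) F) u) (Matrix.mulVec (P : Matrix (Fin n) (Fin n) F) u) = 0) : Cfsg.Geo.IsMaximalIn (Cfsg.GU n F q ⊓ Cfsg.Geo.specialLinear (Fin n) F) (Cfsg.Geo.subfieldSubgroup F₀ P ⊓ (Cfsg.GU n F q ⊓ Cfsg.Geo.specialLinear (Fin n) F)) := by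
  have hF' : Nat.card F = q ^ 2 := by rw [Nat.card_eq_fintype_card, hF]
  have h0 := H10.stdU_isUnitary hF' n
  have hK := H10.finrank_eq_of_card hcard
  have h1 : ∀ a ∈ F₀, (H10.stdU hF' n).σ a = a := fun a ha => by
    have := Fintype.ofFinite F₀
    rw [h0.σ_eq, Nat.pow_left_injective two_ne_zero (hF.symm.trans hcard), Nat.card_eq_fintype_card]
    exact congrArg Subtype.val (FiniteField.pow_card (⟨a, ha⟩ : F₀))
  have hz : (H10.stdU hF' n).σ ζ = -1 * ζ := by rw [h0.σ_eq]; linear_combination hζ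
  have h2 : ∀ a, ((H10.stdU hF' n).scale hζ0 (Or.inr rfl) hz).T a = a - (H10.stdU hF' n).σ a :=
    fun a => by rw [H10.Form.scale_T, h0.herm.T_eq, map_mul, map_inv₀, hz]; field_simp; ring
  rw [H10.SU_eq_E hF' (by omega), H10.scale_E_map_toGL _ hζ0 (Or.inr rfl) hz]
  have h3 : ∀ x ∈ H10.ratL F₀ P, ((H10.stdU hF' n).scale hζ0 (Or.inr rfl) hz).Q x = 0 := by
    rintro _ ⟨u, hu, rfl⟩
    simp [H10.stdU_Q, halt u hu]
  refine H10.isMaximalIn_subfield (H10.ratS_of (fun a ha => (h1 a ha).symm ▸ ha)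
    (fun u v hu hv => hP v u hv hu) (fun u hu => hP u u hu hu) (fun a ha => by simp [h2, h1 a ha])
    fun x hx _ => ⟨0, F₀.zero_mem, by rw [h3 x hx, map_zero]⟩) (H10.rSing_of_Q h3) (by simp; omega)
    (hK ▸ Nat.prime_two) (fun t ht => Or.inl ?_) (Or.inr (Or.inr hK))
  rw [h2, sub_eq_zero] at ht
  obtain ⟨b, rfl⟩ := h0.exists_T_eq ht.symm
  exact ⟨b, by simp [h0.herm.T_eq, h0.herm.ε_eq]⟩

end Cfsg.Agent.S5660
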