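import Cfsg.Statements.S5667
import Cfsg.Agent.H24.NM2
-- import your own Cfsg.Agent.* helpers here

set_option autoImplicit false
open Cfsg

namespace Cfsg.Agent.S5667

/-- Over the field with 3 elements and for m ≥ 7, suppose the standard alternating form on F^(2m) is similar, through P and e, to the tensor product of a non-degenerate symplectic form f₁ on F^(n₁) and a non-degenerate symmetric bilinear form f₂ on F^3. Then the elements of Sp_2m(3) in the stabiliser of this tensor decomposition form a subgroup that is not maximal: some subgroup lies strictly between it and Sp_2m(3). -/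
theorem result {F : Type*} [Field F] [Fintype F] (m : ℕ) (hm : 7 ≤ m) (hq : Fintype.card F = 3) (n₁ : ℕ) (e : (Fin m ⊕ Fin m) ≃ Fin n₁ × Fin 3) (P : Matrix.GeneralLinearGroup (Fin m ⊕ Fin m) F) (f₁ : (Fin n₁ → F) → (Fin n₁ → F) → F) (f₂ : (Fin 3 → F) → (Fin 3 → F) → F) (hf₁ : Cfsg.Geo.IsSymplecticForm f₁) (hf₂ : Cfsg.Geo.IsSymmetricForm f₂) (hT : Cfsg.Geo.IsTensorFormStructure id (Cfsg.sympForm m F) f₁ f₂ e P) : ∃ K : Subgroup (Matrix.GeneralLinearGroup (Fin m ⊕ Fin m) F), Cfsg.Geo.tensorProductSubgroup n₁ 3 e P ⊓ Cfsg.spGL m F < K ∧ K < Cfsg.spGL m F := by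
  have hn : m + m = n₁ * 3 := by simpa using Fintype.card_congr e
  obtain ⟨c, hc, h⟩ := H24.NM.tau_form (σ := .id F) (H10.As.sf_of_symp hf₁).toSq
    (H10.As.sf_of_symm hf₂).toSq hT
  rw [H10.spGL_eq_E]
  exact (H24.NM.btw_o3 (τ := (H24.NM.tau e P).flip) (H10.Form.std_of_isAltF H09.isAltF_spForm)
    (by simpa) hf₂ (fun y hy => (hf₁.4 y hy).1) hc (fun x y x' y' =>
      ((H09.sympForm_eq _ _ _).symm.trans (h y x y' x')).trans (by ring))
    (fun g hg => (H24.NM.pt_tau g hg).flip) (by simp; omega) (by simp; omega)).map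

end Cfsg.Agent.S5667
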