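import Cfsg.Statements.S5671
import Cfsg.Agent.H24.NM2
-- import your own Cfsg.Agent.* helpers here

set_option autoImplicit false
open Cfsg

namespace Cfsg.Agent.S5671

/-- Let F be the field with 4 elements (q = 2) and n = 2 n₂ ≥ 13. Suppose the standard unitary form Σ u_i v_i² on F^n is similar, through P and e, to the tensor product of non-degenerate unitary forms f₁ on F^2 and f₂ on F^(n₂). Then the elements of SU_n(2) in the stabiliser of this tensor decomposition form a subgroup that is not maximal: some subgroup lies strictly between it and SU_n(2). -/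
theorem result {F : Type*} [Field F] [Fintype F] (n : ℕ) (hF : Fintype.card F = 4) (hn : 13 ≤ n) (n₂ : ℕ) (e : Fin n ≃ Fin 2 × Fin n₂) (P : Matrix.GeneralLinearGroup (Fin n) F) (f₁ : (Fin 2 → F) → (Fin 2 → F) → F) (f₂ : (Fin n₂ → F) → (Fin n₂ → F) → F) (hf₁ : Cfsg.Geo.IsUnitaryFormPow 2 f₁) (hf₂ : Cfsg.Geo.IsUnitaryFormPow 2 f₂) (hT : Cfsg.Geo.IsTensorFormStructure (fun x : F => x ^ 2) (Cfsg.hermForm n F 2) f₁ f₂ e P) : ∃ K : Subgroup (Matrix.GeneralLinearGroup (Fin n) F), Cfsg.Geo.tensorProductSubgroup 2 n₂ e P ⊓ (Cfsg.GU n F 2 ⊓ Cfsg.Geo.specialLinear (Fin n) F) < K ∧ K < (Cfsg.GU n F 2 ⊓ Cfsg.Geo.specialLinear (Fin n) F) := by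
  have hF' : Nat.card F = 2 ^ 2 := by rw [Nat.card_eq_fintype_card, hF]; rfl
  have hn' : n = 2 * n₂ := by simpa using Fintype.card_congr e
  have s1 := H10.As.sf_of_herm (H10.conj_conj hF') hf₁.1 hf₁.2 hf₁.3 hf₁.4
  have s2 := H10.As.sf_of_herm (H10.conj_conj hF') hf₂.1 hf₂.2 hf₂.3 hf₂.4
  obtain ⟨c, hc, h⟩ := H24.NM.tau_form s1.toSq s2.toSq hT
  obtain ⟨σ, h1⟩ := s1.unit (H10.conj_ne_id hF')
  obtain ⟨q, ψ, _, h2, -, h3⟩ := H10.exists_ofHerm h1
  obtain rfl : q = 2 := Nat.pow_left_injective two_ne_zero (h2.card.symm.trans hF')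
  obtain ⟨a, b, h4, h5, h6, h7⟩ := H24.NM.fr_unit h2 (by simp)
  rw [H10.SU_eq_E hF' (by omega)]
  refine (H24.NM.btw_tens (γ := fun y y' => c * f₂ y' y) ((H10.stdU_isUnitary hF' n).std (by simp; omega))
    ⟨fun x y x' y' => ?_, fun x hx => ?_, fun y hy => ?_⟩ H24.NM.pt_tau (by simp; omega)
    (by simp; omega) h4 h5 h6 h7).map
  · rw [H10.stdU_B, h, h3]; ring
  · simpa [h3] using (hf₁.4 x hx).2
  · simpa [hc] using (hf₂.4 y hy).2

end Cfsg.Agent.S5671
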