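import Mathlib
import Cfsg.Agent.H10.MaxB
import Cfsg.Statements.S5674

set_option autoImplicit false
open Cfsg

namespace Cfsg.Agent.S5674

/-- Let F be a finite field of odd order, m ≥ 6, Q the standard quadratic form x₀² + Σ x_i y_i on F^(2m+1) and Ω the commutator subgroup of its isometry group inside GL_(2m+1)(F). The elements of Ω stabilising a non-zero subspace on which Q vanishes form a maximal subgroup of Ω. -/
theorem result {F : Type*} [Field F] [Fintype F] (hodd : Odd (Fintype.card F)) (m : ℕ) (hm : 6 ≤ m) (W : Submodule F (Unit ⊕ (Fin m ⊕ Fin m) → F)) (hW0 : W ≠ ⊥) (hW : Cfsg.Geo.IsTotallySingularQuad (Cfsg.quadFormOdd m F) W) : Cfsg.Geo.IsMaximalIn (Cfsg.Geo.omegaGL (Cfsg.quadFormOdd m F)) (Cfsg.Geo.subspaceStabilizer W ⊓ Cfsg.Geo.omegaGL (Cfsg.quadFormOdd m F)) := by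
  have := H10.qOdd_nondeg (m := m) (H10.two_ne_zero_of_odd_card hodd)
  have h0 := H10.Form.isQuad_ofQuad (H10.qOdd m F)
  have h1 := h0.ts hW
  rw [← H10.coe_qOdd, H10.omegaGL_eq_E _ (by simp; omega)]
  refine H10.isMaximalIn_TS (h0.std (by simp; omega)) (by simp; omega) hW0 h1 fun x hx hx' hQ => Or.inr ?_
  have h2 := (h1.sup (H10.Form.TS.singleton hQ) (by simpa using hx)).finrank_le
  rw [H10.Form.finrank_sup_singleton hx'] at h2
  simp at h2 ⊢
  omega

end Cfsg.Agent.S5674
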