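import Mathlib
import Cfsg.Agent.H10.MaxC
import Cfsg.Statements.S5675

set_option autoImplicit false
open Cfsg

namespace Cfsg.Agent.S5675

/-- Let F be a finite field of odd order q, m ≥ 6, Q the standard quadratic form on F^(2m+1) and Ω the commutator subgroup of its isometry group. Let W be a non-zero subspace of even dimension on which the polar form of Q is non-degenerate; exclude the case q = 3, dim W = 2 with Q vanishing on some line of W (a plus-type plane). Then the elements of Ω stabilising W (equivalently, stabilising its orthogonal complement, of odd dimension) form a maximal subgroup of Ω. -/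
theorem result {F : Type*} [Field F] [Fintype F] (hodd : Odd (Fintype.card F)) (m : ℕ) (hm : 6 ≤ m) (W : Submodule F (Unit ⊕ (Fin m ⊕ Fin m) → F)) (hW0 : W ≠ ⊥) (hev : Even (Module.finrank F W)) (hW : Cfsg.Geo.IsNondegenerateOn (QuadraticMap.polar (Cfsg.quadFormOdd m F)) W) (hex : ¬ (Fintype.card F = 3 ∧ Module.finrank F W = 2 ∧ Cfsg.Geo.IsPlusTypeOn (Cfsg.quadFormOdd m F) W)) : Cfsg.Geo.IsMaximalIn (Cfsg.Geo.omegaGL (Cfsg.quadFormOdd m F)) (Cfsg.Geo.subspaceStabilizer W ⊓ Cfsg.Geo.omegaGL (Cfsg.quadFormOdd m F)) := by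
  have := H10.qOdd_nondeg (m := m) (H10.two_ne_zero_of_odd_card hodd)
  have h1 : (H10.Form.ofQuad (H10.qOdd m F)).NondegOn W := H10.nondegOn_quad hW
  have h2 := (H10.Form.ofQuad (H10.qOdd m F)).finrank_perp W
  simp only [Module.finrank_fintype_fun_eq_card, Fintype.card_sum, Fintype.card_unique,
    Fintype.card_fin] at h2
  obtain ⟨l, hl⟩ := hev
  rw [← H10.coe_qOdd]
  refine H10.isMaximalIn_nondeg_quad (by simp; omega) hW0 ?_ h1 ?_ (fun h => ?_)
  · rintro rfl
    simp at hl
    omega
  · rintro U (rfl | rfl) ⟨h3, h4, h5⟩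
    · refine hex ⟨?_, h3, (H10.isPlusTypeOn_iff (Q := H10.qOdd m F) (k := 1) h3).2 h4⟩
      rw [Nat.card_eq_fintype_card] at h5
      have := Fintype.one_lt_card (α := F)
      obtain ⟨r, hr⟩ := hodd
      omega
    · omega
  · simp at h
    omega

end Cfsg.Agent.S5675
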