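import Mathlib
import Cfsg.Agent.H10.DcE
import Cfsg.Statements.S5677

set_option autoImplicit false
open Cfsg

namespace Cfsg.Agent.S5677

/-- Let F be a finite field of odd order q, m ≥ 6, Q the standard quadratic form on F^(2m+1) and Ω the commutator subgroup of its isometry group. Let D be a decomposition of F^(2m+1) into t ≥ 2 pairwise orthogonal, pairwise Q-isometric subspaces of equal dimension k > 1 on which the polar form is non-degenerate. Unless q = 3 and k = 3, the elements of Ω permuting the members of D form a maximal subgroup of Ω. -/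
theorem result {F : Type*} [Field F] [Fintype F] (hodd : Odd (Fintype.card F)) (m : ℕ) (hm : 6 ≤ m) {t : ℕ} (k : ℕ) (hk : 1 < k) (D : Fin t → Submodule F (Unit ⊕ (Fin m ⊕ Fin m) → F)) (hD : Cfsg.Geo.IsOrthogonalMDecomposition (Cfsg.quadFormOdd m F) k D) (hex : ¬ (Fintype.card F = 3 ∧ k = 3)) : Cfsg.Geo.IsMaximalIn (Cfsg.Geo.omegaGL (Cfsg.quadFormOdd m F)) (Cfsg.Geo.decompositionStabilizer D ⊓ Cfsg.Geo.omegaGL (Cfsg.quadFormOdd m F)) := by
  have hc := H10.card_eq_of_dec hD.decomp.decomp
  rw [← Nat.card_eq_fintype_card] at hodd hex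
  have hk' : Odd k := (Nat.odd_mul.1 (show Odd (t * k) from ⟨m, by rw [← hc]; simp; omega⟩)).2
  refine H10.isMaximalIn_dec_om (H10.quadFormOdd_nondeg (H10.odd_card_iff.1 hodd)) (by simp; omega) hk hD ?_
  rintro (⟨rfl, -⟩ | h | ⟨rfl, -⟩)
  exacts [absurd hk' (by decide), hex h.symm, absurd hk' (by decide)]

end Cfsg.Agent.S5677
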