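import Mathlib
import Cfsg.Agent.H10.MxR
import Cfsg.Agent.H10.AsOdd
import Cfsg.Statements.S5680

set_option autoImplicit false
open Cfsg

namespace Cfsg.Agent.S5680

/-- Let F be a finite field of odd order, m ≥ 6, Q the standard quadratic form on F^(2m+1) and Ω the commutator subgroup of its isometry group. Let K be a subfield of the algebra of (2m+1) × (2m+1) matrices over F containing the scalars, of prime degree r over F with r ≠ 2m + 1, whose elements are self-adjoint for the polar form of Q. Then the elements of Ω normalising K form a maximal subgroup of Ω. -/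
theorem result {F : Type*} [Field F] [Fintype F] (hodd : Odd (Fintype.card F)) (m : ℕ) (hm : 6 ≤ m) (r : ℕ) (hr : r.Prime) (hrn : 2 * m + 1 ≠ r) (K : Subalgebra F (Matrix (Unit ⊕ (Fin m ⊕ Fin m)) (Unit ⊕ (Fin m ⊕ Fin m)) F)) (hK : Cfsg.Geo.IsFieldSubalgebra r K) (hsa : Cfsg.Geo.IsSelfAdjointFor (QuadraticMap.polar (Cfsg.quadFormOdd m F)) K) : Cfsg.Geo.IsMaximalIn (Cfsg.Geo.omegaGL (Cfsg.quadFormOdd m F)) (Cfsg.Geo.subalgebraNormalizer K ⊓ Cfsg.Geo.omegaGL (Cfsg.quadFormOdd m F)) := by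
  have hQ := H10.As.quad_odd (F := F) (m := m) (H10.two_ne_zero_of_odd_card hodd)
  obtain ⟨k, hk⟩ : r ∣ 2 * m + 1 := H10.Mx.fld_bridge hK fun E _ _ _ _ _ hE _ _ =>
    ⟨_, by simpa [hE, two_mul, add_comm] using (Module.finrank_mul_finrank F E (Unit ⊕ (Fin m ⊕ Fin m) → F)).symm⟩
  obtain ⟨⟨a, rfl⟩, b, rfl⟩ := Nat.odd_mul.1 (hk ▸ odd_two_mul_add_one m)
  have := hr.two_le
  by_cases e : b = 1
  · subst e; exact H10.Mx.isMaximalIn_om_om3 hQ hodd hr (by omega) hK (by simp; omega) hsa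
  have : 2 ≤ b := by rcases b with _ | _ | b <;> omega
  exact H10.Mx.isMaximalIn_om_om hQ hodd hr hK (by simp; nlinarith) (.inl (by omega)) hsa

end Cfsg.Agent.S5680
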