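import Mathlib
import Cfsg.Agent.H10.MaxB
import Cfsg.Statements.S5687

set_option autoImplicit false
open Cfsg

namespace Cfsg.Agent.S5687

/-- Let F be a finite field with q elements, n ≥ 13 even, Q a non-degenerate quadratic form on F^n of minus type (no subspace of dimension n/2 is totally singular), and Ω the commutator subgroup of the isometry group of Q, viewed inside GL_n(F). The elements of Ω stabilising a non-zero subspace on which Q vanishes form a maximal subgroup of Ω. -/
theorem result {F : Type*} [Field F] [Fintype F] {n : ℕ} (hn : 13 ≤ n) (heven : Even n) (Q : (Fin n → F) → F) (hQ : Cfsg.Geo.IsNondegenerateQuadraticForm Q) (hminus : ¬ Cfsg.Geo.IsPlusTypeOn Q ⊤) (W : Submodule F (Fin n → F)) (hW0 : W ≠ ⊥) (hW : Cfsg.Geo.IsTotallySingularQuad Q W) : Cfsg.Geo.IsMaximalIn (Cfsg.Geo.omegaGL Q) (Cfsg.Geo.subspaceStabilizer W ⊓ Cfsg.Geo.omegaGL Q) := by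
  obtain ⟨Q, rfl, _⟩ := H10.exists_ofQuad hQ
  have h0 := H10.Form.isQuad_ofQuad Q
  have h1 := h0.ts hW
  rw [H10.omegaGL_eq_E _ (by simp; omega)]
  refine H10.isMaximalIn_TS (h0.std (by simp; omega)) (by simp; omega) hW0 h1 fun x hx hx' hQ => Or.inr ?_
  have h3 := h1.sup (H10.Form.TS.singleton hQ) (by simpa using hx)
  have h2 := h3.finrank_le
  have h4 := H10.Form.finrank_sup_singleton hx'
  by_contra h5
  simp at h2 h5
  exact hminus ⟨_, le_top, h3.Q, by simp; omega⟩

end Cfsg.Agent.S5687
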