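import Mathlib
import Cfsg.Agent.H10.MaxC
import Cfsg.Statements.S5689

set_option autoImplicit false
open Cfsg

namespace Cfsg.Agent.S5689

/-- Let F be a finite field with q elements, n ≥ 13 even, Q a non-degenerate quadratic form on F^n of minus type (no subspace of dimension n/2 is totally singular), and Ω the commutator subgroup of the isometry group of Q, viewed inside GL_n(F). Let W be a non-zero proper subspace on which the polar form of Q is non-degenerate, not of odd dimension n/2. Exclude the case q ≤ 3 in which W, or its orthogonal complement, is a plane containing a line on which Q vanishes. Then the elements of Ω stabilising W form a maximal subgroup of Ω. -/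
theorem result {F : Type*} [Field F] [Fintype F] {n : ℕ} (hn : 13 ≤ n) (heven : Even n) (Q : (Fin n → F) → F) (hQ : Cfsg.Geo.IsNondegenerateQuadraticForm Q) (hminus : ¬ Cfsg.Geo.IsPlusTypeOn Q ⊤) (W : Submodule F (Fin n → F)) (hW0 : W ≠ ⊥) (hW1 : W ≠ ⊤) (hdim : ¬ (2 * Module.finrank F W = n ∧ Odd (Module.finrank F W))) (hW : Cfsg.Geo.IsNondegenerateOn (QuadraticMap.polar Q) W) (hex : ¬ (Fintype.card F ≤ 3 ∧ (∃ U : Submodule F (Fin n → F), Module.finrank F U = 2 ∧ Cfsg.Geo.IsNondegenerateOn (QuadraticMap.polar Q) U ∧ Cfsg.Geo.IsPlusTypeOn Q U ∧ (U = W ∨ (Cfsg.Geo.AreOrthogonalFor (QuadraticMap.polar Q) U W ∧ Module.finrank F U + Module.finrank F W = n))))) : Cfsg.Geo.IsMaximalIn (Cfsg.Geo.omegaGL Q) (Cfsg.Geo.subspaceStabilizer W ⊓ Cfsg.Geo.omegaGL Q) := by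
  obtain ⟨Q, rfl, _⟩ := H10.exists_ofQuad hQ
  have h1 := H10.nondegOn_quad hW
  refine H10.isMaximalIn_nondeg_quad (by simpa using hn) hW0 hW1 h1
    (H10.hex_of h1 (Fintype.card_fin n) (by simpa using hex)) fun h g hg => hminus ?_
  rw [Fintype.card_fin] at h
  obtain ⟨l, hl⟩ : Even (Module.finrank F W) := Nat.not_odd_iff_even.1 fun h' => hdim ⟨h, h'⟩
  exact (H10.isPlusTypeOn_top_iff (k := 2 * l) (by simp; omega)).2
    ((H10.Form.isQuad_ofQuad Q).hasTS_of_map_le_perp h1 (by omega) hg)

end Cfsg.Agent.S5689
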