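import Mathlib
import Cfsg.Agent.H10.MaxB
import Cfsg.Statements.S5691

set_option autoImplicit false
open Cfsg

namespace Cfsg.Agent.S5691

/-- Let F be a finite field with q elements, n ≥ 13 even, Q a non-degenerate quadratic form on F^n (of either type), and Ω the commutator subgroup of the isometry group of Q, viewed inside GL_n(F). Suppose q is even and v is a vector with Q(v) ≠ 0. Then the elements of Ω stabilising the line spanned by v form a maximal subgroup of Ω. -/
theorem result {F : Type*} [Field F] [Fintype F] {n : ℕ} (hn : 13 ≤ n) (heven : Even n) (Q : (Fin n → F) → F) (hQ : Cfsg.Geo.IsNondegenerateQuadraticForm Q) (hchar : ¬ Odd (Fintype.card F)) (v : (Fin n → F)) (hv : Q v ≠ 0) : Cfsg.Geo.IsMaximalIn (Cfsg.Geo.omegaGL Q) (Cfsg.Geo.subspaceStabilizer (Submodule.span F {v}) ⊓ Cfsg.Geo.omegaGL Q) := by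
  obtain ⟨Q, rfl, _⟩ := H10.exists_ofQuad hQ
  have h0 := H10.Form.isQuad_ofQuad Q
  have h1 := h0.std (by simp; omega)
  have h2 : (2 : F) = 0 := by
    by_contra h; exact hchar (by simpa using H10.odd_card_iff.2 h)
  rw [H10.omegaGL_eq_E _ (by simp; omega)]
  refine H10.isMaximalIn_map _ ?_ fun M hM g hg _ hg' => ?_
  · rw [H10.comap_subspaceStabilizer]
    refine h1.not_E_le_stab (by simp; omega) (by rintro h; simp at h; simp [h] at hv) fun h => ?_
    have := H10.finrank_span_singleton_le (F := F) v
    rw [h] at this; simp at this; omega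
  · rw [H10.comap_subspaceStabilizer] at hM
    exact h1.E_le_of_stab_vec hv (by rw [h0.B_self, h2, zero_mul]) (by simp; omega) hM hg
      (mt H10.toGL_mem_subspaceStabilizer.2 hg')

end Cfsg.Agent.S5691
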