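import Mathlib
import Cfsg.Agent.H10.MaxC
import Cfsg.Statements.S5699

set_option autoImplicit false
open Cfsg

namespace Cfsg.Agent.S5699

/-- Let F be a finite field with q elements, n ≥ 13 even, Q a non-degenerate quadratic form on F^n (of either type), and Ω the commutator subgroup of the isometry group of Q, viewed inside GL_n(F). Let D be a decomposition of F^n into two orthogonal subspaces of odd dimension n/2 on which the polar form is non-degenerate and which are not Q-isometric to each other. Then the elements of Ω permuting (necessarily fixing) the two subspaces form a maximal subgroup of Ω. -/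
theorem result {F : Type*} [Field F] [Fintype F] {n : ℕ} (hn : 13 ≤ n) (heven : Even n) (Q : (Fin n → F) → F) (hQ : Cfsg.Geo.IsNondegenerateQuadraticForm Q) (k : ℕ) (hk : 2 * k = n) (hko : Odd k) (D : Fin 2 → Submodule F (Fin n → F)) (hD : Cfsg.Geo.IsNondegenerateMDecomposition (QuadraticMap.polar Q) k D) (hni : ¬ Cfsg.Geo.AreIsometricFor Q (D 0) (D 1)) : Cfsg.Geo.IsMaximalIn (Cfsg.Geo.omegaGL Q) (Cfsg.Geo.decompositionStabilizer D ⊓ Cfsg.Geo.omegaGL Q) := by
  obtain ⟨Q, rfl, _⟩ := H10.exists_ofQuad hQ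
  have h0 := H10.Form.isQuad_ofQuad Q
  have h1 := H10.nondegOn_quad (hD.nondegenerate 0)
  have hk0 := hD.decomp.finrank_eq 0
  have hk1 := hD.decomp.finrank_eq 1
  have h2 : D 1 = (H10.Form.ofQuad Q).perp (D 0) := by
    have := (H10.Form.ofQuad Q).finrank_perp (D 0)
    refine Submodule.eq_of_le_of_finrank_eq (fun y hy => ((H10.Form.ofQuad Q).mem_perp).2
      fun x hx => hD.orthogonal 0 1 (by decide) x hx y hy) ?_
    simp at this
    omega
  have h3 : ∀ g : (H10.Form.ofQuad Q).Isom, ¬ (D 0).map (g.1 : (Fin n → F) →ₗ[F] _) ≤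
      (H10.Form.ofQuad Q).perp (D 0) := fun g hg => by
    rw [← h2] at hg
    have hg' := Submodule.eq_of_le_of_finrank_eq hg (by rw [LinearEquiv.finrank_map_eq, hk0, hk1])
    exact hni ⟨g.1.ofSubmodules _ _ hg', fun w => H10.Form.Isom.Q_map g w⟩
  have h4 : Cfsg.Geo.decompositionStabilizer D ⊓ Cfsg.Geo.omegaGL Q =
      Cfsg.Geo.subspaceStabilizer (D 0) ⊓ Cfsg.Geo.omegaGL Q := by
    rw [H10.omegaGL_eq]
    ext x
    simp only [Subgroup.mem_inf, and_congr_left_iff]
    rintro ⟨g, -, rfl⟩
    rw [H10.toGL_mem_decomp_two, H10.toGL_mem_subspaceStabilizer]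
    refine ⟨fun h => h.elim (fun h => (H10.Form.mem_stab_iff_map _).2 h.1)
      fun h => absurd (h.1.trans h2).le (h3 g), fun h => Or.inl ⟨(H10.Form.mem_stab_iff_map _).1 h, ?_⟩⟩
    rw [h2]
    exact (H10.Form.mem_stab_iff_map _).1 (H10.Form.stab_le_stab_perp _ _ h)
  rw [h4]
  have h5 := (H10.Form.ofQuad Q).finrank_perp (D 0)
  simp only [Module.finrank_fintype_fun_eq_card, Fintype.card_fin] at h5
  refine H10.isMaximalIn_nondeg_quad (by simpa using hn) ?_ ?_ h1 ?_ fun _ => h3
  · intro h
    rw [h] at hk0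
    simp at hk0
    omega
  · intro h
    rw [h] at hk0
    simp at hk0
    omega
  · rintro U (rfl | rfl) h <;> omega

end Cfsg.Agent.S5699
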