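import Cfsg.Statements.S5705
import Cfsg.Agent.H24.NM2
-- import your own Cfsg.Agent.* helpers here

set_option autoImplicit false
open Cfsg

namespace Cfsg.Agent.S5705

/-- Let F be the field with 2 elements, n = 2 n₂ ≥ 13 even, Q a non-degenerate quadratic form on F^n of plus type and Ω the commutator subgroup of its isometry group. Suppose that, through P and e, the polar form of Q is similar to the tensor product of non-degenerate symplectic forms f₁ on F^2 and f₂ on F^(n₂), and Q vanishes on the images of all pure tensors. Then the elements of Ω in the stabiliser of this tensor decomposition form a subgroup that is not maximal: some subgroup lies strictly between it and Ω. -/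
theorem result {F : Type*} [Field F] [Fintype F] {n : ℕ} (hn : 13 ≤ n) (heven : Even n) (Q : (Fin n → F) → F) (hQ : Cfsg.Geo.IsNondegenerateQuadraticForm Q) (hplus : Cfsg.Geo.IsPlusTypeOn Q ⊤) (hq : Fintype.card F = 2) (n₂ : ℕ) (h2 : 2 < n₂) (e : (Fin n) ≃ Fin 2 × Fin n₂) (P : Matrix.GeneralLinearGroup (Fin n) F) (f₁ : (Fin 2 → F) → (Fin 2 → F) → F) (f₂ : (Fin n₂ → F) → (Fin n₂ → F) → F) (hf₁ : Cfsg.Geo.IsSymplecticForm f₁) (hf₂ : Cfsg.Geo.IsSymplecticForm f₂) (hT : Cfsg.Geo.IsTensorFormStructure id (QuadraticMap.polar Q) f₁ f₂ e P) (hpure : (∀ (x₁ : Fin 2 → F) (x₂ : Fin n₂ → F), Q (Matrix.mulVec (P : Matrix (Fin n) (Fin n) F) ((fun a : Fin 2 × Fin n₂ => x₁ a.1 * x₂ a.2) ∘ e)) = 0)) : ∃ K : Subgroup (Matrix.GeneralLinearGroup (Fin n) F), Cfsg.Geo.tensorProductSubgroup 2 n₂ e P ⊓ Cfsg.Geo.omegaGL Q < K ∧ K < Cfsg.Geo.omegaGL Q := by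
  obtain ⟨Q, rfl, _⟩ := H10.exists_ofQuad hQ
  have s1 := H10.As.sf_of_symp hf₁
  obtain ⟨c, hc, h⟩ := H24.NM.tau_form (σ := .id F) s1.toSq (H10.As.sf_of_symp hf₂).toSq hT
  obtain ⟨ψ, _, h1, h3⟩ := H10.exists_ofAlt hf₂
  have h01 : ∀ a : F, a ≠ 0 → a = 1 := fun a h => by
    simpa [hq] using FiniteField.pow_card_sub_one_eq_one a h
  have h2' : (2 : F) = 0 := by simpa [hq] using FiniteField.cast_card_eq_zero F
  have h4 : ∀ x y, f₁ x y = (x 0 * y 1 - x 1 * y 0) * f₁ (Pi.single 0 1) (Pi.single 1 1) := fun x y => by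
    conv_lhs => rw [s1.eq_gram]
    simp [Geo.formOfGram, Geo.gramMatrix, hf₁.alternating, hf₁.skew (Pi.single 1 1)]; ring
  have h5 := h01 (f₁ (Pi.single 0 1) (Pi.single 1 1)) fun h0 => by
    obtain ⟨x, hx⟩ := (hf₁.4 1 one_ne_zero).1
    exact hx (by rw [h4, h0, mul_zero])
  rw [H10.omegaGL_eq_E Q (by simp; omega)]
  refine (H24.NM.btw_sp2 (H10.Form.isQuad_ofQuad Q) (by simpa) (τ := H24.NM.tau e P) h1 (fun x y x' y' => ?_) hpure
    H24.NM.pt_tau (by simp; omega)).map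
  rw [H10.Form.ofQuad_B, h, h01 c hc, h4, h5, h3, hf₂.skew y']
  linear_combination (x 0 * x' 1) * f₂ y y' * h2'

end Cfsg.Agent.S5705
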