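import Mathlib
import Cfsg.Statements.S5778
import Cfsg.Agent.H16.Su3h

set_option autoImplicit false
open Cfsg

namespace Cfsg.Agent.S5778

/-- Every maximal subgroup of SU_3(q), q ≥ 3, is of one of the listed geometric types or lies in the residual class. Let F be the field with q² elements, f the standard unitary form Σ u_i v_i^q on F^3, and H a maximal subgroup of SU_3(q) (the determinant-one isometries of f, inside GL_3(F)). Then H is the intersection with SU_3(q) of one of: the stabiliser of a non-zero subspace on which f vanishes; the stabiliser of a non-degenerate 1-space; for q ≠ 5, the stabiliser of a decomposition into three mutually orthogonal non-degenerate 1-spaces; for q ≠ 3, 5, the normaliser of an adjoint-closed degree-3 subfield of the matrix algebra; a subfield group of odd prime index whose F₀-structure carries f; for q odd, q ≥ 7, a subfield group of index 2 whose F₀-structure carries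 f; for q = p ≡ 2 mod 3 prime with p ≥ 11, the normaliser of an absolutely irreducible subgroup of order 27 with centre of order 3, exponent 3 and all characteristic abelian subgroups cyclic, contained in the similarity group of f — or else H lies in the residual class of the unitary case. -/
theorem result {F : Type*} [Field F] [Fintype F] (q : ℕ) (hF : Fintype.card F = q ^ 2) (hq : 3 ≤ q) (H : Subgroup (Matrix.GeneralLinearGroup (Fin 3) F)) (hH : Cfsg.Geo.IsMaximalIn (Cfsg.GU 3 F q ⊓ Cfsg.Geo.specialLinear (Fin 3) F) H) :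
    (∃ W : Submodule F (Fin 3 → F), W ≠ ⊥ ∧ Cfsg.Geo.IsTotallySingularFor (Cfsg.hermForm 3 F q) W ∧ H = Cfsg.Geo.subspaceStabilizer W ⊓ (Cfsg.GU 3 F q ⊓ Cfsg.Geo.specialLinear (Fin 3) F)) ∨
    (∃ W : Submodule F (Fin 3 → F), W ≠ ⊥ ∧ Cfsg.Geo.IsNondegenerateOn (Cfsg.hermForm 3 F q) W ∧ 2 * Module.finrank F W < 3 ∧ H = Cfsg.Geo.subspaceStabilizer W ⊓ (Cfsg.GU 3 F q ⊓ Cfsg.Geo.specialLinear (Fin 3) F)) ∨
    (q ≠ 5 ∧ ∃ D : Fin 3 → Submodule F (Fin 3 → F), Cfsg.Geo.IsNondegenerateMDecomposition (Cfsg.hermForm 3 F q) 1 D ∧ H = Cfsg.Geo.decompositionStabilizer D ⊓ (Cfsg.GU 3 F q ⊓ Cfsg.Geo.specialLinear (Fin 3) F)) ∨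
    (q ≠ 3 ∧ q ≠ 5 ∧ ∃ K : Subalgebra F (Matrix (Fin 3) (Fin 3) F), Cfsg.Geo.IsFieldSubalgebra 3 K ∧ Cfsg.Geo.IsAdjointClosedFor (Cfsg.hermForm 3 F q) K ∧ H = Cfsg.Geo.subalgebraNormalizer K ⊓ (Cfsg.GU 3 F q ⊓ Cfsg.Geo.specialLinear (Fin 3) F)) ∨
    (∃ (F₀ : Subfield F) (r : ℕ) (P : Matrix.GeneralLinearGroup (Fin 3) F), r.Prime ∧ Odd r ∧ Fintype.card F = Nat.card F₀ ^ r ∧ Cfsg.Geo.IsFormRationalStructure (Cfsg.hermForm 3 F q) F₀ 1 P ∧ H = Cfsg.Geo.subfieldSubgroup F₀ P ⊓ (Cfsg.GU 3 F q ⊓ Cfsg.Geo.specialLinear (Fin 3) F)) ∨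
    (Odd q ∧ 7 ≤ q ∧ ∃ (F₀ : Subfield F) (P : Matrix.GeneralLinearGroup (Fin 3) F), Fintype.card F = Nat.card F₀ ^ 2 ∧ Cfsg.Geo.IsFormRationalStructure (Cfsg.hermForm 3 F q) F₀ 1 P ∧ H = Cfsg.Geo.subfieldSubgroup F₀ P ⊓ (Cfsg.GU 3 F q ⊓ Cfsg.Geo.specialLinear (Fin 3) F)) ∨
    (∃ (p : ℕ) (R : Subgroup (Matrix.GeneralLinearGroup (Fin 3) F)), p.Prime ∧ q = p ∧ p % 3 = 2 ∧ 11 ≤ p ∧ Cfsg.Geo.IsSymplecticTypeGroup 3 R ∧ Cfsg.Geo.ActsAbsolutelyIrreducibly (Cfsg.Geo.matrixSet R) ∧ R ≤ Cfsg.Geo.similarityGroup (Cfsg.hermForm 3 F q) ∧ Nat.card R = 27 ∧ Nat.card (Subgroup.center R) = 3 ∧ H = Cfsg.Geo.subgroupNormalizer R ⊓ (Cfsg.GU 3 F q ⊓ Cfsg.Geo.specialLinear (Fin 3) F)) ∨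
    Cfsg.Geo.InUnitaryResidualClass H := by
  have hF' : Nat.card F = q ^ 2 := by rwa [Nat.card_eq_fintype_card]
  rcases H10.As.su_max hF' (by decide) (by omega) hH (by decide) with h | h | ⟨m, h1, h2, h3, -, h⟩ | ⟨h1, -, h⟩ |
    ⟨r, h1, h2, h3, -, h⟩ | ⟨m, h1, h2, h3, h4, h⟩ | ⟨h1, h⟩ | ⟨r, z, p, R, h1, h2, h3, h4, h5, h6, h7, h8, h9, h⟩ | ⟨h1, h⟩ | h
  · exact .inl h
  · exact .inr (.inl h)
  · obtain rfl : m = 1 := by interval_cases m <;> omega
    exact .inr (.inr (.inl ⟨fun hq => h.elim fun D h => H16.Su3.frame25 hF' hq hH h.1 (h.2.le.trans inf_le_left), h⟩))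
  · omega
  · have := Nat.le_of_dvd (by decide) h1
    obtain rfl : r = 3 := by
      interval_cases r <;> first | omega | exact absurd h2 (by decide)
    have : ¬ (q = 3 ∨ q = 5) := fun hq => h.elim fun K h =>
      H16.Su3.fld35 hF' h.1 h.2.1 (h.2.2.le.trans inf_le_left) hq hH
    exact .inr (.inr (.inr (.inl ⟨by omega, by omega, h⟩)))
  · have := Nat.le_of_dvd (by decide) h1
    interval_cases m <;> omega
  · rcases H10.As.su_sub hF' (by decide) (by omega) hH h1 h with h | ⟨h1, h⟩ | ⟨h1, h⟩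
    · exact .inr (.inr (.inr (.inr (.inl h))))
    · omega
    · have : ¬ (q = 3 ∨ q = 5) := fun hq => h.elim fun L h => h.elim fun P h =>
        H16.Su3.so3 hF' hq hH h.1 h.2.1 (h.2.2.le.trans inf_le_left)
      refine .inr (.inr (.inr (.inr (.inr (.inl ⟨h1, ?_, h⟩)))))
      obtain ⟨k, rfl⟩ := h1
      omega
  · rcases h1 with ⟨a, rfl, rfl, b⟩ | ⟨a, rfl, rfl, b⟩ | ⟨a, rfl, rfl, b⟩ | ⟨a, rfl, rfl, b⟩ | ⟨a, rfl, rfl, b⟩ <;>
      first | omega | skip
    have h5' : q ≠ 5 := fun hq => H16.Su3.extra25 hF' hq hH h4 h5 h8 h9 (h7 (by decide)) (h.le.trans inf_le_left)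
    refine .inr (.inr (.inr (.inr (.inr (.inr (.inl ⟨p, R, h2, b.1, b.2, ?_, h4, h5, h6, h8, h9, h⟩))))))
    have : p ≠ 8 := by rintro rfl; exact absurd h2 (by decide)
    omega
  · omega
  · exact .inr (.inr (.inr (.inr (.inr (.inr (.inr h))))))

end Cfsg.Agent.S5778
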