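import Mathlib
import Cfsg.Agent.H10.AsZ
import Cfsg.Statements.S5787

set_option autoImplicit false
open Cfsg

namespace Cfsg.Agent.S5787

/-- Every maximal subgroup of Sp_4(q), q odd, is of one of the listed geometric types or lies in the residual class. Let F be a finite field of odd order q, f the standard alternating form on F^4 (coordinates Fin 2 ⊕ Fin 2), and H a maximal subgroup of the isometry group Sp_4(F) (inside GL_4(F)). Then H is the intersection with Sp_4(F) of one of: the stabiliser of a non-zero totally isotropic subspace; the stabiliser of a decomposition into two orthogonal non-degenerate 2-spaces; for q ≥ 5, of a decomposition into two totally isotropic 2-spaces; the normaliser of a degree-2 subfield K of the matrix algebra, self-adjoint with f(k v, v) = 0; for q ≥ 5, the normaliser of a degree-2 subfield closed under adjoints but not self-adjoint; a subfield group whose F₀-structure carries a non-zero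 multiple of f, |F| = |F₀|^r with r prime; for q = p prime, the normaliser of an absolutely irreducible symplectic-type 2-group of exponent 4, order 32, centre of order 2 and minus type inside the similarity group of f — or else H lies in the residual class of the symplectic case. -/
theorem result {F : Type*} [Field F] [Fintype F] (hodd : Odd (Fintype.card F)) (H : Subgroup (Matrix.GeneralLinearGroup (Fin 2 ⊕ Fin 2) F)) (hH : Cfsg.Geo.IsMaximalIn (Cfsg.spGL 2 F) H) :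
    (∃ W : Submodule F (Fin 2 ⊕ Fin 2 → F), W ≠ ⊥ ∧ Cfsg.Geo.IsTotallySingularFor (Cfsg.sympForm 2 F) W ∧ H = Cfsg.Geo.subspaceStabilizer W ⊓ Cfsg.spGL 2 F) ∨
    (∃ D : Fin 2 → Submodule F (Fin 2 ⊕ Fin 2 → F), Cfsg.Geo.IsNondegenerateMDecomposition (Cfsg.sympForm 2 F) 2 D ∧ H = Cfsg.Geo.decompositionStabilizer D ⊓ Cfsg.spGL 2 F) ∨
    (5 ≤ Fintype.card F ∧ ∃ D : Fin 2 → Submodule F (Fin 2 ⊕ Fin 2 → F), Cfsg.Geo.IsMDecomposition 2 D ∧ (∀ i, Cfsg.Geo.IsTotallySingularFor (Cfsg.sympForm 2 F) (D i)) ∧ H = Cfsg.Geo.decompositionStabilizer D ⊓ Cfsg.spGL 2 F) ∨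
    (∃ K : Subalgebra F (Matrix (Fin 2 ⊕ Fin 2) (Fin 2 ⊕ Fin 2) F), Cfsg.Geo.IsFieldSubalgebra 2 K ∧ Cfsg.Geo.IsSelfAdjointFor (Cfsg.sympForm 2 F) K ∧ (∀ k ∈ K, ∀ v : (Fin 2 ⊕ Fin 2 → F), (Cfsg.sympForm 2 F) (Matrix.mulVec k v) v = 0) ∧ H = Cfsg.Geo.subalgebraNormalizer K ⊓ Cfsg.spGL 2 F) ∨
    (5 ≤ Fintype.card F ∧ ∃ K : Subalgebra F (Matrix (Fin 2 ⊕ Fin 2) (Fin 2 ⊕ Fin 2) F), Cfsg.Geo.IsFieldSubalgebra 2 K ∧ Cfsg.Geo.IsAdjointClosedFor (Cfsg.sympForm 2 F) K ∧ ¬ Cfsg.Geo.IsSelfAdjointFor (Cfsg.sympForm 2 F) K ∧ H = Cfsg.Geo.subalgebraNormalizer K ⊓ Cfsg.spGL 2 F) ∨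
    (∃ (F₀ : Subfield F) (r : ℕ) (P : Matrix.GeneralLinearGroup (Fin 2 ⊕ Fin 2) F) (ζ : F), r.Prime ∧ Fintype.card F = Nat.card F₀ ^ r ∧ ζ ≠ 0 ∧ Cfsg.Geo.IsFormRationalStructure (Cfsg.sympForm 2 F) F₀ ζ P ∧ H = Cfsg.Geo.subfieldSubgroup F₀ P ⊓ Cfsg.spGL 2 F) ∨
    (∃ (p : ℕ) (R : Subgroup (Matrix.GeneralLinearGroup (Fin 2 ⊕ Fin 2) F)), p.Prime ∧ Fintype.card F = p ∧ Cfsg.Geo.IsSymplecticTypeGroup 2 R ∧ Cfsg.Geo.ActsAbsolutelyIrreducibly (Cfsg.Geo.matrixSet R) ∧ R ≤ Cfsg.Geo.similarityGroup (Cfsg.sympForm 2 F) ∧ Nat.card R = 32 ∧ Nat.card (Subgroup.center R) = 2 ∧ Cfsg.Geo.IsOfMinusType 2 R ∧ H = Cfsg.Geo.subgroupNormalizer R ⊓ Cfsg.spGL 2 F) ∨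
    Cfsg.Geo.InSymplecticResidualClass H := by
  have hx : ¬ (2 = 2 ∧ Fintype.card F = 2) := fun h => absurd (h.2 ▸ hodd) (by decide)
  have h3 : ¬ 5 ≤ Fintype.card F → Fintype.card F = 3 := fun h => by
    have := Fintype.one_lt_card (α := F); obtain ⟨k, hk⟩ := hodd; omega
  rcases H10.As.sp_max (by decide) hx hH (by decide) with h | ⟨h1, h⟩ | ⟨k, h1, h2, h3, h4, h⟩ | ⟨h1, h⟩ |
    ⟨r, h1, h2, h⟩ | ⟨h1, h⟩ | ⟨h0, k, h1, h2, h3, h4, e, P, f₁, f₂, h5, h6, h7, h, -⟩ | h | ⟨k, R, h1, h2, -, h⟩ | ⟨h1, h⟩ |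
    ⟨h1, h⟩ | h
  · exact .inl h
  · omega
  · interval_cases k <;> first | omega | repeat first | exact .inl h | right
  · by_cases hq : 5 ≤ Fintype.card F
    · repeat first | exact .inl ⟨hq, h⟩ | right
    obtain ⟨D, a, b, c⟩ := h
    obtain ⟨D, d, e⟩ := H10.As.sp4_ts (h3 hq) (H10.As.sf_of_symp H10.As.symp_sp) (H10.As.sp_sim hH.1.le) a b
      (c.le.trans inf_le_left)
    exact .inr (.inl ⟨D, d, H10.As.max_eq hH e (H10.As.sp_not_dec (by decide) hx d)⟩)
  · have := Nat.le_of_dvd (by decide) h1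
    interval_cases r <;> first | omega | exact absurd h2 (by decide) | repeat first | exact .inl h | right
  · by_cases hq : 5 ≤ Fintype.card F
    · repeat first | exact .inl ⟨hq, h⟩ | right
    obtain ⟨K, a, b, c, d⟩ := h
    exact (H10.As.sp4_gu (h3 hq) rfl H10.As.symp_sp hH (fun g => ⟨fun h u v => (h u v).trans (one_mul _).symm,
      fun h u v => (h u v).trans (one_mul _)⟩) a b c (d.le.trans inf_le_left)).elim
  · have := Nat.le_of_dvd (by decide) h1
    interval_cases k <;> omega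
  · repeat first | exact .inl h | right
  · have := (Nat.lt_two_pow_self (n := k)).trans_eq h1.symm
    interval_cases k <;> first | omega | repeat first | exact .inl ⟨_, R, h2, rfl, h⟩ | right
  · omega
  · exact absurd hodd h1
  · repeat first | exact h | right

end Cfsg.Agent.S5787
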