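import Mathlib
import Cfsg.Agent.H10.AsEv
import Cfsg.Statements.S5826

set_option autoImplicit false
open Cfsg

namespace Cfsg.Agent.S5826

/-- Every maximal subgroup of Ω_8^-(q) is of one of the listed geometric types or lies in the residual class. Let F be a finite field with q elements, Q a non-degenerate quadratic form on F^8 of minus type (no totally singular 4-space), Ω the commutator subgroup of its isometry group, and H a maximal subgroup of Ω (inside GL_8(F)). Then H is the intersection with Ω of one of: the stabiliser of a non-zero totally singular subspace; for q odd, the stabiliser of a non-degenerate subspace of odd dimension; the stabiliser of a non-degenerate 2-space of minus type; for q ≥ 4, the stabiliser of a non-degenerate 2-space of plus type; the stabiliser of a non-degenerate 4-space; for q even, the stabiliser of the span of a non-singular vector; the normaliser of a degree-2 subfield of the matrix algebra; a subfield group of odd prime index whose F₀-structure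 carries a non-zero multiple of Q — or else H lies in the residual class of the orthogonal case (modulo scalars H is almost simple, with absolutely irreducible perfect socle preimage realisable over no proper subfield and fixing no non-degenerate unitary form). -/
theorem result {F : Type*} [Field F] [Fintype F] (Q : (Fin 8 → F) → F) (hQ : Cfsg.Geo.IsNondegenerateQuadraticForm Q) (hminus : ¬ Cfsg.Geo.IsPlusTypeOn Q ⊤) (H : Subgroup (Matrix.GeneralLinearGroup (Fin 8) F)) (hH : Cfsg.Geo.IsMaximalIn (Cfsg.Geo.omegaGL Q) H) :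
    (∃ W : Submodule F (Fin 8 → F), W ≠ ⊥ ∧ Cfsg.Geo.IsTotallySingularQuad Q W ∧ H = Cfsg.Geo.subspaceStabilizer W ⊓ Cfsg.Geo.omegaGL Q) ∨
    (Odd (Fintype.card F) ∧ ∃ W : Submodule F (Fin 8 → F), W ≠ ⊥ ∧ W ≠ ⊤ ∧ Odd (Module.finrank F W) ∧ Cfsg.Geo.IsNondegenerateOn (QuadraticMap.polar Q) W ∧ H = Cfsg.Geo.subspaceStabilizer W ⊓ Cfsg.Geo.omegaGL Q) ∨
    (∃ W : Submodule F (Fin 8 → F), Module.finrank F W = 2 ∧ Cfsg.Geo.IsNondegenerateOn (QuadraticMap.polar Q) W ∧ ¬ Cfsg.Geo.IsPlusTypeOn Q W ∧ H = Cfsg.Geo.subspaceStabilizer W ⊓ Cfsg.Geo.omegaGL Q) ∨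
    (4 ≤ Fintype.card F ∧ ∃ W : Submodule F (Fin 8 → F), Module.finrank F W = 2 ∧ Cfsg.Geo.IsNondegenerateOn (QuadraticMap.polar Q) W ∧ Cfsg.Geo.IsPlusTypeOn Q W ∧ H = Cfsg.Geo.subspaceStabilizer W ⊓ Cfsg.Geo.omegaGL Q) ∨
    (∃ W : Submodule F (Fin 8 → F), Module.finrank F W = 4 ∧ Cfsg.Geo.IsNondegenerateOn (QuadraticMap.polar Q) W ∧ H = Cfsg.Geo.subspaceStabilizer W ⊓ Cfsg.Geo.omegaGL Q) ∨
    (¬ Odd (Fintype.card F) ∧ ∃ v : (Fin 8 → F), Q v ≠ 0 ∧ H = Cfsg.Geo.subspaceStabilizer (Submodule.span F {v}) ⊓ Cfsg.Geo.omegaGL Q) ∨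
    (∃ K : Subalgebra F (Matrix (Fin 8) (Fin 8) F), Cfsg.Geo.IsFieldSubalgebra 2 K ∧ H = Cfsg.Geo.subalgebraNormalizer K ⊓ Cfsg.Geo.omegaGL Q) ∨
    (∃ (F₀ : Subfield F) (r : ℕ) (P : Matrix.GeneralLinearGroup (Fin 8) F) (ζ : F), r.Prime ∧ Odd r ∧ Fintype.card F = Nat.card F₀ ^ r ∧ ζ ≠ 0 ∧ Cfsg.Geo.IsQuadFormRationalStructure (fun v : Fin 8 → F => ζ * Q v) F₀ P ∧ H = Cfsg.Geo.subfieldSubgroup F₀ P ⊓ Cfsg.Geo.omegaGL Q) ∨
    Cfsg.Geo.InOrthogonalResidualClass H := by
  have hn : Fintype.card (Fin 8) = 2 * 4 := rfl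
  have hq := Fintype.one_lt_card (α := F)
  have h4 : Odd (Fintype.card F) → Fintype.card F % 4 = 1 ∧ Fintype.card F ^ 4 % 4 = 1 ∨
      Fintype.card F % 4 = 3 ∧ Fintype.card F ^ 4 % 4 = 1 := fun ⟨_, h⟩ =>
    (by omega : _ ∨ _).imp (fun h => ⟨h, by rw [Nat.pow_mod, h]⟩) fun h => ⟨h, by rw [Nat.pow_mod, h]⟩
  rcases H10.As.irr_or (H := H) with hI | h
  swap
  · rcases H10.As.ev_red hQ hn (by decide) hH (by decide) h with ⟨W, a, b, c, d⟩ | h | h | h | h | ⟨a, b, h⟩ | h | ⟨a, b, c, h⟩
    · first | exact .inl ⟨W, a, b, d⟩ | exact .inl ⟨W, a, b, by have := c hminus; omega, d⟩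
    · first | exact .inr (.inl h) | (obtain ⟨a, W, b, c, d, -, e⟩ := h; exact .inr (.inl ⟨a, W, b, c, d, e⟩))
    · repeat first | exact .inl h | right
    · repeat first | exact .inl h | right
    · repeat first | exact .inl h | right
    · first | omega | contradiction | repeat first | exact .inl h | right
    · repeat first | exact .inl h | right
    · simp only [hminus, true_iff, false_iff] at c
      have := h4 b
      first | exact absurd a (by decide) | repeat first | exact .inl ⟨by omega, h⟩ | right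
  rcases H10.As.ev_max hQ hn (by decide) hH hI (by decide) (by simp [hminus]) with ⟨k, k1, k2, D, a, b, c, d1, d2, d3, d4, h⟩ |
    ⟨a, b, h⟩ | ⟨K, a, ⟨b, c⟩ | ⟨b, c, d, e⟩, h⟩ | ⟨a, h⟩ | ⟨a, b, c, h⟩ | ⟨a, b, h⟩ | ⟨L, r, P, ζ, a, b, h⟩ | h
  · simp only [hminus, true_iff, false_iff] at b c
    have i : Fin (2 * 4 / k) := ⟨0, by have := a.1.1.two_le; omega⟩
    have j : (∀ i, Geo.IsPlusTypeOn Q (D i)) ∨ ∀ i, ¬ Geo.IsPlusTypeOn Q (D i) :=
      (em _).imp (fun h j => H10.As.isometric_plus (a.2 i j) h) fun h j => mt (H10.As.isometric_plus (a.2 j i)) h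
    obtain ho | ho := Nat.even_or_odd k
    · obtain ⟨c, c'⟩ := c ho
      interval_cases k <;> first | omega | exact absurd ho (by decide) | exact (c (by decide)).elim | repeat first
        | exact .inl ⟨D, a, h⟩ | exact .inl ⟨D, a, c' (by decide), h⟩ | exact .inl ⟨(d2 rfl).1, D, a, h⟩
        | exact .inl ⟨(d2 rfl).2 i (c' (by decide) i), D, a, h⟩
        | exact .inl ⟨by have := d4 rfl i (c' (by decide) i); omega, D, a, h⟩
        | exact j.elim (fun j => .inl ⟨(d2 rfl).2 i (j i), D, a, j, h⟩) fun j => .inr (.inl ⟨(d2 rfl).1, D, a, j, h⟩) | right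
    · obtain ⟨b0, b'⟩ := b ho
      have := h4 b0
      interval_cases k <;> first | omega | exact absurd ho (by decide) | repeat first
        | exact .inl ⟨by omega, D, a, h⟩ | exact .inl ⟨⟨_, d1 rfl, rfl, by omega⟩, D, a, h⟩
        | exact .inl ⟨⟨_, d1 rfl, b0, rfl⟩, D, a, h⟩ | exact .inl ⟨b0, by have := d3 rfl; omega, D, a, h⟩ | right
  · first | contradiction | exact absurd b (by decide) | repeat first | exact .inl h | right
  · repeat first | exact .inl ⟨K, a, h⟩ | exact .inl ⟨c (by decide), K, a, b, h⟩ | right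
  · first | exact absurd (e hminus) (by decide) | repeat first | exact .inl ⟨K, a, h⟩ | exact .inl ⟨K, a, b, c, d, h⟩ | right
  · first | omega | repeat first | exact .inl h | right
  · first | contradiction | exact absurd c (by decide) | repeat first | exact .inl ⟨b, h⟩ | right
  · first | omega | contradiction | repeat first | exact .inl h | right
  · repeat first | exact .inl ⟨L, r, P, ζ, a, h⟩ | exact .inl ⟨L, r, P, ζ, a, b.resolve_left hminus, h⟩ | right
  · repeat first | exact h | right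

end Cfsg.Agent.S5826
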