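import Mathlib
import Cfsg.Statements.S5876

set_option autoImplicit false
open Cfsg

namespace Cfsg.Agent.S5876

open Subgroup
open scoped commutatorElement

theorem partA {Γ : Type*} [Group Γ] [Finite Γ] [Group.IsSolvable Γ] (c : Γ → ℕ)
    (hc : ∀ x y, c ⁅x, y⁆ ≤ 2 * c x) (g : Γ) (hg : g ≠ 1) :
    ∃ A : Subgroup Γ, A.Normal ∧ A ≤ centralizer (A : Set Γ) ∧ ∃ a ∈ A, a ≠ 1 ∧ c a ≤ 4 * c g := by
  obtain ⟨B, ⟨hBn, hB⟩, hmax⟩ := exists_maximal_of_wellFoundedGT
    (fun B : Subgroup Γ => B.Normal ∧ ⁅B, B⁆ ≤ centralizer (B : Set Γ)) ⟨⊥, inferInstance, by simp⟩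
  have hCB : centralizer (B : Set Γ) ≤ B := by
    by_contra hcon
    obtain ⟨E, ⟨hEn, hE, hEB⟩, hmin⟩ := exists_minimal_of_wellFoundedLT
      (fun E : Subgroup Γ => E.Normal ∧ E ≤ centralizer (B : Set Γ) ∧ ¬ E ≤ B) ⟨_, inferInstance, le_rfl, hcon⟩
    have h0 : E ≠ ⊥ := fun h => hEB (h ▸ bot_le)
    have hlt : ⁅E, E⁆ < E := Group.IsSolvable.commutator_lt_of_ne_bot h0
    have h1 : ⁅E, E⁆ ≤ B := by
      by_contra h
      exact hlt.ne (le_antisymm hlt.le (hmin ⟨inferInstance, hlt.le.trans hE, h⟩ hlt.le))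
    have hZ : B ⊓ centralizer (B : Set Γ) ≤ centralizer ((B ⊔ E : Subgroup Γ) : Set Γ) := by
      rw [le_centralizer_iff, sup_le_iff]
      exact ⟨le_centralizer_iff.1 inf_le_right, hE.trans (centralizer_le inf_le_left)⟩
    refine hEB (le_sup_right.trans (hmax (y := B ⊔ E) ⟨inferInstance, le_trans ?_ hZ⟩ le_sup_left))
    rw [commutator_le]
    intro x hx y hy
    obtain ⟨b, hb, e, he, rfl⟩ := (mem_sup_of_normal_right).1 hx
    obtain ⟨b', hb', e', he', rfl⟩ := (mem_sup_of_normal_right).1 hy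
    have h2 : ⁅b * e, b' * e'⁆ = ⁅b, b'⁆ * ⁅e, e'⁆ := by
      have c1 : Commute b e := hE he b hb
      have c2 : Commute b e' := hE he' b hb
      have c3 : Commute b' e := hE he b' hb'
      have c4 : Commute b' e' := hE he' b' hb'
      have c5 : Commute ⁅b, b'⁆ e' := hE he' _ (commutator_le_self B (commutator_mem_commutator hb hb'))
      have c6 : Commute ⁅b, b'⁆ e := hE he _ (commutator_le_self B (commutator_mem_commutator hb hb'))
      calc ⁅b * e, b' * e'⁆ = b * (e * b') * e' * (b * e)⁻¹ * (b' * e')⁻¹ := by simp [commutatorElement_def, mul_assoc]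
        _ = b * (b' * e) * e' * (e * b)⁻¹ * (e' * b')⁻¹ := by rw [c1.eq, c3.eq, c4.eq]
        _ = (b * b') * ((e * e') * b⁻¹) * (e⁻¹ * b'⁻¹) * e'⁻¹ := by group
        _ = (b * b') * (b⁻¹ * (e * e')) * (b'⁻¹ * e⁻¹) * e'⁻¹ := by
          rw [(c1.mul_right c2).inv_left.eq, c3.inv_inv.eq]
        _ = (b * b' * b⁻¹) * ((e * e') * b'⁻¹) * e⁻¹ * e'⁻¹ := by group
        _ = (b * b' * b⁻¹) * (b'⁻¹ * (e * e')) * e⁻¹ * e'⁻¹ := by rw [(c3.mul_right c4).inv_left.eq]
        _ = _ := by simp [commutatorElement_def, mul_assoc]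
    rw [h2]
    have h3 := commutator_mem_commutator hb hb'
    have h4 := commutator_mem_commutator he he'
    exact mul_mem (mem_inf.2 ⟨commutator_le_self B h3, hB h3⟩) (mem_inf.2 ⟨h1 h4, hE (hlt.le h4)⟩)
  refine ⟨centralizer (B : Set Γ), inferInstance, centralizer_le hCB, ?_⟩
  have key : ∀ x, x ∉ centralizer (B : Set Γ) → ∃ h ∈ B, ⁅x, h⁆ ≠ 1 := fun x hx => by
    by_contra hcon
    push Not at hcon
    exact hx fun h hh => (commutatorElement_eq_one_iff_mul_comm.1 (hcon h hh)).symm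
  by_cases h1 : g ∈ centralizer (B : Set Γ)
  · exact ⟨g, h1, hg, by omega⟩
  obtain ⟨h, hh, hgh⟩ := key g h1
  by_cases h2 : ⁅g, h⁆ ∈ centralizer (B : Set Γ)
  · exact ⟨_, h2, hgh, by have := hc g h; omega⟩
  obtain ⟨k, hk, hghk⟩ := key _ h2
  refine ⟨_, hB (commutator_mem_commutator ?_ hk), hghk, by have := hc g h; have := hc ⁅g, h⁆ k; omega⟩
  exact commutator_le_right ⊤ B (commutator_mem_commutator (mem_top g) hh)

section
variable {F V Γ : Type*} [Field F] [AddCommGroup V] [Module F V] [Group Γ] (ρ : Representation F Γ V)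

def fx (K : Subgroup Γ) : Submodule F V where
  carrier := {v | ∀ a ∈ K, ρ a v = v}
  add_mem' := fun h1 h2 a ha => by rw [map_add, h1 a ha, h2 a ha]
  zero_mem' := fun a _ => map_zero _
  smul_mem' := fun c v h a ha => by rw [map_smul, h a ha]

theorem fx_map (K : Subgroup Γ) (g : Γ) : (fx ρ K).map (ρ g) = fx ρ (K.map (MulAut.conj g).toMonoidHom) := by
  ext v
  constructor
  · rintro ⟨w, hw, rfl⟩ _ ⟨a, ha, rfl⟩
    change ρ (g * a * g⁻¹) (ρ g w) = _
    rw [← Module.End.mul_apply, ← map_mul, inv_mul_cancel_right, map_mul, Module.End.mul_apply, hw a ha]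
  · intro hv
    refine ⟨ρ g⁻¹ v, fun a ha => ?_, by rw [← Module.End.mul_apply, ← map_mul]; simp⟩
    have := hv _ ⟨a, ha, rfl⟩
    change ρ (g * a * g⁻¹) v = v at this
    conv_rhs => rw [← this]
    simp only [← Module.End.mul_apply, ← map_mul]
    congr 2; group

theorem partB [Finite Γ] [FiniteDimensional F V] (hf : Function.Injective ρ)
    (hirr : ∀ W : Submodule F V, (∀ g, W.map (ρ g) ≤ W) → W = ⊥ ∨ W = ⊤)
    (hprim : ∀ (m t : ℕ) (D : Fin t → Submodule F V), 2 ≤ t → 0 < m → (∀ i, Module.finrank F (D i) = m) →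
      iSupIndep D → iSup D = ⊤ → ¬ ∀ g, ∃ σ : Equiv.Perm (Fin t), ∀ i, (D i).map (ρ g) = D (σ i))
    (A : Subgroup Γ) [hA : A.Normal] (hab : A ≤ centralizer (A : Set Γ)) (a : Γ) (ha : a ∈ A) (ha1 : a ≠ 1)
    (v : V) (hv : ρ a v = v) : v = 0 := by
  classical
  by_contra hv0
  have hfa : fx ρ (zpowers a) ≠ ⊥ := by
    refine (Submodule.ne_bot_iff _).2 ⟨v, ?_, hv0⟩
    intro b hb
    have : zpowers a ≤ (MulAction.stabilizer (Module.End F V)ˣ v).comap ρ.toHomUnits := zpowers_le.2 hv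
    exact this hb
  obtain ⟨K, ⟨hKA, hK0⟩, hmax⟩ := (Set.toFinite {K : Subgroup Γ | K ≤ A ∧ fx ρ K ≠ ⊥}).exists_maximalFor
    (fun K : Subgroup Γ => Nat.card K) _ ⟨zpowers a, zpowers_le.2 ha, hfa⟩
  have hmax' : ∀ L ≤ A, fx ρ L ≠ ⊥ → Nat.card L ≤ Nat.card K := fun L h1 h2 => by
    by_contra h; exact h (hmax ⟨h1, h2⟩ (not_le.1 h).le)
  let S : Set (Subgroup Γ) := Set.range fun g : Γ => K.map (MulAut.conj g).toMonoidHom
  have hcj : ∀ (g : Γ) (L : Subgroup Γ), L ∈ S → L.map (MulAut.conj g).toMonoidHom ∈ S := by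
    rintro g _ ⟨h, rfl⟩
    exact ⟨g * h, by rw [Subgroup.map_map]; congr 1; ext x; simp [mul_assoc]⟩
  have hKS : K ∈ S := ⟨1, by ext x; simp⟩
  have hrk : ∀ L ∈ S, Module.finrank F (fx ρ L) = Module.finrank F (fx ρ K) := by
    rintro _ ⟨g, rfl⟩
    rw [← fx_map]
    exact (LinearEquiv.finrank_map_eq (LinearMap.GeneralLinearGroup.toLinearEquiv (ρ.toHomUnits g)) _)
  have hSA : ∀ L ∈ S, L ≤ A := by
    rintro _ ⟨g, rfl⟩ _ ⟨x, hx, rfl⟩
    exact hA.conj_mem x (hKA hx) g
  have hSc : ∀ L ∈ S, Nat.card L = Nat.card K := by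
    rintro _ ⟨g, rfl⟩
    exact card_map_of_injective (MulAut.conj g).injective
  have hinv : ∀ L ∈ S, ∀ b ∈ A, ∀ w ∈ fx ρ L, ρ b w ∈ fx ρ L := fun L hL b hb w hw x hx => by
    rw [← Module.End.mul_apply, ← map_mul, hab hb x (hSA L hL hx), map_mul, Module.End.mul_apply, hw x hx]
  have : Fintype S := Fintype.ofFinite S
  let e := (Fintype.equivFin S).symm
  have hpos : 0 < Module.finrank F (fx ρ K) := Nat.pos_of_ne_zero fun h => hK0 (Submodule.finrank_eq_zero.1 h)
  have hσ : ∀ g, ∃ σ : Equiv.Perm (Fin (Fintype.card S)), ∀ i, (fx ρ (e i : Subgroup Γ)).map (ρ g) =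
      fx ρ (e (σ i) : Subgroup Γ) := by
    intro g
    let f : S → S := fun L => ⟨_, hcj g L L.2⟩
    have hfi : Function.Injective f := fun L L' h =>
      Subtype.ext (map_injective (MulAut.conj g).injective (congrArg Subtype.val h))
    refine ⟨e.trans ((Equiv.ofBijective f (Finite.injective_iff_bijective.1 hfi)).trans e.symm), fun i => ?_⟩
    rw [fx_map]; simp [f]
  have htop : ⨆ i, fx ρ (e i : Subgroup Γ) = ⊤ := by
    refine (hirr _ fun g => ?_).resolve_left fun h => hK0 ?_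
    · obtain ⟨σ, hσ⟩ := hσ g
      rw [Submodule.map_iSup]
      exact iSup_le fun i => by rw [hσ]; exact le_iSup (fun i => fx ρ (e i : Subgroup Γ)) _
    · rw [eq_bot_iff, ← h]
      have := le_iSup (fun i => fx ρ (e i : Subgroup Γ)) (e.symm ⟨K, hKS⟩)
      simpa using this
  by_cases ht : 2 ≤ Fintype.card S
  · refine hprim _ _ (fun i => fx ρ (e i : Subgroup Γ)) ht hpos (fun i => hrk _ (e i).2) ?_ htop hσ
    have hind : ∀ i (s : Finset (Fin (Fintype.card S))), i ∉ s →
        Disjoint (fx ρ (e i : Subgroup Γ)) (⨆ j ∈ s, fx ρ (e j : Subgroup Γ)) := by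
      intro i s
      induction s using Finset.induction_on with
      | empty => simp
      | insert j s hj ih =>
        intro hi
        rw [Finset.mem_insert, not_or] at hi
        rw [Finset.iSup_insert, Submodule.disjoint_def]
        intro x hx hx'
        obtain ⟨w, hw, u, hu, rfl⟩ := Submodule.mem_sup.1 hx'
        have hne : ¬ (e j : Subgroup Γ) ≤ e i := fun h => hi.1 (e.injective (Subtype.ext
          (eq_of_le_of_card_ge h (by rw [hSc _ (e i).2, hSc _ (e j).2])).symm))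
        obtain ⟨b, hb, hb'⟩ := SetLike.not_le_iff_exists.1 hne
        have hbA := hSA _ (e j).2 hb
        have h1 : ρ b (w + u) - (w + u) = 0 := by
          refine Submodule.disjoint_def.1 (ih hi.2) _ (sub_mem (hinv _ (e i).2 b hbA _ hx) hx) ?_
          rw [map_add, hw b hb, add_sub_add_left_eq_sub]
          refine sub_mem ?_ hu
          have : (⨆ j ∈ s, fx ρ (e j : Subgroup Γ)) ≤ (⨆ j ∈ s, fx ρ (e j : Subgroup Γ)).comap (ρ b) :=
            iSup₂_le fun k hk y hy => le_iSup₂_of_le (f := fun j (_ : j ∈ s) => fx ρ (e j : Subgroup Γ)) k hk le_rfl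
              (hinv _ (e k).2 b hbA y hy)
          exact this hu
        by_contra h0
        have h2 : fx ρ ((e i : Subgroup Γ) ⊔ zpowers b) ≠ ⊥ := by
          refine (Submodule.ne_bot_iff _).2 ⟨w + u, ?_, h0⟩
          intro y hy
          have : (e i : Subgroup Γ) ⊔ zpowers b ≤ (MulAction.stabilizer (Module.End F V)ˣ (w + u)).comap ρ.toHomUnits :=
            sup_le (fun z hz => hx z hz) (zpowers_le.2 (sub_eq_zero.1 h1))
          exact this hy
        have h3 := hmax' _ (sup_le (hSA _ (e i).2) (zpowers_le.2 hbA)) h2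
        rw [← hSc _ (e i).2] at h3
        exact hb' ((eq_of_le_of_card_ge le_sup_left h3).ge (mem_sup_right (mem_zpowers b)))
    intro i
    have := hind i (Finset.univ.erase i) (by simp)
    simpa using this
  · have h1 : fx ρ K = ⊤ := by
      have : Subsingleton S := Fintype.card_le_one_iff_subsingleton.1 (by omega)
      rw [eq_top_iff, ← htop]
      exact iSup_le fun i => by rw [Subsingleton.elim (e i) ⟨K, hKS⟩]
    have h2 : K = ⊥ := by
      rw [eq_bot_iff]
      intro x hx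
      refine hf (LinearMap.ext fun w => ?_)
      rw [map_one]
      exact (h1.ge Submodule.mem_top : w ∈ fx ρ K) x hx
    have := hmax' _ (zpowers_le.2 ha) hfa
    rw [h2, card_bot, Nat.card_zpowers] at this
    exact ha1 (orderOf_eq_one_iff.1 (le_antisymm this (orderOf_pos a)))

theorem partC [FiniteDimensional F V] (x y : Γ) :
    Module.finrank F (LinearMap.range (ρ ⁅x, y⁆ - 1)) ≤ 2 * Module.finrank F (LinearMap.range (ρ x - 1)) := by
  have h1 : LinearMap.range (ρ ⁅x, y⁆ - 1) ≤ LinearMap.range (ρ x - 1) ⊔ (LinearMap.range (ρ x - 1)).map (ρ y) := by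
    rintro _ ⟨v, rfl⟩
    refine Submodule.mem_sup.2 ⟨_, ⟨ρ (y * x⁻¹ * y⁻¹) v, rfl⟩, _, ⟨_, ⟨- ρ (x⁻¹ * y⁻¹) v, rfl⟩, rfl⟩, ?_⟩
    simp only [LinearMap.sub_apply, Module.End.one_apply, map_neg, map_sub, ← Module.End.mul_apply, ← map_mul,
      commutatorElement_def]
    simp [mul_assoc]
  refine (Submodule.finrank_mono h1).trans ((Submodule.finrank_add_le_finrank_add_finrank _ _).trans ?_)
  have := Submodule.finrank_map_le (ρ y) (LinearMap.range (ρ x - 1))
  omega
end

/-- Fixed-point spaces in primitive soluble linear groups. Let F be a finite field and G a soluble subgroup of GL_n(F) that acts irreducibly on F^n and primitively (G preserves no decomposition of F^n into two or more independent subspaces of equal dimension). Then every non-identity element g of G has fixed-point space {v : g v = v} of dimension at most 3n/4. -/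
theorem result {F : Type*} [Field F] [Fintype F] {n : ℕ} (G : Subgroup (Matrix.GeneralLinearGroup (Fin n) F)) (hsol : IsSolvable G) (hirr : Cfsg.Geo.ActsIrreducibly (Cfsg.Geo.matrixSet G)) (hprim : ∀ (m t : ℕ) (D : Fin t → Submodule F (Fin n → F)), 2 ≤ t → Cfsg.Geo.IsMDecomposition m D → ¬ G ≤ Cfsg.Geo.decompositionStabilizer D) (g : Matrix.GeneralLinearGroup (Fin n) F) (hg : g ∈ G) (hg1 : g ≠ 1) :
    4 * Module.finrank F (Module.End.eigenspace (Matrix.toLin' (g : Matrix (Fin n) (Fin n) F)) 1) ≤ 3 * n := by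
  have : Group.IsSolvable G := hsol
  let ρ : Representation F G (Fin n → F) :=
    { toFun := fun x => Matrix.toLin' ((x : Matrix.GeneralLinearGroup (Fin n) F) : Matrix (Fin n) (Fin n) F)
      map_one' := by simp [Module.End.one_eq_id]
      map_mul' := fun x y => by simp [Matrix.toLin'_mul, Module.End.mul_eq_comp] }
  have hf : Function.Injective ρ := fun x y h => Subtype.ext (Units.ext (Matrix.toLin'.injective h))
  obtain ⟨A, hA, hab, a, ha, ha1, hc⟩ := partA (fun x : G => Module.finrank F (LinearMap.range (ρ x - 1)))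
    (partC ρ) ⟨g, hg⟩ (fun h => hg1 (congrArg Subtype.val h))
  have h1 := partB ρ hf (fun W hW => hirr W (by rintro _ ⟨x, hx, rfl⟩; exact hW ⟨x, hx⟩))
    (fun m t D ht hm h1 h2 h3 h4 => hprim m t D ht ⟨ht, hm, h1, h2, h3⟩ fun x hx => h4 ⟨x, hx⟩) A hab a ha ha1
  have h2 := LinearMap.finrank_range_add_finrank_ker (ρ a - 1)
  have h3 : LinearMap.ker (ρ a - 1) = ⊥ := LinearMap.ker_eq_bot'.2 fun v hv => h1 v (sub_eq_zero.1 hv)
  have h4 := LinearMap.finrank_range_add_finrank_ker (ρ ⟨g, hg⟩ - 1)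
  have h5 : Module.End.eigenspace (Matrix.toLin' (g : Matrix (Fin n) (Fin n) F)) 1 = LinearMap.ker (ρ ⟨g, hg⟩ - 1) := by
    ext v; rw [Module.End.mem_eigenspace_iff, LinearMap.mem_ker, one_smul]; exact sub_eq_zero.symm
  rw [h3, finrank_bot] at h2
  rw [h5]
  simp only [Module.finrank_fin_fun] at h2 h4
  omega

end Cfsg.Agent.S5876
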