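import Mathlib
import Cfsg.Statements.S5877
import Cfsg.Agent.H04.XN2

set_option autoImplicit false
open Cfsg

namespace Cfsg.Agent.S5877

/-- Eigenspaces of elements normalising an absolutely irreducible extraspecial group. Let F be a finite field, r a prime, and R ≤ GL_n(F) an absolutely irreducible extraspecial r-group (an r-group whose centre equals its derived subgroup and has order r) of exponent r or 4. Let g ∈ GL_n(F) normalise the product of R with the scalar matrices, have prime order ϖ and not be scalar, and let W be the eigenspace of g for any c ∈ F (W may be the zero subspace). Then dim W ≤ 3n/4 if ϖ = 2, dim W ≤ 2n/3 if ϖ = 3, and dim W ≤ n/2 if ϖ > 3; moreover if ϖ = 3 and 3 does not divide n then dim W ≤ n/2. -/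
theorem result {F : Type*} [Field F] [Fintype F] {n r ϖ : ℕ} (R : Subgroup (Matrix.GeneralLinearGroup (Fin n) F)) (hr : r.Prime) (hR : IsPGroup r R) (hZ : Nat.card (Subgroup.center R) = r) (hext : commutator R = Subgroup.center R) (hexp : Monoid.exponent R = r ∨ Monoid.exponent R = 4) (hirr : Cfsg.Geo.ActsAbsolutelyIrreducibly (Cfsg.Geo.matrixSet R)) (g : Matrix.GeneralLinearGroup (Fin n) F) (hg : g ∈ Cfsg.Geo.subgroupNormalizer (R ⊔ Cfsg.Geo.scalars (Fin n) F)) (hϖ : ϖ.Prime) (hord : orderOf g = ϖ) (hns : g ∉ Cfsg.Geo.scalars (Fin n) F) (c : F) :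
    (ϖ = 2 → 4 * Module.finrank F (Module.End.eigenspace (Matrix.toLin' (g : Matrix (Fin n) (Fin n) F)) c) ≤ 3 * n) ∧
    (ϖ = 3 → 3 * Module.finrank F (Module.End.eigenspace (Matrix.toLin' (g : Matrix (Fin n) (Fin n) F)) c) ≤ 2 * n) ∧
    (3 < ϖ → 2 * Module.finrank F (Module.End.eigenspace (Matrix.toLin' (g : Matrix (Fin n) (Fin n) F)) c) ≤ n) ∧
    (ϖ = 3 → ¬ 3 ∣ n → 2 * Module.finrank F (Module.End.eigenspace (Matrix.toLin' (g : Matrix (Fin n) (Fin n) F)) c) ≤ n) := by
  rcases n with _ | n
  · exact (hns (H10.As.mem_scalars.2 ⟨1, Subsingleton.elim _ _⟩)).elim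
  have h := H04.XN.ext_of hr hirr (fun h => by
      have := (commutator_eq_bot_iff R).2 h
      rw [← hext, this, Subgroup.card_bot] at hZ
      exact hr.one_lt.ne hZ) hext.le fun x hx => by
    rw [hext] at hx
    exact congrArg Subtype.val (hZ ▸ pow_card_eq_one' (x := (⟨x, hx⟩ : Subgroup.center R)))
  obtain ⟨h1, h2⟩ := H04.XN.core' h hg hϖ (hord ▸ pow_orderOf_eq_one g) hns c
  simp only [Fintype.card_fin, H04.XN.E] at h1 h2
  have := hr.two_le
  refine ⟨fun _ => by nlinarith, fun e => ?_, fun e => h2 (by omega) (by omega), fun e h3 => h2 (by omega) fun _ e => ?_⟩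
  · by_cases h3 : r = 3
    · subst h3; omega
    · have := h2 (by omega) fun _ => h3
      omega
  · obtain ⟨m, hm⟩ := h.exists_pow
    rw [Fintype.card_fin, e] at hm
    rcases m with _ | m
    · exact hns (H10.As.mem_scalars.2 ⟨g.1 0 0, by
        obtain rfl : n = 0 := by simpa using hm
        ext i j; fin_cases i; fin_cases j; simp⟩)
    · exact h3 (hm ▸ dvd_pow_self 3 m.succ_ne_zero)

end Cfsg.Agent.S5877
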