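import Mathlib
import Cfsg.Agent.L.PSL2Max3
-- Template for statement S5938 (row 5938; see /opt/grader/pristine/manifest.json for weights).
-- Copy to Cfsg/Agent/S5938.lean and replace the sorry. The statement below is byte-identical to the frozen
-- statement Cfsg.CfsgFrozen.S5938 (Cfsg/Statements/S5938.lean; the theorem Cfsg.cmax15_psl_two_prime_field_symmetric_four_maximal);
-- the grader kernel-checks Cfsg.Agent.S5938.result against that frozen type. Keep the theorem IN THIS FILE
-- (a `result` declared elsewhere and merely imported here is not credited); helpers may live anywhere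
-- under Cfsg/Agent/.
import Cfsg.Statements.S5938
-- import your own Cfsg.Agent.* helpers here

set_option autoImplicit false
open Cfsg

namespace Cfsg.Agent.S5938

/-- Let p be a prime with p ≡ ±1 (mod 8) and F a field with p elements. Then PSL_2(F) has a maximal subgroup isomorphic to the symmetric group S_4. -/
theorem result {F : Type*} [Field F] [Fintype F] (p : ℕ) [Fact p.Prime] (hF : Fintype.card F = p) (hp : p % 8 = 1 ∨ p % 8 = 7) : ∃ H : Subgroup (Matrix.ProjectiveSpecialLinearGroup (Fin 2) F), IsCoatom H ∧ Nonempty (H ≃* Equiv.Perm (Fin 4)) := by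
  have hpp : p.Prime := Fact.out
  have h2 : (2 : F) ≠ 0 := L.two_ne_zero_of_odd (by rw [hF, Nat.odd_iff]; omega)
  obtain ⟨H, ⟨e⟩⟩ := L.Dk.exists_subgroup_of_injective
    (L.Dk.exists_S4_psl h2 (FiniteField.isSquare_two_iff.2 (by omega)))
  have hH : Nat.card H = 24 := (Nat.card_congr e.toEquiv).trans L.Dk.card_S4
  have h7 : 7 ≤ p := by have := hpp.two_le; omega
  refine ⟨H, L.Dk.isCoatom_of (L.Dk.ne_top_of_card_lt ?_) fun M hM => ?_, ⟨e⟩⟩
  · have := L.Dk.cube_mono h7
    rw [hH, hF]; omega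
  have h1 := L.Dk.card_lt_of_lt hM
  have h3 := Subgroup.card_dvd_of_le hM.le
  rcases L.Dk.psl_big_of_A4 h2 M (L.Dk.exists_hom_of_equiv hM.le e L.Dk.A4_le_S4) with
    ⟨⟨f⟩⟩ | ⟨⟨f⟩⟩ | ⟨⟨f⟩⟩ | ⟨K, _, _, m, hm, hK, h⟩
  · rw [Nat.card_congr f.toEquiv, L.Dk.card_A4] at h1; omega
  · rw [Nat.card_congr f.toEquiv, L.Dk.card_S4] at h1; omega
  · rw [Nat.card_congr f.toEquiv, L.Dk.card_A5, hH] at h3; omega
  · exact L.Dk.eq_top_of_sub ((L.Dk.eq_of_pow_eq_prime hpp (hK.trans hF)).trans hF.symm) h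

end Cfsg.Agent.S5938
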