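import Mathlib
import Cfsg.Agent.L.PSL2Max3
-- Template for statement S5941 (row 5941; see /opt/grader/pristine/manifest.json for weights).
-- Copy to Cfsg/Agent/S5941.lean and replace the sorry. The statement below is byte-identical to the frozen
-- statement Cfsg.CfsgFrozen.S5941 (Cfsg/Statements/S5941.lean; the theorem Cfsg.cmax15_psl_two_square_field_projective_general_linear_subfield_maximal);
-- the grader kernel-checks Cfsg.Agent.S5941.result against that frozen type. Keep the theorem IN THIS FILE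
-- (a `result` declared elsewhere and merely imported here is not credited); helpers may live anywhere
-- under Cfsg/Agent/.
import Cfsg.Statements.S5941
-- import your own Cfsg.Agent.* helpers here

set_option autoImplicit false
open Cfsg

namespace Cfsg.Agent.S5941

/-- Let K and F be finite fields of odd characteristic with #F = (#K)². Then PSL_2(F) has a maximal subgroup isomorphic to PGL_2(K). -/
theorem result {F K : Type*} [Field F] [Fintype F] [Field K] [Fintype K] (q : ℕ) (hK : Fintype.card K = q) (hF : Fintype.card F = q ^ 2) (hq : Odd q) : ∃ H : Subgroup (Matrix.ProjectiveSpecialLinearGroup (Fin 2) F), IsCoatom H ∧ Nonempty (H ≃* Matrix.ProjGenLinGroup (Fin 2) K) := by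
  subst hK
  have h2 : (2 : F) ≠ 0 := L.two_ne_zero_of_odd (by rw [hF]; exact hq.pow)
  obtain ⟨H, ⟨e⟩⟩ := L.Dk.exists_subgroup_of_injective (L.Dk.exists_pgl_le_psl hF.symm even_two)
  have hH : Nat.card H = _ := (Nat.card_congr e.toEquiv).trans L.Dk.card_PGL2
  have hK2 := Fintype.one_lt_card (α := K)
  refine ⟨H, L.Dk.isCoatom_of (L.Dk.ne_top_of_card_lt ?_) fun M hM => ?_, ⟨e⟩⟩
  · rw [hH, hF]; exact L.Dk.cube_lt hK2 le_rfl
  have h1 := L.Dk.card_lt_of_lt hM
  have h3 := Subgroup.card_dvd_of_le hM.le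
  have h4 : Fintype.card K = 3 ∨ 5 ≤ Fintype.card K := by rw [Nat.odd_iff] at hq; omega
  have h5 := L.Dk.cube_mono (show 3 ≤ Fintype.card K by omega)
  obtain ⟨g, hg⟩ := L.Dk.exists_A4_psl (L.two_ne_zero_of_odd hq)
  rcases L.Dk.psl_big_of_A4 h2 M (L.Dk.exists_hom_of_equiv hM.le e ⟨Matrix.ProjectiveSpecialLinearGroup.toPGL.comp g,
      Matrix.ProjectiveSpecialLinearGroup.toPGL_injective.comp hg⟩) with
    ⟨⟨f⟩⟩ | ⟨⟨f⟩⟩ | ⟨⟨f⟩⟩ | ⟨K', _, _, m, hm, hK, h⟩
  · rw [Nat.card_congr f.toEquiv, L.Dk.card_A4] at h1; omega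
  · rw [Nat.card_congr f.toEquiv, L.Dk.card_S4] at h1; omega
  · rw [Nat.card_congr f.toEquiv, L.Dk.card_A5] at h1 h3
    rcases h4 with h4 | h4
    · rw [hH, h4] at h3; omega
    · have := L.Dk.cube_mono h4; omega
  · refine (L.Dk.sub_cases Nat.prime_two hF.symm hK (Dvd.dvd.trans ?_ h3) h).resolve_right fun h6 => ?_
    · rw [Nat.card_congr e.toEquiv]
      exact Subgroup.card_dvd_of_injective _ Matrix.ProjectiveSpecialLinearGroup.toPGL_injective
    · have := L.Dk.card_le_of_sub h
      rw [h6] at this; omega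

end Cfsg.Agent.S5941
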