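import Mathlib
import Cfsg.Agent.L.PSL2Max3
-- Template for statement S5942 (row 5942; see /opt/grader/pristine/manifest.json for weights).
-- Copy to Cfsg/Agent/S5942.lean and replace the sorry. The statement below is byte-identical to the frozen
-- statement Cfsg.CfsgFrozen.S5942 (Cfsg/Statements/S5942.lean; the theorem Cfsg.cmax15_psl_two_odd_prime_degree_subfield_maximal);
-- the grader kernel-checks Cfsg.Agent.S5942.result against that frozen type. Keep the theorem IN THIS FILE
-- (a `result` declared elsewhere and merely imported here is not credited); helpers may live anywhere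
-- under Cfsg/Agent/.
import Cfsg.Statements.S5942
-- import your own Cfsg.Agent.* helpers here

set_option autoImplicit false
open Cfsg

namespace Cfsg.Agent.S5942

/-- Let K and F be finite fields of odd characteristic with #F = (#K)^r for an odd prime r. Then PSL_2(F) has a maximal subgroup isomorphic to PSL_2(K). -/
theorem result {F K : Type*} [Field F] [Fintype F] [Field K] [Fintype K] (q r : ℕ) (hK : Fintype.card K = q) (hF : Fintype.card F = q ^ r) (hq : Odd q) (hr : r.Prime) (hr2 : r ≠ 2) : ∃ H : Subgroup (Matrix.ProjectiveSpecialLinearGroup (Fin 2) F), IsCoatom H ∧ Nonempty (H ≃* Matrix.ProjectiveSpecialLinearGroup (Fin 2) K) := by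
  subst hK
  have hodd : Odd (Fintype.card F) := by rw [hF]; exact hq.pow
  have h2 : (2 : F) ≠ 0 := L.two_ne_zero_of_odd hodd
  obtain ⟨H, ⟨e⟩⟩ := L.Dk.exists_subgroup_of_injective (L.Dk.exists_psl_le_psl hF.symm)
  have hd : L.Dk.dd K = 2 := ((L.Dk.dd_cases (F := K)).resolve_left (by rw [Nat.odd_iff] at hq; omega)).2
  have hH := L.Dk.card_psl (F := K)
  rw [hd, ← Nat.card_congr e.toEquiv] at hH
  have hK2 := Fintype.one_lt_card (α := K)
  refine ⟨H, L.Dk.isCoatom_of (L.Dk.ne_top_of_card_lt ?_) fun M hM => ?_, ⟨e⟩⟩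
  · have := L.Dk.cube_lt hK2 hr.two_le
    rw [hF]; omega
  have h1 := L.Dk.card_lt_of_lt hM
  have h3 := Subgroup.card_dvd_of_le hM.le
  have h4 : Fintype.card K = 3 ∨ 5 ≤ Fintype.card K := by rw [Nat.odd_iff] at hq; omega
  have h5 := L.Dk.cube_mono (show 3 ≤ Fintype.card K by omega)
  obtain ⟨k, hk⟩ := hr.odd_of_ne_two hr2
  have h6 : Fintype.card K = 3 → Fintype.card F = 3 * 9 ^ k := fun h => by
    rw [hF, h, hk, pow_succ, pow_mul, mul_comm]; rfl
  have h7 : Nat.card H < 60 → Fintype.card K = 3 := fun h => h4.resolve_right fun h' => by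
    have := L.Dk.cube_mono h'; omega
  rcases L.Dk.psl_big_of_A4 h2 M (L.Dk.exists_hom_of_equiv hM.le e (L.Dk.exists_A4_psl (L.two_ne_zero_of_odd hq))) with
    ⟨⟨f⟩⟩ | ⟨⟨f⟩⟩ | ⟨⟨f⟩⟩ | ⟨K', _, _, m, hm, hK, h⟩
  · rw [Nat.card_congr f.toEquiv, L.Dk.card_A4] at h1; omega
  · rw [Nat.card_congr f.toEquiv, L.Dk.card_S4] at h1
    have h8 := L.Dk.mod_eight_of_S4 f
    have h9 : 9 ^ k % 8 = 1 := by rw [Nat.pow_mod]; simp
    rw [h6 (h7 (by omega))] at h8; omega
  · rw [Nat.card_congr f.toEquiv, L.Dk.card_A5] at h1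
    have h8 := L.Dk.five_dvd_of_A5 f
    have h9 : 9 ^ k % 5 = 1 ∨ 9 ^ k % 5 = 4 := by
      clear hk h6
      induction k with
      | zero => simp
      | succ k ih => rw [pow_succ]; omega
    rw [h6 (h7 h1)] at h8; omega
  · refine (L.Dk.sub_cases hr hF.symm hK (Dvd.dvd.trans ?_ h3) h).resolve_right fun h6 => ?_
    · rw [Nat.card_congr e.toEquiv]
    · rcases h with ⟨⟨f⟩⟩ | ⟨⟨f⟩⟩
      · exact L.Dk.not_pgl_dvd_psl (K := K') (m := r) (by rw [h6, hF]) hodd ⟨k, hk⟩ (L.Dk.card_dvd_of_equiv f)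
      · obtain ⟨f'⟩ := H09.nonempty_psl_equiv_of_card_eq (ι := Fin 2) h6
        rw [Nat.card_congr e.toEquiv, Nat.card_congr (f.trans f').toEquiv] at h1
        exact h1.false

end Cfsg.Agent.S5942
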