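import Mathlib
import Cfsg.Agent.L.PSL2Max3
-- Template for statement S5943 (row 5943; see /opt/grader/pristine/manifest.json for weights).
-- Copy to Cfsg/Agent/S5943.lean and replace the sorry. The statement below is byte-identical to the frozen
-- statement Cfsg.CfsgFrozen.S5943 (Cfsg/Statements/S5943.lean; the theorem Cfsg.cmax15_psl_two_even_prime_degree_subfield_maximal);
-- the grader kernel-checks Cfsg.Agent.S5943.result against that frozen type. Keep the theorem IN THIS FILE
-- (a `result` declared elsewhere and merely imported here is not credited); helpers may live anywhere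
-- under Cfsg/Agent/.
import Cfsg.Statements.S5943
-- import your own Cfsg.Agent.* helpers here

set_option autoImplicit false
open Cfsg

namespace Cfsg.Agent.S5943

/-- Let K and F be finite fields of characteristic 2 with #K = q > 2 and #F = q^r for a prime r. Then PSL_2(F) has a maximal subgroup isomorphic to PSL_2(K) (which equals PGL_2(K) in characteristic 2). -/
theorem result {F K : Type*} [Field F] [Fintype F] [Field K] [Fintype K] (q r : ℕ) (hK : Fintype.card K = q) (hF : Fintype.card F = q ^ r) (hq : Even q) (hq2 : q ≠ 2) (hr : r.Prime) : ∃ H : Subgroup (Matrix.ProjectiveSpecialLinearGroup (Fin 2) F), IsCoatom H ∧ Nonempty (H ≃* Matrix.ProjectiveSpecialLinearGroup (Fin 2) K) := by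
  subst hK
  obtain ⟨H, ⟨e⟩⟩ := L.Dk.exists_subgroup_of_injective (L.Dk.exists_psl_le_psl hF.symm)
  have hd : L.Dk.dd K = 1 := ((L.Dk.dd_cases (F := K)).resolve_right (by rw [Nat.even_iff] at hq; omega)).2
  have hH := L.Dk.card_psl (F := K)
  rw [hd, ← Nat.card_congr e.toEquiv] at hH
  have hK2 := Fintype.one_lt_card (α := K)
  refine ⟨H, L.Dk.isCoatom_of (L.Dk.ne_top_of_card_lt ?_) fun M hM => ?_, ⟨e⟩⟩
  · have := L.Dk.cube_lt hK2 hr.two_le
    rw [hF]; omega
  have h1 := L.Dk.card_lt_of_lt hM
  have h3 := Subgroup.card_dvd_of_le hM.le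
  have h4 : 4 ≤ Fintype.card K := by rw [Nat.even_iff] at hq; omega
  have h5 := L.Dk.cube_mono h4
  obtain ⟨g, hg⟩ := L.Dk.exists_hom_of_equiv hM.le e ⟨MonoidHom.id _, Function.injective_id⟩
  rcases L.Dk.psl_of_not_solvable M (fun hs => L.Dk.not_solvable_psl h4
    (Group.isSolvable_of_isSolvable_injective hg)) with ⟨⟨f⟩⟩ | ⟨K', _, _, m, hm, hK, h⟩
  · rw [Nat.card_congr f.toEquiv, L.Dk.card_A5] at h1; omega
  · refine (L.Dk.sub_cases hr hF.symm hK (Dvd.dvd.trans ?_ h3) h).resolve_right fun h6 => ?_
    · rw [Nat.card_congr e.toEquiv]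
    · have := L.Dk.card_le_of_sub h
      rw [h6] at this; omega

end Cfsg.Agent.S5943
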