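import Mathlib
import Cfsg.Agent.H10.Perm
import Cfsg.Statements.S5944

set_option autoImplicit false
open Cfsg

namespace Cfsg.Agent.S5944

/-- For n ≠ 4, every proper subgroup of the symmetric group S_n other than the alternating group A_n has index at least n. -/
theorem result (n : ℕ) (hn : n ≠ 4) (H : Subgroup (Equiv.Perm (Fin n))) (hH : H ≠ ⊤) (hA : H ≠ alternatingGroup (Fin n)) : n ≤ H.index := by
  classical
  by_contra hlt
  push Not at hlt
  have h0 : H.index ≠ 0 := Subgroup.index_ne_zero_of_finite
  have h1 : H.index ≠ 1 := fun h => hH (Subgroup.index_eq_one.1 h)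
  have h2 : H.index ≠ 2 := fun h => hA (Equiv.Perm.eq_alternatingGroup_of_index_eq_two h)
  have hc := H10.normalCore_eq_bot_of_index (α := Fin n) (by simp; omega) H hH hA
  have hf : Function.Injective (MulAction.toPermHom (Equiv.Perm (Fin n)) (Equiv.Perm (Fin n) ⧸ H)) := by
    rw [← MonoidHom.ker_eq_bot_iff, ← Subgroup.normalCore_eq_ker, hc]
  have h3 := Nat.card_le_card_of_injective _ hf
  rw [Nat.card_perm, Nat.card_perm, Nat.card_eq_fintype_card, Fintype.card_fin] at h3
  exact absurd h3 (not_le.2 ((Nat.factorial_lt (Nat.pos_of_ne_zero h0)).2 hlt))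

end Cfsg.Agent.S5944
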