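import Mathlib
import Cfsg.Agent.H10.Perm2
import Cfsg.Statements.S5945

set_option autoImplicit false
open Cfsg

namespace Cfsg.Agent.S5945

/-- The symmetric group S_6 has exactly 12 subgroups of index 6; each of them is isomorphic to S_5, and at least one of them is not the stabilizer of any point. -/
theorem result : Nat.card {H : Subgroup (Equiv.Perm (Fin 6)) // H.index = 6} = 12 ∧ (∀ H : Subgroup (Equiv.Perm (Fin 6)), H.index = 6 → Nonempty (H ≃* Equiv.Perm (Fin 5))) ∧ ∃ H : Subgroup (Equiv.Perm (Fin 6)), H.index = 6 ∧ ∀ a : Fin 6, H ≠ MulAction.stabilizer (Equiv.Perm (Fin 6)) a := by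
  obtain ⟨τ, h1, h2⟩ := H10.index_six_cases (α := Fin 6) (by simp)
  have hi : ∀ a : Fin 6, (MulAction.stabilizer (Equiv.Perm (Fin 6)) a).index = 6 := by
    intro a
    rw [MulAction.index_stabilizer_of_transitive, Nat.card_eq_fintype_card, Fintype.card_fin]
  have hi' : ∀ a : Fin 6, ((MulAction.stabilizer (Equiv.Perm (Fin 6)) a).comap τ.toMonoidHom).index = 6 := by
    intro a
    rw [Subgroup.index_comap_of_surjective _ τ.surjective, hi]
  have hne : ∀ x y : Fin 6, (MulAction.stabilizer (Equiv.Perm (Fin 6)) y).comap τ.toMonoidHom ≠ MulAction.stabilizer _ x := by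
    intro x y h
    obtain ⟨k, hk1, hk2⟩ := h1 y x
    have : k ∈ MulAction.stabilizer (Equiv.Perm (Fin 6)) x := by rw [← h]; exact hk1
    exact hk2 this
  have hinj := H10.stabilizer_perm_injective (α := Fin 6) (by simp)
  have hiso : ∀ a : Fin 6, Nonempty (MulAction.stabilizer (Equiv.Perm (Fin 6)) a ≃* Equiv.Perm (Fin 5)) := by
    intro a
    obtain ⟨e⟩ : Nonempty ({y : Fin 6 // y ≠ a} ≃ Fin 5) := Finite.card_eq.1 (by simp)
    exact ⟨(MulEquiv.subgroupCongr (H10.range_ofSubtype_ne a).symm).trans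
      ((MonoidHom.ofInjective Equiv.Perm.ofSubtype_injective).symm.trans e.permCongrHom)⟩
  refine ⟨?_, fun H hH => ?_, _, hi' 0, fun a => hne a 0⟩
  · let f : Fin 6 ⊕ Fin 6 → {H : Subgroup (Equiv.Perm (Fin 6)) // H.index = 6} :=
      Sum.elim (fun a => ⟨_, hi a⟩) (fun a => ⟨_, hi' a⟩)
    have hf : Function.Bijective f := by
      constructor
      · rintro (x | x) (y | y) h
        · rw [hinj (congrArg Subtype.val h)]
        · exact absurd (congrArg Subtype.val h).symm (hne x y)
        · exact absurd (congrArg Subtype.val h) (hne y x)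
        · rw [hinj (Subgroup.comap_injective τ.surjective (congrArg Subtype.val h))]
      · rintro ⟨H, hH⟩
        rcases h2 H hH with ⟨x, rfl⟩ | ⟨x, rfl⟩
        · exact ⟨Sum.inl x, rfl⟩
        · exact ⟨Sum.inr x, rfl⟩
    rw [← Nat.card_eq_of_bijective f hf]
    simp
  · rcases h2 H hH with ⟨x, rfl⟩ | ⟨x, rfl⟩
    · exact hiso x
    · obtain ⟨e⟩ := hiso x
      refine ⟨MulEquiv.trans ?_ e⟩
      exact (MulEquiv.subgroupCongr (Subgroup.comap_equiv_eq_map_symm' τ _)).trans (τ.symm.subgroupMap _).symm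

end Cfsg.Agent.S5945
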