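import Cfsg.Statements.S5950
import Cfsg.Agent.H28.El4
-- import your own Cfsg.Agent.* helpers here

set_option autoImplicit false
open scoped MatrixGroups
open Cfsg

namespace Cfsg.Agent.S5950
open H28.El Module
set_option linter.unusedVariables false
set_option linter.style.haveILetI false


/-- Elements of prime order of PSL_n(q) fixing no decomposition `F^n = U ⊕ W` with `dim U = m`. Here `T = PSL_n(F)` for a field `F` with `q = p^f` elements (`n ≥ 2`, `(n, q) ≠ (2, 2), (2, 3)`); an element of `T` of prime order `r` is represented by a matrix `x` of determinant 1 with `x^r` scalar and `x` not scalar; `i` denotes the multiplicative order of `q` modulo `r` (when `r ≠ p`), and `(a)_r` the `r`-part of `a`. Let `n ≥ 3`, `1 ≤ m < n/2`, and let `r` be a prime dividing the number of such decompositions (unordered pairs `{U, W}` of complementary subspaces with `dim U = m`; since `m ≠ n − m` these are the ordered pairs with `dim U = m`). Then every element of `T` of order `r` fixes such a pair (fixes both `U` and `W`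 for some complementary `U, W` with `dim U = m`) if and only if one of: (i) `r = p > 2` and every partition of `n` into parts of size at most `p` contains, as a sub-multiset, a partition of `m`; (ii) `r = p = 2` and `n` is odd or `m` is even; (iii) `r ≠ p`, `i = 1`, and `r ∣ m` or `(q−1)_r ≥ (n)_r` (with `q ≡ 1 (mod 4)` required when `r = 2` and `n` is even); (iv) `r ≠ p`, `2 ≤ i ≤ m` and `n mod i ≥ m mod i`. -/
theorem result {F : Type*} [Field F] [Fintype F] {p : ℕ} [Fact p.Prime] [CharP F p] {q : ℕ} (hq : Fintype.card F = q)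
    (n m : ℕ) (hn : 3 ≤ n) (hm : 1 ≤ m) (hmn : 2 * m < n)
    (r : ℕ) [Fact r.Prime]
    (hrΩ : r ∣ Nat.card {P : Submodule F (Fin n → F) × Submodule F (Fin n → F) // IsCompl P.1 P.2 ∧ Module.finrank F ↥P.1 = m}) :
    (∀ x : Matrix.SpecialLinearGroup (Fin n) F,
      (∃ c : F, ((x ^ r : Matrix.SpecialLinearGroup (Fin n) F) : Matrix (Fin n) (Fin n) F) = c • (1 : Matrix (Fin n) (Fin n) F)) →
      (∀ c : F, (x : Matrix (Fin n) (Fin n) F) ≠ c • (1 : Matrix (Fin n) (Fin n) F)) →
      ∃ U W : Submodule F (Fin n → F), IsCompl U W ∧ Module.finrank F ↥U = m ∧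
        U.map (Matrix.toLin' (x : Matrix (Fin n) (Fin n) F)) ≤ U ∧ W.map (Matrix.toLin' (x : Matrix (Fin n) (Fin n) F)) ≤ W) ↔
    ((r = p ∧ 2 < p ∧ (∀ μ : Multiset ℕ, (∀ a ∈ μ, 0 < a ∧ a ≤ p) → μ.sum = n → ∃ ν : Multiset ℕ, ν ≤ μ ∧ ν.sum = m)) ∨
     (r = p ∧ p = 2 ∧ (Odd n ∨ Even m)) ∨
     (r ≠ p ∧
      ((orderOf (q : ZMod r) = 1 ∧ (r ∣ m ∨ (padicValNat r n ≤ padicValNat r (q - 1) ∧ (r = 2 → Even n → q % 4 = 1)))) ∨
       (2 ≤ orderOf (q : ZMod r) ∧ orderOf (q : ZMod r) ≤ m ∧ m % orderOf (q : ZMod r) ≤ n % orderOf (q : ZMod r))))) := by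
  subst hq
  have hn' : finrank F (Fin n → F) = n := by simp
  have key := sl_iff (r := r) (ι := Fin n) (F := F) (fun g => ∃ U W : Submodule F (Fin n → F), IsCompl U W ∧
    finrank F U = m ∧ Inv g U ∧ Inv g W)
  simp only [inv_iff] at key
  rw [key]
  simp only [← inv_iff]
  by_cases hne : r = p
  · subst hne
    rw [lin_compl_unip (by omega), hn']
    rcases (Fact.out : r.Prime).eq_two_or_odd' with rfl | ho
    · rw [part_two (by omega)]; simp
    · have h2 : r ≠ 2 := by rintro rfl; exact absurd ho (by decide)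
      have h3 : 2 < r := by have := (Fact.out : r.Prime).two_le; omega
      simp only [h2, h3, true_and, false_and, ne_eq, not_true_eq_false, or_false]
  · have h0 : (r : F) ≠ 0 := natCast_ne_zero Fact.out hne
    have H := dvd_gauss' (F := F) (V := Fin n → F) (Fact.out : r.Prime) (by omega) (dvd_compl Fact.out h0 hrΩ)
    have := lin_sub (V := Fin n → F) h0 hm (by omega) H
    rw [hn'] at this
    simp only [hne, false_and, false_or, ne_eq, not_false_eq_true, true_and]
    rw [← this]
    exact forall₃_congr fun g h1 h2 => compl_iff_of_ss (h2.ss h0 (by simp [h1])) m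

end Cfsg.Agent.S5950
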