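import Mathlib
import Cfsg.Statements.S5952

set_option autoImplicit false
open Cfsg

namespace Cfsg.Agent.S5952

/-- Which dimensions of invariant subspaces a semisimple linear map has. Let `V` be a finite-dimensional vector space over a field `F` and `f` an invertible semisimple linear map of `V`. Suppose `V` is the internal direct sum of the fixed space `C_V(f)` (the eigenspace for 1) and subspaces `U_1, …, U_s`, each `f`-invariant of dimension `a ≥ 1` on which `f` acts irreducibly (no `f`-invariant subspaces other than 0 and `U_j`). Let `0 < m < dim V` and `ℓ = m mod a`. Then `f` leaves some `m`-dimensional subspace invariant if and only if `dim C_V(f) ≥ m`, or `a ≤ m` and `dim C_V(f) ≥ ℓ`. -/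
theorem result {F V : Type*} [Field F] [AddCommGroup V] [Module F V]
    [FiniteDimensional F V] (f : V →ₗ[F] V) (hf : Function.Bijective f) (hss : Module.End.IsSemisimple f)
    {s a : ℕ} (ha : 1 ≤ a) (U : Fin s → Submodule F V)
    (hUinv : ∀ j, (U j).map f ≤ U j) (hUdim : ∀ j, Module.finrank F ↥(U j) = a)
    (hUirr : ∀ j, ∀ W : Submodule F V, W ≤ U j → W.map f ≤ W → W = ⊥ ∨ W = U j)
    (hdec : DirectSum.IsInternal (fun o : Option (Fin s) => o.elim (Module.End.eigenspace f 1) U))
    (m : ℕ) (hm : 0 < m) (hmV : m < Module.finrank F V) :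
    (∃ W : Submodule F V, Module.finrank F ↥W = m ∧ W.map f ≤ W) ↔
    (m ≤ Module.finrank F ↥(Module.End.eigenspace f 1) ∨
      (a ≤ m ∧ m % a ≤ Module.finrank F ↥(Module.End.eigenspace f 1))) := by
  classical
  set C := Module.End.eigenspace f 1 with hC
  let A : Option (Fin s) → Submodule F V := fun o => o.elim C U
  have hind : iSupIndep A := hdec.submodule_iSupIndep
  have htop : ⨆ o, A o = ⊤ := hdec.submodule_iSup_eq_top
  have hCf : ∀ x ∈ C, f x = x := fun x hx => by simpa using Module.End.mem_eigenspace_iff.1 hx
  let VT : Submodule F V → Finset (Fin s) → Submodule F V := fun D T => D ⊔ T.sup U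
  have hemp : ∀ D, VT D ∅ = D := fun D => by simp [VT]
  have hdisj : ∀ D ≤ C, ∀ (T : Finset (Fin s)) (k : Fin s), k ∉ T → Disjoint (U k) (VT D T) := by
    intro D hD T k hk
    refine (hind (some k)).mono_right (sup_le (hD.trans ?_) (Finset.sup_le fun j hj => ?_))
    · exact le_iSup₂_of_le (f := fun o (_ : o ≠ some k) => A o) none (by simp) le_rfl
    · exact le_iSup₂_of_le (f := fun o (_ : o ≠ some k) => A o) (some j) (by
        simp only [ne_eq, Option.some.injEq]; rintro rfl; exact hk hj) le_rfl
  have hins : ∀ D (T : Finset (Fin s)) (k : Fin s), VT D (insert k T) = U k ⊔ VT D T := by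
    intro D T k
    simp only [VT, Finset.sup_insert]
    ac_rfl
  have hdim : ∀ D ≤ C, ∀ T : Finset (Fin s), Module.finrank F (VT D T) = Module.finrank F D + T.card * a := by
    intro D hD T
    induction T using Finset.induction_on with
    | empty => rw [hemp]; simp
    | insert k T hk ih =>
      have := Submodule.finrank_sup_add_finrank_inf_eq (U k) (VT D T)
      rw [(hdisj D hD T k hk).eq_bot, finrank_bot, ← hins, hUdim, ih] at this
      rw [Finset.card_insert_of_notMem hk]
      linarith [Nat.succ_mul T.card a]
  have hinv : ∀ D ≤ C, ∀ T : Finset (Fin s), (VT D T).map f ≤ VT D T := by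
    intro D hD T
    induction T using Finset.induction_on with
    | empty =>
      simp only [VT, Finset.sup_empty, sup_bot_eq]
      rintro _ ⟨x, hx, rfl⟩
      rwa [hCf x (hD hx)]
    | insert k T hk ih =>
      rw [hins, Submodule.map_sup]
      exact sup_le_sup (hUinv k) ih
  have hall : VT C Finset.univ = ⊤ := by
    rw [eq_top_iff, ← htop]
    refine iSup_le fun o => ?_
    cases o with
    | none => exact le_sup_left
    | some j => exact (Finset.le_sup (f := U) (Finset.mem_univ j)).trans le_sup_right
  have hV : Module.finrank F V = Module.finrank F C + s * a := by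
    have := hdim C le_rfl Finset.univ
    rw [hall, finrank_top] at this
    simpa using this
  constructor
  · rintro ⟨W, rfl, hW⟩
    have key : ∀ T : Finset (Fin s), ∃ j, Module.finrank F ↥(W ⊓ VT C T) = Module.finrank F ↥(W ⊓ C) + j * a := by
      intro T
      induction T using Finset.induction_on with
      | empty => exact ⟨0, by rw [hemp]; simp⟩
      | insert k T hk ih =>
        obtain ⟨j, hj⟩ := ih
        have hle : VT C T ≤ VT C (insert k T) := by rw [hins]; exact le_sup_right
        have h1 := Submodule.finrank_sup_add_finrank_inf_eq (W ⊓ VT C (insert k T)) (VT C T)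
        rw [inf_assoc, inf_eq_right.2 hle, hj] at h1
        have h2 : U k ⊓ (W ⊓ VT C (insert k T) ⊔ VT C T) ⊔ VT C T = W ⊓ VT C (insert k T) ⊔ VT C T := by
          rw [inf_comm, inf_sup_assoc_of_le _ le_sup_right, ← hins, inf_eq_left]
          exact sup_le inf_le_right hle
        rcases hUirr k (U k ⊓ (W ⊓ VT C (insert k T) ⊔ VT C T)) inf_le_left (by
          refine (Submodule.map_inf_le _).trans (inf_le_inf (hUinv k) ?_)
          rw [Submodule.map_sup]
          exact sup_le_sup ((Submodule.map_inf_le _).trans (inf_le_inf hW (hinv C le_rfl _))) (hinv C le_rfl _)) with h | h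
        · rw [h, bot_sup_eq] at h2
          rw [← h2] at h1
          exact ⟨j, by omega⟩
        · rw [h, ← hins] at h2
          rw [← h2, hdim C le_rfl, hdim C le_rfl, Finset.card_insert_of_notMem hk] at h1
          exact ⟨j + 1, by linarith [Nat.succ_mul T.card a, Nat.succ_mul j a]⟩
    obtain ⟨j, hj⟩ := key Finset.univ
    rw [hall, inf_top_eq] at hj
    have h1 : Module.finrank F ↥(W ⊓ C) ≤ Module.finrank F C := Submodule.finrank_mono inf_le_right
    rcases Nat.eq_zero_or_pos j with rfl | hj0
    · left; omega
    · right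
      refine ⟨?_, ?_⟩
      · rw [hj]; exact (Nat.le_mul_of_pos_left a hj0).trans (Nat.le_add_left _ _)
      · rw [hj, Nat.add_mul_mod_self_right]
        exact (Nat.mod_le _ _).trans h1
  · intro h
    have : ∃ j ≤ s, j * a ≤ m ∧ m - j * a ≤ Module.finrank F C := by
      rcases h with h | ⟨-, h⟩
      · exact ⟨0, Nat.zero_le _, by simp, by simpa using h⟩
      · by_cases hs : m / a ≤ s
        · refine ⟨m / a, hs, Nat.div_mul_le_self _ _, ?_⟩
          have := Nat.mod_add_div' m a
          omega
        · refine ⟨s, le_rfl, ?_, by omega⟩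
          exact (Nat.mul_le_mul_right a (not_le.1 hs).le).trans (Nat.div_mul_le_self _ _)
    obtain ⟨j, hj1, hj2, hj3⟩ := this
    obtain ⟨T, -, hT⟩ := Finset.exists_subset_card_eq (s := (Finset.univ : Finset (Fin s))) (n := j) (by simpa using hj1)
    obtain ⟨D, hD1, hD2⟩ : ∃ D ≤ C, Module.finrank F D = m - j * a := by
      obtain ⟨v, hv⟩ := exists_linearIndependent_of_le_finrank hj3
      obtain ⟨D, hD⟩ : ∃ D : Submodule F C, Module.finrank F D = m - j * a :=
        ⟨Submodule.span F (Set.range v), by rw [finrank_span_eq_card hv, Fintype.card_fin]⟩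
      exact ⟨D.map C.subtype, Submodule.map_subtype_le _ _, by rw [Submodule.finrank_map_subtype_eq, hD]⟩
    exact ⟨VT D T, by rw [hdim D hD1, hD2, hT]; omega, hinv D hD1 T⟩

end Cfsg.Agent.S5952
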