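import Cfsg.Statements.S5956
import Cfsg.Agent.H28.El20
import Cfsg.Agent.H16.Eo5
-- import your own Cfsg.Agent.* helpers here

set_option autoImplicit false
open scoped MatrixGroups
open Cfsg

namespace Cfsg.Agent.S5956
open H28.El Module
set_option linter.unusedVariables false
set_option linter.style.haveILetI false


/-- Elements of prime order of PSp_n(q) with no fixed nondegenerate `m`-space. Here `T = PSp_n(q)` with `n = 2d ≥ 4`, `(n, q) ≠ (4, 2)`, realised through the symplectic matrices over the field `F` with `q` elements (preserving the standard alternating form); an element of `T` of prime order `r` is such a matrix `x` with `x^r` scalar and `x` not scalar. For `r ≠ p` let `i` be the multiplicative order of `q` modulo `r`, `c = i` for `i` even and `c = 2i` for `i` odd, and write `k = n mod c`, `ℓ = m mod i`, `ℓ' = m mod c`, `n' = ⌊n/i⌋`, `m' = ⌊m/i⌋`, `t = (r−1)/i`. Let `m` be even with `2 ≤ m < n/2` and let `r` be a prime dividing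 the number of nondegenerate `m`-spaces. Then every element of `T` of order `r` fixes a nondegenerate `m`-space if and only if one of: (i) `r = p > 2` and every partition of `n` into parts of size at most `p` in which every odd part has even multiplicity contains (as a sub-multiset) a partition of `m` in which every odd part has even multiplicity; (ii) `r = p = 2` and (`n ≡ 2 (mod 4)` or `m ≡ 0 (mod 4)`); (iii) `r = 2 ≠ p`; (iv) `r ≠ p`, `r > 2`, `c ≤ m` and `k ≥ ℓ'`. -/
theorem result {F : Type*} [Field F] [Fintype F] {p : ℕ} [Fact p.Prime] [CharP F p] {q : ℕ} (hq : Fintype.card F = q)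
    (d m : ℕ) (hd : 2 ≤ d) (hT : (d, q) ≠ (2, 2)) (hm : 2 ≤ m) (hme : Even m) (hmd : m < d)
    (r : ℕ) [Fact r.Prime]
    (hrΩ : r ∣ Nat.card {W : Submodule F (Fin d ⊕ Fin d → F) // Module.finrank F ↥W = m ∧ (∀ u ∈ W, u ≠ 0 → ∃ v ∈ W, Cfsg.sympForm d F u v ≠ 0)})
    (i c : ℕ) (hi : i = orderOf (q : ZMod r)) (hc : c = if Even i then i else 2 * i) :
    (∀ x : ↥(Matrix.symplecticGroup (Fin d) F),
      (∃ z : F, ((x ^ r : ↥(Matrix.symplecticGroup (Fin d) F)) : Matrix (Fin d ⊕ Fin d) (Fin d ⊕ Fin d) F) = z • (1 : Matrix (Fin d ⊕ Fin d) (Fin d ⊕ Fin d) F)) →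
      (∀ z : F, (x : Matrix (Fin d ⊕ Fin d) (Fin d ⊕ Fin d) F) ≠ z • (1 : Matrix (Fin d ⊕ Fin d) (Fin d ⊕ Fin d) F)) →
      ∃ W : Submodule F (Fin d ⊕ Fin d → F), Module.finrank F ↥W = m ∧ (∀ u ∈ W, u ≠ 0 → ∃ v ∈ W, Cfsg.sympForm d F u v ≠ 0) ∧
        W.map (Matrix.toLin' (x : Matrix (Fin d ⊕ Fin d) (Fin d ⊕ Fin d) F)) ≤ W) ↔
    ((r = p ∧ 2 < p ∧ (∀ μ : Multiset ℕ, (∀ a ∈ μ, 0 < a ∧ a ≤ p) → (∀ a : ℕ, Odd a → Even (μ.count a)) → μ.sum = 2 * d →
        ∃ ν : Multiset ℕ, ν ≤ μ ∧ ν.sum = m ∧ ∀ a : ℕ, Odd a → Even (ν.count a))) ∨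
     (r = p ∧ p = 2 ∧ ((2 * d) % 4 = 2 ∨ m % 4 = 0)) ∨
     (r = 2 ∧ p ≠ 2) ∨
     (r ≠ p ∧ 2 < r ∧ c ≤ m ∧ m % c ≤ (2 * d) % c)) := by
  subst hq
  have hA : H09.IsAltF (H09.spForm (Fin d) F) := H09.isAltF_spForm
  have hn : finrank F (Fin d ⊕ Fin d → F) = 2 * d := by simp; omega
  haveI : Nontrivial (Fin d ⊕ Fin d → F) := nontrivial_of_finrank_pos (R := F) (by omega)
  obtain ⟨j, rfl⟩ := even_iff_two_dvd.1 hme
  obtain ⟨W₀, -, k1, k2⟩ := exists_nd_alt hA (H10.Form.nondegOn_top _) (k := j) (by rw [finrank_top]; omega)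
  have k4 : ∀ W : Submodule F (Fin d ⊕ Fin d → F), (finrank F W = 2 * j ∧ (H09.spForm (Fin d) F).NondegOn W) ↔
      Cj (H09.spForm (Fin d) F) W W₀ := fun W =>
    ⟨fun h => cj_alt hA h.2 k1 (h.1.trans k2.symm), fun h => ⟨h.finrank_eq.trans k2, h.symm.nd k1⟩⟩
  simp only [nd_sp, ← inv_iff, ← and_assoc (c := H28.El.Inv _ _), k4] at hrΩ ⊢
  simp only [and_comm (b := H28.El.Inv _ _)]
  rw [sp_iff (r := r) fun g => ∃ W, H28.El.Inv g W ∧ Cj _ W W₀]
  by_cases h : r = 2
  · subst h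
    by_cases hp : p = 2
    · subst hp
      rw [two_alt hA k1, hn, k2]
      simp only [ne_eq, not_true, true_and, false_and, lt_irrefl, or_false, false_or]
      omega
    · have h2 : (2 : F) ≠ 0 := natCast_ne_zero (F := F) Nat.prime_two (Ne.symm hp)
      refine iff_of_true (fun g hx hg => ?_) (Or.inr (Or.inr (Or.inl ⟨rfl, hp⟩)))
      have : NB (H09.spForm (Fin d) F) g ⊤ 2 := by
        rcases pe_two' hA.σ_eq hx hg with h3 | h3
        · intro U _ k1 k2 k3
          obtain ⟨X, l1, l2, l3, l4⟩ := exists_eig h2 hx h3 k1 k2 k3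
          obtain ⟨u, hu, v, hv, l5⟩ := exists_B_ne l2 l3
          exact ⟨_, (pair_le hu hv).trans l1, l4 _ (pair_le hu hv), nd_plane hA l5⟩
        · exact nb_sqm_alt h2 hA hx h3
      obtain ⟨W, -, l1, l2, l3⟩ := this.exists_sub hx two_pos j le_top inv_top (H10.Form.nondegOn_top _)
        (by rw [finrank_top]; omega)
      exact ⟨W, l1, (k4 W).1 ⟨by omega, l2⟩⟩
  have ho := odd_of_ne_two h
  rw [pe_odd hA.σ_eq ho (fun _ h => h) (fun _ h _ => h) inv_neg]
  by_cases hrp : r = p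
  · subst hrp
    simp only [← k4, and_comm (a := finrank F _ = 2 * j), H16.Eo.unip_alt hA
      (natCast_ne_zero (F := F) Nat.prime_two (Ne.symm h)) (by omega) hme, hn]
    simp only [h, ne_eq, not_true, false_and, or_false, true_and, two_lt_of_ne h]
  rw [nd_alt hA (natCast_ne_zero Fact.out hrp) ho k1 k2 (by omega) (by omega) hrΩ, hn, cc, ← hi, ← hc]
  simp only [h, hrp, two_lt_of_ne h, true_and, false_and, false_or, ne_eq, not_false_iff]

end Cfsg.Agent.S5956
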