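import Cfsg.Statements.S5974
import Cfsg.Agent.H28.El18
-- import your own Cfsg.Agent.* helpers here

set_option autoImplicit false
open scoped MatrixGroups
open Cfsg

namespace Cfsg.Agent.S5974
open H28.El Module
set_option linter.unusedVariables false
set_option linter.style.haveILetI false


/-- Elements of prime order of PΩ⁺_n(q), n = 2d ≥ 8, with no fixed nondegenerate hyperbolic `m`-space. Here `T = PΩ⁺_n(q)` is realised through `Ω⁺_n(q)`, the commutator subgroup of the isometry group of `Q = Σ xᵢyᵢ` over the field `F` with `q` elements; an element of `T` of prime order `r` is an element `x` of `Ω⁺_n(q)` with `x^r` scalar and `x` not scalar. A hyperbolic `m`-space is a subspace `W` of even dimension `m` on which the polar form of `Q` is nondegenerate and which contains a totally singular subspace of dimension `m/2`. Let `m` be even with `2 ≤ m < n/2`, and let `r` be a prime dividing the number of hyperbolic `m`-spaces, with `r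 = 2` or `r ≠ p`. For `r ≠ p` let `i` be the multiplicative order of `q` modulo `r`, `c = i` for `i` even and `c = 2i` for `i` odd, and write `k = n mod c`, `ℓ' = m mod c`. Then every element of `T` of order `r` fixes some hyperbolic `m`-space if and only if one of: (i) `r = 2` and (`n ≡ 2 (mod 4)`, or `m ≡ 0 (mod 4)`, or `q ≡ 1 (mod 4)`); (ii) `r ≠ p` odd, `i` odd, `c ≤ m` and `k ≥ ℓ'`; (iii) `r ≠ p` odd, `i` even, and either `k = 0` and (`n/i` odd, or `ℓ' = 0` and `m/i` even), or `i ≤ m` and (`k > ℓ' > 0`, or `k = ℓ' > 0` and `(n + m − 2k)/i` even, or `k > ℓ' = 0` and `m/i` even). -/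
theorem result {F : Type*} [Field F] [Fintype F] {p : ℕ} [Fact p.Prime] [CharP F p] {q : ℕ} (hq : Fintype.card F = q)
    (d m : ℕ) (hd : 4 ≤ d) (hm : 2 ≤ m) (hme : Even m) (hmd : m < d)
    (r : ℕ) [Fact r.Prime] (hr : r = 2 ∨ r ≠ p)
    (hrΩ : r ∣ Nat.card {W : Submodule F (Fin d ⊕ Fin d → F) // (Module.finrank F ↥W = m ∧ (∀ u ∈ W, u ≠ 0 → ∃ v ∈ W, QuadraticMap.polar (Cfsg.quadFormPlus d F) u v ≠ 0) ∧
          ∃ U : Submodule F (Fin d ⊕ Fin d → F), U ≤ W ∧ 2 * Module.finrank F ↥U = m ∧ ∀ u ∈ U, Cfsg.quadFormPlus d F u = 0)})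
    (i c : ℕ) (hi : i = orderOf (q : ZMod r)) (hc : c = if Even i then i else 2 * i) :
    (∀ x : GL (Fin d ⊕ Fin d) F, x ∈ Cfsg.Geo.omegaGL (Cfsg.quadFormPlus d F) →
      (∃ z : F, ((x ^ r : GL (Fin d ⊕ Fin d) F) : Matrix (Fin d ⊕ Fin d) (Fin d ⊕ Fin d) F) = z • (1 : Matrix (Fin d ⊕ Fin d) (Fin d ⊕ Fin d) F)) →
      (∀ z : F, (x : Matrix (Fin d ⊕ Fin d) (Fin d ⊕ Fin d) F) ≠ z • (1 : Matrix (Fin d ⊕ Fin d) (Fin d ⊕ Fin d) F)) →
      ∃ W : Submodule F (Fin d ⊕ Fin d → F), (Module.finrank F ↥W = m ∧ (∀ u ∈ W, u ≠ 0 → ∃ v ∈ W, QuadraticMap.polar (Cfsg.quadFormPlus d F) u v ≠ 0) ∧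
          ∃ U : Submodule F (Fin d ⊕ Fin d → F), U ≤ W ∧ 2 * Module.finrank F ↥U = m ∧ ∀ u ∈ U, Cfsg.quadFormPlus d F u = 0) ∧
        W.map (Matrix.toLin' (x : Matrix (Fin d ⊕ Fin d) (Fin d ⊕ Fin d) F)) ≤ W) ↔
    ((r = 2 ∧ ((2 * d) % 4 = 2 ∨ m % 4 = 0 ∨ q % 4 = 1)) ∨
     (r ≠ p ∧ 2 < r ∧ Odd i ∧ c ≤ m ∧ m % c ≤ (2 * d) % c) ∨
     (r ≠ p ∧ 2 < r ∧ Even i ∧
       (((2 * d) % c = 0 ∧ (Odd ((2 * d) / i) ∨ (m % c = 0 ∧ Even (m / i)))) ∨
        (i ≤ m ∧ ((m % c < (2 * d) % c ∧ 0 < m % c) ∨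
                  ((2 * d) % c = m % c ∧ 0 < m % c ∧ Even ((2 * d + m - 2 * ((2 * d) % c)) / i)) ∨
                  (0 < (2 * d) % c ∧ m % c = 0 ∧ Even (m / i))))))) := by
  subst hq
  have hQ := H10.Form.isQuad_ofQuad (H10.qPlus d F)
  have hn : finrank F (Fin d ⊕ Fin d → F) = 2 * d := by simp; omega
  obtain ⟨W₀, k1, k2, k3, k4⟩ := exists_model hQ hme (by omega) (by omega) True
  have k5 : ∀ W : Submodule F (Fin d ⊕ Fin d → F), (finrank F W = m ∧ (H10.Form.ofQuad (H10.qPlus d F)).NondegOn W ∧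
      ∃ U : Submodule F (Fin d ⊕ Fin d → F), U ≤ W ∧ 2 * finrank F U = m ∧ (H10.Form.ofQuad (H10.qPlus d F)).TS U) ↔
      Cj (H10.Form.ofQuad (H10.qPlus d F)) W W₀ := fun W => by
    rw [← k4, iff_true]
    exact and_congr_right fun h => and_congr_right' (exists_congr fun U => by rw [h]; tauto)
  simp only [← H10.coe_qPlus, nd_q', ts_q, ← inv_iff, k5, and_comm (b := H28.El.Inv _ _)] at hrΩ ⊢
  rw [om_iff (r := r) _ fun g => ∃ W, H28.El.Inv g W ∧ Cj _ W W₀]
  have he := iff_true_intro (pl_plus (F := F) d)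
  obtain ⟨j, hj⟩ := hme
  by_cases h : r = 2
  · subst h
    simp only [true_and, lt_irrefl, false_and, and_false, or_false]
    by_cases hp : p = 2
    · subst hp
      have := dvd_card_field (F := F) (p := 2)
      rw [two_quad hQ (by omega) (by simp [hn]) k1 (by simp [k2, hj]) he k3, hn, k2]
      simp only [wt, iff_self, if_true]
      omega
    · have h2 : (2 : F) ≠ 0 := natCast_ne_zero (F := F) Nat.prime_two (Ne.symm hp)
      have := odd_card h2
      rw [two_ee hQ h2 hn k1 (j := j) (by omega) (by omega) (by omega) he k3]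
      simp only [true_iff]
      omega
  have hrp := hr.resolve_left h
  have h0 := natCast_ne_zero (F := F) Fact.out hrp
  have := nd_even hQ h0 (odd_of_ne_two h) k1 k2 ⟨j, hj⟩ (by omega) (by omega) (fun _ => he) k3 hrΩ
    (pe_om hQ (by omega) (odd_of_ne_two h))
  rw [hn, cc, ← hi, ← hc] at this
  simp only [h, hrp, two_lt_of_ne h, true_and, false_and, false_or, ne_eq, not_false_iff]
  exact ar74 hc (hi ▸ ord_pos h0) this

end Cfsg.Agent.S5974
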