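import Mathlib
import Cfsg.Statements.S5975
import Cfsg.Agent.H16.Fx3

set_option autoImplicit false
open scoped MatrixGroups
open scoped Matrix
open Cfsg

namespace Cfsg.Agent.S5975

open Module H10 H10.Form H10.Mx H16.Fx

/-- Elements of prime order of PSp_n(q) and the field-extension subgroups of type Sp_{n/k}(q^k). Here `T = PSp_{2d}(F)` for a field `F` with `q` elements (`d ≥ 2`, `(d, q) ≠ (2, 2)`), realised through the matrices preserving the standard alternating form `f`; `k` is a prime and `K` is a subalgebra of the `2d × 2d` matrices that is a field of degree `k` over `F` whose elements are self-adjoint for `f` and satisfy `f(a v, v) = 0` (so `F^{2d}` becomes a vector space over `K ≅ F_{q^k}` on which `f` is the trace of a `K`-bilinear alternating form); `H` is the subgroup of `T` normalizing `K` — the symplectic maps that are `K`-linear or `K`-semilinear, a subgroup of type Sp_{2d/k}(q^k) (maximality is not assumed). Ω is the set of cosets of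 `H` in `T`, so an element of `T` of prime order `r` (`x ∈ T` with `x^r` scalar, `x` not scalar) fixes a point of Ω exactly when some `T`-conjugate of `x` normalizes `K`. Let `r` be a prime dividing the index of `H`. Then every element of `T` of order `r` fixes a point of Ω if and only if `r = 2`, `d = 2`, `k = 2` and `q` is odd. -/
theorem result {F : Type*} [Field F] [Fintype F] {p : ℕ} [Fact p.Prime] [CharP F p] {q : ℕ} (hq : Fintype.card F = q)
    (d : ℕ) (hd : 2 ≤ d) (hT : (d, q) ≠ (2, 2)) (k : ℕ) (hk : k.Prime)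
    (K : Subalgebra F (Matrix (Fin d ⊕ Fin d) (Fin d ⊕ Fin d) F)) (hK : Cfsg.Geo.IsFieldSubalgebra k K)
    (hKf : Cfsg.Geo.IsSelfAdjointFor (Cfsg.sympForm d F) K) (hKalt : ∀ a ∈ K, ∀ v : Fin d ⊕ Fin d → F, Cfsg.sympForm d F (a *ᵥ v) v = 0)
    (r : ℕ) [Fact r.Prime]
    (hΩ : r ∣ (Cfsg.Geo.subalgebraNormalizer K).relIndex (Cfsg.spGL d F)) :
    (∀ x ∈ Cfsg.spGL d F, (∃ z : F, ((x ^ r : GL (Fin d ⊕ Fin d) F) : Matrix (Fin d ⊕ Fin d) (Fin d ⊕ Fin d) F) = z • (1 : Matrix (Fin d ⊕ Fin d) (Fin d ⊕ Fin d) F)) →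
      (∀ z : F, (x : Matrix (Fin d ⊕ Fin d) (Fin d ⊕ Fin d) F) ≠ z • (1 : Matrix (Fin d ⊕ Fin d) (Fin d ⊕ Fin d) F)) →
      ∃ g ∈ Cfsg.spGL d F, g⁻¹ * x * g ∈ Cfsg.Geo.subalgebraNormalizer K) ↔
    (r = 2 ∧ d = 2 ∧ k = 2 ∧ Odd q) := by
  subst hq
  have : Nonempty (Fin d) := ⟨⟨0, by omega⟩⟩
  have ha := H09.isAltF_spForm (l := Fin d) (F := F)
  rw [spGL_eq_E, E_eq_top_of_isAltF ha] at hΩ ⊢
  rw [bridge_index, Subgroup.relIndex_top_right] at hΩ
  rw [bridge]
  refine fld_bridge hK fun E _ _ _ _ _ hE h1 h2 => ?_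
  have := Module.finite_of_finite F (M := E)
  have l0 : Algebra.trace F E ≠ 0 := Algebra.trace_ne_zero F E
  obtain ⟨β, i⟩ := exists_beta (φ := H09.spForm (Fin d) F) (sa_of h2 (H09.sympForm_eq _ · ·) hKf) l0
  have hA : LinearMap.IsAlt β := fun v => eq_zero_of_mul l0 fun k => by
    obtain ⟨a, b, e⟩ := h2 k
    simpa [e, H09.sympForm_eq, ← H09.spForm_B, i] using hKalt a b v
  have hψ := H09.isAltF_ofAlt β hA
  rw [← hE]
  exact FX.sp_sp (ψ := ofAlt β hA) ⟨l0, i, bq_alt ha, bq_alt hψ⟩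
    (fun g => (mem_nrm_iff h1 h2).trans (by simp only [toGL_mulVec]; rfl)) ha hψ (hE ▸ hk)
    (fun τ s => Algebra.trace_eq_of_algEquiv τ s) (by simp; omega) hd hΩ

end Cfsg.Agent.S5975
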