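import Mathlib
import Cfsg.Statements.S5980
import Cfsg.Agent.H16.Fx5

set_option autoImplicit false
open scoped MatrixGroups
open Cfsg

namespace Cfsg.Agent.S5980

open Module H10 H10.Form H10.As H16.Fx

/-- Elements of prime order of PSp_n(q), q odd, and the stabilizers of tensor decompositions Sp_a(q) ⊗ O_b(q). Here `T = PSp_{2d}(F)` for a field `F` with `q` elements, `q` odd, `d ≥ 2`, realised through the matrices preserving the standard alternating form `f`; `2d = a·b` with `a` even, `b ≥ 3`, and the bijection `e` and change of basis `P` exhibit `f` as a non-zero scalar multiple of the tensor product of a non-degenerate alternating form `f₁` on `F^a` and a non-degenerate symmetric bilinear form `f₂` on `F^b`; `H` is the subgroup of `T` stabilizing this tensor decomposition (the elements of `T` in the conjugate by `P` of the group of Kronecker products) — a subgroup of type Sp_a(q) ⊗ O^ε_b(q) (maximality is not assumed). Ω is the set of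 cosets of `H` in `T`, so an element of `T` of prime order `r` (`x ∈ T` with `x^r` scalar, `x` not scalar) fixes a point of Ω exactly when some `T`-conjugate of `x` lies in `H`. Let `r` be a prime dividing the index of `H`. Then every element of `T` of order `r` fixes a point of Ω if and only if `r = 2` and `a = 2`. -/
theorem result {F : Type*} [Field F] [Fintype F] {p : ℕ} [Fact p.Prime] [CharP F p] {q : ℕ} (hq : Fintype.card F = q)
    (hodd : Odd q) (d : ℕ) (hd : 2 ≤ d) (a b : ℕ) (hab : 2 * d = a * b) (ha : Even a) (ha2 : 2 ≤ a) (hb : 3 ≤ b)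
    (e : (Fin d ⊕ Fin d) ≃ Fin a × Fin b) (P : GL (Fin d ⊕ Fin d) F)
    (f₁ : (Fin a → F) → (Fin a → F) → F) (f₂ : (Fin b → F) → (Fin b → F) → F)
    (hf₁ : Cfsg.Geo.IsSymplecticForm f₁) (hf₂ : Cfsg.Geo.IsSymmetricForm f₂)
    (hS : Cfsg.Geo.IsTensorFormStructure id (Cfsg.sympForm d F) f₁ f₂ e P)
    (r : ℕ) [Fact r.Prime]
    (hΩ : r ∣ (Cfsg.Geo.tensorProductSubgroup a b e P).relIndex (Cfsg.spGL d F)) :
    (∀ x ∈ Cfsg.spGL d F, (∃ z : F, ((x ^ r : GL (Fin d ⊕ Fin d) F) : Matrix (Fin d ⊕ Fin d) (Fin d ⊕ Fin d) F) = z • (1 : Matrix (Fin d ⊕ Fin d) (Fin d ⊕ Fin d) F)) →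
      (∀ z : F, (x : Matrix (Fin d ⊕ Fin d) (Fin d ⊕ Fin d) F) ≠ z • (1 : Matrix (Fin d ⊕ Fin d) (Fin d ⊕ Fin d) F)) →
      ∃ g ∈ Cfsg.spGL d F, g⁻¹ * x * g ∈ Cfsg.Geo.tensorProductSubgroup a b e P) ↔ (r = 2 ∧ a = 2) := by
  subst hq
  have hA := H09.isAltF_spForm (l := Fin d) (F := F)
  have h2 := H28.El.two_ne_of_odd hodd
  rw [spGL_eq_E, E_eq_top_of_isAltF hA] at hΩ ⊢
  rw [bridge_index, Subgroup.relIndex_top_right] at hΩ
  rw [bridge]
  obtain ⟨c, hc, h⟩ := H24.NM.tau_form (σ := .id F) (sf_of_symp hf₁).toSq (sf_of_symm hf₂).toSq hS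
  obtain ⟨φ₁, _, h₁, k1⟩ := exists_ofAlt hf₁
  obtain ⟨Q, hQ, _⟩ := exists_ofQuad ((sf_of_symm hf₂).quad h2)
  have h3 : ∀ x y, (ofQuad Q).B x y = 2 * f₂ x y := fun x y => by rw [ofQuad_B, hQ, (sf_of_symm hf₂).polar_eq]
  have := (tp_tau e P).sp_tens (φ₁ := φ₁) (φ₂ := ofQuad Q) (c := -c / 2) (by simp [hc, h2]) (fun x y x' y' => by
    rw [H09.spForm_B, ← H09.sympForm_eq, h, k1, h3, hf₁.skew x']; field_simp) h2 hA h₁ (isQuad_ofQuad Q)
    (by simp; omega) (by simpa) (fun g hg => by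
      obtain ⟨a, b, e⟩ := (mem_tens e P).1 hg
      exact ⟨_, _, toLin'_toGL g ▸ e⟩) (fun g A B l1 l2 l3 => (mem_tens e P).2 ⟨φ₁.toGL (φ₁.toIsom A),
        (ofQuad Q).toGL ((ofQuad Q).toIsom B), by
          rwa [toLin'_toGL, toLin'_toGL, toLin'_toGL, φ₁.toIsom_coe l1, (ofQuad Q).toIsom_coe l2]⟩) hΩ
  simpa using this

end Cfsg.Agent.S5980
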