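import Cfsg.Statements.S5981
import Cfsg.Agent.H28.El25
-- import your own Cfsg.Agent.* helpers here

set_option autoImplicit false
open scoped MatrixGroups
open Cfsg

namespace Cfsg.Agent.S5981
open H28.El Module
set_option linter.unusedVariables false
set_option linter.style.haveILetI false


/-- Elements of prime order of PSL_n(q), q odd, and the subgroups of orthogonal type. Here `T = PSL_n(F)` for a field `F` with `q` elements, `q` odd, `n ≥ 3`; `Q` is a non-degenerate quadratic form on `F^n` (of either type when `n` is even) and `H` is the subgroup of matrices of determinant 1 that preserve `Q` up to a scalar — a subgroup of type O^ε_n(q) (maximality is not assumed); Ω is the set of cosets of `H` in `T`, so an element of `T` of prime order `r` (a matrix `x` of determinant 1 with `x^r` scalar, `x` not scalar) fixes a point of Ω exactly when some conjugate of `x` by a matrix of determinant 1 preserves `Q` up to a scalar. Let `r` be a prime dividing the index of `H`, with `(n, r) ≠ (6, 3)`. Then every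 element of `T` of order `r` fixes a point of Ω if and only if `r = 2`, or `r ∈ {3, 5}`, `n = r` and `(q − 1)_r = r` (the `r`-part of `q − 1` is exactly `r`). The case `(n, r) = (6, 3)` is not covered by this statement. -/
theorem result {F : Type*} [Field F] [Fintype F] {p : ℕ} [Fact p.Prime] [CharP F p] {q : ℕ} (hq : Fintype.card F = q)
    (hodd : Odd q) (n : ℕ) (hn : 3 ≤ n) (Q : (Fin n → F) → F) (hQ : Cfsg.Geo.IsNondegenerateQuadraticForm Q)
    (r : ℕ) [Fact r.Prime] (hgap : ¬ (n = 6 ∧ r = 3))
    (hΩ : r ∣ (Cfsg.Geo.quadSimilarityGroup Q).relIndex (Cfsg.Geo.specialLinear (Fin n) F)) :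
    (∀ x ∈ Cfsg.Geo.specialLinear (Fin n) F, (∃ z : F, ((x ^ r : GL (Fin n) F) : Matrix (Fin n) (Fin n) F) = z • (1 : Matrix (Fin n) (Fin n) F)) →
      (∀ z : F, (x : Matrix (Fin n) (Fin n) F) ≠ z • (1 : Matrix (Fin n) (Fin n) F)) →
      ∃ g ∈ Cfsg.Geo.specialLinear (Fin n) F, g⁻¹ * x * g ∈ Cfsg.Geo.quadSimilarityGroup Q) ↔
    (r = 2 ∨ ((r = 3 ∨ r = 5) ∧ n = r ∧ padicValNat r (q - 1) = 1)) := by
  obtain ⟨Q, rfl, _⟩ := H10.exists_ofQuad hQ
  haveI : Nonempty (Fin n) := ⟨⟨0, by omega⟩⟩
  subst hq
  have h2 := two_ne_of_odd hodd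
  have h := sim_quad (H10.Form.isQuad_ofQuad Q) h2 (by simpa) (by simpa only [finrank_fin_fun]) (idx_sim (mem_quadSim h2) hΩ)
  simp only [sc_gl, ← gc_iff (mem_quadSim h2), finrank_fin_fun] at h ⊢
  rw [sl_iff' (SC _)]
  by_cases h0 : (r : F) ≠ 0 ∨ r = 2
  · rwa [sc_iff h0]
  · rw [not_or, not_not, ← CharP.charP_iff_prime_eq_zero Fact.out] at h0
    haveI := h0.1
    have h1 := (not_congr h).2 fun k => k.elim h0.2 fun k => not_dvd_pow_sub_one (F := F) one_pos
      (by simpa using dvd_of_one_le_padicValNat k.2.2.ge)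
    exact iff_of_false (fun k => h1 fun g k1 k2 => (k g k1 k2).gc) (h1 ∘ h.2)

end Cfsg.Agent.S5981
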