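import Mathlib
import Cfsg.Statements.S5983
import Cfsg.Agent.H16.Eo3

set_option autoImplicit false
open scoped MatrixGroups
open Cfsg

namespace Cfsg.Agent.S5983

open Module H28.El H10 H10.Form Matrix

/-- Elements of prime order of PSp_n(q), q even, and the subgroups of orthogonal type. Here `T = Sp_{2d}(F)` for a field `F` of characteristic 2 with `q` elements (`d ≥ 2`, `(d, q) ≠ (2, 2)`), realised as the invertible matrices preserving the standard alternating form; `Q` is a non-degenerate quadratic form on `F^{2d}` whose polar form is that alternating form, and `H` is the subgroup of `T` preserving `Q` up to a scalar (equivalently preserving `Q`) — a subgroup of type O^±_{2d}(q) (maximality is not assumed); `Q` is of plus type when `F^{2d}` contains a `d`-dimensional subspace on which `Q` vanishes, of minus type otherwise. Ω is the set of cosets of `H` in `T`, so an element of `T` of prime order `r` (`x ∈ T` with `x^r` scalar,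 `x` not scalar) fixes a point of Ω exactly when some `T`-conjugate of `x` preserves `Q`. Let `r` be a prime dividing the index of `H`. Then every element of `T` of order `r` fixes a point of Ω if and only if `r = 2` and either `Q` is of plus type or `d` is odd. -/
theorem result {F : Type*} [Field F] [Fintype F] {p : ℕ} [Fact p.Prime] [CharP F p] {q : ℕ} (hq : Fintype.card F = q)
    (hp : p = 2) (d : ℕ) (hd : 2 ≤ d) (hT : (d, q) ≠ (2, 2)) (Q : (Fin d ⊕ Fin d → F) → F) (hQ : Cfsg.Geo.IsNondegenerateQuadraticForm Q)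
    (hQf : ∀ u v, QuadraticMap.polar Q u v = Cfsg.sympForm d F u v)
    (r : ℕ) [Fact r.Prime]
    (hΩ : r ∣ (Cfsg.Geo.quadSimilarityGroup Q).relIndex (Cfsg.spGL d F)) :
    (∀ x ∈ Cfsg.spGL d F, (∃ z : F, ((x ^ r : GL (Fin d ⊕ Fin d) F) : Matrix (Fin d ⊕ Fin d) (Fin d ⊕ Fin d) F) = z • (1 : Matrix (Fin d ⊕ Fin d) (Fin d ⊕ Fin d) F)) →
      (∀ z : F, (x : Matrix (Fin d ⊕ Fin d) (Fin d ⊕ Fin d) F) ≠ z • (1 : Matrix (Fin d ⊕ Fin d) (Fin d ⊕ Fin d) F)) →
      ∃ g ∈ Cfsg.spGL d F, g⁻¹ * x * g ∈ Cfsg.Geo.quadSimilarityGroup Q) ↔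
    (r = 2 ∧ (Cfsg.Geo.IsPlusTypeOn Q ⊤ ∨ Odd d)) := by
  subst hp
  obtain ⟨Q, rfl, hn⟩ := H10.exists_ofQuad hQ
  have hs := fun g => H16.Eo.mem_sim_iff (g := g) (by omega) hQf
  have hB : ∀ x y, (ofQuad Q).B x y = (H09.spForm (Fin d) F).B x y := fun x y => (hQf x y).trans (H09.sympForm_eq _ _ _)
  have hm : ∀ k : (H09.spForm (Fin d) F).Isom, (H09.spForm (Fin d) F).toGL k ∈ Cfsg.spGL d F := fun k => by
    rw [spGL_eq_E, E_eq_top_of_isAltF H09.isAltF_spForm]; exact ⟨k, trivial, rfl⟩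
  have hm' : ∀ g ∈ Cfsg.spGL d F, ∃ k, (H09.spForm (Fin d) F).toGL k = g := fun g hg => by
    rw [spGL_eq_E] at hg; exact hg.imp fun _ h => h.2
  have key : ∀ x k : (H09.spForm (Fin d) F).Isom, ((H09.spForm (Fin d) F).toGL k)⁻¹ * (H09.spForm (Fin d) F).toGL x *
      (H09.spForm (Fin d) F).toGL k ∈ Cfsg.Geo.quadSimilarityGroup Q ↔
        (ofQuad Q).IsIsom ⇑(((k⁻¹).1 : End F (Fin d ⊕ Fin d → F)) * (x.1 : End F (Fin d ⊕ Fin d → F)) * (k.1 : End F (Fin d ⊕ Fin d → F))) := fun x k => by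
    rw [← map_inv, ← map_mul, ← map_mul, hs _ (hm _)]
    simp only [toGL_mulVec]
    exact ⟨fun h => ofQuad_isIsom h, fun h => h.Q⟩
  rw [pl_q]
  refine Iff.trans ⟨fun H g h1 h2 => ?_, fun H x hx h1 h2 => ?_⟩ (H16.Eo.spo_iff H09.isAltF_spForm (isQuad_ofQuad Q) hB (d := d)
    (by simp; omega) (by omega) ?_ hΩ)
  · obtain ⟨g, rfl⟩ : ∃ x : (H09.spForm (Fin d) F).Isom, (x.1 : End F (Fin d ⊕ Fin d → F)) = g := ⟨_, toIsom_coe _ h1⟩
    rw [← toLin'_toGL, pe_toLin'] at h2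
    obtain ⟨k, hk, h3⟩ := H _ (hm g) h2.1 h2.2
    obtain ⟨k, rfl⟩ := hm' k hk
    exact ⟨k, (key g k).1 h3⟩
  · obtain ⟨x, rfl⟩ := hm' x hx
    obtain ⟨k, hk⟩ := H x.1 x.2 (by rw [← toLin'_toGL, pe_toLin']; exact ⟨h1, h2⟩)
    exact ⟨_, hm k, (key x k).2 hk⟩
  · rw [← Nat.card_congr (isometryEquiv Q).toEquiv, ← Nat.card_congr (H09.spIsomEquiv (Fin d) F).toEquiv,
      Nat.card_congr (H09.spEquivSpGL d).toEquiv, mul_comm, Subgroup.relIndex, ← Subgroup.card_mul_index
        ((Cfsg.Geo.quadSimilarityGroup Q).subgroupOf (Cfsg.spGL d F)), ← Subgroup.inf_subgroupOf_right,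
      Nat.card_congr (Subgroup.subgroupOfEquivOfLe inf_le_right).toEquiv]
    congr 3
    ext g
    refine ⟨fun h => ?_, fun h u v => (hs g h.2).1 h.1 u⟩
    have h1 : g ∈ Cfsg.spGL d F := fun u v => by
      rw [← hQf, ← hQf]
      exact (ofQuad_isIsom (g := toLin' g.1) fun v => h v v).B u v
    exact ⟨(hs g h1).2 fun v => h v v, h1⟩

end Cfsg.Agent.S5983
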