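import Cfsg.Statements.S5984
import Cfsg.Agent.H28.El23
-- import your own Cfsg.Agent.* helpers here

set_option autoImplicit false
open scoped MatrixGroups
open Cfsg

namespace Cfsg.Agent.S5984
open H28.El Module
set_option linter.unusedVariables false
set_option linter.style.haveILetI false


/-- Elements of prime order of PSU_n(q) and the stabilizers of pairs of complementary totally singular subspaces. Here `T = PSU_n(q)` is realised through `SU_n(q)`, the matrices of determinant 1 over the field `F` with `q²` elements preserving the hermitian form `Σ uᵢ vᵢ^q`, with `n ≥ 4` even; `D` is a pair of complementary subspaces of dimension `n/2` on each of which the form vanishes identically, and `H` is the subgroup of `SU_n(q)` fixing or interchanging the two members — a subgroup of type GL_{n/2}(q²).2 (maximality is not assumed). Ω is the set of cosets of `H`, so an element of `T` of prime order `r` (`x ∈ SU_n(q)` with `x^r` scalar, `x` not scalar) fixes a point of Ω exactly when some `SU_n(q)`-conjugate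 of `x` lies in `H`. Let `r` be a prime dividing the index of `H`. Then every element of `T` of order `r` fixes a point of Ω if and only if `r = 2`, `q` is odd and `(q + 1)_2 ≤ (n)_2` (2-parts). -/
theorem result {F : Type*} [Field F] [Fintype F] {p : ℕ} [Fact p.Prime] [CharP F p] {q : ℕ} (hq : Fintype.card F = q ^ 2)
    (n : ℕ) (hn : 4 ≤ n) (he : Even n) (D : Fin 2 → Submodule F (Fin n → F)) (hD : Cfsg.Geo.IsMDecomposition (n / 2) D)
    (hDs : ∀ i, Cfsg.Geo.IsTotallySingularFor (Cfsg.hermForm n F q) (D i))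
    (r : ℕ) [Fact r.Prime]
    (hΩ : r ∣ (Cfsg.Geo.decompositionStabilizer D).relIndex (Cfsg.GU n F q ⊓ Cfsg.Geo.specialLinear (Fin n) F)) :
    (∀ x ∈ Cfsg.GU n F q ⊓ Cfsg.Geo.specialLinear (Fin n) F, (∃ z : F, ((x ^ r : GL (Fin n) F) : Matrix (Fin n) (Fin n) F) = z • (1 : Matrix (Fin n) (Fin n) F)) →
      (∀ z : F, (x : Matrix (Fin n) (Fin n) F) ≠ z • (1 : Matrix (Fin n) (Fin n) F)) →
      ∃ g ∈ Cfsg.GU n F q ⊓ Cfsg.Geo.specialLinear (Fin n) F, g⁻¹ * x * g ∈ Cfsg.Geo.decompositionStabilizer D) ↔
    (r = 2 ∧ Odd q ∧ padicValNat 2 (q + 1) ≤ padicValNat 2 n) := by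
  have hF : Nat.card F = q ^ 2 := Nat.card_eq_fintype_card.trans hq
  have hU := H10.stdU_isUnitary hF n
  have h1 : (H10.stdU hF n).TSPair (D 0) (D 1) := ⟨(ts_u hF).1 (hDs 0), (ts_u hF).1 (hDs 1),
    H10.isCompl_of_fin_two hD.indep hD.iSup_eq_top⟩
  have h0 : D 0 ≠ ⊥ := fun h => by have := hD.finrank_eq 0; rw [h, finrank_bot] at this; omega
  obtain ⟨d, rfl⟩ := he.two_dvd
  rw [H10.SU_eq hF, ← Subgroup.relIndex_comap] at hΩ
  rw [su_iff' hF h1 h0, lp_unit hU (d := d) (by simp) (by omega) h1 (hΩ.trans (index_pairs hU h1 h0 fun k hk =>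
    H10.toGL_mem_decomp_two.2 (Or.inl ⟨(H10.Form.mem_stab_iff_map _).1 hk.1, (H10.Form.mem_stab_iff_map _).1 hk.2⟩)))]
  simp

end Cfsg.Agent.S5984
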