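import Cfsg.Statements.S5988
import Cfsg.Agent.H28.El18
import Cfsg.Agent.H16.Eo6
-- import your own Cfsg.Agent.* helpers here

set_option autoImplicit false
open scoped MatrixGroups
open Cfsg

namespace Cfsg.Agent.S5988
open H28.El Module
set_option linter.unusedVariables false
set_option linter.style.haveILetI false


/-- Elements of prime order of PΩ⁺_n(q) with no fixed elliptic `m`-space. Here `T = PΩ⁺_n(F)`, `n = 2d ≥ 8`, realised through `Ω⁺_n(q)`, the commutator subgroup of the isometry group of `Q = Σ xᵢyᵢ` over the field `F` with `q` elements; an element of `T` of prime order `r` is an element `x` of `Ω⁺_n(q)` with `x^r` scalar and `x` not scalar; a nondegenerate `m`-space (even `m`) is a subspace on which the polar form of `Q` is nondegenerate; it is hyperbolic if it contains an `m/2`-dimensional subspace on which `Q` vanishes, elliptic otherwise. Let `m` be even with `2 ≤ m < n/2` and let `r` be a prime dividing the number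 of elliptic `m`-spaces; for `r ≠ p` let `i` be the multiplicative order of `q` modulo `r`, `c = i` for `i` even and `c = 2i` for `i` odd, and write `k = n mod c`, `ℓ = m mod i`, `ℓ' = m mod c`, `n' = ⌊n/i⌋`, `m' = ⌊m/i⌋`, `t = (r−1)/i`. Then every element of `T` of order `r` fixes some elliptic `m`-space if and only if one of: (i) `r = 2 ≠ p` and either `n ≡ 0 (mod 4)`, `q ≡ 3 (mod 4)` and `m ≡ 2 (mod 4)`, or `n ≡ 2 (mod 4)` and `q ≢ 1 (mod 8)`; (ii) `r ≠ p` odd, `i` odd, `c ≤ m` and `k > ℓ' > 0`; (iii) `r ≠ p` odd, `i` even, and either `k = 0` and (`n/i` odd, or `ℓ' = 0` and `m/i` odd), or `i ≤ m` and (`k > ℓ' > 0`, or `k = ℓ' > 0` and `(n + m − 2k)/i` odd, or `k > ℓ' = 0` and `m/i` odd). (For `r = p` there is always an element of order `p` fixing no elliptic `m`-space.) -/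
theorem result {F : Type*} [Field F] [Fintype F] {p : ℕ} [Fact p.Prime] [CharP F p] {q : ℕ} (hq : Fintype.card F = q)
    (d m : ℕ) (hd : 4 ≤ d) (hm : 2 ≤ m) (hme : Even m) (hmd : m < d)
    (r : ℕ) [Fact r.Prime]
    (hrΩ : r ∣ Nat.card {W : Submodule F (Fin d ⊕ Fin d → F) // Module.finrank F ↥W = m ∧ Cfsg.Geo.IsNondegenerateOn (QuadraticMap.polar (Cfsg.quadFormPlus d F)) W ∧ ¬ Cfsg.Geo.IsPlusTypeOn (Cfsg.quadFormPlus d F) W})
    (i c : ℕ) (hi : i = orderOf (q : ZMod r)) (hc : c = if Even i then i else 2 * i) :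
    (∀ x : GL (Fin d ⊕ Fin d) F, x ∈ Cfsg.Geo.omegaGL (Cfsg.quadFormPlus d F) →
      (∃ z : F, ((x ^ r : GL (Fin d ⊕ Fin d) F) : Matrix (Fin d ⊕ Fin d) (Fin d ⊕ Fin d) F) = z • (1 : Matrix (Fin d ⊕ Fin d) (Fin d ⊕ Fin d) F)) →
      (∀ z : F, (x : Matrix (Fin d ⊕ Fin d) (Fin d ⊕ Fin d) F) ≠ z • (1 : Matrix (Fin d ⊕ Fin d) (Fin d ⊕ Fin d) F)) →
      ∃ W : Submodule F (Fin d ⊕ Fin d → F), (Module.finrank F ↥W = m ∧ Cfsg.Geo.IsNondegenerateOn (QuadraticMap.polar (Cfsg.quadFormPlus d F)) W ∧ ¬ Cfsg.Geo.IsPlusTypeOn (Cfsg.quadFormPlus d F) W) ∧ W.map (Matrix.toLin' (x : Matrix (Fin d ⊕ Fin d) (Fin d ⊕ Fin d) F)) ≤ W) ↔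
    ((r = 2 ∧ p ≠ 2 ∧ ((Even d ∧ q % 4 = 3 ∧ m % 4 = 2) ∨ (Odd d ∧ q % 8 ≠ 1))) ∨
     (r ≠ p ∧ 2 < r ∧ Odd i ∧ c ≤ m ∧ 0 < m % c ∧ m % c < (2 * d) % c) ∨
     (r ≠ p ∧ 2 < r ∧ Even i ∧
       (((2 * d) % c = 0 ∧ (Odd ((2 * d) / i) ∨ (m % c = 0 ∧ Odd (m / i)))) ∨
        (i ≤ m ∧ ((0 < m % c ∧ m % c < (2 * d) % c) ∨
                  (0 < m % c ∧ m % c = (2 * d) % c ∧ Odd ((2 * d + m - 2 * ((2 * d) % c)) / i)) ∨
                  (m % c = 0 ∧ 0 < (2 * d) % c ∧ Odd (m / i))))))) := by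
  subst hq
  have hQ := H10.Form.isQuad_ofQuad (H10.qPlus d F)
  have hn : finrank F (Fin d ⊕ Fin d → F) = 2 * d := by simp; omega
  obtain ⟨W₀, k1, k2, k3, k4⟩ := exists_model hQ hme (by omega) (by omega) False
  simp only [iff_false] at k4
  simp only [← H10.coe_qPlus, nd_q, pl_q, ← inv_iff, k4, and_comm (b := H28.El.Inv _ _)] at hrΩ ⊢
  rw [om_iff (r := r) _ fun g => ∃ W, H28.El.Inv g W ∧ Cj _ W W₀]
  have he := iff_true_intro (pl_plus (F := F) d)
  obtain ⟨j, hj⟩ := hme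
  by_cases h : r = 2
  · subst h
    simp only [true_and, lt_irrefl, false_and, and_false, or_false, Nat.even_iff, Nat.odd_iff]
    by_cases hp : p = 2
    · subst hp
      rw [two_quad hQ (by omega) (by simp [hn]) k1 (by simp [k2, hj]) he k3, hn, k2]
      simp only [wt, iff_false, if_true, if_false, ne_eq, not_true, false_and]
      omega
    · have h2 : (2 : F) ≠ 0 := natCast_ne_zero (F := F) Nat.prime_two (Ne.symm hp)
      have := odd_card h2
      rw [two_ee hQ h2 hn k1 (j := j) (by omega) (by omega) (by omega) he k3]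
      simp only [false_iff, true_iff]
      omega
  have ho := odd_of_ne_two h
  by_cases hrp : r = p
  · subst hrp
    simp only [h, ne_eq, not_true, false_and, or_false, iff_false, pe_om hQ (by omega) ho]
    obtain ⟨y, l1, l2, l3, l4⟩ := H16.Eo.der_plus_minus r hQ (natCast_ne_zero (F := F) Nat.prime_two (Ne.symm h)) hn
      (by omega) (pl_plus d)
    intro H
    obtain ⟨W, l5, l6⟩ := H y l1.isom l2 l3
    exact k3.1 (l6.pl.1 (l4 W l5 (l6.symm.nd k1) ⟨j, l6.finrank_eq.trans (k2.trans hj)⟩))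
  have h0 := natCast_ne_zero (F := F) Fact.out hrp
  have := nd_even hQ h0 ho k1 k2 ⟨j, hj⟩ (by omega) (by omega) (fun _ => he) k3 hrΩ (pe_om hQ (by omega) ho)
  rw [hn, cc, ← hi, ← hc] at this
  simp only [h, hrp, two_lt_of_ne h, true_and, false_and, false_or, ne_eq, not_false_iff]
  exact ar88 hc (hi ▸ ord_pos h0) this

end Cfsg.Agent.S5988
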