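import Cfsg.Statements.S5989
import Cfsg.Agent.H28.El18
import Cfsg.Agent.H16.Eo6
-- import your own Cfsg.Agent.* helpers here

set_option autoImplicit false
open scoped MatrixGroups
open Cfsg

namespace Cfsg.Agent.S5989
open H28.El Module
set_option linter.unusedVariables false
set_option linter.style.haveILetI false


/-- Elements of prime order of PΩ⁺_n(q), q odd, with no fixed nondegenerate `m`-space of odd dimension. Here `T = PΩ⁺_n(F)`, `n = 2d ≥ 8`, realised through `Ω⁺_n(q)`, the commutator subgroup of the isometry group of `Q = Σ xᵢyᵢ` over the field `F` with `q` elements; an element of `T` of prime order `r` is an element `x` of `Ω⁺_n(q)` with `x^r` scalar and `x` not scalar; `q` and `m` are odd, `1 ≤ m < n/2`. The nondegenerate `m`-spaces (subspaces on which the polar form is nondegenerate) fall into two isometry classes, each an orbit of `T`, and the two actions are equivalent; fix one such space `W₀` and let Ω be the set of nondegenerate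 `m`-spaces isometric to `W₀` (some linear isomorphism preserves `Q`). Let `r` be a prime dividing the size of Ω; for `r ≠ p` let `i` be the multiplicative order of `q` modulo `r`, `c = i` for `i` even and `c = 2i` for `i` odd, and write `k = n mod c`, `ℓ = m mod i`, `ℓ' = m mod c`, `n' = ⌊n/i⌋`, `m' = ⌊m/i⌋`, `t = (r−1)/i`. Then every element of `T` of order `r` fixes a member of Ω if and only if one of: (i) `r = 2`, `n ≡ 2 (mod 4)` and `q ≢ 1 (mod 8)`; (ii) `r ≠ p` odd, `i` odd, `c ≤ m` and `k > ℓ' > 0`; (iii) `r ≠ p` odd, `i` even, and either `k = 0` and `n/i` odd, or `i ≤ m` and `k > ℓ' > 0`. (For `r = p` there is always an element of order `p` fixing no member of Ω.) -/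
theorem result {F : Type*} [Field F] [Fintype F] {p : ℕ} [Fact p.Prime] [CharP F p] {q : ℕ} (hq : Fintype.card F = q)
    (hodd : Odd q) (d m : ℕ) (hd : 4 ≤ d) (hm : Odd m) (hmd : m < d)
    (W₀ : Submodule F (Fin d ⊕ Fin d → F)) (hW₀ : Module.finrank F ↥W₀ = m ∧ Cfsg.Geo.IsNondegenerateOn (QuadraticMap.polar (Cfsg.quadFormPlus d F)) W₀)
    (r : ℕ) [Fact r.Prime]
    (hrΩ : r ∣ Nat.card {W : Submodule F (Fin d ⊕ Fin d → F) // Module.finrank F ↥W = m ∧ Cfsg.Geo.IsNondegenerateOn (QuadraticMap.polar (Cfsg.quadFormPlus d F)) W ∧ Cfsg.Geo.AreIsometricFor (Cfsg.quadFormPlus d F) W W₀})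
    (i c : ℕ) (hi : i = orderOf (q : ZMod r)) (hc : c = if Even i then i else 2 * i) :
    (∀ x : GL (Fin d ⊕ Fin d) F, x ∈ Cfsg.Geo.omegaGL (Cfsg.quadFormPlus d F) →
      (∃ z : F, ((x ^ r : GL (Fin d ⊕ Fin d) F) : Matrix (Fin d ⊕ Fin d) (Fin d ⊕ Fin d) F) = z • (1 : Matrix (Fin d ⊕ Fin d) (Fin d ⊕ Fin d) F)) →
      (∀ z : F, (x : Matrix (Fin d ⊕ Fin d) (Fin d ⊕ Fin d) F) ≠ z • (1 : Matrix (Fin d ⊕ Fin d) (Fin d ⊕ Fin d) F)) →
      ∃ W : Submodule F (Fin d ⊕ Fin d → F), (Module.finrank F ↥W = m ∧ Cfsg.Geo.IsNondegenerateOn (QuadraticMap.polar (Cfsg.quadFormPlus d F)) W ∧ Cfsg.Geo.AreIsometricFor (Cfsg.quadFormPlus d F) W W₀) ∧ W.map (Matrix.toLin' (x : Matrix (Fin d ⊕ Fin d) (Fin d ⊕ Fin d) F)) ≤ W) ↔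
    ((r = 2 ∧ Odd d ∧ q % 8 ≠ 1) ∨
     (r ≠ p ∧ 2 < r ∧ Odd i ∧ c ≤ m ∧ 0 < m % c ∧ m % c < (2 * d) % c) ∨
     (r ≠ p ∧ 2 < r ∧ Even i ∧ (((2 * d) % c = 0 ∧ Odd ((2 * d) / i)) ∨ (i ≤ m ∧ 0 < m % c ∧ m % c < (2 * d) % c)))) := by
  subst hq
  have h2 := two_ne_of_odd hodd
  have hQ := H10.Form.isQuad_ofQuad (H10.qPlus d F)
  have hn : finrank F (Fin d ⊕ Fin d → F) = 2 * d := by simp; omega
  obtain ⟨k2, k1⟩ := hW₀
  simp only [← H10.coe_qPlus, nd_q] at k1
  simp only [← H10.coe_qPlus, nd_q, iso_q, ← inv_iff, cj_iff' k1 k2, and_comm (b := H28.El.Inv _ _)] at hrΩ ⊢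
  rw [om_iff (r := r) _ fun g => ∃ W, H28.El.Inv g W ∧ Cj _ W W₀]
  have he := iff_true_intro (pl_plus (F := F) d)
  by_cases h : r = 2
  · subst h
    simp only [true_and, lt_irrefl, false_and, and_false, or_false, Nat.odd_iff]
    have := odd_card h2
    rw [two_eo hQ h2 hn k1 (k2 ▸ hm) (by omega) he]
    simp only [true_iff, imp_false]
    omega
  have ho := odd_of_ne_two h
  by_cases hrp : r = p
  · subst hrp
    simp only [h, ne_eq, not_true, false_and, or_false, iff_false, pe_om hQ (by omega) ho]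
    obtain ⟨y, l1, l2, l3, l4⟩ := H16.Eo.der_odd_dim r hQ h2 hn hd hm W₀
    intro H
    obtain ⟨W, l5, l6⟩ := H y l1.isom l2 l3
    exact l4 W l5 (l6.symm.nd k1) (l6.finrank_eq.trans k2) l6.equiv
  have h0 := natCast_ne_zero (F := F) Fact.out hrp
  have := nd_odd hQ h2 h0 ho k1 k2 hm (by simp [hn]) (by omega) he hrΩ (pe_om hQ (by omega) ho)
  rw [hn, cc, ← hi, ← hc] at this
  simp only [h, hrp, two_lt_of_ne h, true_and, false_and, false_or, ne_eq, not_false_iff]
  exact ar89 hc (hi ▸ ord_pos h0) (by omega) (Nat.odd_iff.1 hm) this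

end Cfsg.Agent.S5989
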