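import Cfsg.Statements.S5993
import Cfsg.Agent.H28.El18
import Cfsg.Agent.H16.Eo6
-- import your own Cfsg.Agent.* helpers here

set_option autoImplicit false
open scoped MatrixGroups
open Cfsg

namespace Cfsg.Agent.S5993
open H28.El Module
set_option linter.unusedVariables false
set_option linter.style.haveILetI false


/-- Elements of prime order of Ω_n(q), nq odd, with no fixed elliptic `m`-space. Here `T = Ω_n(F)`, `n = 2d+1 ≥ 7`, `q` odd, realised as the commutator subgroup of the isometry group of `Q = x₀² + Σ xᵢyᵢ` over the field `F` with `q` elements (trivial centre, so its elements of prime order `r` are used directly); a nondegenerate `m`-space (even `m`) is a subspace on which the polar form of `Q` is nondegenerate; it is hyperbolic if it contains an `m/2`-dimensional subspace on which `Q` vanishes, elliptic otherwise. Let `m` be even with `2 ≤ m ≤ n − 1` (no restriction `m < n/2`) and let `r` be a prime dividing the number of elliptic `m`-spaces;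 for `r ≠ p` let `i` be the multiplicative order of `q` modulo `r`, `c = i` for `i` even and `c = 2i` for `i` odd, and write `k = n mod c`, `ℓ' = m mod c`. Then every element of `T` of order `r` fixes some elliptic `m`-space if and only if `r = 2`, or `r ≠ p` is odd and one of: (i) `i` odd, `c ≤ m` and `k > ℓ' > 0`; (ii) `i` even, `i ≤ m`, `k > ℓ'`, and `m/i` odd whenever `ℓ' = 0`. (For `r = p` there is always an element of order `p` fixing no elliptic `m`-space.) -/
theorem result {F : Type*} [Field F] [Fintype F] {p : ℕ} [Fact p.Prime] [CharP F p] {q : ℕ} (hq : Fintype.card F = q) (hqodd : Odd q)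
    (d m : ℕ) (hd : 3 ≤ d) (hm : 2 ≤ m) (hme : Even m) (hmn : m ≤ 2 * d)
    (r : ℕ) [Fact r.Prime]
    (hrΩ : r ∣ Nat.card {W : Submodule F (Unit ⊕ (Fin d ⊕ Fin d) → F) // Module.finrank F ↥W = m ∧ Cfsg.Geo.IsNondegenerateOn (QuadraticMap.polar (Cfsg.quadFormOdd d F)) W ∧ ¬ Cfsg.Geo.IsPlusTypeOn (Cfsg.quadFormOdd d F) W})
    (i c : ℕ) (hi : i = orderOf (q : ZMod r)) (hc : c = if Even i then i else 2 * i) :
    (∀ x : GL (Unit ⊕ (Fin d ⊕ Fin d)) F, x ∈ Cfsg.Geo.omegaGL (Cfsg.quadFormOdd d F) → orderOf x = r →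
      ∃ W : Submodule F (Unit ⊕ (Fin d ⊕ Fin d) → F), (Module.finrank F ↥W = m ∧ Cfsg.Geo.IsNondegenerateOn (QuadraticMap.polar (Cfsg.quadFormOdd d F)) W ∧ ¬ Cfsg.Geo.IsPlusTypeOn (Cfsg.quadFormOdd d F) W) ∧ W.map (Matrix.toLin' (x : Matrix (Unit ⊕ (Fin d ⊕ Fin d)) (Unit ⊕ (Fin d ⊕ Fin d)) F)) ≤ W) ↔
    (r = 2 ∨
     (r ≠ p ∧ 2 < r ∧ Odd i ∧ c ≤ m ∧ 0 < m % c ∧ m % c < (2 * d + 1) % c) ∨
     (r ≠ p ∧ 2 < r ∧ Even i ∧ i ≤ m ∧ m % c < (2 * d + 1) % c ∧ (0 < m % c ∨ Odd (m / i)))) := by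
  subst hq
  have h2 := two_ne_of_odd hqodd
  haveI := H10.qOdd_nondeg (m := d) h2
  have hQ := H10.Form.isQuad_ofQuad (H10.qOdd d F)
  have hn : finrank F (Unit ⊕ (Fin d ⊕ Fin d) → F) = 2 * d + 1 := by simp; omega
  obtain ⟨W₀, k1, k2, k3, k4⟩ := exists_model hQ hme (by omega) (by omega) False
  simp only [iff_false] at k4
  simp only [← H10.coe_qOdd, nd_q, pl_q, ← inv_iff, k4, and_comm (b := H28.El.Inv _ _)] at hrΩ ⊢
  rw [om_iff' (r := r) _ fun g => ∃ W, H28.El.Inv g W ∧ Cj _ W W₀]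
  by_cases h : r = 2
  · subst h
    exact iff_of_true (invol_cj hQ h2 k1 (by omega) (by omega)) (Or.inl rfl)
  have ho := odd_of_ne_two h
  by_cases hrp : r = p
  · subst hrp
    simp only [h, ne_eq, not_true, false_and, or_false, iff_false]
    obtain ⟨y, l1, l2, l3, l4⟩ := H16.Eo.der_odd_minus r hQ h2 hn (by omega)
    intro H
    obtain ⟨W, l5, l6⟩ := H y l1 l2 l3
    exact k3.1 (l6.pl.1 (l4 W l5 (l6.symm.nd k1) (l6.finrank_eq.trans k2 ▸ hme)).1)
  have h0 := natCast_ne_zero (F := F) Fact.out hrp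
  obtain ⟨l1, l2⟩ := nd_even hQ h0 ho k1 k2 hme (by omega) (by omega) (e := True) (by simp [hn]) k3 hrΩ
    (ord_om hQ (by omega) ho)
  rw [hn, cc, ← hi, ← hc] at l1 l2
  simp only [h, hrp, two_lt_of_ne h, true_and, false_or, ne_eq, not_false_iff]
  exact Iff.trans ⟨l1, fun h => l2 h.2⟩ (ar93 hc (hi ▸ ord_pos h0) (by omega) (Nat.even_iff.1 hme))

end Cfsg.Agent.S5993
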