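import Mathlib
import Cfsg.Statements.S5996
import Cfsg.Agent.H16.Eo6

set_option autoImplicit false
open scoped MatrixGroups
open Cfsg

namespace Cfsg.Agent.S5996

open Module H28.El H10 H10.Form

/-- A necessary condition for every element of order p of PΩ⁺_n(q), q odd, to fix a hyperbolic `m`-space. Here `T = PΩ⁺_n(F)`, `n = 2d ≥ 8`, realised through `Ω⁺_n(q)`, the commutator subgroup of the isometry group of `Q = Σ xᵢyᵢ` over the field `F` with `q` elements; an element of `T` of prime order `r` is an element `x` of `Ω⁺_n(q)` with `x^r` scalar and `x` not scalar; `q` is odd; a nondegenerate `m`-space (even `m`) is a subspace on which the polar form of `Q` is nondegenerate; it is hyperbolic if it contains an `m/2`-dimensional subspace on which `Q` vanishes, elliptic otherwise. Let `m` be even with `2 ≤ m < n/2` and suppose `p` divides the number of hyperbolic `m`-spaces. If every element of `T` of order `p` fixes some hyperbolic `m`-space, then every partition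 of `n` into parts of size at most `p` in which every even part has even multiplicity contains (as a sub-multiset) a partition of `m` in which every even part has even multiplicity. -/
theorem result {F : Type*} [Field F] [Fintype F] {p : ℕ} [Fact p.Prime] [CharP F p] {q : ℕ} (hq : Fintype.card F = q) (hqodd : Odd q)
    (d m : ℕ) (hd : 4 ≤ d) (hm : 2 ≤ m) (hme : Even m) (hmd : m < d)
    (hpΩ : p ∣ Nat.card {W : Submodule F (Fin d ⊕ Fin d → F) // Module.finrank F ↥W = m ∧ Cfsg.Geo.IsNondegenerateOn (QuadraticMap.polar (Cfsg.quadFormPlus d F)) W ∧ Cfsg.Geo.IsPlusTypeOn (Cfsg.quadFormPlus d F) W}) :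
    (∀ x : GL (Fin d ⊕ Fin d) F, x ∈ Cfsg.Geo.omegaGL (Cfsg.quadFormPlus d F) →
      (∃ z : F, ((x ^ p : GL (Fin d ⊕ Fin d) F) : Matrix (Fin d ⊕ Fin d) (Fin d ⊕ Fin d) F) = z • (1 : Matrix (Fin d ⊕ Fin d) (Fin d ⊕ Fin d) F)) →
      (∀ z : F, (x : Matrix (Fin d ⊕ Fin d) (Fin d ⊕ Fin d) F) ≠ z • (1 : Matrix (Fin d ⊕ Fin d) (Fin d ⊕ Fin d) F)) →
      ∃ W : Submodule F (Fin d ⊕ Fin d → F), (Module.finrank F ↥W = m ∧ Cfsg.Geo.IsNondegenerateOn (QuadraticMap.polar (Cfsg.quadFormPlus d F)) W ∧ Cfsg.Geo.IsPlusTypeOn (Cfsg.quadFormPlus d F) W) ∧ W.map (Matrix.toLin' (x : Matrix (Fin d ⊕ Fin d) (Fin d ⊕ Fin d) F)) ≤ W) →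
    (∀ μ : Multiset ℕ, (∀ e ∈ μ, 0 < e ∧ e ≤ p) → (∀ e : ℕ, Even e → Even (μ.count e)) → μ.sum = 2 * d →
        ∃ ν : Multiset ℕ, ν ≤ μ ∧ ν.sum = m ∧ ∀ e : ℕ, Even e → Even (ν.count e)) := by
  subst hq
  haveI := H10.qPlus_nondeg (F := F) (m := d)
  have h2 := two_ne_of_odd hqodd
  have hQ := isQuad_ofQuad (qPlus d F)
  have hn : finrank F (Fin d ⊕ Fin d → F) = 2 * d := by simp; omega
  haveI := Module.nontrivial_of_finrank_pos (R := F) (hn ▸ (by omega : 0 < 2 * d))
  simp only [← H10.coe_qPlus, nd_q, pl_q, ← inv_iff]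
  intro H
  replace H := (pe_odd hQ.σ_eq ((Fact.out : p.Prime).odd_of_ne_two (by have := H16.Eo.three_le_char (p := p) h2; omega))
    (fun g => Om.isom) (fun y => H16.Eo.om_unip hQ h2 (by omega)) fun g ⟨W, h1, h3⟩ => ⟨W, h1, fun x hx => W.neg_mem (h3 x hx)⟩).1
    ((om_iff _ fun g => ∃ W : Submodule F _, (finrank F W = m ∧ (ofQuad (qPlus d F)).NondegOn W ∧
      Pl (ofQuad (qPlus d F)) W) ∧ H28.El.Inv g W).1 H)
  exact hn ▸ H16.Eo.part_quad hQ h2 (by omega) hme fun y h1 h3 h4 => (H y h1 h3 h4).imp fun _ => by tauto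

end Cfsg.Agent.S5996
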